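import Cfsg.Agent.Lib_H9_Tree
import Cfsg.Agent.Lib_H9_Cls23b

set_option autoImplicit false

namespace Cfsg.Agent.H9

open Cfsg
open scoped Pointwise

/-! ### pruning for elements commuting with a given one -/

def pruneC (X k W : ℕ) : Bool :=
  allBelow (fun i => !(bit (fmask k) i && bit (fmask k) (app X i)) ||
    Nat.beq (app W (app X i)) (app X (app W i))) 24

theorem pruneC_spec {X : ℕ} (hX : isPerm X = true) {g : Equiv.Perm GolayPt}
    (hc : g * permOf X = permOf X * g) {k W : ℕ}
    (hW : ∀ i < 24, (fmask k).testBit i = true → g (pt i) = pt (app W i) ∧ app W i < 24) :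
    pruneC X k W = true := by
  unfold pruneC
  rw [allBelow_iff]
  intro i hi
  rw [bit_eq, bit_eq]
  cases h1 : (fmask k).testBit i with
  | false => rfl
  | true =>
    cases h2 : (fmask k).testBit (app X i) with
    | false => rfl
    | true =>
      simp only [Bool.and_self, Bool.not_true, Bool.false_or]
      have e := congrArg (fun f => f (pt i)) hc
      simp only [Equiv.Perm.mul_apply] at e
      rw [permOf_pt hX hi, (hW _ (app_lt hX hi) h2).1, (hW i hi h1).1, permOf_pt hX (hW i hi h1).2] at e
      exact (beq_iff _ _).mpr (pt_injective (hW _ (app_lt hX hi) h2).2 (app_lt hX (hW i hi h1).2) e)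

def commW (W X : ℕ) : Bool := allBelow (fun i => Nat.beq (app W (app X i)) (app X (app W i))) 24

theorem commW_of {X W : ℕ} (hX : isPerm X = true) {g : Equiv.Perm GolayPt}
    (hc : g * permOf X = permOf X * g) (hW : Rep g W) : commW W X = true := by
  unfold commW
  rw [allBelow_iff]
  intro i hi
  have e := congrArg (fun f => f (pt i)) hc
  simp only [Equiv.Perm.mul_apply] at e
  rw [permOf_pt hX hi, (hW _ (app_lt hX hi)).1, (hW i hi).1, permOf_pt hX (hW i hi).2] at e
  exact (beq_iff _ _).mpr (pt_injective (hW _ (app_lt hX hi)).2 (app_lt hX (hW i hi).2) e)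

theorem comm_of_commW {X W : ℕ} (hX : isPerm X = true) (hW : isPerm W = true) (h : commW W X = true) :
    permOf W * permOf X = permOf X * permOf W := by
  ext p
  rw [← pt_idx p, Equiv.Perm.mul_apply, Equiv.Perm.mul_apply, permOf_pt hX (idx_lt p),
    permOf_pt hW (app_lt hX (idx_lt p)), permOf_pt hW (idx_lt p), permOf_pt hX (app_lt hW (idx_lt p)),
    (beq_iff _ _).mp ((allBelow_iff _ _).mp h _ (idx_lt p))]

/-- `W` is fixed point free -/
def fpfW (W : ℕ) : Bool := allBelow (fun i => !(Nat.beq (app W i) i)) 24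

theorem fpfW_of {W : ℕ} {g : Equiv.Perm GolayPt} (hf : ∀ p, g p ≠ p) (hW : Rep g W) : fpfW W = true := by
  unfold fpfW
  rw [allBelow_iff]
  intro i hi
  cases h : Nat.beq (app W i) i with
  | false => rfl
  | true =>
    exfalso
    apply hf (pt i)
    rw [(hW i hi).1, (beq_iff _ _).mp h]

/-- conjugation certificate: `h r = x h` -/
theorem conj_of_conjW {h r x : ℕ} (hh : isPerm h = true) (hr : isPerm r = true) (hx : isPerm x = true)
    (e : allBelow (fun i => Nat.beq (app h (app r i)) (app x (app h i))) 24 = true) :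
    permOf h * permOf r * (permOf h)⁻¹ = permOf x := by
  have : permOf h * permOf r = permOf x * permOf h := by
    ext p
    rw [← pt_idx p, Equiv.Perm.mul_apply, Equiv.Perm.mul_apply, permOf_pt hr (idx_lt p),
      permOf_pt hh (app_lt hr (idx_lt p)), permOf_pt hh (idx_lt p), permOf_pt hx (app_lt hh (idx_lt p)),
      (beq_iff _ _).mp ((allBelow_iff _ _).mp e _ (idx_lt p))]
  rw [this]; group

end Cfsg.Agent.H9
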