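import Cfsg.Agent.Lib_H9_Co0i

set_option autoImplicit false

namespace Cfsg.Agent.H9

open Cfsg
open scoped Pointwise

theorem u0_eq : ((v0L + rBL : leechLattice) : V) = dec pU := by
  have h : ∀ j < 24, decF fx2 j + decF rtB j = decF pU j := by decide +kernel
  ext p
  exact h _ (idx_lt p)

theorem x0_eq : ((v0L + rCL : leechLattice) : V) = 2 • dec pH := by
  have h : ∀ j < 24, decF fx2 j + decF rtC j = 2 * decF pH j := by decide +kernel
  ext p
  have := h _ (idx_lt p)
  simp only [Pi.smul_apply, nsmul_eq_mul, Nat.cast_ofNat]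
  exact this

open scoped Classical in
theorem count_dot (U c1 c2 c1' c2' : ℕ) (s : ℤ) (hc : (c1 : ℤ) - c2 = 1536 - 8 * sN U - s)
    (hc' : (c1' : ℤ) - c2' = 1536 - 8 * sN U - (-s)) :
    (Sh.filter (fun v => dotInt (dec U) v = s)).card = scan (dotIs U c1 c2) (dotIs U c1' c2') := by
  convert count_Sh (fun v => dotInt (dec U) v = s) (fun v => dotInt (dec U) v = -s)
    (fun x => by rw [dotInt_neg_right]; constructor <;> intro h <;> omega) _ _
    (dotIs_spec hc) (dotIs_spec hc')

open scoped Classical in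
theorem kk_u0 : kk ((v0L + rBL : leechLattice) : V) = 552 := by
  rw [← scanU, ← count_dot pU _ _ _ _ 24 (by decide +kernel) (by decide +kernel)]
  unfold kk
  apply congrArg Finset.card
  apply Finset.filter_congr
  intro v hv
  obtain ⟨h1, h2⟩ := mem_Sh.mp hv
  have hn : sqNorm ((v0L + rBL : leechLattice) : V) = 48 := by
    show sqNorm ((v0L : V) + (rBL : V)) = 48
    rw [sqNorm_add, norm_v0, norm_rB, dot_rB]; norm_num
  rw [mem_Sh, sqNorm_sub, hn, h2, ← u0_eq]
  constructor
  · intro h; omega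
  · intro h; exact ⟨leechLattice.sub_mem (v0L + rBL).2 h1, by omega⟩

theorem dotInt_two_smul (x y : V) : dotInt (2 • x) y = 2 * dotInt x y := by
  unfold dotInt
  rw [Finset.mul_sum]
  apply Finset.sum_congr rfl
  intro i _
  simp only [Pi.smul_apply, nsmul_eq_mul, Nat.cast_ofNat]
  ring

open scoped Classical in
theorem kk_x0 : kk ((v0L + rCL : leechLattice) : V) = 46 := by
  rw [← scanH, ← count_dot pH _ _ _ _ 16 (by decide +kernel) (by decide +kernel)]
  unfold kk
  apply congrArg Finset.card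
  apply Finset.filter_congr
  intro v hv
  obtain ⟨h1, h2⟩ := mem_Sh.mp hv
  have hn : sqNorm ((v0L + rCL : leechLattice) : V) = 64 := by
    show sqNorm ((v0L : V) + (rCL : V)) = 64
    rw [sqNorm_add, norm_v0, norm_rC, dot_rC]; norm_num
  have hd : dotInt ((v0L + rCL : leechLattice) : V) v = 2 * dotInt (dec pH) v := by
    rw [x0_eq, dotInt_two_smul]
  rw [mem_Sh, sqNorm_sub, hn, h2, hd]
  constructor
  · intro h; omega
  · intro h; exact ⟨leechLattice.sub_mem (v0L + rCL).2 h1, by omega⟩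

theorem trans3 (u : leechLattice) (hu : sqNorm (u : V) = 48) : ∃ g : Co0, g • (v0L + rBL) = u :=
  trans_sum (t := -8) (by norm_num) Y_all.2.1 S0395.result kk_u0
    (by rw [Y_all.2.2.2.2.1]) (by norm_num) u hu

theorem trans4 (u : leechLattice) (hu : sqNorm (u : V) = 64) : ∃ g : Co0, g • (v0L + rCL) = u :=
  trans_sum (t := 0) (by norm_num) Y_all.2.2.1 S0396.result kk_x0
    (by rw [Y_all.2.2.2.2.2.1]) (by norm_num) u hu

theorem kk3 (u : leechLattice) (hu : sqNorm (u : V) = 48) : kk (u : V) = 552 := by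
  obtain ⟨g, hg⟩ := trans3 u hu
  rw [← hg, kk_smul, kk_u0]

theorem trans33 (v w : leechLattice) (hv : sqNorm (v : V) = 48) (hw : sqNorm (w : V) = 48) :
    ∃ g : Co0, g • v = w := by
  obtain ⟨g, hg⟩ := trans3 v hv
  obtain ⟨g', hg'⟩ := trans3 w hw
  exact ⟨g' * g⁻¹, by rw [mul_smul, ← hg, inv_smul_smul, hg']⟩

theorem trans44 (v w : leechLattice) (hv : sqNorm (v : V) = 64) (hw : sqNorm (w : V) = 64) :
    ∃ g : Co0, g • v = w := by
  obtain ⟨g, hg⟩ := trans4 v hv
  obtain ⟨g', hg'⟩ := trans4 w hw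
  exact ⟨g' * g⁻¹, by rw [mul_smul, ← hg, inv_smul_smul, hg']⟩

end Cfsg.Agent.H9
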