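import Cfsg.Agent.Lib_H9_Orb2
import Cfsg.Agent.Lib_H9_Co0j

set_option autoImplicit false

namespace Cfsg.Agent.H9

open Cfsg
open scoped Pointwise

theorem tab_forall {L : List ℕ} {N : ℕ} (P : V → Prop) (p : ℕ → Bool) (hp : ∀ a, p a = true → P (dec a))
    (h : allB2 (fun i => p (vecOf (getE L i))) N = true) : ∀ y ∈ tabF L N, P y := by
  intro y hy
  obtain ⟨i, hi, rfl⟩ := Finset.mem_image.mp hy
  exact hp _ (allB2_spec h (Finset.mem_range.mp hi))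

/-- packed test for membership in `S3` -/
def inS3 (f1 f2 f3 : ℕ) (s1 s2 s3 : ℤ) (a : ℕ) : Bool :=
  inLF (decF a) && decide (nrmP a = 32) && decide (dotP f1 a = s1) && decide (dotP f2 a = s2) &&
    decide (dotP f3 a = s3)

theorem inS3_spec {f1 f2 f3 : ℕ} {s1 s2 s3 : ℤ} {a : ℕ} (h : inS3 f1 f2 f3 s1 s2 s3 a = true) :
    dec a ∈ S3 (dec f1) (dec f2) (dec f3) s1 s2 s3 := by
  unfold inS3 at h
  simp only [Bool.and_eq_true, decide_eq_true_iff] at h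
  obtain ⟨⟨⟨⟨h0, h1⟩, h2⟩, h3⟩, h4⟩ := h
  rw [mem_S3]
  exact ⟨⟨dec_mem h0, (sqNorm_dec a).trans h1⟩, (dotInt_dec _ _).trans h2, (dotInt_dec _ _).trans h3,
    (dotInt_dec _ _).trans h4⟩

theorem cfg2 {F1 F2 r : leechLattice} {s1 s2 : ℤ} {N : ℕ} {T : Finset V} (hT : T.card = N)
    (horb : ∀ y ∈ T, InOrb3 F1 F2 F2 r y) (hr : (r : V) ∈ S3 F1 F2 F2 s1 s2 s2)
    (hcount : (S3 (F1 : V) F2 F2 s1 s2 s2).card = N) (g0 : Co0) :
    {x : leechLattice | sqNorm (x : V) = 32 ∧ dotInt ((g0 • F1 : leechLattice) : V) (x : V) = s1 ∧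
      dotInt ((g0 • F2 : leechLattice) : V) (x : V) = s2}.ncard = N ∧
    ∀ x x' : leechLattice, (sqNorm (x : V) = 32 ∧ dotInt ((g0 • F1 : leechLattice) : V) (x : V) = s1 ∧
      dotInt ((g0 • F2 : leechLattice) : V) (x : V) = s2) →
      (sqNorm (x' : V) = 32 ∧ dotInt ((g0 • F1 : leechLattice) : V) (x' : V) = s1 ∧
      dotInt ((g0 • F2 : leechLattice) : V) (x' : V) = s2) →
      ∃ g : Co0, g • (g0 • F1) = g0 • F1 ∧ g • (g0 • F2) = g0 • F2 ∧ g • x = x' := by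
  obtain ⟨c, t⟩ := cfg_main hT horb hr hcount g0
  simp only [and_self] at c
  refine ⟨c, fun x x' hx hx' => ?_⟩
  obtain ⟨g, hg, e⟩ := t x x' ⟨hx.1, hx.2.1, hx.2.2, hx.2.2⟩ ⟨hx'.1, hx'.2.1, hx'.2.2, hx'.2.2⟩
  exact ⟨g, hg.1, hg.2.1, e⟩

theorem cfg1 {F r : leechLattice} {s : ℤ} {N : ℕ} {T : Finset V} (hT : T.card = N)
    (horb : ∀ y ∈ T, InOrb3 F F F r y) (hr : (r : V) ∈ S3 F F F s s s)
    (hcount : (S3 (F : V) F F s s s).card = N) (g0 : Co0) :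
    {x : leechLattice | sqNorm (x : V) = 32 ∧ dotInt ((g0 • F : leechLattice) : V) (x : V) = s}.ncard = N ∧
    ∀ x x' : leechLattice, (sqNorm (x : V) = 32 ∧ dotInt ((g0 • F : leechLattice) : V) (x : V) = s) →
      (sqNorm (x' : V) = 32 ∧ dotInt ((g0 • F : leechLattice) : V) (x' : V) = s) →
      ∃ g : Co0, g • (g0 • F) = g0 • F ∧ g • x = x' := by
  obtain ⟨c, t⟩ := cfg2 hT horb hr hcount g0
  simp only [and_self] at c
  refine ⟨c, fun x x' hx hx' => ?_⟩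
  obtain ⟨g, hg, _, e⟩ := t x x' ⟨hx.1, hx.2, hx.2⟩ ⟨hx'.1, hx'.2, hx'.2⟩
  exact ⟨g, hg, e⟩

theorem dotInt_comm (x y : V) : dotInt x y = dotInt y x := by
  unfold dotInt
  exact Finset.sum_congr rfl (fun i _ => mul_comm _ _)

theorem dotInt_add_right (x y z : V) : dotInt x (y + z) = dotInt x y + dotInt x z := by
  unfold dotInt
  rw [← Finset.sum_add_distrib]
  exact Finset.sum_congr rfl (fun i _ => by simp only [Pi.add_apply]; ring)

theorem dotInt_sub_right (x y z : V) : dotInt x (y - z) = dotInt x y - dotInt x z := by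
  unfold dotInt
  rw [← Finset.sum_sub_distrib]
  exact Finset.sum_congr rfl (fun i _ => by simp only [Pi.sub_apply]; ring)

end Cfsg.Agent.H9
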