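import Cfsg.Agent.Lib_H9_CgD

set_option autoImplicit false

namespace Cfsg.Agent.H9

set_option maxRecDepth 100000 in
set_option maxHeartbeats 0 in
theorem scanD : scan (dot3 faD 0 208 fbD 0 208 fcD 0 208) (dot3 faD 0 240 fbD 0 240 fcD 0 240) = 11178 := by decide +kernel

theorem cntD : (S3 (dec faD) (dec fbD) (dec fcD) (-16) (-16) (-16)).card = 11178 := by
  rw [← scanD]
  exact count_S3 (by decide +kernel) (by decide +kernel) (by decide +kernel) (by decide +kernel)
    (by decide +kernel) (by decide +kernel)

end Cfsg.Agent.H9
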