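import Cfsg.Agent.Lib_H9_Cfg
import Cfsg.Agent.Lib_H9_CtD
import Cfsg.Agent.Lib_H9_CsD

set_option autoImplicit false

namespace Cfsg.Agent.H9

open Cfsg
open scoped Pointwise

def UsL : leechLattice := ⟨dec faD, dec_mem (by decide +kernel)⟩
def XsL : leechLattice := ⟨dec rtD, dec_mem (by decide +kernel)⟩

theorem norm_Us : sqNorm (UsL : V) = 48 := (sqNorm_dec _).trans (by decide +kernel)

theorem XsL_mem : (XsL : V) ∈ S3 (UsL : V) UsL UsL (-16) (-16) (-16) :=
  inS3_spec (f1 := faD) (f2 := faD) (f3 := faD) (by decide +kernel)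

theorem mainD (u : leechLattice) (hu : sqNorm (u : V) = 48) :
    {x : leechLattice | sqNorm (x : V) = 32 ∧ dotInt (u : V) (x : V) = -16}.ncard = 11178 ∧
    ∀ x x' : leechLattice, (sqNorm (x : V) = 32 ∧ dotInt (u : V) (x : V) = -16) →
      (sqNorm (x' : V) = 32 ∧ dotInt (u : V) (x' : V) = -16) → ∃ g : Co0, g • u = u ∧ g • x = x' := by
  obtain ⟨g0, rfl⟩ := trans33 UsL u norm_Us hu
  exact cfg1 (tab_cardg tbD_ok) (std_cfg rfl rfl rfl rfl gensD_ok tbD_ok) XsL_mem cntD g0

/-- transitivity on pairs of norm 48 vectors with dot product -32 -/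
theorem pair48 (v w v' w' : leechLattice) (hv : sqNorm (v : V) = 48) (hw : sqNorm (w : V) = 48)
    (hvw : dotInt (v : V) (w : V) = -32) (hv' : sqNorm (v' : V) = 48) (hw' : sqNorm (w' : V) = 48)
    (hvw' : dotInt (v' : V) (w' : V) = -32) : ∃ g : Co0, g • v = v' ∧ g • w = w' := by
  obtain ⟨g1, hg1⟩ := trans33 v v' hv hv'
  have key : ∀ a b : leechLattice, sqNorm (a : V) = 48 → sqNorm (b : V) = 48 → dotInt (a : V) (b : V) = -32 →
      sqNorm ((-a - b : leechLattice) : V) = 32 ∧ dotInt (a : V) ((-a - b : leechLattice) : V) = -16 := by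
    intro a b ha hb hab
    have e : ((-a - b : leechLattice) : V) = -((a : V) + (b : V)) := by
      show -(a : V) - (b : V) = _
      abel
    rw [e, sqNorm_neg, sqNorm_add, dotInt_neg_right, dotInt_add_right, dotInt_self, ha, hb, hab]
    constructor <;> norm_num
  have h1 := key v w hv hw hvw
  have h2 := key v' w' hv' hw' hvw'
  have h1' : sqNorm ((g1 • (-v - w) : leechLattice) : V) = 32 ∧
      dotInt (v' : V) ((g1 • (-v - w) : leechLattice) : V) = -16 :=
    ⟨by rw [Co0_norm]; exact h1.1, by rw [← hg1, Co0_dot]; exact h1.2⟩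
  obtain ⟨g2, f2, e2⟩ := (mainD v' hv').2 _ _ h1' h2
  refine ⟨g2 * g1, by rw [mul_smul, hg1, f2], ?_⟩
  have hw2 : w = -v - (-v - w) := by abel
  rw [mul_smul]
  conv_lhs => rw [hw2]
  rw [Co0_sub, Co0_sub, e2, Co0_neg, Co0_neg, hg1, f2]
  abel

end Cfsg.Agent.H9
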