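import Cfsg.Agent.Lib_H9_CgE

set_option autoImplicit false

namespace Cfsg.Agent.H9

set_option maxRecDepth 100000 in
set_option maxHeartbeats 0 in
theorem scanE : scan (dot3 faE 0 248 fbE 0 80 fcE 0 80) (dot3 faE 0 200 fbE 0 48 fcE 0 48) = 275 := by decide +kernel

theorem cntE : (S3 (dec faE) (dec fbE) (dec fcE) (24) (16) (16)).card = 275 := by
  rw [← scanE]
  exact count_S3 (by decide +kernel) (by decide +kernel) (by decide +kernel) (by decide +kernel)
    (by decide +kernel) (by decide +kernel)

end Cfsg.Agent.H9
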