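import Cfsg.Agent.Lib_H9_Cfg
import Cfsg.Agent.Lib_H9_CtE
import Cfsg.Agent.Lib_H9_CsE

set_option autoImplicit false

namespace Cfsg.Agent.H9

open Cfsg
open scoped Pointwise

def UsE : leechLattice := ⟨dec faE, dec_mem (by decide +kernel)⟩
def VpL : leechLattice := ⟨dec fbE, dec_mem (by decide +kernel)⟩
def X1L : leechLattice := ⟨dec rtE, dec_mem (by decide +kernel)⟩

theorem norm_UsE : sqNorm (UsE : V) = 48 := (sqNorm_dec _).trans (by decide +kernel)
theorem norm_Vp : sqNorm (VpL : V) = 32 := (sqNorm_dec _).trans (by decide +kernel)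
theorem dot_UsVp : dotInt (UsE : V) (VpL : V) = 24 := (dotInt_dec _ _).trans (by decide +kernel)

theorem X1L_mem : (X1L : V) ∈ S3 (UsE : V) VpL VpL 24 16 16 :=
  inS3_spec (f1 := faE) (f2 := fbE) (f3 := fbE) (by decide +kernel)

/-- transitivity on pairs (u, v) with u of norm 48 and v, u - v minimal -/
theorem pair32 (u v u' v' : leechLattice) (hu : sqNorm (u : V) = 48) (hv : sqNorm (v : V) = 32)
    (huv : dotInt (u : V) (v : V) = 24) (hu' : sqNorm (u' : V) = 48) (hv' : sqNorm (v' : V) = 32)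
    (huv' : dotInt (u' : V) (v' : V) = 24) : ∃ g : Co0, g • u = u' ∧ g • v = v' := by
  have key : ∀ a b : leechLattice, sqNorm (a : V) = 48 → sqNorm (b : V) = 32 → dotInt (a : V) (b : V) = 24 →
      sqNorm ((a - b : leechLattice) : V) = 32 ∧ dotInt (b : V) ((a - b : leechLattice) : V) = -8 := by
    intro a b ha hb hab
    have e : ((a - b : leechLattice) : V) = (a : V) - (b : V) := rfl
    rw [e, sqNorm_sub, dotInt_sub_right, dotInt_self, dotInt_comm (b : V) (a : V), ha, hb, hab]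
    constructor <;> norm_num
  obtain ⟨n1, d1⟩ := key u v hu hv huv
  obtain ⟨n2, d2⟩ := key u' v' hu' hv' huv'
  obtain ⟨ga, a1, a2⟩ := pair_trans Y_all.2.1 v (u - v) hv n1 d1
  obtain ⟨gb, b1, b2⟩ := pair_trans Y_all.2.1 v' (u' - v') hv' n2 d2
  have hv2 : (gb * ga⁻¹) • v = v' := by rw [mul_smul, ← a1, inv_smul_smul, b1]
  refine ⟨gb * ga⁻¹, ?_, hv2⟩
  have hd : (gb * ga⁻¹) • (u - v) = u' - v' := by rw [mul_smul, ← a2, inv_smul_smul, b2]
  have hu2 : u = v + (u - v) := by abel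
  conv_lhs => rw [hu2]
  rw [Co0_add, hv2, hd]
  abel

theorem tabE_orb : ∀ y ∈ tabF tbE 275, InOrb3 UsE VpL VpL X1L y :=
  std_cfg rfl rfl rfl rfl gensE_ok tbE_ok

theorem tabE_eq : tabF tbE 275 = S3 (UsE : V) VpL VpL 24 16 16 :=
  Finset.eq_of_subset_of_card_le (fun y hy => (tabE_orb y hy).mem_S3 X1L_mem)
    (by rw [tab_cardg tbE_ok]; exact cntE.le)

theorem mainE (u v : leechLattice) (hu : sqNorm (u : V) = 48) (hv : sqNorm (v : V) = 32)
    (huv : dotInt (u : V) (v : V) = 24) :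
    {x : leechLattice | sqNorm (x : V) = 32 ∧ dotInt (u : V) (x : V) = 24 ∧ dotInt (v : V) (x : V) = 16}.ncard
      = 275 ∧
    ∀ x x' : leechLattice, (sqNorm (x : V) = 32 ∧ dotInt (u : V) (x : V) = 24 ∧ dotInt (v : V) (x : V) = 16) →
      (sqNorm (x' : V) = 32 ∧ dotInt (u : V) (x' : V) = 24 ∧ dotInt (v : V) (x' : V) = 16) →
      ∃ g : Co0, g • u = u ∧ g • v = v ∧ g • x = x' := by
  obtain ⟨g0, rfl, rfl⟩ := pair32 UsE VpL u v norm_UsE norm_Vp dot_UsVp hu hv huv
  exact cfg2 (tab_cardg tbE_ok) tabE_orb X1L_mem cntE g0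

/-- rewriting the condition `u - x` minimal -/
theorem sub_min_iff {u x : V} (hu : sqNorm u = 48) (hx : sqNorm x = 32) :
    sqNorm (u - x) = 32 ↔ dotInt u x = 24 := by
  rw [sqNorm_sub, hu, hx]
  constructor <;> intro h <;> omega

end Cfsg.Agent.H9
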