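import Cfsg.Agent.Lib_H9_CgF

set_option autoImplicit false

namespace Cfsg.Agent.H9

set_option maxRecDepth 100000 in
set_option maxHeartbeats 0 in
theorem scanF : scan (dot3 faF 0 248 fbF 248 0 fcF 248 0) (dot3 faF 0 200 fbF 200 0 fcF 200 0) = 100 := by decide +kernel

theorem cntF : (S3 (dec faF) (dec fbF) (dec fcF) (24) (-24) (-24)).card = 100 := by
  rw [← scanF]
  exact count_S3 (by decide +kernel) (by decide +kernel) (by decide +kernel) (by decide +kernel)
    (by decide +kernel) (by decide +kernel)

end Cfsg.Agent.H9
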