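import Cfsg.Agent.Lib_H9_CfgD
import Cfsg.Agent.Lib_H9_CtF
import Cfsg.Agent.Lib_H9_CsF

set_option autoImplicit false

namespace Cfsg.Agent.H9

open Cfsg
open scoped Pointwise

def UsF : leechLattice := ⟨dec faF, dec_mem (by decide +kernel)⟩
def WsL : leechLattice := ⟨dec fbF, dec_mem (by decide +kernel)⟩
def X2L : leechLattice := ⟨dec rtF, dec_mem (by decide +kernel)⟩

theorem norm_UsF : sqNorm (UsF : V) = 48 := (sqNorm_dec _).trans (by decide +kernel)
theorem norm_Ws : sqNorm (WsL : V) = 48 := (sqNorm_dec _).trans (by decide +kernel)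
theorem dot_UsWs : dotInt (UsF : V) (WsL : V) = -32 := (dotInt_dec _ _).trans (by decide +kernel)

theorem X2L_mem : (X2L : V) ∈ S3 (UsF : V) WsL WsL 24 (-24) (-24) :=
  inS3_spec (f1 := faF) (f2 := fbF) (f3 := fbF) (by decide +kernel)

theorem tabF_orb : ∀ y ∈ tabF tbF 100, InOrb3 UsF WsL WsL X2L y :=
  std_cfg rfl rfl rfl rfl gensF_ok tbF_ok

theorem tabF_eq : tabF tbF 100 = S3 (UsF : V) WsL WsL 24 (-24) (-24) :=
  Finset.eq_of_subset_of_card_le (fun y hy => (tabF_orb y hy).mem_S3 X2L_mem)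
    (by rw [tab_cardg tbF_ok]; exact cntF.le)

theorem mainF (v w : leechLattice) (hv : sqNorm (v : V) = 48) (hw : sqNorm (w : V) = 48)
    (hvw : dotInt (v : V) (w : V) = -32) :
    {x : leechLattice | sqNorm (x : V) = 32 ∧ dotInt (v : V) (x : V) = 24 ∧ dotInt (w : V) (x : V) = -24}.ncard
      = 100 ∧
    ∀ x x' : leechLattice, (sqNorm (x : V) = 32 ∧ dotInt (v : V) (x : V) = 24 ∧ dotInt (w : V) (x : V) = -24) →
      (sqNorm (x' : V) = 32 ∧ dotInt (v : V) (x' : V) = 24 ∧ dotInt (w : V) (x' : V) = -24) →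
      ∃ g : Co0, g • v = v ∧ g • w = w ∧ g • x = x' := by
  obtain ⟨g0, rfl, rfl⟩ := pair48 UsF WsL v w norm_UsF norm_Ws dot_UsWs hv hw hvw
  exact cfg2 (tab_cardg tbF_ok) tabF_orb X2L_mem cntF g0

end Cfsg.Agent.H9
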