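import Cfsg.Agent.Lib_H9_CfgE
import Cfsg.Agent.Lib_H9_CtG1
import Cfsg.Agent.Lib_H9_CtG2

set_option autoImplicit false

namespace Cfsg.Agent.H9

open Cfsg
open scoped Pointwise

def RG1L : leechLattice := ⟨dec rtG1, dec_mem (by decide +kernel)⟩

theorem RG1L_mem : (RG1L : V) ∈ S3 (UsE : V) VpL X1L (24) (16) (8) :=
  inS3_spec (f1 := faG) (f2 := fbG) (f3 := fcG) (by decide +kernel)

theorem cntG1 : (S3 (UsE : V) VpL (X1L : V) (24) (16) (8)).card = 112 := by
  have h := count_subS3 tbE_ok tabE_eq (f3 := rtE) (a3 := 0) (b3 := 72) (s3 := 8)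
    (by decide +kernel)
  exact h.trans (by decide +kernel)

theorem tabG1_orb : ∀ y ∈ tabF tbG1 112, InOrb3 UsE VpL X1L RG1L y :=
  std_cfg rfl rfl rfl rfl gensG_ok tbG1_ok

def RG2L : leechLattice := ⟨dec rtG2, dec_mem (by decide +kernel)⟩

theorem RG2L_mem : (RG2L : V) ∈ S3 (UsE : V) VpL X1L (24) (16) (16) :=
  inS3_spec (f1 := faG) (f2 := fbG) (f3 := fcG) (by decide +kernel)

theorem cntG2 : (S3 (UsE : V) VpL (X1L : V) (24) (16) (16)).card = 162 := by
  have h := count_subS3 tbE_ok tabE_eq (f3 := rtE) (a3 := 0) (b3 := 80) (s3 := 16)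
    (by decide +kernel)
  exact h.trans (by decide +kernel)

theorem tabG2_orb : ∀ y ∈ tabF tbG2 162, InOrb3 UsE VpL X1L RG2L y :=
  std_cfg rfl rfl rfl rfl gensG_ok tbG2_ok

theorem dotsG : ∀ y ∈ S3 (UsE : V) VpL VpL (24) (16) (16),
    dotInt (X1L : V) y = 8 ∨ dotInt (X1L : V) y = 16 ∨ dotInt (X1L : V) y = 32 := by
  rw [← tabE_eq]
  refine tab_forall _ (fun a => dotIs rtE 0 72 a || (dotIs rtE 0 80 a ||
    dotIs rtE 0 96 a)) ?_ (by decide +kernel)
  intro a ha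
  rw [Bool.or_eq_true, Bool.or_eq_true, dotIs_spec (s := 8) (by decide +kernel),
    dotIs_spec (s := 16) (by decide +kernel), dotIs_spec (s := 32) (by decide +kernel)] at ha
  exact ha

end Cfsg.Agent.H9
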