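import Cfsg.Agent.Lib_H9_CgH

set_option autoImplicit false

namespace Cfsg.Agent.H9

def tbH10 : ℕ := 30103641968821316085606580562169945305666125781736030214979604101700238369131929014909793634026726700603669360817778073165505046812825858338001132646644520753864458516500514601499581839063175338643682256609757092794680435915528327592037070479934471254801778863654322312464055693644678092443951637325179105583873452201272535794023488285297176464598807753178016806206111965387613513706745665750607773159983517570507969919351059145183750311047948184544726378446225590586691910426448305376478036114402062726551543144759053648113826540356120651933368055416068677899985227665458020104210434759246702952972055666798655270981251498798870618077590878859623810131846952032301097319286987603633936780657946188937868868122012465612911712549372600842008935330880581995380075796898994522039235267347763631547403781097013928300364331896831139898883292209085415443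

def tbH1 : List ℕ := [tbH10]

def rtH1 : ℕ := 47536897508558602556126108057

set_option maxRecDepth 100000 in
set_option maxHeartbeats 0 in
theorem tbH1_ok : tblOKg (hstep gTH msH) tbH1 rtH1 22 = true := by decide +kernel

end Cfsg.Agent.H9
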