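import Cfsg.Agent.Lib_H9_CgH

set_option autoImplicit false

namespace Cfsg.Agent.H9

def tbH20 : ℕ := 5963823731797890000601223355799312422794390008602170497060750786347989456403435696814825374965621438194180898761810313382634127627390038539652523809350184897030354262802033930406428485213408962049675899371775590106761777790695037358430715116108831765142720923874299651939748915833890423150629137045666464005186451742790056533628775588088340901391624420926765843428270359831170354127291363386672944248797502937126993017806350039424338143380130282734884871711633850389726523804031586274352313043702386251928263273991629704053851765256965425432555991255011086113292643237873193958054973189175259071767836696179021314308589077584713758675274364035383506786473543866296921742115758760531451003492205551551250652436941999520536837780017901614718677013564843446705491422847998064051885258226424035503410752770211376039745072922042514498119987970207161188604756241958084339967677833900207182416883149816722632187497696165995123275839825566294863743020035449206499977188971087197204834695572841874168865199621698852374188683155816446322823981816770887542024605440054391536070405777344770753942790206857499691824091647513199573679617200286671764862884292534739692980243147382186337040969017911502752004126865936644157048348846145935344985282013987621317965289106420784866534907794465615418472622729520209250000966087576760270587738308962628328125692244616911135463366030628826102457830068001811862579610250745330461484341123193373574495865120806194475649788262152618295645389069638863843907927330963652186469790141765325290295709357327345245928694850959046995283261094653410479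96974252763453385198176574675614399540993052397619408419578558854204208919379082662367537377608163985043033549883385855380640008393547453994736691035837787481941585477523702054293828272086684244473383624995019260276118034299889121879910011816936400694787244026188634355321987318510250115366954151406509890406520880979260061468115453410781472322092552855161514587123435780075514644147355889870207622910770640769578768749847960777587682506288145129085616300541855752240108999715549795821613561685278355022007666403293818895463766104551544118132268596312472134311998533059852784949317352838406086151842007033408451689578666502706780201101693023384112741292803756732519839000350044968329480932425782970695012809666419244320961999730104508271906417363124616219703006314354997545336872383525643414853240665195857574258489221433374567740647281487869793130578818153789052353501833756970787440672895242173663449524165940603404859102040330812804874429669583276984987528685422937182639715229779633723037603049494020791591508021403395103541356194084237570176736345806298825310986537605685535390664076016156168650008253282050876965372531665244083581250912137416901820885851952694677338099386143750235636561601460015848906220348800301038862364533666448585969131139215060943005577770886230393322096717846667063587725029409779938833116030389041010204578665533415178386170902919348959529415036721779528210645818408982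

def tbH2 : List ℕ := [tbH20]

def rtH2 : ℕ := 52158549803517142940435130538

set_option maxRecDepth 100000 in
set_option maxHeartbeats 0 in
theorem tbH2_ok : tblOKg (hstep gTH msH) tbH2 rtH2 77 = true := by decide +kernel

end Cfsg.Agent.H9
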