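import Cfsg.Agent.Lib_H9_CfgF
import Cfsg.Agent.Lib_H9_CtH1
import Cfsg.Agent.Lib_H9_CtH2

set_option autoImplicit false

namespace Cfsg.Agent.H9

open Cfsg
open scoped Pointwise

def RH1L : leechLattice := ⟨dec rtH1, dec_mem (by decide +kernel)⟩

theorem RH1L_mem : (RH1L : V) ∈ S3 (UsF : V) WsL X2L (24) (-24) (8) :=
  inS3_spec (f1 := faH) (f2 := fbH) (f3 := fcH) (by decide +kernel)

theorem cntH1 : (S3 (UsF : V) WsL (X2L : V) (24) (-24) (8)).card = 22 := by
  have h := count_subS3 tbF_ok tabF_eq (f3 := rtF) (a3 := 0) (b3 := 72) (s3 := 8)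
    (by decide +kernel)
  exact h.trans (by decide +kernel)

theorem tabH1_orb : ∀ y ∈ tabF tbH1 22, InOrb3 UsF WsL X2L RH1L y :=
  std_cfg rfl rfl rfl rfl gensH_ok tbH1_ok

def RH2L : leechLattice := ⟨dec rtH2, dec_mem (by decide +kernel)⟩

theorem RH2L_mem : (RH2L : V) ∈ S3 (UsF : V) WsL X2L (24) (-24) (16) :=
  inS3_spec (f1 := faH) (f2 := fbH) (f3 := fcH) (by decide +kernel)

theorem cntH2 : (S3 (UsF : V) WsL (X2L : V) (24) (-24) (16)).card = 77 := by
  have h := count_subS3 tbF_ok tabF_eq (f3 := rtF) (a3 := 0) (b3 := 80) (s3 := 16)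
    (by decide +kernel)
  exact h.trans (by decide +kernel)

theorem tabH2_orb : ∀ y ∈ tabF tbH2 77, InOrb3 UsF WsL X2L RH2L y :=
  std_cfg rfl rfl rfl rfl gensH_ok tbH2_ok

theorem dotsH : ∀ y ∈ S3 (UsF : V) WsL WsL (24) (-24) (-24),
    dotInt (X2L : V) y = 8 ∨ dotInt (X2L : V) y = 16 ∨ dotInt (X2L : V) y = 32 := by
  rw [← tabF_eq]
  refine tab_forall _ (fun a => dotIs rtF 0 72 a || (dotIs rtF 0 80 a ||
    dotIs rtF 0 96 a)) ?_ (by decide +kernel)
  intro a ha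
  rw [Bool.or_eq_true, Bool.or_eq_true, dotIs_spec (s := 8) (by decide +kernel),
    dotIs_spec (s := 16) (by decide +kernel), dotIs_spec (s := 32) (by decide +kernel)] at ha
  exact ha

end Cfsg.Agent.H9
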