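import Cfsg.Agent.Lib_H9_CfgD
import Cfsg.Agent.Lib_H9_CtK1
import Cfsg.Agent.Lib_H9_CtK2
import Cfsg.Agent.Lib_H9_CtK3
import Cfsg.Agent.Lib_H9_CtK4

set_option autoImplicit false

namespace Cfsg.Agent.H9

open Cfsg
open scoped Pointwise

theorem tabD_orb : ∀ y ∈ tabF tbD 11178, InOrb3 UsL UsL UsL XsL y :=
  std_cfg rfl rfl rfl rfl gensD_ok tbD_ok

theorem tabD_eq : tabF tbD 11178 = S3 (UsL : V) UsL UsL (-16) (-16) (-16) :=
  Finset.eq_of_subset_of_card_le (fun y hy => (tabD_orb y hy).mem_S3 XsL_mem)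
    (by rw [tab_cardg tbD_ok]; exact cntD.le)

def RK1L : leechLattice := ⟨dec rtK1, dec_mem (by decide +kernel)⟩

theorem RK1L_mem : (RK1L : V) ∈ S3 (UsL : V) UsL XsL (-16) (-16) (-8) :=
  inS3_spec (f1 := faK) (f2 := fbK) (f3 := fcK) (by decide +kernel)

set_option maxRecDepth 100000 in
theorem cntK1 : (S3 (UsL : V) UsL (XsL : V) (-16) (-16) (-8)).card = 352 := by
  have h := count_subS3 tbD_ok tabD_eq (f3 := rtD) (a3 := 8) (b3 := 0) (s3 := -8)
    (by decide +kernel)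
  exact h.trans (by decide +kernel)

theorem tabK1_orb : ∀ y ∈ tabF tbK1 352, InOrb3 UsL UsL XsL RK1L y :=
  std_cfg rfl rfl rfl rfl gensK_ok tbK1_ok

def RK2L : leechLattice := ⟨dec rtK2, dec_mem (by decide +kernel)⟩

theorem RK2L_mem : (RK2L : V) ∈ S3 (UsL : V) UsL XsL (-16) (-16) (16) :=
  inS3_spec (f1 := faK) (f2 := fbK) (f3 := fcK) (by decide +kernel)

set_option maxRecDepth 100000 in
theorem cntK2 : (S3 (UsL : V) UsL (XsL : V) (-16) (-16) (16)).card = 1100 := by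
  have h := count_subS3 tbD_ok tabD_eq (f3 := rtD) (a3 := 0) (b3 := 16) (s3 := 16)
    (by decide +kernel)
  exact h.trans (by decide +kernel)

theorem tabK2_orb : ∀ y ∈ tabF tbK2 1100, InOrb3 UsL UsL XsL RK2L y :=
  std_cfg rfl rfl rfl rfl gensK_ok tbK2_ok

def RK3L : leechLattice := ⟨dec rtK3, dec_mem (by decide +kernel)⟩

theorem RK3L_mem : (RK3L : V) ∈ S3 (UsL : V) UsL XsL (-16) (-16) (0) :=
  inS3_spec (f1 := faK) (f2 := fbK) (f3 := fcK) (by decide +kernel)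

set_option maxRecDepth 100000 in
theorem cntK3 : (S3 (UsL : V) UsL (XsL : V) (-16) (-16) (0)).card = 4125 := by
  have h := count_subS3 tbD_ok tabD_eq (f3 := rtD) (a3 := 0) (b3 := 0) (s3 := 0)
    (by decide +kernel)
  exact h.trans (by decide +kernel)

theorem tabK3_orb : ∀ y ∈ tabF tbK3 4125, InOrb3 UsL UsL XsL RK3L y :=
  std_cfg rfl rfl rfl rfl gensK_ok tbK3_ok

def RK4L : leechLattice := ⟨dec rtK4, dec_mem (by decide +kernel)⟩

theorem RK4L_mem : (RK4L : V) ∈ S3 (UsL : V) UsL XsL (-16) (-16) (8) :=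
  inS3_spec (f1 := faK) (f2 := fbK) (f3 := fcK) (by decide +kernel)

set_option maxRecDepth 100000 in
theorem cntK4 : (S3 (UsL : V) UsL (XsL : V) (-16) (-16) (8)).card = 5600 := by
  have h := count_subS3 tbD_ok tabD_eq (f3 := rtD) (a3 := 0) (b3 := 8) (s3 := 8)
    (by decide +kernel)
  exact h.trans (by decide +kernel)

theorem tabK4_orb : ∀ y ∈ tabF tbK4 5600, InOrb3 UsL UsL XsL RK4L y :=
  std_cfg rfl rfl rfl rfl gensK_ok tbK4_ok

set_option maxRecDepth 100000 in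
theorem dotsK : ∀ y ∈ S3 (UsL : V) UsL UsL (-16) (-16) (-16),
    dotInt (XsL : V) y = -8 ∨ dotInt (XsL : V) y = 16 ∨ dotInt (XsL : V) y = 0 ∨ dotInt (XsL : V) y = 8 ∨
      dotInt (XsL : V) y = 32 := by
  rw [← tabD_eq]
  refine tab_forall _ (fun a => dotIs rtD 8 0 a || (dotIs rtD 0 16 a ||
    (dotIs rtD 0 0 a || (dotIs rtD 0 8 a || dotIs rtD 0 32 a)))) ?_
    (by decide +kernel)
  intro a ha
  rw [Bool.or_eq_true, Bool.or_eq_true, Bool.or_eq_true, Bool.or_eq_true,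
    dotIs_spec (s := -8) (by decide +kernel), dotIs_spec (s := 16) (by decide +kernel),
    dotIs_spec (s := 0) (by decide +kernel), dotIs_spec (s := 8) (by decide +kernel),
    dotIs_spec (s := 32) (by decide +kernel)] at ha
  exact ha

end Cfsg.Agent.H9
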