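import Cfsg.Agent.Lib_H9_CgM

set_option autoImplicit false

namespace Cfsg.Agent.H9

set_option maxRecDepth 100000 in
set_option maxHeartbeats 0 in
theorem scanM : scan (dot3 faM 0 64 fbM 0 176 fcM 0 176) (dot3 faM 0 64 fbM 0 144 fcM 0 144) = 2025 := by decide +kernel

theorem cntM : (S3 (dec faM) (dec fbM) (dec fcM) (0) (16) (16)).card = 2025 := by
  rw [← scanM]
  exact count_S3 (by decide +kernel) (by decide +kernel) (by decide +kernel) (by decide +kernel)
    (by decide +kernel) (by decide +kernel)

end Cfsg.Agent.H9
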