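import Cfsg.Agent.Lib_H9_Cfg
import Cfsg.Agent.Lib_H9_CtM
import Cfsg.Agent.Lib_H9_CsM
import Cfsg.Agent.Lib_H9_CtN1
import Cfsg.Agent.Lib_H9_CtN2
import Cfsg.Agent.Lib_H9_CtN3

set_option autoImplicit false

namespace Cfsg.Agent.H9

open Cfsg
open scoped Pointwise

def VpM : leechLattice := ⟨dec faM, dec_mem (by decide +kernel)⟩
def WpM : leechLattice := ⟨dec fbM, dec_mem (by decide +kernel)⟩
def X3L : leechLattice := ⟨dec rtM, dec_mem (by decide +kernel)⟩

theorem norm_VpM : sqNorm (VpM : V) = 32 := (sqNorm_dec _).trans (by decide +kernel)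
theorem norm_WpM : sqNorm (WpM : V) = 32 := (sqNorm_dec _).trans (by decide +kernel)
theorem dot_VpWp : dotInt (VpM : V) (WpM : V) = -8 := (dotInt_dec _ _).trans (by decide +kernel)

theorem X3L_mem : (X3L : V) ∈ S3 (VpM : V) WpM WpM 0 16 16 :=
  inS3_spec (f1 := faM) (f2 := fbM) (f3 := fbM) (by decide +kernel)

theorem tabM_orb : ∀ y ∈ tabF tbM 2025, InOrb3 VpM WpM WpM X3L y :=
  std_cfg rfl rfl rfl rfl gensM_ok tbM_ok

theorem tabM_eq : tabF tbM 2025 = S3 (VpM : V) WpM WpM 0 16 16 :=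
  Finset.eq_of_subset_of_card_le (fun y hy => (tabM_orb y hy).mem_S3 X3L_mem)
    (by rw [tab_cardg tbM_ok]; exact cntM.le)

def RN1L : leechLattice := ⟨dec rtN1, dec_mem (by decide +kernel)⟩

theorem RN1L_mem : (RN1L : V) ∈ S3 (VpM : V) WpM X3L 0 16 (0) :=
  inS3_spec (f1 := faN) (f2 := fbN) (f3 := fcN) (by decide +kernel)

set_option maxRecDepth 100000 in
theorem cntN1 : (S3 (VpM : V) WpM (X3L : V) 0 16 (0)).card = 330 := by
  have h := count_subS3 tbM_ok tabM_eq (f3 := rtM) (a3 := 0) (b3 := 0) (s3 := 0)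
    (by decide +kernel)
  exact h.trans (by decide +kernel)

theorem tabN1_orb : ∀ y ∈ tabF tbN1 330, InOrb3 VpM WpM X3L RN1L y :=
  std_cfg rfl rfl rfl rfl gensN_ok tbN1_ok

def RN2L : leechLattice := ⟨dec rtN2, dec_mem (by decide +kernel)⟩

theorem RN2L_mem : (RN2L : V) ∈ S3 (VpM : V) WpM X3L 0 16 (16) :=
  inS3_spec (f1 := faN) (f2 := fbN) (f3 := fcN) (by decide +kernel)

set_option maxRecDepth 100000 in
theorem cntN2 : (S3 (VpM : V) WpM (X3L : V) 0 16 (16)).card = 462 := by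
  have h := count_subS3 tbM_ok tabM_eq (f3 := rtM) (a3 := 0) (b3 := 16) (s3 := 16)
    (by decide +kernel)
  exact h.trans (by decide +kernel)

theorem tabN2_orb : ∀ y ∈ tabF tbN2 462, InOrb3 VpM WpM X3L RN2L y :=
  std_cfg rfl rfl rfl rfl gensN_ok tbN2_ok

def RN3L : leechLattice := ⟨dec rtN3, dec_mem (by decide +kernel)⟩

theorem RN3L_mem : (RN3L : V) ∈ S3 (VpM : V) WpM X3L 0 16 (8) :=
  inS3_spec (f1 := faN) (f2 := fbN) (f3 := fcN) (by decide +kernel)

set_option maxRecDepth 100000 in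
theorem cntN3 : (S3 (VpM : V) WpM (X3L : V) 0 16 (8)).card = 1232 := by
  have h := count_subS3 tbM_ok tabM_eq (f3 := rtM) (a3 := 0) (b3 := 8) (s3 := 8)
    (by decide +kernel)
  exact h.trans (by decide +kernel)

theorem tabN3_orb : ∀ y ∈ tabF tbN3 1232, InOrb3 VpM WpM X3L RN3L y :=
  std_cfg rfl rfl rfl rfl gensN_ok tbN3_ok

end Cfsg.Agent.H9
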