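import Cfsg.Agent.Lib_H9_CfgM
import Cfsg.Agent.Lib_H9_CtQ
import Cfsg.Agent.Lib_H9_CtP1
import Cfsg.Agent.Lib_H9_CtP2
import Cfsg.Agent.Lib_H9_CtP3
import Cfsg.Agent.Lib_H9_CtP4
import Cfsg.Agent.Lib_H9_CtP5

set_option autoImplicit false

namespace Cfsg.Agent.H9

open Cfsg
open scoped Pointwise

theorem WpM_memQ : (WpM : V) ∈ S3 (VpM : V) VpM VpM (-8) (-8) (-8) :=
  inS3_spec (f1 := faQ) (f2 := fbQ) (f3 := fcQ) (by decide +kernel)

theorem cntQ : (S3 (VpM : V) VpM VpM (-8) (-8) (-8)).card = 47104 := by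
  have h := count_at (-8) (VpM : V) VpM.2 norm_VpM
  rw [Y_all.2.2.2.2.1] at h
  rw [← h, ← Set.ncard_coe_finset]
  congr 1
  ext w
  simp only [Finset.mem_coe, mem_S3, Set.mem_ofPred_eq]
  tauto

theorem tabQ_orb : ∀ y ∈ tabF tbQ 47104, InOrb3 VpM VpM VpM WpM y :=
  std_cfg rfl rfl rfl rfl gensQ_ok tbQ_ok

theorem tabQ_eq : tabF tbQ 47104 = S3 (VpM : V) VpM VpM (-8) (-8) (-8) :=
  Finset.eq_of_subset_of_card_le (fun y hy => (tabQ_orb y hy).mem_S3 WpM_memQ)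
    (by rw [tab_cardg tbQ_ok]; exact cntQ.le)

def RP1L : leechLattice := ⟨dec rtP1, dec_mem (by decide +kernel)⟩

theorem RP1L_mem : (RP1L : V) ∈ S3 (VpM : V) VpM WpM (-8) (-8) (16) :=
  inS3_spec (f1 := faP) (f2 := fbP) (f3 := fcP) (by decide +kernel)

set_option maxRecDepth 100000 in
theorem cntP1 : (S3 (VpM : V) VpM (WpM : V) (-8) (-8) (16)).card = 2025 := by
  have h := count_subS3 tbQ_ok tabQ_eq (f3 := rtQ) (a3 := 0) (b3 := 176) (s3 := 16)
    (by decide +kernel)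
  exact h.trans (by decide +kernel)

theorem tabP1_orb : ∀ y ∈ tabF tbP1 2025, InOrb3 VpM VpM WpM RP1L y :=
  std_cfg rfl rfl rfl rfl gensP_ok tbP1_ok

def RP2L : leechLattice := ⟨dec rtP2, dec_mem (by decide +kernel)⟩

theorem RP2L_mem : (RP2L : V) ∈ S3 (VpM : V) VpM WpM (-8) (-8) (-16) :=
  inS3_spec (f1 := faP) (f2 := fbP) (f3 := fcP) (by decide +kernel)

set_option maxRecDepth 100000 in
theorem cntP2 : (S3 (VpM : V) VpM (WpM : V) (-8) (-8) (-16)).card = 275 := by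
  have h := count_subS3 tbQ_ok tabQ_eq (f3 := rtQ) (a3 := 0) (b3 := 144) (s3 := -16)
    (by decide +kernel)
  exact h.trans (by decide +kernel)

theorem tabP2_orb : ∀ y ∈ tabF tbP2 275, InOrb3 VpM VpM WpM RP2L y :=
  std_cfg rfl rfl rfl rfl gensP_ok tbP2_ok

def RP3L : leechLattice := ⟨dec rtP3, dec_mem (by decide +kernel)⟩

theorem RP3L_mem : (RP3L : V) ∈ S3 (VpM : V) VpM WpM (-8) (-8) (8) :=
  inS3_spec (f1 := faP) (f2 := fbP) (f3 := fcP) (by decide +kernel)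

set_option maxRecDepth 100000 in
theorem cntP3 : (S3 (VpM : V) VpM (WpM : V) (-8) (-8) (8)).card = 15400 := by
  have h := count_subS3 tbQ_ok tabQ_eq (f3 := rtQ) (a3 := 0) (b3 := 168) (s3 := 8)
    (by decide +kernel)
  exact h.trans (by decide +kernel)

theorem tabP3_orb : ∀ y ∈ tabF tbP3 15400, InOrb3 VpM VpM WpM RP3L y :=
  std_cfg rfl rfl rfl rfl gensP_ok tbP3_ok

def RP4L : leechLattice := ⟨dec rtP4, dec_mem (by decide +kernel)⟩

theorem RP4L_mem : (RP4L : V) ∈ S3 (VpM : V) VpM WpM (-8) (-8) (0) :=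
  inS3_spec (f1 := faP) (f2 := fbP) (f3 := fcP) (by decide +kernel)

set_option maxRecDepth 100000 in
theorem cntP4 : (S3 (VpM : V) VpM (WpM : V) (-8) (-8) (0)).card = 22275 := by
  have h := count_subS3 tbQ_ok tabQ_eq (f3 := rtQ) (a3 := 0) (b3 := 160) (s3 := 0)
    (by decide +kernel)
  exact h.trans (by decide +kernel)

theorem tabP4_orb : ∀ y ∈ tabF tbP4 22275, InOrb3 VpM VpM WpM RP4L y :=
  std_cfg rfl rfl rfl rfl gensP_ok tbP4_ok

def RP5L : leechLattice := ⟨dec rtP5, dec_mem (by decide +kernel)⟩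

theorem RP5L_mem : (RP5L : V) ∈ S3 (VpM : V) VpM WpM (-8) (-8) (-8) :=
  inS3_spec (f1 := faP) (f2 := fbP) (f3 := fcP) (by decide +kernel)

set_option maxRecDepth 100000 in
theorem cntP5 : (S3 (VpM : V) VpM (WpM : V) (-8) (-8) (-8)).card = 7128 := by
  have h := count_subS3 tbQ_ok tabQ_eq (f3 := rtQ) (a3 := 0) (b3 := 152) (s3 := -8)
    (by decide +kernel)
  exact h.trans (by decide +kernel)

theorem tabP5_orb : ∀ y ∈ tabF tbP5 7128, InOrb3 VpM VpM WpM RP5L y :=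
  std_cfg rfl rfl rfl rfl gensP_ok tbP5_ok

set_option maxRecDepth 100000 in
theorem dotsP : ∀ y ∈ S3 (VpM : V) VpM VpM (-8) (-8) (-8),
    dotInt (WpM : V) y = 16 ∨ dotInt (WpM : V) y = -16 ∨ dotInt (WpM : V) y = 8 ∨ dotInt (WpM : V) y = 0 ∨ dotInt (WpM : V) y = -8 ∨ dotInt (WpM : V) y = 32 := by
  rw [← tabQ_eq]
  refine tab_forall _ (fun a => dotIs rtQ 0 176 a || (dotIs rtQ 0 144 a || (dotIs rtQ 0 168 a || (dotIs rtQ 0 160 a || (dotIs rtQ 0 152 a || (dotIs rtQ 0 192 a)))))) ?_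
    (by decide +kernel)
  intro a ha
  rw [Bool.or_eq_true, Bool.or_eq_true, Bool.or_eq_true, Bool.or_eq_true, Bool.or_eq_true,
    dotIs_spec (s := 16) (by decide +kernel), dotIs_spec (s := -16) (by decide +kernel), dotIs_spec (s := 8) (by decide +kernel), dotIs_spec (s := 0) (by decide +kernel), dotIs_spec (s := -8) (by decide +kernel), dotIs_spec (s := 32) (by decide +kernel)] at ha
  exact ha

end Cfsg.Agent.H9
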