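import Cfsg.Agent.Lib_H9_Orb2

set_option autoImplicit false

namespace Cfsg.Agent.H9

def gTD : ℕ := 10922302803366193429679317043052677266615597643915233113532115756391421680568166820240520738815619010553545453385394265600494846648349252443707087063997029975083488672

def msD0 : ℕ := 507543448591846586082459650517048876387485894146414310642689033377352599568401714271860165081778154423433278872704002996737628933718230371159849369457285125943476085646326986209089448872633895871013395168818585127843424004828566261644719314260603572865452102589357414636434856114965763168076324574755603791003006889272283714405598398722554723587888338682052516734341521581373263863442380409914560947161122075677339007047880408343054179240599022806557229401348548811977056791384666224388977527865583029883919681700364048672947541179111001079219133267505388199184681886078784948445640153395986014537768931748815317277355530374010967133500594100792469652271122542337913433847451508851334958027138093290788520958228490907918953747487453180527459516396618865395674406547209349946007208581409187370974497547632010963288867407186019250108357922808858435889683504101777196597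

def msD1 : ℕ := 391798329098011087082463924017450985518900679884313324781372886444983946074826049889708435579187396348846442377454889661392155184335426794315519123982304853814780003122490047953057225611176379135821803814269586288413377484468698649540785746454729176610439881406771018535502760771214206475227895825368547543332622831473905116196339984079028346205379298426824518135026462632242732600460030462865526894635249240847549056932945437805697073363689103373442359590764292506576913060329337483199320163526176297582659647168823248062562756733158982083161098814799705150264566486596111340086507566467062868519157070691854719576346573518939481797193571070916055299762027957989136734578983213852529418992257701626310086775571001288110563329984692325300061673865174082247465909083976450645369743771197691993894916192777865826160793167796624652779538282775883917805074923013203873269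

def msD2 : ℕ := 709070524369835098856789088114931956341440523744079822910997706350147627107673232187813954112503276933193865583421407158490068407841449692793629028700884040914332292928375490121799812457903846156684324922738793115853330350687399298500648700540449933701111051434779238987695060519587122466827897549828228485343357708594996819678536869746378812858919476151783031874806603797525249018099811444615800687134264363400949702061387072926951648317131654854523734919124862213671343933047110906358333334213740514002845638737212221075535944148217737246508634023088706375692672937220127409894711000915075167605292888931355686833460971464488121462545978202459035661753348334009794432894585590427755667644377910897629925415603297923732644068117891952546330381636154448280625060612123355343907231414750196183464533408869459988861499870205678060237115464907747566950258938604622987800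

def msD : List ℕ := [msD0, msD1, msD2]

def faD : ℕ := 47536897508558602556126370205
def fbD : ℕ := 47536897508558602556126370205
def fcD : ℕ := 47536897508558602556126370205

set_option maxRecDepth 100000 in
set_option maxHeartbeats 0 in
theorem gensD_ok : gensH gTD msD faD fbD fcD = true := by decide +kernel

end Cfsg.Agent.H9
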