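import Cfsg.Agent.Lib_H9_Orb2

set_option autoImplicit false

namespace Cfsg.Agent.H9

def gTE : ℕ := 10922302803366193429679317043052677266615597643915233113532115756391421680568166820240518056618083982612074335450565209754057248471387780954652204760336934532481103904

def msE0 : ℕ := 505737441939297709046368138766663145453025296484530555216245978992311145115276696686972893612149337269206158839579158483249914962172314636753988804733929889548404059578074567182591940851268489393219834602601682710887089974378724216234777558639021873156362850712429093760200742413294876668047020306449911011120275392110018779244598148959863295673968428484028291578370777497143009427450094307226003984917101181227672912331569937193381137671423563887168725139420728901809538440807648313150136829379269001547325628745713322790770883259876762351397485007845681577936434710583652250112796684300829206343088930472206978446608569581429300856845900454865163830359782587263620918917640198967672384103712880877777069556448110171411872476939681205275887933557627301007523718762961160179498317615250261744064019361991275661667789868709776570237496823637267416808977768554316744309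

def msE1 : ℕ := 503869868908807162538931529772839597964041814626651950299465681462744485811271059340610771911226834336143871285859146903712646248174199580220695598956272689012263280373585809050140533612315378392038905718943422452731090503476526088309925963913929825638704635158489262684802189978418865734880684670659614683759450135701110780416917883796690204761219346441201298140738351401633568338946381470941180902493269739424135054851482489671651826188206468188696240938073779373370258252954024919026390306524243542943987703416595241811261098778359573209082080123192852883123742228631168556170557317516834247413670569930973118566064770592941740592793576670534908424494483502720062767859718090926555285277939593428956147696448500193731782227134229391779279050801782534231296350342907946071230654386363618015211233554853183443439143189293231161077134742766009547951486368163336668789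

def msE2 : ℕ := 709070524369835098856789088114931956341440523744079822910997706350147627107673232187813954112503276933193865583421407158490068407841449692793629028700884040914332292928375490121799812457903846156684324922738793115853330350687399298500648700540449933701111051434779238987695060519587122466827897549828228485343357708594996819678536869746378812858919476151783031874806603797525249018099811444615800687134264363400949702061387072926951648317131654854523734919124862213671343933047110906358333334213740514002845638737212221075535944148217737246508634023088706375692672937220127409894711000915075167605292888931355686833460971464488121462545978202459035661753348334009794432894585590427755667644377910897629925415603297923732644068117891952546330381636154448280625060612123355343907231414750196183464533408869459988861499870205678060237115464907747566950258938604622987800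

def msE : List ℕ := [msE0, msE1, msE2]

def faE : ℕ := 47536897508558602556126370205
def fbE : ℕ := 42255020007607646716556773580
def fcE : ℕ := 42255020007607646716556773580

set_option maxRecDepth 100000 in
set_option maxHeartbeats 0 in
theorem gensE_ok : gensH gTE msE faE fbE fcE = true := by decide +kernel

end Cfsg.Agent.H9
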