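import Cfsg.Agent.Lib_H9_Orb2

set_option autoImplicit false

namespace Cfsg.Agent.H9

def gTF : ℕ := 10922302803366193429679317043052677266615597643915233113532115756391421680568166820240518056618083982612074335450565209754057248471387780954652204760336934532481103904

def msF0 : ℕ := 421706832175458699763702160233269734756347511991264723479932370358137663399489832757807524196328168493436992905183040145708495152430280913517907257705244657092982601722755543759064250800041240982967799249251587952139643009562797865181705127185757875266510502289723788310612980956020249445012710750444976053527244244118962238887253287145150287587359488238521595708544733359329461561573604257346380364809324479667654948933206449579138981122017089747459738964302099913451595780172497364729471236813881279787883462586343585857752702513711794544551076064786164496905216901449110308495621804678501590258742694461947086854462741600681971000912940708012172481227716396993147173371377209493839005534188522822258140212059985256288886269430355563047343338384814595258738776507628146391192883637382631531005134632064756803982924832215737791933105689453557991651574649318026002902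

def msF1 : ℕ := 477633182051359930745561991710498961143914294740447121163882220063179936861510411864441261772567236775236863132956392591273320390157417885473353280066537870462894044991956739670155286391771425329960098728509315454624054870849152279538793004422021273454316683711461271526372820319420267790563261015871385536141188347068205270712993815281698022616485592616361880893679349866141196293436364994023373108434441892942600807161506807611087924504116897905647565871483073918225460160269017493204730218544021009193210963356977054583248764557180687202692801041897707474375511010781354912574773983220859752697470923185651615864926072290452340353324754476100501444050901485639160986791314009372384431415109350388991255796854019902525138686200165909596152497326054082597972040572628591806967410958700276400772470832301999599801496165186948449930567003157447391869195189338231030230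

def msF2 : ℕ := 709070524369835098856789088114931956341440523744079822910997706350147627107673232187813954112503276933193865583421407158490068407841449692793629028700884040914332292928375490121799812457903846156684324922738793115853330350687399298500648700540449933701111051434779238987695060519587122466827897549828228485343357708594996819678536869746378812858919476151783031874806603797525249018099811444615800687134264363400949702061387072926951648317131654854523734919124862213671343933047110906358333334213740514002845638737212221075535944148217737246508634023088706375692672937220127409894711000915075167605292888931355686833460971464488121462545978202459035661753348334009794432894585590427755667644377910897629925415603297923732644068117891952546330381636154448280625060612123355343907231414750196183464533408869459988861499870205678060237115464907747566950258938604622987800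

def msF : List ℕ := [msF0, msF1, msF2]

def faF : ℕ := 47536897508558602556126370205
def fbF : ℕ := 36973142506656690876987176759
def fcF : ℕ := 36973142506656690876987176759

set_option maxRecDepth 100000 in
set_option maxHeartbeats 0 in
theorem gensF_ok : gensH gTF msF faF fbF fcF = true := by decide +kernel

end Cfsg.Agent.H9
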