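import Cfsg.Agent.Lib_H9_Orb2

set_option autoImplicit false

namespace Cfsg.Agent.H9

def gTG : ℕ := 10922302803366193429679317043052677266615597643915233113532115756391421680568166820240520829477666240664073576604341822212338326200974590986199095234346160203335665696

def msG0 : ℕ := 503816910074032532983836463359612847871887040571413269210185967580711343425452488645282272558815206482584908959481706842720017356984164036812025149041058190904982857992937493217852029487851567518746628729063497932021043992596384385839525399693466876631601566680306215702650978764882325990124804695499247216355206815589232964756026959379619784100672515858477583179214106263029491390894701034830137987477896038630461454488097730337290776449219164666563044525826858058692579152812162362522425758697864415997992614852738718101114852482087290347925238278733920919018993945183393947813302067134298555954245594680702144786320036756386483434709240805685229925089015037305678047041910322852701877157918134977989185573757282625610468139629941938955301392657543113652284673172479626073542791904973660722027743932945093208830673970392125883430497826039686440177827820748666293877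

def msG1 : ℕ := 507432238486395480913151786050563740778600777791773309547859210436846912313639875994377348301015442481353379436838670488004306345728761774871618612592868362752919252743829146626816011800955949402945257298066262130170073828368849516520993441061286311720685504069280840836056092196394885096281582109257458267352639764366479838149197990869752896222122138905288547320573588643617332857197373415352907623927206377883067528472907496511093798027661709145776094373665144748209517290418839555200826901034896051000250923679855197503171367870206121596891459750209492022389567275715123453791011235423971929957014762129821142630192491497211965783682302958195809206206817298832655589085068839430260892667744542294982127562399434092050659586040807365012669896327240739084657558234269882263981675544185161667213237817718071798913157081439660838175326081374208638251816516429964365429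

def msG2 : ℕ := 421710305770805998471703499269318090613950243329830458684804136172798391675245762337798183687515827437235280660148045161184097972289395716568887288921943226498560746872150570681732599515820292713102148227456573417954698318279495748390943161020086219995079579960596490056294329311765641790220664231903000219276995019037613380544417163864378151967480182634032073747509535996635310384791981621080291854937967938751505627448567729965300742922254612142202086735695958605760736837898408741595337722126967888648308834131547997947283051711558384391976009161480396581185965210373712710104771666400671508936755936742934776745318473220253125569650451086016470000522523243554851970189888342056171597709848515150536242382954518534497510262883646124518425543071035937060505648060753459843353633011211071771306495213781630320257593228710452009591123090232678788815646719948226120278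

def msG : List ℕ := [msG0, msG1, msG2]

def faG : ℕ := 47536897508558602556126370205
def fbG : ℕ := 42255020007607646716556773580
def fcG : ℕ := 42255020007607646716556774540

set_option maxRecDepth 100000 in
set_option maxHeartbeats 0 in
theorem gensG_ok : gensH gTG msG faG fbG fcG = true := by decide +kernel

end Cfsg.Agent.H9
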