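import Cfsg.Agent.Lib_H9_Orb2

set_option autoImplicit false

namespace Cfsg.Agent.H9

def gTH : ℕ := 10922302803366193429679317043052677266615597643915233113532115756391421680568166820240518056618083982612074335450565209754057248471387780954652204760336934532481103904

def msH0 : ℕ := 709070524369835098856789088114931956341440523744079822910997706350147627107673232187813954112503276933193865583421407158490068407841449692793629028700884040914332292928375490121799812457903846156684324922738793115853330350687399298500648700540449933701111051434779238987695060519587122466827897549828228485343357708594996819678536869746378812858919476151783031874806603797525249018099811444615800687134264363400949702061387072926951648317131654854523734919124862213671343933047110906358333334213740514002845638737212221075535944148217737246508634023088706375692672937220127409894711000915075167605292888931355686833460971464488121462545978202459035661753348334009794432894585590427755667644377910897629925415603297923732644068117891952546330381636154448280625060612123355343907231414750196183464533408869459988861499870205678060237115464907747566950258938604622987800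

def msH1 : ℕ := 709070524369835098856789088114931956341440523744079822910997706350147627107673232187813954112503276933193865583421407158490068407841449692793629028700884040914332292928375490121799812457903846156684324922738793115853330350687399298500648700540449933701111051434779238987695060519587122466827897549828228485343357708594996819678536869746378812858919476151783031874806603797525249018099811444615800687134264363400949702061387072926951648317131654854523734919124862213671343933047110906358333334213740514002845638737212221075535944148217737246508634023088706375692672937220127409894711000915075167605292888931355686833460971464488121462545978202459035661753348334009794432894585590427755667644377910897629925415603297923732644068117891952546330381636154448280625060612123355343907231414750196183464533408869459988861499870205678060237115464907747566950258938604622987800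

def msH2 : ℕ := 709070524369835098856789088114931956341440523744079822910997706350147627107673232187813954112503276933193865583421407158490068407841449692793629028700884040914332292928375490121799812457903846156684324922738793115853330350687399298500648700540449933701111051434779238987695060519587122466827897549828228485343357708594996819678536869746378812858919476151783031874806603797525249018099811444615800687134264363400949702061387072926951648317131654854523734919124862213671343933047110906358333334213740514002845638737212221075535944148217737246508634023088706375692672937220127409894711000915075167605292888931355686833460971464488121462545978202459035661753348334009794432894585590427755667644377910897629925415603297923732644068117891952546330381636154448280625060612123355343907231414750196183464533408869459988861499870205678060237115464907747566950258938604622987800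

def msH : List ℕ := [msH0, msH1, msH2]

def faH : ℕ := 47536897508558602556126370205
def fbH : ℕ := 36973142506656690876987176759
def fcH : ℕ := 42255020007607646716556773580

set_option maxRecDepth 100000 in
set_option maxHeartbeats 0 in
theorem gensH_ok : gensH gTH msH faH fbH fcH = true := by decide +kernel

end Cfsg.Agent.H9
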