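import Cfsg.Agent.Lib_H9_Orb2

set_option autoImplicit false

namespace Cfsg.Agent.H9

def gTK : ℕ := 10922302803366193429679317043052677266615597643915233113532115756391421680568166820240518056618083982612074335450565209754057248471387780954652204760336934532481103904

def msK0 : ℕ := 421706832175458699763702160233269734756347511991264723479932370358137663399489832757807524196328168493436992905183040145708495152430280913517907257705244657092982601722755543759064250800041240982967799249251587952139643009562797865181705127185757875266510502289723788310612980956020249445012710750444976053527244244118962238887253287145150287587359488238521595708544733359329461561573604257346380364809324479667654948933206449579138981122017089747459738964302099913451595780172497364729471236813881279787883462586343585857752702513711794544551076064786164496905216901449110308495621804678501590258742694461947086854462741600681971000912940708012172481227716396993147173371377209493839005534188522822258140212059985256288886269430355563047343338384814595258738776507628146391192883637382631531005134632064756803982924832215737791933105689453557991651574649318026002902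

def msK1 : ℕ := 477633182051359930745561991710498961143914294740447121163882220063179936861510411864441261772567236775236863132956392591273320390157417885473353280066537870462894044991956739670155286391771425329960098728509315454624054870849152279538793004422021273454316683711461271526372820319420267790563261015871385536141188347068205270712993815281698022616485592616361880893679349866141196293436364994023373108434441892942600807161506807611087924504116897905647565871483073918225460160269017493204730218544021009193210963356977054583248764557180687202692801041897707474375511010781354912574773983220859752697470923185651615864926072290452340353324754476100501444050901485639160986791314009372384431415109350388991255796854019902525138686200165909596152497326054082597972040572628591806967410958700276400772470832301999599801496165186948449930567003157447391869195189338231030230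

def msK2 : ℕ := 479498989839540242196134529489261188857158943996704152530328942264850317906833616217457752092966682757916577270602186364209075157993022231730855885917308376129824192900092139401378138105107781308743942521900564180827592098220789361221776692131183703058808321586010652964819841610995750681611643259693335126948213456739532006623866819197264426207055914786075115585329356253588005357518057810874360277564928283853462477602528581383597952287513675784273740585668924053638643126074143425770280636599214631009606488842500031621387226806069558557389829620707182179410847909842381452393841051739619241287901965523960743643570111173417382034558210291507973424182567079431063331687644366492218070283898184821726878672235403324471145342494615651625426380507511621086351692018977603164251670291573518262394766649000251078384846904515558877142093646831454975193791213205600092630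

def msK : List ℕ := [msK0, msK1, msK2]

def faK : ℕ := 47536897508558602556126370205
def fbK : ℕ := 47536897508558602556126370205
def fcK : ℕ := 42255020007607646716556773572

set_option maxRecDepth 100000 in
set_option maxHeartbeats 0 in
theorem gensK_ok : gensH gTK msK faK fbK fcK = true := by decide +kernel

end Cfsg.Agent.H9
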