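import Cfsg.Agent.Lib_H9_Orb2

set_option autoImplicit false

namespace Cfsg.Agent.H9

def gTM : ℕ := 10922302803366193429679317043052677266615597643915233113532115756391421680568166820240518056618083982612074335450565209754057248471387780954652204760336934532481103904

def msM0 : ℕ := 505737441939297709046368138766663145453025296484530555216245978992311145115276696686972893612149337269206158839579158483249914962172314636753988804733929889548404059578074567182591940851268489393219834602601682710887089974378724216234777558639021873156362850712429093760200742413294876668047020306449911011120275392110018779244598148959863295673968428484028291578370777497143009427450094307226003984917101181227672912331569937193381137671423563887168725139420728901809538440807648313150136829379269001547325628745713322790770883259876762351397485007845681577936434710583652250112796684300829206343088930472206978446608569581429300856845900454865163830359782587263620918917640198967672384103712880877777069556448110171411872476939681205275887933557627301007523718762961160179498317615250261744064019361991275661667789868709776570237496823637267416808977768554316744309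

def msM1 : ℕ := 503869868908807162538931529772839597964041814626651950299465681462744485811271059340610771911226834336143871285859146903712646248174199580220695598956272689012263280373585809050140533612315378392038905718943422452731090503476526088309925963913929825638704635158489262684802189978418865734880684670659614683759450135701110780416917883796690204761219346441201298140738351401633568338946381470941180902493269739424135054851482489671651826188206468188696240938073779373370258252954024919026390306524243542943987703416595241811261098778359573209082080123192852883123742228631168556170557317516834247413670569930973118566064770592941740592793576670534908424494483502720062767859718090926555285277939593428956147696448500193731782227134229391779279050801782534231296350342907946071230654386363618015211233554853183443439143189293231161077134742766009547951486368163336668789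

def msM2 : ℕ := 418038548219552147757720820467420384731319151610406127282051928109516142931369413478945833668167279507423778241444516892447804268229110381214917053929512338397448842538099217401632672979094556630879507631775128771927520363222307850535347290088851761095310104063063888171022514443718003150849933583568841046450524941467775939995861258743003761134911032619589094654546156185201825089060406896837274717654329693882073558068170826984166709363292008107317468935310103964971004547856869744740416192838434387580165221967392030293902645714291139162419374970767605681621326197763670784791654209227570749750153590711594968207938435968577490720093259927929494624403730445042215248638686819943171595691410019410380295951488824097179733945027763332315054202384296121598048010819712632849431705308559810375686170519083211840871912474738009949118926346496161332677675564972978553430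

def msM : List ℕ := [msM0, msM1, msM2]

def faM : ℕ := 42255020007607646716556773580
def fbM : ℕ := 47536897508558602556126370137
def fcM : ℕ := 47536897508558602556126370137

set_option maxRecDepth 100000 in
set_option maxHeartbeats 0 in
theorem gensM_ok : gensH gTM msM faM fbM fcM = true := by decide +kernel

end Cfsg.Agent.H9
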