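import Cfsg.Agent.Lib_H9_Leech5

set_option autoImplicit false

namespace Cfsg.Agent.H9

open Cfsg
open scoped Pointwise

abbrev V : Type := GolayPt → ℤ

theorem shell_finite (n : ℤ) : {x : V | sqNorm x = n}.Finite := by
  apply Set.Finite.subset (Set.Finite.pi' (fun _ : GolayPt => Set.finite_Icc (-n) n))
  intro x hx i
  have h := entries_le (le_of_eq hx) i
  rw [Set.mem_Icc]
  constructor <;> nlinarith [sq_nonneg (x i), sq_nonneg (x i - 1), sq_nonneg (x i + 1)]

/-- maps of integer vectors inducing automorphisms of the lattice -/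
structure LMap (f : V → V) : Prop where
  mem : ∀ x ∈ leechLattice, f x ∈ leechLattice
  add : ∀ x ∈ leechLattice, ∀ y ∈ leechLattice, f (x + y) = f x + f y
  norm : ∀ x ∈ leechLattice, sqNorm (f x) = sqNorm x

namespace LMap

variable {f : V → V} (h : LMap f)

include h

theorem sub {x y : V} (hx : x ∈ leechLattice) (hy : y ∈ leechLattice) : f (x - y) = f x - f y := by
  have := h.add (x - y) (leechLattice.sub_mem hx hy) y hy
  rw [sub_add_cancel] at this
  rw [this, add_sub_cancel_right]

theorem inj {x y : V} (hx : x ∈ leechLattice) (hy : y ∈ leechLattice) (e : f x = f y) : x = y := by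
  have h1 := h.sub hx hy
  rw [e, sub_self] at h1
  have h2 := h.norm _ (leechLattice.sub_mem hx hy)
  rw [h1] at h2
  have h3 : sqNorm (0 : V) = 0 := by simp [sqNorm]
  rw [h3] at h2
  exact sub_eq_zero.mp (sqNorm_eq_zero h2.symm)

def fn (v : leechLattice) : leechLattice := ⟨f v, h.mem v v.2⟩

theorem fn_inj : Function.Injective h.fn := by
  intro v w e
  exact Subtype.ext (h.inj v.2 w.2 (congrArg Subtype.val e))

theorem fn_surj : Function.Surjective h.fn := by
  intro w
  set n := sqNorm (w : V) with hn
  have hfin : Finite {v : leechLattice // sqNorm (v : V) = n} := by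
    have : Finite {x : V // sqNorm x = n} := (shell_finite n).to_subtype
    exact Finite.of_injective (fun v => (⟨(v.1 : V), v.2⟩ : {x : V // sqNorm x = n}))
      (fun a b e => Subtype.ext (Subtype.ext (congrArg (fun t : {x : V // sqNorm x = n} => t.1) e)))
  let F : {v : leechLattice // sqNorm (v : V) = n} → {v : leechLattice // sqNorm (v : V) = n} :=
    fun v => ⟨h.fn v.1, (h.norm _ v.1.2).trans v.2⟩
  have hF : Function.Injective F := fun a b e => Subtype.ext (h.fn_inj (congrArg Subtype.val e))
  obtain ⟨v, hv⟩ := (Finite.injective_iff_surjective.mp hF) ⟨w, rfl⟩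
  exact ⟨v.1, congrArg Subtype.val hv⟩

noncomputable def toCo0 : Co0 :=
  ⟨Equiv.ofBijective h.fn ⟨h.fn_inj, h.fn_surj⟩,
    fun v w => Subtype.ext (h.add v v.2 w w.2), fun v => h.norm v v.2⟩

theorem toCo0_apply (v : leechLattice) : ((h.toCo0 • v : leechLattice) : V) = f v := rfl

end LMap

theorem Co0_add (g : Co0) (v w : leechLattice) : g • (v + w) = g • v + g • w := g.2.1 v w

theorem Co0_norm (g : Co0) (v : leechLattice) : sqNorm ((g • v : leechLattice) : V) = sqNorm (v : V) := g.2.2 v

theorem Co0_dot (g : Co0) (v w : leechLattice) :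
    dotInt ((g • v : leechLattice) : V) ((g • w : leechLattice) : V) = dotInt (v : V) (w : V) := by
  have h1 := Co0_norm g (v + w)
  rw [Co0_add] at h1
  have h2 : sqNorm (((g • v : leechLattice) : V) + ((g • w : leechLattice) : V)) = sqNorm ((v : V) + (w : V)) := h1
  rw [sqNorm_add, sqNorm_add, Co0_norm, Co0_norm] at h2
  omega

theorem Co0_neg (g : Co0) (v : leechLattice) : g • (-v) = -(g • v) := by
  have h := Co0_add g v (-v)
  have h0 : g • (0 : leechLattice) = 0 := by
    have := Co0_add g 0 0
    rw [add_zero] at this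
    exact left_eq_add.mp this
  rw [add_neg_cancel, h0] at h
  exact (neg_eq_of_add_eq_zero_right h.symm).symm

theorem Co0_sub (g : Co0) (v w : leechLattice) : g • (v - w) = g • v - g • w := by
  rw [sub_eq_add_neg, Co0_add, Co0_neg, sub_eq_add_neg]

/-! ### monomial maps -/

theorem lmap_mono {σ : Equiv.Perm GolayPt} (hσ : σ ∈ M24) {c : Finset GolayPt} (hc : c ∈ CC) :
    LMap (signedPerm σ c) := by
  refine ⟨fun x hx => ?_, fun x _ y _ => ?_, fun x _ => ?_⟩
  · exact sign_mem hc (perm_mem (M24.inv_mem hσ) hx)
  · ext i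
    unfold signedPerm
    by_cases h : i ∈ c
    · simp only [if_pos h, Pi.add_apply]; ring
    · simp only [if_neg h, Pi.add_apply]
  · unfold sqNorm
    rw [← Equiv.sum_comp σ.symm (fun i => x i ^ 2)]
    apply Finset.sum_congr rfl
    intro i _
    unfold signedPerm
    by_cases h : i ∈ c
    · simp only [if_pos h]; ring
    · simp only [if_neg h]

end Cfsg.Agent.H9
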