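import Cfsg.Agent.Lib_H9_Co0a

set_option autoImplicit false

namespace Cfsg.Agent.H9

open Cfsg
open scoped Pointwise

/-! ### generators of the lattice -/

def e4 (i : GolayPt) : V := fun p => (if p = i then 4 else 0) - (if p = pt 0 then 4 else 0)
def e8 : V := fun p => if p = pt 0 then 8 else 0
def c2 (k : ℕ) : V := fun p => 2 * ind (ofMask (bas k)) p
def u1 : V := fun p => if p = pt 0 then -3 else 1

def G0 : Set V := {x | (∃ i, x = e4 i) ∨ x = e8 ∨ (∃ k < 12, x = c2 k) ∨ x = u1}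

theorem gen_four {x : V} (h4 : ∀ i, (4 : ℤ) ∣ x i) (h8 : (8 : ℤ) ∣ ∑ i, x i) : x ∈ AddSubgroup.closure G0 := by
  choose z hz using h4
  have hs : ∑ i, x i = 4 * ∑ i, z i := by simp only [hz, Finset.mul_sum]
  obtain ⟨t, ht⟩ : (2 : ℤ) ∣ ∑ i, z i := by rw [hs] at h8; omega
  have hx : x = ∑ i, z i • e4 i + t • e8 := by
    ext p
    have h1 : ∀ i, (z i • e4 i) p = (if p = i then 4 * z i else 0) - (if p = pt 0 then 4 else 0) * z i := by
      intro i
      simp only [Pi.smul_apply, smul_eq_mul, e4]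
      split_ifs <;> ring
    rw [Pi.add_apply, Finset.sum_apply, Finset.sum_congr rfl (fun i _ => h1 i), Finset.sum_sub_distrib,
      ← Finset.mul_sum, ht, Finset.sum_ite_eq, if_pos (Finset.mem_univ _), hz p]
    simp only [Pi.smul_apply, smul_eq_mul, e8]
    split_ifs <;> ring
  rw [hx]
  exact (AddSubgroup.closure G0).add_mem ((AddSubgroup.closure G0).sum_mem (fun i _ =>
    (AddSubgroup.closure G0).zsmul_mem (AddSubgroup.subset_closure (Or.inl ⟨i, rfl⟩)) _))
    ((AddSubgroup.closure G0).zsmul_mem (AddSubgroup.subset_closure (Or.inr (Or.inl rfl))) _)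

theorem Pat.add0 {A B : Finset GolayPt} {x y : V} (hx : Pat 0 A x) (hy : Pat 0 B y) :
    Pat 0 (symmDiff A B) (x + y) := by
  refine ⟨fun i => ?_, ?_⟩
  · have h1 := hx.1 i
    have h2 := hy.1 i
    rw [ind_symmDiff, Pi.add_apply]
    rcases ind_cases A i with ⟨_, e⟩ | ⟨_, e⟩ <;> rcases ind_cases B i with ⟨_, e'⟩ | ⟨_, e'⟩ <;>
      rw [e] at h1 ⊢ <;> rw [e'] at h2 ⊢ <;> omega
  · have h1 := hx.2
    have h2 := hy.2
    simp only [Pi.add_apply, Finset.sum_add_distrib]
    omega

theorem bas_mem_CC {k : ℕ} (hk : k < 12) : ofMask (bas k) ∈ CC :=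
  ⟨_, wordOf_bas_mem hk, support₂_wordOf _⟩

theorem pat_c2 {k : ℕ} (hk : k < 12) : Pat 0 (ofMask (bas k)) (c2 k) := by
  refine ⟨fun i => by simp [c2], ?_⟩
  obtain ⟨l, hl⟩ := four_dvd_card (bas_mem_CC hk)
  simp only [c2, ← Finset.mul_sum, sum_ind, hl]
  push_cast
  omega

theorem pat_zero : Pat 0 ∅ (0 : V) := ⟨fun i => by simp [ind], by simp⟩

theorem gen_partial (n : ℕ) (k : ℕ) (hk : k ≤ 12) :
    ∃ S : V, S ∈ AddSubgroup.closure G0 ∧ Pat 0 (ofMask (xorSel bas k n)) S := by
  induction k with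
  | zero => exact ⟨0, (AddSubgroup.closure G0).zero_mem, by simpa [xorSel, ofMask_zero] using pat_zero⟩
  | succ k ih =>
    obtain ⟨S, hS, hP⟩ := ih (by omega)
    rw [xorSel_succ]
    cases n.testBit k with
    | false => exact ⟨S, hS, by simpa using hP⟩
    | true =>
      refine ⟨S + c2 k, (AddSubgroup.closure G0).add_mem hS (AddSubgroup.subset_closure
        (Or.inr (Or.inr (Or.inl ⟨k, by omega, rfl⟩)))), ?_⟩
      have := hP.add0 (pat_c2 (k := k) (by omega))
      rw [← ofMask_xor] at this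
      simpa using this

theorem gen_even {x : V} {C : Finset GolayPt} (hC : C ∈ CC) (h : Pat 0 C x) : x ∈ AddSubgroup.closure G0 := by
  obtain ⟨n, _, rfl⟩ := exists_of_mem_CC hC
  obtain ⟨S, hS, hP⟩ := gen_partial n 12 le_rfl
  have hP' : Pat 0 (ofMask (enc n)) S := hP
  have : x = (x - S) + S := by abel
  rw [this]
  refine (AddSubgroup.closure G0).add_mem (gen_four (fun i => ?_) ?_) hS
  · have h1 := h.1 i
    have h2 := hP'.1 i
    rw [Pi.sub_apply]
    omega
  · have h1 := h.2
    have h2 := hP'.2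
    simp only [Pi.sub_apply, Finset.sum_sub_distrib]
    omega

theorem pat_u1 : Pat 1 ∅ u1 := by
  refine ⟨fun i => ?_, ?_⟩
  · simp only [u1, ind, Finset.notMem_empty, if_false]
    by_cases h : i = pt 0
    · simp [h]
    · simp [h]
  · have : ∑ i, u1 i = 20 := by
      rw [sum_pts]; decide
    rw [this]; norm_num

theorem leech_le_closure : leechLattice ≤ AddSubgroup.closure G0 := by
  intro x hx
  rw [mem_leech_iff_pat] at hx
  rcases hx with ⟨C, hC, h⟩ | ⟨C, hC, h⟩
  · exact gen_even hC h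
  · have : x = (x - u1) + u1 := by abel
    rw [this]
    refine (AddSubgroup.closure G0).add_mem (gen_even hC (x := x - u1) ⟨fun i => ?_, ?_⟩)
      (AddSubgroup.subset_closure (Or.inr (Or.inr (Or.inr rfl))))
    · have h1 := h.1 i
      have h2 := pat_u1.1 i
      simp only [ind, Finset.notMem_empty, if_false] at h2
      rw [Pi.sub_apply]
      omega
    · have h1 := h.2
      have h2 := pat_u1.2
      simp only [Pi.sub_apply, Finset.sum_sub_distrib]
      omega

/-! ### vectors given by functions on indices, and a membership test -/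

def vecF (f : ℕ → ℤ) : V := fun p => f (idx p)

def sumR (f : ℕ → ℤ) (n : ℕ) : ℤ := Nat.rec (motive := fun _ => ℤ) 0 (fun i acc => acc + f i) n

theorem sumR_eq (f : ℕ → ℤ) (n : ℕ) : sumR f n = ∑ i ∈ Finset.range n, f i := by
  induction n with
  | zero => rfl
  | succ n ih => rw [Finset.sum_range_succ, ← ih]; rfl

theorem sum_vecF (f : ℕ → ℤ) : ∑ p, vecF f p = sumR f 24 := by
  rw [sum_pts, sumR_eq]
  apply Finset.sum_congr rfl
  intro i hi
  rw [Finset.mem_range] at hi
  simp only [vecF, idx_pt hi]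

def maskF (f : ℕ → ℤ) (m : ℤ) : ℕ := Nat.ofBits (n := 24) (fun i => decide ((f i - m) / 2 % 2 = 1))

def inLF (f : ℕ → ℤ) : Bool :=
  allBelow (fun i => decide ((f i - f 0 % 2) % 2 = 0)) 24 &&
    (decide ((sumR f 24 - 4 * (f 0 % 2)) % 8 = 0) && isCode (maskF f (f 0 % 2)))

theorem inLF_spec {f : ℕ → ℤ} (h : inLF f = true) : vecF f ∈ leechLattice := by
  unfold inLF at h
  rw [Bool.and_eq_true, Bool.and_eq_true, allBelow_iff, decide_eq_true_iff, isCode_iff] at h
  obtain ⟨h1, h2, h3⟩ := h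
  rw [mem_leech_iff]
  refine ⟨f 0 % 2, fun p => ?_, ?_, ?_⟩
  · have := h1 (idx p) (idx_lt p)
    rw [decide_eq_true_iff] at this
    exact Int.dvd_of_emod_eq_zero this
  · rw [sum_vecF]; exact Int.dvd_of_emod_eq_zero h2
  · have : hw (f 0 % 2) (vecF f) = wordOf (maskF f (f 0 % 2)) := by
      ext p
      have hb' : (maskF f (f 0 % 2)).testBit (idx p) = decide ((f (idx p) - f 0 % 2) / 2 % 2 = 1) := by
        unfold maskF
        rw [Nat.testBit_ofBits_lt _ _ (idx_lt p)]
      simp only [hw, wordOf, vecF, hb', decide_eq_true_iff]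
      by_cases hb : (f (idx p) - f 0 % 2) / 2 % 2 = 1
      · rw [if_pos hb]
        have := (cast2_ne_zero_iff _).mpr hb
        rcases zmod2_cases (((f (idx p) - f 0 % 2) / 2 : ℤ) : ZMod 2) with h' | h'
        · exact absurd h' this
        · exact h'
      · rw [if_neg hb, ZMod.intCast_zmod_eq_zero_iff_dvd]
        push_cast
        omega
    rw [this, wordOf_mem_iff (show maskF f (f 0 % 2) < 2 ^ 24 from Nat.ofBits_lt_two_pow _)]
    exact h3

end Cfsg.Agent.H9
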