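import Cfsg.Agent.Lib_H9_Co0b
import Cfsg.Agent.Lib_H9_Fam

set_option autoImplicit false

namespace Cfsg.Agent.H9

open Cfsg
open scoped Pointwise

/-! ### the extra automorphism -/

def memN : ℕ := 2296933394333241180077661864374948225631621749944591187294753610035660063416894464575792061854256630419305029636037155275007924429416566513305632

def mem4 (i r : ℕ) : ℕ := Nat.land (Nat.shiftRight memN (Nat.mul 5 (Nat.add (Nat.mul 4 i) r))) 31

def sgF (i : ℕ) : ℤ := bsel (Nat.blt i 4) (-1) 1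

def zetaF (f : ℕ → ℤ) (i : ℕ) : ℤ :=
  sgF i * (2 * f i - (f (mem4 i 0) + f (mem4 i 1) + f (mem4 i 2) + f (mem4 i 3)))

def zeta (x : V) : V := vecF (zetaF (fun j => x (pt j)))

theorem vecF_pt (x : V) : vecF (fun j => x (pt j)) = x := by
  ext p; simp only [vecF, pt_idx]

theorem zeta_vecF (f : ℕ → ℤ) (hm : ∀ i < 24, ∀ r < 4, mem4 i r < 24) : zeta (vecF f) = vecF (zetaF f) := by
  ext p
  have hp := idx_lt p
  simp only [zeta, vecF, zetaF, idx_pt hp, idx_pt (hm _ hp 0 (by norm_num)), idx_pt (hm _ hp 1 (by norm_num)),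
    idx_pt (hm _ hp 2 (by norm_num)), idx_pt (hm _ hp 3 (by norm_num))]

theorem mem4_lt : ∀ i < 24, ∀ r < 4, mem4 i r < 24 := by decide +kernel

theorem zeta_add (x y : V) : zeta (x + y) = zeta x + zeta y := by
  ext p
  simp only [zeta, vecF, zetaF, Pi.add_apply]
  ring

def zetaHom : V →+ V where
  toFun := zeta
  map_zero' := by
    have := zeta_add 0 0
    rw [add_zero] at this
    exact left_eq_add.mp this
  map_add' := zeta_add

theorem sqNorm_vecF (f : ℕ → ℤ) : sqNorm (vecF f) = sumR (fun i => f i ^ 2) 24 := by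
  unfold sqNorm
  exact sum_vecF (fun i => f i ^ 2)

theorem sumR_zetaF (f : ℕ → ℤ) : sumR (fun i => zetaF f i ^ 2) 24 = 4 * sumR (fun i => f i ^ 2) 24 := by
    have h0 : zetaF f 0 = -1 * (2 * f 0 - (f 0 + f 1 + f 2 + f 3)) := rfl
    have h1 : zetaF f 1 = -1 * (2 * f 1 - (f 0 + f 1 + f 2 + f 3)) := rfl
    have h2 : zetaF f 2 = -1 * (2 * f 2 - (f 0 + f 1 + f 2 + f 3)) := rfl
    have h3 : zetaF f 3 = -1 * (2 * f 3 - (f 0 + f 1 + f 2 + f 3)) := rfl
    have h4 : zetaF f 4 = 1 * (2 * f 4 - (f 4 + f 7 + f 10 + f 12)) := rfl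
    have h5 : zetaF f 5 = 1 * (2 * f 5 - (f 5 + f 14 + f 17 + f 23)) := rfl
    have h6 : zetaF f 6 = 1 * (2 * f 6 - (f 6 + f 9 + f 11 + f 22)) := rfl
    have h7 : zetaF f 7 = 1 * (2 * f 7 - (f 4 + f 7 + f 10 + f 12)) := rfl
    have h8 : zetaF f 8 = 1 * (2 * f 8 - (f 8 + f 15 + f 16 + f 19)) := rfl
    have h9 : zetaF f 9 = 1 * (2 * f 9 - (f 6 + f 9 + f 11 + f 22)) := rfl
    have h10 : zetaF f 10 = 1 * (2 * f 10 - (f 4 + f 7 + f 10 + f 12)) := rfl
    have h11 : zetaF f 11 = 1 * (2 * f 11 - (f 6 + f 9 + f 11 + f 22)) := rfl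
    have h12 : zetaF f 12 = 1 * (2 * f 12 - (f 4 + f 7 + f 10 + f 12)) := rfl
    have h13 : zetaF f 13 = 1 * (2 * f 13 - (f 13 + f 18 + f 20 + f 21)) := rfl
    have h14 : zetaF f 14 = 1 * (2 * f 14 - (f 5 + f 14 + f 17 + f 23)) := rfl
    have h15 : zetaF f 15 = 1 * (2 * f 15 - (f 8 + f 15 + f 16 + f 19)) := rfl
    have h16 : zetaF f 16 = 1 * (2 * f 16 - (f 8 + f 15 + f 16 + f 19)) := rfl
    have h17 : zetaF f 17 = 1 * (2 * f 17 - (f 5 + f 14 + f 17 + f 23)) := rfl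
    have h18 : zetaF f 18 = 1 * (2 * f 18 - (f 13 + f 18 + f 20 + f 21)) := rfl
    have h19 : zetaF f 19 = 1 * (2 * f 19 - (f 8 + f 15 + f 16 + f 19)) := rfl
    have h20 : zetaF f 20 = 1 * (2 * f 20 - (f 13 + f 18 + f 20 + f 21)) := rfl
    have h21 : zetaF f 21 = 1 * (2 * f 21 - (f 13 + f 18 + f 20 + f 21)) := rfl
    have h22 : zetaF f 22 = 1 * (2 * f 22 - (f 6 + f 9 + f 11 + f 22)) := rfl
    have h23 : zetaF f 23 = 1 * (2 * f 23 - (f 5 + f 14 + f 17 + f 23)) := rfl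
    simp only [sumR_eq, Finset.sum_range_succ, Finset.sum_range_zero, h0, h1, h2, h3, h4, h5, h6, h7, h8, h9, h10, h11, h12, h13, h14, h15, h16, h17, h18, h19, h20, h21, h22, h23]
    ring

theorem sqNorm_zeta (x : V) : sqNorm (zeta x) = 4 * sqNorm x := by
  unfold zeta
  rw [sqNorm_vecF, sumR_zetaF, ← sqNorm_vecF, vecF_pt]

/-! generators as index functions -/

def genF (k : ℕ) (j : ℕ) : ℤ :=
  bsel (Nat.blt k 24) ((bsel (Nat.beq j k) 4 0) - (bsel (Nat.beq j 0) 4 0))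
    (bsel (Nat.beq k 24) (bsel (Nat.beq j 0) 8 0)
      (bsel (Nat.blt k 37) (bsel (bit (bas (Nat.sub k 25)) j) 2 0)
        (bsel (Nat.beq j 0) (-3) 1)))

def halfOK (f : ℕ → ℤ) : Bool :=
  allBelow (fun i => decide (f i % 2 = 0)) 24 && inLF (fun i => f i / 2)

theorem halfOK_spec {f : ℕ → ℤ} (h : halfOK f = true) : vecF f ∈ twoL := by
  unfold halfOK at h
  rw [Bool.and_eq_true, allBelow_iff] at h
  rw [mem_twoL]
  refine ⟨_, inLF_spec h.2, ?_⟩
  ext p
  have := h.1 (idx p) (idx_lt p)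
  rw [decide_eq_true_iff] at this
  simp only [vecF, Pi.smul_apply, nsmul_eq_mul, Nat.cast_ofNat]
  omega

theorem gen_chk : allBelow (fun k => halfOK (zetaF (genF k))) 38 = true := by decide +kernel

theorem bsel_eq {α : Type} (c : Bool) (x y : α) : bsel c x y = if c = true then x else y := by
  cases c <;> rfl

theorem idx_eq_iff {p : GolayPt} {i : ℕ} (hi : i < 24) : idx p = i ↔ p = pt i :=
  ⟨fun h => by rw [← h, pt_idx], fun h => by rw [h, idx_pt hi]⟩

theorem G0_eq {x : V} (hx : x ∈ G0) : ∃ k < 38, x = vecF (genF k) := by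
  rcases hx with ⟨i, rfl⟩ | rfl | ⟨k, hk, rfl⟩ | rfl
  · refine ⟨idx i, by have := idx_lt i; omega, ?_⟩
    ext p
    have h1 : Nat.blt (idx i) 24 = true := by rw [Nat.blt_eq]; exact idx_lt i
    simp only [vecF, genF, e4, h1, bsel_eq, if_true, Nat.beq_eq, idx_injective.eq_iff,
      idx_eq_iff (show 0 < 24 by norm_num)]
  · refine ⟨24, by norm_num, ?_⟩
    ext p
    have h1 : Nat.blt 24 24 = false := rfl
    have h2 : Nat.beq 24 24 = true := rfl
    simp only [vecF, genF, e8, h1, h2, bsel_eq, if_true, Nat.beq_eq,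
      idx_eq_iff (show 0 < 24 by norm_num), Bool.false_eq_true, if_false]
  · refine ⟨k + 25, by omega, ?_⟩
    ext p
    have h1 : Nat.blt (k + 25) 24 = false := by
      rw [← Bool.not_eq_true, Nat.blt_eq]; omega
    have h2 : Nat.beq (k + 25) 24 = false := by
      rw [← Bool.not_eq_true, Nat.beq_eq]; omega
    have h3 : Nat.blt (k + 25) 37 = true := by rw [Nat.blt_eq]; omega
    have h4 : Nat.sub (k + 25) 25 = k := Nat.add_sub_cancel k 25
    simp only [vecF, genF, c2, h1, h2, h3, h4, bsel_eq, if_true, Bool.false_eq_true, if_false, bit_eq, ind,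
      ofMask, Finset.mem_filter, Finset.mem_univ, true_and]
    split_ifs <;> rfl
  · refine ⟨37, by norm_num, ?_⟩
    ext p
    have h1 : Nat.blt 37 24 = false := rfl
    have h2 : Nat.beq 37 24 = false := rfl
    have h3 : Nat.blt 37 37 = false := rfl
    simp only [vecF, genF, u1, h1, h2, h3, bsel_eq, Nat.beq_eq,
      idx_eq_iff (show 0 < 24 by norm_num), Bool.false_eq_true, if_false]

theorem zeta_mem {x : V} (hx : x ∈ leechLattice) : zeta x ∈ twoL := by
  have h : AddSubgroup.closure G0 ≤ twoL.comap zetaHom := by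
    rw [AddSubgroup.closure_le]
    intro y hy
    obtain ⟨k, hk, rfl⟩ := G0_eq hy
    show zeta (vecF (genF k)) ∈ twoL
    rw [zeta_vecF _ mem4_lt]
    exact halfOK_spec ((allBelow_iff _ _).mp gen_chk k hk)
  exact h (leech_le_closure hx)

def xiF (x : V) : V := fun p => zeta x p / 2

theorem xiF_eq {x y : V} (h : zeta x = 2 • y) : xiF x = y := by
  ext p
  have := congrFun h p
  simp only [Pi.smul_apply, nsmul_eq_mul, Nat.cast_ofNat] at this
  simp only [xiF, this]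
  omega

theorem xi_spec {x : V} (hx : x ∈ leechLattice) : xiF x ∈ leechLattice ∧ zeta x = 2 • xiF x := by
  obtain ⟨y, hy, e⟩ := mem_twoL.mp (zeta_mem hx)
  rw [xiF_eq e]
  exact ⟨hy, e⟩

theorem lmap_xi : LMap xiF := by
  refine ⟨fun x hx => (xi_spec hx).1, fun x hx y hy => ?_, fun x hx => ?_⟩
  · apply xiF_eq
    rw [zeta_add, (xi_spec hx).2, (xi_spec hy).2, smul_add]
  · have h1 := sqNorm_zeta x
    rw [(xi_spec hx).2, sqNorm_two_smul] at h1
    omega

end Cfsg.Agent.H9
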