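import Cfsg.Agent.Lib_H9_Co0c

set_option autoImplicit false

namespace Cfsg.Agent.H9

open Cfsg
open scoped Pointwise

/-! ### packed vectors -/

def fl4 (a j : ℕ) : ℕ := Nat.land (Nat.shiftRight a (Nat.mul 4 j)) 15

def dec (a : ℕ) : V := fun p => (fl4 a (idx p) : ℤ) - 8

theorem fl4_lt (a j : ℕ) : fl4 a j < 16 := Nat.lt_succ_of_le Nat.and_le_right

theorem testBit_fl4 (t i j : ℕ) : (fl4 t i).testBit j = (t.testBit (4 * i + j) && decide (j < 4)) := by
  show ((t >>> (4 * i)) &&& 15).testBit j = _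
  rw [Nat.testBit_and, Nat.testBit_shiftRight]
  have : (15 : ℕ) = 2 ^ 4 - 1 := by norm_num
  rw [this, Nat.testBit_two_pow_sub_one]

theorem dec_pt (a : ℕ) {j : ℕ} (hj : j < 24) : dec a (pt j) = (fl4 a j : ℤ) - 8 := by
  simp only [dec, idx_pt hj]

theorem dec_inj {a b : ℕ} (h : a < 2 ^ 96) (h' : b < 2 ^ 96) (he : dec a = dec b) : a = b := by
  apply Nat.eq_of_testBit_eq
  intro n
  by_cases hn : n < 96
  · have h0 : fl4 a (n / 4) = fl4 b (n / 4) := by
      have := congrFun he (pt (n / 4))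
      rw [dec_pt _ (by omega), dec_pt _ (by omega)] at this
      omega
    have h1 := congrArg (fun x => x.testBit (n % 4)) h0
    simp only [testBit_fl4] at h1
    have h2 : 4 * (n / 4) + n % 4 = n := by omega
    have h3 : n % 4 < 4 := by omega
    simpa [h2, h3] using h1
  · have e1 : a.testBit n = false := Nat.testBit_eq_false_of_lt
      (lt_of_lt_of_le h (Nat.pow_le_pow_right (by norm_num) (by omega)))
    have e2 : b.testBit n = false := Nat.testBit_eq_false_of_lt
      (lt_of_lt_of_le h' (Nat.pow_le_pow_right (by norm_num) (by omega)))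
    rw [e1, e2]

/-! ### checking single steps -/

def monoOK (S c a b : ℕ) : Bool :=
  allBelow (fun j => Nat.beq (fl4 b (app S j))
    (bsel (bit c (app S j)) (Nat.sub 16 (fl4 a j)) (fl4 a j))) 24

theorem monoOK_spec {S c a b : ℕ} (hS : isPerm S = true) (h : monoOK S c a b = true) :
    signedPerm (permOf S) (ofMask c) (dec a) = dec b := by
  ext i
  set q := (permOf S).symm i with hq
  have hi : i = pt (app S (idx q)) := by rw [← permOf_apply hS, hq, Equiv.apply_symm_apply]
  have hj := idx_lt q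
  have h1 := Nat.eq_of_beq_eq_true ((allBelow_iff _ _).mp h (idx q) hj)
  have h2 : idx i = app S (idx q) := by rw [hi, idx_pt (app_lt hS hj)]
  have h3 : i ∈ ofMask c ↔ c.testBit (app S (idx q)) = true := by
    rw [ofMask, Finset.mem_filter, h2]; simp
  have h4 := fl4_lt a (idx q)
  rw [bsel_eq, bit_eq] at h1
  unfold signedPerm
  rw [← hq]
  simp only [dec, h2, h1]
  by_cases hc : c.testBit (app S (idx q)) = true
  · rw [if_pos (h3.mpr hc), if_pos hc]
    have e : Nat.sub 16 (fl4 a (idx q)) = 16 - fl4 a (idx q) := rfl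
    rw [e]
    omega
  · rw [if_neg (fun hh => hc (h3.mp hh)), if_neg hc]

def xiOK (a b : ℕ) : Bool :=
  allBelow (fun j => force (Nat.add (Nat.add (fl4 a (mem4 j 0)) (fl4 a (mem4 j 1)))
      (Nat.add (fl4 a (mem4 j 2)) (fl4 a (mem4 j 3)))) fun F =>
    bsel (Nat.blt j 4) (Nat.beq (Nat.add (Nat.mul 2 (fl4 b j)) (Nat.mul 2 (fl4 a j))) F)
      (Nat.beq (Nat.add (Nat.mul 2 (fl4 b j)) F) (Nat.add (Nat.mul 2 (fl4 a j)) 32))) 24

theorem xiOK_spec {a b : ℕ} (h : xiOK a b = true) : xiF (dec a) = dec b := by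
  apply xiF_eq
  ext p
  have hp := idx_lt p
  have h1 := (allBelow_iff _ _).mp h (idx p) hp
  rw [force_eq, bsel_eq] at h1
  simp only [zeta, vecF, zetaF, dec_pt a hp, dec_pt a (mem4_lt _ hp 0 (by norm_num)),
    dec_pt a (mem4_lt _ hp 1 (by norm_num)), dec_pt a (mem4_lt _ hp 2 (by norm_num)),
    dec_pt a (mem4_lt _ hp 3 (by norm_num)), Pi.smul_apply, nsmul_eq_mul, Nat.cast_ofNat, sgF, bsel_eq]
  simp only [dec]
  by_cases hb : Nat.blt (idx p) 4 = true
  · rw [if_pos hb] at h1 ⊢
    have h2 := Nat.eq_of_beq_eq_true h1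
    have h3 : 2 * fl4 b (idx p) + 2 * fl4 a (idx p) = (fl4 a (mem4 (idx p) 0) + fl4 a (mem4 (idx p) 1)) +
      (fl4 a (mem4 (idx p) 2) + fl4 a (mem4 (idx p) 3)) := h2
    omega
  · rw [if_neg hb] at h1 ⊢
    have h2 := Nat.eq_of_beq_eq_true h1
    have h3 : 2 * fl4 b (idx p) + ((fl4 a (mem4 (idx p) 0) + fl4 a (mem4 (idx p) 1)) +
      (fl4 a (mem4 (idx p) 2) + fl4 a (mem4 (idx p) 3))) = 2 * fl4 a (idx p) + 32 := h2
    omega

/-! ### tables -/

def nth (L : List ℕ) : ℕ → ℕ :=
  List.rec (motive := fun _ => ℕ → ℕ) (fun _ => 0)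
    (fun h _ ih i => Nat.rec (motive := fun _ => ℕ) h (fun k _ => ih k) i) L

def getE (L : List ℕ) (i : ℕ) : ℕ :=
  Nat.land (Nat.shiftRight (nth L (Nat.shiftRight i 10)) (Nat.mul 128 (Nat.land i 1023)))
    340282366920938463463374607431768211455

def vecOf (e : ℕ) : ℕ := Nat.shiftRight e 32
def depOf (e : ℕ) : ℕ := Nat.land (Nat.shiftRight e 20) 4095

theorem vecOf_getE_lt (L : List ℕ) (i : ℕ) : vecOf (getE L i) < 2 ^ 96 := by
  have h : getE L i < 2 ^ 128 := Nat.lt_succ_of_le Nat.and_le_right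
  show getE L i >>> 32 < 2 ^ 96
  rw [Nat.shiftRight_eq_div_pow]
  apply Nat.div_lt_of_lt_mul
  calc getE L i < 2 ^ 128 := h
    _ = 2 ^ 32 * 2 ^ 96 := by norm_num

def genS (gT g : ℕ) : ℕ :=
  Nat.land (Nat.shiftRight gT (Nat.mul 144 g)) 1329227995784915872903807060280344575
def genC (gT g : ℕ) : ℕ := Nat.land (Nat.shiftRight gT (Nat.add (Nat.mul 144 g) 120)) 16777215

theorem genC_lt (gT g : ℕ) : genC gT g < 2 ^ 24 := Nat.lt_succ_of_le Nat.and_le_right

def gensOK (gT fx : ℕ) : Bool :=
  allBelow (fun g => inM24 (genS gT g) && isCode (genC gT g) &&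
    monoOK (genS gT g) (genC gT g) fx fx) 6 && xiOK fx fx

def entOK (L : List ℕ) (gT root N i : ℕ) : Bool :=
  force (getE L i) fun e =>
  force (Nat.land e 131071) fun p =>
  force (getE L p) fun e' =>
  force (Nat.land (Nat.shiftRight e 17) 7) fun g =>
  force (vecOf e) fun b =>
  force (vecOf e') fun a =>
    bsel (Nat.beq g 7) (Nat.beq b root)
      (Nat.blt p N && Nat.blt (depOf e') (depOf e) &&
        bsel (Nat.beq g 6) (xiOK a b)
          (Nat.blt g 6 && force (genS gT g) fun S => force (genC gT g) fun c => monoOK S c a b))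

def srtOK (L : List ℕ) (N i : ℕ) : Bool :=
  Nat.beq (Nat.succ i) N || Nat.blt (vecOf (getE L i)) (vecOf (getE L (Nat.succ i)))

def allB2 (p : ℕ → Bool) (n : ℕ) : Bool :=
  allBelow (fun k => allBelow (fun r => p (Nat.add (Nat.mul 1024 k) r)) 1024) (Nat.div n 1024) &&
    allBelow (fun r => p (Nat.add (Nat.mul 1024 (Nat.div n 1024)) r)) (Nat.mod n 1024)

theorem allB2_spec {p : ℕ → Bool} {n : ℕ} (h : allB2 p n = true) {i : ℕ} (hi : i < n) : p i = true := by
  unfold allB2 at h
  rw [Bool.and_eq_true, allBelow_iff, allBelow_iff] at h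
  have e1 : Nat.div n 1024 = n / 1024 := rfl
  have e2 : Nat.mod n 1024 = n % 1024 := rfl
  rw [e1, e2] at h
  by_cases hk : i / 1024 < n / 1024
  · have := (allBelow_iff _ _).mp (h.1 _ hk) (i % 1024) (by omega)
    have e : Nat.add (Nat.mul 1024 (i / 1024)) (i % 1024) = i := Nat.div_add_mod i 1024
    rwa [e] at this
  · have hk' : i / 1024 = n / 1024 := by
      have : i / 1024 ≤ n / 1024 := Nat.div_le_div_right hi.le
      omega
    have := h.2 (i % 1024) (by omega)
    have e : Nat.add (Nat.mul 1024 (n / 1024)) (i % 1024) = i := by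
      rw [← hk']; exact Nat.div_add_mod i 1024
    rwa [e] at this

def tblOK (L : List ℕ) (gT root N : ℕ) : Bool :=
  allB2 (fun i => entOK L gT root N i && srtOK L N i) N

/-! ### orbits -/

def InOrb (F r : leechLattice) (y : V) : Prop :=
  ∃ γ : Co0, γ • F = F ∧ ((γ • r : leechLattice) : V) = y

theorem InOrb.step {F r : leechLattice} {f : V → V} (hf : LMap f) (hfix : f F = F) {y : V}
    (h : InOrb F r y) : InOrb F r (f y) := by
  obtain ⟨γ, h1, h2⟩ := h
  refine ⟨hf.toCo0 * γ, ?_, ?_⟩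
  · rw [mul_smul, h1]
    exact Subtype.ext ((hf.toCo0_apply F).trans hfix)
  · rw [mul_smul, hf.toCo0_apply, h2]

theorem cert_orbit {L : List ℕ} {gT root N fx : ℕ} {F r : leechLattice} (hF : (F : V) = dec fx)
    (hr : (r : V) = dec root) (hg : gensOK gT fx = true) (h : ∀ i < N, entOK L gT root N i = true) :
    ∀ i < N, InOrb F r (dec (vecOf (getE L i))) := by
  unfold gensOK at hg
  rw [Bool.and_eq_true, allBelow_iff] at hg
  have key : ∀ d, ∀ i < N, depOf (getE L i) = d → InOrb F r (dec (vecOf (getE L i))) := by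
    intro d
    induction d using Nat.strong_induction_on with
    | _ d ih =>
      intro i hi hd
      have h1 := h i hi
      simp only [entOK, force_eq, bsel_eq] at h1
      split_ifs at h1 with hg7 hg6
      · rw [Nat.eq_of_beq_eq_true h1, ← hr]
        exact ⟨1, one_smul _ _, by rw [one_smul]⟩
      · simp only [Bool.and_eq_true] at h1
        obtain ⟨⟨hp, hdp⟩, hx⟩ := h1
        rw [Nat.blt_eq] at hp hdp
        have := ih _ (hd ▸ hdp) _ hp rfl
        rw [← xiOK_spec hx]
        exact this.step lmap_xi (by rw [hF]; exact xiOK_spec hg.2)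
      · simp only [Bool.and_eq_true] at h1
        obtain ⟨⟨hp, hdp⟩, hg', hx⟩ := h1
        rw [Nat.blt_eq] at hp hdp hg'
        have := ih _ (hd ▸ hdp) _ hp rfl
        have hgg := hg.1 _ hg'
        simp only [Bool.and_eq_true] at hgg
        obtain ⟨⟨hm, hc⟩, hfx⟩ := hgg
        rw [← monoOK_spec (inM24_isPerm hm) hx]
        refine this.step (lmap_mono (permOf_mem_M24 hm) ?_) (by rw [hF]; exact monoOK_spec (inM24_isPerm hm) hfx)
        exact (ofMask_mem_CC_iff (genC_lt _ _)).mpr (isCode_iff.mp hc)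
  exact fun i hi => key _ i hi rfl

theorem cert_main {L : List ℕ} {gT root N fx : ℕ} {F r : leechLattice} (hF : (F : V) = dec fx)
    (hr : (r : V) = dec root) (hg : gensOK gT fx = true) (h : tblOK L gT root N = true) :
    ∃ T : Finset V, T.card = N ∧ ∀ y ∈ T, InOrb F r y := by
  classical
  have h1 : ∀ i < N, entOK L gT root N i = true ∧ srtOK L N i = true := by
    intro i hi
    have := allB2_spec h hi
    rwa [Bool.and_eq_true] at this
  have hs : ∀ j, ∀ i < j, j < N → vecOf (getE L i) < vecOf (getE L j) := by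
    intro j
    induction j with
    | zero => intro i hi; omega
    | succ j ih =>
      intro i hi hj
      have h2 := (h1 j (by omega)).2
      unfold srtOK at h2
      rw [Bool.or_eq_true, Nat.beq_eq, Nat.blt_eq] at h2
      have h3 : vecOf (getE L j) < vecOf (getE L (j + 1)) := by
        rcases h2 with h2 | h2
        · exact absurd h2 (by show j + 1 ≠ N; omega)
        · exact h2
      rcases Nat.lt_succ_iff_lt_or_eq.mp hi with h4 | rfl
      · exact (ih i h4 (by omega)).trans h3
      · exact h3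
  refine ⟨(Finset.range N).image (fun i => dec (vecOf (getE L i))), ?_, ?_⟩
  · rw [Finset.card_image_of_injOn, Finset.card_range]
    intro i hi j hj e
    have hi' : i < N := Finset.mem_range.mp hi
    have hj' : j < N := Finset.mem_range.mp hj
    have e' := dec_inj (vecOf_getE_lt L i) (vecOf_getE_lt L j) e
    rcases lt_trichotomy i j with hl | hl | hl
    · exact absurd e' (hs j i hl hj').ne
    · exact hl
    · exact absurd e' (hs i j hl hi').ne'
  · intro y hy
    obtain ⟨i, hi, rfl⟩ := Finset.mem_image.mp hy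
    exact cert_orbit hF hr hg (fun i hi => (h1 i hi).1) i (Finset.mem_range.mp hi)

end Cfsg.Agent.H9
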