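import Cfsg.Agent.Lib_H9_CoTA
import Cfsg.Agent.Lib_H9_CoTB
import Cfsg.Agent.Lib_H9_CoTC

set_option autoImplicit false

namespace Cfsg.Agent.H9

open Cfsg
open scoped Pointwise

def decF (a : ℕ) (j : ℕ) : ℤ := (fl4 a j : ℤ) - 8

theorem dec_mem {a : ℕ} (h : inLF (decF a) = true) : dec a ∈ leechLattice := inLF_spec h

def nrmP (a : ℕ) : ℤ := sumR (fun j => decF a j ^ 2) 24

theorem sqNorm_dec (a : ℕ) : sqNorm (dec a) = nrmP a := sqNorm_vecF (decF a)

def dotP (a b : ℕ) : ℤ := sumR (fun j => decF a j * decF b j) 24

theorem dotInt_dec (a b : ℕ) : dotInt (dec a) (dec b) = dotP a b :=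
  sum_vecF (fun j => decF a j * decF b j)

def v0L : leechLattice := ⟨dec fx2, dec_mem (by decide +kernel)⟩
def rAL : leechLattice := ⟨dec rtA, dec_mem (by decide +kernel)⟩
def rBL : leechLattice := ⟨dec rtB, dec_mem (by decide +kernel)⟩
def rCL : leechLattice := ⟨dec rtC, dec_mem (by decide +kernel)⟩

theorem norm_v0 : sqNorm (v0L : V) = 32 := (sqNorm_dec _).trans (by decide +kernel)
theorem norm_rA : sqNorm (rAL : V) = 32 := (sqNorm_dec _).trans (by decide +kernel)
theorem norm_rB : sqNorm (rBL : V) = 32 := (sqNorm_dec _).trans (by decide +kernel)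
theorem norm_rC : sqNorm (rCL : V) = 32 := (sqNorm_dec _).trans (by decide +kernel)
theorem dot_rA : dotInt (v0L : V) (rAL : V) = -16 := (dotInt_dec _ _).trans (by decide +kernel)
theorem dot_rB : dotInt (v0L : V) (rBL : V) = -8 := (dotInt_dec _ _).trans (by decide +kernel)
theorem dot_rC : dotInt (v0L : V) (rCL : V) = 0 := (dotInt_dec _ _).trans (by decide +kernel)

theorem InOrb.mem {F r : leechLattice} {y : V} (h : InOrb F r y) :
    y ∈ leechLattice ∧ sqNorm y = sqNorm (r : V) ∧ dotInt (F : V) y = dotInt (F : V) (r : V) := by
  obtain ⟨γ, h1, rfl⟩ := h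
  refine ⟨(γ • r).2, Co0_norm γ r, ?_⟩
  have := Co0_dot γ F r
  rwa [h1] at this

/-! ### links between the roots -/

def gT3 : ℕ := 14805767057921448658792669216063253706636474239452667733230036704640449040855543344632694702763483389460303415388608878652990429455341768399662984798405726458839282796184508162436528294024026886208595109886006167865117331734185913937707818861300204634556813869

def fx0 : ℕ := 42255020007607646716556773512

def tbL : List ℕ := [183746667002969969788919954638763659637648467078029813897275734221717110921024794244752918610840587849154318961363509936891546480376077024087187831791121116364772155101043418285655371906539407288651576644548824521085547885262952106797992857493154695798081403992207613684446932784770560727188160658451475197440081904360283149681401076358839259239320067453505702809863426225019493943357850776689577327299311705922847644972977697582004183474961564925165990424421525478830731311001049373261116710500991754693040927074631781073702252804312793089]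

theorem gens3_ok : gensOK gT3 fx0 = true := by decide +kernel

theorem tbL_ok : allBelow (entOK tbL gT3 fx2 14) 14 = true := by decide +kernel

theorem dec_fx0 : ((0 : leechLattice) : V) = dec fx0 := by
  ext p
  have : ∀ j < 24, fl4 fx0 j = 8 := by decide +kernel
  simp only [dec, this _ (idx_lt p)]
  rfl

theorem link (i : ℕ) (hi : i < 14) : InOrb 0 v0L (dec (vecOf (getE tbL i))) :=
  cert_orbit dec_fx0 rfl gens3_ok (fun i hi => (allBelow_iff _ _).mp tbL_ok i hi) i hi

theorem link_A : ∃ g : Co0, g • v0L = rAL := by
  obtain ⟨g, _, h⟩ := link 6 (by norm_num)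
  have e : vecOf (getE tbL 6) = rtA := by decide +kernel
  exact ⟨g, Subtype.ext (h.trans (by rw [e]; rfl))⟩

theorem link_B : ∃ g : Co0, g • v0L = rBL := by
  obtain ⟨g, _, h⟩ := link 13 (by norm_num)
  have e : vecOf (getE tbL 13) = rtB := by decide +kernel
  exact ⟨g, Subtype.ext (h.trans (by rw [e]; rfl))⟩

theorem link_C : ∃ g : Co0, g • v0L = rCL := by
  obtain ⟨g, _, h⟩ := link 7 (by norm_num)
  have e : vecOf (getE tbL 7) = rtC := by decide +kernel
  exact ⟨g, Subtype.ext (h.trans (by rw [e]; rfl))⟩

end Cfsg.Agent.H9
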