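import Cfsg.Agent.Lib_H9_Co0e

set_option autoImplicit false

namespace Cfsg.Agent.H9

open Cfsg
open scoped Pointwise

theorem fin2 : {x : V | x ∈ leechLattice ∧ sqNorm x = 32}.Finite :=
  (shell_finite 32).subset (fun _ hx => hx.2)

noncomputable def Sh : Finset V := fin2.toFinset

theorem mem_Sh {x : V} : x ∈ Sh ↔ x ∈ leechLattice ∧ sqNorm x = 32 := by
  unfold Sh
  rw [Set.Finite.mem_toFinset]
  rfl

theorem card_Sh : Sh.card = 196560 := by
  unfold Sh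
  rw [← Set.ncard_eq_toFinset_card _ fin2]
  exact S0394.result

noncomputable def Y (t : ℤ) : Finset V := Sh.filter (fun w => dotInt (v0L : V) w = t)

theorem mem_Y {t : ℤ} {w : V} :
    w ∈ Y t ↔ w ∈ leechLattice ∧ sqNorm w = 32 ∧ dotInt (v0L : V) w = t := by
  unfold Y
  rw [Finset.mem_filter, mem_Sh, and_assoc]

theorem dotInt_neg_right (x y : V) : dotInt x (-y) = -dotInt x y := by
  unfold dotInt
  rw [← Finset.sum_neg_distrib]
  apply Finset.sum_congr rfl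
  intro i _
  simp only [Pi.neg_apply]; ring

theorem neg_mem_Y {t : ℤ} {w : V} (h : w ∈ Y t) : -w ∈ Y (-t) := by
  rw [mem_Y] at h ⊢
  exact ⟨leechLattice.neg_mem h.1, by rw [sqNorm_neg]; exact h.2.1, by rw [dotInt_neg_right, h.2.2]⟩

theorem card_Y_neg (t : ℤ) : (Y t).card ≤ (Y (-t)).card :=
  Finset.card_le_card_of_injOn (fun w => -w) (fun _ hw => neg_mem_Y hw) (neg_injective.injOn)

def JJ : Finset ℤ := {-32, -16, -8, 0, 8, 16, 32}

theorem biU_sub : JJ.biUnion Y ⊆ Sh := Finset.biUnion_subset.mpr fun _ _ => Finset.filter_subset _ _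

theorem card_biU : (JJ.biUnion Y).card = ∑ t ∈ JJ, (Y t).card := by
  apply Finset.card_biUnion
  intro s _ t _ hst
  exact Finset.disjoint_filter.mpr (fun w _ h1 h2 => hst (h1.symm.trans h2))

theorem sum_JJ (f : ℤ → ℕ) : ∑ t ∈ JJ, f t = f (-32) + f (-16) + f (-8) + f 0 + f 8 + f 16 + f 32 := by
  unfold JJ
  rw [Finset.sum_insert (by decide), Finset.sum_insert (by decide), Finset.sum_insert (by decide),
    Finset.sum_insert (by decide), Finset.sum_insert (by decide), Finset.sum_insert (by decide),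
    Finset.sum_singleton]
  ring

theorem sub_Y {T : Finset V} {r : leechLattice} {t : ℤ} (hn : sqNorm (r : V) = 32)
    (hd : dotInt (v0L : V) (r : V) = t) (h : ∀ y ∈ T, InOrb v0L r y) : T ⊆ Y t := by
  intro y hy
  obtain ⟨h1, h2, h3⟩ := (h y hy).mem
  exact mem_Y.mpr ⟨h1, h2.trans hn, h3.trans hd⟩

theorem v0_mem_Y : (v0L : V) ∈ Y 32 := mem_Y.mpr ⟨v0L.2, norm_v0, by rw [dotInt_self, norm_v0]⟩

theorem Y_all : (∀ w ∈ Y (-16), InOrb v0L rAL w) ∧ (∀ w ∈ Y (-8), InOrb v0L rBL w) ∧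
    (∀ w ∈ Y 0, InOrb v0L rCL w) ∧ (Y (-16)).card = 4600 ∧ (Y (-8)).card = 47104 ∧ (Y 0).card = 93150 ∧
    JJ.biUnion Y = Sh := by
  obtain ⟨TA, cA, hA⟩ : ∃ T : Finset V, T.card = 4600 ∧ ∀ y ∈ T, InOrb v0L rAL y :=
    cert_main rfl rfl gens2_ok tbA_ok
  obtain ⟨TB, cB, hB⟩ : ∃ T : Finset V, T.card = 47104 ∧ ∀ y ∈ T, InOrb v0L rBL y :=
    cert_main rfl rfl gens2_ok tbB_ok
  obtain ⟨TC, cC, hC⟩ : ∃ T : Finset V, T.card = 93150 ∧ ∀ y ∈ T, InOrb v0L rCL y :=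
    cert_main rfl rfl gens2_ok tbC_ok
  have sA := sub_Y norm_rA dot_rA hA
  have sB := sub_Y norm_rB dot_rB hB
  have sC := sub_Y norm_rC dot_rC hC
  have lA := Finset.card_le_card sA
  have lB := Finset.card_le_card sB
  have lC := Finset.card_le_card sC
  have n16 := card_Y_neg (-16)
  have n8 := card_Y_neg (-8)
  have p32 : 1 ≤ (Y 32).card := Finset.card_pos.mpr ⟨_, v0_mem_Y⟩
  have m32 : 1 ≤ (Y (-32)).card := Finset.card_pos.mpr ⟨_, neg_mem_Y v0_mem_Y⟩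
  have tot := Finset.card_le_card biU_sub
  rw [card_biU, sum_JJ, card_Sh] at tot
  rw [neg_neg] at n16 n8
  have eA : TA = Y (-16) := Finset.eq_of_subset_of_card_le sA (by omega)
  have eB : TB = Y (-8) := Finset.eq_of_subset_of_card_le sB (by omega)
  have eC : TC = Y 0 := Finset.eq_of_subset_of_card_le sC (by omega)
  refine ⟨eA ▸ hA, eB ▸ hB, eC ▸ hC, by omega, by omega, by omega, ?_⟩
  apply Finset.eq_of_subset_of_card_le biU_sub
  rw [card_biU, sum_JJ, card_Sh]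
  omega

theorem lmap_neg : LMap (fun x : V => -x) :=
  ⟨fun _ hx => leechLattice.neg_mem hx, fun x _ y _ => neg_add x y, fun x _ => sqNorm_neg x⟩

noncomputable def negC : Co0 := lmap_neg.toCo0

theorem negC_smul (v : leechLattice) : negC • v = -v := Subtype.ext rfl

theorem of_orb {r : leechLattice} (hl : ∃ g : Co0, g • v0L = r) {y : leechLattice}
    (h : InOrb v0L r (y : V)) : ∃ g : Co0, g • v0L = y := by
  obtain ⟨g, hg⟩ := hl
  obtain ⟨γ, _, h2⟩ := h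
  exact ⟨γ * g, by rw [mul_smul, hg]; exact Subtype.ext h2⟩

theorem of_neg {y : leechLattice} (h : ∃ g : Co0, g • v0L = -y) : ∃ g : Co0, g • v0L = y := by
  obtain ⟨g, hg⟩ := h
  exact ⟨negC * g, by rw [mul_smul, hg, negC_smul, neg_neg]⟩

theorem trans0 (w : leechLattice) (hw : sqNorm (w : V) = 32) : ∃ g : Co0, g • v0L = w := by
  obtain ⟨oA, oB, oC, _, _, _, hU⟩ := Y_all
  have hS : (w : V) ∈ JJ.biUnion Y := by rw [hU]; exact mem_Sh.mpr ⟨w.2, hw⟩
  obtain ⟨t, ht, hwt⟩ := Finset.mem_biUnion.mp hS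
  have hd := (mem_Y.mp hwt).2.2
  have hneg : ((-w : leechLattice) : V) ∈ Y (-t) := neg_mem_Y hwt
  unfold JJ at ht
  simp only [Finset.mem_insert, Finset.mem_singleton] at ht
  rcases ht with rfl | rfl | rfl | rfl | rfl | rfl | rfl
  · apply of_neg
    refine ⟨1, ?_⟩
    rw [one_smul]
    have h0 := sqNorm_add (v0L : V) (w : V)
    rw [norm_v0, hw, hd] at h0
    have h1 := sqNorm_eq_zero (h0.trans (by norm_num))
    exact Subtype.ext (eq_neg_of_add_eq_zero_left h1)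
  · exact of_orb link_A (oA _ hwt)
  · exact of_orb link_B (oB _ hwt)
  · exact of_orb link_C (oC _ hwt)
  · exact of_neg (of_orb link_B (oB _ hneg))
  · exact of_neg (of_orb link_A (oA _ hneg))
  · refine ⟨1, ?_⟩
    rw [one_smul]
    have h0 := sqNorm_sub (v0L : V) (w : V)
    rw [norm_v0, hw, hd] at h0
    have h1 := sqNorm_eq_zero (h0.trans (by norm_num))
    exact Subtype.ext (sub_eq_zero.mp h1)

theorem trans2 (v w : leechLattice) (hv : sqNorm (v : V) = 32) (hw : sqNorm (w : V) = 32) :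
    ∃ g : Co0, g • v = w := by
  obtain ⟨g, hg⟩ := trans0 v hv
  obtain ⟨g', hg'⟩ := trans0 w hw
  exact ⟨g' * g⁻¹, by rw [mul_smul, ← hg, inv_smul_smul, hg']⟩

theorem trans_pair {t : ℤ} {r : leechLattice} (hr : ∀ w ∈ Y t, InOrb v0L r w) (v w w' : leechLattice)
    (hv : sqNorm (v : V) = 32) (hw : sqNorm (w : V) = 32) (hw' : sqNorm (w' : V) = 32)
    (hd : dotInt (v : V) (w : V) = t) (hd' : dotInt (v : V) (w' : V) = t) :
    ∃ g : Co0, g • v = v ∧ g • w = w' := by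
  obtain ⟨g, hg⟩ := trans2 v v0L hv norm_v0
  have h1 : ((g • w : leechLattice) : V) ∈ Y t :=
    mem_Y.mpr ⟨(g • w).2, by rw [Co0_norm]; exact hw, by rw [← hg, Co0_dot]; exact hd⟩
  have h2 : ((g • w' : leechLattice) : V) ∈ Y t :=
    mem_Y.mpr ⟨(g • w').2, by rw [Co0_norm]; exact hw', by rw [← hg, Co0_dot]; exact hd'⟩
  obtain ⟨γ1, f1, e1⟩ := hr _ h1
  obtain ⟨γ2, f2, e2⟩ := hr _ h2
  have e1' : γ1 • r = g • w := Subtype.ext e1
  have e2' : γ2 • r = g • w' := Subtype.ext e2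
  refine ⟨g⁻¹ * γ2 * γ1⁻¹ * g, ?_, ?_⟩
  · rw [mul_smul, mul_smul, mul_smul, hg, inv_smul_eq_iff.mpr f1.symm, f2, ← hg, inv_smul_smul]
  · rw [mul_smul, mul_smul, mul_smul, ← e1', inv_smul_smul, e2', inv_smul_smul]

theorem count_at (t : ℤ) (v : V) (hv : v ∈ leechLattice) (hvn : sqNorm v = 32) :
    {w : V | w ∈ leechLattice ∧ sqNorm w = 32 ∧ dotInt v w = t}.ncard = (Y t).card := by
  obtain ⟨g, hg⟩ := trans2 ⟨v, hv⟩ v0L hvn norm_v0
  rw [← Set.ncard_coe_finset (Y t)]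
  refine Set.ncard_congr (fun a ha => ((g • (⟨a, ha.1⟩ : leechLattice) : leechLattice) : V)) ?_ ?_ ?_
  · intro a ha
    rw [Finset.mem_coe, mem_Y]
    refine ⟨(g • (⟨a, ha.1⟩ : leechLattice)).2, by rw [Co0_norm]; exact ha.2.1, ?_⟩
    rw [← hg, Co0_dot]; exact ha.2.2
  · intro a b ha hb e
    have := smul_left_cancel g (Subtype.ext e)
    exact congrArg Subtype.val this
  · intro b hb
    rw [Finset.mem_coe, mem_Y] at hb
    refine ⟨((g⁻¹ • (⟨b, hb.1⟩ : leechLattice) : leechLattice) : V), ⟨(g⁻¹ • (⟨b, hb.1⟩ : leechLattice)).2,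
      by rw [Co0_norm]; exact hb.2.1, ?_⟩, ?_⟩
    · have h1 : (⟨v, hv⟩ : leechLattice) = g⁻¹ • v0L := by rw [← hg, inv_smul_smul]
      have h2 := Co0_dot g⁻¹ v0L ⟨b, hb.1⟩
      rw [← h1] at h2
      exact h2.trans hb.2.2
    · show ((g • (g⁻¹ • (⟨b, hb.1⟩ : leechLattice)) : leechLattice) : V) = b
      rw [smul_inv_smul]

end Cfsg.Agent.H9
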