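import Cfsg.Agent.Lib_H9_Co0f

set_option autoImplicit false

namespace Cfsg.Agent.H9

open Cfsg
open scoped Pointwise

/-! ### two-level sums -/

def sumB (f : ℕ → ℕ) (n : ℕ) : ℕ := Nat.rec (motive := fun _ => ℕ) 0 (fun i acc => Nat.add acc (f i)) n

theorem sumB_eq (f : ℕ → ℕ) (n : ℕ) : sumB f n = ∑ i ∈ Finset.range n, f i := by
  induction n with
  | zero => rfl
  | succ n ih => rw [Finset.sum_range_succ, ← ih]; rfl

def sumB2 (f : ℕ → ℕ) (n : ℕ) : ℕ :=
  Nat.add (sumB (fun k => sumB (fun r => f (Nat.add (Nat.mul 1024 k) r)) 1024) (Nat.div n 1024))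
    (sumB (fun r => f (Nat.add (Nat.mul 1024 (Nat.div n 1024)) r)) (Nat.mod n 1024))

theorem sum_blocks (f : ℕ → ℕ) (K : ℕ) :
    ∑ k ∈ Finset.range K, ∑ r ∈ Finset.range 1024, f (1024 * k + r) = ∑ i ∈ Finset.range (1024 * K), f i := by
  induction K with
  | zero => rw [Nat.mul_zero, Finset.sum_range_zero, Finset.sum_range_zero]
  | succ K ih => rw [Finset.sum_range_succ, ih, Nat.mul_succ, Finset.sum_range_add]

theorem sumB2_eq (f : ℕ → ℕ) (n : ℕ) : sumB2 f n = ∑ i ∈ Finset.range n, f i := by
  unfold sumB2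
  simp only [sumB_eq]
  show (∑ k ∈ Finset.range (n / 1024), ∑ r ∈ Finset.range 1024, f (1024 * k + r)) +
    ∑ r ∈ Finset.range (n % 1024), f (1024 * (n / 1024) + r) = _
  rw [sum_blocks, ← Finset.sum_range_add, Nat.div_add_mod]

/-! ### tables as finite sets -/

noncomputable def tabF (L : List ℕ) (N : ℕ) : Finset V :=
  (Finset.range N).image (fun i => dec (vecOf (getE L i)))

theorem tab_inj {L : List ℕ} {gT root N : ℕ} (h : tblOK L gT root N = true) :
    Set.InjOn (fun i => dec (vecOf (getE L i))) (Finset.range N : Set ℕ) := by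
  have h1 : ∀ i < N, srtOK L N i = true := by
    intro i hi
    have := allB2_spec h hi
    rw [Bool.and_eq_true] at this
    exact this.2
  have hs : ∀ j, ∀ i < j, j < N → vecOf (getE L i) < vecOf (getE L j) := by
    intro j
    induction j with
    | zero => intro i hi; omega
    | succ j ih =>
      intro i hi hj
      have h2 := h1 j (by omega)
      unfold srtOK at h2
      rw [Bool.or_eq_true, Nat.beq_eq, Nat.blt_eq] at h2
      have h3 : vecOf (getE L j) < vecOf (getE L (j + 1)) := by
        rcases h2 with h2 | h2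
        · exact absurd h2 (by show j + 1 ≠ N; omega)
        · exact h2
      rcases Nat.lt_succ_iff_lt_or_eq.mp hi with h4 | rfl
      · exact (ih i h4 (by omega)).trans h3
      · exact h3
  intro i hi j hj e
  have hi' : i < N := Finset.mem_range.mp hi
  have hj' : j < N := Finset.mem_range.mp hj
  have e' := dec_inj (vecOf_getE_lt L i) (vecOf_getE_lt L j) e
  rcases lt_trichotomy i j with hl | hl | hl
  · exact absurd e' (hs j i hl hj').ne
  · exact hl
  · exact absurd e' (hs i j hl hi').ne'

theorem tab_card {L : List ℕ} {gT root N : ℕ} (h : tblOK L gT root N = true) : (tabF L N).card = N := by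
  unfold tabF
  rw [Finset.card_image_of_injOn (tab_inj h), Finset.card_range]

theorem tab_orb {L : List ℕ} {gT root N fx : ℕ} {F r : leechLattice} (hF : (F : V) = dec fx)
    (hr : (r : V) = dec root) (hg : gensOK gT fx = true) (h : tblOK L gT root N = true) :
    ∀ y ∈ tabF L N, InOrb F r y := by
  intro y hy
  obtain ⟨i, hi, rfl⟩ := Finset.mem_image.mp hy
  refine cert_orbit hF hr hg (fun i hi => ?_) i (Finset.mem_range.mp hi)
  have := allB2_spec h hi
  rw [Bool.and_eq_true] at this
  exact this.1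

open scoped Classical in
theorem tab_count {L : List ℕ} {gT root N : ℕ} (h : tblOK L gT root N = true) (P : V → Prop) (p : ℕ → Bool)
    (hp : ∀ a, p a = true ↔ P (dec a)) :
    ((tabF L N).filter P).card = ∑ i ∈ Finset.range N, (p (vecOf (getE L i))).toNat := by
  unfold tabF
  rw [Finset.filter_image, Finset.card_image_of_injOn ((tab_inj h).mono (by
    intro i hi
    exact Finset.mem_coe.mpr (Finset.mem_filter.mp (Finset.mem_coe.mp hi)).1)), Finset.card_filter]
  apply Finset.sum_congr rfl
  intro i _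
  by_cases hc : P (dec (vecOf (getE L i)))
  · rw [if_pos hc, (hp _).mpr hc]; rfl
  · rw [if_neg hc]
    have : p (vecOf (getE L i)) = false := by
      rw [← Bool.not_eq_true, hp]; exact hc
    rw [this]; rfl

theorem YA_eq : Y (-16) = tabF tbA 4600 :=
  (Finset.eq_of_subset_of_card_le (sub_Y norm_rA dot_rA (tab_orb rfl rfl gens2_ok tbA_ok))
    (by rw [tab_card tbA_ok, Y_all.2.2.2.1])).symm

theorem YB_eq : Y (-8) = tabF tbB 47104 :=
  (Finset.eq_of_subset_of_card_le (sub_Y norm_rB dot_rB (tab_orb rfl rfl gens2_ok tbB_ok))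
    (by rw [tab_card tbB_ok, Y_all.2.2.2.2.1])).symm

theorem YC_eq : Y 0 = tabF tbC 93150 :=
  (Finset.eq_of_subset_of_card_le (sub_Y norm_rC dot_rC (tab_orb rfl rfl gens2_ok tbC_ok))
    (by rw [tab_card tbC_ok, Y_all.2.2.2.2.2.1])).symm

open scoped Classical in
theorem filter_neg (P P' : V → Prop) (hP' : ∀ x, P' x ↔ P (-x)) (t : ℤ) :
    ((Y (-t)).filter P).card = ((Y t).filter P').card := by
  apply Finset.card_bij (fun x _ => -x)
  · intro x hx
    rw [Finset.mem_filter] at hx ⊢
    have := neg_mem_Y hx.1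
    rw [neg_neg] at this
    exact ⟨this, by rw [hP', neg_neg]; exact hx.2⟩
  · intro a _ b _ e
    exact neg_injective e
  · intro b hb
    rw [Finset.mem_filter] at hb
    exact ⟨-b, Finset.mem_filter.mpr ⟨neg_mem_Y hb.1, (hP' b).mp hb.2⟩, neg_neg b⟩

theorem Y32_eq : Y 32 = {(v0L : V)} := by
  ext w
  rw [Finset.mem_singleton]
  constructor
  · intro hw
    obtain ⟨_, h2, h3⟩ := mem_Y.mp hw
    have h0 := sqNorm_sub (v0L : V) w
    rw [norm_v0, h2, h3] at h0
    exact (sub_eq_zero.mp (sqNorm_eq_zero (h0.trans (by norm_num)))).symm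
  · rintro rfl
    exact v0_mem_Y

def scan (p p' : ℕ → Bool) : ℕ :=
  Nat.add (Nat.add (Nat.add (p fx2).toNat (p' fx2).toNat)
    (sumB2 (fun i => force (vecOf (getE tbA i)) fun a => Nat.add (p a).toNat (p' a).toNat) 4600))
    (Nat.add (sumB2 (fun i => force (vecOf (getE tbB i)) fun a => Nat.add (p a).toNat (p' a).toNat) 47104)
      (sumB2 (fun i => (p (vecOf (getE tbC i))).toNat) 93150))

open scoped Classical in
theorem count_Sh (P P' : V → Prop) (hP' : ∀ x, P' x ↔ P (-x)) (p p' : ℕ → Bool)
    (hp : ∀ a, p a = true ↔ P (dec a)) (hp' : ∀ a, p' a = true ↔ P' (dec a)) :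
    (Sh.filter P).card = scan p p' := by
  have hU := Y_all.2.2.2.2.2.2
  have h1 : (Sh.filter P).card = ∑ t ∈ JJ, ((Y t).filter P).card := by
    rw [← hU, Finset.filter_biUnion]
    apply Finset.card_biUnion
    intro s _ t _ hst
    apply Finset.disjoint_filter_filter
    exact Finset.disjoint_filter.mpr (fun w _ h1 h2 => hst (h1.symm.trans h2))
  have one : ∀ (Q : V → Prop) (q : ℕ → Bool), (∀ a, q a = true ↔ Q (dec a)) →
      ((Y 32).filter Q).card = (q fx2).toNat := by
    intro Q q hq
    rw [Y32_eq, Finset.filter_singleton]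
    by_cases hc : Q (v0L : V)
    · rw [if_pos hc, (hq fx2).mpr hc]; rfl
    · rw [if_neg hc]
      have : q fx2 = false := by
        rw [← Bool.not_eq_true, hq]; exact hc
      rw [this]; rfl
  rw [h1, sum_JJ (fun t => ((Y t).filter P).card), filter_neg P P' hP' 32, one P' p' hp', one P p hp]
  have e16 := filter_neg P P' hP' (-16)
  have e8 := filter_neg P P' hP' (-8)
  rw [neg_neg] at e16 e8
  rw [e16, e8, YA_eq, YB_eq, YC_eq, tab_count tbA_ok P p hp, tab_count tbA_ok P' p' hp',
    tab_count tbB_ok P p hp, tab_count tbB_ok P' p' hp', tab_count tbC_ok P p hp]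
  unfold scan
  simp only [sumB2_eq, force_eq]
  show _ = (((p fx2).toNat + (p' fx2).toNat) + ∑ i ∈ Finset.range 4600, ((p (vecOf (getE tbA i))).toNat +
    (p' (vecOf (getE tbA i))).toNat)) + ((∑ i ∈ Finset.range 47104, ((p (vecOf (getE tbB i))).toNat +
    (p' (vecOf (getE tbB i))).toNat)) + ∑ i ∈ Finset.range 93150, (p (vecOf (getE tbC i))).toNat)
  rw [Finset.sum_add_distrib, Finset.sum_add_distrib]
  ring

end Cfsg.Agent.H9
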