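import Cfsg.Agent.Lib_H9_Co0g

set_option autoImplicit false

namespace Cfsg.Agent.H9

open Cfsg
open scoped Pointwise

/-! ### testing dot products of packed vectors -/

def dotN (u a : ℕ) : ℕ := sumB (fun j => Nat.mul (fl4 u j) (fl4 a j)) 24
def sN (a : ℕ) : ℕ := sumB (fun j => fl4 a j) 24

theorem dotInt_dec' (u a : ℕ) : dotInt (dec u) (dec a) = (dotN u a : ℤ) - 8 * sN u - 8 * sN a + 1536 := by
  rw [dotInt_dec, dotP, sumR_eq, dotN, sN, sN, sumB_eq, sumB_eq, sumB_eq]
  have h : ∀ j, decF u j * decF a j = ((Nat.mul (fl4 u j) (fl4 a j) : ℕ) : ℤ) - 8 * (fl4 u j : ℤ)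
      - 8 * (fl4 a j : ℤ) + 64 := by
    intro j
    have : Nat.mul (fl4 u j) (fl4 a j) = fl4 u j * fl4 a j := rfl
    rw [this]
    unfold decF
    push_cast
    ring
  simp only [h, Finset.sum_add_distrib, Finset.sum_sub_distrib, ← Finset.mul_sum, Finset.sum_const,
    Finset.card_range]
  push_cast
  ring

def dotIs (u c1 c2 a : ℕ) : Bool := Nat.beq (Nat.add (dotN u a) c1) (Nat.add c2 (Nat.mul 8 (sN a)))

theorem dotIs_spec {u c1 c2 : ℕ} {s : ℤ} (hc : (c1 : ℤ) - c2 = 1536 - 8 * sN u - s) (a : ℕ) :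
    dotIs u c1 c2 a = true ↔ dotInt (dec u) (dec a) = s := by
  unfold dotIs
  rw [Nat.beq_eq, dotInt_dec']
  have e : (Nat.add (dotN u a) c1 = Nat.add c2 (Nat.mul 8 (sN a))) ↔ dotN u a + c1 = c2 + 8 * sN a := Iff.rfl
  rw [e]
  omega

/-! ### sums of two minimal vectors -/

theorem finN (n : ℤ) : {x : V | x ∈ leechLattice ∧ sqNorm x = n}.Finite :=
  (shell_finite n).subset (fun _ hx => hx.2)

noncomputable def ShN (n : ℤ) : Finset V := (finN n).toFinset

theorem mem_ShN {n : ℤ} {x : V} : x ∈ ShN n ↔ x ∈ leechLattice ∧ sqNorm x = n := by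
  unfold ShN
  rw [Set.Finite.mem_toFinset]
  rfl

theorem card_ShN (n : ℤ) : (ShN n).card = {x : V | x ∈ leechLattice ∧ sqNorm x = n}.ncard := by
  unfold ShN
  rw [← Set.ncard_eq_toFinset_card _ (finN n)]

open scoped Classical in
noncomputable def kk (u : V) : ℕ := (Sh.filter (fun v => u - v ∈ Sh)).card

open scoped Classical in
theorem kk_le (g : Co0) (u : leechLattice) : kk (u : V) ≤ kk ((g • u : leechLattice) : V) := by
  unfold kk
  refine Finset.card_le_card_of_injOn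
    (fun v => if hv : v ∈ leechLattice then ((g • (⟨v, hv⟩ : leechLattice) : leechLattice) : V) else 0) ?_ ?_
  · intro v hv
    rw [Finset.mem_coe, Finset.mem_filter, mem_Sh, mem_Sh] at hv
    obtain ⟨⟨h1, h2⟩, h3, h4⟩ := hv
    rw [Finset.mem_coe, Finset.mem_filter, mem_Sh, mem_Sh]
    simp only [dif_pos h1]
    refine ⟨⟨(g • (⟨v, h1⟩ : leechLattice)).2, by rw [Co0_norm]; exact h2⟩, ?_⟩
    have e : ((g • u : leechLattice) : V) - ((g • (⟨v, h1⟩ : leechLattice) : leechLattice) : V) =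
        ((g • (u - ⟨v, h1⟩) : leechLattice) : V) := by rw [Co0_sub]; rfl
    rw [e]
    exact ⟨(g • (u - ⟨v, h1⟩)).2, by rw [Co0_norm]; exact h4⟩
  · intro a ha b hb e
    rw [Finset.mem_coe, Finset.mem_filter, mem_Sh] at ha hb
    simp only [dif_pos ha.1.1, dif_pos hb.1.1] at e
    exact congrArg Subtype.val (smul_left_cancel g (Subtype.ext e))

theorem kk_smul (g : Co0) (u : leechLattice) : kk ((g • u : leechLattice) : V) = kk (u : V) := by
  apply le_antisymm
  · have := kk_le g⁻¹ (g • u)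
    rwa [inv_smul_smul] at this
  · exact kk_le g u

theorem pair_trans {t : ℤ} {r : leechLattice} (hr : ∀ w ∈ Y t, InOrb v0L r w) (v w : leechLattice)
    (hv : sqNorm (v : V) = 32) (hw : sqNorm (w : V) = 32) (hd : dotInt (v : V) (w : V) = t) :
    ∃ g : Co0, g • v0L = v ∧ g • r = w := by
  obtain ⟨g, hg⟩ := trans0 v hv
  have h1 : ((g⁻¹ • w : leechLattice) : V) ∈ Y t := by
    refine mem_Y.mpr ⟨(g⁻¹ • w).2, by rw [Co0_norm]; exact hw, ?_⟩
    have h2 := Co0_dot g⁻¹ v w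
    rw [← hg, inv_smul_smul] at h2
    rw [h2, hg]; exact hd
  obtain ⟨γ, f1, e1⟩ := hr _ h1
  refine ⟨g * γ, by rw [mul_smul, f1, hg], ?_⟩
  rw [mul_smul, show γ • r = g⁻¹ • w from Subtype.ext e1, smul_inv_smul]

open scoped Classical in
theorem of_kk_pos {t n : ℤ} {r : leechLattice} (hn : n = 64 + 2 * t) (hr : ∀ w ∈ Y t, InOrb v0L r w)
    (u : leechLattice) (hu : sqNorm (u : V) = n) (hk : 0 < kk (u : V)) : ∃ g : Co0, g • (v0L + r) = u := by
  unfold kk at hk
  obtain ⟨v, hv⟩ := Finset.card_pos.mp hk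
  rw [Finset.mem_filter, mem_Sh, mem_Sh] at hv
  obtain ⟨⟨h1, h2⟩, h3, h4⟩ := hv
  have hd : dotInt v ((u : V) - v) = t := by
    have h := sqNorm_add v ((u : V) - v)
    rw [add_sub_cancel, hu, h2, h4] at h
    omega
  obtain ⟨g, e1, e2⟩ := pair_trans hr ⟨v, h1⟩ ⟨(u : V) - v, h3⟩ h2 h4 hd
  refine ⟨g, ?_⟩
  rw [Co0_add, e1, e2]
  exact Subtype.ext (add_sub_cancel v (u : V))

open scoped Classical in
theorem sum_kk {t n : ℤ} (hn : n = 64 + 2 * t) : ∑ u ∈ ShN n, kk u = 196560 * (Y t).card := by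
  unfold kk
  simp only [Finset.card_filter]
  rw [Finset.sum_comm]
  have h : ∀ v ∈ Sh, (∑ u ∈ ShN n, if u - v ∈ Sh then 1 else 0) = (Y t).card := by
    intro v hv
    obtain ⟨h1, h2⟩ := mem_Sh.mp hv
    rw [← Finset.card_filter, ← count_at t v h1 h2]
    have hs : {w : V | w ∈ leechLattice ∧ sqNorm w = 32 ∧ dotInt v w = t} =
        ↑(Sh.filter (fun w => dotInt v w = t)) := by
      ext w
      rw [Finset.coe_filter]
      simp only [Set.mem_ofPred_eq, mem_Sh, and_assoc]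
    rw [hs, Set.ncard_coe_finset]
    apply Finset.card_bij (fun u _ => u - v)
    · intro u hu
      rw [Finset.mem_filter, mem_ShN] at hu
      rw [Finset.mem_filter]
      refine ⟨hu.2, ?_⟩
      have h := sqNorm_add v (u - v)
      rw [add_sub_cancel, hu.1.2, h2, (mem_Sh.mp hu.2).2] at h
      omega
    · intro a _ b _ e
      exact sub_left_injective e
    · intro w hw
      rw [Finset.mem_filter, mem_Sh] at hw
      refine ⟨w + v, ?_, add_sub_cancel_right w v⟩
      rw [Finset.mem_filter, mem_ShN, add_sub_cancel_right]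
      refine ⟨⟨leechLattice.add_mem hw.1.1 h1, ?_⟩, mem_Sh.mpr hw.1⟩
      rw [add_comm, sqNorm_add, h2, hw.1.2, hw.2, hn]
      ring
  rw [Finset.sum_congr rfl h, Finset.sum_const, card_Sh, smul_eq_mul]

theorem trans_sum {t n : ℤ} {r : leechLattice} {K M : ℕ} (hn : n = 64 + 2 * t)
    (hr : ∀ w ∈ Y t, InOrb v0L r w)
    (hM : {x : V | x ∈ leechLattice ∧ sqNorm x = n}.ncard = M)
    (hk : kk ((v0L + r : leechLattice) : V) = K) (hmul : 196560 * (Y t).card = K * M) (hK : 0 < K)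
    (u : leechLattice) (hu : sqNorm (u : V) = n) : ∃ g : Co0, g • (v0L + r) = u := by
  apply of_kk_pos hn hr u hu
  by_contra h0
  have h0' : kk (u : V) = 0 := by omega
  have hle : ∀ x ∈ ShN n, kk x ≤ K := by
    intro x hx
    obtain ⟨h1, h2⟩ := mem_ShN.mp hx
    by_cases hp : 0 < kk x
    · obtain ⟨g, hg⟩ := of_kk_pos hn hr ⟨x, h1⟩ h2 hp
      have := kk_smul g (v0L + r)
      rw [hg, hk] at this
      exact this.le
    · omega
  have huS : (u : V) ∈ ShN n := mem_ShN.mpr ⟨u.2, hu⟩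
  have h1 := sum_kk (t := t) hn
  rw [← Finset.add_sum_erase _ _ huS, h0', zero_add] at h1
  have h2 : ∑ x ∈ (ShN n).erase (u : V), kk x ≤ ((ShN n).erase (u : V)).card * K := by
    rw [← smul_eq_mul, ← Finset.sum_const]
    exact Finset.sum_le_sum (fun x hx => hle x (Finset.mem_of_mem_erase hx))
  rw [Finset.card_erase_of_mem huS, card_ShN, hM, h1, hmul] at h2
  have hMpos : 0 < M := by
    rw [← hM, ← card_ShN]
    exact Finset.card_pos.mpr ⟨_, huS⟩
  have : (M - 1) * K < K * M := by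
    rw [mul_comm]
    exact Nat.mul_lt_mul_of_pos_left (by omega) hK
  omega

end Cfsg.Agent.H9
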