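import Cfsg.Agent.Lib_H9_Co0h

set_option autoImplicit false

namespace Cfsg.Agent.H9

open Cfsg
open scoped Pointwise

def pU : ℕ := 52161109916455112757098481800
def pH : ℕ := 42255020007607646716557035656

set_option maxRecDepth 100000 in
set_option maxHeartbeats 0 in
theorem scanU : scan (dotIs pU 0 88) (dotIs pU 0 40) = 552 := by decide +kernel

set_option maxRecDepth 100000 in
set_option maxHeartbeats 0 in
theorem scanH : scan (dotIs pH 0 48) (dotIs pH 0 16) = 46 := by decide +kernel

end Cfsg.Agent.H9
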