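import Cfsg.Agent.Lib_H9_Ord
import Cfsg.Agent.Lib_H9_Simple4
import Cfsg.Agent.Lib_H9_Aut5
import Cfsg.Agent.Lib_H9_CfgF
import Cfsg.Agent.Lib_H9_CfgM

set_option autoImplicit false

namespace Cfsg.Agent.H9

open Cfsg
open scoped Pointwise

theorem finite_Co0 : Finite Co0 := Nat.finite_of_card_ne_zero (by rw [card_Co0]; norm_num)

theorem sp_empty (σ : Equiv.Perm GolayPt) (x : V) : signedPerm σ ∅ x = fun i => x (σ.symm i) := by
  funext i
  simp [signedPerm]

/-- the permutations of the code fixing two points, as lattice automorphisms -/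
noncomputable def psi0 : ↥(SG Finset.univ {pt 1, pt 0}) →* Co0 where
  toFun σ := (lmap_mono σ.2.1 empty_mem_CC).toCo0
  map_one' := Co0_ext fun v => by
    rw [LMap.toCo0_apply, sp_empty, one_smul]
    rfl
  map_mul' σ τ := Co0_ext fun v => by
    rw [mul_smul, LMap.toCo0_apply, LMap.toCo0_apply, LMap.toCo0_apply, sp_empty, sp_empty, sp_empty]
    rfl

theorem psi0_inj : Function.Injective psi0 := by
  intro σ τ e
  have := signedPerm_inj (σ := σ.1) (σ' := τ.1) (c := ∅) (c' := ∅) (fun i => by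
    have := congrArg (fun t : Co0 => ((t • e8L i : leechLattice) : V)) e
    exact this)
  exact Subtype.ext this.1

noncomputable def M22L : Subgroup Co0 := psi0.range

theorem simple_M22L : IsSimpleGroup M22L :=
  (MonoidHom.ofInjective psi0_inj).isSimpleGroup_congr.mp simple22_std

theorem card_M22L : Nat.card M22L = 443520 := by
  show Nat.card psi0.range = 443520
  rw [← Nat.card_congr (MonoidHom.ofInjective psi0_inj).toEquiv, ← card_stabP2 (a := pt 0) (c := pt 1) (Ne.symm pt01)]
  have : SG Finset.univ {pt 1, pt 0} = stabP (stabP M24 (pt 0)) (pt 1) := by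
    ext g
    rw [mem_SG, mem_stabP, mem_stabP]
    constructor
    · rintro ⟨h1, _, h3⟩
      exact ⟨⟨h1, h3 _ (by simp)⟩, h3 _ (by simp)⟩
    · rintro ⟨⟨h1, h2⟩, h3⟩
      refine ⟨h1, Finset.smul_finset_univ, fun p hp => ?_⟩
      simp only [Finset.mem_insert, Finset.mem_singleton] at hp
      rcases hp with rfl | rfl
      · exact h3
      · exact h2
  rw [this]

theorem single_idx {k : ℕ} (hk : k < 24) (s : ℤ) (p : GolayPt) :
    (Pi.single (pt k) s : V) p = if idx p = k then s else 0 := by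
  rw [Pi.single_apply]
  by_cases h : p = pt k
  · rw [if_pos h, if_pos (by rw [h, idx_pt hk])]
  · rw [if_neg h, if_neg (fun e => h (by rw [← e, pt_idx]))]

theorem UsF_apply (p : GolayPt) : (UsF : V) p = if idx p = 0 then 5 else 1 := by
  have h : ∀ k, k < 24 → (fl4 faF k : ℤ) - 8 = if k = 0 then 5 else 1 := by decide +kernel
  exact h _ (idx_lt p)

theorem WsL_apply (p : GolayPt) : (WsL : V) p = if idx p = 1 then -5 else -1 := by
  have h : ∀ k, k < 24 → (fl4 fbF k : ℤ) - 8 = if k = 1 then -5 else -1 := by decide +kernel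
  exact h _ (idx_lt p)

theorem X2L_apply (p : GolayPt) : (X2L : V) p = if idx p = 0 then 4 else if idx p = 1 then 4 else 0 := by
  have h : ∀ k, k < 24 → (fl4 rtF k : ℤ) - 8 = if k = 0 then 4 else if k = 1 then 4 else 0 := by decide +kernel
  exact h _ (idx_lt p)

theorem e80_eq : e8L (pt 0) = UsF + WsL + X2L := by
  apply Subtype.ext
  funext p
  show (Pi.single (pt 0) 8 : V) p = (UsF : V) p + (WsL : V) p + (X2L : V) p
  rw [single_idx (by norm_num), UsF_apply, WsL_apply, X2L_apply]
  split_ifs <;> omega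

theorem e81_eq : e8L (pt 1) = X2L - UsF - WsL := by
  apply Subtype.ext
  funext p
  show (Pi.single (pt 1) 8 : V) p = (X2L : V) p - (UsF : V) p - (WsL : V) p
  rw [single_idx (by norm_num), UsF_apply, WsL_apply, X2L_apply]
  split_ifs <;> omega

theorem fix_of_SG (σ : ↥(SG Finset.univ {pt 1, pt 0})) (x : leechLattice) (F : ℕ → ℤ)
    (hx : ∀ p, (x : V) p = F (idx p)) (hF : ∀ k l, 2 ≤ k → 2 ≤ l → F k = F l) : psi0 σ • x = x := by
  apply Subtype.ext
  show signedPerm σ.1 ∅ (x : V) = x
  rw [sp_empty]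
  have h0 : σ.1 (pt 0) = pt 0 := σ.2.2.2 _ (by simp)
  have h1 : σ.1 (pt 1) = pt 1 := σ.2.2.2 _ (by simp)
  generalize σ.1 = s at h0 h1
  funext i
  show (x : V) (s.symm i) = (x : V) i
  by_cases e0 : i = pt 0
  · rw [e0, (Equiv.symm_apply_eq s).mpr h0.symm]
  by_cases e1 : i = pt 1
  · rw [e1, (Equiv.symm_apply_eq s).mpr h1.symm]
  have a0 : s.symm i ≠ pt 0 := fun e => e0 (by rw [← h0, ← e, Equiv.apply_symm_apply])
  have a1 : s.symm i ≠ pt 1 := fun e => e1 (by rw [← h1, ← e, Equiv.apply_symm_apply])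
  have key : ∀ q : GolayPt, q ≠ pt 0 → q ≠ pt 1 → 2 ≤ idx q := by
    intro q q0 q1
    by_contra hlt
    have : idx q = 0 ∨ idx q = 1 := by omega
    rcases this with e | e
    · exact q0 (by rw [← e, pt_idx])
    · exact q1 (by rw [← e, pt_idx])
  rw [hx, hx]
  exact hF _ _ (key _ a0 a1) (key _ e0 e1)

theorem mem_M22L_F {g : Co0} : g ∈ M22L ↔ Fix3 UsF WsL X2L g := by
  constructor
  · rintro ⟨σ, rfl⟩
    refine ⟨fix_of_SG σ _ (fun k => if k = 0 then 5 else 1) UsF_apply ?_,
      fix_of_SG σ _ (fun k => if k = 1 then -5 else -1) WsL_apply ?_,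
      fix_of_SG σ _ (fun k => if k = 0 then 4 else if k = 1 then 4 else 0) X2L_apply ?_⟩
    · intro k l hk hl
      show (if k = 0 then (5 : ℤ) else 1) = if l = 0 then 5 else 1
      rw [if_neg (by omega), if_neg (by omega)]
    · intro k l hk hl
      show (if k = 1 then (-5 : ℤ) else -1) = if l = 1 then -5 else -1
      rw [if_neg (by omega), if_neg (by omega)]
    · intro k l hk hl
      show (if k = 0 then (4 : ℤ) else if k = 1 then 4 else 0) = if l = 0 then 4 else if l = 1 then 4 else 0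
      rw [if_neg (by omega), if_neg (by omega), if_neg (by omega), if_neg (by omega)]
  · rintro ⟨f1, f2, f3⟩
    have g0 : g • e8L (pt 0) = e8L (pt 0) := by rw [e80_eq, Co0_add, Co0_add, f1, f2, f3]
    have g1 : g • e8L (pt 1) = e8L (pt 1) := by rw [e81_eq, Co0_sub, Co0_sub, f1, f2, f3]
    obtain ⟨σ, hσ, c, hc, h⟩ := mono_of_pres (pres_of_fix g0)
    have s0 : σ (pt 0) = pt 0 := by
      have := h (e8L (pt 0))
      rw [g0] at this
      have t : (Pi.single (pt 0) 8 : V) = signedPerm σ c (Pi.single (pt 0) 8) := this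
      rw [signedPerm_single] at t
      exact (single_inj (by norm_num) t).1.symm
    have s1 : σ (pt 1) = pt 1 := by
      have := h (e8L (pt 1))
      rw [g1] at this
      have t : (Pi.single (pt 1) 8 : V) = signedPerm σ c (Pi.single (pt 1) 8) := this
      rw [signedPerm_single] at t
      exact (single_inj (by norm_num) t).1.symm
    have hc0 : c = ∅ := by
      rw [Finset.eq_empty_iff_forall_notMem]
      intro i hi
      have := congrFun (h UsF) i
      rw [f1] at this
      unfold signedPerm at this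
      rw [if_pos hi, UsF_apply, UsF_apply] at this
      split_ifs at this
    subst hc0
    refine ⟨⟨σ, hσ, Finset.smul_finset_univ, fun p hp => ?_⟩, Co0_ext fun v => ?_⟩
    · simp only [Finset.mem_insert, Finset.mem_singleton] at hp
      rcases hp with rfl | rfl
      · exact s1
      · exact s0
    · rw [h v]
      rfl

theorem VpM_eq : VpM = X2L := rfl

theorem WpM_eq : WpM = UsF - X2L := by
  apply Subtype.ext
  funext p
  have h : ∀ k, k < 24 → (fl4 fbM k : ℤ) - 8 = ((fl4 faF k : ℤ) - 8) - ((fl4 rtF k : ℤ) - 8) := by decide +kernel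
  exact h _ (idx_lt p)

theorem X3L_eq : X3L = UsF + WsL := by
  apply Subtype.ext
  funext p
  have h : ∀ k, k < 24 → (fl4 rtM k : ℤ) - 8 = ((fl4 faF k : ℤ) - 8) + ((fl4 fbF k : ℤ) - 8) := by decide +kernel
  exact h _ (idx_lt p)

theorem mem_M22L_M {g : Co0} : g ∈ M22L ↔ Fix3 VpM WpM X3L g := by
  rw [mem_M22L_F]
  constructor
  · rintro ⟨f1, f2, f3⟩
    exact ⟨by rw [VpM_eq, f3], by rw [WpM_eq, Co0_sub, f1, f3], by rw [X3L_eq, Co0_add, f1, f2]⟩
  · rintro ⟨f1, f2, f3⟩
    have eU : UsF = WpM + VpM := by rw [WpM_eq, VpM_eq, sub_add_cancel]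
    have eW : WsL = X3L - (WpM + VpM) := by rw [← eU, X3L_eq, add_sub_cancel_left]
    have hU : g • UsF = UsF := by rw [eU, Co0_add, f1, f2]
    exact ⟨hU, by rw [eW, Co0_sub, Co0_add, f1, f2, f3], by rw [← VpM_eq, f1]⟩

end Cfsg.Agent.H9
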