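import Cfsg.Agent.Lib_H9_SimpG
import Cfsg.Agent.Lib_H9_M22L

set_option autoImplicit false

namespace Cfsg.Agent.H9

open Cfsg
open scoped Pointwise

theorem eq_of_dot32 {x y : leechLattice} (hx : sqNorm (x : V) = 32) (hy : sqNorm (y : V) = 32)
    (h : dotInt (x : V) (y : V) = 32) : y = x := by
  have h0 := sqNorm_sub (x : V) (y : V)
  rw [hx, hy, h] at h0
  exact (Subtype.ext (sub_eq_zero.mp (sqNorm_eq_zero (h0.trans (by norm_num))))).symm

theorem cfg_coatom (K : Subgroup Co0) (a b x : leechLattice) (hK : ∀ g : Co0, g ∈ K ↔ g • a = a ∧ g • b = b)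
    (s1 s2 : ℤ) (C : Finset ℤ) (n : ℤ → ℕ)
    (hx : sqNorm (x : V) = 32 ∧ dotInt (a : V) (x : V) = s1 ∧ dotInt (b : V) (x : V) = s2)
    (htr0 : ∀ y : leechLattice, (sqNorm (y : V) = 32 ∧ dotInt (a : V) (y : V) = s1 ∧
      dotInt (b : V) (y : V) = s2) → ∃ g : Co0, g • a = a ∧ g • b = b ∧ g • x = y)
    (hdots : ∀ y : leechLattice, (sqNorm (y : V) = 32 ∧ dotInt (a : V) (y : V) = s1 ∧
      dotInt (b : V) (y : V) = s2) → dotInt (x : V) (y : V) ∈ C)
    (hcfg : ∀ j ∈ C, j ≠ 32 →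
      {y : leechLattice | sqNorm (y : V) = 32 ∧ dotInt (a : V) (y : V) = s1 ∧ dotInt (b : V) (y : V) = s2 ∧
        dotInt (x : V) (y : V) = j}.ncard = n j ∧
      ∀ y y' : leechLattice, (sqNorm (y : V) = 32 ∧ dotInt (a : V) (y : V) = s1 ∧ dotInt (b : V) (y : V) = s2 ∧
        dotInt (x : V) (y : V) = j) → (sqNorm (y' : V) = 32 ∧ dotInt (a : V) (y' : V) = s1 ∧
        dotInt (b : V) (y' : V) = s2 ∧ dotInt (x : V) (y' : V) = j) → ∃ g : Co0, Fix3 a b x g ∧ g • y = y')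
    (h32 : n 32 = 1)
    (harith : ∀ J ∈ C.powerset, (32 : ℤ) ∈ J → (∑ j ∈ J, n j) ∣ (∑ j ∈ C, n j) → J = {32} ∨ J = C)
    (hbig : ∃ j ∈ C, j ≠ 32 ∧ 1 < n j) :
    MulAction.orbit K x = {y : leechLattice | sqNorm (y : V) = 32 ∧ dotInt (a : V) (y : V) = s1 ∧
      dotInt (b : V) (y : V) = s2} ∧
    IsCoatom (MulAction.stabilizer K x) ∧ ¬ (MulAction.stabilizer K x).Normal := by
  have := finite_Co0
  have horb : MulAction.orbit K x = {y : leechLattice | sqNorm (y : V) = 32 ∧ dotInt (a : V) (y : V) = s1 ∧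
      dotInt (b : V) (y : V) = s2} := by
    ext y
    constructor
    · rintro ⟨⟨g, hg⟩, rfl⟩
      obtain ⟨ga, gb⟩ := (hK g).mp hg
      show sqNorm ((g • x : leechLattice) : V) = 32 ∧ dotInt (a : V) ((g • x : leechLattice) : V) = s1 ∧
        dotInt (b : V) ((g • x : leechLattice) : V) = s2
      have e1 := Co0_dot g a x
      have e2 := Co0_dot g b x
      rw [ga] at e1
      rw [gb] at e2
      rw [Co0_norm, e1, e2]
      exact hx
    · intro hy
      obtain ⟨g, ga, gb, e⟩ := htr0 y hy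
      exact ⟨⟨g, (hK g).mpr ⟨ga, gb⟩⟩, e⟩
  have hcx : dotInt (x : V) (x : V) = 32 := by rw [dotInt_self]; exact hx.1
  obtain ⟨j0, hj0, hj32, hj1⟩ := hbig
  obtain ⟨y1, y2, hy1, hy2, hne12⟩ := (Set.one_lt_ncard_iff (Set.finite_of_ncard_ne_zero (by
    rw [(hcfg j0 hj0 hj32).1]; omega))).mp (by rw [(hcfg j0 hj0 hj32).1]; exact hj1)
  have hy1' : sqNorm (y1 : V) = 32 ∧ dotInt (a : V) (y1 : V) = s1 ∧ dotInt (b : V) (y1 : V) = s2 ∧
      dotInt (x : V) (y1 : V) = j0 := hy1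
  have hy2' : sqNorm (y2 : V) = 32 ∧ dotInt (a : V) (y2 : V) = s1 ∧ dotInt (b : V) (y2 : V) = s2 ∧
      dotInt (x : V) (y2 : V) = j0 := hy2
  refine ⟨horb, ?_, ?_⟩
  · apply coatom_of_rankI (G := K) x (fun y : leechLattice => dotInt (x : V) (y : V)) C n
    · rw [horb]; exact hdots
    · intro j hj
      rw [horb]
      by_cases e : j = 32
      · subst e
        rw [h32]
        have : {y : leechLattice | y ∈ {y : leechLattice | sqNorm (y : V) = 32 ∧ dotInt (a : V) (y : V) = s1 ∧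
            dotInt (b : V) (y : V) = s2} ∧ dotInt (x : V) (y : V) = 32} = {x} := by
          ext y
          constructor
          · rintro ⟨h1, h2⟩
            exact eq_of_dot32 hx.1 h1.1 h2
          · rintro rfl
            exact ⟨hx, hcx⟩
        rw [this, Set.ncard_singleton]
      · rw [← (hcfg j hj e).1]
        congr 1
        ext y
        constructor
        · rintro ⟨⟨h1, h2, h3⟩, h4⟩; exact ⟨h1, h2, h3, h4⟩
        · rintro ⟨h1, h2, h3, h4⟩; exact ⟨⟨h1, h2, h3⟩, h4⟩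
    · rw [horb]
      intro y hy e
      exact eq_of_dot32 hx.1 hy.1 (e.trans hcx)
    · rw [horb]
      intro y hy z hz e
      have e' : dotInt (x : V) (y : V) = dotInt (x : V) (z : V) := e
      by_cases e32 : dotInt (x : V) (y : V) = 32
      · have h1 := eq_of_dot32 hx.1 hy.1 e32
        have h2 := eq_of_dot32 hx.1 hz.1 (e'.symm.trans e32)
        exact ⟨1, Subgroup.one_mem _, by rw [one_smul, h1, h2]⟩
      · obtain ⟨g, f, eg⟩ := (hcfg _ (hdots y hy) e32).2 y z ⟨hy.1, hy.2.1, hy.2.2, rfl⟩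
          ⟨hz.1, hz.2.1, hz.2.2, e'.symm⟩
        exact ⟨⟨g, (hK g).mpr ⟨f.1, f.2.1⟩⟩, f.2.2, eg⟩
    · show ∀ J ∈ C.powerset, dotInt (x : V) (x : V) ∈ J → _ → J = {dotInt (x : V) (x : V)} ∨ J = C
      rw [hcx]; exact harith
    · rw [horb]
      refine ⟨y1, ⟨hy1'.1, hy1'.2.1, hy1'.2.2.1⟩, ?_⟩
      rintro rfl
      exact hj32 (hy1'.2.2.2.symm.trans hcx)
  · apply not_normal_stab
    obtain ⟨g, ga, gb, e⟩ := htr0 y1 ⟨hy1'.1, hy1'.2.1, hy1'.2.2.1⟩
    obtain ⟨h, f, eh⟩ := (hcfg j0 hj0 hj32).2 y1 y2 hy1' hy2'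
    refine ⟨⟨g, (hK g).mpr ⟨ga, gb⟩⟩, ⟨h, (hK h).mpr ⟨f.1, f.2.1⟩⟩, f.2.2, ?_⟩
    show h • g • x ≠ g • x
    rw [e, eh]
    exact hne12.symm

/-- conjugate joint stabilisers -/
def stab2Conj {A X : Type*} [Group A] [MulAction A X] (g : A) (a b : X) :
    ↥(MulAction.stabilizer A a ⊓ MulAction.stabilizer A b) ≃*
      ↥(MulAction.stabilizer A (g • a) ⊓ MulAction.stabilizer A (g • b)) where
  toFun h := ⟨g * h.1 * g⁻¹, by
    have h1 : h.1 • a = a := h.2.1
    have h2 : h.1 • b = b := h.2.2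
    exact ⟨show (g * h.1 * g⁻¹) • g • a = g • a by rw [mul_smul, mul_smul, inv_smul_smul, h1],
      show (g * h.1 * g⁻¹) • g • b = g • b by rw [mul_smul, mul_smul, inv_smul_smul, h2]⟩⟩
  invFun h := ⟨g⁻¹ * h.1 * g, by
    have h1 : h.1 • g • a = g • a := h.2.1
    have h2 : h.1 • g • b = g • b := h.2.2
    exact ⟨show (g⁻¹ * h.1 * g) • a = a by rw [mul_smul, mul_smul, h1, inv_smul_smul],
      show (g⁻¹ * h.1 * g) • b = b by rw [mul_smul, mul_smul, h2, inv_smul_smul]⟩⟩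
  left_inv h := Subtype.ext (by simp [mul_assoc])
  right_inv h := Subtype.ext (by simp [mul_assoc])
  map_mul' h k := Subtype.ext (by simp [mul_assoc])

theorem simple_stab_of_M22L (K : Subgroup Co0) (x : leechLattice)
    (h : ∀ g : Co0, (g ∈ K ∧ g • x = x) ↔ g ∈ M22L) :
    IsSimpleGroup ↥(MulAction.stabilizer K x) ∧ Nat.card ↥(MulAction.stabilizer K x) = 443520 := by
  have hKM : K ⊓ MulAction.stabilizer Co0 x = M22L := by
    ext g
    exact h g
  constructor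
  · rw [(stabSubEquiv K x).isSimpleGroup_congr, hKM]
    exact simple_M22L
  · rw [Nat.card_congr (stabSubEquiv K x).toEquiv, hKM]
    exact card_M22L

end Cfsg.Agent.H9
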