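import Cfsg.Agent.Lib_H9_Co0b

set_option autoImplicit false

namespace Cfsg.Agent.H9

open Cfsg
open scoped Pointwise

theorem single_mem (i : GolayPt) {s : ℤ} (hs : s = 8 ∨ s = -8) : (Pi.single i s : V) ∈ leechLattice := by
  apply eight_mem
  intro j
  by_cases h : j = i
  · subst h
    rw [Pi.single_eq_same]
    rcases hs with rfl | rfl <;> norm_num
  · rw [Pi.single_eq_of_ne h]; exact dvd_zero _

theorem dot_single (x : V) (i : GolayPt) (s : ℤ) : dotInt x (Pi.single i s) = x i * s := by
  unfold dotInt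
  rw [Finset.sum_eq_single i]
  · rw [Pi.single_eq_same]
  · intro j _ hj
    rw [Pi.single_eq_of_ne hj, mul_zero]
  · intro h; exact absurd (Finset.mem_univ i) h

def e8L (i : GolayPt) : leechLattice := ⟨Pi.single i 8, single_mem i (Or.inl rfl)⟩

def PresCross (g : Co0) : Prop :=
  ∀ v : leechLattice, (v : V) ∈ stdCross → ((g • v : leechLattice) : V) ∈ stdCross

theorem signedPerm_single (σ : Equiv.Perm GolayPt) (c : Finset GolayPt) (i : GolayPt) (s : ℤ) :
    signedPerm σ c (Pi.single i s) = Pi.single (σ i) (if σ i ∈ c then -s else s) := by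
  ext j
  unfold signedPerm
  by_cases h : j = σ i
  · subst h
    rw [Equiv.symm_apply_apply, Pi.single_eq_same, Pi.single_eq_same]
  · have h' : σ.symm j ≠ i := fun e => h (by rw [← e, Equiv.apply_symm_apply])
    rw [Pi.single_eq_of_ne h, Pi.single_eq_of_ne h']
    simp

theorem two_ind_mem {s : Finset GolayPt} (hs : s ∈ CC) : (fun i => 2 * ind s i : V) ∈ leechLattice := by
  rw [mem_leech_iff_pat]
  refine Or.inl ⟨s, hs, fun i => by simp, ?_⟩
  obtain ⟨l, hl⟩ := four_dvd_card hs
  simp only [← Finset.mul_sum, sum_ind, hl]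
  push_cast
  omega

theorem u1_mem : u1 ∈ leechLattice := mem_leech_iff_pat.mpr (Or.inr ⟨∅, empty_mem_CC, pat_u1⟩)

theorem mono_of_pres {g : Co0} (hg : PresCross g) :
    ∃ σ ∈ M24, ∃ c ∈ CC, ∀ v : leechLattice, ((g • v : leechLattice) : V) = signedPerm σ c (v : V) := by
  classical
  have h1 : ∀ i : GolayPt, ∃ (j : GolayPt) (s : ℤ), (s = 8 ∨ s = -8) ∧
      ((g • e8L i : leechLattice) : V) = Pi.single j s := fun i => hg (e8L i) ⟨i, 8, Or.inl rfl, rfl⟩
  choose τ ε hε hτ using h1
  have hinj : Function.Injective τ := by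
    intro i i' e
    by_contra hne
    have h2 := Co0_dot g (e8L i) (e8L i')
    rw [hτ, hτ, e, dot_single, Pi.single_eq_same] at h2
    have h3 : dotInt ((e8L i : leechLattice) : V) ((e8L i' : leechLattice) : V) = 0 := by
      show dotInt (Pi.single i 8 : V) (Pi.single i' 8) = 0
      rw [dot_single, Pi.single_eq_of_ne (Ne.symm hne), zero_mul]
    rw [h3] at h2
    rcases hε i with a | a <;> rcases hε i' with b | b <;> rw [a, b] at h2 <;> norm_num at h2
  set σ : Equiv.Perm GolayPt := Equiv.ofBijective τ (Finite.injective_iff_bijective.mp hinj) with hσ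
  have hσa : ∀ i, σ i = τ i := fun i => rfl
  set c : Finset GolayPt := Finset.univ.filter (fun j => ε (σ.symm j) = -8) with hc
  have hform : ∀ v : leechLattice, ((g • v : leechLattice) : V) = signedPerm σ c (v : V) := by
    intro v
    ext j
    set i := σ.symm j with hi
    have hj : τ i = j := by rw [← hσa, hi, Equiv.apply_symm_apply]
    have h2 := Co0_dot g v (e8L i)
    rw [hτ, dot_single, hj] at h2
    have h3 : dotInt (v : V) ((e8L i : leechLattice) : V) = (v : V) i * 8 := dot_single _ _ _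
    rw [h3] at h2
    unfold signedPerm
    rw [← hi]
    have hm : j ∈ c ↔ ε i = -8 := by rw [hc, Finset.mem_filter]; simp [hi]
    rcases hε i with a | a
    · rw [if_neg (by rw [hm, a]; norm_num)]
      rw [a] at h2; omega
    · rw [if_pos (hm.mpr a)]
      rw [a] at h2; omega
  refine ⟨σ, ?_, c, ?_, hform⟩
  · rw [mem_M24_iff]
    intro s hs
    have h2 : signedPerm σ c (fun i => 2 * ind s i) ∈ leechLattice := by
      have := (g • (⟨_, two_ind_mem hs⟩ : leechLattice)).2
      rwa [hform] at this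
    have hval : ∀ j, signedPerm σ c (fun i => 2 * ind s i) j = 2 * ind (σ • s) j ∨
        signedPerm σ c (fun i => 2 * ind s i) j = -(2 * ind (σ • s) j) := by
      intro j
      have : ind (σ • s) j = ind s (σ.symm j) := by
        unfold ind
        have : j ∈ σ • s ↔ σ.symm j ∈ s := by
          rw [← Finset.inv_smul_mem_iff]
          rfl
        simp only [this]
      unfold signedPerm
      rw [this]
      by_cases hj : j ∈ c
      · right; rw [if_pos hj]
      · left; rw [if_neg hj]
    rw [mem_leech_iff_pat] at h2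
    rcases h2 with ⟨C, hC, hp⟩ | ⟨C, hC, hp⟩
    · have : C = σ • s := by
        ext j
        have h3 := hp.1 j
        rcases ind_cases C j with ⟨m1, e1⟩ | ⟨m1, e1⟩ <;> rcases ind_cases (σ • s) j with ⟨m2, e2⟩ | ⟨m2, e2⟩
        · exact ⟨fun _ => m2, fun _ => m1⟩
        · exfalso
          rcases hval j with e | e <;> rw [e, e1, e2] at h3 <;> omega
        · exfalso
          rcases hval j with e | e <;> rw [e, e1, e2] at h3 <;> omega
        · exact ⟨fun h => absurd h m1, fun h => absurd h m2⟩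
      rw [← this]; exact hC
    · exfalso
      have h3 := hp.1 (pt 0)
      rcases ind_cases C (pt 0) with ⟨_, e1⟩ | ⟨_, e1⟩ <;>
        rcases ind_cases (σ • s) (pt 0) with ⟨_, e2⟩ | ⟨_, e2⟩ <;>
        rcases hval (pt 0) with e | e <;> rw [e, e1, e2] at h3 <;> omega
  · have h2 : signedPerm σ c u1 ∈ leechLattice := by
      have := (g • (⟨_, u1_mem⟩ : leechLattice)).2
      rwa [hform] at this
    have hu : ∀ i, u1 i = 1 ∨ u1 i = -3 := by
      intro i
      unfold u1
      by_cases h : i = pt 0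
      · right; rw [if_pos h]
      · left; rw [if_neg h]
    rw [mem_leech_iff_pat] at h2
    rcases h2 with ⟨C, hC, hp⟩ | ⟨C, hC, hp⟩
    · exfalso
      have h3 := hp.1 (pt 0)
      unfold signedPerm at h3
      rcases ind_cases C (pt 0) with ⟨_, e1⟩ | ⟨_, e1⟩ <;> rcases hu (σ.symm (pt 0)) with e | e <;>
        by_cases hj : pt 0 ∈ c <;> simp only [hj, if_true, if_false, e, e1] at h3 <;> omega
    · have : C = c := by
        ext j
        have h3 := hp.1 j
        unfold signedPerm at h3
        rcases ind_cases C j with ⟨m1, e1⟩ | ⟨m1, e1⟩ <;> by_cases hj : j ∈ c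
        · exact ⟨fun _ => hj, fun _ => m1⟩
        · exfalso
          rcases hu (σ.symm j) with e | e <;> simp only [hj, if_false, e, e1] at h3 <;> omega
        · exfalso
          rcases hu (σ.symm j) with e | e <;> simp only [hj, if_true, e, e1] at h3 <;> omega
        · exact ⟨fun h => absurd h m1, fun h => absurd h hj⟩
      rw [← this]; exact hC

theorem pres_mono {σ : Equiv.Perm GolayPt} (hσ : σ ∈ M24) {c : Finset GolayPt} (hc : c ∈ CC) :
    PresCross (lmap_mono hσ hc).toCo0 := by
  rintro v ⟨i, s, hs, e⟩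
  rw [LMap.toCo0_apply, e, signedPerm_single]
  refine ⟨σ i, _, ?_, rfl⟩
  split_ifs <;> rcases hs with rfl | rfl <;> simp

theorem Co0_ext {a b : Co0} (h : ∀ v : leechLattice, ((a • v : leechLattice) : V) = ((b • v : leechLattice) : V)) :
    a = b := Subtype.ext (Equiv.ext fun v => Subtype.ext (h v))

noncomputable def monoMap (p : ↥M24 × ↥CC) : {g : Co0 // PresCross g} :=
  ⟨(lmap_mono p.1.2 p.2.2).toCo0, pres_mono p.1.2 p.2.2⟩

theorem signedPerm_inj {σ σ' : Equiv.Perm GolayPt} {c c' : Finset GolayPt}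
    (h : ∀ i, signedPerm σ c (Pi.single i 8) = signedPerm σ' c' (Pi.single i 8)) : σ = σ' ∧ c = c' := by
  have key : ∀ i, σ i = σ' i ∧ (σ i ∈ c ↔ σ i ∈ c') := by
    intro i
    have h1 := h i
    rw [signedPerm_single, signedPerm_single] at h1
    have h2 := congrFun h1 (σ i)
    rw [Pi.single_eq_same] at h2
    have hs : σ i = σ' i := by
      by_contra hne
      rw [Pi.single_eq_of_ne hne] at h2
      split_ifs at h2 <;> norm_num at h2
    refine ⟨hs, ?_⟩
    rw [← hs, Pi.single_eq_same] at h2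
    by_cases a : σ i ∈ c <;> by_cases b : σ i ∈ c' <;> simp only [a, b, if_true, if_false] at h2 ⊢ <;>
      norm_num at h2
  refine ⟨Equiv.ext fun i => (key i).1, ?_⟩
  ext j
  have := (key (σ.symm j)).2
  rwa [Equiv.apply_symm_apply] at this

theorem monoMap_bij : Function.Bijective monoMap := by
  constructor
  · rintro ⟨⟨σ, hσ⟩, ⟨c, hc⟩⟩ ⟨⟨σ', hσ'⟩, ⟨c', hc'⟩⟩ e
    have e1 : (lmap_mono hσ hc).toCo0 = (lmap_mono hσ' hc').toCo0 := congrArg Subtype.val e
    obtain ⟨rfl, rfl⟩ := signedPerm_inj (σ := σ) (σ' := σ') (c := c) (c' := c') (fun i => by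
      have := congrArg (fun t : Co0 => ((t • e8L i : leechLattice) : V)) e1
      exact this)
    rfl
  · rintro ⟨g, hg⟩
    obtain ⟨σ, hσ, c, hc, h⟩ := mono_of_pres hg
    refine ⟨⟨⟨σ, hσ⟩, ⟨c, hc⟩⟩, Subtype.ext (Co0_ext fun v => ?_)⟩
    rw [h v]
    rfl

theorem card_pres : Nat.card {g : Co0 // PresCross g} = 4096 * 244823040 := by
  rw [← Nat.card_congr (Equiv.ofBijective monoMap monoMap_bij), Nat.card_prod, card_M24,
    Nat.card_coe_set_eq, ncard_CC, mul_comm]

end Cfsg.Agent.H9
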