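import Cfsg.Statements.S0398
import Cfsg.Agent.Lib_H9_Mono

set_option autoImplicit false
open Cfsg

namespace Cfsg.Agent.S0398

open Cfsg.Agent.H9

theorem lneg : LMap (fun x : V => -x) :=
  ⟨fun _ hx => leechLattice.neg_mem hx, fun x _ y _ => neg_add x y, fun x _ => sqNorm_neg x⟩

theorem sep_chk : ∀ a < 24, ∀ b < 24, a ≠ b → ∃ k1 < 12, ∃ k2 < 12,
    (enc (2 ^ k1 ||| 2 ^ k2)).testBit a = true ∧ (enc (2 ^ k1 ||| 2 ^ k2)).testBit b = false := by
  decide +kernel

theorem sep (j i : GolayPt) (h : j ≠ i) : ∃ c ∈ CC, j ∈ c ∧ i ∉ c := by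
  obtain ⟨k1, _, k2, _, h1, h2⟩ := sep_chk (idx j) (idx_lt j) (idx i) (idx_lt i)
    (fun e => h (idx_injective e))
  refine ⟨ofMask (enc (2 ^ k1 ||| 2 ^ k2)), ofMask_enc_mem _, ?_, ?_⟩
  · simp [ofMask, h1]
  · simp [ofMask, h2]

theorem center_cases {z : Co0} (hz : ∀ g : Co0, g * z = z * g) : z = 1 ∨ z = lneg.toCo0 := by
  have key1 : ∀ i, ∃ s : ℤ, (s = 8 ∨ s = -8) ∧ ((z • e8L i : leechLattice) : V) = Pi.single i s := by
    intro i
    set y : V := ((z • e8L i : leechLattice) : V) with hy
    have hzero : ∀ j, j ≠ i → y j = 0 := by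
      intro j hj
      obtain ⟨c, hc, hjc, hic⟩ := sep j i hj
      have hL := lmap_mono (M24.one_mem) hc
      have h1 : hL.toCo0 • e8L i = e8L i := by
        apply Subtype.ext
        rw [hL.toCo0_apply]
        show signedPerm 1 c (Pi.single i 8) = Pi.single i 8
        rw [signedPerm_single]
        simp [hic]
      have h2 : hL.toCo0 • (z • e8L i) = z • e8L i := by rw [← mul_smul, hz, mul_smul, h1]
      have h3 := congrFun (congrArg Subtype.val h2) j
      rw [hL.toCo0_apply] at h3
      unfold signedPerm at h3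
      rw [if_pos hjc] at h3
      have h4 : (1 : Equiv.Perm GolayPt).symm j = j := rfl
      rw [h4] at h3
      have h5 : -y j = y j := h3
      omega
    have hs : y = Pi.single i (y i) := by
      ext j
      by_cases h : j = i
      · subst h; rw [Pi.single_eq_same]
      · rw [Pi.single_eq_of_ne h, hzero j h]
    have hn : sqNorm y = 64 := by
      rw [hy, Co0_norm]
      show sqNorm (Pi.single i 8 : V) = 64
      rw [← dotInt_self, dot_single, Pi.single_eq_same]; norm_num
    rw [hs, ← dotInt_self, dot_single, Pi.single_eq_same] at hn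
    refine ⟨y i, ?_, hs⟩
    have h6 : (y i - 8) * (y i + 8) = 0 := by ring_nf; linarith
    rcases mul_eq_zero.mp h6 with h | h
    · left; omega
    · right; omega
  choose s hs hzs using key1
  have key2 : ∀ i i', s i' = s i := by
    intro i i'
    have : MulAction.IsPretransitive ↥M24 GolayPt := M24_pretransitive
    obtain ⟨τ, hτ⟩ := MulAction.exists_smul_eq ↥M24 i i'
    have hτ' : (τ : Equiv.Perm GolayPt) i = i' := hτ
    have hL := lmap_mono τ.2 empty_mem_CC
    have h1 : hL.toCo0 • e8L i = e8L i' := by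
      apply Subtype.ext
      rw [hL.toCo0_apply]
      show signedPerm (τ : Equiv.Perm GolayPt) ∅ (Pi.single i 8) = Pi.single i' 8
      rw [signedPerm_single, hτ']
      simp
    have h2 : hL.toCo0 • (z • e8L i) = z • e8L i' := by rw [← mul_smul, hz, mul_smul, h1]
    have h3 := congrArg Subtype.val h2
    rw [hL.toCo0_apply, hzs, hzs, signedPerm_single, hτ'] at h3
    simp only [Finset.notMem_empty, if_false] at h3
    have h4 := congrFun h3 i'
    rw [Pi.single_eq_same, Pi.single_eq_same] at h4
    exact h4.symm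
  have key3 : ∀ (v : leechLattice) (j : GolayPt), ((z • v : leechLattice) : V) j * s j = (v : V) j * 8 := by
    intro v j
    have h := Co0_dot z v (e8L j)
    rw [hzs, dot_single] at h
    rw [h]
    exact dot_single _ _ _
  rcases hs (pt 0) with h0 | h0
  · left
    apply Co0_ext
    intro v
    rw [one_smul]
    ext j
    have := key3 v j
    rw [key2 (pt 0) j, h0] at this
    omega
  · right
    apply Co0_ext
    intro v
    rw [lneg.toCo0_apply]
    ext j
    have := key3 v j
    rw [key2 (pt 0) j, h0] at this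
    simp only [Pi.neg_apply]
    omega


/-- The centre of the lattice's automorphism group has order 2. -/
theorem result : Nat.card (Subgroup.center Cfsg.Co0) = 2 := by
  have hn : ∀ w : leechLattice, lneg.toCo0 • w = -w := fun w => Subtype.ext rfl
  have hcen : lneg.toCo0 ∈ Subgroup.center Co0 := by
    rw [Subgroup.mem_center_iff]
    intro g
    apply Co0_ext
    intro v
    rw [mul_smul, mul_smul, hn, hn, Co0_neg]
  have hne : (1 : Co0) ≠ lneg.toCo0 := by
    intro h
    have h2 := congrArg (fun t : Co0 => ((t • e8L (pt 0) : leechLattice) : V) (pt 0)) h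
    simp only [one_smul] at h2
    have e1 : ((e8L (pt 0) : leechLattice) : V) (pt 0) = 8 := by
      show (Pi.single (pt 0) 8 : V) (pt 0) = 8
      rw [Pi.single_eq_same]
    have e2 : ((lneg.toCo0 • e8L (pt 0) : leechLattice) : V) (pt 0) = -8 := by
      rw [lneg.toCo0_apply]
      show -((e8L (pt 0) : leechLattice) : V) (pt 0) = -8
      rw [e1]
    rw [e1, e2] at h2
    norm_num at h2
  rw [Nat.card_eq_two_iff]
  refine ⟨1, ⟨lneg.toCo0, hcen⟩, fun h => hne (congrArg Subtype.val h), ?_⟩
  ext ⟨z, hz⟩
  simp only [Set.mem_insert_iff, Set.mem_singleton_iff, Set.mem_univ, iff_true]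
  rcases center_cases (fun g => (Subgroup.mem_center_iff.mp hz g)) with h | h
  · left; exact Subtype.ext h
  · right; exact Subtype.ext h

end Cfsg.Agent.S0398
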