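import Cfsg.Agent.Lib_H9_SimpG2
import Cfsg.Agent.Lib_H9_SimpL
import Cfsg.Agent.S0398

set_option autoImplicit false

namespace Cfsg.Agent.H9

open Cfsg
open scoped Pointwise

theorem negC_center : negC ∈ Subgroup.center Co0 := by
  rw [Subgroup.mem_center_iff]
  intro g
  apply Co0_ext
  intro v
  rw [mul_smul, mul_smul, negC_smul, negC_smul, Co0_neg]

theorem mem_center_Co0 {z : Co0} : z ∈ Subgroup.center Co0 ↔ z = 1 ∨ z = negC := by
  constructor
  · intro hz
    exact S0398.center_cases (Subgroup.mem_center_iff.mp hz)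
  · rintro (rfl | rfl)
    · exact Subgroup.one_mem _
    · exact negC_center

/-- the stabiliser of the pair `±v0` -/
def SS : Subgroup Co0 where
  carrier := {g | g • v0L = v0L ∨ g • v0L = -v0L}
  one_mem' := Or.inl (one_smul _ _)
  mul_mem' := by
    rintro a b (ha | ha) (hb | hb)
    · left; rw [mul_smul, hb, ha]
    · right; rw [mul_smul, hb, Co0_neg, ha]
    · right; rw [mul_smul, hb, ha]
    · left; rw [mul_smul, hb, Co0_neg, ha, neg_neg]
  inv_mem' := by
    rintro a (ha | ha)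
    · left; rw [inv_smul_eq_iff, ha]
    · right; rw [inv_smul_eq_iff, Co0_neg, ha, neg_neg]

theorem mem_SS {g : Co0} : g ∈ SS ↔ g • v0L = v0L ∨ g • v0L = -v0L := Iff.rfl

theorem stab_le_SS : MulAction.stabilizer Co0 v0L ≤ SS := fun _ hg => Or.inl hg

theorem negC_mem_SS : negC ∈ SS := Or.inr (negC_smul _)

theorem SS_cases {g : Co0} (hg : g ∈ SS) :
    g ∈ MulAction.stabilizer Co0 v0L ∨ negC * g ∈ MulAction.stabilizer Co0 v0L := by
  rcases hg with h | h
  · exact Or.inl h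
  · right
    rw [MulAction.mem_stabilizer_iff, mul_smul, h, negC_smul, neg_neg]

theorem dot_mem_JJ (y : leechLattice) (hy : sqNorm (y : V) = 32) : dotInt (v0L : V) (y : V) ∈ JJ := by
  have h : (y : V) ∈ JJ.biUnion Y := by
    rw [Y_all.2.2.2.2.2.2, mem_Sh]; exact ⟨y.2, hy⟩
  obtain ⟨t, ht, hyt⟩ := Finset.mem_biUnion.mp h
  rw [(mem_Y.mp hyt).2.2]; exact ht

theorem neg_coe (y : leechLattice) : ((-y : leechLattice) : V) = -(y : V) := rfl

theorem transT (y z : leechLattice) (hy : sqNorm (y : V) = 32) (hz : sqNorm (z : V) = 32)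
    (h : dotInt (v0L : V) (y : V) = dotInt (v0L : V) (z : V)) : ∃ g : Co0, g • v0L = v0L ∧ g • y = z := by
  have hny : sqNorm ((-y : leechLattice) : V) = 32 := by rw [neg_coe, sqNorm_neg]; exact hy
  have hnz : sqNorm ((-z : leechLattice) : V) = 32 := by rw [neg_coe, sqNorm_neg]; exact hz
  have flip : (∃ g : Co0, g • v0L = v0L ∧ g • (-y) = -z) → ∃ g : Co0, g • v0L = v0L ∧ g • y = z := by
    rintro ⟨g, h1, h2⟩
    rw [Co0_neg, neg_inj] at h2
    exact ⟨g, h1, h2⟩
  have hJ := dot_mem_JJ y hy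
  simp only [JJ, Finset.mem_insert, Finset.mem_singleton] at hJ
  rcases hJ with e | e | e | e | e | e | e
  · have h1 : -y = v0L := eq_of_dot32 norm_v0 hny (by rw [neg_coe, dotInt_neg_right, e]; norm_num)
    have h2 : -z = v0L := eq_of_dot32 norm_v0 hnz (by rw [neg_coe, dotInt_neg_right, ← h, e]; norm_num)
    exact ⟨1, one_smul _ _, by rw [one_smul, ← neg_inj, h1, h2]⟩
  · exact trans_pair Y_all.1 v0L y z norm_v0 hy hz e (h ▸ e)
  · exact trans_pair Y_all.2.1 v0L y z norm_v0 hy hz e (h ▸ e)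
  · exact trans_pair Y_all.2.2.1 v0L y z norm_v0 hy hz e (h ▸ e)
  · exact flip (trans_pair Y_all.2.1 v0L (-y) (-z) norm_v0 hny hnz
      (by rw [neg_coe, dotInt_neg_right, e]) (by rw [neg_coe, dotInt_neg_right, ← h, e]))
  · exact flip (trans_pair Y_all.1 v0L (-y) (-z) norm_v0 hny hnz
      (by rw [neg_coe, dotInt_neg_right, e]) (by rw [neg_coe, dotInt_neg_right, ← h, e]))
  · have h1 : y = v0L := eq_of_dot32 norm_v0 hy e
    have h2 : z = v0L := eq_of_dot32 norm_v0 hz (h ▸ e)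
    exact ⟨1, one_smul _ _, by rw [one_smul, h1, h2]⟩

theorem transS (y z : leechLattice) (hy : sqNorm (y : V) = 32) (hz : sqNorm (z : V) = 32)
    (h : (dotInt (v0L : V) (y : V)).natAbs = (dotInt (v0L : V) (z : V)).natAbs) : ∃ g ∈ SS, g • y = z := by
  rcases Int.natAbs_eq_natAbs_iff.mp h with e | e
  · obtain ⟨g, h1, h2⟩ := transT y z hy hz e
    exact ⟨g, Or.inl h1, h2⟩
  · have hnz : sqNorm ((-z : leechLattice) : V) = 32 := by rw [neg_coe, sqNorm_neg]; exact hz
    obtain ⟨g, h1, h2⟩ := transT y (-z) hy hnz (by rw [neg_coe, dotInt_neg_right, e])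
    exact ⟨negC * g, Or.inr (by rw [mul_smul, h1, negC_smul]), by rw [mul_smul, h2, negC_smul, neg_neg]⟩

theorem card_Y_eq (t : ℤ) : (Y (-t)).card = (Y t).card :=
  le_antisymm (by have := card_Y_neg (-t); rwa [neg_neg] at this) (card_Y_neg t)

theorem card_Y32 : (Y 32).card + (Y (-32)).card = 2 := by
  have h := card_biU
  rw [Y_all.2.2.2.2.2.2, card_Sh, sum_JJ, Y_all.2.2.2.1, Y_all.2.2.2.2.1, Y_all.2.2.2.2.2.1] at h
  have h8 := card_Y_eq 8
  have h16 := card_Y_eq 16
  rw [Y_all.2.2.2.1] at h16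
  rw [Y_all.2.2.2.2.1] at h8
  omega

theorem cntAbs (j : ℕ) (hj : j ≠ 0) :
    {y : leechLattice | sqNorm (y : V) = 32 ∧ (dotInt (v0L : V) (y : V)).natAbs = j}.ncard =
      (Y j).card + (Y (-(j : ℤ))).card := by
  classical
  rw [← Finset.card_union_of_disjoint, ← Set.ncard_coe_finset,
    ← Set.ncard_image_of_injective _ Subtype.val_injective]
  · congr 1
    ext w
    simp only [Set.mem_image, Set.mem_ofPred_eq, Finset.coe_union, Set.mem_union, Finset.mem_coe, mem_Y]
    constructor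
    · rintro ⟨y, ⟨h1, h2⟩, rfl⟩
      rcases Int.natAbs_eq (dotInt (v0L : V) (y : V)) with e | e
      · left; exact ⟨y.2, h1, by rw [e, h2]⟩
      · right; exact ⟨y.2, h1, by rw [e, h2]⟩
    · rintro (⟨h1, h2, h3⟩ | ⟨h1, h2, h3⟩)
      · exact ⟨⟨w, h1⟩, ⟨h2, by rw [h3]; simp⟩, rfl⟩
      · exact ⟨⟨w, h1⟩, ⟨h2, by rw [h3]; simp⟩, rfl⟩
  · rw [Finset.disjoint_left]
    intro w h1 h2
    have e1 := (mem_Y.mp h1).2.2
    have e2 := (mem_Y.mp h2).2.2
    omega

theorem cntAbs0 :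
    {y : leechLattice | sqNorm (y : V) = 32 ∧ (dotInt (v0L : V) (y : V)).natAbs = 0}.ncard = (Y 0).card := by
  rw [← Set.ncard_coe_finset, ← Set.ncard_image_of_injective _ Subtype.val_injective]
  congr 1
  ext w
  simp only [Set.mem_image, Set.mem_ofPred_eq, Finset.mem_coe, mem_Y]
  constructor
  · rintro ⟨y, ⟨h1, h2⟩, rfl⟩
    exact ⟨y.2, h1, Int.natAbs_eq_zero.mp h2⟩
  · rintro ⟨h1, h2, h3⟩
    exact ⟨⟨w, h1⟩, ⟨h2, by rw [h3]; rfl⟩, rfl⟩

theorem orbit_v0 : MulAction.orbit Co0 v0L = {y : leechLattice | sqNorm (y : V) = 32} := by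
  ext y
  constructor
  · rintro ⟨g, rfl⟩
    show sqNorm ((g • v0L : leechLattice) : V) = 32
    rw [Co0_norm, norm_v0]
  · intro hy
    obtain ⟨g, hg⟩ := trans0 y hy
    exact ⟨g, hg⟩

theorem SS_ne_top : SS ≠ ⊤ := by
  intro h
  obtain ⟨g, hg⟩ := link_B
  have : g ∈ SS := h ▸ Subgroup.mem_top g
  have d := dot_rB
  rcases this with e | e
  · rw [← hg, e, dotInt_self, norm_v0] at d
    norm_num at d
  · rw [← hg, e, neg_coe, dotInt_neg_right, dotInt_self, norm_v0] at d
    norm_num at d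

theorem SS_coatom : IsCoatom SS := by
  have := finite_Co0
  apply coatom_of_rankS (G := Co0) v0L SS stab_le_SS
    (fun y : leechLattice => (dotInt (v0L : V) (y : V)).natAbs) {32, 16, 8, 0}
    (fun j => if j = 32 then 2 else if j = 16 then 9200 else if j = 8 then 94208 else 93150)
  · rw [orbit_v0]
    intro y hy
    have hJ := dot_mem_JJ y hy
    simp only [JJ, Finset.mem_insert, Finset.mem_singleton] at hJ
    rcases hJ with e | e | e | e | e | e | e <;> simp only [e] <;> decide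
  · rw [orbit_v0]
    intro j hj
    simp only [Finset.mem_insert, Finset.mem_singleton] at hj
    have h8 := card_Y_eq 8
    have h16 := card_Y_eq 16
    rw [Y_all.2.2.2.1] at h16
    rw [Y_all.2.2.2.2.1] at h8
    rcases hj with rfl | rfl | rfl | rfl
    · exact (cntAbs 32 (by norm_num)).trans card_Y32
    · refine (cntAbs 16 (by norm_num)).trans ?_
      have e1 : (Y ((16 : ℕ) : ℤ)).card = 4600 := h16.symm
      have e2 : (Y (-((16 : ℕ) : ℤ))).card = 4600 := Y_all.2.2.2.1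
      rw [e1, e2]
      rfl
    · refine (cntAbs 8 (by norm_num)).trans ?_
      have e1 : (Y ((8 : ℕ) : ℤ)).card = 47104 := h8.symm
      have e2 : (Y (-((8 : ℕ) : ℤ))).card = 47104 := Y_all.2.2.2.2.1
      rw [e1, e2]
      rfl
    · exact cntAbs0.trans Y_all.2.2.2.2.2.1
  · rw [orbit_v0]
    intro y hy z hz e
    exact transS y z hy hz e
  · have e : (dotInt (v0L : V) (v0L : V)).natAbs = 32 := by rw [dotInt_self, norm_v0]; rfl
    show ∀ J ∈ ({32, 16, 8, 0} : Finset ℕ).powerset, (dotInt (v0L : V) (v0L : V)).natAbs ∈ J → _ →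
      J = {(dotInt (v0L : V) (v0L : V)).natAbs} ∨ J = _
    rw [e]
    decide +kernel
  · exact SS_ne_top

end Cfsg.Agent.H9
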