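import Cfsg.Agent.Lib_H9_Co0d

set_option autoImplicit false

namespace Cfsg.Agent.H9

def gT2 : ℕ := 5431914979217760799845807060519022020351023880213527981590314562956796345482695021463661570507056549922113184671189113089007866975845196801730261598327373564415856691166375800604144297772530367270033139492352637624836130345049936260938740679960424567341

def fx2 : ℕ := 42255020007607646715483293832

theorem gens2_ok : gensOK gT2 fx2 = true := by decide +kernel

end Cfsg.Agent.H9
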