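import Mathlib

set_option autoImplicit false

namespace Cfsg.Agent.H9

/-! ### a generic form of Conway's counting argument modulo twice a lattice -/

structure PForm {M : Type*} [AddCommGroup M] (b : M → M → ℤ) : Prop where
  add_left : ∀ x y z, b (x + y) z = b x z + b y z
  symm : ∀ x y, b x y = b y x
  pos : ∀ x, x ≠ 0 → 0 < b x x

namespace PForm

variable {M : Type*} [AddCommGroup M] {b : M → M → ℤ} (hb : PForm b)

include hb

/-- the additive map `x ↦ b x z` -/
def homL (z : M) : M →+ ℤ := AddMonoidHom.mk' (fun x => b x z) (fun x y => hb.add_left x y z)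

theorem homL_apply (z x : M) : hb.homL z x = b x z := rfl

theorem neg_left (x z : M) : b (-x) z = -b x z := (hb.homL z).map_neg x

theorem neg_right (x z : M) : b x (-z) = -b x z := by rw [hb.symm, hb.neg_left, hb.symm]

theorem add_right (x y z : M) : b x (y + z) = b x y + b x z := by
  rw [hb.symm, hb.add_left, hb.symm y, hb.symm z]

theorem zero_left (z : M) : b 0 z = 0 := (hb.homL z).map_zero

theorem norm_add (x y : M) : b (x + y) (x + y) = b x x + 2 * b x y + b y y := by
  rw [hb.add_left, hb.add_right, hb.add_right, hb.symm y x]; ring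

theorem norm_sub (x y : M) : b (x - y) (x - y) = b x x - 2 * b x y + b y y := by
  rw [sub_eq_add_neg, hb.norm_add, hb.neg_right, hb.neg_left, hb.neg_right]; ring

theorem norm_two (z : M) : b (2 • z) (2 • z) = 4 * b z z := by
  rw [two_smul, hb.norm_add]; ring

theorem norm_neg (z : M) : b (-z) (-z) = b z z := by
  rw [hb.neg_left, hb.neg_right]; ring

theorem orth_card [Module.Finite ℤ M] (S : Finset M) (h0 : ∀ y ∈ S, y ≠ 0)
    (ho : ∀ y ∈ S, ∀ z ∈ S, y ≠ z → b y z = 0) : S.card ≤ Module.finrank ℤ M := by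
  classical
  have hli : LinearIndependent ℤ (fun y : S => (y : M)) := by
    rw [linearIndependent_iff']
    intro s g hg j hj
    have h1 := congrArg (hb.homL (j : M)) hg
    rw [map_sum, map_zero] at h1
    simp only [map_zsmul, homL_apply, smul_eq_mul] at h1
    rw [Finset.sum_eq_single j] at h1
    · have := hb.pos _ (h0 _ j.2)
      rcases mul_eq_zero.mp h1 with h | h
      · exact h
      · omega
    · intro i _ hij
      rw [ho _ i.2 _ j.2 (fun h => hij (Subtype.ext h)), mul_zero]
    · intro h; exact absurd hj h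
  have := hli.fintype_card_le_finrank
  rwa [Fintype.card_coe] at this

theorem pm_card [Module.Finite ℤ M] (F : Finset M) (h0 : ∀ y ∈ F, y ≠ 0)
    (ho : ∀ y ∈ F, ∀ z ∈ F, y = z ∨ y = -z ∨ b y z = 0) : F.card ≤ 2 * Module.finrank ℤ M := by
  classical
  set cls : M → Finset M := fun y => {y, -y} with hcls
  have h1 : F.card ≤ 2 * (F.image cls).card := by
    apply Finset.card_le_mul_card_image
    intro a ha
    obtain ⟨y, _, rfl⟩ := Finset.mem_image.mp ha
    calc (F.filter (fun x => cls x = cls y)).card ≤ (cls y).card := by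
          apply Finset.card_le_card
          intro x hx
          rw [Finset.mem_filter] at hx
          rw [← hx.2]
          simp [hcls]
      _ ≤ 2 := Finset.card_le_two
  have hrep : ∀ k ∈ F.image cls, ∃ y ∈ F, cls y = k := fun k hk => by
    obtain ⟨y, hy, e⟩ := Finset.mem_image.mp hk
    exact ⟨y, hy, e⟩
  choose! rep hrepF hrepc using hrep
  have h2 : ((F.image cls).image rep).card = (F.image cls).card := by
    apply Finset.card_image_of_injOn
    intro k hk k' hk' e
    rw [← hrepc k hk, ← hrepc k' hk']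
    exact congrArg cls e
  have h3 : ((F.image cls).image rep).card ≤ Module.finrank ℤ M := by
    apply hb.orth_card
    · intro y hy
      obtain ⟨k, hk, rfl⟩ := Finset.mem_image.mp hy
      exact h0 _ (hrepF k hk)
    · intro y hy z hz hyz
      obtain ⟨k, hk, rfl⟩ := Finset.mem_image.mp hy
      obtain ⟨k', hk', rfl⟩ := Finset.mem_image.mp hz
      rcases ho _ (hrepF k hk) _ (hrepF k' hk') with h | h | h
      · exact absurd h hyz
      · exfalso
        apply hyz
        have : k = k' := by
          rw [← hrepc k hk, ← hrepc k' hk', h]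
          simp only [hcls, neg_neg]
          exact Finset.pair_comm _ _
        rw [this]
      · exact h
  omega

/-- short vectors congruent modulo twice the lattice -/
theorem short_congr {L : AddSubgroup M} {u : ℤ} (hmin : ∀ x ∈ L, x ≠ 0 → 2 * u ≤ b x x)
    {x y : M} (hy : y ∈ L) (hxy : x ≠ y)
    (hxn : b x x ≤ 4 * u) (hyn : b y y ≤ 4 * u) (hc : ∃ z ∈ L, x - y = 2 • z) :
    x = -y ∨ (b x x = 4 * u ∧ b y y = 4 * u ∧ b x y = 0) := by
  obtain ⟨z, hz, e⟩ := hc
  by_cases hneg : x = -y
  · exact Or.inl hneg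
  right
  have hz0 : z ≠ 0 := by
    rintro rfl
    apply hxy
    rw [smul_zero] at e
    exact sub_eq_zero.mp e
  have h1 : 8 * u ≤ b (x - y) (x - y) := by
    rw [e, hb.norm_two]
    have := hmin z hz hz0
    omega
  have e2 : x + y = 2 • (z + y) := by
    rw [smul_add, ← e]
    rw [two_smul]; abel
  have hzy0 : z + y ≠ 0 := by
    intro h
    apply hneg
    rw [h, smul_zero] at e2
    exact eq_neg_of_add_eq_zero_left e2
  have h2 : 8 * u ≤ b (x + y) (x + y) := by
    rw [e2, hb.norm_two]
    have := hmin _ (L.add_mem hz hy) hzy0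
    omega
  rw [hb.norm_sub] at h1
  rw [hb.norm_add] at h2
  refine ⟨by omega, by omega, by omega⟩

theorem cross_main [Module.Finite ℤ M] (hrank : Module.finrank ℤ M = 24) (L : AddSubgroup M) {u : ℤ} (hu : 0 < u)
    (hmin : ∀ x ∈ L, x ≠ 0 → 2 * u ≤ b x x)
    (h2 : {x | x ∈ L ∧ b x x = 2 * u}.ncard = 196560)
    (h3 : {x | x ∈ L ∧ b x x = 3 * u}.ncard = 16773120)
    (h4 : {x | x ∈ L ∧ b x x = 4 * u}.ncard = 398034000)
    {Q : Type*} [Fintype Q] (hQ : Fintype.card Q = 2 ^ 24) (π : M → Q)
    (hπ : ∀ x ∈ L, ∀ y ∈ L, π x = π y ↔ ∃ z ∈ L, x - y = 2 • z) :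
    (∀ x ∈ L, b x x = 4 * u → {y | y ∈ L ∧ b y y = 4 * u ∧ ∃ z ∈ L, x - y = 2 • z}.ncard = 48) ∧
    (∀ x ∈ L, ∃ y ∈ L, b y y ≤ 4 * u ∧ ∃ z ∈ L, x - y = 2 • z) := by
  classical
  have f2 : Set.Finite {x | x ∈ L ∧ b x x = 2 * u} := Set.finite_of_ncard_ne_zero (by rw [h2]; norm_num)
  have f3 : Set.Finite {x | x ∈ L ∧ b x x = 3 * u} := Set.finite_of_ncard_ne_zero (by rw [h3]; norm_num)
  have f4 : Set.Finite {x | x ∈ L ∧ b x x = 4 * u} := Set.finite_of_ncard_ne_zero (by rw [h4]; norm_num)
  rw [Set.ncard_eq_toFinset_card _ f2] at h2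
  rw [Set.ncard_eq_toFinset_card _ f3] at h3
  rw [Set.ncard_eq_toFinset_card _ f4] at h4
  have m2 : ∀ y, y ∈ f2.toFinset ↔ y ∈ L ∧ b y y = 2 * u := fun y => by rw [Set.Finite.mem_toFinset]; rfl
  have m3 : ∀ y, y ∈ f3.toFinset ↔ y ∈ L ∧ b y y = 3 * u := fun y => by rw [Set.Finite.mem_toFinset]; rfl
  have m4 : ∀ y, y ∈ f4.toFinset ↔ y ∈ L ∧ b y y = 4 * u := fun y => by rw [Set.Finite.mem_toFinset]; rfl
  have b00 : b 0 0 = 0 := hb.zero_left 0
  set S : Finset M := (({0} ∪ f2.toFinset) ∪ f3.toFinset) ∪ f4.toFinset with hS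
  have memS : ∀ y, y ∈ S ↔ y = 0 ∨ (y ∈ L ∧ b y y = 2 * u) ∨ (y ∈ L ∧ b y y = 3 * u) ∨ (y ∈ L ∧ b y y = 4 * u) := by
    intro y
    rw [hS, Finset.mem_union, Finset.mem_union, Finset.mem_union, Finset.mem_singleton, m2, m3, m4]
    tauto
  set c : M → ℕ := fun y => if y = 0 then 48 else if b y y = 4 * u then 1 else 24 with hc
  have hsum : ∑ y ∈ S, c y = 48 * 2 ^ 24 := by
    have d1 : Disjoint ({0} : Finset M) f2.toFinset := by
      rw [Finset.disjoint_singleton_left, m2, b00]
      rintro ⟨_, h⟩; omega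
    have d2 : Disjoint (({0} : Finset M) ∪ f2.toFinset) f3.toFinset := by
      rw [Finset.disjoint_left]
      intro y hy hy'
      rw [Finset.mem_union, Finset.mem_singleton, m2] at hy
      rw [m3] at hy'
      rcases hy with rfl | hy
      · rw [b00] at hy'; omega
      · omega
    have d3 : Disjoint ((({0} : Finset M) ∪ f2.toFinset) ∪ f3.toFinset) f4.toFinset := by
      rw [Finset.disjoint_left]
      intro y hy hy'
      rw [Finset.mem_union, Finset.mem_union, Finset.mem_singleton, m2, m3] at hy
      rw [m4] at hy'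
      rcases hy with (rfl | hy) | hy
      · rw [b00] at hy'; omega
      · omega
      · omega
    have ne0 : ∀ y k, 0 < k → b y y = k * u → y ≠ 0 := by
      rintro y k hk h rfl
      rw [b00] at h
      have : 0 < k * u := by positivity
      omega
    rw [hS, Finset.sum_union d3, Finset.sum_union d2, Finset.sum_union d1, Finset.sum_singleton]
    have c2 : ∀ y ∈ f2.toFinset, c y = 24 := by
      intro y hy
      rw [m2] at hy
      simp only [hc]
      rw [if_neg (ne0 y 2 (by norm_num) hy.2), if_neg (by omega)]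
    have c3 : ∀ y ∈ f3.toFinset, c y = 24 := by
      intro y hy
      rw [m3] at hy
      simp only [hc]
      rw [if_neg (ne0 y 3 (by norm_num) hy.2), if_neg (by omega)]
    have c4 : ∀ y ∈ f4.toFinset, c y = 1 := by
      intro y hy
      rw [m4] at hy
      simp only [hc]
      rw [if_neg (ne0 y 4 (by norm_num) hy.2), if_pos hy.2]
    rw [Finset.sum_congr rfl c2, Finset.sum_congr rfl c3, Finset.sum_congr rfl c4, Finset.sum_const, Finset.sum_const,
      Finset.sum_const, h2, h3, h4]
    simp [hc]
  have hLS : ∀ y ∈ S, y ∈ L ∧ b y y ≤ 4 * u := by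
    intro y hy
    rw [memS] at hy
    rcases hy with rfl | hy | hy | hy
    · exact ⟨L.zero_mem, by rw [b00]; omega⟩
    · exact ⟨hy.1, by omega⟩
    · exact ⟨hy.1, by omega⟩
    · exact ⟨hy.1, by omega⟩
  have key : ∀ y ∈ S, ∀ z ∈ S, π y = π z → y = z ∨ y = -z ∨ (b y y = 4 * u ∧ b z z = 4 * u ∧ b y z = 0) := by
    intro y hy z hz e
    by_cases hyz : y = z
    · exact Or.inl hyz
    · exact Or.inr (hb.short_congr hmin (hLS z hz).1 hyz (hLS y hy).2 (hLS z hz).2
        ((hπ y (hLS y hy).1 z (hLS z hz).1).mp e))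
  -- fibres containing a vector of norm `4u`
  have fib4 : ∀ y0 ∈ S, b y0 y0 = 4 * u →
      (∀ z ∈ S.filter (fun y => π y = π y0), b z z = 4 * u) ∧
      ∑ y ∈ S.filter (fun y => π y = π y0), c y = (S.filter (fun y => π y = π y0)).card ∧
      (S.filter (fun y => π y = π y0)).card ≤ 48 := by
    intro y0 hy0 hn
    have all4 : ∀ z ∈ S.filter (fun y => π y = π y0), b z z = 4 * u := by
      intro z hz
      rw [Finset.mem_filter] at hz
      rcases key z hz.1 y0 hy0 hz.2 with h | h | h
      · rw [h]; exact hn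
      · rw [h, hb.norm_neg]; exact hn
      · exact h.1
    have nz : ∀ z ∈ S.filter (fun y => π y = π y0), z ≠ 0 := by
      rintro z hz rfl
      have := all4 0 hz
      rw [b00] at this; omega
    refine ⟨all4, ?_, ?_⟩
    · have hc1 : ∀ z ∈ S.filter (fun y => π y = π y0), c z = 1 := by
        intro z hz
        simp only [hc]
        rw [if_neg (nz z hz), if_pos (all4 z hz)]
      rw [Finset.sum_congr rfl hc1, Finset.sum_const, smul_eq_mul, mul_one]
    · have := hb.pm_card (S.filter (fun y => π y = π y0)) nz (by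
        intro y hy z hz
        rw [Finset.mem_filter] at hy hz
        rcases key y hy.1 z hz.1 (by rw [hy.2, hz.2]) with h | h | h
        · exact Or.inl h
        · exact Or.inr (Or.inl h)
        · exact Or.inr (Or.inr h.2.2))
      rw [hrank] at this
      omega
  have hfib : ∀ q, ∑ y ∈ S.filter (fun y => π y = q), c y ≤ 48 := by
    intro q
    by_cases h4' : ∃ y ∈ S.filter (fun y => π y = q), b y y = 4 * u
    · obtain ⟨y0, hy0, hn⟩ := h4'
      rw [Finset.mem_filter] at hy0
      obtain ⟨_, e1, e2⟩ := fib4 y0 hy0.1 hn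
      rw [hy0.2] at e1 e2
      omega
    · push Not at h4'
      rcases (S.filter (fun y => π y = q)).eq_empty_or_nonempty with he | ⟨y0, hy0⟩
      · rw [he]; simp
      · have hsub : S.filter (fun y => π y = q) ⊆ {y0, -y0} := by
          intro z hz
          have hz' := hz
          have hy0' := hy0
          rw [Finset.mem_filter] at hz' hy0'
          rw [Finset.mem_insert, Finset.mem_singleton]
          rcases key z hz'.1 y0 hy0'.1 (by rw [hz'.2, hy0'.2]) with h | h | h
          · exact Or.inl h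
          · exact Or.inr h
          · exact absurd h.1 (h4' z hz)
        by_cases h00 : y0 = 0
        · subst h00
          calc ∑ y ∈ S.filter (fun y => π y = q), c y ≤ ∑ y ∈ ({0, -0} : Finset M), c y :=
                Finset.sum_le_sum_of_subset hsub
            _ = 48 := by simp [hc]
        · have hc24 : ∀ z ∈ S.filter (fun y => π y = q), c z ≤ 24 := by
            intro z hz
            have hz0 : z ≠ 0 := by
              have := hsub hz
              rw [Finset.mem_insert, Finset.mem_singleton] at this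
              rcases this with h | h
              · rw [h]; exact h00
              · rw [h]; exact neg_ne_zero.mpr h00
            simp only [hc]
            rw [if_neg hz0, if_neg (h4' z hz)]
          have h5 := Finset.sum_le_card_nsmul _ _ _ hc24
          have h6 : (S.filter (fun y => π y = q)).card ≤ 2 :=
            le_trans (Finset.card_le_card hsub) Finset.card_le_two
          rw [smul_eq_mul] at h5
          refine le_trans h5 ?_
          omega
  have hall : ∀ q, ∑ y ∈ S.filter (fun y => π y = q), c y = 48 := by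
    have h := (Finset.sum_eq_sum_iff_of_le (s := (Finset.univ : Finset Q)) (fun q _ => hfib q)).mp (by
      have e : ∑ q, ∑ y ∈ S.filter (fun y => π y = q), c y = ∑ y ∈ S, c y := by
        convert Finset.sum_fiberwise S π c
      rw [e, hsum, Finset.sum_const, Finset.card_univ, hQ, smul_eq_mul, mul_comm])
    exact fun q => h q (Finset.mem_univ q)
  constructor
  · intro x hx hn
    have hxS : x ∈ S := (memS x).mpr (Or.inr (Or.inr (Or.inr ⟨hx, hn⟩)))
    obtain ⟨all4, e1, _⟩ := fib4 x hxS hn
    have hset : {y | y ∈ L ∧ b y y = 4 * u ∧ ∃ z ∈ L, x - y = 2 • z} =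
        ↑(S.filter (fun y => π y = π x)) := by
      ext y
      rw [Finset.mem_coe, Finset.mem_filter]
      constructor
      · rintro ⟨h1, h2', h3'⟩
        exact ⟨(memS y).mpr (Or.inr (Or.inr (Or.inr ⟨h1, h2'⟩))), ((hπ x hx y h1).mpr h3').symm⟩
      · rintro ⟨h1, h2'⟩
        exact ⟨(hLS y h1).1, all4 y (Finset.mem_filter.mpr ⟨h1, h2'⟩), (hπ x hx y (hLS y h1).1).mp h2'.symm⟩
    rw [hset, Set.ncard_coe_finset, ← e1, hall]
  · intro x hx
    have h := hall (π x)
    have hne : (S.filter (fun y => π y = π x)).Nonempty := by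
      rw [Finset.nonempty_iff_ne_empty]
      intro he
      rw [he] at h
      simp at h
    obtain ⟨y, hy⟩ := hne
    rw [Finset.mem_filter] at hy
    exact ⟨y, (hLS y hy.1).1, (hLS y hy.1).2, (hπ x hx y (hLS y hy.1).1).mp hy.2.symm⟩

end PForm

end Cfsg.Agent.H9
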