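import Cfsg.Agent.Lib_H9_Fus2

set_option autoImplicit false

namespace Cfsg.Agent.H9.D11

def CM : ℕ := 413843014636450915251048444501021119339008936019769942675477911733808905072811245008234182838396495409405697947812289966064542925611745012105511019051712876792021055728920555854080526363291056161773792021749792734153521615893726997284222043733418324324180063838036575290257699400272293915503139803365104523337184089474435402960975334320125999689589760954115290912899043085761118086339923371490201166713299310397798595489466419994653249917604788167634245707240949516261320996036949107010544768228257078938854399756390382436347783200010920408399502373752935693422554088194208726100504862818616368931454578662645686971462230415700671098129368191363197637812049665549650356003609652939050973099725027985895855544376966184515081348685238207434324288333909847339510819029374497325396739740758544442136378011949138765534886092371473205218625484881532391265117569466354422556683888283285248610000725577039783551708827955269415544752793596756478257978624987402298209938299331967131746338821261727962786295730526067537654051111721910243973893764138456362778016163905619232709325145597576286672257615121137046422883458833599303938012455005875012739571649373481210836320395506883223039271431210433146388381673440530792580870338212408056334482687409394019708436224013660204704720655384420668015947965489838127707713610712947808703042881299089220697349078738936167789796779231753924611786989330566307064015427028076303830151271795285724128314565313412785019700703642743194782187243880130725548057004062602382476249843195873561968352391694636712246692461822084766792638136126612050280361735675244679803172050400567339969836152629069201904804976966103614535795221409969417454032002960037703278029161278929174602495209824228132448161004826242796600357274477478086661071970001458496734929482168015341228245202839875149803804720697680440446206229252981968032062196267356708608497399927191542778919124016855166290605478281232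

def TL : List ℕ := [984818244535754528103549039458486304, 970499966350631336865513127433832480, 965346966670364367458681901213092896, 969202056781860934635753244362607648, 735500604421669808992593446508235808, 721064549862662597311266359538158624, 719923664328491199848526586197411872, 715872302521680643580706198532491296, 227578386318009578406903204956702752, 232652365823391711183829569059784736, 235366405754860650836778140353760288, 233950865888990746377447415904013344, 601915135321570999558303616165022752, 606675048206788974183023727349926944, 608405391266436187982588441666881568, 609271311764373893382231684089481248]

def zc : ℕ := 970499966350631336865513127433832480

def gs : List ℕ := [970499966350631336865513127433832480, 965346966670364367458681901213092896, 735500604421669808992593446508235808, 227578386318009578406903204956702752]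

def cert : List (ℕ × ℕ × ℕ) := [(965346966670364367458681901213092896, 892197455044838036512411979845476384, 970499966350631336865513127433832480), (735500604421669808992593446508235808, 944576703234065857180591671912828960, 970499966350631336865513127433832480), (227578386318009578406903204956702752, 610933098178650810155900481226967136, 719923664328491199848526586197411872)]

set_option maxRecDepth 100000 in
theorem tab : Tab 1 [340831] CM TL := ⟨by decide +kernel, by decide +kernel, by decide +kernel⟩

set_option maxRecDepth 100000 in
theorem colok : colOK CM TL = true := by decide +kernel

set_option maxRecDepth 100000 in
theorem cen : cenOK gs zc TL = true := by decide +kernel

set_option maxRecDepth 100000 in
theorem crt : certChk 1 [340831] TL [idCode, zc] cert = true := by decide +kernel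

set_option maxRecDepth 100000 in
theorem len : TL.length = 2 ^ 4 := by decide +kernel

end Cfsg.Agent.H9.D11
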