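import Cfsg.Agent.Lib_H9_Good

set_option autoImplicit false

namespace Cfsg.Agent.H9

open Cfsg
open scoped Pointwise

theorem mem_code_iff (w : GolayPt → ZMod 2) : w ∈ golayCode ↔ support₂ w ∈ CC := by
  constructor
  · intro h
    exact ⟨w, h, rfl⟩
  · rintro ⟨w', hw', e⟩
    rw [← support₂_injective e]
    exact hw'

theorem support₂_add' (a b : GolayPt → ZMod 2) :
    support₂ (a + b) = symmDiff (support₂ a) (support₂ b) := by
  ext p
  have key : ∀ x y : ZMod 2, (x + y ≠ 0 ↔ (x ≠ 0 ∧ ¬ y ≠ 0) ∨ (y ≠ 0 ∧ ¬ x ≠ 0)) := by decide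
  simp only [support₂, Finset.mem_symmDiff, Finset.mem_filter, Finset.mem_univ, true_and, Pi.add_apply]
  exact key _ _

theorem sub_eq_add' (a b : GolayPt → ZMod 2) : a - b = a + b := by
  ext p
  have key : ∀ x y : ZMod 2, x - y = x + y := by decide
  exact key _ _

/-- the indicator word of a set -/
def indW (s : Finset GolayPt) : GolayPt → ZMod 2 := wordOf (toMask s)

theorem support₂_ind (s : Finset GolayPt) : support₂ (indW s) = s := by
  unfold indW
  rw [support₂_wordOf, ofMask_toMask]

theorem ind_support₂ (w : GolayPt → ZMod 2) : indW (support₂ w) = w := wordOf_support₂ w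

theorem indW_symmDiff (s t : Finset GolayPt) : indW (symmDiff s t) = indW s + indW t := by
  apply support₂_injective
  rw [support₂_add', support₂_ind, support₂_ind, support₂_ind]

theorem ind_comp (σ : Equiv.Perm GolayPt) (s : Finset GolayPt) :
    (fun p => indW s (σ.symm p)) = indW (σ • s) := by
  apply support₂_injective
  have := support₂_comp σ (indW s)
  rw [support₂_ind] at this
  rw [support₂_ind, ← this]
  rfl

/-- the main step: an element fixing the codeword part and moving the leader -/
theorem move_coset {s X : Finset GolayPt} (hs : s ∈ CC) (hX : X ∉ CC) :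
    ∃ σ ∈ M24, σ • s = s ∧ symmDiff (σ • X) X ∉ CC := by
  have hl := symmDiff_leadS X
  have hE0 : (leadS X).Nonempty := by
    rw [Finset.nonempty_iff_ne_empty]
    intro e
    rw [e] at hl
    apply hX
    have e2 : symmDiff X ∅ = X := symmDiff_bot X
    rwa [e2] at hl
  obtain ⟨σ, hσ, e1, e2, e3⟩ := good_all hs hE0 (card_leadS X)
  refine ⟨σ, hσ, e1, ?_⟩
  intro h
  obtain ⟨g1, g2⟩ := good_small (card_leadS X) e2 e3
  apply g2
  apply eq_empty_of_card_lt _ g1
  rw [← rs_eq_iff] at h hl ⊢
  rw [← hl, ← h]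
  exact ((rs_smul_iff hσ _ _).mpr hl).symm

end Cfsg.Agent.H9
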