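import Cfsg.Agent.Lib_H9_K192

set_option autoImplicit false

namespace Cfsg.Agent.H9

open Cfsg
open scoped Pointwise

namespace K192

theorem X0_spec : distinctP 6 X0 = true ∧ ∀ k < 6, pop (part X0 k) = 4 ∧ res (part X0 k) = res 15 := by
  have := X0_ok
  rw [Bool.and_eq_true] at this
  refine ⟨this.1, fun k hk => ?_⟩
  have h2 := (allBelow_iff _ _).mp (of_decide_eq_true this.2) k hk
  rw [Bool.and_eq_true] at h2
  exact ⟨Nat.eq_of_beq_eq_true h2.1, Nat.eq_of_beq_eq_true h2.2⟩

theorem card15 : (ofMask 15).card = 4 := by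
  rw [← pop_eq (by norm_num)]; decide +kernel

theorem S0_eq : famP 6 X0 = sx (ofMask 15) := by
  apply Finset.eq_of_subset_of_card_le
  · intro u hu
    obtain ⟨k, hk6, rfl⟩ := mem_famP.mp hu
    rw [mem_sx, ← pop_eq (part_lt _ _), rs_ofMask (part_lt _ _), rs_ofMask (by norm_num)]
    exact X0_spec.2 k hk6
  · rw [card_sx card15, card_famP X0_spec.1]

theorem S0_mem : famP 6 X0 ∈ sextets := by
  rw [S0_eq]; exact sx_mem_sextets card15

theorem TI_spec {i : ℕ} (hi : i < 24) : fld TI 3 7 i < 6 ∧ ∀ j < 6, ((part X0 j).testBit i = true ↔ fld TI 3 7 i = j) := by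
  have := (allBelow_iff _ _).mp TI_ok i hi
  rw [Bool.and_eq_true] at this
  refine ⟨Nat.blt_eq ▸ this.1, fun j hj => ?_⟩
  have h2 := (allBelow_iff _ _).mp this.2 j hj
  rw [bit_eq] at h2
  by_cases e : fld TI 3 7 i = j
  · have : Nat.beq (fld TI 3 7 i) j = true := (beq_iff _ _).mpr e
    rw [this] at h2
    exact ⟨fun _ => e, fun _ => h2⟩
  · have : Nat.beq (fld TI 3 7 i) j = false := by
      cases hb : Nat.beq (fld TI 3 7 i) j with
      | false => rfl
      | true => exact absurd ((beq_iff _ _).mp hb) e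
    rw [this] at h2
    have h3 : (!(part X0 j).testBit i) = true := h2
    constructor
    · intro h; rw [h] at h3; exact absurd h3 (by decide)
    · intro h; exact absurd h e

/-- the elements fixing every tetrad of a family -/
def KS (S : Finset (Finset GolayPt)) : Set (Equiv.Perm GolayPt) := {g | g ∈ M24 ∧ ∀ t ∈ S, g • t = t}

theorem tet_of {g : Equiv.Perm GolayPt} (hg : g ∈ KS (famP 6 X0)) {i a : ℕ} (hi : i < 24) (ha : a < 24)
    (h : g (pt i) = pt a) : fld TI 3 7 a = fld TI 3 7 i := by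
  obtain ⟨h6, hs⟩ := TI_spec hi
  have h1 : pt i ∈ ofMask (part X0 (fld TI 3 7 i)) := by
    rw [mem_ofMask, idx_pt hi]; exact (hs _ h6).mpr rfl
  have h2 := hg.2 _ (mem_famP.mpr ⟨_, h6, rfl⟩)
  have h3 : g (pt i) ∈ g • ofMask (part X0 (fld TI 3 7 i)) := Finset.smul_mem_smul_finset h1
  rw [h2] at h3
  rw [h, mem_ofMask, idx_pt ha] at h3
  exact ((TI_spec ha).2 _ h6).mp h3

theorem tab_spec {k : ℕ} (hk : k < 192) : inM24 (entry KT k) = true ∧ fixK (entry KT k) = true := by
  have := (allBelow_iff _ _).mp tab_ok k hk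
  rw [force_eq, Bool.and_eq_true] at this
  exact this

theorem tab_strict : ∀ i j, j < 192 → i < j → entry KT i < entry KT j := by
  intro i j
  induction j with
  | zero => intro _ h; omega
  | succ j ih =>
    intro hj hij
    have h1 : entry KT j < entry KT (j + 1) :=
      Nat.blt_eq ▸ (allBelow_iff _ _).mp tab_mono j (by omega)
    rcases Nat.lt_succ_iff_lt_or_eq.mp hij with h | rfl
    · exact lt_trans (ih (by omega) h) h1
    · exact h1

theorem entry_lt'' (T c : ℕ) : entry T c < 2 ^ 120 :=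
  lt_of_le_of_lt (Nat.and_le_right (n := Nat.shiftRight T (Nat.mul 120 c))
    (m := 1329227995784915872903807060280344575)) (by norm_num)

theorem tab_inj {i j : ℕ} (hi : i < 192) (hj : j < 192) (h : permOf (entry KT i) = permOf (entry KT j)) :
    i = j := by
  have e : entry KT i = entry KT j := by
    apply code_ext (entry_lt'' _ _) (entry_lt'' _ _)
    intro a ha
    have r1 := Rep_permOf (inM24_isPerm (tab_spec hi).1)
    have r2 := Rep_permOf (inM24_isPerm (tab_spec hj).1)
    rw [h] at r1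
    exact r1.app_eq r2 ha
  rcases Nat.lt_trichotomy i j with h' | h' | h'
  · exact absurd e (ne_of_lt (tab_strict i j hj h'))
  · exact h'
  · exact absurd e.symm (ne_of_lt (tab_strict j i hi h'))

theorem tab_mem {k : ℕ} (hk : k < 192) : permOf (entry KT k) ∈ KS (famP 6 X0) := by
  refine ⟨permOf_mem_M24 (tab_spec hk).1, ?_⟩
  intro t ht
  obtain ⟨j, hj, rfl⟩ := mem_famP.mp ht
  rw [smul_ofMask (inM24_isPerm (tab_spec hk).1), (beq_iff _ _).mp ((allBelow_iff _ _).mp (tab_spec hk).2 j hj)]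

theorem mem_tab {g : Equiv.Perm GolayPt} (hg : g ∈ KS (famP 6 X0)) : ∃ k < 192, permOf (entry KT k) = g := by
  obtain ⟨W, hW, hQ⟩ := treeAll_spec tree_ok hg.1 (fun k _ W hW => by
    unfold pruneK
    rw [allBelow_iff]
    intro i hi
    rw [bit_eq]
    cases h1 : (fmask k).testBit i with
    | false => rfl
    | true =>
      simp only [Bool.not_true, Bool.false_or]
      exact (beq_iff _ _).mpr (tet_of hg hi (hW i hi h1).2 (hW i hi h1).1))
  have hfull : fullK W = true := by
    unfold fullK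
    rw [allBelow_iff]
    intro i hi
    exact (beq_iff _ _).mpr (tet_of hg hi (hW i hi).2 (hW i hi).1)
  rw [hfull] at hQ
  simp only [Bool.not_true, Bool.false_or] at hQ
  unfold look at hQ
  rw [force_eq, Bool.and_eq_true] at hQ
  have hk : bs W < 192 := Nat.blt_eq ▸ hQ.1
  have he : entry KT (bs W) = W := (beq_iff _ _).mp hQ.2
  refine ⟨bs W, hk, ?_⟩
  have hp := inM24_isPerm (tab_spec hk).1
  rw [he] at hp ⊢
  exact (hW.eq_permOf hp).symm

theorem invW_iff {W : ℕ} {g : Equiv.Perm GolayPt} (hW : Rep g W) : g * g = 1 ↔ invW W = true := by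
  unfold invW
  rw [allBelow_iff]
  constructor
  · intro hf i hi
    have e := congrArg (fun f => f (pt i)) hf
    simp only [Equiv.Perm.mul_apply, Equiv.Perm.one_apply] at e
    rw [(hW i hi).1, (hW _ (hW i hi).2).1] at e
    exact (beq_iff _ _).mpr (pt_injective (hW _ (hW i hi).2).2 hi e)
  · intro h
    ext p
    rw [← pt_idx p, Equiv.Perm.mul_apply, (hW _ (idx_lt p)).1, (hW _ (hW _ (idx_lt p)).2).1,
      (beq_iff _ _).mp (h _ (idx_lt p))]
    rfl

theorem ncard_KS0 : (KS (famP 6 X0)).ncard = 192 := by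
  have h := count_enum (KS (famP 6 X0)) (fun k => permOf (entry KT k)) 192 (fun _ => true) (fun _ hi _ => tab_mem hi)
    (fun x hx => by obtain ⟨k, hk, e⟩ := mem_tab hx; exact ⟨k, hk, rfl, e⟩)
    (fun _ hi _ hj _ _ e => tab_inj hi hj e) (fun _ => True) (fun _ => true) (fun _ _ _ => by simp)
  have e1 : {x | x ∈ KS (famP 6 X0) ∧ True} = KS (famP 6 X0) := by ext x; simp
  rw [e1, countBelow_eq] at h
  rw [h]
  simp

theorem ncard_NS0 : {g | g ∈ KS (famP 6 X0) ∧ g * g = 1}.ncard = 64 := by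
  rw [← cnt64]
  exact count_enum (KS (famP 6 X0)) (fun k => permOf (entry KT k)) 192 (fun _ => true) (fun _ hi _ => tab_mem hi)
    (fun x hx => by obtain ⟨k, hk, e⟩ := mem_tab hx; exact ⟨k, hk, rfl, e⟩)
    (fun _ hi _ hj _ _ e => tab_inj hi hj e) (fun g => g * g = 1) (fun k => invW (entry KT k))
    (fun k hk _ => invW_iff (Rep_permOf (inM24_isPerm (tab_spec hk).1)))

theorem clos0 {a b : Equiv.Perm GolayPt} (ha : a ∈ KS (famP 6 X0)) (hb : b ∈ KS (famP 6 X0))
    (ha2 : a * a = 1) (hb2 : b * b = 1) : (a * b) * (a * b) = 1 := by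
  obtain ⟨i, hi, rfl⟩ := mem_tab ha
  obtain ⟨j, hj, rfl⟩ := mem_tab hb
  have ra := Rep_permOf (inM24_isPerm (tab_spec hi).1)
  have rb := Rep_permOf (inM24_isPerm (tab_spec hj).1)
  have h1 := (allBelow_iff _ _).mp clos_ok i hi
  rw [force_eq, (invW_iff ra).mp ha2] at h1
  simp only [Bool.not_true, Bool.false_or] at h1
  have h2 := (allBelow_iff _ _).mp h1 j hj
  rw [force_eq, (invW_iff rb).mp hb2] at h2
  simp only [Bool.not_true, Bool.false_or] at h2
  exact (invW_iff (ra.mul rb)).mpr h2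

/-! ### transport -/

theorem KS_conj {h : Equiv.Perm GolayPt} (hh : h ∈ M24) (S : Finset (Finset GolayPt)) (c : Equiv.Perm GolayPt) :
    c ∈ KS S ↔ h * c * h⁻¹ ∈ KS (h • S) := by
  constructor
  · rintro ⟨h1, h2⟩
    refine ⟨M24.mul_mem (M24.mul_mem hh h1) (M24.inv_mem hh), ?_⟩
    intro t ht
    obtain ⟨u, hu, rfl⟩ := Finset.mem_smul_finset.mp ht
    rw [mul_smul, mul_smul, inv_smul_smul, h2 u hu]
  · rintro ⟨h1, h2⟩
    constructor
    · have := M24.mul_mem (M24.mul_mem (M24.inv_mem hh) h1) hh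
      have e : h⁻¹ * (h * c * h⁻¹) * h = c := by group
      rwa [e] at this
    · intro t ht
      have := h2 (h • t) (Finset.smul_mem_smul_finset ht)
      rw [mul_smul, mul_smul, inv_smul_smul] at this
      exact MulAction.injective h this

theorem sq_conj (h c : Equiv.Perm GolayPt) : c * c = 1 ↔ (h * c * h⁻¹) * (h * c * h⁻¹) = 1 := by
  have e : (h * c * h⁻¹) * (h * c * h⁻¹) = h * (c * c) * h⁻¹ := by group
  rw [e]
  constructor
  · intro h1; rw [h1]; group
  · intro h1
    have : h * (c * c) * h⁻¹ = h * 1 * h⁻¹ := by rw [h1]; group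
    exact mul_left_cancel (mul_right_cancel this)

theorem facts {S : Finset (Finset GolayPt)} (hS : S ∈ sextets) :
    (KS S).ncard = 192 ∧ {g | g ∈ KS S ∧ g * g = 1}.ncard = 64 ∧
    ∀ a b, a ∈ KS S → b ∈ KS S → a * a = 1 → b * b = 1 → (a * b) * (a * b) = 1 := by
  obtain ⟨h, hh, rfl⟩ := M24_trans_sextets S0_mem hS
  have inj : Function.Injective (fun c : Equiv.Perm GolayPt => h * c * h⁻¹) := by
    intro a b e
    exact mul_left_cancel (mul_right_cancel e)
  have back : ∀ g : Equiv.Perm GolayPt, h * (h⁻¹ * g * h) * h⁻¹ = g := fun g => by group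
  refine ⟨?_, ?_, ?_⟩
  · have e : KS (h • famP 6 X0) = (fun c : Equiv.Perm GolayPt => h * c * h⁻¹) '' KS (famP 6 X0) := by
      ext g
      constructor
      · intro hg
        refine ⟨h⁻¹ * g * h, ?_, back g⟩
        rw [KS_conj hh, back]; exact hg
      · rintro ⟨c, hc, rfl⟩
        exact (KS_conj hh _ c).mp hc
    rw [e, Set.ncard_image_of_injective _ inj, ncard_KS0]
  · have e : {g | g ∈ KS (h • famP 6 X0) ∧ g * g = 1} =
        (fun c : Equiv.Perm GolayPt => h * c * h⁻¹) '' {g | g ∈ KS (famP 6 X0) ∧ g * g = 1} := by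
      ext g
      constructor
      · rintro ⟨hg, h2⟩
        refine ⟨h⁻¹ * g * h, ⟨?_, ?_⟩, back g⟩
        · rw [KS_conj hh, back]; exact hg
        · rw [sq_conj h, back]; exact h2
      · rintro ⟨c, ⟨hc, h2⟩, rfl⟩
        exact ⟨(KS_conj hh _ c).mp hc, (sq_conj h c).mp h2⟩
    rw [e, Set.ncard_image_of_injective _ inj, ncard_NS0]
  · intro a b ha hb ha2 hb2
    have h1 := clos0 (a := h⁻¹ * a * h) (b := h⁻¹ * b * h) (by rw [KS_conj hh, back]; exact ha)
      (by rw [KS_conj hh, back]; exact hb) (by rw [sq_conj h, back]; exact ha2) (by rw [sq_conj h, back]; exact hb2)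
    rw [sq_conj h] at h1
    have e : h * (h⁻¹ * a * h * (h⁻¹ * b * h)) * h⁻¹ = a * b := by group
    rwa [e] at h1

theorem card_stab_sextet {S : Finset (Finset GolayPt)} (hS : S ∈ sextets) :
    Nat.card (MulAction.stabilizer M24 S) = 138240 := by
  have := card_stab_mul_orbit S
  have ho : MulAction.orbit M24 S = sextets := by
    ext e
    rw [MulAction.mem_orbit_iff]
    constructor
    · rintro ⟨g, rfl⟩; exact smul_mem_sextets g.2 hS
    · intro he
      obtain ⟨g, hg, h⟩ := M24_trans_sextets hS he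
      exact ⟨⟨g, hg⟩, h⟩
  rw [ho, ncard_sextets] at this
  omega

end K192

end Cfsg.Agent.H9
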