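import Cfsg.Agent.Lib_H9_Golay

set_option autoImplicit false

namespace Cfsg.Agent.H9

open Cfsg

/-! ### the rank 24 lattice: an algebraic description -/

/-- the "half word" of a vector all of whose coordinates are congruent to `m` modulo 2 -/
def hw (m : ℤ) (x : GolayPt → ℤ) : GolayPt → ZMod 2 := fun i => (((x i - m) / 2 : ℤ) : ZMod 2)

def LCond (m : ℤ) (x : GolayPt → ℤ) : Prop :=
  (∀ i, (2 : ℤ) ∣ x i - m) ∧ (8 : ℤ) ∣ (∑ i, x i) - 4 * m ∧ hw m x ∈ golayCode

theorem hw_add {m n : ℤ} {x y : GolayPt → ℤ} (hx : ∀ i, (2 : ℤ) ∣ x i - m) (hy : ∀ i, (2 : ℤ) ∣ y i - n) :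
    hw (m + n) (x + y) = hw m x + hw n y := by
  ext i
  obtain ⟨a, ha⟩ := hx i
  obtain ⟨b, hb⟩ := hy i
  simp only [hw, Pi.add_apply]
  rw [ha, hb, show x i + y i - (m + n) = 2 * (a + b) by linarith,
    Int.mul_ediv_cancel_left _ (by norm_num), Int.mul_ediv_cancel_left _ (by norm_num),
    Int.mul_ediv_cancel_left _ (by norm_num)]
  push_cast; ring

theorem hw_neg {m : ℤ} {x : GolayPt → ℤ} (hx : ∀ i, (2 : ℤ) ∣ x i - m) : hw (-m) (-x) = hw m x := by
  ext i
  obtain ⟨a, ha⟩ := hx i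
  simp only [hw, Pi.neg_apply]
  rw [ha, show -x i - -m = 2 * (-a) by linarith,
    Int.mul_ediv_cancel_left _ (by norm_num), Int.mul_ediv_cancel_left _ (by norm_num)]
  push_cast
  exact CharTwo.neg_eq _

theorem LCond.add {m n : ℤ} {x y : GolayPt → ℤ} (hx : LCond m x) (hy : LCond n y) : LCond (m + n) (x + y) := by
  refine ⟨fun i => ?_, ?_, ?_⟩
  · have := dvd_add (hx.1 i) (hy.1 i)
    rw [show x i - m + (y i - n) = (x + y) i - (m + n) by simp only [Pi.add_apply]; ring] at this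
    exact this
  · have := dvd_add hx.2.1 hy.2.1
    simp only [Pi.add_apply, Finset.sum_add_distrib]
    rw [show ∑ i, x i - 4 * m + (∑ i, y i - 4 * n) = ∑ i, x i + ∑ i, y i - 4 * (m + n) by ring] at this
    exact this
  · rw [hw_add hx.1 hy.1]
    exact golayCode.add_mem hx.2.2 hy.2.2

theorem LCond.neg {m : ℤ} {x : GolayPt → ℤ} (hx : LCond m x) : LCond (-m) (-x) := by
  refine ⟨fun i => ?_, ?_, ?_⟩
  · have := (dvd_neg (a := (2 : ℤ))).mpr (hx.1 i)
    rw [show -(x i - m) = (-x) i - -m by simp only [Pi.neg_apply]; ring] at this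
    exact this
  · have := (dvd_neg (a := (8 : ℤ))).mpr hx.2.1
    simp only [Pi.neg_apply, Finset.sum_neg_distrib]
    rw [show -(∑ i, x i - 4 * m) = -∑ i, x i - 4 * -m by ring] at this
    exact this
  · rw [hw_neg hx.1]; exact hx.2.2

theorem one_mem_golay : (1 : GolayPt → ZMod 2) ∈ golayCode :=
  Submodule.subset_span (Or.inr rfl)

theorem LCond_zero (t : ℤ) : LCond (2 * t) 0 := by
  refine ⟨fun i => ⟨-t, by simp⟩, ⟨-t, by simp; ring⟩, ?_⟩
  have : hw (2 * t) 0 = ((-t : ℤ) : ZMod 2) • (1 : GolayPt → ZMod 2) := by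
    ext i
    simp only [hw, Pi.zero_apply, Pi.smul_apply, Pi.one_apply, smul_eq_mul, mul_one]
    rw [show (0 : ℤ) - 2 * t = 2 * (-t) by ring, Int.mul_ediv_cancel_left _ (by norm_num)]
  rw [this]
  exact golayCode.smul_mem _ one_mem_golay

theorem LCond.shift {m : ℤ} {x : GolayPt → ℤ} (hx : LCond m x) (t : ℤ) : LCond (m + 2 * t) x := by
  have := hx.add (LCond_zero t)
  rwa [add_zero] at this

def LSub : AddSubgroup (GolayPt → ℤ) where
  carrier := {x | ∃ m, LCond m x}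
  zero_mem' := ⟨0, by simpa using LCond_zero 0⟩
  add_mem' := by
    rintro x y ⟨m, hx⟩ ⟨n, hy⟩
    exact ⟨m + n, hx.add hy⟩
  neg_mem' := by
    rintro x ⟨m, hx⟩
    exact ⟨-m, hx.neg⟩

theorem cast2_ne_zero_iff (a : ℤ) : ((a : ZMod 2) ≠ 0) ↔ a % 2 = 1 := by
  rw [Ne, ZMod.intCast_zmod_eq_zero_iff_dvd]
  omega

theorem mem_support₂ {w : GolayPt → ZMod 2} {i : GolayPt} : i ∈ support₂ w ↔ w i ≠ 0 := by
  unfold support₂; simp

theorem filter_eq_hw {m : ℤ} {x : GolayPt → ℤ} (hx : ∀ i, (2 : ℤ) ∣ x i - m) :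
    (Finset.univ.filter fun i => x i ≡ m + 2 [ZMOD 4]) = support₂ (hw m x) := by
  ext i
  obtain ⟨a, ha⟩ := hx i
  rw [mem_support₂, Finset.mem_filter]
  simp only [Finset.mem_univ, true_and]
  show _ ↔ (((x i - m) / 2 : ℤ) : ZMod 2) ≠ 0
  rw [ha, Int.mul_ediv_cancel_left _ (by norm_num), cast2_ne_zero_iff, Int.modEq_iff_dvd]
  omega

theorem filter_eq_hw' {m : ℤ} {x : GolayPt → ℤ} (hx : ∀ i, (2 : ℤ) ∣ x i - m) :
    (Finset.univ.filter fun i => x i ≡ m [ZMOD 4]) = support₂ (hw m x + 1) := by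
  ext i
  obtain ⟨a, ha⟩ := hx i
  rw [mem_support₂, Finset.mem_filter]
  simp only [Finset.mem_univ, true_and]
  show _ ↔ (((x i - m) / 2 : ℤ) : ZMod 2) + 1 ≠ 0
  rw [ha, Int.mul_ediv_cancel_left _ (by norm_num),
    show ((a : ZMod 2) + 1) = ((a + 1 : ℤ) : ZMod 2) by push_cast; ring, cast2_ne_zero_iff, Int.modEq_iff_dvd]
  omega

theorem leechSet_eq : leechSet = (LSub : Set (GolayPt → ℤ)) := by
  ext x
  constructor
  · rintro ⟨m, h1, h2, h3⟩
    have h1' : ∀ i, (2 : ℤ) ∣ x i - m := fun i => (Int.modEq_iff_dvd.mp (h1 i).symm)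
    refine ⟨m, h1', Int.modEq_iff_dvd.mp h2.symm, ?_⟩
    have := h3 (m + 2)
    rw [filter_eq_hw h1'] at this
    obtain ⟨w, hw1, hw2⟩ := this
    rw [← support₂_injective hw2]
    exact hw1
  · rintro ⟨m, h1, h2, h3⟩
    refine ⟨m, fun i => (Int.modEq_iff_dvd.mpr (h1 i)).symm, (Int.modEq_iff_dvd.mpr h2).symm, fun k => ?_⟩
    have hk : (k - m) % 4 = 0 ∨ (k - m) % 4 = 2 ∨ (k - m) % 2 = 1 := by omega
    rcases hk with hk | hk | hk
    · have : (Finset.univ.filter fun i => x i ≡ k [ZMOD 4]) = (Finset.univ.filter fun i => x i ≡ m [ZMOD 4]) := by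
        ext i
        simp only [Finset.mem_filter, Finset.mem_univ, true_and, Int.modEq_iff_dvd]
        omega
      rw [this, filter_eq_hw' h1]
      exact ⟨_, golayCode.add_mem h3 one_mem_golay, rfl⟩
    · have : (Finset.univ.filter fun i => x i ≡ k [ZMOD 4]) =
          (Finset.univ.filter fun i => x i ≡ m + 2 [ZMOD 4]) := by
        ext i
        simp only [Finset.mem_filter, Finset.mem_univ, true_and, Int.modEq_iff_dvd]
        omega
      rw [this, filter_eq_hw h1]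
      exact ⟨_, h3, rfl⟩
    · have : (Finset.univ.filter fun i => x i ≡ k [ZMOD 4]) = ∅ := by
        ext i
        have := h1 i
        simp only [Finset.mem_filter, Finset.mem_univ, true_and, Int.modEq_iff_dvd, Finset.notMem_empty, iff_false]
        omega
      rw [this]
      exact ⟨0, golayCode.zero_mem, by simp [support₂]⟩

theorem leechLattice_eq : leechLattice = LSub := by
  unfold leechLattice
  rw [leechSet_eq, AddSubgroup.closure_eq]

theorem mem_leech_iff {x : GolayPt → ℤ} : x ∈ leechLattice ↔ ∃ m, LCond m x := by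
  rw [leechLattice_eq]; rfl

theorem mem_leech_iff01 {x : GolayPt → ℤ} : x ∈ leechLattice ↔ LCond 0 x ∨ LCond 1 x := by
  rw [mem_leech_iff]
  constructor
  · rintro ⟨m, h⟩
    rcases Int.even_or_odd' m with ⟨t, rfl | rfl⟩
    · left
      have := h.shift (-t)
      rwa [show 2 * t + 2 * -t = 0 by ring] at this
    · right
      have := h.shift (-t)
      rwa [show 2 * t + 1 + 2 * -t = 1 by ring] at this
  · rintro (h | h)
    · exact ⟨0, h⟩
    · exact ⟨1, h⟩

/-! ### residue patterns -/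

/-- indicator -/
def ind (C : Finset GolayPt) (i : GolayPt) : ℤ := if i ∈ C then 1 else 0

def Pat (m : ℤ) (C : Finset GolayPt) (x : GolayPt → ℤ) : Prop :=
  (∀ i, (4 : ℤ) ∣ x i - m - 2 * ind C i) ∧ (8 : ℤ) ∣ (∑ i, x i) - 4 * m

theorem ind_cases (C : Finset GolayPt) (i : GolayPt) : (i ∈ C ∧ ind C i = 1) ∨ (i ∉ C ∧ ind C i = 0) := by
  unfold ind
  by_cases h : i ∈ C
  · left; simp [h]
  · right; simp [h]

theorem LCond_iff_Pat {m : ℤ} {x : GolayPt → ℤ} : LCond m x ↔ ∃ C ∈ CC, Pat m C x := by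
  constructor
  · rintro ⟨h1, h2, h3⟩
    refine ⟨support₂ (hw m x), ⟨_, h3, rfl⟩, fun i => ?_, h2⟩
    obtain ⟨a, ha⟩ := h1 i
    have hi : i ∈ support₂ (hw m x) ↔ a % 2 = 1 := by
      rw [mem_support₂]
      show (((x i - m) / 2 : ℤ) : ZMod 2) ≠ 0 ↔ _
      rw [ha, Int.mul_ediv_cancel_left _ (by norm_num), cast2_ne_zero_iff]
    rcases ind_cases (support₂ (hw m x)) i with ⟨h, e⟩ | ⟨h, e⟩
    · rw [e]; rw [hi] at h; omega
    · rw [e]; rw [hi] at h; omega
  · rintro ⟨C, ⟨w, hw1, rfl⟩, h1, h2⟩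
    have h1' : ∀ i, (2 : ℤ) ∣ x i - m := fun i => by
      have := h1 i
      rcases ind_cases (support₂ w) i with ⟨_, e⟩ | ⟨_, e⟩ <;> rw [e] at this <;> omega
    refine ⟨h1', h2, ?_⟩
    have : hw m x = w := by
      ext i
      obtain ⟨a, ha⟩ := h1' i
      have h4 := h1 i
      simp only [hw]
      rw [ha, Int.mul_ediv_cancel_left _ (by norm_num)]
      rcases ind_cases (support₂ w) i with ⟨h, e⟩ | ⟨h, e⟩
      · rw [e] at h4
        have hw : w i = 1 := by
          rw [mem_support₂] at h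
          rcases zmod2_cases (w i) with h' | h'
          · exact absurd h' h
          · exact h'
        rw [hw]
        have : a % 2 = 1 := by omega
        have h5 := (cast2_ne_zero_iff a).mpr this
        rcases zmod2_cases (a : ZMod 2) with h' | h'
        · exact absurd h' h5
        · exact h'
      · rw [e] at h4
        have hw : w i = 0 := by
          rw [mem_support₂, not_not] at h
          exact h
        rw [hw, ZMod.intCast_zmod_eq_zero_iff_dvd]
        omega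
    rw [this]; exact hw1

theorem mem_leech_iff_pat {x : GolayPt → ℤ} :
    x ∈ leechLattice ↔ (∃ C ∈ CC, Pat 0 C x) ∨ (∃ C ∈ CC, Pat 1 C x) := by
  rw [mem_leech_iff01, LCond_iff_Pat, LCond_iff_Pat]

end Cfsg.Agent.H9
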