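import Cfsg.Agent.Lib_H9_Leech1
import Cfsg.Agent.Lib_H9_Aut8
import Cfsg.Agent.Lib_H9_Trio

set_option autoImplicit false

namespace Cfsg.Agent.H9

open Cfsg
open scoped Pointwise

theorem Pat.decomp {m : ℤ} {C : Finset GolayPt} {x : GolayPt → ℤ} (h : Pat m C x) :
    ∃ a : GolayPt → ℤ, ∀ i, x i = m + 2 * ind C i + 4 * a i := by
  choose a ha using h.1
  exact ⟨a, fun i => by linarith [ha i]⟩

theorem sum_ind (C : Finset GolayPt) : ∑ i, ind C i = C.card := by
  unfold ind; simp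

theorem ind_sq (C : Finset GolayPt) (i : GolayPt) : ind C i ^ 2 = ind C i := by
  rcases ind_cases C i with ⟨_, e⟩ | ⟨_, e⟩ <;> rw [e] <;> norm_num

theorem ind_mul (c C : Finset GolayPt) (i : GolayPt) : ind c i * ind C i = ind (c ∩ C) i := by
  unfold ind
  by_cases h1 : i ∈ c <;> by_cases h2 : i ∈ C <;> simp [h1, h2]

theorem sum_decomp {m : ℤ} {C : Finset GolayPt} {x a : GolayPt → ℤ}
    (ha : ∀ i, x i = m + 2 * ind C i + 4 * a i) : ∑ i, x i = 24 * m + 2 * C.card + 4 * ∑ i, a i := by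
  simp only [ha, Finset.sum_add_distrib, ← Finset.mul_sum, sum_ind, Finset.sum_const, Finset.card_univ, card_pts]
  simp

theorem sq_decomp {m : ℤ} {C : Finset GolayPt} {x a : GolayPt → ℤ}
    (ha : ∀ i, x i = m + 2 * ind C i + 4 * a i) :
    sqNorm x = 16 * ∑ i, (a i ^ 2 + ind C i * a i) + 24 * m ^ 2 + 4 * (1 + m) * C.card + 8 * m * ∑ i, a i := by
  unfold sqNorm
  have : ∀ i, x i ^ 2 = 16 * (a i ^ 2 + ind C i * a i) + m ^ 2 + 4 * (1 + m) * ind C i + 8 * m * a i := by
    intro i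
    rw [ha i]
    linear_combination 4 * ind_sq C i
  simp only [this, Finset.sum_add_distrib, ← Finset.mul_sum, sum_ind, Finset.sum_const, Finset.card_univ, card_pts]
  simp

/-- all norms are divisible by 16 -/
theorem sqNorm_dvd {x : GolayPt → ℤ} (hx : x ∈ leechLattice) : (16 : ℤ) ∣ sqNorm x := by
  rw [mem_leech_iff_pat] at hx
  rcases hx with ⟨C, hC, h⟩ | ⟨C, hC, h⟩
  · obtain ⟨a, ha⟩ := h.decomp
    obtain ⟨k, hk⟩ := four_dvd_card hC
    rw [sq_decomp ha, hk]
    push_cast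
    generalize ∑ i, (a i ^ 2 + ind C i * a i) = T
    generalize ∑ i, a i = A
    omega
  · obtain ⟨a, ha⟩ := h.decomp
    obtain ⟨k, hk⟩ := four_dvd_card hC
    have h8 := h.2
    rw [sum_decomp ha, hk] at h8
    rw [sq_decomp ha, hk]
    push_cast at h8 ⊢
    generalize ∑ i, (a i ^ 2 + ind C i * a i) = T
    generalize ∑ i, a i = A at h8 ⊢
    omega

theorem sqNorm_nonneg (x : GolayPt → ℤ) : 0 ≤ sqNorm x :=
  Finset.sum_nonneg (fun i _ => sq_nonneg _)

theorem sqNorm_eq_zero {x : GolayPt → ℤ} (h : sqNorm x = 0) : x = 0 := by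
  unfold sqNorm at h
  rw [Finset.sum_eq_zero_iff_of_nonneg (fun i _ => sq_nonneg _)] at h
  ext i
  exact pow_eq_zero_iff (n := 2) (by norm_num) |>.mp (h i (Finset.mem_univ i))

theorem sum_sq_parity (a : GolayPt → ℤ) : (2 : ℤ) ∣ ∑ i, a i ^ 2 - ∑ i, a i := by
  rw [← Finset.sum_sub_distrib]
  apply Finset.dvd_sum
  intro i _
  have := Int.even_mul_pred_self (a i)
  rw [show a i ^ 2 - a i = a i * (a i - 1) by ring]
  exact this.two_dvd

/-- the minimal norm -/
theorem sqNorm_ge {x : GolayPt → ℤ} (hx : x ∈ leechLattice) (h0 : x ≠ 0) : 32 ≤ sqNorm x := by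
  have h16 := sqNorm_dvd hx
  have hpos : 0 < sqNorm x := lt_of_le_of_ne (sqNorm_nonneg x) (fun h => h0 (sqNorm_eq_zero h.symm))
  by_contra hlt
  have h16' : sqNorm x = 16 := by omega
  rw [mem_leech_iff_pat] at hx
  rcases hx with ⟨C, hC, h⟩ | ⟨C, hC, h⟩
  · obtain ⟨a, ha⟩ := h.decomp
    by_cases hc : C.card < 8
    · have hE := eq_empty_of_card_lt hC hc
      subst hE
      have h8 := h.2
      rw [sum_decomp ha] at h8
      rw [sq_decomp ha] at h16'
      have hp := sum_sq_parity a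
      have e : ∑ i, (a i ^ 2 + ind ∅ i * a i) = ∑ i, a i ^ 2 := by
        apply Finset.sum_congr rfl
        intro i _
        simp [ind]
      rw [e] at h16'
      simp only [Finset.card_empty] at h8 h16'
      generalize ∑ i, a i ^ 2 = T at h16' hp
      generalize ∑ i, a i = A at h8 hp h16'
      push_cast at h8 h16'
      omega
    · have : (4 : ℤ) * C.card ≤ sqNorm x := by
        rw [← sum_ind, Finset.mul_sum]
        apply Finset.sum_le_sum
        intro i _
        rw [ha i]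
        rcases ind_cases C i with ⟨_, e⟩ | ⟨_, e⟩
        · rw [e]
          have : 0 ≤ a i * (a i + 1) := by
            rcases le_or_gt 0 (a i) with h | h
            · positivity
            · nlinarith
          nlinarith
        · rw [e]; positivity
      have : (8 : ℤ) ≤ C.card := by exact_mod_cast not_lt.mp hc
      omega
  · obtain ⟨a, ha⟩ := h.decomp
    have : (24 : ℤ) ≤ sqNorm x := by
      have e : (24 : ℤ) = ∑ _i : GolayPt, (1 : ℤ) := by simp [card_pts]
      rw [e]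
      apply Finset.sum_le_sum
      intro i _
      have hne : x i ≠ 0 := by
        rw [ha i]
        rcases ind_cases C i with ⟨_, e⟩ | ⟨_, e⟩ <;> rw [e] <;> omega
      have : 0 < x i ^ 2 := by positivity
      omega
    omega

/-! ### norms and inner products -/

theorem sqNorm_add (x y : GolayPt → ℤ) : sqNorm (x + y) = sqNorm x + 2 * dotInt x y + sqNorm y := by
  unfold sqNorm dotInt
  rw [Finset.mul_sum, ← Finset.sum_add_distrib, ← Finset.sum_add_distrib]
  apply Finset.sum_congr rfl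
  intro i _
  simp only [Pi.add_apply]; ring

theorem sqNorm_sub (x y : GolayPt → ℤ) : sqNorm (x - y) = sqNorm x - 2 * dotInt x y + sqNorm y := by
  unfold sqNorm dotInt
  rw [Finset.mul_sum, ← Finset.sum_sub_distrib, ← Finset.sum_add_distrib]
  apply Finset.sum_congr rfl
  intro i _
  simp only [Pi.sub_apply]; ring

theorem sqNorm_two_smul (z : GolayPt → ℤ) : sqNorm (2 • z) = 4 * sqNorm z := by
  unfold sqNorm
  rw [Finset.mul_sum]
  apply Finset.sum_congr rfl
  intro i _
  simp only [Pi.smul_apply, smul_eq_mul]; ring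

theorem sqNorm_neg (z : GolayPt → ℤ) : sqNorm (-z) = sqNorm z := by
  unfold sqNorm
  apply Finset.sum_congr rfl
  intro i _
  simp only [Pi.neg_apply]; ring

/-- short vectors congruent modulo twice the lattice -/
theorem short_congr {x y : GolayPt → ℤ} (hy : y ∈ leechLattice) (hxy : x ≠ y)
    (hxn : sqNorm x ≤ 64) (hyn : sqNorm y ≤ 64) (hc : ∃ z ∈ leechLattice, x - y = 2 • z) :
    x = -y ∨ (sqNorm x = 64 ∧ sqNorm y = 64 ∧ dotInt x y = 0) := by
  obtain ⟨z, hz, e⟩ := hc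
  by_cases hneg : x = -y
  · exact Or.inl hneg
  right
  have hz0 : z ≠ 0 := by
    rintro rfl
    apply hxy
    rw [smul_zero] at e
    exact sub_eq_zero.mp e
  have h1 : 128 ≤ sqNorm (x - y) := by
    rw [e, sqNorm_two_smul]
    have := sqNorm_ge hz hz0
    omega
  have e2 : x + y = 2 • (z + y) := by
    rw [smul_add, ← e]
    rw [two_smul]; abel
  have hzy0 : z + y ≠ 0 := by
    intro h
    apply hneg
    rw [h, smul_zero] at e2
    exact eq_neg_of_add_eq_zero_left e2
  have h2 : 128 ≤ sqNorm (x + y) := by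
    rw [e2, sqNorm_two_smul]
    have := sqNorm_ge (leechLattice.add_mem hz hy) hzy0
    omega
  rw [sqNorm_sub] at h1
  rw [sqNorm_add] at h2
  refine ⟨by omega, by omega, by omega⟩

/-! ### the monomial group acts -/

theorem ind_smul (σ : Equiv.Perm GolayPt) (C : Finset GolayPt) (i : GolayPt) :
    ind (σ⁻¹ • C) i = ind C (σ i) := by
  unfold ind
  have : i ∈ σ⁻¹ • C ↔ σ i ∈ C := by rw [Finset.mem_inv_smul_finset_iff]; rfl
  simp [this]

theorem perm_mem {σ : Equiv.Perm GolayPt} (hσ : σ ∈ M24) {x : GolayPt → ℤ} (hx : x ∈ leechLattice) :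
    (fun i => x (σ i)) ∈ leechLattice := by
  rw [mem_leech_iff_pat] at hx ⊢
  have key : ∀ m C, C ∈ CC → Pat m C x → ∃ C' ∈ CC, Pat m C' (fun i => x (σ i)) := by
    intro m C hC h
    refine ⟨σ⁻¹ • C, smul_mem_CC (M24.inv_mem hσ) hC, fun i => ?_, ?_⟩
    · rw [ind_smul]; exact h.1 (σ i)
    · rw [Equiv.sum_comp σ x]; exact h.2
  rcases hx with ⟨C, hC, h⟩ | ⟨C, hC, h⟩
  · exact Or.inl (key 0 C hC h)
  · exact Or.inr (key 1 C hC h)

theorem sum_sign {m : ℤ} {c C : Finset GolayPt} (hc : c ∈ CC) (hC : C ∈ CC) {x : GolayPt → ℤ} (h : Pat m C x) :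
    (8 : ℤ) ∣ (∑ i, (if i ∈ c then -x i else x i)) - 4 * m := by
  obtain ⟨a, ha⟩ := h.decomp
  have e1 : ∀ i, (if i ∈ c then -x i else x i) = x i - 2 * (m * ind c i + 2 * ind (c ∩ C) i + 4 * (ind c i * a i)) := by
    intro i
    rw [← ind_mul, ha i]
    rcases ind_cases c i with ⟨h1, e⟩ | ⟨h1, e⟩
    · rw [e, if_pos h1]; ring
    · rw [e, if_neg h1]; ring
  simp only [e1, Finset.sum_sub_distrib, Finset.sum_add_distrib, ← Finset.mul_sum, sum_ind]
  obtain ⟨k, hk⟩ := four_dvd_card hc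
  obtain ⟨l, hl⟩ := (even_inter hc hC).two_dvd
  have h8 := h.2
  rw [hk, hl]
  push_cast
  generalize ∑ i, ind c i * a i = T
  generalize ∑ i, x i = X at h8 ⊢
  have : X - 2 * (m * (4 * k) + 2 * (2 * l) + 4 * T) - 4 * m = (X - 4 * m) - 8 * (m * k + l + T) := by ring
  rw [this]
  exact dvd_sub h8 ⟨_, rfl⟩

theorem ind_symmDiff (C c : Finset GolayPt) (i : GolayPt) :
    ind (symmDiff C c) i = ind C i + ind c i - 2 * (ind C i * ind c i) := by
  unfold ind
  by_cases h1 : i ∈ c <;> by_cases h2 : i ∈ C <;> simp [h1, h2, Finset.mem_symmDiff]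

theorem sign_mem {c : Finset GolayPt} (hc : c ∈ CC) {x : GolayPt → ℤ} (hx : x ∈ leechLattice) :
    (fun i => if i ∈ c then -x i else x i) ∈ leechLattice := by
  rw [mem_leech_iff_pat] at hx ⊢
  rcases hx with ⟨C, hC, h⟩ | ⟨C, hC, h⟩
  · refine Or.inl ⟨C, hC, fun i => ?_, sum_sign hc hC h⟩
    have h4 := h.1 i
    by_cases h1 : i ∈ c
    · simp only [if_pos h1]
      rcases ind_cases C i with ⟨_, e⟩ | ⟨_, e⟩ <;> rw [e] at h4 ⊢ <;> omega
    · simp only [if_neg h1]; exact h4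
  · refine Or.inr ⟨symmDiff C c, symmDiff_mem_CC hC hc, fun i => ?_, sum_sign hc hC h⟩
    have h4 := h.1 i
    rw [ind_symmDiff]
    rcases ind_cases c i with ⟨h1, e1⟩ | ⟨h1, e1⟩
    · simp only [if_pos h1]
      rw [e1]
      rcases ind_cases C i with ⟨_, e⟩ | ⟨_, e⟩ <;> rw [e] at h4 ⊢ <;> omega
    · simp only [if_neg h1]
      rw [e1]
      rcases ind_cases C i with ⟨_, e⟩ | ⟨_, e⟩ <;> rw [e] at h4 ⊢ <;> omega

end Cfsg.Agent.H9
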