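import Cfsg.Agent.Lib_H9_Leech2

set_option autoImplicit false

namespace Cfsg.Agent.H9

open Cfsg
open scoped Pointwise

/-! ### counting by digit extraction -/

theorem digit_count {α : Type*} (T : Finset α) (E : α → ℕ) (B : ℕ) (hB : T.card < B) (n : ℕ) :
    (∑ x ∈ T, B ^ E x) / B ^ n % B = (T.filter (fun x => E x = n)).card := by
  have hB0 : 0 < B := by omega
  have h1 := (Finset.sum_filter_add_sum_filter_not T (fun x => E x < n) (fun x => B ^ E x)).symm
  set r := ∑ x ∈ T.filter (fun x => E x < n), B ^ E x with hr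
  have hr_lt : r < B ^ n := by
    rcases Nat.eq_zero_or_pos n with rfl | hn
    · simp [hr]
    · calc r ≤ ∑ x ∈ T.filter (fun x => E x < n), B ^ (n - 1) := by
            apply Finset.sum_le_sum
            intro x hx
            rw [Finset.mem_filter] at hx
            exact Nat.pow_le_pow_right hB0 (by omega)
        _ = (T.filter (fun x => E x < n)).card * B ^ (n - 1) := by rw [Finset.sum_const, smul_eq_mul]
        _ ≤ T.card * B ^ (n - 1) := Nat.mul_le_mul_right _ (Finset.card_filter_le _ _)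
        _ < B * B ^ (n - 1) := Nat.mul_lt_mul_of_pos_right hB (by positivity)
        _ = B ^ n := by rw [← pow_succ']; congr 1; omega
  have h2 : ∑ x ∈ T.filter (fun x => ¬ E x < n), B ^ E x =
      B ^ n * ((T.filter (fun x => E x = n)).card +
        B * ∑ x ∈ T.filter (fun x => ¬ E x < n), (if E x = n then 0 else B ^ (E x - n - 1))) := by
    have e1 : (T.filter (fun x => E x = n)).card =
        ∑ x ∈ T.filter (fun x => ¬ E x < n), (if E x = n then 1 else 0) := by
      rw [Finset.card_filter, Finset.sum_filter]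
      apply Finset.sum_congr rfl
      intro x _
      by_cases h : E x = n
      · simp [h]
      · simp [h]
    rw [e1, Finset.mul_sum, ← Finset.sum_add_distrib, Finset.mul_sum]
    apply Finset.sum_congr rfl
    intro x hx
    rw [Finset.mem_filter] at hx
    by_cases h : E x = n
    · simp [h]
    · simp only [h, if_false, zero_add]
      rw [← pow_succ', ← pow_add]
      congr 1; omega
  rw [h1, h2, Nat.add_mul_div_left _ _ (by positivity), Nat.div_eq_of_lt hr_lt, zero_add, Nat.add_mul_mod_self_left,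
    Nat.mod_eq_of_lt (lt_of_le_of_lt (Finset.card_filter_le _ _) hB)]

theorem prod_count {ι : Type*} [Fintype ι] [DecidableEq ι] (S : ι → Finset ℤ) (e : ι → ℤ → ℕ) (B : ℕ)
    (hB : ∏ i, (S i).card < B) (n : ℕ) :
    (∏ i, ∑ v ∈ S i, B ^ e i v) / B ^ n % B =
      ((Fintype.piFinset S).filter (fun x => ∑ i, e i (x i) = n)).card := by
  rw [Finset.prod_univ_sum]
  simp only [Finset.prod_pow_eq_pow_sum]
  exact digit_count _ _ B (by rwa [Fintype.card_piFinset]) n

/-! ### the generating numbers -/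

def par (r v : ℤ) : ℕ := ((v - r) / 4 % 2).toNat

def ex (r v : ℤ) : ℕ := 32 * v.natAbs ^ 2 + par r v

def BB : ℕ := 2 ^ 128

theorem BB_gt : 17 ^ 24 < BB := by unfold BB; norm_num

attribute [irreducible] BB

def fl (vals : List ℤ) (r : ℤ) : List ℤ := vals.filter (fun v => decide ((v - r) % 4 = 0))

def PL (vals : List ℤ) (r : ℤ) : ℕ := ((fl vals r).map (fun v => BB ^ ex r v)).sum

def Rs (vals : List ℤ) (r : ℤ) : Finset ℤ := (fl vals r).toFinset

theorem sum_Rs {vals : List ℤ} (hnd : vals.Nodup) (r : ℤ) : ∑ v ∈ Rs vals r, BB ^ ex r v = PL vals r :=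
  List.sum_toFinset _ (hnd.filter _)

theorem mem_Rs {vals : List ℤ} {r v : ℤ} : v ∈ Rs vals r ↔ v ∈ vals ∧ (4 : ℤ) ∣ v - r := by
  unfold Rs fl
  rw [List.mem_toFinset, List.mem_filter, decide_eq_true_iff]
  constructor
  · rintro ⟨h1, h2⟩; exact ⟨h1, Int.dvd_of_emod_eq_zero h2⟩
  · rintro ⟨h1, h2⟩; exact ⟨h1, Int.emod_eq_zero_of_dvd h2⟩

theorem card_Rs_le (vals : List ℤ) (r : ℤ) : (Rs vals r).card ≤ vals.length :=
  le_trans (List.toFinset_card_le _) (List.length_filter_le _ _)

theorem par_le (r v : ℤ) : par r v ≤ 1 := by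
  unfold par; omega

theorem par_spec {r v : ℤ} (h : (4 : ℤ) ∣ v - r) : (8 : ℤ) ∣ v - r - 4 * (par r v : ℤ) := by
  unfold par
  obtain ⟨a, ha⟩ := h
  rw [ha, Int.mul_ediv_cancel_left _ (by norm_num), Int.toNat_of_nonneg (by omega)]
  omega

theorem prod_ind (f : ℤ → ℕ) (m : ℤ) (C : Finset GolayPt) :
    ∏ i, f (m + 2 * ind C i) = f (m + 2) ^ C.card * f m ^ (24 - C.card) := by
  have : ∀ i, f (m + 2 * ind C i) = if i ∈ C then f (m + 2) else f m := by
    intro i
    rcases ind_cases C i with ⟨h, e⟩ | ⟨h, e⟩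
    · rw [e, if_pos h]; norm_num
    · rw [e, if_neg h]; norm_num
  simp only [this]
  rw [Finset.prod_ite, Finset.prod_const, Finset.prod_const, Finset.filter_mem_eq_inter, Finset.univ_inter,
    Finset.filter_not, Finset.filter_mem_eq_inter, Finset.univ_inter, Finset.card_univ_sdiff, card_pts]

open scoped Classical in
/-- the vectors with a given residue pattern, entries in `vals`, and given norm -/
noncomputable def FF (vals : List ℤ) (m : ℤ) (C : Finset GolayPt) (N : ℕ) : Finset (GolayPt → ℤ) :=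
  (Fintype.piFinset (fun i => Rs vals (m + 2 * ind C i))).filter
    (fun x => (8 : ℤ) ∣ (∑ i, x i) - 4 * m ∧ sqNorm x = N)

theorem mem_FF {vals : List ℤ} {m : ℤ} {C : Finset GolayPt} {N : ℕ} {x : GolayPt → ℤ} :
    x ∈ FF vals m C N ↔ Pat m C x ∧ (∀ i, x i ∈ vals) ∧ sqNorm x = N := by
  unfold FF Pat
  rw [Finset.mem_filter, Fintype.mem_piFinset]
  simp only [mem_Rs]
  constructor
  · rintro ⟨h1, h2, h3⟩
    exact ⟨⟨fun i => by have := (h1 i).2; rwa [← sub_sub] at this, h2⟩, fun i => (h1 i).1, h3⟩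
  · rintro ⟨⟨h1, h2⟩, h3, h4⟩
    exact ⟨fun i => ⟨h3 i, by rw [← sub_sub]; exact h1 i⟩, h2, h4⟩

theorem sqNorm_natAbs (x : GolayPt → ℤ) : sqNorm x = ((∑ i, (x i).natAbs ^ 2 : ℕ) : ℤ) := by
  unfold sqNorm
  push_cast
  apply Finset.sum_congr rfl
  intro i _
  rw [sq_abs]

/-- the count for one residue pattern -/
def gS (vals : List ℤ) (m : ℕ) (w N : ℕ) : ℕ :=
  ((List.range 25).map (fun s => if (20 * m + 2 * w + 4 * s) % 8 = 0 then
    (PL vals (m + 2) ^ w * PL vals m ^ (24 - w)) / BB ^ (32 * N + s) % BB else 0)).sum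

theorem card_FF {vals : List ℤ} (hnd : vals.Nodup) (hlen : vals.length ≤ 17) (m : ℕ) (C : Finset GolayPt) (N : ℕ) :
    (FF vals m C N).card = gS vals m C.card N := by
  classical
  set S : GolayPt → Finset ℤ := fun i => Rs vals ((m : ℤ) + 2 * ind C i) with hS
  set e : GolayPt → ℤ → ℕ := fun i => ex ((m : ℤ) + 2 * ind C i) with he
  set sf : (GolayPt → ℤ) → ℕ := fun x => ∑ i, par ((m : ℤ) + 2 * ind C i) (x i) with hsf
  have hB : ∏ i, (S i).card < BB := by
    calc ∏ i, (S i).card ≤ ∏ _i : GolayPt, 17 :=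
          Finset.prod_le_prod' (fun i _ => le_trans (card_Rs_le _ _) hlen)
      _ = 17 ^ 24 := by rw [Finset.prod_const, Finset.card_univ, card_pts]
      _ < BB := BB_gt
  have hsf_le : ∀ x, sf x ≤ 24 := by
    intro x
    calc sf x ≤ ∑ _i : GolayPt, 1 := Finset.sum_le_sum (fun i _ => par_le _ _)
      _ = 24 := by rw [Finset.sum_const, Finset.card_univ, card_pts]; rfl
  have hmaps : ∀ x ∈ FF vals m C N, sf x ∈ Finset.range 25 := by
    intro x _
    rw [Finset.mem_range]
    have := hsf_le x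
    omega
  have hprod : ∏ i, ∑ v ∈ S i, BB ^ e i v = PL vals (m + 2) ^ C.card * PL vals m ^ (24 - C.card) := by
    simp only [hS, he, sum_Rs hnd]
    exact prod_ind (PL vals) m C
  have hA : ∀ x : GolayPt → ℤ, ∑ i, e i (x i) = 32 * (∑ i, (x i).natAbs ^ 2) + sf x := by
    intro x
    simp only [he, ex, hsf, Finset.sum_add_distrib, Finset.mul_sum]
  have hCc : ∀ x ∈ Fintype.piFinset S,
      ((8 : ℤ) ∣ (∑ i, x i) - 4 * m ↔ (20 * m + 2 * C.card + 4 * sf x) % 8 = 0) := by
    intro x hx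
    rw [Fintype.mem_piFinset] at hx
    have h8 : (8 : ℤ) ∣ ∑ i, (x i - ((m : ℤ) + 2 * ind C i) - 4 * (par ((m : ℤ) + 2 * ind C i) (x i) : ℤ)) :=
      Finset.dvd_sum (fun i _ => par_spec (mem_Rs.mp (hx i)).2)
    simp only [Finset.sum_sub_distrib, Finset.sum_add_distrib, ← Finset.mul_sum, sum_ind, Finset.sum_const,
      Finset.card_univ, card_pts] at h8
    have e2 : (∑ i, (par ((m : ℤ) + 2 * ind C i) (x i) : ℤ)) = (sf x : ℤ) := by
      simp only [hsf]; push_cast; rfl
    rw [e2] at h8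
    generalize ∑ i, x i = X at h8 ⊢
    generalize sf x = s at h8 ⊢
    simp only [nsmul_eq_mul] at h8
    push_cast at h8
    omega
  rw [Finset.card_eq_sum_card_fiberwise hmaps]
  unfold gS
  rw [← List.sum_toFinset _ List.nodup_range, List.toFinset_range]
  apply Finset.sum_congr rfl
  intro s hs
  rw [Finset.mem_range] at hs
  split_ifs with hc
  · rw [← hprod, prod_count S e BB hB]
    refine congrArg Finset.card (Finset.ext fun x => ?_)
    simp only [FF, Finset.mem_filter]
    constructor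
    · rintro ⟨⟨h1, _, h3⟩, h4⟩
      refine ⟨h1, ?_⟩
      rw [hA, h4]
      rw [sqNorm_natAbs] at h3
      have : ∑ i, (x i).natAbs ^ 2 = N := by exact_mod_cast h3
      rw [this]
    · rintro ⟨h1, h2⟩
      rw [hA] at h2
      have hle := hsf_le x
      have h4 : sf x = s := by omega
      have h5 : ∑ i, (x i).natAbs ^ 2 = N := by omega
      refine ⟨⟨h1, ?_, ?_⟩, h4⟩
      · rw [hCc x h1, h4]; exact hc
      · rw [sqNorm_natAbs, h5]
  · rw [Finset.card_eq_zero, Finset.filter_eq_empty_iff]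
    intro x hx h4
    apply hc
    simp only [FF, Finset.mem_filter] at hx
    rw [← h4, ← hCc x hx.1]
    exact hx.2.1

/-! ### summing over the code -/

def wsum (f : ℕ → ℕ) : ℕ := f 0 + 759 * f 8 + 2576 * f 12 + 759 * f 16 + f 24

set_option maxRecDepth 100000 in
theorem weights_check : allBelow (fun j => Nat.beq (pop (enc j)) 0 || (Nat.beq (pop (enc j)) 8 ||
    (Nat.beq (pop (enc j)) 12 || (Nat.beq (pop (enc j)) 16 || Nat.beq (pop (enc j)) 24)))) 4096 = true := by
  decide +kernel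

set_option maxRecDepth 100000 in
theorem weights_count : countBelow (fun j => Nat.beq (pop (enc j)) 0) 4096 = 1 ∧
    countBelow (fun j => Nat.beq (pop (enc j)) 8) 4096 = 759 ∧
    countBelow (fun j => Nat.beq (pop (enc j)) 12) 4096 = 2576 ∧
    countBelow (fun j => Nat.beq (pop (enc j)) 16) 4096 = 759 ∧
    countBelow (fun j => Nat.beq (pop (enc j)) 24) 4096 = 1 := by
  decide +kernel

theorem sum_weights (f : ℕ → ℕ) : ∑ j ∈ Finset.range 4096, f (ofMask (enc j)).card = wsum f := by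
  have h1 : ∀ j ∈ Finset.range 4096, f (ofMask (enc j)).card =
      ∑ w ∈ ({0, 8, 12, 16, 24} : Finset ℕ), if pop (enc j) = w then f w else 0 := by
    intro j hj
    rw [Finset.mem_range] at hj
    rw [← pop_eq (enc_lt j), Finset.sum_ite_eq, if_pos]
    have := (allBelow_iff _ _).mp weights_check j hj
    simp only [Bool.or_eq_true, beq_iff] at this
    simp only [Finset.mem_insert, Finset.mem_singleton]
    exact this
  rw [Finset.sum_congr rfl h1, Finset.sum_comm]
  have h2 : ∀ w, ∑ j ∈ Finset.range 4096, (if pop (enc j) = w then f w else 0) =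
      countBelow (fun j => Nat.beq (pop (enc j)) w) 4096 * f w := by
    intro w
    rw [countBelow_eq, ← Finset.sum_filter, Finset.sum_const, smul_eq_mul,
      Finset.filter_congr (fun j _ => (beq_iff (pop (enc j)) w).symm)]
  simp only [h2]
  obtain ⟨c0, c8, c12, c16, c24⟩ := weights_count
  rw [Finset.sum_insert (by decide), Finset.sum_insert (by decide), Finset.sum_insert (by decide),
    Finset.sum_insert (by decide), Finset.sum_singleton, c0, c8, c12, c16, c24]
  unfold wsum
  ring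

def tot (vals : List ℤ) (N : ℕ) : ℕ := wsum (fun w => gS vals 0 w N) + wsum (fun w => gS vals 1 w N)

theorem Pat.unique {m m' : ℕ} (hm : m < 2) (hm' : m' < 2) {C C' : Finset GolayPt} {x : GolayPt → ℤ}
    (h : Pat m C x) (h' : Pat m' C' x) : m = m' ∧ C = C' := by
  have e : m = m' := by
    have h1 := h.1 none
    have h2 := h'.1 none
    rcases ind_cases C none with ⟨_, e⟩ | ⟨_, e⟩ <;> rcases ind_cases C' none with ⟨_, e'⟩ | ⟨_, e'⟩ <;>
      rw [e] at h1 <;> rw [e'] at h2 <;> omega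
  subst e
  refine ⟨rfl, ?_⟩
  ext i
  have h1 := h.1 i
  have h2 := h'.1 i
  rcases ind_cases C i with ⟨c, e⟩ | ⟨c, e⟩ <;> rcases ind_cases C' i with ⟨c', e'⟩ | ⟨c', e'⟩ <;>
    rw [e] at h1 <;> rw [e'] at h2
  · exact ⟨fun _ => c', fun _ => c⟩
  · omega
  · omega
  · exact ⟨fun h => absurd h c, fun h => absurd h c'⟩

/-- the number of lattice vectors of given norm with entries in a given list -/
theorem count_leech {vals : List ℤ} (hnd : vals.Nodup) (hlen : vals.length ≤ 17) (N : ℕ) :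
    {x : GolayPt → ℤ | x ∈ leechLattice ∧ sqNorm x = N ∧ ∀ i, x i ∈ vals}.ncard = tot vals N := by
  classical
  have hset : {x : GolayPt → ℤ | x ∈ leechLattice ∧ sqNorm x = N ∧ ∀ i, x i ∈ vals} =
      ↑((Finset.range 2 ×ˢ Finset.range 4096).biUnion
        (fun p => FF vals ((p.1 : ℕ) : ℤ) (ofMask (enc p.2)) N)) := by
    ext x
    simp only [Set.mem_ofPred_eq, Finset.coe_biUnion, Set.mem_iUnion, Finset.mem_coe, mem_FF, Finset.mem_product,
      Finset.mem_range, exists_prop, Prod.exists]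
    constructor
    · rintro ⟨h1, h2, h3⟩
      rw [mem_leech_iff_pat] at h1
      rcases h1 with ⟨C, hC, h⟩ | ⟨C, hC, h⟩
      · obtain ⟨j, hj, rfl⟩ := exists_of_mem_CC hC
        exact ⟨0, j, ⟨by norm_num, hj⟩, by simpa using h, h3, h2⟩
      · obtain ⟨j, hj, rfl⟩ := exists_of_mem_CC hC
        exact ⟨1, j, ⟨by norm_num, hj⟩, by simpa using h, h3, h2⟩
    · rintro ⟨m, j, ⟨hm, _⟩, h, h3, h2⟩
      refine ⟨?_, h2, h3⟩
      rw [mem_leech_iff_pat]
      interval_cases m
      · exact Or.inl ⟨_, ofMask_enc_mem j, by simpa using h⟩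
      · exact Or.inr ⟨_, ofMask_enc_mem j, by simpa using h⟩
  have hdisj : ∀ p ∈ (Finset.range 2 ×ˢ Finset.range 4096), ∀ q ∈ (Finset.range 2 ×ˢ Finset.range 4096), p ≠ q →
      Disjoint (FF vals ((p.1 : ℕ) : ℤ) (ofMask (enc p.2)) N) (FF vals ((q.1 : ℕ) : ℤ) (ofMask (enc q.2)) N) := by
    intro p hp q hq hpq
    rw [Finset.disjoint_left]
    intro x hx hx'
    apply hpq
    rw [Finset.mem_product, Finset.mem_range, Finset.mem_range] at hp hq
    obtain ⟨e1, e2⟩ := Pat.unique hp.1 hq.1 (mem_FF.mp hx).1 (mem_FF.mp hx').1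
    exact Prod.ext e1 (enc_injOn hp.2 hq.2 ((ofMask_inj (enc_lt _) (enc_lt _)).mp e2))
  rw [hset, Set.ncard_coe_finset, Finset.card_biUnion hdisj, Finset.sum_product]
  simp only [card_FF hnd hlen]
  rw [Finset.sum_range_succ, Finset.sum_range_one, sum_weights (fun w => gS vals 0 w N),
    sum_weights (fun w => gS vals 1 w N)]
  rfl

theorem entries_le {x : GolayPt → ℤ} {N : ℤ} (h : sqNorm x ≤ N) (i : GolayPt) : x i ^ 2 ≤ N :=
  le_trans (Finset.single_le_sum (f := fun i => x i ^ 2) (fun j _ => sq_nonneg _) (Finset.mem_univ i)) h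

def allVals : List ℤ := [-8, -7, -6, -5, -4, -3, -2, -1, 0, 1, 2, 3, 4, 5, 6, 7, 8]

theorem mem_allVals {v : ℤ} : v ∈ allVals ↔ -8 ≤ v ∧ v ≤ 8 := by
  unfold allVals
  simp only [List.mem_cons, List.not_mem_nil, or_false]
  omega

theorem count_norm {N : ℕ} (hN : N ≤ 64) :
    {x : GolayPt → ℤ | x ∈ leechLattice ∧ sqNorm x = N}.ncard = tot allVals N := by
  rw [← count_leech (by decide) (by decide)]
  congr 1
  ext x
  simp only [Set.mem_ofPred_eq]
  constructor
  · rintro ⟨h1, h2⟩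
    refine ⟨h1, h2, fun i => ?_⟩
    have := entries_le (le_of_eq h2) i
    rw [mem_allVals]
    have hN' : (N : ℤ) ≤ 64 := by exact_mod_cast hN
    constructor <;> nlinarith
  · rintro ⟨h1, h2, _⟩
    exact ⟨h1, h2⟩

end Cfsg.Agent.H9
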