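import Cfsg.Agent.Lib_H9_Leech3

set_option autoImplicit false

namespace Cfsg.Agent.H9

open Cfsg
open scoped Pointwise

/-! ### counting lattice vectors with coordinate dependent weights and value lists -/

def PLq (l : List ℤ) (q : ℤ → ℕ) (r : ℤ) : ℕ := ((fl l r).map (fun v => BB ^ (32 * q v + par r v))).sum

theorem sum_Rsq {l : List ℤ} (hnd : l.Nodup) (q : ℤ → ℕ) (r : ℤ) :
    ∑ v ∈ Rs l r, BB ^ (32 * q v + par r v) = PLq l q r :=
  List.sum_toFinset _ (hnd.filter _)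

open scoped Classical in
noncomputable def FFq (vals : GolayPt → List ℤ) (q : GolayPt → ℤ → ℕ) (m : ℤ) (C : Finset GolayPt) (N : ℕ) :
    Finset (GolayPt → ℤ) :=
  (Fintype.piFinset (fun i => Rs (vals i) (m + 2 * ind C i))).filter
    (fun x => (8 : ℤ) ∣ (∑ i, x i) - 4 * m ∧ ∑ i, q i (x i) = N)

theorem mem_FFq {vals : GolayPt → List ℤ} {q : GolayPt → ℤ → ℕ} {m : ℤ} {C : Finset GolayPt} {N : ℕ}
    {x : GolayPt → ℤ} :
    x ∈ FFq vals q m C N ↔ Pat m C x ∧ (∀ i, x i ∈ vals i) ∧ ∑ i, q i (x i) = N := by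
  unfold FFq Pat
  rw [Finset.mem_filter, Fintype.mem_piFinset]
  simp only [mem_Rs]
  constructor
  · rintro ⟨h1, h2, h3⟩
    exact ⟨⟨fun i => by have := (h1 i).2; rwa [← sub_sub] at this, h2⟩, fun i => (h1 i).1, h3⟩
  · rintro ⟨⟨h1, h2⟩, h3, h4⟩
    exact ⟨fun i => ⟨h3 i, by rw [← sub_sub]; exact h1 i⟩, h2, h4⟩

/-- extraction of the coefficients with the right parity -/
def gX (P : ℕ) (m w N : ℕ) : ℕ :=
  ((List.range 25).map (fun s => if (20 * m + 2 * w + 4 * s) % 8 = 0 then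
    P / BB ^ (32 * N + s) % BB else 0)).sum

theorem card_FFq {vals : GolayPt → List ℤ} (hnd : ∀ i, (vals i).Nodup) (hlen : ∀ i, (vals i).length ≤ 17)
    (q : GolayPt → ℤ → ℕ) (m : ℕ) (C : Finset GolayPt) (N : ℕ) :
    (FFq vals q m C N).card = gX (∏ i, PLq (vals i) (q i) ((m : ℤ) + 2 * ind C i)) m C.card N := by
  classical
  set S : GolayPt → Finset ℤ := fun i => Rs (vals i) ((m : ℤ) + 2 * ind C i) with hS
  set e : GolayPt → ℤ → ℕ := fun i v => 32 * q i v + par ((m : ℤ) + 2 * ind C i) v with he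
  set sf : (GolayPt → ℤ) → ℕ := fun x => ∑ i, par ((m : ℤ) + 2 * ind C i) (x i) with hsf
  have hB : ∏ i, (S i).card < BB := by
    calc ∏ i, (S i).card ≤ ∏ _i : GolayPt, 17 :=
          Finset.prod_le_prod' (fun i _ => le_trans (card_Rs_le _ _) (hlen i))
      _ = 17 ^ 24 := by rw [Finset.prod_const, Finset.card_univ, card_pts]
      _ < BB := BB_gt
  have hsf_le : ∀ x, sf x ≤ 24 := by
    intro x
    calc sf x ≤ ∑ _i : GolayPt, 1 := Finset.sum_le_sum (fun i _ => par_le _ _)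
      _ = 24 := by rw [Finset.sum_const, Finset.card_univ, card_pts]; rfl
  have hmaps : ∀ x ∈ FFq vals q m C N, sf x ∈ Finset.range 25 := by
    intro x _
    rw [Finset.mem_range]
    have := hsf_le x
    omega
  have hprod : ∏ i, ∑ v ∈ S i, BB ^ e i v = ∏ i, PLq (vals i) (q i) ((m : ℤ) + 2 * ind C i) := by
    apply Finset.prod_congr rfl
    intro i _
    exact sum_Rsq (hnd i) (q i) _
  have hA : ∀ x : GolayPt → ℤ, ∑ i, e i (x i) = 32 * (∑ i, q i (x i)) + sf x := by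
    intro x
    simp only [he, hsf, Finset.sum_add_distrib, Finset.mul_sum]
  have hCc : ∀ x ∈ Fintype.piFinset S,
      ((8 : ℤ) ∣ (∑ i, x i) - 4 * m ↔ (20 * m + 2 * C.card + 4 * sf x) % 8 = 0) := by
    intro x hx
    rw [Fintype.mem_piFinset] at hx
    have h8 : (8 : ℤ) ∣ ∑ i, (x i - ((m : ℤ) + 2 * ind C i) - 4 * (par ((m : ℤ) + 2 * ind C i) (x i) : ℤ)) :=
      Finset.dvd_sum (fun i _ => par_spec (mem_Rs.mp (hx i)).2)
    simp only [Finset.sum_sub_distrib, Finset.sum_add_distrib, ← Finset.mul_sum, sum_ind, Finset.sum_const,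
      Finset.card_univ, card_pts] at h8
    have e2 : (∑ i, (par ((m : ℤ) + 2 * ind C i) (x i) : ℤ)) = (sf x : ℤ) := by
      simp only [hsf]; push_cast; rfl
    rw [e2] at h8
    generalize ∑ i, x i = X at h8 ⊢
    generalize sf x = s at h8 ⊢
    simp only [nsmul_eq_mul] at h8
    push_cast at h8
    omega
  rw [Finset.card_eq_sum_card_fiberwise hmaps]
  unfold gX
  rw [← List.sum_toFinset _ List.nodup_range, List.toFinset_range]
  apply Finset.sum_congr rfl
  intro s hs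
  rw [Finset.mem_range] at hs
  split_ifs with hc
  · rw [← hprod, prod_count S e BB hB]
    refine congrArg Finset.card (Finset.ext fun x => ?_)
    simp only [FFq, Finset.mem_filter]
    constructor
    · rintro ⟨⟨h1, _, h3⟩, h4⟩
      refine ⟨h1, ?_⟩
      rw [hA, h4, h3]
    · rintro ⟨h1, h2⟩
      rw [hA] at h2
      have hle := hsf_le x
      have h4 : sf x = s := by omega
      have h5 : ∑ i, q i (x i) = N := by omega
      refine ⟨⟨h1, ?_, h5⟩, h4⟩
      rw [hCc x h1, h4]; exact hc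
  · rw [Finset.card_eq_zero, Finset.filter_eq_empty_iff]
    intro x hx h4
    apply hc
    simp only [FFq, Finset.mem_filter] at hx
    rw [← h4, ← hCc x hx.1]
    exact hx.2.1

theorem count_leechq {vals : GolayPt → List ℤ} (hnd : ∀ i, (vals i).Nodup) (hlen : ∀ i, (vals i).length ≤ 17)
    (q : GolayPt → ℤ → ℕ) (N : ℕ) :
    {x : GolayPt → ℤ | x ∈ leechLattice ∧ ∑ i, q i (x i) = N ∧ ∀ i, x i ∈ vals i}.ncard =
      ∑ m ∈ Finset.range 2, ∑ j ∈ Finset.range 4096,
        gX (∏ i, PLq (vals i) (q i) ((m : ℤ) + 2 * ind (ofMask (enc j)) i)) m (ofMask (enc j)).card N := by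
  classical
  have hset : {x : GolayPt → ℤ | x ∈ leechLattice ∧ ∑ i, q i (x i) = N ∧ ∀ i, x i ∈ vals i} =
      ↑((Finset.range 2 ×ˢ Finset.range 4096).biUnion
        (fun p => FFq vals q ((p.1 : ℕ) : ℤ) (ofMask (enc p.2)) N)) := by
    ext x
    simp only [Set.mem_ofPred_eq, Finset.coe_biUnion, Set.mem_iUnion, Finset.mem_coe, mem_FFq, Finset.mem_product,
      Finset.mem_range, exists_prop, Prod.exists]
    constructor
    · rintro ⟨h1, h2, h3⟩
      rw [mem_leech_iff_pat] at h1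
      rcases h1 with ⟨C, hC, h⟩ | ⟨C, hC, h⟩
      · obtain ⟨j, hj, rfl⟩ := exists_of_mem_CC hC
        exact ⟨0, j, ⟨by norm_num, hj⟩, by simpa using h, h3, h2⟩
      · obtain ⟨j, hj, rfl⟩ := exists_of_mem_CC hC
        exact ⟨1, j, ⟨by norm_num, hj⟩, by simpa using h, h3, h2⟩
    · rintro ⟨m, j, ⟨hm, _⟩, h, h3, h2⟩
      refine ⟨?_, h2, h3⟩
      rw [mem_leech_iff_pat]
      interval_cases m
      · exact Or.inl ⟨_, ofMask_enc_mem j, by simpa using h⟩
      · exact Or.inr ⟨_, ofMask_enc_mem j, by simpa using h⟩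
  have hdisj : ∀ p ∈ (Finset.range 2 ×ˢ Finset.range 4096), ∀ p' ∈ (Finset.range 2 ×ˢ Finset.range 4096), p ≠ p' →
      Disjoint (FFq vals q ((p.1 : ℕ) : ℤ) (ofMask (enc p.2)) N)
        (FFq vals q ((p'.1 : ℕ) : ℤ) (ofMask (enc p'.2)) N) := by
    intro p hp p' hp' hpq
    rw [Finset.disjoint_left]
    intro x hx hx'
    apply hpq
    rw [Finset.mem_product, Finset.mem_range, Finset.mem_range] at hp hp'
    obtain ⟨e1, e2⟩ := Pat.unique hp.1 hp'.1 (mem_FFq.mp hx).1 (mem_FFq.mp hx').1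
    exact Prod.ext e1 (enc_injOn hp.2 hp'.2 ((ofMask_inj (enc_lt _) (enc_lt _)).mp e2))
  rw [hset, Set.ncard_coe_finset, Finset.card_biUnion hdisj, Finset.sum_product]
  simp only [card_FFq hnd hlen]

/-- the uniform case -/
def totq (l : List ℤ) (q : ℤ → ℕ) (N : ℕ) : ℕ :=
  wsum (fun w => gX (PLq l q 2 ^ w * PLq l q 0 ^ (24 - w)) 0 w N) +
  wsum (fun w => gX (PLq l q 3 ^ w * PLq l q 1 ^ (24 - w)) 1 w N)

theorem count_leech_unif {l : List ℤ} (hnd : l.Nodup) (hlen : l.length ≤ 17) (q : ℤ → ℕ) (N : ℕ) :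
    {x : GolayPt → ℤ | x ∈ leechLattice ∧ ∑ i, q (x i) = N ∧ ∀ i, x i ∈ l}.ncard = totq l q N := by
  rw [count_leechq (vals := fun _ => l) (fun _ => hnd) (fun _ => hlen) (fun _ => q) N]
  simp only [prod_ind (PLq l q)]
  rw [Finset.sum_range_succ, Finset.sum_range_one]
  have h0 := sum_weights (fun w => gX (PLq l q 2 ^ w * PLq l q 0 ^ (24 - w)) 0 w N)
  have h1 := sum_weights (fun w => gX (PLq l q 3 ^ w * PLq l q 1 ^ (24 - w)) 1 w N)
  unfold totq
  rw [← h0, ← h1]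
  norm_num

end Cfsg.Agent.H9
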