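import Cfsg.Statements.S0396
import Cfsg.Agent.Lib_H9_Leech3

set_option autoImplicit false
open Cfsg

namespace Cfsg.Agent.S0396

open Cfsg.Agent.H9

set_option maxRecDepth 100000 in
theorem tval : tot allVals 64 = 398034000 := by decide +kernel


/-- Exactly 398034000 lattice vectors have sum of squares 64. -/
theorem result : {x : Cfsg.GolayPt → ℤ | x ∈ Cfsg.leechLattice ∧ Cfsg.sqNorm x = 64}.ncard = 398034000 := by
  have h := count_norm (N := 64) (by norm_num)
  rw [tval] at h
  exact_mod_cast h

end Cfsg.Agent.S0396
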