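import Cfsg.Agent.Lib_H9_Leech4
import Cfsg.Agent.Lib_H9_Cross
import Cfsg.Agent.S0394
import Cfsg.Agent.S0395
import Cfsg.Agent.S0396

set_option autoImplicit false

namespace Cfsg.Agent.H9

open Cfsg
open scoped Pointwise

/-! ### indices of sublattices of `ℤ^24` containing `8ℤ^24` -/

/-- reduction modulo `n` -/
def redN (n : ℕ) : (GolayPt → ℤ) →+ (GolayPt → ZMod n) := (Int.castAddHom (ZMod n)).compLeft GolayPt

theorem redN_apply (n : ℕ) (x : GolayPt → ℤ) (i : GolayPt) : redN n x i = ((x i : ℤ) : ZMod n) := rfl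

theorem redN_surj (n : ℕ) : Function.Surjective (redN n) := by
  intro y
  choose x hx using fun i => ZMod.intCast_surjective (y i)
  exact ⟨x, by ext i; rw [redN_apply, hx]⟩

theorem mem_ker_redN {n : ℕ} {x : GolayPt → ℤ} : x ∈ (redN n).ker ↔ ∀ i, (n : ℤ) ∣ x i := by
  rw [AddMonoidHom.mem_ker, funext_iff]
  refine forall_congr' fun i => ?_
  rw [redN_apply, Pi.zero_apply, ZMod.intCast_zmod_eq_zero_iff_dvd]

theorem redN_eq_iff {n : ℕ} {x y : GolayPt → ℤ} : redN n x = redN n y ↔ ∀ i, (n : ℤ) ∣ x i - y i := by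
  rw [← sub_eq_zero, ← map_sub, ← AddMonoidHom.mem_ker, mem_ker_redN]
  rfl

def l8 : List ℤ := [0, 1, 2, 3, 4, 5, 6, 7]

theorem mem_l8 {v : ℤ} : v ∈ l8 ↔ 0 ≤ v ∧ v ≤ 7 := by
  unfold l8
  simp only [List.mem_cons, List.not_mem_nil, or_false]
  omega

theorem index_mul_box (L : AddSubgroup (GolayPt → ℤ)) (h8 : ∀ x : GolayPt → ℤ, (∀ i, (8 : ℤ) ∣ x i) → x ∈ L) :
    {x : GolayPt → ℤ | x ∈ L ∧ ∀ i, x i ∈ l8}.ncard * L.index = 8 ^ 24 := by
  have hker : (redN 8).ker ≤ L := fun x hx => h8 x (by simpa using mem_ker_redN.mp hx)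
  have h1 := AddSubgroup.index_map_eq L (redN_surj 8) hker
  have h2 := AddSubgroup.card_mul_index (L.map (redN 8))
  have h3 : Nat.card (GolayPt → ZMod 8) = 8 ^ 24 := by
    rw [Nat.card_eq_fintype_card, Fintype.card_fun, ZMod.card, card_pts]
  have h4 : Nat.card (L.map (redN 8)) = {x : GolayPt → ℤ | x ∈ L ∧ ∀ i, x i ∈ l8}.ncard := by
    have himg : ((L.map (redN 8) : AddSubgroup (GolayPt → ZMod 8)) : Set (GolayPt → ZMod 8)) =
        redN 8 '' {x : GolayPt → ℤ | x ∈ L ∧ ∀ i, x i ∈ l8} := by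
      ext y
      constructor
      · rintro ⟨x', hx', rfl⟩
        refine ⟨fun i => x' i % 8, ⟨?_, fun i => ?_⟩, ?_⟩
        · have : (fun i => x' i % 8) = x' - (fun i => 8 * (x' i / 8)) := by
            ext i
            simp only [Pi.sub_apply]
            have := Int.emod_add_mul_ediv (x' i) 8
            omega
          rw [this]
          exact L.sub_mem hx' (h8 _ (fun i => ⟨_, rfl⟩))
        · rw [mem_l8]
          show 0 ≤ x' i % 8 ∧ x' i % 8 ≤ 7
          omega
        · rw [redN_eq_iff]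
          intro i
          show ((8 : ℕ) : ℤ) ∣ x' i % 8 - x' i
          push_cast
          omega
      · rintro ⟨x, ⟨hx, _⟩, rfl⟩
        exact ⟨x, hx, rfl⟩
    rw [← SetLike.coe_sort_coe, Nat.card_coe_set_eq, himg, Set.InjOn.ncard_image]
    intro x hx y hy e
    rw [redN_eq_iff] at e
    ext i
    have h1 := mem_l8.mp (hx.2 i)
    have h2 := mem_l8.mp (hy.2 i)
    have h3 := e i
    push_cast at h3
    omega
  rw [← h4, ← h1, h2, h3]

theorem eight_mem {x : GolayPt → ℤ} (h : ∀ i, (8 : ℤ) ∣ x i) : x ∈ leechLattice := by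
  rw [mem_leech_iff_pat]
  refine Or.inl ⟨∅, empty_mem_CC, fun i => ?_, ?_⟩
  · have := h i
    simp only [ind, Finset.notMem_empty, if_false]
    omega
  · have := Finset.dvd_sum (s := Finset.univ) (fun i _ => h i)
    simpa using this

set_option maxRecDepth 100000 in
theorem box_val : totq l8 (fun _ => 0) 0 = 2 ^ 36 := by decide +kernel

theorem leech_index : leechLattice.index = 2 ^ 36 := by
  have h1 := index_mul_box leechLattice (fun x h => eight_mem h)
  have h2 := count_leech_unif (l := l8) (by decide) (by decide) (fun _ => 0) 0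
  rw [box_val] at h2
  have h3 : {x : GolayPt → ℤ | x ∈ leechLattice ∧ ∀ i, x i ∈ l8} =
      {x : GolayPt → ℤ | x ∈ leechLattice ∧ ∑ _i : GolayPt, 0 = 0 ∧ ∀ i, x i ∈ l8} := by
    ext x; simp
  rw [h3, h2] at h1
  have : (2 : ℕ) ^ 36 * leechLattice.index = 2 ^ 36 * 2 ^ 36 := by rw [h1]; norm_num
  exact Nat.eq_of_mul_eq_mul_left (by norm_num) this

/-! ### the lattice modulo twice the lattice -/

def dbl : (GolayPt → ℤ) →+ (GolayPt → ℤ) := nsmulAddMonoidHom 2

theorem dbl_apply (x : GolayPt → ℤ) : dbl x = 2 • x := rfl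

theorem dbl_ker : dbl.ker = ⊥ := by
  rw [AddSubgroup.eq_bot_iff_forall]
  intro x hx
  rw [AddMonoidHom.mem_ker, dbl_apply] at hx
  ext i
  have := congrFun hx i
  simp only [Pi.smul_apply, Pi.zero_apply, nsmul_eq_mul] at this
  push_cast at this
  rw [Pi.zero_apply]
  omega

theorem dbl_range : dbl.range = (redN 2).ker := by
  ext x
  rw [mem_ker_redN, AddMonoidHom.mem_range]
  constructor
  · rintro ⟨z, rfl⟩ i
    exact ⟨z i, by simp [dbl_apply]⟩
  · intro h
    choose z hz using h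
    exact ⟨z, by ext i; rw [hz i]; simp [dbl_apply]⟩

theorem dbl_range_index : dbl.range.index = 2 ^ 24 := by
  rw [dbl_range, AddSubgroup.index_ker, AddMonoidHom.range_eq_top.mpr (redN_surj 2)]
  rw [Nat.card_congr (AddSubgroup.topEquiv (G := GolayPt → ZMod 2)).toEquiv, Nat.card_eq_fintype_card,
    Fintype.card_fun, ZMod.card, card_pts]

def twoL : AddSubgroup (GolayPt → ℤ) := leechLattice.map dbl

theorem mem_twoL {x : GolayPt → ℤ} : x ∈ twoL ↔ ∃ z ∈ leechLattice, x = 2 • z := by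
  unfold twoL
  rw [AddSubgroup.mem_map]
  constructor
  · rintro ⟨z, hz, rfl⟩; exact ⟨z, hz, rfl⟩
  · rintro ⟨z, hz, rfl⟩; exact ⟨z, hz, rfl⟩

theorem twoL_le : twoL ≤ leechLattice := by
  intro x hx
  obtain ⟨z, hz, rfl⟩ := mem_twoL.mp hx
  exact leechLattice.nsmul_mem hz 2

theorem twoL_relIndex : twoL.relIndex leechLattice = 2 ^ 24 := by
  have h1 := AddSubgroup.relIndex_mul_index twoL_le
  have h2 : twoL.index = 2 ^ 36 * 2 ^ 24 := by
    unfold twoL
    rw [AddSubgroup.index_map, dbl_ker, sup_bot_eq, leech_index, dbl_range_index]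
  rw [h2, leech_index, mul_comm] at h1
  exact Nat.eq_of_mul_eq_mul_left (by norm_num) h1

abbrev QL : Type := leechLattice ⧸ (twoL.addSubgroupOf leechLattice)

theorem card_QL : Nat.card QL = 2 ^ 24 := twoL_relIndex

open scoped Classical in
noncomputable def piL (x : GolayPt → ℤ) : QL := if h : x ∈ leechLattice then QuotientAddGroup.mk ⟨x, h⟩ else 0

theorem piL_eq_iff {x y : GolayPt → ℤ} (hx : x ∈ leechLattice) (hy : y ∈ leechLattice) :
    piL x = piL y ↔ ∃ z ∈ leechLattice, x - y = 2 • z := by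
  unfold piL
  rw [dif_pos hx, dif_pos hy, QuotientAddGroup.eq, AddSubgroup.mem_addSubgroupOf]
  show -x + y ∈ twoL ↔ _
  rw [mem_twoL]
  constructor
  · rintro ⟨z, hz, e⟩
    refine ⟨-z, leechLattice.neg_mem hz, ?_⟩
    rw [smul_neg, ← e]; abel
  · rintro ⟨z, hz, e⟩
    refine ⟨-z, leechLattice.neg_mem hz, ?_⟩
    rw [smul_neg, ← e]; abel

theorem dotInt_self (x : GolayPt → ℤ) : dotInt x x = sqNorm x := by
  unfold dotInt sqNorm
  apply Finset.sum_congr rfl
  intro i _; ring

theorem pform_dot : PForm (dotInt : (GolayPt → ℤ) → (GolayPt → ℤ) → ℤ) := by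
  refine ⟨fun x y z => ?_, fun x y => ?_, fun x hx => ?_⟩
  · unfold dotInt
    rw [← Finset.sum_add_distrib]
    apply Finset.sum_congr rfl
    intro i _
    simp only [Pi.add_apply]; ring
  · unfold dotInt
    apply Finset.sum_congr rfl
    intro i _; ring
  · rw [dotInt_self]
    exact lt_of_le_of_ne (sqNorm_nonneg x) (fun h => hx (sqNorm_eq_zero h.symm))

theorem leech_cross_main :
    (∀ x ∈ leechLattice, sqNorm x = 64 →
      {y | y ∈ leechLattice ∧ sqNorm y = 64 ∧ ∃ z ∈ leechLattice, x - y = 2 • z}.ncard = 48) ∧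
    (∀ x ∈ leechLattice, ∃ y ∈ leechLattice, sqNorm y ≤ 64 ∧ ∃ z ∈ leechLattice, x - y = 2 • z) := by
  have : Finite QL := Nat.finite_of_card_ne_zero (by rw [card_QL]; norm_num)
  let _ : Fintype QL := Fintype.ofFinite QL
  have main := pform_dot.cross_main (by rw [Module.finrank_fintype_fun_eq_card, card_pts]) leechLattice
    (u := 16) (by norm_num)
    (fun x hx h0 => by rw [dotInt_self]; exact sqNorm_ge hx h0)
    (by simp only [dotInt_self]; norm_num; exact Cfsg.Agent.S0394.result)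
    (by simp only [dotInt_self]; norm_num; exact Cfsg.Agent.S0395.result)
    (by simp only [dotInt_self]; norm_num; exact Cfsg.Agent.S0396.result)
    (Q := QL) (by rw [← Nat.card_eq_fintype_card, card_QL]) piL
    (fun x hx y hy => piL_eq_iff hx hy)
  simp only [dotInt_self] at main
  norm_num at main
  exact main

end Cfsg.Agent.H9
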