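import Cfsg.Agent.Lib_H9_Co0d

set_option autoImplicit false

namespace Cfsg.Agent.H9

open Cfsg
open scoped Pointwise

/-! ### automorphisms given by matrices (entries multiplied by 8, packed with offset 16) -/

def entM (M i j : ℕ) : ℤ :=
  Int.sub (Int.ofNat (Nat.land (Nat.shiftRight M (Nat.mul 5 (Nat.add (Nat.mul 24 i) j))) 31)) 16

def matF (M : ℕ) (f : ℕ → ℤ) (i : ℕ) : ℤ := sumR (fun j => entM M i j * f j) 24

def matV (M : ℕ) (x : V) : V := vecF (matF M (fun j => x (pt j)))

theorem matV_vecF (M : ℕ) (f : ℕ → ℤ) : matV M (vecF f) = vecF (matF M f) := by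
  ext p
  simp only [matV, vecF, matF, sumR_eq]
  apply Finset.sum_congr rfl
  intro j hj
  rw [idx_pt (Finset.mem_range.mp hj)]

theorem matV_add (M : ℕ) (x y : V) : matV M (x + y) = matV M x + matV M y := by
  ext p
  simp only [matV, vecF, matF, sumR_eq, Pi.add_apply, mul_add, Finset.sum_add_distrib]

def matHom (M : ℕ) : V →+ V where
  toFun := matV M
  map_zero' := by
    have := matV_add M 0 0
    rw [add_zero] at this
    exact left_eq_add.mp this
  map_add' := matV_add M

def orthOK (M : ℕ) : Bool :=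
  allBelow (fun j => allBelow (fun k =>
    decide (sumR (fun i => entM M i j * entM M i k) 24 = bsel (Nat.beq j k) 64 0)) 24) 24

theorem sqNorm_matV {M : ℕ} (h : orthOK M = true) (x : V) : sqNorm (matV M x) = 64 * sqNorm x := by
  have ho : ∀ j ∈ Finset.range 24, ∀ k ∈ Finset.range 24,
      ∑ i ∈ Finset.range 24, entM M i j * entM M i k = if j = k then 64 else 0 := by
    intro j hj k hk
    have := (allBelow_iff _ _).mp ((allBelow_iff _ _).mp h j (Finset.mem_range.mp hj)) k (Finset.mem_range.mp hk)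
    rw [decide_eq_true_iff, sumR_eq, bsel_eq] at this
    simp only [Nat.beq_eq] at this
    exact this
  set f : ℕ → ℤ := fun j => x (pt j) with hf
  have hx : sqNorm x = ∑ j ∈ Finset.range 24, f j ^ 2 := by
    conv_lhs => rw [← vecF_pt x]
    rw [sqNorm_vecF, sumR_eq]
  unfold matV
  rw [sqNorm_vecF, sumR_eq, hx]
  simp only [matF, sumR_eq, sq, Finset.sum_mul_sum]
  rw [Finset.sum_comm]
  have h1 : ∀ j ∈ Finset.range 24, (∑ i ∈ Finset.range 24, ∑ k ∈ Finset.range 24,
      entM M i j * f j * (entM M i k * f k)) = 64 * (f j * f j) := by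
    intro j hj
    rw [Finset.sum_comm]
    have h2 : ∀ k ∈ Finset.range 24, (∑ i ∈ Finset.range 24, entM M i j * f j * (entM M i k * f k)) =
        (if j = k then 64 else 0) * (f j * f k) := by
      intro k hk
      rw [← ho j hj k hk, Finset.sum_mul]
      apply Finset.sum_congr rfl
      intro i _
      ring
    rw [Finset.sum_congr rfl h2]
    simp only [ite_mul, zero_mul]
    rw [Finset.sum_ite_eq, if_pos hj]
  rw [Finset.sum_congr rfl h1, Finset.mul_sum]

def eightL : AddSubgroup V := leechLattice.map (zsmulAddGroupHom 8)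

theorem mem_eightL {x : V} : x ∈ eightL ↔ ∃ z ∈ leechLattice, x = (8 : ℤ) • z := by
  unfold eightL
  rw [AddSubgroup.mem_map]
  constructor
  · rintro ⟨z, hz, rfl⟩; exact ⟨z, hz, rfl⟩
  · rintro ⟨z, hz, rfl⟩; exact ⟨z, hz, rfl⟩

def eighthOK (f : ℕ → ℤ) : Bool :=
  allBelow (fun i => decide (f i % 8 = 0)) 24 && inLF (fun i => f i / 8)

theorem eighthOK_spec {f : ℕ → ℤ} (h : eighthOK f = true) : vecF f ∈ eightL := by
  unfold eighthOK at h
  rw [Bool.and_eq_true, allBelow_iff] at h
  rw [mem_eightL]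
  refine ⟨_, inLF_spec h.2, ?_⟩
  ext p
  have := h.1 (idx p) (idx_lt p)
  rw [decide_eq_true_iff] at this
  simp only [vecF, Pi.smul_apply, smul_eq_mul]
  omega

def latOK (M : ℕ) : Bool := allBelow (fun k => eighthOK (matF M (genF k))) 38

theorem matV_mem {M : ℕ} (h : latOK M = true) {x : V} (hx : x ∈ leechLattice) : matV M x ∈ eightL := by
  have h' : AddSubgroup.closure G0 ≤ eightL.comap (matHom M) := by
    rw [AddSubgroup.closure_le]
    intro y hy
    obtain ⟨k, hk, rfl⟩ := G0_eq hy
    show matV M (vecF (genF k)) ∈ eightL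
    rw [matV_vecF]
    exact eighthOK_spec ((allBelow_iff _ _).mp h k hk)
  exact h' (leech_le_closure hx)

def matG (M : ℕ) (x : V) : V := fun p => matV M x p / 8

theorem matG_eq {M : ℕ} {x y : V} (h : matV M x = (8 : ℤ) • y) : matG M x = y := by
  ext p
  have := congrFun h p
  simp only [Pi.smul_apply, smul_eq_mul] at this
  simp only [matG, this]
  omega

theorem matG_spec {M : ℕ} (h : latOK M = true) {x : V} (hx : x ∈ leechLattice) :
    matG M x ∈ leechLattice ∧ matV M x = (8 : ℤ) • matG M x := by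
  obtain ⟨y, hy, e⟩ := mem_eightL.mp (matV_mem h hx)
  rw [matG_eq e]
  exact ⟨hy, e⟩

theorem sqNorm_eight_smul (z : V) : sqNorm ((8 : ℤ) • z) = 64 * sqNorm z := by
  unfold sqNorm
  rw [Finset.mul_sum]
  apply Finset.sum_congr rfl
  intro i _
  simp only [Pi.smul_apply, smul_eq_mul]
  ring

def isMat (M : ℕ) : Bool := orthOK M && latOK M

theorem lmap_mat {M : ℕ} (h : isMat M = true) : LMap (matG M) := by
  unfold isMat at h
  rw [Bool.and_eq_true] at h
  refine ⟨fun x hx => (matG_spec h.2 hx).1, fun x hx y hy => ?_, fun x hx => ?_⟩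
  · apply matG_eq
    rw [matV_add, (matG_spec h.2 hx).2, (matG_spec h.2 hy).2, smul_add]
  · have h1 := sqNorm_matV h.1 x
    rw [(matG_spec h.2 hx).2, sqNorm_eight_smul] at h1
    omega

def dcF (a : ℕ) (j : ℕ) : ℤ := Int.sub (Int.ofNat (fl4 a j)) 8

theorem dec_eq_vecF (a : ℕ) : dec a = vecF (dcF a) := rfl

def matOK (M a b : ℕ) : Bool := allBelow (fun i => decide (matF M (dcF a) i = 8 * dcF b i)) 24

theorem matOK_spec {M a b : ℕ} (h : matOK M a b = true) : matG M (dec a) = dec b := by
  apply matG_eq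
  rw [dec_eq_vecF, matV_vecF, dec_eq_vecF]
  ext p
  have := (allBelow_iff _ _).mp h (idx p) (idx_lt p)
  rw [decide_eq_true_iff] at this
  simp only [vecF, Pi.smul_apply, smul_eq_mul]
  exact this

end Cfsg.Agent.H9
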