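import Cfsg.Agent.Lib_H9_Coatom

set_option autoImplicit false

namespace Cfsg.Agent.H9

open scoped Pointwise

theorem ncard_fiber_sumI {X ι : Type*} [DecidableEq ι] (Ω : Set X) (hΩ : Ω.Finite) (c : X → ι) (J : Finset ι) :
    {y | y ∈ Ω ∧ c y ∈ J}.ncard = ∑ j ∈ J, {y | y ∈ Ω ∧ c y = j}.ncard := by
  classical
  have e1 : {y | y ∈ Ω ∧ c y ∈ J} = ↑(hΩ.toFinset.filter (fun y => c y ∈ J)) := by
    ext y; simp
  have e2 : ∀ j, {y | y ∈ Ω ∧ c y = j} = ↑(hΩ.toFinset.filter (fun y => c y = j)) := by
    intro j; ext y; simp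
  rw [e1, Set.ncard_coe_finset]
  simp_rw [e2, Set.ncard_coe_finset]
  rw [Finset.card_eq_sum_card_fiberwise (f := c) (t := J)]
  · apply Finset.sum_congr rfl
    intro j hj
    congr 1
    ext y
    simp only [Finset.mem_filter, Set.Finite.mem_toFinset]
    constructor
    · rintro ⟨⟨h1, _⟩, h3⟩; exact ⟨h1, h3⟩
    · rintro ⟨h1, h3⟩; exact ⟨⟨h1, h3 ▸ hj⟩, h3⟩
  · intro y hy
    simp only [Finset.coe_filter, Set.mem_ofPred_eq] at hy
    exact hy.2

/-- a point stabiliser is maximal when no proper union of suborbits has size dividing the degree -/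
theorem coatom_of_rankI {G X ι : Type*} [DecidableEq ι] [Group G] [Finite G] [MulAction G X] (x : X) (c : X → ι)
    (C : Finset ι) (n : ι → ℕ)
    (hc : ∀ y ∈ MulAction.orbit G x, c y ∈ C)
    (hn : ∀ j ∈ C, {y | y ∈ MulAction.orbit G x ∧ c y = j}.ncard = n j)
    (hx : ∀ y ∈ MulAction.orbit G x, c y = c x → y = x)
    (htr : ∀ y ∈ MulAction.orbit G x, ∀ z ∈ MulAction.orbit G x, c y = c z →
      ∃ h ∈ MulAction.stabilizer G x, h • y = z)
    (harith : ∀ J ∈ C.powerset, c x ∈ J → (∑ j ∈ J, n j) ∣ (∑ j ∈ C, n j) → J = {c x} ∨ J = C)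
    (hne : ∃ y ∈ MulAction.orbit G x, y ≠ x) : IsCoatom (MulAction.stabilizer G x) := by
  classical
  have hfin : (MulAction.orbit G x).Finite := Set.finite_range _
  constructor
  · intro htop
    obtain ⟨y, ⟨g, rfl⟩, hy⟩ := hne
    apply hy
    have : g ∈ MulAction.stabilizer G x := htop ▸ Subgroup.mem_top g
    exact this
  · intro K hK
    have hle : MulAction.stabilizer G x ≤ K := hK.le
    set Δ : Set X := MulAction.orbit K x with hΔ
    have hΔΩ : ∀ y ∈ Δ, y ∈ MulAction.orbit G x := by
      rintro y ⟨k, rfl⟩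
      exact ⟨k.1, rfl⟩
    set J : Finset ι := C.filter (fun j => ∃ y ∈ Δ, c y = j) with hJ
    have hΔeq : Δ = {y | y ∈ MulAction.orbit G x ∧ c y ∈ J} := by
      ext y
      constructor
      · intro hy
        exact ⟨hΔΩ y hy, Finset.mem_filter.mpr ⟨hc y (hΔΩ y hy), y, hy, rfl⟩⟩
      · rintro ⟨hy, hyJ⟩
        obtain ⟨_, z, hz, hzy⟩ := Finset.mem_filter.mp hyJ
        obtain ⟨h, hh, hhz⟩ := htr z (hΔΩ z hz) y hy hzy
        obtain ⟨k, rfl⟩ := hz
        refine ⟨⟨h, hle hh⟩ * k, ?_⟩
        rw [← hhz]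
        exact mul_smul _ _ _
    have hcardΔ : Δ.ncard = ∑ j ∈ J, n j := by
      rw [hΔeq, ncard_fiber_sumI _ hfin]
      exact Finset.sum_congr rfl (fun j hj => hn j (Finset.mem_filter.mp hj).1)
    have hcardΩ : (MulAction.orbit G x).ncard = ∑ j ∈ C, n j := by
      have : MulAction.orbit G x = {y | y ∈ MulAction.orbit G x ∧ c y ∈ C} := by
        ext y; exact ⟨fun hy => ⟨hy, hc y hy⟩, fun hy => hy.1⟩
      rw [this, ncard_fiber_sumI _ hfin]
      exact Finset.sum_congr rfl (fun j hj => by
        have := hn j hj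
        rw [← this])
    have hK1 : Nat.card K = Δ.ncard * Nat.card (MulAction.stabilizer G x) := by
      have := card_inf_stab K x
      rwa [inf_eq_right.mpr hle] at this
    have hG1 : Nat.card G = (MulAction.orbit G x).ncard * Nat.card (MulAction.stabilizer G x) := by
      rw [← MulAction.index_stabilizer, Subgroup.index_mul_card]
    have hpos : 0 < Nat.card (MulAction.stabilizer G x) := Nat.card_pos
    have hdvd : Δ.ncard ∣ (MulAction.orbit G x).ncard := by
      have := Subgroup.card_subgroup_dvd_card K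
      rw [hK1, hG1] at this
      exact Nat.dvd_of_mul_dvd_mul_right hpos this
    have hxΔ : x ∈ Δ := MulAction.mem_orbit_self x
    have hxJ : c x ∈ J := Finset.mem_filter.mpr ⟨hc x (MulAction.mem_orbit_self x), x, hxΔ, rfl⟩
    rcases harith J (Finset.mem_powerset.mpr (Finset.filter_subset _ _)) hxJ
      (by rw [← hcardΔ, ← hcardΩ]; exact hdvd) with h1 | h1
    · exfalso
      apply hK.not_ge
      intro k hk
      have hkx : k • x ∈ Δ := ⟨⟨k, hk⟩, rfl⟩
      rw [hΔeq] at hkx
      have := hkx.2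
      rw [h1, Finset.mem_singleton] at this
      exact hx _ hkx.1 this
    · apply Subgroup.eq_top_of_card_eq
      rw [hK1, hG1, hcardΔ, hcardΩ, h1]

theorem not_normal_stab {G X : Type*} [Group G] [MulAction G X] (x : X)
    (h : ∃ g : G, ∃ h ∈ MulAction.stabilizer G x, h • g • x ≠ g • x) :
    ¬ (MulAction.stabilizer G x).Normal := by
  intro hN
  obtain ⟨g, h, hh, hne⟩ := h
  apply hne
  have := hN.conj_mem h hh g⁻¹
  rw [MulAction.mem_stabilizer_iff, inv_inv, mul_smul, mul_smul, inv_smul_eq_iff] at this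
  exact this

/-- normal subgroups of a group with a maximal, simple, non-normal subgroup -/
theorem normal_trichotomy {G : Type*} [Group G] [Finite G] (H : Subgroup G) (hco : IsCoatom H)
    (hs : IsSimpleGroup H) (hnn : ¬ H.Normal) (N : Subgroup G) (hN : N.Normal) :
    N = ⊥ ∨ N = ⊤ ∨ (N ⊓ H = ⊥ ∧ Nat.card N = H.index) := by
  have hn' : (N.subgroupOf H).Normal := hN.subgroupOf H
  rcases hs.eq_bot_or_eq_top_of_normal _ hn' with h | h
  · rw [Subgroup.subgroupOf_eq_bot] at h
    by_cases hb : N = ⊥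
    · exact Or.inl hb
    right; right
    have hinf : N ⊓ H = ⊥ := disjoint_iff.mp h
    refine ⟨hinf, ?_⟩
    have hnle : ¬ N ≤ H := fun hle => hb (by rw [← hinf]; exact (inf_eq_left.mpr hle).symm)
    have hsup : N ⊔ H = ⊤ := by
      apply hco.2
      exact lt_of_le_of_ne le_sup_right (fun e => hnle (by rw [e]; exact le_sup_left))
    have hcomp : Subgroup.IsComplement' N H := Subgroup.isComplement'_of_disjoint_and_mul_eq_univ h (by
      rw [← Subgroup.normal_mul, hsup, Subgroup.coe_top])
    have h1 := hcomp.card_mul_card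
    have h2 := H.index_mul_card
    have hpos : 0 < Nat.card H := Nat.card_pos
    exact Nat.eq_of_mul_eq_mul_right hpos (h1.trans h2.symm)
  · rw [Subgroup.subgroupOf_eq_top] at h
    rcases eq_or_lt_of_le h with e | l
    · exact absurd (e ▸ hN) hnn
    · exact Or.inr (Or.inl (hco.2 _ l))

theorem simple_of_coatom {G : Type*} [Group G] [Finite G] (H : Subgroup G) (hco : IsCoatom H)
    (hs : IsSimpleGroup H) (hnn : ¬ H.Normal)
    (hex : ∀ N : Subgroup G, N.Normal → N ⊓ H = ⊥ → Nat.card N = H.index → False) : IsSimpleGroup G := by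
  have : Nontrivial G := by
    by_contra hnt
    rw [not_nontrivial_iff_subsingleton] at hnt
    exact hco.1 (Subsingleton.elim _ _)
  refine ⟨fun N hN => ?_⟩
  rcases normal_trichotomy H hco hs hnn N hN with h | h | h
  · exact Or.inl h
  · exact Or.inr h
  · exact (hex N hN h.1 h.2).elim

theorem index_dvd_of_sup_top {G : Type*} [Group G] [Finite G] (N U : Subgroup G) (hN : N.Normal)
    (h : N ⊔ U = ⊤) : U.index ∣ Nat.card N := by
  have h1 : N.relIndex (N ⊔ U) = N.relIndex U := Subgroup.relIndex_sup_left U N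
  rw [h, Subgroup.relIndex_top_right] at h1
  -- |G| = |N| * N.index ; |U| = |N ⊓ U| * N.relIndex U
  have e1 := N.index_mul_card
  have e2 := U.index_mul_card
  have e3 : N.relIndex U * Nat.card (N ⊓ U : Subgroup G) = Nat.card U := by
    have := Subgroup.relIndex_mul_relIndex (⊥ : Subgroup G) (N ⊓ U) U bot_le inf_le_right
    rw [Subgroup.relIndex_bot_left, Subgroup.relIndex_bot_left, Subgroup.inf_relIndex_right] at this
    rw [mul_comm]; exact this
  refine ⟨Nat.card (N ⊓ U : Subgroup G), ?_⟩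
  have hpos : 0 < N.index := Nat.pos_of_ne_zero Subgroup.index_ne_zero_of_finite
  apply Nat.eq_of_mul_eq_mul_left hpos
  rw [e1, ← e2, ← e3, h1]
  ring

theorem card_mul_le_of_inf_bot {G : Type*} [Group G] [Finite G] (N M : Subgroup G) (h : N ⊓ M = ⊥) :
    Nat.card N * Nat.card M ≤ Nat.card G := by
  rw [← Nat.card_prod]
  exact Nat.card_le_card_of_injective _ (Subgroup.mul_injective_of_disjoint (disjoint_iff.mpr h))

/-- a normal subgroup of order 100 contains a subgroup of order 25 that is normal in the whole group -/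
theorem normal_25_of_100 {G : Type*} [Group G] [Finite G] (N : Subgroup G) (hN : N.Normal)
    (hc : Nat.card N = 100) : ∃ P : Subgroup G, P.Normal ∧ P ≤ N ∧ Nat.card P = 25 := by
  have : Fact (Nat.Prime 5) := ⟨by norm_num⟩
  obtain ⟨P⟩ : Nonempty (Sylow 5 N) := inferInstance
  have hP : Nat.card (P : Subgroup N) = 25 := by
    rw [Sylow.card_eq_multiplicity, hc]
    have : (100 : ℕ) = 5 ^ 2 * 4 := by norm_num
    rw [this, Nat.factorization_mul (by norm_num) (by norm_num), Finsupp.add_apply,
      Nat.Prime.factorization_pow (by norm_num), Finsupp.single_eq_same,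
      Nat.factorization_eq_zero_of_not_dvd (by norm_num)]
    norm_num
  have hidx : (P : Subgroup N).index = 4 := by
    have := (P : Subgroup N).index_mul_card
    rw [hP, hc] at this
    omega
  have h1 : Nat.card (Sylow 5 N) ≡ 1 [MOD 5] := card_sylow_modEq_one 5 N
  have h2 : Nat.card (Sylow 5 N) ∣ 4 := hidx ▸ Sylow.card_dvd_index P
  have h3 : Nat.card (Sylow 5 N) = 1 := by
    have hle := Nat.le_of_dvd (by norm_num) h2
    unfold Nat.ModEq at h1
    interval_cases h : Nat.card (Sylow 5 N) <;> simp_all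
  have : Subsingleton (Sylow 5 N) := (Nat.card_eq_one_iff_unique.mp h3).1
  have hch : (P : Subgroup N).Characteristic := Sylow.characteristic_of_subsingleton P
  refine ⟨(P : Subgroup N).map N.subtype, ConjAct.normal_of_characteristic_of_normal, ?_, ?_⟩
  · exact Subgroup.map_subtype_le _
  · rw [Subgroup.card_map_of_injective N.subtype_injective, hP]

/-- the stabiliser of a point in a subgroup -/
def stabSubEquiv {A X : Type*} [Group A] [MulAction A X] (K : Subgroup A) (x : X) :
    ↥(MulAction.stabilizer K x) ≃* ↥(K ⊓ MulAction.stabilizer A x) where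
  toFun g := ⟨g.1.1, g.1.2, g.2⟩
  invFun g := ⟨⟨g.1, g.2.1⟩, g.2.2⟩
  left_inv _ := rfl
  right_inv _ := rfl
  map_mul' _ _ := rfl

end Cfsg.Agent.H9
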