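import Cfsg.Agent.Lib_H9_Flags
import Cfsg.Agent.Lib_H9_Card
import Cfsg.Agent.Lib_H9_SimpG

set_option autoImplicit false

namespace Cfsg.Agent.H9

open Cfsg
open scoped Pointwise

theorem inv_app (h : Equiv.Perm GolayPt) (x : GolayPt) : h⁻¹ (h x) = x := by simp

theorem app_inv (h : Equiv.Perm GolayPt) (x : GolayPt) : h (h⁻¹ x) = x := by simp

theorem card_pts' : Fintype.card GolayPt = 24 := by decide

theorem level6' : levelCheck trTab6 5279 5 16771936 = true := by decide +kernel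

/-- pointwise stabiliser of a set of points in the group of the code -/
def KO (o : Finset GolayPt) : Subgroup (Equiv.Perm GolayPt) :=
  M24 ⊓ fixingSubgroup (Equiv.Perm GolayPt) (o : Set GolayPt)

theorem mem_KO {o : Finset GolayPt} {g : Equiv.Perm GolayPt} : g ∈ KO o ↔ g ∈ M24 ∧ ∀ p ∈ o, g p = p := by
  unfold KO
  rw [Subgroup.mem_inf, mem_fixingSubgroup_iff]
  simp

/-- setwise stabiliser -/
def GO (o : Finset GolayPt) : Subgroup (Equiv.Perm GolayPt) :=
  M24 ⊓ MulAction.stabilizer (Equiv.Perm GolayPt) o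

theorem mem_GO {o : Finset GolayPt} {g : Equiv.Perm GolayPt} : g ∈ GO o ↔ g ∈ M24 ∧ g • o = o := Iff.rfl

theorem smul_eq_of_fix {o : Finset GolayPt} {g : Equiv.Perm GolayPt} (h : ∀ p ∈ o, g p = p) : g • o = o := by
  ext q
  rw [Finset.mem_smul_finset]
  constructor
  · rintro ⟨p, hp, rfl⟩
    rw [Equiv.Perm.smul_def, h p hp]; exact hp
  · intro hq
    exact ⟨q, hq, h q hq⟩

theorem KO_le_GO (o : Finset GolayPt) : KO o ≤ GO o := by
  intro g hg
  obtain ⟨h1, h2⟩ := mem_KO.mp hg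
  exact ⟨h1, smul_eq_of_fix h2⟩

theorem std_trans {b : GolayPt} (hb : b ∉ ofMask 5279) : ∃ g ∈ KO (ofMask 5279), g (pt 5) = b := by
  have h2 : b ∈ ofMask (5279 ||| 16771936) := by
    have : (5279 ||| 16771936 : ℕ) = 16777215 := by decide
    rw [this, ofMask_full]; exact Finset.mem_univ _
  rw [ofMask_or, Finset.mem_union] at h2
  have h3 := h2.resolve_left hb
  obtain ⟨g, hg, e⟩ := levelCheck_spec (by norm_num) level6' (idx_lt b) (mem_ofMask.mp h3)
  rw [pt_idx] at e
  exact ⟨g, hg, e⟩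

theorem std_free {g : Equiv.Perm GolayPt} (hg : g ∈ KO (ofMask 5279)) (h : g (pt 5) = pt 5) : g = 1 := by
  obtain ⟨h1, h2⟩ := mem_KO.mp hg
  have : g ∈ FixM 191 := by
    rw [mem_FixM]
    refine ⟨h1, fun p hp => ?_⟩
    have e : (191 : ℕ) = 159 ||| 2 ^ 5 := by decide
    rw [e, ofMask_or, ofMask_two_pow (by norm_num), Finset.mem_union, Finset.mem_singleton] at hp
    rcases hp with hp | rfl
    · exact h2 p (((ofMask_subset_iff (a := 159) (b := 5279) (by norm_num)).mpr (by decide)) hp)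
    · exact h
  rw [FixM_191, Subgroup.mem_bot] at this
  exact this

theorem flag0 {o : Finset GolayPt} (ho : o ∈ octads) {x : GolayPt} (hx : x ∉ o) :
    ∃ h ∈ M24, h • ofMask 5279 = o ∧ h (pt 5) = x := by
  obtain ⟨h, hh, h1, h2, _⟩ := octad_flag2 (k := 0) (by norm_num) ho hx
    ⟨fun i => i.elim0, fun i => i.elim0⟩ (fun i => i.elim0)
  exact ⟨h, hh, h1, h2⟩

theorem conj_KO {h g : Equiv.Perm GolayPt} (hh : h ∈ M24) {o : Finset GolayPt} (hg : g ∈ KO o) :
    h * g * h⁻¹ ∈ KO (h • o) := by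
  obtain ⟨h1, h2⟩ := mem_KO.mp hg
  refine mem_KO.mpr ⟨M24.mul_mem (M24.mul_mem hh h1) (M24.inv_mem hh), ?_⟩
  intro p hp
  obtain ⟨q, hq, rfl⟩ := Finset.mem_smul_finset.mp hp
  show h (g (h⁻¹ (h q))) = h q
  rw [inv_app, h2 q hq]

theorem KO_trans {o : Finset GolayPt} (ho : o ∈ octads) {p q : GolayPt} (hp : p ∉ o) (hq : q ∉ o) :
    ∃ g ∈ KO o, g p = q := by
  obtain ⟨h, hh, rfl, rfl⟩ := flag0 ho hp
  have hb : h⁻¹ q ∉ ofMask 5279 := by
    intro hm
    apply hq
    rw [Finset.mem_smul_finset]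
    exact ⟨h⁻¹ q, hm, by simp⟩
  obtain ⟨g, hg, e⟩ := std_trans hb
  refine ⟨h * g * h⁻¹, conj_KO hh hg, ?_⟩
  show h (g (h⁻¹ (h (pt 5)))) = q
  rw [inv_app, e, app_inv]

theorem KO_free {o : Finset GolayPt} (ho : o ∈ octads) {p : GolayPt} (hp : p ∉ o) {g : Equiv.Perm GolayPt}
    (hg : g ∈ KO o) (h : g p = p) : g = 1 := by
  obtain ⟨k, hk, rfl, rfl⟩ := flag0 ho hp
  have h1 := conj_KO (M24.inv_mem hk) hg
  rw [inv_smul_smul, inv_inv] at h1
  have h2 := std_free h1 (by
    show k⁻¹ (g (k (pt 5))) = pt 5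
    rw [h, inv_app])
  have : g = k * (k⁻¹ * g * k) * k⁻¹ := by group
  rw [this, h2]
  group

theorem exists_notMem_octad {o : Finset GolayPt} (ho : o ∈ octads) : ∃ p, p ∉ o := by
  by_contra h
  push Not at h
  have : o = Finset.univ := Finset.eq_univ_iff_forall.mpr h
  have h2 := ho.2
  rw [this, Finset.card_univ, card_pts'] at h2
  omega

theorem card_KO {o : Finset GolayPt} (ho : o ∈ octads) : Nat.card (KO o) = 16 := by
  obtain ⟨p, hp⟩ := exists_notMem_octad ho
  have h := card_eq_orbit_mul (KO o) ⊥ p oᶜ ?_ ?_ ?_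
  · rw [h, Subgroup.card_bot, Finset.card_compl, card_pts', ho.2]
  · intro g
    rw [Subgroup.mem_bot]
    constructor
    · rintro rfl
      exact ⟨Subgroup.one_mem _, rfl⟩
    · rintro ⟨h1, h2⟩
      exact KO_free ho hp h1 h2
  · intro g hg
    rw [Finset.mem_compl, apply_mem_iff_of_smul_eq (KO_le_GO o hg).2]
    exact hp
  · intro b hb
    exact KO_trans ho hp (Finset.mem_compl.mp hb)

theorem card_GO {o : Finset GolayPt} (ho : o ∈ octads) : Nat.card (GO o) = 322560 := by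
  rw [← card_stab_octad ho]
  exact (Nat.card_congr (stabSubEquiv M24 o).toEquiv).symm

/-- the action of the stabiliser of a set on the set -/
def rho (o : Finset GolayPt) : ↥(GO o) →* Equiv.Perm ↥o where
  toFun g := g.1.subtypePerm (fun _ => apply_mem_iff_of_smul_eq g.2.2)
  map_one' := by ext; rfl
  map_mul' a b := by ext; rfl

theorem rho_apply {o : Finset GolayPt} (g : ↥(GO o)) (x : ↥o) : ((rho o g x : ↥o) : GolayPt) = g.1 x := rfl

theorem ker_rho (o : Finset GolayPt) : (rho o).ker = (KO o).subgroupOf (GO o) := by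
  ext g
  rw [MonoidHom.mem_ker, Subgroup.mem_subgroupOf, mem_KO]
  constructor
  · intro h
    refine ⟨g.2.1, fun p hp => ?_⟩
    have := congrArg (fun e : Equiv.Perm ↥o => ((e ⟨p, hp⟩ : ↥o) : GolayPt)) h
    exact this
  · rintro ⟨_, h⟩
    apply Equiv.ext
    intro x
    exact Subtype.ext (h x.1 x.2)

theorem rho_range {o : Finset GolayPt} (ho : o ∈ octads) : (rho o).range = alternatingGroup ↥o := by
  apply Equiv.Perm.eq_alternatingGroup_of_index_eq_two
  have h1 := (rho o).ker.index_mul_card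
  rw [Subgroup.index_ker, ker_rho, card_subgroupOf_of_le (KO_le_GO o), card_KO ho, card_GO ho] at h1
  have h2 := (rho o).range.index_mul_card
  have h5 : Nat.card ↥o = 8 := by rw [Nat.card_eq_fintype_card, Fintype.card_coe, ho.2]
  rw [Nat.card_perm, h5] at h2
  have h3 : Nat.card (rho o).range = 20160 := by omega
  rw [h3] at h2
  have h4 : (8 : ℕ).factorial = 40320 := by decide
  rw [h4] at h2
  omega

end Cfsg.Agent.H9
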