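import Cfsg.Agent.Lib_H9_OctA8
import Cfsg.Agent.Lib_H9_OctStab
import Cfsg.Agent.S5600

set_option autoImplicit false

namespace Cfsg.Agent.H9

open Cfsg
open scoped Pointwise

/-- the elements of the pointwise stabiliser of the standard octad are listed in the table -/
theorem std_list {k : Equiv.Perm GolayPt} (hk : k ∈ KO (ofMask 5279)) :
    ∃ c < 24, isPerm (entry trTab6 c) = true ∧ k = permOf (entry trTab6 c) ∧ k (pt 5) = pt c := by
  have hb : k (pt 5) ∉ ofMask 5279 := by
    rw [apply_mem_iff_of_smul_eq (KO_le_GO _ hk).2, mem_ofMask, idx_pt (by norm_num)]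
    decide
  have h2 : k (pt 5) ∈ ofMask (5279 ||| 16771936) := by
    have : (5279 ||| 16771936 : ℕ) = 16777215 := by decide
    rw [this, ofMask_full]; exact Finset.mem_univ _
  rw [ofMask_or, Finset.mem_union] at h2
  have h3 := mem_ofMask.mp (h2.resolve_left hb)
  set c := idx (k (pt 5)) with hc
  have hc24 : c < 24 := idx_lt _
  have := (allBelow_iff _ _).mp level6' c hc24
  rw [bit_eq, h3] at this
  have h' : (inM24 (entry trTab6 c) && fixesMask (entry trTab6 c) 5279 &&
    Nat.beq (app (entry trTab6 c) 5) c) = true := this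
  simp only [Bool.and_eq_true] at h'
  obtain ⟨⟨h1, h2'⟩, h3'⟩ := h'
  have hp := inM24_isPerm h1
  have hg : permOf (entry trTab6 c) ∈ KO (ofMask 5279) :=
    mem_KO.mpr ⟨permOf_mem_M24 h1, fixesMask_spec hp h2'⟩
  have e5 : permOf (entry trTab6 c) (pt 5) = k (pt 5) := by
    rw [permOf_pt hp (by norm_num), Nat.eq_of_beq_eq_true h3', hc, pt_idx]
  refine ⟨c, hc24, hp, ?_, by rw [hc, pt_idx]⟩
  have h4 : (permOf (entry trTab6 c))⁻¹ * k = 1 := by
    apply std_free ((KO _).mul_mem ((KO _).inv_mem hg) hk)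
    show (permOf (entry trTab6 c))⁻¹ (k (pt 5)) = pt 5
    rw [← e5, inv_app]
  exact (inv_mul_eq_one.mp h4).symm

theorem moves2 : allBelow (fun c => Nat.beq c 5 || !(bit 16771936 c) ||
    !(Nat.beq (applyMask (entry trTab6 c) 13062145) 13062145)) 24 = true := by decide +kernel

theorem oct13 : isOct 13062145 = true := by decide +kernel

theorem inter13 : (ofMask 5279 ∩ ofMask 13062145).card = 2 := by
  rw [← ofMask_and, ← pop_eq (by decide)]
  decide +kernel

theorem std_free2 {k : Equiv.Perm GolayPt} (hk : k ∈ KO (ofMask 5279))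
    (h : k • ofMask 13062145 = ofMask 13062145) : k = 1 := by
  obtain ⟨c, hc, hp, e, e5⟩ := std_list hk
  have hb : k (pt 5) ∉ ofMask 5279 := by
    rw [apply_mem_iff_of_smul_eq (KO_le_GO _ hk).2, mem_ofMask, idx_pt (by norm_num)]
    decide
  have := (allBelow_iff _ _).mp moves2 c hc
  simp only [Bool.or_eq_true, Bool.not_eq_true', beq_iff] at this
  rcases this with (h5 | h5) | h5
  · subst h5
    exact std_free hk e5
  · exfalso
    rw [bit_eq] at h5
    have h2 : k (pt 5) ∈ ofMask (5279 ||| 16771936) := by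
      have : (5279 ||| 16771936 : ℕ) = 16777215 := by decide
      rw [this, ofMask_full]; exact Finset.mem_univ _
    rw [ofMask_or, Finset.mem_union] at h2
    have h3 := mem_ofMask.mp (h2.resolve_left hb)
    rw [e5, idx_pt hc, h5] at h3
    exact absurd h3 (by decide)
  · exfalso
    rw [e, smul_ofMask hp, ofMask_inj (applyMask_lt hp _) (by decide)] at h
    have : Nat.beq (applyMask (entry trTab6 c) 13062145) 13062145 = true := by rw [beq_iff]; exact h
    rw [h5] at this
    exact absurd this (by decide)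

theorem pair2_conj {o o' : Finset GolayPt} (ho : o ∈ octads) (ho' : o' ∈ octads) (h₂ : (o ∩ o').card = 2) :
    ∃ h ∈ M24, h • ofMask 5279 = o ∧ h • ofMask 13062145 = o' := by
  obtain ⟨a, ha, rfl⟩ := M24_trans_octads (isOct_spec oct5279).2 ho
  have h1 : a⁻¹ • o' ∈ octads := smul_mem_octads (M24.inv_mem ha) ho'
  have h2 : (ofMask 5279 ∩ ofMask 13062145).card = (ofMask 5279 ∩ a⁻¹ • o').card := by
    have := card_smul_inter a (ofMask 5279) (a⁻¹ • o')
    rw [smul_inv_smul, h₂] at this
    rw [inter13, this]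
  obtain ⟨g, hg, e1, e2⟩ := octad_rank (isOct_spec oct5279).2 (isOct_spec oct13).2 h1 h2
  exact ⟨a * g, M24.mul_mem ha hg, by rw [mul_smul, e1], by rw [mul_smul, e2, smul_inv_smul]⟩

theorem free2 {o o' : Finset GolayPt} (ho : o ∈ octads) (ho' : o' ∈ octads) (h₂ : (o ∩ o').card = 2)
    {k : Equiv.Perm GolayPt} (hk : k ∈ KO o) (h : k • o' = o') : k = 1 := by
  obtain ⟨a, ha, rfl, rfl⟩ := pair2_conj ho ho' h₂
  have h1 := conj_KO (M24.inv_mem ha) hk
  rw [inv_smul_smul, inv_inv] at h1
  have h2 := std_free2 h1 (by rw [mul_smul, mul_smul, h, inv_smul_smul])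
  have : k = a * (a⁻¹ * k * a) * a⁻¹ := by group
  rw [this, h2]
  group

/-- fixing six points of an octad forces fixing all eight -/
theorem KO_six {o E : Finset GolayPt} (ho : o ∈ octads) (hE : E ⊆ o) (h6 : E.card = 6) : KO E = KO o := by
  have hle : KO o ≤ KO E := by
    intro g hg
    obtain ⟨h1, h2⟩ := mem_KO.mp hg
    exact mem_KO.mpr ⟨h1, fun p hp => h2 p (hE hp)⟩
  have hc : Nat.card (KO E) = 16 := by
    rw [← (S5600.result E h6).2.1 ⟨o, ho, hE⟩]
    exact Nat.card_congr (Equiv.subtypeEquivRight (fun g => mem_KO))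
  exact (Subgroup.eq_of_le_of_card_ge hle (by rw [hc, card_KO ho])).symm

end Cfsg.Agent.H9
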