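import Cfsg.Agent.Lib_H9_Mat
import Cfsg.Agent.Lib_H9_Co0h

set_option autoImplicit false

namespace Cfsg.Agent.H9

open Cfsg
open scoped Pointwise

/-! ### orbit tables with arbitrary steps -/

def entOKg (step : ℕ → ℕ → ℕ → Bool) (L : List ℕ) (root N i : ℕ) : Bool :=
  force (getE L i) fun e =>
  force (Nat.land e 131071) fun p =>
  force (getE L p) fun e' =>
  force (Nat.land (Nat.shiftRight e 17) 7) fun g =>
  force (vecOf e) fun b =>
  force (vecOf e') fun a =>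
    bsel (Nat.beq g 7) (Nat.beq b root)
      (Nat.blt p N && Nat.blt (depOf e') (depOf e) && step g a b)

def tblOKg (step : ℕ → ℕ → ℕ → Bool) (L : List ℕ) (root N : ℕ) : Bool :=
  allB2 (fun i => entOKg step L root N i && srtOK L N i) N

theorem cert_gen {step : ℕ → ℕ → ℕ → Bool} {L : List ℕ} {root N : ℕ} {R : V → Prop} (hroot : R (dec root))
    (hstep : ∀ g a b, step g a b = true → R (dec a) → R (dec b))
    (h : tblOKg step L root N = true) : ∀ y ∈ tabF L N, R y := by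
  have h1 : ∀ i < N, entOKg step L root N i = true := by
    intro i hi
    have := allB2_spec h hi
    rw [Bool.and_eq_true] at this
    exact this.1
  have key : ∀ d, ∀ i < N, depOf (getE L i) = d → R (dec (vecOf (getE L i))) := by
    intro d
    induction d using Nat.strong_induction_on with
    | _ d ih =>
      intro i hi hd
      have h2 := h1 i hi
      simp only [entOKg, force_eq, bsel_eq] at h2
      split_ifs at h2 with hg7
      · rw [Nat.eq_of_beq_eq_true h2]; exact hroot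
      · simp only [Bool.and_eq_true] at h2
        obtain ⟨⟨hp, hdp⟩, hx⟩ := h2
        rw [Nat.blt_eq] at hp hdp
        exact hstep _ _ _ hx (ih _ (hd ▸ hdp) _ hp rfl)
  intro y hy
  obtain ⟨i, hi, rfl⟩ := Finset.mem_image.mp hy
  exact key _ i (Finset.mem_range.mp hi) rfl

theorem tab_injg {step : ℕ → ℕ → ℕ → Bool} {L : List ℕ} {root N : ℕ} (h : tblOKg step L root N = true) :
    Set.InjOn (fun i => dec (vecOf (getE L i))) (Finset.range N : Set ℕ) := by
  have h1 : ∀ i < N, srtOK L N i = true := by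
    intro i hi
    have := allB2_spec h hi
    rw [Bool.and_eq_true] at this
    exact this.2
  have hs : ∀ j, ∀ i < j, j < N → vecOf (getE L i) < vecOf (getE L j) := by
    intro j
    induction j with
    | zero => intro i hi; omega
    | succ j ih =>
      intro i hi hj
      have h2 := h1 j (by omega)
      unfold srtOK at h2
      rw [Bool.or_eq_true, Nat.beq_eq, Nat.blt_eq] at h2
      have h3 : vecOf (getE L j) < vecOf (getE L (j + 1)) := by
        rcases h2 with h2 | h2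
        · exact absurd h2 (by show j + 1 ≠ N; omega)
        · exact h2
      rcases Nat.lt_succ_iff_lt_or_eq.mp hi with h4 | rfl
      · exact (ih i h4 (by omega)).trans h3
      · exact h3
  intro i hi j hj e
  have hi' : i < N := Finset.mem_range.mp hi
  have hj' : j < N := Finset.mem_range.mp hj
  have e' := dec_inj (vecOf_getE_lt L i) (vecOf_getE_lt L j) e
  rcases lt_trichotomy i j with hl | hl | hl
  · exact absurd e' (hs j i hl hj').ne
  · exact hl
  · exact absurd e' (hs i j hl hi').ne'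

theorem tab_cardg {step : ℕ → ℕ → ℕ → Bool} {L : List ℕ} {root N : ℕ} (h : tblOKg step L root N = true) :
    (tabF L N).card = N := by
  unfold tabF
  rw [Finset.card_image_of_injOn (tab_injg h), Finset.card_range]

open scoped Classical in
theorem tab_countg {step : ℕ → ℕ → ℕ → Bool} {L : List ℕ} {root N : ℕ} (h : tblOKg step L root N = true)
    (P : V → Prop) (p : ℕ → Bool) (hp : ∀ a, p a = true ↔ P (dec a)) :
    ((tabF L N).filter P).card = sumB2 (fun i => (p (vecOf (getE L i))).toNat) N := by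
  unfold tabF
  rw [Finset.filter_image, Finset.card_image_of_injOn ((tab_injg h).mono (by
    intro i hi
    exact Finset.mem_coe.mpr (Finset.mem_filter.mp (Finset.mem_coe.mp hi)).1)), Finset.card_filter, sumB2_eq]
  apply Finset.sum_congr rfl
  intro i _
  by_cases hc : P (dec (vecOf (getE L i)))
  · rw [if_pos hc, (hp _).mpr hc]; rfl
  · rw [if_neg hc]
    have : p (vecOf (getE L i)) = false := by
      rw [← Bool.not_eq_true, hp]; exact hc
    rw [this]; rfl

/-! ### orbits of joint stabilisers -/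

def Fix3 (F1 F2 F3 : leechLattice) (γ : Co0) : Prop := γ • F1 = F1 ∧ γ • F2 = F2 ∧ γ • F3 = F3

theorem Fix3.mul {F1 F2 F3 : leechLattice} {a b : Co0} (ha : Fix3 F1 F2 F3 a) (hb : Fix3 F1 F2 F3 b) :
    Fix3 F1 F2 F3 (a * b) :=
  ⟨by rw [mul_smul, hb.1, ha.1], by rw [mul_smul, hb.2.1, ha.2.1], by rw [mul_smul, hb.2.2, ha.2.2]⟩

theorem Fix3.inv {F1 F2 F3 : leechLattice} {a : Co0} (ha : Fix3 F1 F2 F3 a) : Fix3 F1 F2 F3 a⁻¹ :=
  ⟨inv_smul_eq_iff.mpr ha.1.symm, inv_smul_eq_iff.mpr ha.2.1.symm, inv_smul_eq_iff.mpr ha.2.2.symm⟩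

def InOrb3 (F1 F2 F3 r : leechLattice) (y : V) : Prop :=
  ∃ γ : Co0, Fix3 F1 F2 F3 γ ∧ ((γ • r : leechLattice) : V) = y

theorem InOrb3.step {F1 F2 F3 r : leechLattice} {f : V → V} (hf : LMap f) (h1 : f F1 = F1) (h2 : f F2 = F2)
    (h3 : f F3 = F3) {y : V} (h : InOrb3 F1 F2 F3 r y) : InOrb3 F1 F2 F3 r (f y) := by
  obtain ⟨γ, hγ, e⟩ := h
  refine ⟨hf.toCo0 * γ, Fix3.mul ⟨?_, ?_, ?_⟩ hγ, ?_⟩
  · exact Subtype.ext ((hf.toCo0_apply F1).trans h1)
  · exact Subtype.ext ((hf.toCo0_apply F2).trans h2)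
  · exact Subtype.ext ((hf.toCo0_apply F3).trans h3)
  · rw [mul_smul, hf.toCo0_apply, e]

def hstep (gT : ℕ) (Ms : List ℕ) (g a b : ℕ) : Bool :=
  bsel (Nat.blt g 4) (force (genS gT g) fun S => force (genC gT g) fun c => monoOK S c a b)
    (Nat.blt g 7 && force (nth Ms (Nat.sub g 4)) fun M => matOK M a b)

def gensH (gT : ℕ) (Ms : List ℕ) (f1 f2 f3 : ℕ) : Bool :=
  allBelow (fun g => force (genS gT g) fun S => force (genC gT g) fun c =>
    inM24 S && isCode c && monoOK S c f1 f1 && monoOK S c f2 f2 && monoOK S c f3 f3) 4 &&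
  allBelow (fun k => force (nth Ms k) fun M =>
    isMat M && matOK M f1 f1 && matOK M f2 f2 && matOK M f3 f3) 3

theorem std_cfg {gT : ℕ} {Ms L : List ℕ} {f1 f2 f3 root N : ℕ} {F1 F2 F3 r : leechLattice}
    (h1 : (F1 : V) = dec f1) (h2 : (F2 : V) = dec f2) (h3 : (F3 : V) = dec f3) (hr : (r : V) = dec root)
    (hg : gensH gT Ms f1 f2 f3 = true) (ht : tblOKg (hstep gT Ms) L root N = true) :
    ∀ y ∈ tabF L N, InOrb3 F1 F2 F3 r y := by
  unfold gensH at hg
  rw [Bool.and_eq_true, allBelow_iff, allBelow_iff] at hg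
  refine cert_gen (R := InOrb3 F1 F2 F3 r) ?_ ?_ ht
  · rw [← hr]
    exact ⟨1, ⟨one_smul _ _, one_smul _ _, one_smul _ _⟩, by rw [one_smul]⟩
  · intro g a b hs hR
    unfold hstep at hs
    rw [bsel_eq] at hs
    split_ifs at hs with hg4
    · rw [Nat.blt_eq] at hg4
      simp only [force_eq] at hs
      have hM := hg.1 g hg4
      simp only [force_eq, Bool.and_eq_true] at hM
      obtain ⟨⟨⟨⟨m0, mc⟩, m1⟩, m2⟩, m3⟩ := hM
      have hP := inM24_isPerm m0
      rw [← monoOK_spec hP hs]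
      exact hR.step (lmap_mono (permOf_mem_M24 m0) ((ofMask_mem_CC_iff (genC_lt _ _)).mpr (isCode_iff.mp mc)))
        (by rw [h1]; exact monoOK_spec hP m1) (by rw [h2]; exact monoOK_spec hP m2)
        (by rw [h3]; exact monoOK_spec hP m3)
    · rw [Nat.blt_eq] at hg4
      rw [Bool.and_eq_true, Nat.blt_eq, force_eq] at hs
      have hlt : Nat.sub g 4 < 3 := by
        show g - 4 < 3
        omega
      have hM := hg.2 _ hlt
      simp only [force_eq, Bool.and_eq_true] at hM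
      obtain ⟨⟨⟨m0, m1⟩, m2⟩, m3⟩ := hM
      rw [← matOK_spec hs.2]
      exact hR.step (lmap_mat m0) (by rw [h1]; exact matOK_spec m1) (by rw [h2]; exact matOK_spec m2)
        (by rw [h3]; exact matOK_spec m3)

open scoped Classical in
noncomputable def S3 (F1 F2 F3 : V) (s1 s2 s3 : ℤ) : Finset V :=
  Sh.filter (fun x => dotInt F1 x = s1 ∧ dotInt F2 x = s2 ∧ dotInt F3 x = s3)

theorem mem_S3 {F1 F2 F3 : V} {s1 s2 s3 : ℤ} {x : V} : x ∈ S3 F1 F2 F3 s1 s2 s3 ↔
    (x ∈ leechLattice ∧ sqNorm x = 32) ∧ dotInt F1 x = s1 ∧ dotInt F2 x = s2 ∧ dotInt F3 x = s3 := by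
  unfold S3
  rw [Finset.mem_filter, mem_Sh]

theorem InOrb3.mem_S3 {F1 F2 F3 r : leechLattice} {s1 s2 s3 : ℤ} (hr : (r : V) ∈ S3 F1 F2 F3 s1 s2 s3) {y : V}
    (h : InOrb3 F1 F2 F3 r y) : y ∈ S3 F1 F2 F3 s1 s2 s3 := by
  obtain ⟨γ, ⟨f1, f2, f3⟩, rfl⟩ := h
  rw [H9.mem_S3] at hr ⊢
  obtain ⟨⟨_, n⟩, d1, d2, d3⟩ := hr
  refine ⟨⟨(γ • r).2, by rw [Co0_norm]; exact n⟩, ?_, ?_, ?_⟩
  · have := Co0_dot γ F1 r
    rw [f1] at this; rw [this]; exact d1
  · have := Co0_dot γ F2 r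
    rw [f2] at this; rw [this]; exact d2
  · have := Co0_dot γ F3 r
    rw [f3] at this; rw [this]; exact d3

/-- the final form: count and transitivity for every configuration in the orbit of the standard one -/
theorem cfg_main {F1 F2 F3 r : leechLattice} {s1 s2 s3 : ℤ} {N : ℕ} {T : Finset V} (hT : T.card = N)
    (horb : ∀ y ∈ T, InOrb3 F1 F2 F3 r y) (hr : (r : V) ∈ S3 F1 F2 F3 s1 s2 s3)
    (hcount : (S3 (F1 : V) F2 F3 s1 s2 s3).card = N) (g0 : Co0) :
    {x : leechLattice | sqNorm (x : V) = 32 ∧ dotInt ((g0 • F1 : leechLattice) : V) (x : V) = s1 ∧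
      dotInt ((g0 • F2 : leechLattice) : V) (x : V) = s2 ∧
      dotInt ((g0 • F3 : leechLattice) : V) (x : V) = s3}.ncard = N ∧
    ∀ x x' : leechLattice, (sqNorm (x : V) = 32 ∧ dotInt ((g0 • F1 : leechLattice) : V) (x : V) = s1 ∧
      dotInt ((g0 • F2 : leechLattice) : V) (x : V) = s2 ∧
      dotInt ((g0 • F3 : leechLattice) : V) (x : V) = s3) →
      (sqNorm (x' : V) = 32 ∧ dotInt ((g0 • F1 : leechLattice) : V) (x' : V) = s1 ∧
      dotInt ((g0 • F2 : leechLattice) : V) (x' : V) = s2 ∧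
      dotInt ((g0 • F3 : leechLattice) : V) (x' : V) = s3) →
      ∃ g : Co0, Fix3 (g0 • F1) (g0 • F2) (g0 • F3) g ∧ g • x = x' := by
  have hTS : T = S3 (F1 : V) F2 F3 s1 s2 s3 :=
    Finset.eq_of_subset_of_card_le (fun y hy => (horb y hy).mem_S3 hr) (by rw [hT, hcount])
  have back : ∀ x : leechLattice, (sqNorm (x : V) = 32 ∧ dotInt ((g0 • F1 : leechLattice) : V) (x : V) = s1 ∧
      dotInt ((g0 • F2 : leechLattice) : V) (x : V) = s2 ∧
      dotInt ((g0 • F3 : leechLattice) : V) (x : V) = s3) →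
      ((g0⁻¹ • x : leechLattice) : V) ∈ S3 (F1 : V) F2 F3 s1 s2 s3 := by
    rintro x ⟨n, d1, d2, d3⟩
    rw [mem_S3]
    refine ⟨⟨(g0⁻¹ • x).2, by rw [Co0_norm]; exact n⟩, ?_, ?_, ?_⟩
    · have := Co0_dot g0 F1 (g0⁻¹ • x)
      rw [smul_inv_smul] at this; rw [← this]; exact d1
    · have := Co0_dot g0 F2 (g0⁻¹ • x)
      rw [smul_inv_smul] at this; rw [← this]; exact d2
    · have := Co0_dot g0 F3 (g0⁻¹ • x)
      rw [smul_inv_smul] at this; rw [← this]; exact d3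
  constructor
  · rw [← hcount, ← Set.ncard_coe_finset]
    refine Set.ncard_congr (fun x _ => ((g0⁻¹ • x : leechLattice) : V)) (fun x hx => back x hx) ?_ ?_
    · intro a b _ _ e
      exact smul_left_cancel g0⁻¹ (Subtype.ext e)
    · intro b hb
      rw [Finset.mem_coe, mem_S3] at hb
      obtain ⟨⟨m, n⟩, d1, d2, d3⟩ := hb
      refine ⟨g0 • ⟨b, m⟩, ⟨by rw [Co0_norm]; exact n, by rw [Co0_dot]; exact d1, by rw [Co0_dot]; exact d2,
        by rw [Co0_dot]; exact d3⟩, ?_⟩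
      show ((g0⁻¹ • g0 • (⟨b, m⟩ : leechLattice) : leechLattice) : V) = b
      rw [inv_smul_smul]
  · intro x x' hx hx'
    obtain ⟨γ, fγ, e⟩ := horb _ (hTS ▸ back x hx)
    obtain ⟨γ', fγ', e'⟩ := horb _ (hTS ▸ back x' hx')
    have e1 : γ • r = g0⁻¹ • x := Subtype.ext e
    have e2 : γ' • r = g0⁻¹ • x' := Subtype.ext e'
    have hf := Fix3.mul fγ' fγ.inv
    refine ⟨g0 * (γ' * γ⁻¹) * g0⁻¹, ⟨?_, ?_, ?_⟩, ?_⟩
    · rw [mul_smul, mul_smul, inv_smul_smul, hf.1]
    · rw [mul_smul, mul_smul, inv_smul_smul, hf.2.1]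
    · rw [mul_smul, mul_smul, inv_smul_smul, hf.2.2]
    · rw [mul_smul, mul_smul, mul_smul, ← e1, inv_smul_smul, e2, smul_inv_smul]

/-! ### scanning for three conditions -/

def dot3 (f1 a1 b1 f2 a2 b2 f3 a3 b3 a : ℕ) : Bool :=
  dotIs f1 a1 b1 a && (dotIs f2 a2 b2 a && dotIs f3 a3 b3 a)

open scoped Classical in
theorem count_S3 {f1 a1 b1 f2 a2 b2 f3 a3 b3 a1' b1' a2' b2' a3' b3' : ℕ} {s1 s2 s3 : ℤ}
    (h1 : (a1 : ℤ) - b1 = 1536 - 8 * sN f1 - s1) (h2 : (a2 : ℤ) - b2 = 1536 - 8 * sN f2 - s2)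
    (h3 : (a3 : ℤ) - b3 = 1536 - 8 * sN f3 - s3)
    (h1' : (a1' : ℤ) - b1' = 1536 - 8 * sN f1 - (-s1)) (h2' : (a2' : ℤ) - b2' = 1536 - 8 * sN f2 - (-s2))
    (h3' : (a3' : ℤ) - b3' = 1536 - 8 * sN f3 - (-s3)) :
    (S3 (dec f1) (dec f2) (dec f3) s1 s2 s3).card =
      scan (dot3 f1 a1 b1 f2 a2 b2 f3 a3 b3) (dot3 f1 a1' b1' f2 a2' b2' f3 a3' b3') := by
  unfold S3
  have key := count_Sh (fun x => dotInt (dec f1) x = s1 ∧ dotInt (dec f2) x = s2 ∧ dotInt (dec f3) x = s3)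
    (fun x => dotInt (dec f1) x = -s1 ∧ dotInt (dec f2) x = -s2 ∧ dotInt (dec f3) x = -s3)
    (by
      intro x
      simp only [dotInt_neg_right]
      constructor
      · rintro ⟨h1, h2, h3⟩; exact ⟨by omega, by omega, by omega⟩
      · rintro ⟨h1, h2, h3⟩; exact ⟨by omega, by omega, by omega⟩)
    (dot3 f1 a1 b1 f2 a2 b2 f3 a3 b3) (dot3 f1 a1' b1' f2 a2' b2' f3 a3' b3')
    (by
      intro a
      unfold dot3
      rw [Bool.and_eq_true, Bool.and_eq_true, dotIs_spec h1, dotIs_spec h2, dotIs_spec h3])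
    (by
      intro a
      unfold dot3
      rw [Bool.and_eq_true, Bool.and_eq_true, dotIs_spec h1', dotIs_spec h2', dotIs_spec h3'])
  convert key

open scoped Classical in
theorem count_subS3 {step : ℕ → ℕ → ℕ → Bool} {L : List ℕ} {root N : ℕ} (h : tblOKg step L root N = true)
    {F1 F2 : V} {s1 s2 : ℤ} (hT : tabF L N = S3 F1 F2 F2 s1 s2 s2) {f3 a3 b3 : ℕ} {s3 : ℤ}
    (h3 : (a3 : ℤ) - b3 = 1536 - 8 * sN f3 - s3) :
    (S3 F1 F2 (dec f3) s1 s2 s3).card = sumB2 (fun i => (dotIs f3 a3 b3 (vecOf (getE L i))).toNat) N := by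
  rw [← tab_countg h (fun x => dotInt (dec f3) x = s3) _ (dotIs_spec h3), hT]
  apply congrArg Finset.card
  ext x
  simp only [Finset.mem_filter, mem_S3]
  tauto

end Cfsg.Agent.H9
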