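import Cfsg.Agent.Lib_H9_Mono
import Cfsg.Agent.Lib_H9_Co0j

set_option autoImplicit false

namespace Cfsg.Agent.H9

open Cfsg
open scoped Pointwise

theorem card_orbit_mul {G α : Type*} [Group G] [MulAction G α] (b : α) :
    Nat.card G = Nat.card (MulAction.orbit G b) * Nat.card (MulAction.stabilizer G b) := by
  rw [Subgroup.card_eq_card_quotient_mul_card_subgroup (MulAction.stabilizer G b),
    Nat.card_congr (MulAction.orbitEquivQuotientStabilizer G b)]

theorem sqNorm_single (i : GolayPt) (s : ℤ) : sqNorm (Pi.single i s : V) = s * s := by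
  rw [← dotInt_self, dot_single, Pi.single_eq_same]

theorem single_inj {i i' : GolayPt} {a a' : ℤ} (ha : a ≠ 0) (h : (Pi.single i a : V) = Pi.single i' a') :
    i = i' ∧ a = a' := by
  have h1 := congrFun h i
  rw [Pi.single_eq_same] at h1
  have hi : i = i' := by
    by_contra hne
    rw [Pi.single_eq_of_ne hne] at h1
    exact ha h1
  subst hi
  rw [Pi.single_eq_same] at h1
  exact ⟨rfl, h1⟩

theorem ncard_stdCross : stdCross.ncard = 48 := by
  have : stdCross = (fun p : GolayPt × Bool => (Pi.single p.1 (if p.2 = true then 8 else -8) : V)) '' Set.univ := by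
    ext y
    constructor
    · rintro ⟨i, s, hs | hs, rfl⟩
      · exact ⟨(i, true), trivial, by simp [hs]⟩
      · exact ⟨(i, false), trivial, by simp [hs]⟩
    · rintro ⟨⟨i, b⟩, _, rfl⟩
      cases b
      · exact ⟨i, -8, Or.inr rfl, by simp⟩
      · exact ⟨i, 8, Or.inl rfl, by simp⟩
  rw [this, Set.ncard_image_of_injective, Set.ncard_univ, Nat.card_prod, natCard_GolayPt, Nat.card_eq_fintype_card,
    Fintype.card_bool]
  rintro ⟨i, b⟩ ⟨i', b'⟩ e
  obtain ⟨rfl, h⟩ := single_inj (by split_ifs <;> norm_num) e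
  cases b <;> cases b' <;> simp at h ⊢

def x0L : leechLattice := e8L (pt 0)

theorem norm_x0L : sqNorm (x0L : V) = 64 := by
  show sqNorm (Pi.single (pt 0) 8 : V) = 64
  rw [sqNorm_single]; norm_num

theorem std_eq : stdCross =
    {y : V | y ∈ leechLattice ∧ sqNorm y = 64 ∧ ∃ z ∈ leechLattice, (x0L : V) - y = 2 • z} := by
  have hc := leech_cross_main.1 (x0L : V) x0L.2 norm_x0L
  apply Set.eq_of_subset_of_ncard_le
  · rintro y ⟨i, s, hs, rfl⟩
    refine ⟨single_mem i hs, by rw [sqNorm_single]; rcases hs with rfl | rfl <;> norm_num, ?_⟩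
    refine ⟨Pi.single (pt 0) 4 - Pi.single i (s / 2), ?_, ?_⟩
    · rw [mem_leech_iff_pat]
      refine Or.inl ⟨∅, empty_mem_CC, fun j => ?_, ?_⟩
      · simp only [ind, Finset.notMem_empty, if_false, Pi.sub_apply, Pi.single_apply]
        rcases hs with rfl | rfl <;> split_ifs <;> norm_num
      · simp only [Pi.sub_apply, Finset.sum_sub_distrib, Finset.sum_pi_single', Finset.mem_univ, if_true]
        rcases hs with rfl | rfl <;> norm_num
    · ext j
      show (Pi.single (pt 0) 8 : V) j - (Pi.single i s : V) j = _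
      simp only [Pi.smul_apply, Pi.sub_apply, Pi.single_apply, nsmul_eq_mul, Nat.cast_ofNat]
      rcases hs with rfl | rfl <;> split_ifs <;> norm_num
  · rw [hc, ncard_stdCross]
  · exact Set.finite_of_ncard_ne_zero (by rw [hc]; norm_num)

theorem pres_of_fix {g : Co0} (hg : g • x0L = x0L) : PresCross g := by
  intro v hv
  rw [std_eq] at hv ⊢
  obtain ⟨_, n, z, hz, e⟩ := hv
  refine ⟨(g • v).2, by rw [Co0_norm]; exact n, ((g • (⟨z, hz⟩ : leechLattice) : leechLattice) : V),
    (g • (⟨z, hz⟩ : leechLattice)).2, ?_⟩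
  have e' : x0L - v = (⟨z, hz⟩ : leechLattice) + ⟨z, hz⟩ := by
    apply Subtype.ext
    show (x0L : V) - (v : V) = z + z
    rw [e, two_smul]
  have h2 := congrArg (fun t : leechLattice => ((g • t : leechLattice) : V)) e'
  simp only [Co0_sub, Co0_add, hg] at h2
  rw [two_smul]
  exact h2

theorem card_M23 : Nat.card {σ : ↥M24 // (σ : Equiv.Perm GolayPt) (pt 0) = pt 0} = 10200960 := by
  have h := card_orbit_mul (G := ↥M24) (pt 0)
  have : MulAction.IsPretransitive ↥M24 GolayPt := M24_pretransitive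
  rw [MulAction.orbit_eq_univ, card_M24, Nat.card_coe_set_eq, Set.ncard_univ, natCard_GolayPt] at h
  have e : Nat.card {σ : ↥M24 // (σ : Equiv.Perm GolayPt) (pt 0) = pt 0} =
      Nat.card (MulAction.stabilizer ↥M24 (pt 0)) := rfl
  rw [e]
  omega

theorem card_C0 : Nat.card {c : ↥CC // pt 0 ∉ (c : Finset GolayPt)} = 2048 := by
  have h := ncard_CC_filter (fun m => !(m.testBit 0))
  have h2 : countBelow (fun i => !((enc i).testBit 0)) 4096 = 2048 := by decide +kernel
  rw [h2] at h
  rw [← h, ← Nat.card_coe_set_eq]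
  apply Nat.card_congr
  refine ⟨fun c => ⟨c.1.1, c.1.2, ?_⟩, fun s => ⟨⟨s.1, s.2.1⟩, ?_⟩, fun _ => rfl, fun _ => rfl⟩
  · have := testBit_toMask c.1.1 (pt 0)
    rw [idx_pt (by norm_num)] at this
    rw [this]
    simpa using c.2
  · have := testBit_toMask s.1 (pt 0)
    rw [idx_pt (by norm_num)] at this
    have h3 := s.2.2
    rw [this] at h3
    simpa using h3

theorem card_stab_x0 : Nat.card (MulAction.stabilizer Co0 x0L) = 10200960 * 2048 := by
  rw [← card_M23, ← card_C0, ← Nat.card_prod]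
  apply Nat.card_congr
  have e1 : {a : ↥M24 × ↥CC // (a.1 : Equiv.Perm GolayPt) (pt 0) = pt 0 ∧ pt 0 ∉ (a.2 : Finset GolayPt)} ≃
      {b : {g : Co0 // PresCross g} // (b : Co0) • x0L = x0L} := by
    refine Equiv.subtypeEquiv (Equiv.ofBijective monoMap monoMap_bij) ?_
    rintro ⟨⟨σ, hσ⟩, ⟨c, hc⟩⟩
    show (σ (pt 0) = pt 0 ∧ pt 0 ∉ c) ↔ (lmap_mono hσ hc).toCo0 • x0L = x0L
    rw [Subtype.ext_iff, LMap.toCo0_apply]
    show _ ↔ signedPerm σ c (Pi.single (pt 0) 8) = Pi.single (pt 0) 8
    rw [signedPerm_single]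
    constructor
    · rintro ⟨h1, h2⟩
      rw [h1, if_neg h2]
    · intro h
      obtain ⟨h1, h2⟩ := single_inj (by split_ifs <;> norm_num) h
      refine ⟨h1, ?_⟩
      rw [h1] at h2
      intro hm
      rw [if_pos hm] at h2
      norm_num at h2
  have e2 : {b : {g : Co0 // PresCross g} // (b : Co0) • x0L = x0L} ≃ {g : Co0 // g • x0L = x0L} :=
    Equiv.subtypeSubtypeEquivSubtype (fun hx => pres_of_fix hx)
  exact (e2.symm.trans e1.symm).trans
    (Equiv.subtypeProdEquivProd (p := fun σ : ↥M24 => (σ : Equiv.Perm GolayPt) (pt 0) = pt 0)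
      (q := fun c : ↥CC => pt 0 ∉ (c : Finset GolayPt)))

theorem card_Co0 : Nat.card Co0 = 8315553613086720000 := by
  rw [card_orbit_mul (G := Co0) x0L, card_stab_x0]
  have h : MulAction.orbit Co0 x0L = {v : leechLattice | sqNorm (v : V) = 64} := by
    ext v
    constructor
    · rintro ⟨g, rfl⟩
      show sqNorm ((g • x0L : leechLattice) : V) = 64
      rw [Co0_norm, norm_x0L]
    · intro hv
      obtain ⟨g, hg⟩ := trans44 x0L v norm_x0L hv
      exact ⟨g, hg⟩
  rw [h, Nat.card_coe_set_eq, ← Set.ncard_image_of_injective _ Subtype.val_injective]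
  have h2 : Subtype.val '' {v : leechLattice | sqNorm (v : V) = 64} =
      {x : V | x ∈ leechLattice ∧ sqNorm x = 64} := by
    ext x
    constructor
    · rintro ⟨v, hv, rfl⟩; exact ⟨v.2, hv⟩
    · rintro ⟨h1, h2⟩; exact ⟨⟨x, h1⟩, h2, rfl⟩
  rw [h2, S0396.result]

end Cfsg.Agent.H9
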