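import Cfsg.Agent.Lib_H9_Cfg

set_option autoImplicit false

namespace Cfsg.Agent.H9

open Cfsg
open scoped Pointwise

theorem rank3 {F1 F2 X R1 R2 : leechLattice} {s1 s2 : ℤ} {n1 n2 : ℕ} {T1 T2 : Finset V}
    (hT1 : T1.card = n1) (ho1 : ∀ y ∈ T1, InOrb3 F1 F2 X R1 y) (hr1 : (R1 : V) ∈ S3 F1 F2 X s1 s2 8)
    (hc1 : (S3 (F1 : V) F2 X s1 s2 8).card = n1)
    (hT2 : T2.card = n2) (ho2 : ∀ y ∈ T2, InOrb3 F1 F2 X R2 y) (hr2 : (R2 : V) ∈ S3 F1 F2 X s1 s2 16)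
    (hc2 : (S3 (F1 : V) F2 X s1 s2 16).card = n2)
    (hdots : ∀ y ∈ S3 (F1 : V) F2 F2 s1 s2 s2, dotInt (X : V) y = 8 ∨ dotInt (X : V) y = 16 ∨ dotInt (X : V) y = 32)
    (hX : sqNorm (X : V) = 32) (u v x : leechLattice)
    (hg : ∃ g0 : Co0, g0 • F1 = u ∧ g0 • F2 = v ∧ g0 • X = x) :
    {y : leechLattice | sqNorm (y : V) = 32 ∧ dotInt (u : V) (y : V) = s1 ∧ dotInt (v : V) (y : V) = s2 ∧
      dotInt (x : V) (y : V) = 8}.ncard = n1 ∧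
    {y : leechLattice | sqNorm (y : V) = 32 ∧ dotInt (u : V) (y : V) = s1 ∧ dotInt (v : V) (y : V) = s2 ∧
      dotInt (x : V) (y : V) = 16}.ncard = n2 ∧
    (∀ y y' : leechLattice, sqNorm (y : V) = 32 → dotInt (u : V) (y : V) = s1 → dotInt (v : V) (y : V) = s2 →
      sqNorm (y' : V) = 32 → dotInt (u : V) (y' : V) = s1 → dotInt (v : V) (y' : V) = s2 →
      y ≠ x → y' ≠ x → dotInt (x : V) (y : V) = dotInt (x : V) (y' : V) →
      ∃ g : Co0, g • u = u ∧ g • v = v ∧ g • x = x ∧ g • y = y') ∧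
    (∀ y : leechLattice, sqNorm (y : V) = 32 → dotInt (u : V) (y : V) = s1 → dotInt (v : V) (y : V) = s2 →
      y ≠ x → dotInt (x : V) (y : V) = 8 ∨ dotInt (x : V) (y : V) = 16) := by
  obtain ⟨g0, rfl, rfl, rfl⟩ := hg
  obtain ⟨c1, t1⟩ := cfg_main hT1 ho1 hr1 hc1 g0
  obtain ⟨c2, t2⟩ := cfg_main hT2 ho2 hr2 hc2 g0
  have dots : ∀ y : leechLattice, sqNorm (y : V) = 32 → dotInt ((g0 • F1 : leechLattice) : V) (y : V) = s1 →
      dotInt ((g0 • F2 : leechLattice) : V) (y : V) = s2 → y ≠ g0 • X →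
      dotInt ((g0 • X : leechLattice) : V) (y : V) = 8 ∨ dotInt ((g0 • X : leechLattice) : V) (y : V) = 16 := by
    intro y n d1 d2 hne
    have hm : ((g0⁻¹ • y : leechLattice) : V) ∈ S3 (F1 : V) F2 F2 s1 s2 s2 := by
      rw [mem_S3]
      have e1 := Co0_dot g0 F1 (g0⁻¹ • y)
      have e2 := Co0_dot g0 F2 (g0⁻¹ • y)
      rw [smul_inv_smul] at e1 e2
      exact ⟨⟨(g0⁻¹ • y).2, by rw [Co0_norm]; exact n⟩, by rw [← e1]; exact d1, by rw [← e2]; exact d2,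
        by rw [← e2]; exact d2⟩
    have e3 := Co0_dot g0 X (g0⁻¹ • y)
    rw [smul_inv_smul] at e3
    rcases hdots _ hm with h | h | h
    · left; rw [e3]; exact h
    · right; rw [e3]; exact h
    · exfalso
      apply hne
      have h0 := sqNorm_sub ((g0 • X : leechLattice) : V) (y : V)
      rw [Co0_norm, hX, n, e3, h] at h0
      exact (Subtype.ext (sub_eq_zero.mp (sqNorm_eq_zero (h0.trans (by norm_num))))).symm
  refine ⟨c1, c2, ?_, dots⟩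
  intro y y' n d1 d2 n' d1' d2' hne hne' hd
  rcases dots y n d1 d2 hne with h | h
  · obtain ⟨g, hf, e⟩ := t1 y y' ⟨n, d1, d2, h⟩ ⟨n', d1', d2', by rw [← hd]; exact h⟩
    exact ⟨g, hf.1, hf.2.1, hf.2.2, e⟩
  · obtain ⟨g, hf, e⟩ := t2 y y' ⟨n, d1, d2, h⟩ ⟨n', d1', d2', by rw [← hd]; exact h⟩
    exact ⟨g, hf.1, hf.2.1, hf.2.2, e⟩

end Cfsg.Agent.H9
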