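import Cfsg.Agent.Lib_H9_SimpG

set_option autoImplicit false

namespace Cfsg.Agent.H9

open scoped Pointwise

theorem card_mul_dvd_of_inf_bot {G : Type*} [Group G] [Finite G] (N M : Subgroup G) (hN : N.Normal)
    (h : N ⊓ M = ⊥) : Nat.card N * Nat.card M ∣ Nat.card G := by
  have hinj : Function.Injective ((QuotientGroup.mk' N).comp M.subtype) := by
    rw [injective_iff_map_eq_one]
    intro a ha
    have h1 : (a : G) ∈ N := by
      rw [← QuotientGroup.eq_one_iff]
      exact ha
    have h2 : (a : G) ∈ N ⊓ M := ⟨h1, a.2⟩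
    rw [h, Subgroup.mem_bot] at h2
    exact Subtype.ext h2
  have h1 := Subgroup.card_dvd_of_injective _ hinj
  rw [Subgroup.card_eq_card_quotient_mul_card_subgroup N, mul_comm]
  exact Nat.mul_dvd_mul_right h1 _

theorem no_normal_of_simple_dvd {G : Type*} [Group G] [Finite G] (M N : Subgroup G) (hM : IsSimpleGroup M)
    (hN : N.Normal) (h1 : Nat.card N < Nat.card M) (h2 : ¬ Nat.card N * Nat.card M ∣ Nat.card G) : False := by
  have hn' : (N.subgroupOf M).Normal := hN.subgroupOf M
  rcases hM.eq_bot_or_eq_top_of_normal _ hn' with h | h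
  · rw [Subgroup.subgroupOf_eq_bot] at h
    exact h2 (card_mul_dvd_of_inf_bot N M hN (disjoint_iff.mp h))
  · rw [Subgroup.subgroupOf_eq_top] at h
    have := Nat.le_of_dvd Nat.card_pos (Subgroup.card_dvd_of_le h)
    omega

/-- a subgroup containing a point stabiliser is maximal when its orbits on the orbit of the point are the colour
classes and no proper union of them has size dividing the degree -/
theorem coatom_of_rankS {G X ι : Type*} [DecidableEq ι] [Group G] [Finite G] [MulAction G X] (x : X)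
    (S : Subgroup G) (hS : MulAction.stabilizer G x ≤ S) (c : X → ι)
    (C : Finset ι) (n : ι → ℕ)
    (hc : ∀ y ∈ MulAction.orbit G x, c y ∈ C)
    (hn : ∀ j ∈ C, {y | y ∈ MulAction.orbit G x ∧ c y = j}.ncard = n j)
    (htr : ∀ y ∈ MulAction.orbit G x, ∀ z ∈ MulAction.orbit G x, c y = c z → ∃ h ∈ S, h • y = z)
    (harith : ∀ J ∈ C.powerset, c x ∈ J → (∑ j ∈ J, n j) ∣ (∑ j ∈ C, n j) → J = {c x} ∨ J = C)
    (hne : S ≠ ⊤) : IsCoatom S := by
  classical
  have hfin : (MulAction.orbit G x).Finite := Set.finite_range _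
  refine ⟨hne, ?_⟩
  intro K hK
  have hle : MulAction.stabilizer G x ≤ K := hS.trans hK.le
  set Δ : Set X := MulAction.orbit K x with hΔ
  have hΔΩ : ∀ y ∈ Δ, y ∈ MulAction.orbit G x := by
    rintro y ⟨k, rfl⟩
    exact ⟨k.1, rfl⟩
  set J : Finset ι := C.filter (fun j => ∃ y ∈ Δ, c y = j) with hJ
  have hΔeq : Δ = {y | y ∈ MulAction.orbit G x ∧ c y ∈ J} := by
    ext y
    constructor
    · intro hy
      exact ⟨hΔΩ y hy, Finset.mem_filter.mpr ⟨hc y (hΔΩ y hy), y, hy, rfl⟩⟩
    · rintro ⟨hy, hyJ⟩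
      obtain ⟨_, z, hz, hzy⟩ := Finset.mem_filter.mp hyJ
      obtain ⟨h, hh, hhz⟩ := htr z (hΔΩ z hz) y hy hzy
      obtain ⟨k, rfl⟩ := hz
      refine ⟨⟨h, hK.le hh⟩ * k, ?_⟩
      rw [← hhz]
      exact mul_smul _ _ _
  have hcardΔ : Δ.ncard = ∑ j ∈ J, n j := by
    rw [hΔeq, ncard_fiber_sumI _ hfin]
    exact Finset.sum_congr rfl (fun j hj => hn j (Finset.mem_filter.mp hj).1)
  have hcardΩ : (MulAction.orbit G x).ncard = ∑ j ∈ C, n j := by
    have : MulAction.orbit G x = {y | y ∈ MulAction.orbit G x ∧ c y ∈ C} := by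
      ext y; exact ⟨fun hy => ⟨hy, hc y hy⟩, fun hy => hy.1⟩
    rw [this, ncard_fiber_sumI _ hfin]
    exact Finset.sum_congr rfl (fun j hj => by
      have := hn j hj
      rw [← this])
  have hK1 : Nat.card K = Δ.ncard * Nat.card (MulAction.stabilizer G x) := by
    have := card_inf_stab K x
    rwa [inf_eq_right.mpr hle] at this
  have hG1 : Nat.card G = (MulAction.orbit G x).ncard * Nat.card (MulAction.stabilizer G x) := by
    rw [← MulAction.index_stabilizer, Subgroup.index_mul_card]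
  have hpos : 0 < Nat.card (MulAction.stabilizer G x) := Nat.card_pos
  have hdvd : Δ.ncard ∣ (MulAction.orbit G x).ncard := by
    have := Subgroup.card_subgroup_dvd_card K
    rw [hK1, hG1] at this
    exact Nat.dvd_of_mul_dvd_mul_right hpos this
  have hxΔ : x ∈ Δ := MulAction.mem_orbit_self x
  have hxJ : c x ∈ J := Finset.mem_filter.mpr ⟨hc x (MulAction.mem_orbit_self x), x, hxΔ, rfl⟩
  rcases harith J (Finset.mem_powerset.mpr (Finset.filter_subset _ _)) hxJ
    (by rw [← hcardΔ, ← hcardΩ]; exact hdvd) with h1 | h1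
  · exfalso
    apply hK.not_ge
    intro k hk
    have hkx : k • x ∈ Δ := ⟨⟨k, hk⟩, rfl⟩
    rw [hΔeq] at hkx
    have := hkx.2
    rw [h1, Finset.mem_singleton] at this
    obtain ⟨s, hs, e⟩ := htr _ hkx.1 x (MulAction.mem_orbit_self x) this
    have h2 : s * k ∈ MulAction.stabilizer G x := by
      rw [MulAction.mem_stabilizer_iff, mul_smul]; exact e
    have h3 := S.mul_mem (S.inv_mem hs) (hS h2)
    rwa [inv_mul_cancel_left] at h3
  · apply Subgroup.eq_top_of_card_eq
    rw [hK1, hG1, hcardΔ, hcardΩ, h1]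

/-- simplicity of a quotient -/
theorem simple_quotient {G : Type*} [Group G] (Z : Subgroup G) [Z.Normal] (hZ : Z ≠ ⊤)
    (h : ∀ N : Subgroup G, N.Normal → Z ≤ N → N = Z ∨ N = ⊤) : IsSimpleGroup (G ⧸ Z) := by
  have hsurj := QuotientGroup.mk'_surjective Z
  have : Nontrivial (G ⧸ Z) := by
    by_contra hnt
    rw [not_nontrivial_iff_subsingleton] at hnt
    apply hZ
    rw [eq_top_iff]
    intro g _
    rw [← QuotientGroup.eq_one_iff]
    exact Subsingleton.elim _ _
  refine ⟨fun Nb hNb => ?_⟩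
  have hle : Z ≤ Nb.comap (QuotientGroup.mk' Z) := by
    intro z hz
    rw [Subgroup.mem_comap]
    have : QuotientGroup.mk' Z z = 1 := (QuotientGroup.eq_one_iff z).mpr hz
    rw [this]; exact Nb.one_mem
  rcases h (Nb.comap (QuotientGroup.mk' Z)) (hNb.comap _) hle with e | e
  · left
    rw [← Subgroup.map_comap_eq_self_of_surjective hsurj Nb, e, Subgroup.map_eq_bot_iff, QuotientGroup.ker_mk']
  · right
    rw [← Subgroup.map_comap_eq_self_of_surjective hsurj Nb, e, Subgroup.map_top_of_surjective _ hsurj]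

end Cfsg.Agent.H9
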