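import Mathlib
import Cfsg.Prelude.Def_SolvableStructure
import Cfsg.Agent.Lib_helper1_Basic
import Cfsg.Agent.Lib_helper1_Hall
import Cfsg.Agent.Lib_helper1_Cores
import Cfsg.Agent.Lib_helper1_Wielandt
import Cfsg.Agent.Lib_helper1_FrobNPC

set_option autoImplicit false

namespace Cfsg.Agent.H1

open Cfsg Subgroup
open scoped Pointwise

universe u

section
variable {G : Type*} [Group G]

theorem carter_conj {C : Subgroup G} (hC : IsCarterSubgroup C) (g : G) :
    IsCarterSubgroup (MulAut.conj g • C) := by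
  refine ⟨isNilpotent_conj_smul g hC.1, ?_⟩
  ext x
  rw [← conj_smul_eq_iff_mem_normalizer, mem_conj_smul]
  have h1 : g⁻¹ * x * g ∈ C ↔ g⁻¹ * x * g ∈ normalizer (C : Set G) := by rw [hC.2]
  rw [h1, ← conj_smul_eq_iff_mem_normalizer, map_mul, map_mul, mul_smul, mul_smul, map_inv,
    inv_smul_eq_iff]

theorem carter_subgroupOf {C L : Subgroup G} (hC : IsCarterSubgroup C) (h : C ≤ L) :
    IsCarterSubgroup (C.subgroupOf L) := by
  refine ⟨?_, ?_⟩
  · haveI := hC.1
    exact Group.nilpotent_of_mulEquiv (subgroupOfEquivOfLe h).symm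
  · rw [← subgroupOf_normalizer_eq h, hC.2]

theorem conj_of_subgroupOf {C D L : Subgroup G} (hC : C ≤ L) (hD : D ≤ L) (x : L)
    (h : MulAut.conj x • C.subgroupOf L = D.subgroupOf L) : MulAut.conj (x : G) • C = D := by
  have := congrArg (Subgroup.map L.subtype) h
  rw [map_conj_smul, subgroupOf_map_subtype, subgroupOf_map_subtype, inf_eq_left.2 hC,
    inf_eq_left.2 hD] at this
  exact this

theorem eq_of_carter_le_nilpotent {C M : Subgroup G} (hC : IsCarterSubgroup C) (h : C ≤ M)
    (hM : Group.IsNilpotent M) : C = M := by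
  by_contra hne
  have h1 := lt_inf_normalizer_of_nilpotent hM (lt_of_le_of_ne h hne)
  rw [hC.2, inf_eq_right.2 h] at h1
  exact lt_irrefl _ h1

theorem carter_normalizer_le {C L : Subgroup G} (hC : IsCarterSubgroup C) (h : C ≤ L)
    (hconj : ∀ C D : Subgroup L, IsCarterSubgroup C → IsCarterSubgroup D →
      ∃ x : L, MulAut.conj x • C = D) : normalizer (L : Set G) ≤ L := by
  intro g hg
  have h1 : MulAut.conj g • C ≤ L := by
    have h2 : MulAut.conj g • L = L := conj_smul_eq_iff_mem_normalizer.2 hg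
    rw [← h2]
    exact Subgroup.pointwise_smul_le_pointwise_smul_iff.2 h
  obtain ⟨x, hx⟩ := hconj _ _ (carter_subgroupOf hC h) (carter_subgroupOf (carter_conj hC g) h1)
  have h3 := conj_of_subgroupOf h h1 x hx
  have h4 : (x : G)⁻¹ * g ∈ normalizer (C : Set G) := by
    rw [← conj_smul_eq_iff_mem_normalizer, map_mul, mul_smul, map_inv, inv_smul_eq_iff]
    exact h3.symm
  rw [hC.2] at h4
  have : g = x * ((x : G)⁻¹ * g) := by group
  rw [this]
  exact mul_mem x.2 (h h4)

end

section
variable {G : Type*} [Group G] [Finite G] {p : ℕ} [Fact p.Prime]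

theorem hall_of_nilpotent (p : ℕ) [Fact p.Prime] {C : Subgroup G} (hC : Group.IsNilpotent C) :
    ∃ Q : Subgroup G, Q ≤ C ∧ C ≤ normalizer (Q : Set G) ∧ (Nat.card Q).Coprime p ∧
      ∃ k : ℕ, Q.relIndex C = p ^ k := by
  let P : Sylow p C := default
  haveI hPn : (P : Subgroup C).Normal := inferInstance
  obtain ⟨Q', hQ'⟩ := exists_right_complement'_of_coprime P.card_coprime_index
  obtain ⟨k, hk⟩ := IsPGroup.iff_card.1 P.2
  have hQ'card : Nat.card Q' = (P : Subgroup C).index := hQ'.symm.index_eq_card.symm ▸ rfl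
  have hQ'idx : Q'.index = p ^ k := by rw [hQ'.index_eq_card, hk]
  have hcop : (Nat.card Q').Coprime p := by
    rw [hQ'card]
    exact ((Nat.Prime.coprime_iff_not_dvd Fact.out).2 P.not_dvd_index).symm
  haveI hQ'n : Q'.Normal := hall_normal_of_nilpotent Q' (by
    rw [hQ'idx]; exact Nat.Coprime.pow_right k hcop)
  have hle : Q'.map C.subtype ≤ C := map_subtype_le Q'
  have hsub : (Q'.map C.subtype).subgroupOf C = Q' :=
    comap_map_eq_self_of_injective C.subtype_injective Q'
  refine ⟨Q'.map C.subtype, hle, ?_, ?_, k, ?_⟩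
  · rw [← normal_subgroupOf_iff_le_normalizer hle, hsub]
    exact hQ'n
  · rw [card_map_of_injective C.subtype_injective]
    exact hcop
  · rw [Subgroup.relIndex, hsub, hQ'idx]

theorem carter_structure (N : Subgroup G) [N.Normal] (hN : IsPGroup p N)
    (hnil : Group.IsNilpotent (G ⧸ N)) (Q : Subgroup G) (hQ : (Nat.card Q).Coprime p) {k : ℕ}
    (hk : Q.index = p ^ k) : IsCarterSubgroup (normalizer (Q : Set G)) := by
  have hp : p.Prime := Fact.out
  set M := normalizer (Q : Set G) with hM
  have hQM : Q ≤ M := le_normalizer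
  let S : Sylow p (G ⧸ N) := default
  haveI hSn : (S : Subgroup (G ⧸ N)).Normal := inferInstance
  set P : Subgroup G := (S : Subgroup (G ⧸ N)).comap (QuotientGroup.mk' N) with hP
  haveI hPn : P.Normal := inferInstance
  have hPp : IsPGroup p P := by
    rintro ⟨x, hx⟩
    obtain ⟨a, ha⟩ := S.2 ⟨QuotientGroup.mk' N x, hx⟩
    have h1 : x ^ p ^ a ∈ N := by
      rw [← QuotientGroup.eq_one_iff, QuotientGroup.mk_pow]
      simpa using congrArg Subtype.val ha
    obtain ⟨b, hb⟩ := hN ⟨_, h1⟩
    refine ⟨a + b, ?_⟩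
    apply Subtype.ext
    have h2 : (x ^ p ^ a) ^ p ^ b = 1 := by simpa using congrArg Subtype.val hb
    simpa [pow_add, pow_mul] using h2
  have hPidx : ¬ p ∣ P.index := by
    rw [hP, index_comap_of_surjective _ (QuotientGroup.mk'_surjective N)]
    exact S.not_dvd_index
  have hQP : Q ⊔ P = ⊤ := by
    rw [← index_eq_one]
    have h1 : (Q ⊔ P).index ∣ p ^ k := hk ▸ index_dvd_of_le le_sup_left
    have h2 : (Q ⊔ P).index ∣ P.index := index_dvd_of_le le_sup_right
    exact Nat.eq_one_of_dvd_coprimes
      (Nat.Coprime.pow_left k ((Nat.Prime.coprime_iff_not_dvd hp).2 hPidx)) h1 h2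
  have hQnil : Group.IsNilpotent Q := by
    refine isNilpotent_of_injective ((QuotientGroup.mk' N).comp Q.subtype) ?_ hnil
    rw [injective_iff_map_eq_one]
    intro x hx
    have h1 : (x : G) ∈ N := (QuotientGroup.eq_one_iff _).1 hx
    obtain ⟨a, ha⟩ := IsPGroup.iff_card.1 hN
    have h2 : Disjoint Q N := disjoint_of_coprime_natCard (by
      rw [ha]; exact Nat.Coprime.pow_right a hQ)
    have h3 : (x : G) ∈ Q ⊓ N := ⟨x.2, h1⟩
    rw [h2.eq_bot] at h3
    exact Subtype.ext h3
  refine ⟨?_, ?_⟩
  · -- nilpotent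
    haveI h1 : (Q.subgroupOf M).Normal := (normal_subgroupOf_iff_le_normalizer hQM).2 le_rfl
    haveI h2 : (P.subgroupOf M).Normal := inferInstance
    have h3 : Group.IsNilpotent (Q.subgroupOf M) := by
      haveI := hQnil
      exact Group.nilpotent_of_mulEquiv (subgroupOfEquivOfLe hQM).symm
    have h4 : Group.IsNilpotent (P.subgroupOf M) := (hPp.comap_subtype).isNilpotent
    have h5 : fittingSubgroup ↥M = ⊤ := by
      rw [eq_top_iff]
      intro m _
      have hm : (m : G) ∈ Q ⊔ P := by rw [hQP]; trivial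
      obtain ⟨q, hq, r, hr, hqr⟩ := mem_sup_of_normal_right.1 hm
      have hrM : r ∈ M := by
        have : r = q⁻¹ * m := by rw [← hqr]; group
        rw [this]
        exact mul_mem (inv_mem (hQM hq)) m.2
      have h6 : m = (⟨q, hQM hq⟩ : M) * ⟨r, hrM⟩ := Subtype.ext hqr.symm
      rw [h6]
      exact mul_mem (le_fitting h1 h3 (mem_subgroupOf.2 hq)) (le_fitting h2 h4 (mem_subgroupOf.2 hr))
    have h7 := fitting_nilpotent (G := ↥M)
    rw [h5] at h7
    exact Group.nilpotent_of_mulEquiv (topEquiv (G := ↥M))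
  · apply le_antisymm _ le_normalizer
    intro g hg
    have h1 : MulAut.conj g • Q ≤ M := by
      have h2 : MulAut.conj g • M = M := conj_smul_eq_iff_mem_normalizer.2 hg
      rw [← h2]
      exact Subgroup.pointwise_smul_le_pointwise_smul_iff.2 hQM
    have h3 : (Nat.card (MulAut.conj g • Q : Subgroup G)).Coprime (Q.relIndex M) := by
      rw [card_conj_smul]
      have h4 : Q.relIndex M ∣ p ^ k := by
        rw [← hk, ← relIndex_mul_index hQM]
        exact Dvd.intro _ rfl
      exact Nat.Coprime.coprime_dvd_right h4 (Nat.Coprime.pow_right k hQ)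
    have h5 := le_of_le_normalizer_of_coprime_relIndex hQM h1 le_rfl h3
    have h6 : MulAut.conj g • Q = Q := by
      apply Subgroup.eq_of_le_of_card_ge h5
      rw [card_conj_smul]
    exact conj_smul_eq_iff_mem_normalizer.1 h6

theorem carter_cover {G' : Type*} [Group G'] (f : G →* G') (hf : Function.Surjective f)
    (hnil : Group.IsNilpotent G') {C : Subgroup G} (hC : IsCarterSubgroup C)
    (hconj : ∀ L : Subgroup G, L ≠ ⊤ → ∀ C D : Subgroup L, IsCarterSubgroup C →
      IsCarterSubgroup D → ∃ x : L, MulAut.conj x • C = D) : C ⊔ f.ker = ⊤ := by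
  by_contra hne
  set L := C ⊔ f.ker with hL
  have h1 := carter_normalizer_le hC (le_sup_left : C ≤ L) (hconj L hne)
  have hcm : (L.map f).comap f = L := by
    rw [comap_map_eq, hL, sup_assoc, sup_idem]
  have h2 : L.map f < ⊤ := by
    rw [lt_top_iff_ne_top]
    intro h
    apply hne
    rw [← hcm, h, comap_top]
  have h3 := Group.normalizerCondition_of_isNilpotent (G := G') _ h2
  obtain ⟨y', hy', hy''⟩ := SetLike.exists_of_lt h3
  obtain ⟨y, rfl⟩ := hf y'
  apply hy''
  have h4 : y ∈ (normalizer ((L.map f : Subgroup G') : Set G')).comap f := hy'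
  rw [comap_normalizer_eq_of_surjective _ hf, hcm] at h4
  exact mem_map_of_mem f (h1 h4)

end

theorem carter_aux : ∀ (n : ℕ) (G : Type u) [Group G] [Finite G] [Group.IsSolvable G],
    Nat.card G = n →
    (∃ C : Subgroup G, IsCarterSubgroup C) ∧
    ∀ C D : Subgroup G, IsCarterSubgroup C → IsCarterSubgroup D →
      ∃ g : G, MulAut.conj g • C = D := by
  intro n
  induction n using Nat.strong_induction_on with
  | _ n ih =>
  intro G _ _ _ hn
  rcases subsingleton_or_nontrivial G with hs | hnt
  · refine ⟨⟨⊤, inferInstance, normalizer_eq_top _⟩, ?_⟩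
    intro C D _ _
    exact ⟨1, Subsingleton.elim _ _⟩
  obtain ⟨p, hp, N, hNc, hNp, hNne, -⟩ := exists_normal_pgroup_of_solvable G
  haveI : Fact p.Prime := ⟨hp⟩
  haveI hNn : N.Normal := inferInstance
  have hcardsub : ∀ L : Subgroup G, L ≠ ⊤ → Nat.card L < n := by
    intro L hL
    rw [← hn, ← Nat.card_congr (topEquiv (G := G)).toEquiv]
    exact card_lt_card_of_lt (lt_top_iff_ne_top.2 hL)
  have ihsub := fun (L : Subgroup G) (hL : L ≠ ⊤) => ih _ (hcardsub L hL) ↥L rfl
  have hcardq : Nat.card (G ⧸ N) < n := by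
    have h1 := card_quotient_mul_card N
    rw [hn] at h1
    have h2 : 1 < Nat.card N := by
      rw [Finite.one_lt_card_iff_nontrivial, nontrivial_iff_ne_bot]; exact hNne
    have h3 : 0 < Nat.card (G ⧸ N) := Nat.card_pos
    nlinarith
  have ihq := ih _ hcardq (G ⧸ N) rfl
  set f := QuotientGroup.mk' N with hf
  have hfs : Function.Surjective f := QuotientGroup.mk'_surjective N
  have hker : f.ker = N := QuotientGroup.ker_mk' N
  have himg : ∀ C : Subgroup G, IsCarterSubgroup C → IsCarterSubgroup (C.map f) := by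
    intro C hC
    refine ⟨?_, ?_⟩
    · haveI := hC.1
      exact Group.nilpotent_of_surjective (f.subgroupMap C) (f.subgroupMap_surjective C)
    · apply le_antisymm _ le_normalizer
      intro x' hx'
      obtain ⟨x, rfl⟩ := hfs x'
      have hcomap : (C.map f).comap f = C ⊔ N := by rw [comap_map_eq, hker]
      have hmapL : (C ⊔ N).map f = C.map f := by
        rw [← hcomap, map_comap_eq_self_of_surjective hfs]
      have hx : x ∈ normalizer ((C ⊔ N : Subgroup G) : Set G) := by
        rw [← hcomap, ← comap_normalizer_eq_of_surjective _ hfs]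
        exact hx'
      by_cases hL : C ⊔ N = ⊤
      · rw [← hmapL, hL, map_top_of_surjective _ hfs]
        trivial
      · rw [← hmapL]
        exact mem_map_of_mem f (carter_normalizer_le hC le_sup_left (ihsub _ hL).2 hx)
  have hindex : ∀ C : Subgroup G, C ⊔ N = ⊤ → ∃ j : ℕ, C.index = p ^ j := by
    intro C hC
    have h1 := card_sup_mul_card_inf C N
    obtain ⟨a, ha⟩ := IsPGroup.iff_card.1 hNp
    rw [hC, Nat.card_congr (topEquiv (G := G)).toEquiv, ← C.index_mul_card, ha] at h1
    have h2 : C.index * Nat.card (C ⊓ N : Subgroup G) = p ^ a := by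
      have h3 : 0 < Nat.card C := Nat.card_pos
      apply Nat.eq_of_mul_eq_mul_left h3
      rw [← h1]; ring
    obtain ⟨j, -, hj⟩ := (Nat.dvd_prime_pow hp).1 (Dvd.intro _ h2)
    exact ⟨j, hj⟩
  constructor
  · -- existence
    obtain ⟨Kb, hKb⟩ := ihq.1
    set K := Kb.comap f with hK
    have hmapK : K.map f = Kb := map_comap_eq_self_of_surjective hfs Kb
    have hNK : N ≤ K := by
      rw [← hker]; exact ker_le_comap f Kb
    by_cases hKt : K = ⊤
    · have hKbt : Kb = ⊤ := by rw [← hmapK, hKt, map_top_of_surjective _ hfs]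
      have hnil : Group.IsNilpotent (G ⧸ N) := by
        have h1 := hKb.1
        rw [hKbt] at h1
        exact Group.nilpotent_of_mulEquiv (topEquiv (G := G ⧸ N))
      obtain ⟨k, m, hm, hkm⟩ := Nat.exists_eq_pow_mul_and_not_dvd (Nat.card_pos (α := G)).ne' p
        hp.ne_one
      have hcop : m.Coprime (p ^ k) :=
        Nat.Coprime.pow_right k ((Nat.Prime.coprime_iff_not_dvd hp).2 hm).symm
      obtain ⟨Q, hQ, -⟩ := (hall_aux _ G m (p ^ k) rfl (by rw [hkm, mul_comm]) hcop).1 ⊥ (by simp)
      have hidx : Q.index = p ^ k := by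
        have h1 := Q.index_mul_card
        rw [hQ, hkm] at h1
        exact Nat.eq_of_mul_eq_mul_right (Nat.pos_of_ne_zero (by rintro rfl; simp at hm)) h1
      exact ⟨_, carter_structure N hNp hnil Q
        (by rw [hQ]; exact ((Nat.Prime.coprime_iff_not_dvd hp).2 hm).symm) hidx⟩
    · obtain ⟨C', hC'⟩ := (ihsub K hKt).1
      have hnilK : Group.IsNilpotent ↥(K.map f) := by rw [hmapK]; exact hKb.1
      have hcov := carter_cover (f.subgroupMap K) (f.subgroupMap_surjective K) hnilK hC'
        (fun L _ => (ih _ (lt_of_le_of_lt (Subgroup.card_le_card_group L) (hcardsub K hKt)) ↥L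
          rfl).2)
      set C := C'.map K.subtype with hC
      have hCK : C ≤ K := map_subtype_le C'
      have hkerK : (f.subgroupMap K).ker = N.subgroupOf K := by
        ext x
        rw [MonoidHom.mem_ker, mem_subgroupOf]
        constructor
        · intro h; exact (QuotientGroup.eq_one_iff _).1 (congrArg Subtype.val h)
        · intro h; exact Subtype.ext ((QuotientGroup.eq_one_iff _).2 h)
      have hCN : C ⊔ N = K := by
        have := congrArg (Subgroup.map K.subtype) hcov
        rw [Subgroup.map_sup, hkerK, subgroupOf_map_subtype, inf_eq_left.2 hNK, ← MonoidHom.range_eq_map,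
          range_subtype] at this
        exact this
      have hsub : C.subgroupOf K = C' := comap_map_eq_self_of_injective K.subtype_injective C'
      refine ⟨C, ?_, ?_⟩
      · haveI := hC'.1
        exact Group.nilpotent_of_mulEquiv (C'.equivMapOfInjective K.subtype K.subtype_injective)
      · apply le_antisymm _ le_normalizer
        intro g hg
        have h1 : g ∈ normalizer (K : Set G) := by
          rw [← conj_smul_eq_iff_mem_normalizer, ← hCN, Subgroup.smul_sup,
            conj_smul_eq_iff_mem_normalizer.2 hg, Normal.conj_smul_eq_self]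
        have h2 : f g ∈ normalizer (Kb : Set (G ⧸ N)) := by
          rw [hK, ← comap_normalizer_eq_of_surjective _ hfs] at h1
          exact h1
        rw [hKb.2] at h2
        have h3 : (⟨g, h2⟩ : K) ∈ normalizer (C' : Set K) := by
          rw [← hsub, ← subgroupOf_normalizer_eq hCK]
          exact hg
        rw [hC'.2] at h3
        exact ⟨⟨g, h2⟩, h3, rfl⟩
  · -- conjugacy
    intro C D hC hD
    obtain ⟨g', hg'⟩ := ihq.2 _ _ (himg C hC) (himg D hD)
    obtain ⟨g, rfl⟩ := hfs g'
    set C1 := MulAut.conj g • C with hC1def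
    have hC1 : IsCarterSubgroup C1 := carter_conj hC g
    have hmap : C1.map f = D.map f := by rw [hC1def, map_conj_smul]; exact hg'
    have hsup : C1 ⊔ N = D ⊔ N := by
      have := congrArg (Subgroup.comap f) hmap
      rwa [comap_map_eq, comap_map_eq, hker] at this
    suffices h : ∃ x : G, MulAut.conj x • C1 = D by
      obtain ⟨x, hx⟩ := h
      exact ⟨x * g, by rw [map_mul, mul_smul]; exact hx⟩
    by_cases hL : D ⊔ N = ⊤
    · have hDt : D.map f = ⊤ := by
        have hcomap : (D.map f).comap f = D ⊔ N := by rw [comap_map_eq, hker]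
        rw [← map_comap_eq_self_of_surjective hfs (D.map f), hcomap, hL,
          map_top_of_surjective _ hfs]
      have hnil : Group.IsNilpotent (G ⧸ N) := by
        have h1 := (himg D hD).1
        rw [hDt] at h1
        exact Group.nilpotent_of_mulEquiv (topEquiv (G := G ⧸ N))
      obtain ⟨Q1, hQ1C, hC1Q, hQ1cop, k1, hk1⟩ := hall_of_nilpotent p hC1.1
      obtain ⟨Q2, hQ2D, hDQ, hQ2cop, k2, hk2⟩ := hall_of_nilpotent p hD.1
      obtain ⟨j1, hj1⟩ := hindex C1 (hsup.trans hL)
      obtain ⟨j2, hj2⟩ := hindex D hL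
      have hi1 : Q1.index = p ^ (k1 + j1) := by
        rw [← relIndex_mul_index hQ1C, hk1, hj1, pow_add]
      have hi2 : Q2.index = p ^ (k2 + j2) := by
        rw [← relIndex_mul_index hQ2D, hk2, hj2, pow_add]
      have hcard : Nat.card Q1 = Nat.card Q2 := by
        have e1 := Q1.card_mul_index
        have e2 := Q2.card_mul_index
        rw [hi1] at e1; rw [hi2] at e2
        apply Nat.dvd_antisymm
        · exact (Nat.Coprime.pow_right _ hQ1cop).dvd_of_dvd_mul_right
            (by rw [e2, ← e1]; exact Dvd.intro _ rfl)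
        · exact (Nat.Coprime.pow_right _ hQ2cop).dvd_of_dvd_mul_right
            (by rw [e1, ← e2]; exact Dvd.intro _ rfl)
      obtain ⟨x, hx⟩ := (hall_aux _ G (Nat.card Q1) (p ^ (k1 + j1)) rfl
        (by rw [← hi1, Q1.card_mul_index]) (Nat.Coprime.pow_right _ hQ1cop)).2 Q1 Q2 rfl
        hcard.symm
      have hM := carter_structure N hNp hnil Q2 hQ2cop hi2
      have h1 : MulAut.conj x • C1 ≤ normalizer (Q2 : Set G) := by
        intro y hy
        rw [mem_conj_smul] at hy
        have := hC1Q hy
        rw [← conj_smul_eq_iff_mem_normalizer, map_mul, map_mul, mul_smul, mul_smul, map_inv,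
          inv_smul_eq_iff, hx] at this
        exact conj_smul_eq_iff_mem_normalizer.1 this
      exact ⟨x, (eq_of_carter_le_nilpotent (carter_conj hC1 x) h1 hM.1).trans
        (eq_of_carter_le_nilpotent hD hDQ hM.1).symm⟩
    · have hC1L : C1 ≤ D ⊔ N := hsup ▸ le_sup_left
      obtain ⟨x, hx⟩ := (ihsub _ hL).2 _ _ (carter_subgroupOf hC1 hC1L)
        (carter_subgroupOf hD le_sup_left)
      exact ⟨x, conj_of_subgroupOf hC1L le_sup_left x hx⟩

end Cfsg.Agent.H1
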