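import Mathlib
import Cfsg.Prelude.Def_Sporadic_a

set_option autoImplicit false

namespace Cfsg.Agent.H1

open Cfsg Finset

variable {α : Type*} [Fintype α] [DecidableEq α]

/-- support of a binary word. -/
def bsupp (v : α → ZMod 2) : Finset α := univ.filter fun i => v i ≠ 0

/-- indicator word of a set. -/
def bword (s : Finset α) : α → ZMod 2 := fun i => if i ∈ s then 1 else 0

theorem mem_bsupp {v : α → ZMod 2} {i : α} : i ∈ bsupp v ↔ v i ≠ 0 := by simp [bsupp]

theorem zmod2_ne_zero {a : ZMod 2} : a ≠ 0 ↔ a = 1 := by revert a; decide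

theorem hammingNorm_eq_card_bsupp (v : α → ZMod 2) : hammingNorm v = (bsupp v).card := by
  unfold hammingNorm bsupp
  congr 1

theorem bsupp_bword (s : Finset α) : bsupp (bword s) = s := by
  ext i; simp [bsupp, bword]

theorem bword_bsupp (v : α → ZMod 2) : bword (bsupp v) = v := by
  funext i
  by_cases h : v i = 0
  · simp [bword, bsupp, h]
  · have h1 := zmod2_ne_zero.1 h
    simp [bword, bsupp, h1]

theorem bsupp_injective : Function.Injective (bsupp : (α → ZMod 2) → Finset α) := by
  intro v w h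
  rw [← bword_bsupp v, ← bword_bsupp w, h]

theorem bsupp_sub (v w : α → ZMod 2) : bsupp (v - w) = (bsupp v \ bsupp w) ∪ (bsupp w \ bsupp v) := by
  ext i
  simp only [mem_bsupp, mem_union, mem_sdiff, Pi.sub_apply, not_not]
  generalize v i = a
  generalize w i = b
  revert a b
  decide

theorem bsupp_add (v w : α → ZMod 2) : bsupp (v + w) = (bsupp v \ bsupp w) ∪ (bsupp w \ bsupp v) := by
  ext i
  simp only [mem_bsupp, mem_union, mem_sdiff, Pi.add_apply, not_not]
  generalize v i = a
  generalize w i = b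
  revert a b
  decide

theorem card_symm (s t : Finset α) :
    ((s \ t) ∪ (t \ s)).card + 2 * (s ∩ t).card = s.card + t.card := by
  have hd : Disjoint (s \ t) (t \ s) := by
    rw [Finset.disjoint_left]
    intro x hx hx'
    exact (mem_sdiff.1 hx').2 (mem_sdiff.1 hx).1
  rw [card_union_of_disjoint hd]
  have h1 := card_sdiff_add_card_inter s t
  have h2 := card_sdiff_add_card_inter t s
  rw [inter_comm t s] at h2
  omega

theorem norm_sub (v w : α → ZMod 2) :
    hammingNorm (v - w) + 2 * (bsupp v ∩ bsupp w).card = hammingNorm v + hammingNorm w := by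
  rw [hammingNorm_eq_card_bsupp, hammingNorm_eq_card_bsupp, hammingNorm_eq_card_bsupp, bsupp_sub,
    card_symm]

theorem norm_add (v w : α → ZMod 2) :
    hammingNorm (v + w) + 2 * (bsupp v ∩ bsupp w).card = hammingNorm v + hammingNorm w := by
  rw [hammingNorm_eq_card_bsupp, hammingNorm_eq_card_bsupp, hammingNorm_eq_card_bsupp, bsupp_add,
    card_symm]

theorem card_weight (j : ℕ) :
    (univ.filter fun v : α → ZMod 2 => hammingNorm v = j).card = (Fintype.card α).choose j := by
  rw [← card_univ, ← card_powersetCard]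
  apply card_bij (fun v _ => bsupp v)
  · intro v hv
    rw [mem_powersetCard]
    refine ⟨subset_univ _, ?_⟩
    rw [← hammingNorm_eq_card_bsupp]
    exact (mem_filter.1 hv).2
  · intro v _ w _ h
    exact bsupp_injective h
  · intro s hs
    refine ⟨bword s, ?_, bsupp_bword s⟩
    rw [mem_filter]
    refine ⟨mem_univ _, ?_⟩
    rw [hammingNorm_eq_card_bsupp, bsupp_bword]
    exact (mem_powersetCard.1 hs).2

open scoped Classical in
/-- words of weight at most four in the coset of `w`. -/
noncomputable def leaders (C : Submodule (ZMod 2) (α → ZMod 2)) (w : α → ZMod 2) :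
    Finset (α → ZMod 2) := univ.filter fun u => u - w ∈ C ∧ hammingNorm u ≤ 4

theorem mem_leaders {C : Submodule (ZMod 2) (α → ZMod 2)} {w u : α → ZMod 2} :
    u ∈ leaders C w ↔ u - w ∈ C ∧ hammingNorm u ≤ 4 := by
  simp [leaders]

section
variable {C : Submodule (ZMod 2) (α → ZMod 2)}
  (hmin : ∀ w ∈ C, w ≠ 0 → 8 ≤ hammingNorm w)
include hmin

theorem leaders_pair {w u u' : α → ZMod 2} (hu : u ∈ leaders C w) (hu' : u' ∈ leaders C w)
    (hne : u ≠ u') : hammingNorm u = 4 ∧ hammingNorm u' = 4 ∧ Disjoint (bsupp u) (bsupp u') := by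
  rw [mem_leaders] at hu hu'
  have h1 : u - u' ∈ C := by
    have := C.sub_mem hu.1 hu'.1
    simpa using this
  have h2 := hmin _ h1 (sub_ne_zero.2 hne)
  have h3 := norm_sub u u'
  have h4 : (bsupp u ∩ bsupp u').card = 0 := by omega
  refine ⟨by omega, by omega, ?_⟩
  rw [Finset.disjoint_iff_inter_eq_empty]
  exact card_eq_zero.1 h4

/-- the weight function used in the count. -/
def lwt (u : α → ZMod 2) : ℕ := if hammingNorm u ≤ 3 then 6 else 1

theorem leaders_sum_le (hα : Fintype.card α = 24) (w : α → ZMod 2) :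
    ∑ u ∈ leaders C w, lwt u ≤ 6 := by
  by_cases h : ∃ u ∈ leaders C w, hammingNorm u ≤ 3
  · obtain ⟨u, hu, h3⟩ := h
    have : leaders C w = {u} := by
      ext u'
      rw [mem_singleton]
      constructor
      · intro hu'
        by_contra hne
        have := (leaders_pair hmin hu hu' (fun h => hne h.symm)).1
        omega
      · rintro rfl; exact hu
    rw [this, sum_singleton, lwt, if_pos h3]
  · push Not at h
    have h1 : ∑ u ∈ leaders C w, lwt u = (leaders C w).card := by
      rw [card_eq_sum_ones]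
      apply sum_congr rfl
      intro u hu
      rw [lwt, if_neg (by have := h u hu; omega)]
    rw [h1]
    have h2 : ((leaders C w).biUnion bsupp).card = ∑ u ∈ leaders C w, (bsupp u).card := by
      apply card_biUnion
      intro u hu u' hu' hne
      exact (leaders_pair hmin hu hu' hne).2.2
    have h3 : ∑ u ∈ leaders C w, (bsupp u).card = ∑ u ∈ leaders C w, 4 := by
      apply sum_congr rfl
      intro u hu
      rw [← hammingNorm_eq_card_bsupp]
      have := h u hu
      have := (mem_leaders.1 hu).2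
      omega
    rw [h3, sum_const, smul_eq_mul] at h2
    have h4 : ((leaders C w).biUnion bsupp).card ≤ 24 := by
      rw [← hα]; exact card_le_univ _
    omega

end

theorem sum_lwt (hα : Fintype.card α = 24) :
    ∑ u ∈ univ.filter (fun u : α → ZMod 2 => hammingNorm u ≤ 4), lwt u = 24576 := by
  have key : ∀ j, ∑ u ∈ univ.filter (fun u : α → ZMod 2 => hammingNorm u = j), lwt u
      = (Nat.choose 24 j) * (if j ≤ 3 then 6 else 1) := by
    intro j
    rw [← hα, ← card_weight j, card_eq_sum_ones, sum_mul]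
    apply sum_congr rfl
    intro u hu
    rw [lwt, (mem_filter.1 hu).2, one_mul]
  have hsplit : univ.filter (fun u : α → ZMod 2 => hammingNorm u ≤ 4)
      = (range 5).biUnion (fun j => univ.filter (fun u : α → ZMod 2 => hammingNorm u = j)) := by
    ext u
    simp only [mem_filter, mem_univ, true_and, mem_biUnion, mem_range]
    constructor
    · intro h; exact ⟨_, by omega, rfl⟩
    · rintro ⟨j, hj, rfl⟩; omega
  rw [hsplit, sum_biUnion]
  · simp only [key]
    decide
  · intro i _ j _ hij
    simp only [Function.onFun]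
    rw [Finset.disjoint_left]
    intro u hu hu'
    exact hij ((mem_filter.1 hu).2.symm.trans (mem_filter.1 hu').2)

open scoped Classical in
theorem card_translate (C : Submodule (ZMod 2) (α → ZMod 2)) (u : α → ZMod 2) :
    (univ.filter fun w : α → ZMod 2 => u - w ∈ C).card = Nat.card C := by
  rw [Nat.card_eq_fintype_card, ← Fintype.card_coe]
  apply Fintype.card_congr
  exact
    { toFun := fun w => ⟨u - w.1, (mem_filter.1 w.2).2⟩
      invFun := fun c => ⟨u - c.1, by simp [c.2]⟩
      left_inv := fun w => by simp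
      right_inv := fun c => by simp }

theorem leaders_total (C : Submodule (ZMod 2) (α → ZMod 2)) (hα : Fintype.card α = 24) :
    ∑ w : α → ZMod 2, ∑ u ∈ leaders C w, lwt u = Nat.card C * 24576 := by
  classical
  have h1 : ∀ w : α → ZMod 2, ∑ u ∈ leaders C w, lwt u
      = ∑ u ∈ univ.filter (fun u : α → ZMod 2 => hammingNorm u ≤ 4),
          if u - w ∈ C then lwt u else 0 := by
    intro w
    rw [← sum_filter]
    apply sum_congr _ (fun _ _ => rfl)
    ext u
    simp only [mem_leaders, mem_filter, mem_univ, true_and]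
    tauto
  simp only [h1]
  rw [sum_comm]
  have h2 : ∀ u : α → ZMod 2, ∑ w : α → ZMod 2, (if u - w ∈ C then lwt u else 0)
      = Nat.card C * lwt u := by
    intro u
    rw [← sum_filter, sum_const, smul_eq_mul, ← card_translate C u]
  simp only [h2]
  rw [← mul_sum, sum_lwt hα]

theorem leaders_sum_eq {C : Submodule (ZMod 2) (α → ZMod 2)}
    (hmin : ∀ w ∈ C, w ≠ 0 → 8 ≤ hammingNorm w) (hα : Fintype.card α = 24)
    (hC : Nat.card C = 4096) (w : α → ZMod 2) : ∑ u ∈ leaders C w, lwt u = 6 := by
  have h1 := leaders_total C hα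
  have h2 : ∑ _w : α → ZMod 2, 6 = Nat.card C * 24576 := by
    rw [sum_const, card_univ, Fintype.card_fun, hα, ZMod.card, hC]
    norm_num
  have h3 := (sum_eq_sum_iff_of_le (s := univ) (f := fun w => ∑ u ∈ leaders C w, lwt u)
    (g := fun _ => 6) (fun w _ => leaders_sum_le hmin hα w)).1 (h1.trans h2.symm)
  exact h3 w (mem_univ _)

/-- the coset leader theorem for `(24, 2^12, 8)` linear codes. -/
theorem leaders_main {C : Submodule (ZMod 2) (α → ZMod 2)}
    (hmin : ∀ w ∈ C, w ≠ 0 → 8 ≤ hammingNorm w) (hα : Fintype.card α = 24)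
    (hC : Nat.card C = 4096) (w : α → ZMod 2) :
    (∃ u, leaders C w = {u} ∧ hammingNorm u ≤ 3) ∨
    ((leaders C w).card = 6 ∧ (∀ u ∈ leaders C w, hammingNorm u = 4) ∧
      (∀ u ∈ leaders C w, ∀ u' ∈ leaders C w, u ≠ u' → Disjoint (bsupp u) (bsupp u')) ∧
      ∀ a : α, ∃ u ∈ leaders C w, u a ≠ 0) := by
  have hsum := leaders_sum_eq hmin hα hC w
  by_cases h : ∃ u ∈ leaders C w, hammingNorm u ≤ 3
  · left
    obtain ⟨u, hu, h3⟩ := h
    refine ⟨u, ?_, h3⟩
    ext u'
    rw [mem_singleton]
    constructor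
    · intro hu'
      by_contra hne
      have := (leaders_pair hmin hu hu' (fun h => hne h.symm)).1
      omega
    · rintro rfl; exact hu
  · right
    push Not at h
    have h1 : ∑ u ∈ leaders C w, lwt u = (leaders C w).card := by
      rw [card_eq_sum_ones]
      apply sum_congr rfl
      intro u hu
      rw [lwt, if_neg (by have := h u hu; omega)]
    have h4 : ∀ u ∈ leaders C w, hammingNorm u = 4 := by
      intro u hu
      have := h u hu
      have := (mem_leaders.1 hu).2
      omega
    have hd : ∀ u ∈ leaders C w, ∀ u' ∈ leaders C w, u ≠ u' → Disjoint (bsupp u) (bsupp u') :=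
      fun u hu u' hu' hne => (leaders_pair hmin hu hu' hne).2.2
    have hc : (leaders C w).card = 6 := by omega
    refine ⟨hc, h4, hd, ?_⟩
    have h2 : ((leaders C w).biUnion bsupp).card = ∑ u ∈ leaders C w, (bsupp u).card :=
      card_biUnion hd
    have h3 : ∑ u ∈ leaders C w, (bsupp u).card = ∑ u ∈ leaders C w, 4 := by
      apply sum_congr rfl
      intro u hu
      rw [← hammingNorm_eq_card_bsupp]
      exact h4 u hu
    rw [h3, sum_const, smul_eq_mul, hc] at h2
    have h5 : (leaders C w).biUnion bsupp = univ := by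
      apply eq_univ_of_card
      rw [h2, hα]
    intro a
    have := mem_univ a
    rw [← h5, mem_biUnion] at this
    obtain ⟨u, hu, ha⟩ := this
    exact ⟨u, hu, mem_bsupp.1 ha⟩

theorem card_of_finrank {C : Submodule (ZMod 2) (α → ZMod 2)}
    (hdim : Module.finrank (ZMod 2) C = 12) : Nat.card C = 4096 := by
  rw [Module.natCard_eq_pow_finrank (K := ZMod 2), hdim, Nat.card_zmod]
  norm_num

theorem support₂_eq_bsupp (w : α → ZMod 2) : support₂ w = bsupp w := by
  ext i; simp [support₂, bsupp]

section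
variable {C : Submodule (ZMod 2) (α → ZMod 2)}
  (hmin : ∀ w ∈ C, w ≠ 0 → 8 ≤ hammingNorm w)
include hmin

theorem exists_octad (hα : Fintype.card α = 24) (hC : Nat.card C = 4096) (T : Finset α)
    (hT : T.card = 5) : ∃ c ∈ C, hammingNorm c = 8 ∧ T ⊆ bsupp c := by
  have hne : T.Nonempty := by
    rw [← card_pos]; omega
  obtain ⟨a, ha⟩ := hne
  set S := T.erase a with hS
  have hScard : S.card = 4 := by
    rw [hS, card_erase_of_mem ha, hT]
  set w := bword S with hw
  have hwS : bsupp w = S := bsupp_bword S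
  have hw4 : hammingNorm w = 4 := by rw [hammingNorm_eq_card_bsupp, hwS, hScard]
  have hwl : w ∈ leaders C w := by
    rw [mem_leaders]
    refine ⟨by simp, by omega⟩
  rcases leaders_main hmin hα hC w with ⟨u, hu, h3⟩ | ⟨_, h4, hd, hcov⟩
  · rw [hu, mem_singleton] at hwl
    rw [← hwl] at h3
    omega
  · obtain ⟨u, hu, hua⟩ := hcov a
    have haS : a ∉ bsupp w := by
      rw [hwS, hS]; exact notMem_erase a T
    have hne : u ≠ w := by
      rintro rfl
      exact haS (mem_bsupp.2 hua)
    have hdis := hd u hu w hwl hne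
    refine ⟨u - w, (mem_leaders.1 hu).1, ?_, ?_⟩
    · have h1 := norm_sub u w
      rw [Finset.disjoint_iff_inter_eq_empty.1 hdis, h4 u hu, hw4] at h1
      simpa using h1
    · intro x hx
      rw [bsupp_sub, mem_union, mem_sdiff, mem_sdiff]
      by_cases hxa : x = a
      · left
        rw [hxa]
        exact ⟨mem_bsupp.2 hua, haS⟩
      · right
        have hxS : x ∈ bsupp w := by
          rw [hwS, hS]; exact mem_erase.2 ⟨hxa, hx⟩
        exact ⟨hxS, fun h => (Finset.disjoint_left.1 hdis) h hxS⟩

theorem octad_unique {T : Finset α} (hT : T.card = 5) {c c' : α → ZMod 2} (hc : c ∈ C)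
    (hc' : c' ∈ C) (h8 : hammingNorm c = 8) (h8' : hammingNorm c' = 8) (hTc : T ⊆ bsupp c)
    (hTc' : T ⊆ bsupp c') : c = c' := by
  by_contra hne
  have h1 := hmin _ (C.sub_mem hc hc') (sub_ne_zero.2 hne)
  have h2 := norm_sub c c'
  have h3 : T.card ≤ (bsupp c ∩ bsupp c').card := card_le_card (subset_inter hTc hTc')
  omega

theorem steiner_of_code (hα : Fintype.card α = 24) (hC : Nat.card C = 4096) :
    IsSteinerSystem 5 8 (wordsOfWeight (C : Set (α → ZMod 2)) 8) := by
  refine ⟨fun b hb => hb.2, ?_⟩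
  intro T hT
  obtain ⟨c, hc, h8, hTc⟩ := exists_octad hmin hα hC T hT
  refine ⟨bsupp c, ⟨⟨⟨c, hc, support₂_eq_bsupp c⟩, ?_⟩, hTc⟩, ?_⟩
  · rw [← hammingNorm_eq_card_bsupp]; exact h8
  · rintro b ⟨⟨⟨c', hc', rfl⟩, hb8⟩, hTb⟩
    rw [support₂_eq_bsupp] at hb8 hTb ⊢
    rw [← hammingNorm_eq_card_bsupp] at hb8
    rw [octad_unique hmin hT hc' hc hb8 h8 hTb hTc]

theorem mem_span_octads (hα : Fintype.card α = 24) (hC : Nat.card C = 4096) :
    ∀ n : ℕ, ∀ c ∈ C, hammingNorm c ≤ n →
      c ∈ Submodule.span (ZMod 2) {w : α → ZMod 2 | w ∈ C ∧ hammingNorm w = 8} := by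
  intro n
  induction n with
  | zero =>
    intro c _ h0
    have : c = 0 := by
      have : hammingNorm c = 0 := by omega
      exact hammingNorm_eq_zero.1 this
    rw [this]; exact Submodule.zero_mem _
  | succ n ih =>
    intro c hc hn
    by_cases h0 : c = 0
    · rw [h0]; exact Submodule.zero_mem _
    have h8 := hmin c hc h0
    obtain ⟨T, hTc, hT⟩ := exists_subset_card_eq (s := bsupp c) (n := 5)
      (by rw [← hammingNorm_eq_card_bsupp]; omega)
    obtain ⟨o, ho, ho8, hTo⟩ := exists_octad hmin hα hC T hT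
    have h2 := norm_sub c o
    have h3 : T.card ≤ (bsupp c ∩ bsupp o).card := card_le_card (subset_inter hTc hTo)
    have h4 := ih (c - o) (C.sub_mem hc ho) (by omega)
    have h5 : o ∈ Submodule.span (ZMod 2) {w : α → ZMod 2 | w ∈ C ∧ hammingNorm w = 8} :=
      Submodule.subset_span ⟨ho, ho8⟩
    have := Submodule.add_mem _ h4 h5
    simpa using this

theorem span_octads (hα : Fintype.card α = 24) (hC : Nat.card C = 4096) :
    Submodule.span (ZMod 2) {w : α → ZMod 2 | w ∈ C ∧ hammingNorm w = 8} = C := by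
  apply le_antisymm
  · rw [Submodule.span_le]
    intro w hw
    exact hw.1
  · intro c hc
    exact mem_span_octads hmin hα hC _ c hc le_rfl

end

theorem even_inter_of_orth {v w : α → ZMod 2} (h : ∑ i, v i * w i = 0) :
    Even (bsupp v ∩ bsupp w).card := by
  have h1 : ∑ i, v i * w i = ((bsupp v ∩ bsupp w).card : ZMod 2) := by
    rw [card_eq_sum_ones, Nat.cast_sum, ← sum_filter_add_sum_filter_not univ
      (fun i => i ∈ bsupp v ∩ bsupp w)]
    have hz : ∑ i ∈ univ.filter (fun i => ¬ i ∈ bsupp v ∩ bsupp w), v i * w i = 0 := by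
      apply sum_eq_zero
      intro i hi
      have := (mem_filter.1 hi).2
      rw [mem_inter, mem_bsupp, mem_bsupp] at this
      by_cases hv : v i = 0
      · rw [hv, zero_mul]
      · have hw : w i = 0 := by
          by_contra hw
          exact this ⟨hv, hw⟩
        rw [hw, mul_zero]
    rw [hz, add_zero]
    have he : univ.filter (fun i => i ∈ bsupp v ∩ bsupp w) = bsupp v ∩ bsupp w := by
      ext i; simp
    rw [he]
    apply sum_congr rfl
    intro i hi
    rw [mem_inter, mem_bsupp, mem_bsupp] at hi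
    rw [zmod2_ne_zero.1 hi.1, zmod2_ne_zero.1 hi.2]
    simp
  rw [h1] at h
  rw [even_iff_two_dvd]
  exact (ZMod.natCast_eq_zero_iff _ 2).1 h

theorem doubly_even {C : Submodule (ZMod 2) (α → ZMod 2)}
    (hmin : ∀ w ∈ C, w ≠ 0 → 8 ≤ hammingNorm w) (hα : Fintype.card α = 24)
    (hC : Nat.card C = 4096) (horth : ∀ v ∈ C, ∀ w ∈ C, ∑ i, v i * w i = 0) :
    ∀ w ∈ C, 4 ∣ hammingNorm w := by
  intro w hw
  have hw' : w ∈ Submodule.span (ZMod 2) {w : α → ZMod 2 | w ∈ C ∧ hammingNorm w = 8} := by
    rw [span_octads hmin hα hC]; exact hw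
  clear hw
  have key : w ∈ C ∧ 4 ∣ hammingNorm w := by
    induction hw' using Submodule.span_induction with
    | mem x hx => exact ⟨hx.1, by rw [hx.2]; norm_num⟩
    | zero => exact ⟨C.zero_mem, by simp⟩
    | add x y _ _ hx hy =>
      refine ⟨C.add_mem hx.1 hy.1, ?_⟩
      have h1 := norm_add x y
      obtain ⟨k, hk⟩ := even_inter_of_orth (horth x hx.1 y hy.1)
      obtain ⟨a, ha⟩ := hx.2
      obtain ⟨b, hb⟩ := hy.2
      omega
    | smul a x _ hx =>
      refine ⟨C.smul_mem a hx.1, ?_⟩
      by_cases ha : a = 0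
      · rw [ha, zero_smul]; simp
      · rw [zmod2_ne_zero.1 ha, one_smul]; exact hx.2
  exact key.2

end Cfsg.Agent.H1
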