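import Mathlib
import Cfsg.Agent.Lib_helper1_Basic

set_option autoImplicit false

namespace Cfsg.Agent.H1

open Subgroup MulAction
open scoped Pointwise

theorem trans_of_normal_of_prim {G X : Type*} [Group G] [MulAction G X] [FaithfulSMul G X]
    (hprim : IsPreprimitive G X) (K : Subgroup G) [K.Normal] (hK : K ≠ ⊥) :
    IsPretransitive K X := by
  haveI := hprim
  apply IsQuasiPreprimitive.isPretransitive_of_normal (G := G)
  intro h
  apply hK
  rw [eq_bot_iff]
  intro k hk
  rw [Subgroup.mem_bot]
  apply FaithfulSMul.eq_of_smul_eq_smul (α := X)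
  intro x
  rw [one_smul]
  have : x ∈ fixedPoints K X := by rw [h]; trivial
  exact this ⟨k, hk⟩

theorem sup_stabilizer_eq_top {G X : Type*} [Group G] [MulAction G X] (K : Subgroup G)
    (hK : IsPretransitive K X) (x : X) : K ⊔ stabilizer G x = ⊤ := by
  rw [eq_top_iff]
  intro g _
  obtain ⟨k, hk⟩ := hK.exists_smul_eq x (g • x)
  have h1 : (k : G)⁻¹ * g ∈ stabilizer G x := by
    rw [mem_stabilizer_iff, mul_smul, inv_smul_eq_iff]
    exact hk.symm
  have : g = k * ((k : G)⁻¹ * g) := by group
  rw [this]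
  exact mul_mem (mem_sup_left k.2) (mem_sup_right h1)

end Cfsg.Agent.H1
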