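import Mathlib
import Cfsg.Agent.Lib_helper1_Prim

set_option autoImplicit false

namespace Cfsg.Agent.H1

open Subgroup MulAction
open scoped Pointwise

theorem minimal_normal_solvable {G : Type*} [Group G] [Finite G] [Group.IsSolvable G]
    (M : Subgroup G) [M.Normal] (hM : M ≠ ⊥)
    (hmin : ∀ K : Subgroup G, K.Normal → K ≤ M → K = ⊥ ∨ K = M) :
    ∃ p : ℕ, p.Prime ∧ IsPGroup p M ∧ ∀ a ∈ M, ∀ b ∈ M, a * b = b * a := by
  haveI : Nontrivial M := (Subgroup.nontrivial_iff_ne_bot M).2 hM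
  obtain ⟨p, hp, P, hPc, hPp, hPne, hPab⟩ := exists_normal_pgroup_of_solvable ↥M
  haveI := hPc
  have hn : (P.map M.subtype).Normal := ConjAct.normal_of_characteristic_of_normal
  have hPtop : P = ⊤ := by
    rcases hmin _ hn (map_subtype_le P) with h | h
    · exact absurd ((map_eq_bot_iff_of_injective _ M.subtype_injective).1 h) hPne
    · rw [← comap_map_eq_self_of_injective M.subtype_injective P, h]
      exact subgroupOf_self M
  subst hPtop
  refine ⟨p, hp, ?_, ?_⟩
  · intro x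
    obtain ⟨k, hk⟩ := hPp ⟨x, mem_top x⟩
    exact ⟨k, congrArg Subtype.val hk⟩
  · intro a ha b hb
    have := mul_comm' (⟨⟨a, ha⟩, mem_top _⟩ : (⊤ : Subgroup M)) ⟨⟨b, hb⟩, mem_top _⟩
    exact congrArg (fun z : (⊤ : Subgroup M) => ((z : M) : G)) this

theorem eq_one_of_fix_of_centralizes {G X : Type*} [Group G] [MulAction G X] [FaithfulSMul G X]
    (M : Subgroup G) (hMt : IsPretransitive M X) (x : X) {g : G} (hg : g • x = x)
    (hc : ∀ m ∈ M, g * m = m * g) : g = 1 := by
  apply FaithfulSMul.eq_of_smul_eq_smul (α := X)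
  intro y
  obtain ⟨m, rfl⟩ := hMt.exists_smul_eq x y
  change g • ((m : G) • x) = (1 : G) • ((m : G) • x)
  rw [one_smul, ← mul_smul, hc m m.2, mul_smul, hg]

end Cfsg.Agent.H1
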