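import Mathlib
import Cfsg.Prelude.Def_SolvableStructure
import Cfsg.Agent.Lib_helper1_AbSylow

set_option autoImplicit false

namespace Cfsg.Agent.H1

open Subgroup
open scoped Pointwise

/-- `Reach A B`: `B` is obtained from `A` by finitely many steps, each adjoining one element and
producing a normal subgroup. -/
inductive Reach {G : Type*} [Group G] (A : Subgroup G) : Subgroup G → Prop
  | refl : Reach A A
  | step {B : Subgroup G} (g : G) : Reach A B → (B ⊔ Subgroup.zpowers g).Normal →
      Reach A (B ⊔ Subgroup.zpowers g)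

namespace Reach

variable {G : Type*} [Group G]

theorem trans {A B C : Subgroup G} (h1 : Reach A B) (h2 : Reach B C) : Reach A C := by
  induction h2 with
  | refl => exact h1
  | step g _ hn ih => exact Reach.step g ih hn

theorem normal {A B : Subgroup G} (hA : A.Normal) (h : Reach A B) : B.Normal := by
  cases h with
  | refl => exact hA
  | step g _ hn => exact hn

theorem le {A B : Subgroup G} (h : Reach A B) : A ≤ B := by
  induction h with
  | refl => exact le_rfl
  | step g _ _ ih => exact ih.trans le_sup_left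

theorem map {G' : Type*} [Group G'] (f : G →* G') (hf : Function.Surjective f) {A B : Subgroup G}
    (h : Reach A B) : Reach (A.map f) (B.map f) := by
  induction h with
  | refl => exact Reach.refl
  | @step B g _ hn ih =>
    have e : (B ⊔ zpowers g).map f = B.map f ⊔ zpowers (f g) := by
      rw [Subgroup.map_sup, MonoidHom.map_zpowers]
    rw [e]
    exact Reach.step (f g) ih (e ▸ hn.map f hf)

theorem comap {G' : Type*} [Group G'] (f : G →* G') (hf : Function.Surjective f)
    {A B : Subgroup G'} (h : Reach A B) : Reach (A.comap f) (B.comap f) := by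
  induction h with
  | refl => exact Reach.refl
  | @step B g' _ hn ih =>
    obtain ⟨g, rfl⟩ := hf g'
    have e : (B ⊔ zpowers (f g)).comap f = B.comap f ⊔ zpowers g := by
      conv_lhs => rw [← map_comap_eq_self_of_surjective hf B, ← MonoidHom.map_zpowers,
        ← Subgroup.map_sup, comap_map_eq]
      rw [sup_assoc, sup_comm (zpowers g), ← sup_assoc, sup_eq_left.mpr (ker_le_comap f B)]
    rw [e]
    exact Reach.step g ih (e ▸ hn.comap f)

end Reach

/-- a subgroup `D ≤ A ⊔ ⟨g⟩` with `A` normal is `(A ⊓ D) ⊔ ⟨c⟩` for some `c ∈ D`. -/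
theorem cyc_step {G : Type*} [Group G] (A D : Subgroup G) [A.Normal] (g : G)
    (hD : D ≤ A ⊔ zpowers g) : ∃ c ∈ D, D = (A ⊓ D) ⊔ zpowers c := by
  have h1 : D.map (QuotientGroup.mk' A) ≤ zpowers (QuotientGroup.mk' A g) := by
    refine (map_mono hD).trans ?_
    rw [Subgroup.map_sup, MonoidHom.map_zpowers]
    refine sup_le ?_ le_rfl
    rw [(Subgroup.map_eq_bot_iff _).mpr (by rw [QuotientGroup.ker_mk'])]
    exact bot_le
  haveI : IsCyclic (D.map (QuotientGroup.mk' A)) := isCyclic_of_le h1
  obtain ⟨d, hd⟩ := (isCyclic_iff_exists_zpowers_eq_top (α := D.map (QuotientGroup.mk' A))).mp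
    inferInstance
  obtain ⟨c, hc, hcd⟩ := d.2
  refine ⟨c, hc, le_antisymm ?_ (sup_le inf_le_right (zpowers_le.mpr hc))⟩
  intro x hx
  have hx' : (⟨QuotientGroup.mk' A x, ⟨x, hx, rfl⟩⟩ : D.map (QuotientGroup.mk' A)) ∈ zpowers d := by
    rw [hd]; trivial
  obtain ⟨i, hi⟩ := mem_zpowers_iff.mp hx'
  have hi' : (QuotientGroup.mk' A c) ^ i = QuotientGroup.mk' A x := by
    have := congrArg Subtype.val hi
    rw [Subgroup.coe_zpow, ← hcd] at this
    exact this
  have h2 : x * (c ^ i)⁻¹ ∈ A := by
    rw [← QuotientGroup.eq_one_iff]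
    change QuotientGroup.mk' A (x * (c ^ i)⁻¹) = 1
    rw [map_mul, map_inv, map_zpow, hi', mul_inv_cancel]
  have h3 : x = (x * (c ^ i)⁻¹) * c ^ i := by group
  rw [h3]
  exact mul_mem (mem_sup_left (mem_inf.mpr ⟨h2, mul_mem hx (inv_mem (zpow_mem hc i))⟩))
    (mem_sup_right (zpow_mem (mem_zpowers c) i))

theorem Reach.inf {G : Type*} [Group G] (N : Subgroup G) [N.Normal] {A B : Subgroup G}
    (hA : A.Normal) (h : Reach A B) : Reach (A ⊓ N) (B ⊓ N) := by
  induction h with
  | refl => exact Reach.refl
  | @step B g hAB hn ih =>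
    haveI hBn : B.Normal := hAB.normal hA
    obtain ⟨c, hc, hcD⟩ := cyc_step B ((B ⊔ zpowers g) ⊓ N) g inf_le_left
    have e : B ⊓ ((B ⊔ zpowers g) ⊓ N) = B ⊓ N := by
      rw [← inf_assoc, inf_eq_left.mpr (le_sup_left : B ≤ B ⊔ zpowers g)]
    rw [e] at hcD
    rw [hcD]
    refine Reach.step c ih ?_
    rw [← hcD]
    haveI := hn
    infer_instance

theorem Reach.subgroupOf {G : Type*} [Group G] (K : Subgroup G) {A B : Subgroup G}
    (hA : A.Normal) (h : Reach A B) : Reach (A.subgroupOf K) (B.subgroupOf K) := by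
  induction h with
  | refl => exact Reach.refl
  | @step B g hAB hn ih =>
    haveI hBn : B.Normal := hAB.normal hA
    obtain ⟨c, hc, hcD⟩ := cyc_step B ((B ⊔ zpowers g) ⊓ K) g inf_le_left
    have e : B ⊓ ((B ⊔ zpowers g) ⊓ K) = B ⊓ K := by
      rw [← inf_assoc, inf_eq_left.mpr (le_sup_left : B ≤ B ⊔ zpowers g)]
    rw [e] at hcD
    have e2 : (B ⊔ zpowers g).subgroupOf K = B.subgroupOf K ⊔ zpowers (⟨c, hc.2⟩ : K) := by
      apply map_injective K.subtype_injective
      rw [subgroupOf_map_subtype, Subgroup.map_sup, subgroupOf_map_subtype, MonoidHom.map_zpowers]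
      exact hcD
    rw [e2]
    refine Reach.step _ ih ?_
    rw [← e2]
    haveI := hn
    infer_instance

theorem isSupersolvable_iff {G : Type*} [Group G] :
    Cfsg.IsSupersolvable G ↔ Reach (⊥ : Subgroup G) ⊤ := by
  constructor
  · rintro ⟨n, H, h0, hn, hnorm, hstep⟩
    have key : ∀ i : Fin (n + 1), Reach (⊥ : Subgroup G) (H i) := by
      intro i
      induction i using Fin.induction with
      | zero => rw [h0]; exact Reach.refl
      | succ i ih =>
        obtain ⟨g, hg⟩ := hstep i
        rw [hg]
        exact Reach.step g ih (hg ▸ hnorm _)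
    rw [← hn]
    exact key _
  · intro h
    have key : ∀ B : Subgroup G, Reach (⊥ : Subgroup G) B →
        ∃ (n : ℕ) (H : Fin (n + 1) → Subgroup G),
          H 0 = ⊥ ∧ H (Fin.last n) = B ∧ (∀ i, (H i).Normal) ∧
            ∀ i : Fin n, ∃ g : G, H i.succ = H i.castSucc ⊔ Subgroup.zpowers g := by
      intro B hB
      induction hB with
      | refl => exact ⟨0, fun _ => ⊥, rfl, rfl, fun _ => inferInstance, fun i => i.elim0⟩
      | @step B g _ hn ih =>
        obtain ⟨n, H, h0, hl, hnorm, hstep⟩ := ih
        refine ⟨n + 1, Fin.snoc H (B ⊔ zpowers g), ?_, ?_, ?_, ?_⟩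
        · have : (0 : Fin (n + 2)) = Fin.castSucc (0 : Fin (n + 1)) := rfl
          rw [this, Fin.snoc_castSucc, h0]
        · rw [Fin.snoc_last]
        · intro i
          induction i using Fin.lastCases with
          | last => rw [Fin.snoc_last]; exact hn
          | cast j => rw [Fin.snoc_castSucc]; exact hnorm j
        · intro i
          induction i using Fin.lastCases with
          | last =>
            refine ⟨g, ?_⟩
            rw [Fin.succ_last, Fin.snoc_last, Fin.snoc_castSucc, hl]
          | cast j =>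
            obtain ⟨g', hg'⟩ := hstep j
            refine ⟨g', ?_⟩
            rw [← Fin.castSucc_succ, Fin.snoc_castSucc, Fin.snoc_castSucc, hg']
    exact key ⊤ h

end Cfsg.Agent.H1
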