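import Mathlib
import Cfsg.Statements.S0528
import Cfsg.Agent.Lib_helper1_SS

set_option autoImplicit false
open Cfsg

namespace Cfsg.Agent.S0528

open Cfsg.Agent.H1 Subgroup

/-- An extension of a cyclic normal subgroup by a supersolvable group is supersolvable: if N is a cyclic normal subgroup of a finite group G and G modulo N is supersolvable, then G is supersolvable. -/
theorem result {G : Type*} [Group G] [Finite G] (N : Subgroup G) [N.Normal] [IsCyclic N] (h : Cfsg.IsSupersolvable (G ⧸ N)) : Cfsg.IsSupersolvable G := by
  rw [isSupersolvable_iff] at h ⊢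
  obtain ⟨g, hg⟩ : ∃ g : G, zpowers g = N := (Subgroup.isCyclic_iff_exists_zpowers_eq_top N).mp inferInstance
  have h1 : Reach (⊥ : Subgroup G) N := by
    have h2 := Reach.step (A := (⊥ : Subgroup G)) (B := ⊥) g Reach.refl
      (by rw [bot_sup_eq, hg]; infer_instance)
    rwa [bot_sup_eq, hg] at h2
  have h2 := h.comap (QuotientGroup.mk' N) (QuotientGroup.mk'_surjective N)
  rw [MonoidHom.comap_bot, QuotientGroup.ker_mk', comap_top] at h2
  exact h1.trans h2

end Cfsg.Agent.S0528
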