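import Mathlib
import Cfsg.Agent.Lib_helper1_SS
import Cfsg.Agent.Lib_helper1_Misc3
import Cfsg.Agent.S0524
import Cfsg.Agent.S0528

set_option autoImplicit false

namespace Cfsg.Agent.H1

open Subgroup
open scoped Pointwise

theorem normal_of_le_cyclic_normal {G : Type*} [Group G] [Finite G] {K N : Subgroup G}
    (hN : N.Normal) (hc : IsCyclic N) (hK : K ≤ N) : K.Normal := by
  apply normalizer_eq_top_iff.mp
  rw [eq_top_iff]
  intro g _
  rw [← conj_smul_eq_iff_mem_normalizer]
  have h1 : MulAut.conj g • K ≤ N := by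
    intro x hx
    rw [mem_conj_smul] at hx
    have h2 := hN.conj_mem _ (hK hx) g
    have h3 : g * (g⁻¹ * x * g) * g⁻¹ = x := by group
    rwa [h3] at h2
  have h2 : MulAut.conj g • K ≤ K :=
    le_of_card_dvd_of_le_isCyclic hc h1 hK (by rw [card_conj_smul])
  exact Subgroup.eq_of_le_of_card_ge h2 (card_conj_smul g K).ge

theorem ss_minimal_normal_cyclic {G : Type*} [Group G] (hG : Cfsg.IsSupersolvable G)
    (N : Subgroup G) [hN : N.Normal] (hne : N ≠ ⊥)
    (hmin : ∀ M : Subgroup G, M.Normal → M ≤ N → M = ⊥ ∨ M = N) : ∃ g : G, N = zpowers g := by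
  have h1 := (isSupersolvable_iff.mp hG).inf N inferInstance
  rw [bot_inf_eq, top_inf_eq] at h1
  have key : ∀ B : Subgroup G, Reach (⊥ : Subgroup G) B → B ≤ N →
      B = ⊥ ∨ (B = N ∧ ∃ g : G, N = zpowers g) := by
    intro B hB
    induction hB with
    | refl => intro _; exact Or.inl rfl
    | @step B g hAB hn ih =>
      intro hle
      rcases ih (le_sup_left.trans hle) with h2 | ⟨h2, h3⟩
      · rw [h2, bot_sup_eq] at hn hle ⊢
        rcases hmin _ hn hle with h4 | h4
        · exact Or.inl h4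
        · exact Or.inr ⟨h4, g, h4.symm⟩
      · exact Or.inr ⟨le_antisymm hle (h2 ▸ le_sup_left), h3⟩
  rcases key N h1 le_rfl with h2 | ⟨-, h2⟩
  · exact absurd h2 hne
  · exact h2

theorem ss_minimal_normal_prime {G : Type*} [Group G] [Finite G] (hG : Cfsg.IsSupersolvable G)
    (N : Subgroup G) [hN : N.Normal] (hne : N ≠ ⊥)
    (hmin : ∀ M : Subgroup G, M.Normal → M ≤ N → M = ⊥ ∨ M = N) : (Nat.card N).Prime := by
  obtain ⟨g, hg⟩ := ss_minimal_normal_cyclic hG N hne hmin
  have hc : IsCyclic N := by rw [hg]; infer_instance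
  have h1 : Nat.card N ≠ 1 := fun h => hne (card_eq_one.mp h)
  obtain ⟨p, hp, hpd⟩ := Nat.exists_prime_and_dvd h1
  have : Fact p.Prime := ⟨hp⟩
  obtain ⟨x, hx⟩ := exists_prime_orderOf_dvd_card' p hpd
  have hxN : zpowers (x : G) ≤ N := zpowers_le.mpr x.2
  have hcard : Nat.card (zpowers (x : G)) = p := by
    rw [Nat.card_zpowers, orderOf_coe, hx]
  rcases hmin _ (normal_of_le_cyclic_normal hN hc hxN) hxN with h2 | h2
  · rw [h2, card_bot] at hcard
    exact absurd hcard.symm hp.one_lt.ne'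
  · rw [← h2, hcard]; exact hp

theorem ss_exists_normal_prime_le {G : Type*} [Group G] [Finite G] (hG : Cfsg.IsSupersolvable G)
    (K : Subgroup G) (hKn : K.Normal) (hK : K ≠ ⊥) :
    ∃ N : Subgroup G, N.Normal ∧ N ≤ K ∧ (Nat.card N).Prime := by
  obtain ⟨N, hNn, hNne, hNK, hmin⟩ := exists_minimal_normal_le K hKn hK
  exact ⟨N, hNn, hNK, ss_minimal_normal_prime hG N hNne hmin⟩

theorem ss_quotient {G : Type*} [Group G] [Finite G] (hG : Cfsg.IsSupersolvable G)
    (N : Subgroup G) [N.Normal] : Cfsg.IsSupersolvable (G ⧸ N) :=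
  (Cfsg.Agent.S0524.result hG ⊥ N).2

theorem ss_subgroup {G : Type*} [Group G] [Finite G] (hG : Cfsg.IsSupersolvable G)
    (H : Subgroup G) : Cfsg.IsSupersolvable H :=
  (Cfsg.Agent.S0524.result hG H ⊥).1

theorem ne_bot_of_card_prime {G : Type*} [Group G] {N : Subgroup G} (h : (Nat.card N).Prime) :
    N ≠ ⊥ := by
  rintro rfl
  rw [card_bot] at h
  exact Nat.not_prime_one h

theorem ss_coatom_index_prime.{u} : ∀ (n : ℕ) (G : Type u) [Group G] [Finite G], Nat.card G = n →
    Cfsg.IsSupersolvable G → ∀ M : Subgroup G, IsCoatom M → M.index.Prime := by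
  intro n
  induction n using Nat.strong_induction_on with
  | _ n ih =>
    intro G _ _ hn hG M hM
    have hnt : (⊤ : Subgroup G) ≠ ⊥ := by
      intro h
      exact hM.1 (le_antisymm le_top (h ▸ bot_le))
    obtain ⟨N, hNn, -, hNp⟩ := ss_exists_normal_prime_le hG ⊤ inferInstance hnt
    by_cases hNM : N ≤ M
    · have h1 := ih _ (hn ▸ card_quotient_lt (ne_bot_of_card_prime hNp)) (G ⧸ N) rfl
        (ss_quotient hG N) _ (isCoatom_map_mk_of_le hNM hM)
      rwa [index_map_mk_of_le hNM] at h1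
    · have h1 := index_mul_card_inf_of_sup_eq_top (sup_eq_top_of_coatom_not_le hM hNM)
      rcases (Nat.dvd_prime hNp).mp (Dvd.intro _ h1) with h2 | h2
      · exact absurd (index_eq_one.mp h2) hM.1
      · rw [h2]; exact hNp

end Cfsg.Agent.H1
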