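import Mathlib
import Cfsg.Statements.S0531
import Cfsg.Agent.Lib_helper1_SS2

set_option autoImplicit false
open Cfsg

namespace Cfsg.Agent.S0531

open Cfsg.Agent.H1 Subgroup

theorem aux.{u} : ∀ (n : ℕ) (G : Type u) [Group G] [Finite G], Nat.card G = n →
    Cfsg.IsSupersolvable G → Cfsg.HasSubgroupOfEveryOrder G := by
  intro n
  induction n using Nat.strong_induction_on with
  | _ n ih =>
    intro G _ _ hn hG d hd
    by_cases hnt : (⊤ : Subgroup G) = ⊥
    · have h1 : Nat.card G = 1 := by rw [← card_top, hnt, card_bot]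
      rw [h1, Nat.dvd_one] at hd
      exact ⟨⊥, by rw [card_bot, hd]⟩
    obtain ⟨N, hNn, -, hNp⟩ := ss_exists_normal_prime_le hG ⊤ inferInstance hnt
    have hq := ih _ (hn ▸ card_quotient_lt (ne_bot_of_card_prime hNp)) (G ⧸ N) rfl
      (ss_quotient hG N)
    have hcard := card_quotient_mul_card N
    by_cases hpd : Nat.card N ∣ d
    · obtain ⟨d', rfl⟩ := hpd
      have h1 : d' ∣ Nat.card (G ⧸ N) := by
        rw [← hcard, mul_comm] at hd
        exact Nat.dvd_of_mul_dvd_mul_right hNp.pos hd
      obtain ⟨H, hH⟩ := hq d' h1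
      exact ⟨H.comap (QuotientGroup.mk' N), by rw [card_comap_mk, hH, mul_comm]⟩
    · have hcop : (Nat.card N).Coprime d := (Nat.Prime.coprime_iff_not_dvd hNp).mpr hpd
      have h1 : d ∣ Nat.card (G ⧸ N) := by
        rw [← hcard] at hd
        exact Nat.Coprime.dvd_of_dvd_mul_right hcop.symm hd
      obtain ⟨H, hH⟩ := hq d h1
      have hNL : N ≤ H.comap (QuotientGroup.mk' N) := by
        conv_lhs => rw [← QuotientGroup.ker_mk' N]
        exact ker_le_comap _ _
      have hrel : N.relIndex (H.comap (QuotientGroup.mk' N)) = d := by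
        have h2 := relIndex_mul_card' hNL
        rw [card_comap_mk, hH] at h2
        exact Nat.eq_of_mul_eq_mul_right hNp.pos h2
      obtain ⟨K, -, -, -, hK⟩ := exists_complement_internal N (H.comap (QuotientGroup.mk' N)) hNL
        (normalizer_eq_top_iff.mpr hNn ▸ le_top) (hrel ▸ hcop)
      exact ⟨K, hK.trans hrel⟩

/-- A finite supersolvable group has a subgroup of each order dividing its order. -/
theorem result {G : Type*} [Group G] [Finite G] (hG : Cfsg.IsSupersolvable G) : Cfsg.HasSubgroupOfEveryOrder G := by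
  exact aux _ G rfl hG

end Cfsg.Agent.S0531
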