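import Mathlib
import Cfsg.Agent.Lib_helper1_SS2
import Cfsg.Agent.S0531

set_option autoImplicit false

namespace Cfsg.Agent.H1

open Subgroup
open scoped Pointwise

theorem ss_of_subsingleton (G : Type*) [Group G] [Subsingleton G] : Cfsg.IsSupersolvable G := by
  rw [isSupersolvable_iff]
  have : (⊤ : Subgroup G) = ⊥ := Subsingleton.elim _ _
  rw [this]
  exact Reach.refl

theorem ss_of_nilpotent_aux.{u} : ∀ (n : ℕ) (G : Type u) [Group G] [Finite G], Nat.card G = n →
    Group.IsNilpotent G → Cfsg.IsSupersolvable G := by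
  intro n
  induction n using Nat.strong_induction_on with
  | _ n ih =>
    intro G _ _ hn hG
    rcases subsingleton_or_nontrivial G with hs | hnt
    · exact ss_of_subsingleton G
    have h1 := Group.IsNilpotent.center_ne_bot (G := G)
    obtain ⟨z, hz1⟩ := (ne_bot_iff_exists_ne_one).mp h1
    have hz' : (z : G) ≠ 1 := fun h => hz1 (Subtype.ext h)
    have hn' : (zpowers (z : G)).Normal := by
      refine ⟨fun x hx g => ?_⟩
      obtain ⟨i, rfl⟩ := mem_zpowers_iff.mp hx
      have h2 : (z : G) ^ i ∈ center G := zpow_mem z.2 i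
      have h3 : g * (z : G) ^ i * g⁻¹ = (z : G) ^ i := by
        rw [mem_center_iff.mp h2 g]; group
      rw [h3]; exact zpow_mem (mem_zpowers _) i
    have hne : zpowers (z : G) ≠ ⊥ := fun h => hz' (zpowers_eq_bot.mp h)
    have h2 := ih _ (hn ▸ card_quotient_lt hne) (G ⧸ zpowers (z : G)) rfl inferInstance
    exact Cfsg.Agent.S0528.result (zpowers (z : G)) h2

theorem ss_of_nilpotent {G : Type*} [Group G] [Finite G] (hG : Group.IsNilpotent G) :
    Cfsg.IsSupersolvable G := ss_of_nilpotent_aux _ G rfl hG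

theorem clt_of_nilpotent {G : Type*} [Group G] [Finite G] (hG : Group.IsNilpotent G) {d : ℕ}
    (hd : d ∣ Nat.card G) : ∃ H : Subgroup G, Nat.card H = d :=
  Cfsg.Agent.S0531.result (ss_of_nilpotent hG) d hd

end Cfsg.Agent.H1
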