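import Mathlib
import Cfsg.Agent.Lib_helper1_SS3

set_option autoImplicit false

namespace Cfsg.Agent.H1

open Subgroup
open scoped Pointwise

theorem ss_of_surjective {G G' : Type*} [Group G] [Group G'] (f : G →* G')
    (hf : Function.Surjective f) (hG : Cfsg.IsSupersolvable G) : Cfsg.IsSupersolvable G' := by
  rw [isSupersolvable_iff] at hG ⊢
  have h1 := hG.map f hf
  rwa [Subgroup.map_bot, map_top_of_surjective f hf] at h1

theorem ss_of_mulEquiv {G G' : Type*} [Group G] [Group G'] (e : G ≃* G')
    (hG : Cfsg.IsSupersolvable G) : Cfsg.IsSupersolvable G' :=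
  ss_of_surjective e.toMonoidHom e.surjective hG

theorem ss_sylow_normal_of_largest {G : Type*} [Group G] [Finite G] (hG : Cfsg.IsSupersolvable G)
    {p : ℕ} [Fact p.Prime] (hmax : ∀ q : ℕ, q.Prime → q ∣ Nat.card G → q ≤ p) (P : Sylow p G) :
    (P : Subgroup G).Normal :=
  sylow_normal_of_largest_of_coatom_index_prime
    (fun M hM => ss_coatom_index_prime _ G rfl hG M hM) hmax P

/-- image of a subgroup `H ≤ L` in the quotient of `L` by a normal subgroup. -/
theorem ss_map_mk_subgroupOf {G : Type*} [Group G] {H L : Subgroup G} (hHL : H ≤ L)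
    (D : Subgroup L) [D.Normal] (hH : Cfsg.IsSupersolvable H) :
    Cfsg.IsSupersolvable ((H.subgroupOf L).map (QuotientGroup.mk' D)) :=
  ss_of_surjective _ (MonoidHom.subgroupMap_surjective (QuotientGroup.mk' D) (H.subgroupOf L))
    (ss_of_mulEquiv (subgroupOfEquivOfLe hHL).symm hH)

end Cfsg.Agent.H1
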