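import Mathlib
import Cfsg.Agent.Lib_helper1_SS4
import Cfsg.Agent.Lib_helper1_PQ
import Cfsg.Agent.Lib_helper1_SZ
import Cfsg.Agent.S0528

set_option autoImplicit false

namespace Cfsg.Agent.H1

open Subgroup
open scoped Pointwise commutatorElement

/-- the automorphisms induced on a normal subgroup of prime order form an abelian group of
exponent dividing `p - 1`. -/
theorem prime_normal_comm {G : Type*} [Group G] {p : ℕ} [Fact p.Prime] (Z : Subgroup G) [Z.Normal]
    (hZ : Nat.card Z = p) (g h : G) :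
    ⁅g, h⁆ ∈ centralizer (Z : Set G) ∧ g ^ (p - 1) ∈ centralizer (Z : Set G) := by
  haveI : IsCyclic Z := isCyclic_of_prime_card hZ
  haveI : Finite Z := Nat.finite_of_card_ne_zero (by rw [hZ]; exact (Fact.out : p.Prime).ne_zero)
  let f : G →* MulAut Z := MulAut.conjNormal
  have hker : ∀ x : G, f x = 1 → x ∈ centralizer (Z : Set G) := by
    intro x hx
    rw [mem_centralizer_iff]
    intro z hz
    have h1 : ((f x ⟨z, hz⟩ : Z) : G) = z := by rw [hx]; rfl
    have h2 : x * z * x⁻¹ = z := by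
      conv_rhs => rw [← h1]
      exact (MulAut.conjNormal_apply x ⟨z, hz⟩).symm
    calc z * x = (x * z * x⁻¹) * x := by rw [h2]
      _ = x * z := by group
  have hcomm : ∀ a b : MulAut Z, a * b = b * a := by
    intro a b
    apply (IsCyclic.mulAutMulEquiv Z).injective
    rw [map_mul, map_mul, mul_comm]
  constructor
  · apply hker
    rw [map_commutatorElement, commutatorElement_eq_one_iff_mul_comm]
    exact hcomm _ _
  · apply hker
    rw [map_pow]
    have h3 : Nat.card (MulAut Z) = p - 1 := by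
      rw [IsCyclic.card_mulAut, hZ, Nat.totient_prime Fact.out]
    rw [← h3]
    exact pow_card_eq_one'

open Polynomial in
theorem eigen_mod {p : ℕ} [Fact p.Prime] {M : Type*} [AddCommGroup M] [Module (ZMod p) M] [Finite M]
    [Nontrivial M] (f : Module.End (ZMod p) M) (hf : f ^ (p - 1) = 1) :
    ∃ μ : ZMod p, ∃ v : M, v ≠ 0 ∧ f v = μ • v := by
  have hfp : f ^ p = f := by
    obtain ⟨m, hm⟩ : ∃ m, p = m + 1 := ⟨p - 1, by
      have := (Fact.out : p.Prime).one_lt
      omega⟩
    have hm' : p - 1 = m := by omega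
    rw [hm'] at hf
    calc f ^ p = f ^ (m + 1) := congrArg (fun j => f ^ j) hm
      _ = f := by rw [pow_succ, hf, one_mul]
  have h1 : aeval f (X ^ p - X : (ZMod p)[X]) = 0 := by
    simp [hfp]
  have h2 : minpoly (ZMod p) f ∣ (X ^ p - X : (ZMod p)[X]) := minpoly.dvd _ _ h1
  have h3 : (X ^ p - X : (ZMod p)[X]).Splits := by
    have := FiniteField.splits_X_pow_card_sub_X (p := p) (K := ZMod p)
    simpa [ZMod.card] using this
  have h4 : (X ^ p - X : (ZMod p)[X]) ≠ 0 := by
    have := FiniteField.X_pow_card_sub_X_ne_zero (ZMod p) (p := p) (Fact.out : p.Prime).one_lt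
    exact this
  have h5 : (minpoly (ZMod p) f).Splits := h3.of_dvd h4 h2
  have hint : IsIntegral (ZMod p) f := Algebra.IsIntegral.isIntegral f
  obtain ⟨μ, hμ⟩ := h5.exists_eval_eq_zero (minpoly.degree_pos hint).ne'
  have h6 : f.HasEigenvalue μ := Module.End.hasEigenvalue_of_isRoot hμ
  obtain ⟨v, hv⟩ := h6.exists_hasEigenvector
  exact ⟨μ, v, hv.2, hv.apply_eq_smul⟩

theorem eigen_add {p : ℕ} [Fact p.Prime] {M : Type*} [AddCommGroup M] [Finite M]
    [Nontrivial M] (hexp : ∀ v : M, p • v = 0) (f : M →+ M) (hf : ∀ v, f^[p - 1] v = v) :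
    ∃ a : ℕ, ∃ v : M, v ≠ 0 ∧ f v = a • v := by
  letI : Module (ZMod p) M := AddCommGroup.zmodModule (n := p) hexp
  have hfa : ∀ (j : ℕ) (v : M), ((f.toZModLinearMap p : Module.End (ZMod p) M) ^ j) v = f^[j] v := by
    intro j v
    rw [Module.End.pow_apply]
    rfl
  obtain ⟨μ, v, hv, h7⟩ := eigen_mod (p := p) (f.toZModLinearMap p : Module.End (ZMod p) M) (by
    ext v
    rw [hfa, hf]
    rfl)
  refine ⟨μ.val, v, hv, ?_⟩
  have h8 : μ • v = μ.val • v := by
    conv_lhs => rw [← ZMod.natCast_zmod_val μ]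
    exact Nat.cast_smul_eq_nsmul (ZMod p) μ.val v
  rw [h8] at h7
  exact h7

theorem exists_eigen_aux {V : Type*} [CommGroup V] [Finite V] [Nontrivial V] {p : ℕ}
    [Fact p.Prime] (hexp : ∀ v : V, v ^ p = 1) (φ : V →* V) (hφ : ∀ v, φ^[p - 1] v = v) :
    ∃ a : ℕ, ∃ v : V, v ≠ 1 ∧ φ v = v ^ a := by
  have hfa : ∀ (j : ℕ) (v : Additive V),
      (MonoidHom.toAdditive φ)^[j] v = Additive.ofMul (φ^[j] (Additive.toMul v)) := by
    intro j
    induction j with
    | zero => intro v; rfl
    | succ j ih =>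
      intro v
      rw [Function.iterate_succ_apply', Function.iterate_succ_apply', ih]
      rfl
  obtain ⟨a, v, hv, h⟩ := eigen_add (p := p) (M := Additive V)
    (fun x => congrArg Additive.ofMul (hexp (Additive.toMul x))) (MonoidHom.toAdditive φ)
    (fun v => by rw [hfa, hφ]; rfl)
  exact ⟨a, Additive.toMul v, fun h0 => hv (congrArg Additive.ofMul h0),
    congrArg Additive.toMul h⟩

theorem exists_eigen {G : Type*} [Group G] [Finite G] {p : ℕ} [Fact p.Prime] (N : Subgroup G)
    (hne : N ≠ ⊥) (hc : ∀ a ∈ N, ∀ b ∈ N, a * b = b * a) (hexp : ∀ a ∈ N, a ^ p = 1) (k : G)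
    (hk : ∀ v ∈ N, k * v * k⁻¹ ∈ N) (hk1 : ∀ v ∈ N, k ^ (p - 1) * v * (k ^ (p - 1))⁻¹ = v) :
    ∃ a : ℕ, ∃ v ∈ N, v ≠ 1 ∧ k * v * k⁻¹ = v ^ a := by
  letI : CommGroup N := { (inferInstance : Group N) with
    mul_comm := fun a b => Subtype.ext (hc a a.2 b b.2) }
  haveI : Nontrivial N := (nontrivial_iff_ne_bot N).mpr hne
  let φ : N →* N := ((MulAut.conj k).toMonoidHom.comp N.subtype).codRestrict N
    (fun v => by simpa using hk v v.2)
  have hφ : ∀ (j : ℕ) (v : N), ((φ^[j] v : N) : G) = k ^ j * v * (k ^ j)⁻¹ := by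
    intro j
    induction j with
    | zero => intro v; simp
    | succ j ih =>
      intro v
      rw [Function.iterate_succ_apply']
      have : ((φ (φ^[j] v) : N) : G) = k * ((φ^[j] v : N) : G) * k⁻¹ := rfl
      rw [this, ih, pow_succ']
      group
  obtain ⟨a, v, hv, hva⟩ := exists_eigen_aux (p := p) (V := N)
    (fun v => Subtype.ext (by simpa using hexp v v.2)) φ
    (fun v => Subtype.ext (by rw [hφ]; exact hk1 v v.2))
  refine ⟨a, v, v.2, fun h => hv (Subtype.ext h), ?_⟩
  have := congrArg (fun x : N => (x : G)) hva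
  simpa [φ] using this

end Cfsg.Agent.H1
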