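import Mathlib
import Cfsg.Agent.Lib_helper1_SS5

set_option autoImplicit false

namespace Cfsg.Agent.H1

open Subgroup
open scoped Pointwise commutatorElement

/-- subgroup generated by the commutators and the `(p-1)`-th powers of `K`. -/
def cK {G : Type*} [Group G] (p : ℕ) (K : Subgroup G) : Subgroup G :=
  closure ({y | ∃ a ∈ K, ∃ b ∈ K, y = ⁅a, b⁆} ∪ {y | ∃ a ∈ K, y = a ^ (p - 1)})

theorem cK_le {G : Type*} [Group G] (p : ℕ) (K : Subgroup G) : cK p K ≤ K := by
  rw [cK, closure_le]
  rintro y (⟨a, ha, b, hb, rfl⟩ | ⟨a, ha, rfl⟩)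
  · exact K.mul_mem (K.mul_mem (K.mul_mem ha hb) (K.inv_mem ha)) (K.inv_mem hb)
  · exact K.pow_mem ha _

theorem comm_mem_cK {G : Type*} [Group G] (p : ℕ) {K : Subgroup G} {a b : G} (ha : a ∈ K)
    (hb : b ∈ K) : ⁅a, b⁆ ∈ cK p K :=
  subset_closure (Or.inl ⟨a, ha, b, hb, rfl⟩)

theorem pow_mem_cK {G : Type*} [Group G] (p : ℕ) {K : Subgroup G} {a : G} (ha : a ∈ K) :
    a ^ (p - 1) ∈ cK p K :=
  subset_closure (Or.inr ⟨a, ha, rfl⟩)

theorem map_cK {G G' : Type*} [Group G] [Group G'] (f : G →* G') (p : ℕ) (K : Subgroup G) :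
    (cK p K).map f = cK p (K.map f) := by
  apply le_antisymm
  · rw [map_le_iff_le_comap, cK, closure_le]
    rintro y (⟨a, ha, b, hb, rfl⟩ | ⟨a, ha, rfl⟩)
    · show f ⁅a, b⁆ ∈ cK p (K.map f)
      rw [map_commutatorElement]
      exact comm_mem_cK p (mem_map_of_mem f ha) (mem_map_of_mem f hb)
    · show f (a ^ (p - 1)) ∈ cK p (K.map f)
      rw [map_pow]
      exact pow_mem_cK p (mem_map_of_mem f ha)
  · conv_lhs => rw [cK]
    rw [closure_le]
    rintro y (⟨a', ⟨a, ha, rfl⟩, b', ⟨b, hb, rfl⟩, rfl⟩ | ⟨a', ⟨a, ha, rfl⟩, rfl⟩)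
    · rw [← map_commutatorElement]
      exact mem_map_of_mem f (comm_mem_cK p ha hb)
    · rw [← map_pow]
      exact mem_map_of_mem f (pow_mem_cK p ha)

theorem le_normalizer_cK {G : Type*} [Group G] (p : ℕ) (K : Subgroup G) :
    K ≤ normalizer (cK p K : Set G) := by
  apply le_normalizer_of_forall
  intro k hk x hx
  have h1 : (cK p K).map (MulAut.conj k).toMonoidHom = cK p K := by
    rw [map_cK]
    congr 1
    exact conj_smul_eq_self_of_mem hk
  rw [← h1]
  exact ⟨x, hx, rfl⟩

theorem cK_le_centralizer_prime {G : Type*} [Group G] {p : ℕ} [Fact p.Prime] (Z : Subgroup G)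
    [Z.Normal] (hZ : Nat.card Z = p) (K : Subgroup G) : cK p K ≤ centralizer (Z : Set G) := by
  rw [cK, closure_le]
  rintro y (⟨a, _, b, _, rfl⟩ | ⟨a, _, rfl⟩)
  · exact (prime_normal_comm Z hZ a b).1
  · exact (prime_normal_comm Z hZ a a).2

theorem commutator_le_of_map_le_centralizer {G : Type*} [Group G] (R : Subgroup G) [R.Normal]
    (Q A : Subgroup G)
    (h : A.map (QuotientGroup.mk' R) ≤ centralizer (Q.map (QuotientGroup.mk' R) : Set (G ⧸ R))) :
    ⁅Q, A⁆ ≤ R := by
  rw [commutator_le]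
  intro u hu y hy
  rw [← QuotientGroup.eq_one_iff]
  show QuotientGroup.mk' R ⁅u, y⁆ = 1
  rw [map_commutatorElement, commutatorElement_eq_one_iff_mul_comm]
  exact (mem_centralizer_iff.mp (h (mem_map_of_mem _ hy))) _ (mem_map_of_mem _ hu)

theorem map_le_centralizer_map {G G' : Type*} [Group G] [Group G'] (f : G →* G')
    {A P : Subgroup G} (h : A ≤ centralizer (P : Set G)) :
    A.map f ≤ centralizer (P.map f : Set G') := by
  rintro _ ⟨a, ha, rfl⟩
  rw [mem_centralizer_iff]
  rintro _ ⟨u, hu, rfl⟩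
  rw [← map_mul, ← map_mul, (mem_centralizer_iff.mp (h ha)) u hu]

theorem centralizes_of_stab_chain {G : Type*} [Group G] [Finite G] (A Q R : Subgroup G)
    (hAQ : A ≤ normalizer (Q : Set G)) (hcop : (Nat.card A).Coprime (Nat.card Q))
    (hsolv : Group.IsSolvable A ∨ Group.IsSolvable Q) (h1 : ⁅Q, A⁆ ≤ R)
    (h2 : A ≤ centralizer (R : Set G)) : A ≤ centralizer (Q : Set G) := by
  have h3 : ⁅R, A⁆ = ⊥ := by
    rw [commutator_comm, commutator_eq_bot_iff_le_centralizer]
    exact h2
  have h4 : ⁅Q, A⁆ = ⊥ := by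
    rw [← coprime_comm_comm A Q hAQ hcop hsolv]
    exact le_bot_iff.mp ((commutator_mono h1 le_rfl).trans h3.le)
  rw [commutator_comm, commutator_eq_bot_iff_le_centralizer] at h4
  exact h4

theorem commutator_cK_le_of_index {G : Type*} [Group G] [Finite G] {p : ℕ} [Fact p.Prime]
    (P M K : Subgroup G) [P.Normal] (hP : IsPGroup p P) (hPM : P ⊔ M = ⊤) (hM : M.index = p) :
    ⁅P, cK p K⁆ ≤ M ⊓ P := by
  have hp : p.Prime := Fact.out
  set R := M ⊓ P with hR
  have h1 := card_sup_mul_card_inf M P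
  rw [sup_comm, hPM, card_top, ← M.index_mul_card, hM, ← hR] at h1
  have h2 : p * Nat.card R = Nat.card P := by
    have hpos : 0 < Nat.card M := Nat.card_pos
    have : Nat.card M * (p * Nat.card R) = Nat.card M * Nat.card P := by
      rw [← h1]; ring
    exact Nat.eq_of_mul_eq_mul_left hpos this
  have hRP : R ≤ P := inf_le_right
  have hRn : R.Normal := by
    have h3 : (R.subgroupOf P).Normal := by
      apply normal_of_index_eq_minFac_card
      have h4 := relIndex_mul_card' hRP
      have h5 : R.relIndex P = p := by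
        have hpos : 0 < Nat.card R := Nat.card_pos
        have : R.relIndex P * Nat.card R = p * Nat.card R := by rw [h4, h2]
        exact Nat.eq_of_mul_eq_mul_right hpos this
      obtain ⟨n, hn⟩ := hP.exists_card_eq
      have hn0 : n ≠ 0 := by
        rintro rfl
        rw [pow_zero] at hn
        rw [hn] at h2
        exact hp.one_lt.ne' (Nat.eq_one_of_mul_eq_one_right h2)
      rw [hn, hp.pow_minFac hn0]
      exact h5
    have h6 : P ≤ normalizer (R : Set G) := (normal_subgroupOf_iff_le_normalizer hRP).mp h3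
    have h7 : M ≤ normalizer (R : Set G) := le_normalizer_inf_normal M P
    apply normalizer_eq_top_iff.mp
    rw [eq_top_iff, ← hPM]
    exact sup_le h6 h7
  have hZn : (P.map (QuotientGroup.mk' R)).Normal :=
    Normal.map inferInstance _ (QuotientGroup.mk'_surjective R)
  have hZ : Nat.card (P.map (QuotientGroup.mk' R)) = p := by
    have h8 := card_map_mk_of_le hRP
    have hpos : 0 < Nat.card R := Nat.card_pos
    have : Nat.card (P.map (QuotientGroup.mk' R)) * Nat.card R = p * Nat.card R := by rw [h8, h2]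
    exact Nat.eq_of_mul_eq_mul_right hpos this
  apply commutator_le_of_map_le_centralizer
  rw [map_cK]
  exact cK_le_centralizer_prime _ hZ _

end Cfsg.Agent.H1
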