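import Mathlib
import Cfsg.Agent.Lib_helper1_SS6

set_option autoImplicit false

namespace Cfsg.Agent.H1

open Subgroup
open scoped Pointwise commutatorElement

universe u

/-- a minimal normal subgroup inside a normal `p`-subgroup `P` is cyclic, if `G = P K` and `K` acts
on `P` as an abelian group of exponent dividing `p - 1`. -/
theorem minimal_normal_cyclic_of_cK {G : Type*} [Group G] [Finite G] {p : ℕ} [Fact p.Prime]
    (P K N : Subgroup G) [P.Normal] (hP : IsPGroup p P) (hPK : P ⊔ K = ⊤)
    (hC : cK p K ≤ centralizer (P : Set G)) [hNn : N.Normal] (hne : N ≠ ⊥) (hNP : N ≤ P)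
    (hmin : ∀ M : Subgroup G, M.Normal → M ≤ N → M = ⊥ ∨ M = N) : IsCyclic N := by
  have hp : p.Prime := Fact.out
  have hNp : IsPGroup p N := hP.to_le hNP
  -- P centralises N
  have h1 : ⁅N, P⁆ = ⊥ := by
    have h2 : ⁅N, P⁆ < N := commutator_lt_of_pgroups hNp hP
      (by rw [normalizer_eq_top_iff.mpr hNn]; exact le_top) hne
    exact (hmin _ inferInstance h2.le).resolve_right h2.ne
  have hNc : N ≤ centralizer (P : Set G) := commutator_eq_bot_iff_le_centralizer.mp h1
  have hcomm : ∀ v ∈ N, ∀ u ∈ P, u * v = v * u := fun v hv u hu =>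
    (mem_centralizer_iff.mp (hNc hv)) u hu
  have hab : ∀ a ∈ N, ∀ b ∈ N, a * b = b * a := fun a ha b hb => hcomm b hb a (hNP ha)
  -- exponent p
  have hexp : ∀ a ∈ N, a ^ p = 1 := by
    let Ω : Subgroup G :=
      { carrier := {v | v ∈ N ∧ v ^ p = 1}
        mul_mem' := by
          rintro a b ⟨ha, ha1⟩ ⟨hb, hb1⟩
          refine ⟨N.mul_mem ha hb, ?_⟩
          rw [(show Commute a b from hab a ha b hb).mul_pow, ha1, hb1, one_mul]
        one_mem' := ⟨N.one_mem, one_pow _⟩
        inv_mem' := by
          rintro a ⟨ha, ha1⟩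
          exact ⟨N.inv_mem ha, by rw [inv_pow, ha1, inv_one]⟩ }
    have hΩn : Ω.Normal := ⟨fun a ha g => ⟨hNn.conj_mem a ha.1 g, by
      rw [conj_pow, ha.2]; group⟩⟩
    have hΩN : Ω ≤ N := fun a ha => ha.1
    have hΩne : Ω ≠ ⊥ := by
      obtain ⟨n, hn⟩ := hNp.exists_card_eq
      have hn0 : n ≠ 0 := by
        rintro rfl
        rw [pow_zero] at hn
        exact hne (card_eq_one.mp hn)
      have hdvd : p ∣ Nat.card N := by rw [hn]; exact dvd_pow_self p hn0
      obtain ⟨x, hx⟩ := exists_prime_orderOf_dvd_card' p hdvd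
      intro hbot
      have hxΩ : (x : G) ∈ Ω := ⟨x.2, by
        have := pow_orderOf_eq_one x
        rw [hx] at this
        exact_mod_cast congrArg (fun y : N => (y : G)) this⟩
      rw [hbot, mem_bot] at hxΩ
      have hx1 : x = 1 := Subtype.ext hxΩ
      rw [hx1, orderOf_one] at hx
      exact hp.one_lt.ne hx
    have hΩ := (hmin Ω hΩn hΩN).resolve_left hΩne
    intro a ha
    have : a ∈ Ω := by rw [hΩ]; exact ha
    exact this.2
  -- each k ∈ K acts as a scalar
  have hscal : ∀ k ∈ K, ∃ a : ℕ, ∀ v ∈ N, k * v * k⁻¹ = v ^ a := by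
    intro k hk
    obtain ⟨a, v₀, hv₀, hv₀1, hv₀a⟩ := exists_eigen (p := p) N hne hab hexp k
      (fun v hv => hNn.conj_mem v hv k) (fun v hv => by
        have h3 := (mem_centralizer_iff.mp (hC (pow_mem_cK p hk))) v (hNP hv)
        rw [← h3]; group)
    refine ⟨a, ?_⟩
    let E : Subgroup G :=
      { carrier := {v | v ∈ N ∧ k * v * k⁻¹ = v ^ a}
        mul_mem' := by
          rintro x y ⟨hx, hx1⟩ ⟨hy, hy1⟩
          refine ⟨N.mul_mem hx hy, ?_⟩
          rw [(show Commute x y from hab x hx y hy).mul_pow, ← hx1, ← hy1]; group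
        one_mem' := ⟨N.one_mem, by simp⟩
        inv_mem' := by
          rintro x ⟨hx, hx1⟩
          refine ⟨N.inv_mem hx, ?_⟩
          rw [inv_pow, ← hx1]; group }
    have hEn : E.Normal := by
      apply normalizer_eq_top_iff.mp
      rw [eq_top_iff, ← hPK]
      apply sup_le
      · apply le_normalizer_of_forall
        intro g hg x hx
        have : g * x * g⁻¹ = x := by rw [hcomm x hx.1 g hg]; group
        rw [this]; exact hx
      · apply le_normalizer_of_forall
        intro h hh x hx
        refine ⟨hNn.conj_mem x hx.1 h, ?_⟩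
        have hc := hC (comm_mem_cK p hk hh)
        have h4 : h * x ^ a * h⁻¹ ∈ P := hNP (hNn.conj_mem _ (N.pow_mem hx.1 a) h)
        have h5 := (mem_centralizer_iff.mp hc) _ h4
        have h6 : k * (h * x * h⁻¹) * k⁻¹ = ⁅k, h⁆ * (h * (k * x * k⁻¹) * h⁻¹) * ⁅k, h⁆⁻¹ := by
          rw [commutatorElement_def]; group
        rw [h6, hx.2, ← h5, conj_pow]; group
    have hEne : E ≠ ⊥ := by
      intro hbot
      have : v₀ ∈ E := ⟨hv₀, hv₀a⟩
      rw [hbot, mem_bot] at this
      exact hv₀1 this
    have hE := (hmin E hEn (fun x hx => hx.1)).resolve_left hEne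
    intro v hv
    have : v ∈ E := by rw [hE]; exact hv
    exact this.2
  -- conclusion
  obtain ⟨⟨v, hv⟩, hv1⟩ := (N.ne_bot_iff_exists_ne_one).mp hne
  have hv1' : v ≠ 1 := fun h => hv1 (Subtype.ext h)
  have hzN : zpowers v ≤ N := by rw [zpowers_le]; exact hv
  have hzn : (zpowers v).Normal := by
    apply normalizer_eq_top_iff.mp
    rw [eq_top_iff, ← hPK]
    apply sup_le
    · apply le_normalizer_of_forall
      intro g hg x hx
      have : g * x * g⁻¹ = x := by rw [hcomm x (hzN hx) g hg]; group
      rw [this]; exact hx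
    · apply le_normalizer_of_forall
      intro k hk x hx
      obtain ⟨a, ha⟩ := hscal k hk
      rw [ha x (hzN hx)]
      exact (zpowers v).pow_mem hx a
  have hz := (hmin _ hzn hzN).resolve_left (by
    intro h
    rw [zpowers_eq_bot] at h
    exact hv1' h)
  rw [← hz]
  infer_instance

/-- `G/P` supersolvable, `G = P K` and `K` acts on the normal `p`-subgroup `P` as an abelian group
of exponent dividing `p - 1`: then `G` is supersolvable. -/
theorem ss_of_cK : ∀ (n : ℕ) (G : Type u) [Group G] [Finite G] (p : ℕ) [Fact p.Prime]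
    (P K : Subgroup G) [P.Normal], Nat.card P = n → IsPGroup p P → P ⊔ K = ⊤ →
    cK p K ≤ centralizer (P : Set G) → Cfsg.IsSupersolvable (G ⧸ P) → Cfsg.IsSupersolvable G := by
  intro n
  induction n using Nat.strong_induction_on with
  | _ n ih =>
    intro G _ _ p _ P K _ hn hP hPK hC hss
    by_cases hbot : P = ⊥
    · have : IsCyclic P := by rw [hbot]; infer_instance
      exact Cfsg.Agent.S0528.result P hss
    · obtain ⟨N, hNn, hNne, hNP, hmin⟩ := exists_minimal_normal_le P inferInstance hbot
      have hcyc : IsCyclic N := minimal_normal_cyclic_of_cK P K N hP hPK hC hNne hNP hmin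
      apply Cfsg.Agent.S0528.result N
      have hPn' : (P.map (QuotientGroup.mk' N)).Normal :=
        Normal.map inferInstance _ (QuotientGroup.mk'_surjective N)
      have hcard : Nat.card (P.map (QuotientGroup.mk' N)) < n := by
        have h1 := card_map_mk_of_le hNP
        rw [← hn, ← h1]
        have h2 : 1 < Nat.card N := by
          rw [Nat.one_lt_iff_ne_zero_and_ne_one]
          exact ⟨Nat.card_pos.ne', fun h => hNne (card_eq_one.mp h)⟩
        exact lt_mul_of_one_lt_right Nat.card_pos h2
      refine ih _ hcard (G ⧸ N) p (P.map (QuotientGroup.mk' N)) (K.map (QuotientGroup.mk' N)) rfl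
        (hP.map _) ?_ ?_ ?_
      · rw [← Subgroup.map_sup, hPK, map_top_of_surjective _ (QuotientGroup.mk'_surjective N)]
      · rw [← map_cK]
        exact map_le_centralizer_map _ hC
      · refine ss_of_surjective (QuotientGroup.map P (P.map (QuotientGroup.mk' N))
          (QuotientGroup.mk' N) (le_comap_map _ _)) ?_ hss
        intro x
        obtain ⟨y, rfl⟩ := QuotientGroup.mk'_surjective _ x
        obtain ⟨z, rfl⟩ := QuotientGroup.mk'_surjective _ y
        exact ⟨QuotientGroup.mk' P z, rfl⟩

/-- in a supersolvable group a `p'`-subgroup `K` acts on a normal `p`-subgroup as an abelian group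
of exponent dividing `p - 1`. -/
theorem ss_cK : ∀ (n : ℕ) (X : Type u) [Group X] [Finite X] (p : ℕ) [Fact p.Prime]
    (Q K : Subgroup X) [Q.Normal], Nat.card X = n → Cfsg.IsSupersolvable X → IsPGroup p Q →
    (Nat.card K).Coprime p → cK p K ≤ centralizer (Q : Set X) := by
  intro n
  induction n using Nat.strong_induction_on with
  | _ n ih =>
    intro X _ _ p _ Q K _ hn hss hQ hK
    have hp : p.Prime := Fact.out
    by_cases hbot : Q = ⊥
    · intro y _
      rw [mem_centralizer_iff]
      intro z hz
      rw [hbot] at hz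
      have : z = 1 := hz
      rw [this, one_mul, mul_one]
    · obtain ⟨Z, hZn, hZQ, hZp⟩ := ss_exists_normal_prime_le hss Q inferInstance hbot
      have hZ : Nat.card Z = p := by
        obtain ⟨m, hm⟩ := (hQ.to_le hZQ).exists_card_eq
        have hm0 : m ≠ 0 := by
          rintro rfl
          rw [pow_zero] at hm
          rw [hm] at hZp
          exact Nat.not_prime_one hZp
        have hd : p ∣ Nat.card Z := by rw [hm]; exact dvd_pow_self p hm0
        exact ((Nat.prime_dvd_prime_iff_eq hp hZp).mp hd).symm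
      have hQn' : (Q.map (QuotientGroup.mk' Z)).Normal :=
        Normal.map inferInstance _ (QuotientGroup.mk'_surjective Z)
      have hcardX : Nat.card (X ⧸ Z) < n := by
        rw [← hn]; exact card_quotient_lt (ne_bot_of_card_prime hZp)
      have h1 := ih _ hcardX (X ⧸ Z) p (Q.map (QuotientGroup.mk' Z)) (K.map (QuotientGroup.mk' Z))
        rfl (ss_quotient hss Z) (hQ.map _) (Nat.Coprime.coprime_dvd_left (card_map_dvd _ _) hK)
      rw [← map_cK] at h1
      have h2 : ⁅Q, cK p K⁆ ≤ Z := commutator_le_of_map_le_centralizer Z Q _ h1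
      have h3 : cK p K ≤ centralizer (Z : Set X) := cK_le_centralizer_prime Z hZ K
      obtain ⟨m, hm⟩ := hQ.exists_card_eq
      refine centralizes_of_stab_chain (cK p K) Q Z
        (by rw [normalizer_eq_top_iff.mpr inferInstance]; exact le_top) ?_
        (Or.inr (isSolvable_of_isPGroup hQ)) h2 h3
      rw [hm]
      exact Nat.Coprime.pow_right m (Nat.Coprime.coprime_dvd_left (card_dvd_of_le (cK_le p K)) hK)

end Cfsg.Agent.H1
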