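import Mathlib
import Cfsg.Prelude.Def_Sporadic_a

set_option autoImplicit false

namespace Cfsg.Agent.H1

open Cfsg Finset
open scoped Classical

variable {α : Type*} [Fintype α] [DecidableEq α] {t k : ℕ} {B : Set (Finset α)}

/-- the blocks as a finset. -/
noncomputable def blocks (B : Set (Finset α)) : Finset (Finset α) := univ.filter (· ∈ B)

theorem mem_blocks {b : Finset α} : b ∈ blocks B ↔ b ∈ B := by simp [blocks]

/-- number of blocks through an `i`-set. -/
theorem steiner_lambda (hB : IsSteinerSystem t k B) (I : Finset α) (hI : I.card ≤ t) :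
    ((blocks B).filter (I ⊆ ·)).card * (k - I.card).choose (t - I.card) =
      (Fintype.card α - I.card).choose (t - I.card) := by
  have h := sum_card_bipartiteAbove_eq_sum_card_bipartiteBelow
    (s := (blocks B).filter (I ⊆ ·)) (t := ((univ : Finset α).powersetCard t).filter (I ⊆ ·))
    (fun b T => T ⊆ b)
  have h1 : ∀ b ∈ (blocks B).filter (I ⊆ ·),
      ((((univ : Finset α).powersetCard t).filter (I ⊆ ·)).bipartiteAbove (fun b T => T ⊆ b) b).card =
        (k - I.card).choose (t - I.card) := by
    intro b hb
    rw [mem_filter, mem_blocks] at hb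
    rw [← hB.1 b hb.1, ← card_filter_powersetCard_subset I b t hb.2 hI]
    congr 1
    ext T
    simp only [bipartiteAbove, mem_filter, mem_powersetCard, subset_univ, true_and]
    tauto
  have h2 : ∀ T ∈ ((univ : Finset α).powersetCard t).filter (I ⊆ ·),
      (((blocks B).filter (I ⊆ ·)).bipartiteBelow (fun b T => T ⊆ b) T).card = 1 := by
    intro T hT
    rw [mem_filter, mem_powersetCard] at hT
    obtain ⟨b, ⟨hb1, hb2⟩, hbu⟩ := hB.2 T hT.1.2
    rw [card_eq_one]
    refine ⟨b, ?_⟩
    ext c
    simp only [bipartiteBelow, mem_filter, mem_blocks, mem_singleton]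
    constructor
    · rintro ⟨⟨hc1, -⟩, hc2⟩
      exact hbu c ⟨hc1, hc2⟩
    · rintro rfl
      exact ⟨⟨hb1, hT.2.trans hb2⟩, hb2⟩
  rw [sum_congr rfl h1, sum_congr rfl h2, sum_const, sum_const, smul_eq_mul, smul_eq_mul, mul_one,
    card_filter_powersetCard_subset I univ t (subset_univ _) hI, card_univ] at h
  exact h

/-- number of blocks containing `s` and meeting `X` in exactly `j` points. -/
noncomputable def cnt (B : Set (Finset α)) (s X : Finset α) (j : ℕ) : ℕ :=
  ((blocks B).filter (fun c => s ⊆ c ∧ (c ∩ X).card = j)).card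

theorem cnt_eq_ncard (s X : Finset α) (j : ℕ) :
    cnt B s X j = {c : Finset α | c ∈ B ∧ s ⊆ c ∧ (c ∩ X).card = j}.ncard := by
  rw [cnt, ← Set.ncard_coe_finset]
  congr 1
  ext c
  simp [mem_blocks]

theorem cnt_pos {s X c : Finset α} (hc : c ∈ B) (hs : s ⊆ c) : 0 < cnt B s X (c ∩ X).card := by
  rw [cnt, card_pos]
  exact ⟨c, by simp [mem_blocks, hc, hs]⟩

theorem steiner_moment (hB : IsSteinerSystem t k B) (s X : Finset α) (hd : Disjoint s X) (i : ℕ)
    (hi : s.card + i ≤ t) (n : ℕ) (hn : X.card ≤ n) :
    (∑ j ∈ range (n + 1), cnt B s X j * j.choose i) * (k - (s.card + i)).choose (t - (s.card + i)) =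
      X.card.choose i * (Fintype.card α - (s.card + i)).choose (t - (s.card + i)) := by
  have h := sum_card_bipartiteAbove_eq_sum_card_bipartiteBelow
    (s := (blocks B).filter (s ⊆ ·)) (t := X.powersetCard i) (fun c I => I ⊆ c)
  have h1 : ∀ c ∈ (blocks B).filter (s ⊆ ·),
      ((X.powersetCard i).bipartiteAbove (fun c I => I ⊆ c) c).card = (c ∩ X).card.choose i := by
    intro c _
    rw [← card_powersetCard]
    congr 1
    ext I
    simp only [bipartiteAbove, mem_filter, mem_powersetCard, subset_inter_iff]
    tauto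
  have h2 : ∀ I ∈ X.powersetCard i,
      (((blocks B).filter (s ⊆ ·)).bipartiteBelow (fun c I => I ⊆ c) I).card *
        (k - (s.card + i)).choose (t - (s.card + i)) =
        (Fintype.card α - (s.card + i)).choose (t - (s.card + i)) := by
    intro I hI
    rw [mem_powersetCard] at hI
    have hc : (s ∪ I).card = s.card + i := by
      rw [card_union_of_disjoint (disjoint_of_subset_right hI.1 hd), hI.2]
    have h3 := steiner_lambda hB (s ∪ I) (by rw [hc]; exact hi)
    rw [hc] at h3
    rw [← h3]
    congr 2
    ext c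
    simp only [bipartiteBelow, mem_filter, union_subset_iff]
    tauto
  have h4 : ∑ c ∈ (blocks B).filter (s ⊆ ·), (c ∩ X).card.choose i =
      ∑ j ∈ range (n + 1), cnt B s X j * j.choose i := by
    rw [← sum_fiberwise_of_maps_to (s := (blocks B).filter (s ⊆ ·)) (t := range (n + 1))
      (g := fun c => (c ∩ X).card)]
    · apply sum_congr rfl
      intro j _
      have : ∀ c ∈ ((blocks B).filter (s ⊆ ·)).filter (fun c => (c ∩ X).card = j),
          (c ∩ X).card.choose i = j.choose i := by
        intro c hc
        rw [(mem_filter.mp hc).2]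
      rw [sum_congr rfl this, sum_const, smul_eq_mul, cnt, filter_filter]
    · intro c _
      rw [mem_range]
      exact Nat.lt_succ_of_le ((card_le_card inter_subset_right).trans hn)
  rw [sum_congr rfl h1, h4] at h
  rw [h, sum_mul, sum_congr rfl h2, sum_const, smul_eq_mul, card_powersetCard]

end Cfsg.Agent.H1
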