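import Cfsg.Agent.Lib_helper1_Steiner

set_option autoImplicit false

namespace Cfsg.Agent.H1

open Cfsg Finset
open scoped Classical

variable {α : Type*} [Fintype α] [DecidableEq α] {B : Set (Finset α)}

theorem cnt_self_pos {t k : ℕ} (hB : IsSteinerSystem t k B) {b : Finset α} (hb : b ∈ B) :
    0 < cnt B ∅ b k := by
  have := cnt_pos (X := b) hb (empty_subset b)
  rwa [inter_self, hB.1 b hb] at this

set_option maxHeartbeats 2000000 in
theorem s5824_cnt (hα : Fintype.card α = 24) (hB : IsSteinerSystem 5 8 B) {b : Finset α}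
    (hb : b ∈ B) :
    cnt B ∅ b 0 = 30 ∧ cnt B ∅ b 1 = 0 ∧ cnt B ∅ b 2 = 448 ∧ cnt B ∅ b 3 = 0 ∧ cnt B ∅ b 4 = 280 ∧
      cnt B ∅ b 5 = 0 ∧ cnt B ∅ b 6 = 0 ∧ cnt B ∅ b 7 = 0 ∧ cnt B ∅ b 8 = 1 := by
  have hc : b.card = 8 := hB.1 b hb
  have hs : (∅ : Finset α).card = 0 := card_empty
  have hd : Disjoint (∅ : Finset α) b := disjoint_empty_left b
  have hpos := cnt_self_pos hB hb
  have e0 := steiner_moment hB ∅ b hd 0 (by simp [hs]) 8 hc.le
  have e1 := steiner_moment hB ∅ b hd 1 (by simp [hs]) 8 hc.le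
  have e2 := steiner_moment hB ∅ b hd 2 (by simp [hs]) 8 hc.le
  have e3 := steiner_moment hB ∅ b hd 3 (by simp [hs]) 8 hc.le
  have e4 := steiner_moment hB ∅ b hd 4 (by simp [hs]) 8 hc.le
  have e5 := steiner_moment hB ∅ b hd 5 (by simp [hs]) 8 hc.le
  rw [hα, hc, hs] at e0 e1 e2 e3 e4 e5
  simp only [sum_range_succ, sum_range_zero] at e0 e1 e2 e3 e4 e5
  norm_num [Nat.choose] at e0 e1 e2 e3 e4 e5
  omega

theorem s4723_cnt (hα : Fintype.card α = 23) (hB : IsSteinerSystem 4 7 B) {b : Finset α}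
    (hb : b ∈ B) :
    cnt B ∅ b 0 = 0 ∧ cnt B ∅ b 1 = 112 ∧ cnt B ∅ b 2 = 0 ∧ cnt B ∅ b 3 = 140 ∧ cnt B ∅ b 4 = 0 ∧
      cnt B ∅ b 5 = 0 ∧ cnt B ∅ b 6 = 0 ∧ cnt B ∅ b 7 = 1 := by
  have hc : b.card = 7 := hB.1 b hb
  have hs : (∅ : Finset α).card = 0 := card_empty
  have hd : Disjoint (∅ : Finset α) b := disjoint_empty_left b
  have hpos := cnt_self_pos hB hb
  have e0 := steiner_moment hB ∅ b hd 0 (by simp [hs]) 7 hc.le
  have e1 := steiner_moment hB ∅ b hd 1 (by simp [hs]) 7 hc.le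
  have e2 := steiner_moment hB ∅ b hd 2 (by simp [hs]) 7 hc.le
  have e3 := steiner_moment hB ∅ b hd 3 (by simp [hs]) 7 hc.le
  have e4 := steiner_moment hB ∅ b hd 4 (by simp [hs]) 7 hc.le
  rw [hα, hc, hs] at e0 e1 e2 e3 e4
  simp only [sum_range_succ, sum_range_zero] at e0 e1 e2 e3 e4
  norm_num [Nat.choose] at e0 e1 e2 e3 e4
  omega

theorem s3622_cnt (hα : Fintype.card α = 22) (hB : IsSteinerSystem 3 6 B) {b : Finset α}
    (hb : b ∈ B) :
    cnt B ∅ b 0 = 16 ∧ cnt B ∅ b 1 = 0 ∧ cnt B ∅ b 2 = 60 ∧ cnt B ∅ b 3 = 0 ∧ cnt B ∅ b 4 = 0 ∧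
      cnt B ∅ b 5 = 0 ∧ cnt B ∅ b 6 = 1 := by
  have hc : b.card = 6 := hB.1 b hb
  have hs : (∅ : Finset α).card = 0 := card_empty
  have hd : Disjoint (∅ : Finset α) b := disjoint_empty_left b
  have hpos := cnt_self_pos hB hb
  have e0 := steiner_moment hB ∅ b hd 0 (by simp [hs]) 6 hc.le
  have e1 := steiner_moment hB ∅ b hd 1 (by simp [hs]) 6 hc.le
  have e2 := steiner_moment hB ∅ b hd 2 (by simp [hs]) 6 hc.le
  have e3 := steiner_moment hB ∅ b hd 3 (by simp [hs]) 6 hc.le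
  rw [hα, hc, hs] at e0 e1 e2 e3
  simp only [sum_range_succ, sum_range_zero] at e0 e1 e2 e3
  norm_num [Nat.choose] at e0 e1 e2 e3
  omega

theorem s5612_cnt (hα : Fintype.card α = 12) (hB : IsSteinerSystem 5 6 B) {b : Finset α}
    (hb : b ∈ B) :
    cnt B ∅ b 0 = 1 ∧ cnt B ∅ b 1 = 0 ∧ cnt B ∅ b 2 = 45 ∧ cnt B ∅ b 3 = 40 ∧ cnt B ∅ b 4 = 45 ∧
      cnt B ∅ b 5 = 0 ∧ cnt B ∅ b 6 = 1 := by
  have hc : b.card = 6 := hB.1 b hb
  have hs : (∅ : Finset α).card = 0 := card_empty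
  have hd : Disjoint (∅ : Finset α) b := disjoint_empty_left b
  have hpos := cnt_self_pos hB hb
  have e0 := steiner_moment hB ∅ b hd 0 (by simp [hs]) 6 hc.le
  have e1 := steiner_moment hB ∅ b hd 1 (by simp [hs]) 6 hc.le
  have e2 := steiner_moment hB ∅ b hd 2 (by simp [hs]) 6 hc.le
  have e3 := steiner_moment hB ∅ b hd 3 (by simp [hs]) 6 hc.le
  have e4 := steiner_moment hB ∅ b hd 4 (by simp [hs]) 6 hc.le
  have e5 := steiner_moment hB ∅ b hd 5 (by simp [hs]) 6 hc.le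
  rw [hα, hc, hs] at e0 e1 e2 e3 e4 e5
  simp only [sum_range_succ, sum_range_zero] at e0 e1 e2 e3 e4 e5
  norm_num [Nat.choose] at e0 e1 e2 e3 e4 e5
  omega

/-- a block meeting `b` in `|b|` points is `b`. -/
theorem eq_of_card_inter {t k : ℕ} (hB : IsSteinerSystem t k B) {b c : Finset α} (hb : b ∈ B)
    (hc : c ∈ B) (h : (c ∩ b).card = k) : c = b := by
  have h1 : c ∩ b = c := eq_of_subset_of_card_le inter_subset_left (by rw [h, hB.1 c hc])
  have h2 : c ∩ b = b := eq_of_subset_of_card_le inter_subset_right (by rw [h, hB.1 b hb])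
  rw [← h1, h2]

theorem card_inter_le {t k : ℕ} (hB : IsSteinerSystem t k B) {b : Finset α} (hb : b ∈ B)
    (c : Finset α) : (c ∩ b).card ≤ k := by
  rw [← hB.1 b hb]; exact card_le_card inter_subset_right

theorem cnt_ne_zero {s X c : Finset α} (hc : c ∈ B) (hs : s ⊆ c) {j : ℕ} (hj : (c ∩ X).card = j) :
    cnt B s X j ≠ 0 := by
  rw [← hj]; exact (cnt_pos hc hs).ne'

end Cfsg.Agent.H1
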