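import Cfsg.Agent.Lib_helper1_Steiner2

set_option autoImplicit false

namespace Cfsg.Agent.H1

open Cfsg Finset
open scoped Classical

variable {α : Type*} [Fintype α] [DecidableEq α] {B : Set (Finset α)}

theorem s3622_inter (hα : Fintype.card α = 22) (hB : IsSteinerSystem 3 6 B) {b c : Finset α}
    (hb : b ∈ B) (hc : c ∈ B) : c = b ∨ (c ∩ b).card = 0 ∨ (c ∩ b).card = 2 := by
  by_cases hcb : c = b
  · left; exact hcb
  right
  obtain ⟨h0, h1, h2, h3, h4, h5, h6⟩ := s3622_cnt hα hB hb
  have hle := card_inter_le hB hb c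
  have hne : (c ∩ b).card ≠ 6 := fun h => hcb (eq_of_card_inter hB hb hc h)
  have hnz : ∀ j, (c ∩ b).card = j → cnt B ∅ b j ≠ 0 :=
    fun j hj => cnt_ne_zero hc (Finset.empty_subset c) hj
  generalize (c ∩ b).card = j at *
  interval_cases j
  · left; rfl
  · exact absurd h1 (hnz 1 rfl)
  · right; rfl
  · exact absurd h3 (hnz 3 rfl)
  · exact absurd h4 (hnz 4 rfl)
  · exact absurd h5 (hnz 5 rfl)
  · exact absurd rfl hne

theorem s3622_card (hα : Fintype.card α = 22) (hB : IsSteinerSystem 3 6 B) :
    (blocks B).card = 77 := by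
  have h := steiner_lambda hB ∅ (by simp)
  simp only [card_empty, Nat.sub_zero, empty_subset, filter_true, hα] at h
  norm_num [Nat.choose] at h
  omega

theorem cnt_eq_zero_of {s X : Finset α} {j : ℕ} (h : ∀ d ∈ B, (d ∩ X).card ≠ j) :
    cnt B s X j = 0 := by
  rw [cnt, card_eq_zero, filter_eq_empty_iff]
  intro d hd hd'
  exact h d (mem_blocks.mp hd) hd'.2

theorem card_inter_union (d b c : Finset α) :
    (d ∩ (b ∪ c)).card + (d ∩ (b ∩ c)).card = (d ∩ b).card + (d ∩ c).card := by
  have := card_union_add_card_inter (d ∩ b) (d ∩ c)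
  rw [← inter_union_distrib_left, ← inter_inter_distrib_left] at this
  exact this

/-- no block is disjoint from two disjoint blocks. -/
theorem s3622_disjoint (hα : Fintype.card α = 22) (hB : IsSteinerSystem 3 6 B) {b c : Finset α}
    (hb : b ∈ B) (hc : c ∈ B) (hbc : Disjoint b c) : cnt B ∅ (b ∪ c) 0 = 0 := by
  have hX : (b ∪ c).card = 12 := by rw [card_union_of_disjoint hbc, hB.1 b hb, hB.1 c hc]
  have hs : (∅ : Finset α).card = 0 := card_empty
  have hd : Disjoint (∅ : Finset α) (b ∪ c) := disjoint_empty_left _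
  have hval : ∀ d ∈ B, (d ∩ (b ∪ c)).card = 0 ∨ (d ∩ (b ∪ c)).card = 2 ∨ (d ∩ (b ∪ c)).card = 4 ∨
      (d ∩ (b ∪ c)).card = 6 := by
    intro d hdB
    have h1 := card_inter_union d b c
    rw [disjoint_iff_inter_eq_empty.mp hbc, inter_empty, card_empty] at h1
    have h2 : (d ∩ (b ∪ c)).card ≤ 6 := by rw [← hB.1 d hdB]; exact card_le_card inter_subset_left
    have h3 : (d ∩ b).card = 0 ∨ (d ∩ b).card = 2 ∨ (d ∩ b).card = 6 := by
      rcases s3622_inter hα hB hb hdB with h | h | h
      · right; right; rw [h, inter_self, hB.1 b hb]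
      · left; exact h
      · right; left; exact h
    have h4 : (d ∩ c).card = 0 ∨ (d ∩ c).card = 2 ∨ (d ∩ c).card = 6 := by
      rcases s3622_inter hα hB hc hdB with h | h | h
      · right; right; rw [h, inter_self, hB.1 c hc]
      · left; exact h
      · right; left; exact h
    omega
  have hz : ∀ j, j ≠ 0 → j ≠ 2 → j ≠ 4 → j ≠ 6 → cnt B ∅ (b ∪ c) j = 0 := by
    intro j h0 h2 h4 h6
    apply cnt_eq_zero_of
    intro d hdB hj
    rcases hval d hdB with h | h | h | h <;> omega
  have e0 := steiner_moment hB ∅ (b ∪ c) hd 0 (by simp) 12 hX.le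
  have e1 := steiner_moment hB ∅ (b ∪ c) hd 1 (by simp) 12 hX.le
  have e2 := steiner_moment hB ∅ (b ∪ c) hd 2 (by simp) 12 hX.le
  have e3 := steiner_moment hB ∅ (b ∪ c) hd 3 (by simp) 12 hX.le
  rw [hα, hX, hs] at e0 e1 e2 e3
  simp only [sum_range_succ, sum_range_zero] at e0 e1 e2 e3
  rw [hz 1 (by decide) (by decide) (by decide) (by decide),
    hz 3 (by decide) (by decide) (by decide) (by decide),
    hz 5 (by decide) (by decide) (by decide) (by decide),
    hz 7 (by decide) (by decide) (by decide) (by decide),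
    hz 8 (by decide) (by decide) (by decide) (by decide),
    hz 9 (by decide) (by decide) (by decide) (by decide),
    hz 10 (by decide) (by decide) (by decide) (by decide),
    hz 11 (by decide) (by decide) (by decide) (by decide),
    hz 12 (by decide) (by decide) (by decide) (by decide)] at e0 e1 e2 e3
  norm_num [Nat.choose] at e0 e1 e2 e3
  omega

/-- two blocks meeting in two points: four blocks disjoint from both. -/
theorem s3622_meeting (hα : Fintype.card α = 22) (hB : IsSteinerSystem 3 6 B) {b c : Finset α}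
    (hb : b ∈ B) (hc : c ∈ B) (hne : b ≠ c) (hbc : ¬ Disjoint b c) : cnt B ∅ (b ∪ c) 0 = 4 := by
  have hbc2 : (b ∩ c).card = 2 := by
    rcases s3622_inter hα hB hc hb with h | h | h
    · exact absurd h hne
    · rw [card_eq_zero, ← disjoint_iff_inter_eq_empty] at h
      exact absurd h hbc
    · exact h
  have hX : (b ∪ c).card = 10 := by
    have := card_union_add_card_inter b c
    rw [hbc2, hB.1 b hb, hB.1 c hc] at this
    omega
  have hs : (∅ : Finset α).card = 0 := card_empty
  have hd : Disjoint (∅ : Finset α) (b ∪ c) := disjoint_empty_left _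
  have hval : ∀ d ∈ B, d = b ∨ d = c ∨ (d ∩ (b ∪ c)).card = 0 ∨ (d ∩ (b ∪ c)).card = 2 ∨
      (d ∩ (b ∪ c)).card = 3 ∨ (d ∩ (b ∪ c)).card = 4 := by
    intro d hdB
    by_cases hdb : d = b
    · left; exact hdb
    by_cases hdc : d = c
    · right; left; exact hdc
    right; right
    have h1 := card_inter_union d b c
    have h5 : (d ∩ (b ∩ c)).card ≤ (d ∩ b).card :=
      card_le_card (inter_subset_inter_left inter_subset_left)
    have h6 : (d ∩ (b ∩ c)).card ≤ (d ∩ c).card :=
      card_le_card (inter_subset_inter_left inter_subset_right)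
    have h3 : (d ∩ b).card = 0 ∨ (d ∩ b).card = 2 := by
      rcases s3622_inter hα hB hb hdB with h | h | h
      · exact absurd h hdb
      · left; exact h
      · right; exact h
    have h4 : (d ∩ c).card = 0 ∨ (d ∩ c).card = 2 := by
      rcases s3622_inter hα hB hc hdB with h | h | h
      · exact absurd h hdc
      · left; exact h
      · right; exact h
    omega
  have hbX : (b ∩ (b ∪ c)).card = 6 := by rw [inter_eq_left.mpr subset_union_left, hB.1 b hb]
  have hcX : (c ∩ (b ∪ c)).card = 6 := by rw [inter_eq_left.mpr subset_union_right, hB.1 c hc]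
  have hz : ∀ j, j ≠ 0 → j ≠ 2 → j ≠ 3 → j ≠ 4 → j ≠ 6 → cnt B ∅ (b ∪ c) j = 0 := by
    intro j h0 h2 h3 h4 h6
    apply cnt_eq_zero_of
    intro d hdB hj
    rcases hval d hdB with h | h | h | h | h | h
    · rw [h, hbX] at hj; omega
    · rw [h, hcX] at hj; omega
    all_goals omega
  have h6 : cnt B ∅ (b ∪ c) 6 = 2 := by
    rw [cnt, ← card_pair hne]
    congr 1
    ext d
    simp only [mem_filter, mem_blocks, empty_subset, true_and, mem_insert, mem_singleton]
    constructor
    · rintro ⟨hdB, hd6⟩
      rcases hval d hdB with h | h | h | h | h | h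
      · left; exact h
      · right; exact h
      all_goals omega
    · rintro (rfl | rfl)
      · exact ⟨hb, hbX⟩
      · exact ⟨hc, hcX⟩
  have e0 := steiner_moment hB ∅ (b ∪ c) hd 0 (by simp) 10 hX.le
  have e1 := steiner_moment hB ∅ (b ∪ c) hd 1 (by simp) 10 hX.le
  have e2 := steiner_moment hB ∅ (b ∪ c) hd 2 (by simp) 10 hX.le
  have e3 := steiner_moment hB ∅ (b ∪ c) hd 3 (by simp) 10 hX.le
  rw [hα, hX, hs] at e0 e1 e2 e3
  simp only [sum_range_succ, sum_range_zero] at e0 e1 e2 e3
  rw [hz 1 (by decide) (by decide) (by decide) (by decide) (by decide),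
    hz 5 (by decide) (by decide) (by decide) (by decide) (by decide),
    hz 7 (by decide) (by decide) (by decide) (by decide) (by decide),
    hz 8 (by decide) (by decide) (by decide) (by decide) (by decide),
    hz 9 (by decide) (by decide) (by decide) (by decide) (by decide),
    hz 10 (by decide) (by decide) (by decide) (by decide) (by decide), h6] at e0 e1 e2 e3
  norm_num [Nat.choose] at e0 e1 e2 e3
  omega

theorem card_eq_ncard_image {β : Type*} {B : Set β} (S : Set ↥B) [Fintype S] :
    Fintype.card S = (Subtype.val '' S).ncard := by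
  rw [Set.ncard_image_of_injective _ Subtype.val_injective, Set.ncard_eq_toFinset_card',
    Set.toFinset_card]

end Cfsg.Agent.H1
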