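import Cfsg.Agent.Lib_helper1_Steiner3

set_option autoImplicit false

namespace Cfsg.Agent.H1

open Cfsg Finset
open scoped Classical

variable {α : Type*} [Fintype α] [DecidableEq α] {B : Set (Finset α)}

/-- number of blocks with property `P` meeting `X` in exactly `j` points. -/
noncomputable def cntP (B : Set (Finset α)) (P : Finset α → Prop) (X : Finset α) (j : ℕ) : ℕ :=
  ((blocks B).filter (fun c => P c ∧ (c ∩ X).card = j)).card

theorem moment_pred (P : Finset α → Prop) (X : Finset α) (i n : ℕ) (hn : X.card ≤ n) :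
    ∑ j ∈ range (n + 1), cntP B P X j * j.choose i =
      ∑ I ∈ X.powersetCard i, ((blocks B).filter (fun c => P c ∧ I ⊆ c)).card := by
  have h := sum_card_bipartiteAbove_eq_sum_card_bipartiteBelow
    (s := (blocks B).filter P) (t := X.powersetCard i) (fun c I => I ⊆ c)
  have h1 : ∀ c ∈ (blocks B).filter P,
      ((X.powersetCard i).bipartiteAbove (fun c I => I ⊆ c) c).card = (c ∩ X).card.choose i := by
    intro c _
    rw [← card_powersetCard]
    congr 1
    ext I
    simp only [bipartiteAbove, mem_filter, mem_powersetCard, subset_inter_iff]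
    tauto
  have h4 : ∑ c ∈ (blocks B).filter P, (c ∩ X).card.choose i =
      ∑ j ∈ range (n + 1), cntP B P X j * j.choose i := by
    rw [← sum_fiberwise_of_maps_to (s := (blocks B).filter P) (t := range (n + 1))
      (g := fun c => (c ∩ X).card)]
    · apply sum_congr rfl
      intro j _
      have : ∀ c ∈ ((blocks B).filter P).filter (fun c => (c ∩ X).card = j),
          (c ∩ X).card.choose i = j.choose i := by
        intro c hc
        rw [(mem_filter.mp hc).2]
      rw [sum_congr rfl this, sum_const, smul_eq_mul, cntP, filter_filter]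
    · intro c _
      rw [mem_range]
      exact Nat.lt_succ_of_le ((card_le_card inter_subset_right).trans hn)
  rw [sum_congr rfl h1, h4] at h
  rw [h]
  apply sum_congr rfl
  intro I _
  rw [bipartiteBelow, filter_filter]

theorem s5824_inter (hα : Fintype.card α = 24) (hB : IsSteinerSystem 5 8 B) {b c : Finset α}
    (hb : b ∈ B) (hc : c ∈ B) :
    c = b ∨ (c ∩ b).card = 0 ∨ (c ∩ b).card = 2 ∨ (c ∩ b).card = 4 := by
  by_cases hcb : c = b
  · left; exact hcb
  right
  obtain ⟨h0, h1, h2, h3, h4, h5, h6, h7, h8⟩ := s5824_cnt hα hB hb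
  have hle := card_inter_le hB hb c
  have hne : (c ∩ b).card ≠ 8 := fun h => hcb (eq_of_card_inter hB hb hc h)
  have hnz : ∀ j, (c ∩ b).card = j → cnt B ∅ b j ≠ 0 :=
    fun j hj => cnt_ne_zero hc (Finset.empty_subset c) hj
  generalize (c ∩ b).card = j at *
  interval_cases j
  · left; rfl
  · exact absurd h1 (hnz 1 rfl)
  · right; left; rfl
  · exact absurd h3 (hnz 3 rfl)
  · right; right; rfl
  · exact absurd h5 (hnz 5 rfl)
  · exact absurd h6 (hnz 6 rfl)
  · exact absurd h7 (hnz 7 rfl)
  · exact absurd rfl hne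

theorem cnt_eq_zero_of' {s X : Finset α} {j : ℕ} (h : ∀ d ∈ B, s ⊆ d → (d ∩ X).card ≠ j) :
    cnt B s X j = 0 := by
  rw [cnt, card_eq_zero, filter_eq_empty_iff]
  intro d hd hd'
  exact h d (mem_blocks.mp hd) hd'.1 hd'.2

/-- blocks through a nonempty set `I` off the octad `o` meet `o` in 0, 2 or 4 points. -/
theorem s5824_cnt_off_zero (hα : Fintype.card α = 24) (hB : IsSteinerSystem 5 8 B) {o I : Finset α}
    (ho : o ∈ B) (hI : Disjoint I o) (hne : I.Nonempty) (j : ℕ) (h0 : j ≠ 0) (h2 : j ≠ 2)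
    (h4 : j ≠ 4) : cnt B I o j = 0 := by
  apply cnt_eq_zero_of'
  intro d hd hId hj
  rcases s5824_inter hα hB ho hd with h | h | h | h
  · obtain ⟨x, hx⟩ := hne
    exact (disjoint_left.mp hI hx) (h ▸ hId hx)
  all_goals omega

theorem s5824_off_one (hα : Fintype.card α = 24) (hB : IsSteinerSystem 5 8 B) {o I : Finset α}
    (ho : o ∈ B) (hd : Disjoint I o) (hs : I.card = 1) : cnt B I o 0 = 15 := by
  have hc : o.card = 8 := hB.1 o ho
  have hz := s5824_cnt_off_zero hα hB ho hd (card_pos.mp (by omega))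
  have e0 := steiner_moment hB I o hd 0 (by simp [hs]) 8 hc.le
  have e1 := steiner_moment hB I o hd 1 (by simp [hs]) 8 hc.le
  have e2 := steiner_moment hB I o hd 2 (by simp [hs]) 8 hc.le
  rw [hα, hc, hs] at e0 e1 e2
  simp only [sum_range_succ, sum_range_zero] at e0 e1 e2
  rw [hz 1 (by decide) (by decide) (by decide), hz 3 (by decide) (by decide) (by decide),
    hz 5 (by decide) (by decide) (by decide), hz 6 (by decide) (by decide) (by decide),
    hz 7 (by decide) (by decide) (by decide), hz 8 (by decide) (by decide) (by decide)] at e0 e1 e2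
  norm_num [Nat.choose] at e0 e1 e2
  omega

theorem s5824_off_two (hα : Fintype.card α = 24) (hB : IsSteinerSystem 5 8 B) {o I : Finset α}
    (ho : o ∈ B) (hd : Disjoint I o) (hs : I.card = 2) : cnt B I o 0 = 7 := by
  have hc : o.card = 8 := hB.1 o ho
  have hz := s5824_cnt_off_zero hα hB ho hd (card_pos.mp (by omega))
  have e0 := steiner_moment hB I o hd 0 (by simp [hs]) 8 hc.le
  have e1 := steiner_moment hB I o hd 1 (by simp [hs]) 8 hc.le
  have e2 := steiner_moment hB I o hd 2 (by simp [hs]) 8 hc.le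
  rw [hα, hc, hs] at e0 e1 e2
  simp only [sum_range_succ, sum_range_zero] at e0 e1 e2
  rw [hz 1 (by decide) (by decide) (by decide), hz 3 (by decide) (by decide) (by decide),
    hz 5 (by decide) (by decide) (by decide), hz 6 (by decide) (by decide) (by decide),
    hz 7 (by decide) (by decide) (by decide), hz 8 (by decide) (by decide) (by decide)] at e0 e1 e2
  norm_num [Nat.choose] at e0 e1 e2
  omega

/-- moments of the blocks disjoint from the octad `o` against a set `X` off `o`. -/
theorem s5824_disj_moments (hα : Fintype.card α = 24) (hB : IsSteinerSystem 5 8 B) {o X : Finset α}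
    (ho : o ∈ B) (hX : Disjoint X o) (n : ℕ) (hn : X.card ≤ n) :
    ∑ j ∈ range (n + 1), cntP B (fun d => (d ∩ o).card = 0) X j * j.choose 0 = 30 ∧
    ∑ j ∈ range (n + 1), cntP B (fun d => (d ∩ o).card = 0) X j * j.choose 1 = X.card * 15 ∧
    ∑ j ∈ range (n + 1), cntP B (fun d => (d ∩ o).card = 0) X j * j.choose 2 = X.card.choose 2 * 7 := by
  have key : ∀ (I : Finset α) (inst : DecidablePred (fun c : Finset α => (c ∩ o).card = 0 ∧ I ⊆ c)),
      (@Finset.filter _ (fun c : Finset α => (c ∩ o).card = 0 ∧ I ⊆ c) inst (blocks B)).card =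
      cnt B I o 0 := by
    intro I inst
    rw [cnt]
    congr 1
    ext c
    simp only [mem_filter]
    tauto
  refine ⟨?_, ?_, ?_⟩
  · rw [moment_pred _ X 0 n hn, powersetCard_zero, sum_singleton, key]
    exact (s5824_cnt hα hB ho).1
  · rw [moment_pred _ X 1 n hn]
    rw [sum_congr rfl (g := fun _ => 15), sum_const, card_powersetCard, smul_eq_mul,
      Nat.choose_one_right]
    intro I hI
    rw [mem_powersetCard] at hI
    rw [key]
    exact s5824_off_one hα hB ho (disjoint_of_subset_left hI.1 hX) hI.2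
  · rw [moment_pred _ X 2 n hn]
    rw [sum_congr rfl (g := fun _ => 7), sum_const, card_powersetCard, smul_eq_mul]
    intro I hI
    rw [mem_powersetCard] at hI
    rw [key]
    exact s5824_off_two hα hB ho (disjoint_of_subset_left hI.1 hX) hI.2

theorem cntP_eq_zero_of {P : Finset α → Prop} {X : Finset α} {j : ℕ}
    (h : ∀ d ∈ B, P d → (d ∩ X).card ≠ j) : cntP B P X j = 0 := by
  rw [cntP, card_eq_zero, filter_eq_empty_iff]
  intro d hd hd'
  exact h d (mem_blocks.mp hd) hd'.1 hd'.2

theorem cntP_pos {P : Finset α → Prop} {X d : Finset α} (hd : d ∈ B) (hP : P d) :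
    0 < cntP B P X (d ∩ X).card := by
  rw [cntP, card_pos]
  refine ⟨d, ?_⟩
  rw [mem_filter, mem_blocks]
  exact ⟨hd, hP, rfl⟩

theorem exists_of_cntP_pos {P : Finset α → Prop} {X : Finset α} {j : ℕ} (h : 0 < cntP B P X j) :
    ∃ d ∈ B, P d ∧ (d ∩ X).card = j := by
  rw [cntP, card_pos] at h
  obtain ⟨d, hd⟩ := h
  rw [mem_filter, mem_blocks] at hd
  exact ⟨d, hd.1, hd.2.1, hd.2.2⟩

theorem inter_sdiff_of_disjoint {d o o' : Finset α} (h : (d ∩ o).card = 0) :
    d ∩ (o' \ o) = d ∩ o' := by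
  rw [card_eq_zero] at h
  ext x
  simp only [mem_inter, mem_sdiff]
  constructor
  · rintro ⟨h1, h2, -⟩; exact ⟨h1, h2⟩
  · rintro ⟨h1, h2⟩
    refine ⟨h1, h2, fun h3 => ?_⟩
    have : x ∈ d ∩ o := mem_inter.mpr ⟨h1, h3⟩
    rw [h] at this
    exact absurd this (notMem_empty x)

theorem s5824_vals (hα : Fintype.card α = 24) (hB : IsSteinerSystem 5 8 B) {o o' : Finset α}
    (_ho : o ∈ B) (ho' : o' ∈ B) (hne : ¬ (o' ∩ o).card = 0) (j : ℕ) (h0 : j ≠ 0) (h2 : j ≠ 2)
    (h4 : j ≠ 4) : cntP B (fun d => (d ∩ o).card = 0) (o' \ o) j = 0 := by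
  apply cntP_eq_zero_of
  intro d hd hdo hj
  rw [inter_sdiff_of_disjoint hdo] at hj
  rcases s5824_inter hα hB ho' hd with h | h | h | h
  · rw [h] at hdo; exact hne hdo
  all_goals omega

theorem s5824_common4 (hα : Fintype.card α = 24) (hB : IsSteinerSystem 5 8 B) {o o' : Finset α}
    (ho : o ∈ B) (ho' : o' ∈ B) (h : (o' ∩ o).card = 4) :
    ∃ d ∈ B, (d ∩ o).card = 0 ∧ (d ∩ o').card = 0 := by
  have hX : (o' \ o).card = 4 := by
    have := card_sdiff_add_card_inter o' o
    rw [h, hB.1 o' ho'] at this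
    omega
  obtain ⟨e0, e1, e2⟩ := s5824_disj_moments hα hB ho (sdiff_disjoint : Disjoint (o' \ o) o) 4 hX.le
  have hz := s5824_vals hα hB ho ho' (by rw [h]; decide)
  rw [hX] at e1 e2
  simp only [sum_range_succ, sum_range_zero] at e0 e1 e2
  rw [hz 1 (by decide) (by decide) (by decide), hz 3 (by decide) (by decide) (by decide)] at e0 e1 e2
  generalize hw : cntP B (fun d => (d ∩ o).card = 0) (o' \ o) = w at e0 e1 e2
  norm_num [Nat.choose] at e0 e1 e2
  have hpos : 0 < w 0 := by omega
  rw [← hw] at hpos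
  obtain ⟨d, hd, h1, h2⟩ := exists_of_cntP_pos hpos
  rw [inter_sdiff_of_disjoint h1] at h2
  exact ⟨d, hd, h1, h2⟩

theorem s5824_common2 (hα : Fintype.card α = 24) (hB : IsSteinerSystem 5 8 B) {o o' : Finset α}
    (ho : o ∈ B) (ho' : o' ∈ B) (h : (o' ∩ o).card = 2) :
    (∀ d ∈ B, (d ∩ o).card = 0 → (d ∩ o').card ≠ 0) ∧
      ∃ d ∈ B, (d ∩ o).card = 0 ∧ (d ∩ o').card = 4 := by
  have hX : (o' \ o).card = 6 := by
    have := card_sdiff_add_card_inter o' o
    rw [h, hB.1 o' ho'] at this
    omega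
  obtain ⟨e0, e1, e2⟩ := s5824_disj_moments hα hB ho (sdiff_disjoint : Disjoint (o' \ o) o) 6 hX.le
  have hz := s5824_vals hα hB ho ho' (by rw [h]; decide)
  rw [hX] at e1 e2
  simp only [sum_range_succ, sum_range_zero] at e0 e1 e2
  rw [hz 1 (by decide) (by decide) (by decide), hz 3 (by decide) (by decide) (by decide),
    hz 5 (by decide) (by decide) (by decide), hz 6 (by decide) (by decide) (by decide)] at e0 e1 e2
  generalize hw : cntP B (fun d => (d ∩ o).card = 0) (o' \ o) = w at e0 e1 e2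
  norm_num [Nat.choose] at e0 e1 e2
  constructor
  · intro d hd h1 h2
    have h0 : w 0 = 0 := by omega
    rw [← hw] at h0
    have h3 := cntP_pos (P := fun d => (d ∩ o).card = 0) (X := o' \ o) hd h1
    rw [inter_sdiff_of_disjoint h1, h2] at h3
    omega
  · have hpos : 0 < w 4 := by omega
    rw [← hw] at hpos
    obtain ⟨d, hd, h1, h2⟩ := exists_of_cntP_pos hpos
    rw [inter_sdiff_of_disjoint h1] at h2
    exact ⟨d, hd, h1, h2⟩

end Cfsg.Agent.H1
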