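import Cfsg.Agent.Lib_helper2_FS2

set_option autoImplicit false
set_option linter.style.haveILetI false
set_option linter.unusedSectionVars false
open Cfsg

namespace Cfsg.Agent.H2

open Cfsg.Agent.H4
open scoped ComplexConjugate
universe u

theorem mul_single_mul_apply {n : ℕ} (P Q : Matrix (Fin n) (Fin n) ℂ) (a b c d : Fin n) :
    (P * (Matrix.single b c 1 : Matrix (Fin n) (Fin n) ℂ) * Q : Matrix (Fin n) (Fin n) ℂ) a d
      = P a b * Q c d := by
  rw [Matrix.mul_apply]
  rw [Finset.sum_eq_single c]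
  · rw [Matrix.mul_single_apply_same, mul_one]
  · intro x _ hx
    rw [Matrix.mul_single_apply_of_ne (hbj := hx), zero_mul]
  · intro h; exact absurd (Finset.mem_univ _) h

section
variable {G : Type u} [Group G] {n : ℕ} (ρ : Representation ℂ G (Fin n → ℂ))

/-- the matrix of `ρ g` -/
noncomputable abbrev mat (g : G) : Matrix (Fin n) (Fin n) ℂ := LinearMap.toMatrix' (ρ g)

theorem mat_mul (g h : G) : mat ρ (g * h) = mat ρ g * mat ρ h := by
  simp only [mat, map_mul]
  exact LinearMap.toMatrix'_mul _ _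

theorem mat_one : mat ρ 1 = 1 := by
  simp only [mat, map_one]
  exact LinearMap.toMatrix'_one

theorem mat_inv_mul (g : G) : mat ρ g⁻¹ * mat ρ g = 1 := by
  rw [← mat_mul, inv_mul_cancel, mat_one]

theorem mat_mul_inv (g : G) : mat ρ g * mat ρ g⁻¹ = 1 := by
  rw [← mat_mul, mul_inv_cancel, mat_one]

theorem trace_mat (g : G) : (mat ρ g).trace = ρ.character g := by
  rw [Representation.character, LinearMap.trace_eq_matrix_trace ℂ (Pi.basisFun ℂ (Fin n)),
    LinearMap.toMatrix_eq_toMatrix']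

theorem schur_matrix [ρ.IsIrreducible] (T : Matrix (Fin n) (Fin n) ℂ)
    (hT : ∀ g, T * mat ρ g = mat ρ g * T) : ∃ c : ℂ, T = c • (1 : Matrix (Fin n) (Fin n) ℂ) := by
  obtain ⟨c, hc⟩ := schur_scalar ρ (Matrix.toLin' T) (by
    intro g
    have h1 := congrArg Matrix.toLin' (hT g)
    rw [Matrix.toLin'_mul, Matrix.toLin'_mul, Matrix.toLin'_toMatrix'] at h1
    exact h1)
  refine ⟨c, ?_⟩
  have h2 := congrArg LinearMap.toMatrix' hc
  rw [LinearMap.toMatrix'_toLin', map_smul, LinearMap.toMatrix'_id] at h2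
  exact h2

theorem n_ne_zero [hirr : ρ.IsIrreducible] : (n : ℂ) ≠ 0 := by
  have h1 := ((irreducible_iff ρ).1 hirr).1
  intro h
  have h2 : n = 0 := by exact_mod_cast h
  subst h2
  obtain ⟨a, b, hab⟩ := h1
  exact hab (Subsingleton.elim _ _)

variable [Fintype G]

theorem schur_avg [ρ.IsIrreducible] (A : Matrix (Fin n) (Fin n) ℂ) :
    ∃ c : ℂ, ∑ g : G, mat ρ g⁻¹ * A * mat ρ g = c • (1 : Matrix (Fin n) (Fin n) ℂ) ∧
      (n : ℂ) * c = (Nat.card G : ℂ) * A.trace := by
  obtain ⟨c, hc⟩ := schur_matrix ρ (∑ g : G, mat ρ g⁻¹ * A * mat ρ g) (by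
    intro h
    rw [Finset.sum_mul, Finset.mul_sum, ← Equiv.sum_comp (Equiv.mulRight h)
      (fun g => mat ρ h * (mat ρ g⁻¹ * A * mat ρ g))]
    apply Finset.sum_congr rfl
    intro g _
    simp only [Equiv.coe_mulRight, mul_inv_rev, mat_mul]
    simp only [← mul_assoc, mat_mul_inv, one_mul])
  refine ⟨c, hc, ?_⟩
  have h1 := congrArg Matrix.trace hc
  rw [Matrix.trace_sum, Matrix.trace_smul, Matrix.trace_one, Fintype.card_fin, smul_eq_mul] at h1
  have h2 : ∀ g : G, (mat ρ g⁻¹ * A * mat ρ g).trace = A.trace := by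
    intro g
    rw [Matrix.trace_mul_comm, ← mul_assoc, mat_mul_inv, one_mul]
  simp only [h2, Finset.sum_const, Finset.card_univ, nsmul_eq_mul] at h1
  rw [mul_comm, ← h1, Nat.card_eq_fintype_card]

theorem schur_rel [ρ.IsIrreducible] (a b c d : Fin n) :
    (n : ℂ) * ∑ g : G, mat ρ g⁻¹ a b * mat ρ g c d
      = if a = d ∧ b = c then (Nat.card G : ℂ) else 0 := by
  obtain ⟨t, ht, htr⟩ := schur_avg ρ (Matrix.single b c 1)
  have h1 := congrFun (congrFun ht a) d
  rw [Matrix.sum_apply] at h1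
  simp only [mul_single_mul_apply, Matrix.smul_apply, smul_eq_mul, Matrix.one_apply] at h1
  rw [h1, ← mul_assoc, htr]
  by_cases hbc : b = c
  · subst hbc
    rw [Matrix.trace_single_eq_same, mul_one]
    by_cases had : a = d
    · simp [had]
    · simp [had]
  · rw [Matrix.trace_single_eq_of_ne _ _ _ hbc]
    simp [hbc]

/-- `∑ X(g²)` is the scalar `|G| ν / n`. -/
theorem sum_sq_scalar [ρ.IsIrreducible] :
    ∃ c : ℂ, ∑ g : G, mat ρ (g * g) = c • (1 : Matrix (Fin n) (Fin n) ℂ) ∧
      (n : ℂ) * c = ∑ g : G, ρ.character (g * g) := by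
  obtain ⟨c, hc⟩ := schur_matrix ρ (∑ g : G, mat ρ (g * g)) (by
    intro h
    rw [Finset.sum_mul, Finset.mul_sum, ← Equiv.sum_comp (MulAut.conj h).toEquiv
      (fun g => mat ρ (g * g) * mat ρ h)]
    apply Finset.sum_congr rfl
    intro g _
    simp only [MulEquiv.toEquiv_eq_coe, EquivLike.coe_coe, MulAut.conj_apply, ← mat_mul]
    congr 1
    group)
  refine ⟨c, hc, ?_⟩
  have h1 := congrArg Matrix.trace hc
  rw [Matrix.trace_sum, Matrix.trace_smul, Matrix.trace_one, Fintype.card_fin, smul_eq_mul] at h1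
  simp only [trace_mat] at h1
  rw [mul_comm, ← h1]

/-- invariant bilinear forms -/
def InvForm (M : Matrix (Fin n) (Fin n) ℂ) : Prop :=
  ∀ g : G, (mat ρ g).transpose * M * mat ρ g = M

theorem InvForm.mul_mat {M : Matrix (Fin n) (Fin n) ℂ} (hM : InvForm ρ M) (g : G) :
    M * mat ρ g = (mat ρ g⁻¹).transpose * M := by
  have h1 := congrArg (fun Z => (mat ρ g⁻¹).transpose * Z) (hM g)
  simp only [← mul_assoc, ← Matrix.transpose_mul, mat_mul_inv, Matrix.transpose_one, one_mul] at h1
  exact h1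

/-- the key identity: an invariant form satisfies `Mᵀ = ν M`. -/
theorem InvForm.transpose_eq [ρ.IsIrreducible] {M : Matrix (Fin n) (Fin n) ℂ} (hM : InvForm ρ M) :
    M.transpose = ((Nat.card G : ℂ)⁻¹ * ∑ s : G, ρ.character (s * s)) • M := by
  have hn : (n : ℂ) ≠ 0 := n_ne_zero ρ
  have hG : (Nat.card G : ℂ) ≠ 0 := card_ne_zero_C
  obtain ⟨c, hc, hcn⟩ := sum_sq_scalar ρ
  have h1 : ∑ g : G, (mat ρ g⁻¹).transpose * M * mat ρ g = c • M := by
    have h2 : ∀ g : G, (mat ρ g⁻¹).transpose * M * mat ρ g = M * mat ρ (g * g) := by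
      intro g
      rw [← hM.mul_mat, mat_mul, mul_assoc]
    simp only [h2]
    rw [← Finset.mul_sum, hc, Matrix.mul_smul, mul_one]
  have h3 : (n : ℂ) • ∑ g : G, (mat ρ g⁻¹).transpose * M * mat ρ g = (Nat.card G : ℂ) • M.transpose := by
    ext i j
    rw [Matrix.smul_apply, Matrix.smul_apply, Matrix.sum_apply, Matrix.transpose_apply, smul_eq_mul,
      smul_eq_mul]
    have h4 : ∀ g : G, ((mat ρ g⁻¹).transpose * M * mat ρ g) i j
        = ∑ l, ∑ k, M k l * (mat ρ g⁻¹ k i * mat ρ g l j) := by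
      intro g
      rw [Matrix.mul_apply]
      apply Finset.sum_congr rfl
      intro l _
      rw [Matrix.mul_apply, Finset.sum_mul]
      apply Finset.sum_congr rfl
      intro k _
      rw [Matrix.transpose_apply]; ring
    simp only [h4]
    rw [Finset.sum_comm, Finset.mul_sum]
    have h5 : ∀ l : Fin n, (n : ℂ) * ∑ g : G, ∑ k, M k l * (mat ρ g⁻¹ k i * mat ρ g l j)
        = if i = l then (Nat.card G : ℂ) * M j i else 0 := by
      intro l
      rw [Finset.sum_comm, Finset.mul_sum]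
      have h6 : ∀ k : Fin n, (n : ℂ) * ∑ g : G, M k l * (mat ρ g⁻¹ k i * mat ρ g l j)
          = M k l * if k = j ∧ i = l then (Nat.card G : ℂ) else 0 := by
        intro k
        rw [← Finset.mul_sum, ← schur_rel ρ k i l j]; ring
      simp only [h6]
      by_cases hil : i = l
      · subst hil
        simp [mul_comm]
      · simp [hil]
    simp only [h5]
    simp
  rw [h1, smul_smul, hcn] at h3
  have h7 : M.transpose = (Nat.card G : ℂ)⁻¹ • ((Nat.card G : ℂ) • M.transpose) := by
    rw [smul_smul, inv_mul_cancel₀ hG, one_smul]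
  rw [h7, ← h3, smul_smul]

/-- averaging produces invariant forms -/
theorem invForm_avg (A : Matrix (Fin n) (Fin n) ℂ) :
    InvForm ρ (∑ g : G, (mat ρ g).transpose * A * mat ρ g) := by
  intro h
  rw [Finset.mul_sum, Finset.sum_mul, ← Equiv.sum_comp (Equiv.mulRight h)
    (fun g => (mat ρ g).transpose * A * mat ρ g)]
  apply Finset.sum_congr rfl
  intro g _
  simp only [Equiv.coe_mulRight, mat_mul, Matrix.transpose_mul, mul_assoc]

theorem exists_invForm [hirr : ρ.IsIrreducible] (hreal : ∀ g : G, (ρ.character g).im = 0) :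
    ∃ M : Matrix (Fin n) (Fin n) ℂ, M ≠ 0 ∧ InvForm ρ M := by
  classical
  have hG : (Nat.card G : ℂ) ≠ 0 := card_ne_zero_C
  by_contra hcon
  push Not at hcon
  have h0 : ∀ A : Matrix (Fin n) (Fin n) ℂ, ∑ g : G, (mat ρ g).transpose * A * mat ρ g = 0 := by
    intro A
    by_contra h
    exact hcon _ h (invForm_avg ρ A)
  have h1 : ∑ i : Fin n, ∑ j : Fin n, (∑ g : G, (mat ρ g).transpose *
      (Matrix.single i j 1 : Matrix (Fin n) (Fin n) ℂ) * mat ρ g) i j = 0 := by
    simp only [h0]; simp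
  simp only [Matrix.sum_apply, mul_single_mul_apply, Matrix.transpose_apply] at h1
  have h2 : ∑ i : Fin n, ∑ j : Fin n, ∑ g : G, mat ρ g i i * mat ρ g j j
      = ∑ g : G, ρ.character g * ρ.character g := by
    have h3 : ∀ g : G, ρ.character g * ρ.character g = ∑ i : Fin n, ∑ j : Fin n, mat ρ g i i * mat ρ g j j := by
      intro g
      rw [← trace_mat, Matrix.trace, Finset.sum_mul_sum]
      rfl
    simp only [h3]
    rw [Finset.sum_comm (s := (Finset.univ : Finset G))]
    apply Finset.sum_congr rfl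
    intro i _
    rw [Finset.sum_comm]
  rw [h2] at h1
  have h4 := IsIrrCharacter.norm_one (isIrrCharacter_of_rep ρ hirr)
  unfold classInner at h4
  have h5 : ∀ g : G, conj (ρ.character g) = ρ.character g := fun g => Complex.conj_eq_iff_im.2 (hreal g)
  simp only [h5, h1, mul_zero] at h4
  exact zero_ne_one h4

end

end Cfsg.Agent.H2
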