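import Mathlib

set_option autoImplicit false
open Pointwise

namespace Cfsg.Agent.H2

universe u v

theorem class_formula_index {G : Type u} {Y : Type v} [Group G] [MulAction G Y] [Finite Y] :
    Nat.card Y = ∑ᶠ ω : Quotient (MulAction.orbitRel G Y), (MulAction.stabilizer G ω.out).index := by
  classical
  have := Fintype.ofFinite (Quotient (MulAction.orbitRel G Y))
  have hfin : ∀ ω : Quotient (MulAction.orbitRel G Y), Finite (G ⧸ MulAction.stabilizer G ω.out) := by
    intro ω
    exact Finite.of_equiv _ (MulAction.orbitEquivQuotientStabilizer G ω.out)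
  rw [Nat.card_congr (MulAction.selfEquivSigmaOrbitsQuotientStabilizer G Y), Nat.card_sigma,
    finsum_eq_sum_of_fintype]
  rfl

theorem dvd_card_of_dvd_index {G : Type u} {Y : Type v} [Group G] [MulAction G Y] [Finite Y] (d : ℕ)
    (h : ∀ y : Y, d ∣ (MulAction.stabilizer G y).index) : d ∣ Nat.card Y := by
  classical
  have := Fintype.ofFinite (Quotient (MulAction.orbitRel G Y))
  rw [class_formula_index (G := G), finsum_eq_sum_of_fintype]
  exact Finset.dvd_sum (fun ω _ => h _)

theorem choose_pred_modEq_one (p : ℕ) [hp : Fact p.Prime] :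
    ∀ (β m : ℕ), 0 < m → Nat.choose (p ^ β * m - 1) (p ^ β - 1) ≡ 1 [MOD p] := by
  have hp1 : 1 ≤ p := hp.out.one_lt.le
  have key : ∀ a : ℕ, 0 < a → (p * a - 1) % p = p - 1 ∧ (p * a - 1) / p = a - 1 := by
    intro a ha
    obtain ⟨a', rfl⟩ : ∃ a', a = a' + 1 := ⟨a - 1, by omega⟩
    have e : p * (a' + 1) - 1 = p * a' + (p - 1) := by
      rw [Nat.mul_succ]; omega
    rw [e]
    constructor
    · rw [Nat.mul_add_mod, Nat.mod_eq_of_lt (by omega)]
    · rw [Nat.mul_add_div (by omega), Nat.div_eq_of_lt (by omega)]
      simp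
  intro β
  induction β with
  | zero => intro m _; simp [Nat.ModEq]
  | succ β ih =>
    intro m hm
    have h1 := Choose.choose_modEq_choose_mod_mul_choose_div_nat (p := p)
      (n := p ^ (β + 1) * m - 1) (k := p ^ (β + 1) - 1)
    have e1 : p ^ (β + 1) * m = p * (p ^ β * m) := by ring
    have e2 : p ^ (β + 1) = p * p ^ β := by ring
    have hpos : 0 < p ^ β := pow_pos (by omega) β
    rw [e1, (key _ (Nat.mul_pos hpos hm)).1, (key _ (Nat.mul_pos hpos hm)).2] at h1
    rw [e2, (key _ hpos).1, (key _ hpos).2, Nat.choose_self, one_mul] at h1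
    rw [e1, e2]
    exact h1.trans (ih m hm)

theorem choose_mul_eq (q m : ℕ) (hq : 0 < q) (hm : 0 < m) :
    Nat.choose (q * m) q = m * Nat.choose (q * m - 1) (q - 1) := by
  have h := Nat.add_one_mul_choose_eq (q * m - 1) (q - 1)
  have e1 : q * m - 1 + 1 = q * m := by
    have := Nat.mul_pos hq hm
    omega
  have e2 : q - 1 + 1 = q := by omega
  rw [e1, e2] at h
  apply Nat.eq_of_mul_eq_mul_right hq
  rw [← h]
  ring

section wielandt
variable {G : Type u} [Group G] [Fintype G] [DecidableEq G] (q : ℕ)

/-- action of `G` on the subsets of size `q` by left multiplication -/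
abbrev subsetAct : MulAction G {X : Finset G // X.card = q} where
  smul g X := ⟨g • X.1, by rw [Finset.card_smul_finset]; exact X.2⟩
  one_smul X := Subtype.ext (one_smul G X.1)
  mul_smul g h X := Subtype.ext (mul_smul g h X.1)

/-- the stabiliser of a subset has order dividing the size of the subset -/
theorem card_stab_dvd (X : Finset G) (H : Subgroup G) (hH : ∀ h ∈ H, h • X = X) :
    Nat.card H ∣ X.card := by
  let act : MulAction H {x // x ∈ X} :=
    { smul := fun h x => ⟨(h : G) * x.1, by
        have h1 : (h : G) • x.1 ∈ (h : G) • X := Finset.smul_mem_smul_finset x.2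
        rw [hH h h.2] at h1
        exact h1⟩
      one_smul := fun x => Subtype.ext (one_mul _)
      mul_smul := fun a b x => Subtype.ext (mul_assoc _ _ _) }
  have h1 := dvd_card_of_dvd_index (G := H) (Y := {x // x ∈ X}) (Nat.card H) (by
    intro y
    have h2 : MulAction.stabilizer H y = ⊥ := by
      rw [eq_bot_iff]
      intro h hh
      have h3 : (h : G) * y.1 = y.1 := congrArg Subtype.val (MulAction.mem_stabilizer_iff.mp hh)
      rw [Subgroup.mem_bot]
      exact Subtype.ext (mul_eq_right.mp h3)
    rw [h2, Subgroup.index_bot])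
  simpa using h1

end wielandt

/-- Frobenius: the number of subgroups of order `p ^ β` is `≡ 1 (mod p)`. -/
theorem card_subgroups_modEq_one {G : Type u} [Group G] [Finite G] (p β : ℕ) (hp : p.Prime)
    (hdiv : p ^ β ∣ Nat.card G) :
    Nat.card {H : Subgroup G // Nat.card H = p ^ β} ≡ 1 [MOD p] := by
  classical
  have := Fintype.ofFinite G
  have := Fact.mk hp
  obtain ⟨m, hm⟩ := hdiv
  set q := p ^ β with hq
  have hqpos : 0 < q := pow_pos hp.pos β
  have hmpos : 0 < m := by
    rcases Nat.eq_zero_or_pos m with h | h
    · rw [h, mul_zero] at hm; exact absurd hm Nat.card_pos.ne'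
    · exact h
  let _ := subsetAct (G := G) q
  have hsm : ∀ (g : G) (X : {X : Finset G // X.card = q}), (g • X).1 = g • X.1 := fun _ _ => rfl
  have hcardΩ : Nat.card {X : Finset G // X.card = q} = Nat.choose (q * m) q := by
    rw [Nat.card_eq_fintype_card, Fintype.card_finset_len, ← Nat.card_eq_fintype_card, hm]
  have hstabmem : ∀ (X : {X : Finset G // X.card = q}) (h : G),
      h ∈ MulAction.stabilizer G X ↔ h • X.1 = X.1 := by
    intro X h
    rw [MulAction.mem_stabilizer_iff]
    exact ⟨fun hh => congrArg Subtype.val hh, fun hh => Subtype.ext hh⟩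
  have hstab : ∀ X : {X : Finset G // X.card = q}, Nat.card (MulAction.stabilizer G X) ∣ q := by
    intro X
    have := card_stab_dvd X.1 (MulAction.stabilizer G X) (fun h hh => (hstabmem X h).mp hh)
    rwa [X.2] at this
  have hidx : ∀ X : {X : Finset G // X.card = q},
      (MulAction.stabilizer G X).index * Nat.card (MulAction.stabilizer G X) = q * m := by
    intro X; rw [Subgroup.index_mul_card, hm]
  have hgood : ∀ X : {X : Finset G // X.card = q}, Nat.card (MulAction.stabilizer G X) = q →
      (MulAction.stabilizer G X).index = m := by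
    intro X h
    have := hidx X
    rw [h, mul_comm] at this
    exact Nat.eq_of_mul_eq_mul_left hqpos this
  have hbad : ∀ X : {X : Finset G // X.card = q}, Nat.card (MulAction.stabilizer G X) ≠ q →
      p * m ∣ (MulAction.stabilizer G X).index := by
    intro X h
    obtain ⟨j, hj, hcard⟩ := (Nat.dvd_prime_pow hp).mp (hstab X)
    have hjlt : j < β := lt_of_le_of_ne hj (by rintro rfl; exact h hcard)
    have h1 := hidx X
    rw [hcard] at h1
    obtain ⟨t, ht⟩ : ∃ t, β = j + 1 + t := ⟨β - j - 1, by omega⟩
    have h2 : (MulAction.stabilizer G X).index = p ^ t * (p * m) := by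
      apply Nat.eq_of_mul_eq_mul_right (pow_pos hp.pos j)
      rw [h1, hq, ht]; ring
    rw [h2]; exact Dvd.intro_left _ rfl
  have := Fintype.ofFinite (Quotient (MulAction.orbitRel G {X : Finset G // X.card = q}))
  have hsum : Nat.card {X : Finset G // X.card = q}
      = ∑ ω : Quotient (MulAction.orbitRel G {X : Finset G // X.card = q}),
        (MulAction.stabilizer G ω.out).index := by
    rw [class_formula_index (G := G), finsum_eq_sum_of_fintype]
  have hmod : Nat.card {X : Finset G // X.card = q} ≡
      m * Nat.card {ω : Quotient (MulAction.orbitRel G {X : Finset G // X.card = q}) //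
        Nat.card (MulAction.stabilizer G ω.out) = q} [MOD p * m] := by
    rw [hsum]
    have h1 : ∀ ω : Quotient (MulAction.orbitRel G {X : Finset G // X.card = q}),
        (MulAction.stabilizer G ω.out).index % (p * m)
          = (if Nat.card (MulAction.stabilizer G ω.out) = q then m else 0) % (p * m) := by
      intro ω
      split_ifs with h
      · rw [hgood _ h]
      · exact Nat.modEq_zero_iff_dvd.mpr (hbad _ h)
    have h2 : m * Nat.card {ω : Quotient (MulAction.orbitRel G {X : Finset G // X.card = q}) //
        Nat.card (MulAction.stabilizer G ω.out) = q}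
        = ∑ ω : Quotient (MulAction.orbitRel G {X : Finset G // X.card = q}),
          (if Nat.card (MulAction.stabilizer G ω.out) = q then m else 0) := by
      rw [Finset.sum_ite, Finset.sum_const_zero, add_zero, Finset.sum_const, smul_eq_mul, mul_comm,
        Nat.card_eq_fintype_card, Fintype.card_subtype]
    rw [h2, Nat.ModEq, Finset.sum_nat_mod, Finset.sum_congr rfl (fun ω _ => h1 ω),
      ← Finset.sum_nat_mod]
  -- the bijection between good orbits and subgroups of order `q`
  have hfincard : ∀ K : Subgroup G, (Finset.univ.filter (· ∈ K)).card = Nat.card K := by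
    intro K
    rw [Nat.card_eq_fintype_card, Fintype.card_subtype]
  let φ : {H : Subgroup G // Nat.card H = q} → {X : Finset G // X.card = q} := fun K =>
    ⟨Finset.univ.filter (· ∈ K.1), by rw [hfincard]; exact K.2⟩
  have hφmem : ∀ (K : {H : Subgroup G // Nat.card H = q}) (x : G), x ∈ (φ K).1 ↔ x ∈ K.1 := by
    intro K x
    simp [φ]
  have hφstab : ∀ K : {H : Subgroup G // Nat.card H = q}, MulAction.stabilizer G (φ K) = K.1 := by
    intro K
    ext g
    rw [hstabmem]
    constructor
    · intro h
      have h1 : g • (1 : G) ∈ g • (φ K).1 :=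
        Finset.smul_mem_smul_finset ((hφmem K 1).mpr K.1.one_mem)
      rw [h, hφmem] at h1
      simpa using h1
    · intro h
      ext x
      rw [← Finset.inv_smul_mem_iff, hφmem, hφmem, smul_eq_mul]
      exact K.1.mul_mem_cancel_left (K.1.inv_mem h)
  have hconj : ∀ X Y : {X : Finset G // X.card = q},
      (⟦X⟧ : Quotient (MulAction.orbitRel G {X : Finset G // X.card = q})) = ⟦Y⟧ →
      Nat.card (MulAction.stabilizer G X) = Nat.card (MulAction.stabilizer G Y) := by
    intro X Y h
    obtain ⟨g, hg⟩ : X ∈ MulAction.orbit G Y := Quotient.exact h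
    have hg' : g • Y = X := hg
    rw [← hg', MulAction.stabilizer_smul_eq_stabilizer_map_conj,
      Subgroup.card_map_of_injective (MulAut.conj g).injective]
  have hbij : Nat.card {H : Subgroup G // Nat.card H = q}
      = Nat.card {ω : Quotient (MulAction.orbitRel G {X : Finset G // X.card = q}) //
        Nat.card (MulAction.stabilizer G ω.out) = q} := by
    apply Nat.card_congr
    apply Equiv.ofBijective (fun K => ⟨⟦φ K⟧, by
      rw [hconj _ (φ K) (Quotient.out_eq _), hφstab]; exact K.2⟩)
    constructor
    · intro K K' h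
      have h1 : (⟦φ K⟧ : Quotient (MulAction.orbitRel G {X : Finset G // X.card = q})) = ⟦φ K'⟧ :=
        congrArg Subtype.val h
      obtain ⟨g, hg⟩ : φ K ∈ MulAction.orbit G (φ K') := Quotient.exact h1
      have hg' : g • (φ K').1 = (φ K).1 := congrArg Subtype.val hg
      have h2 : (1 : G) ∈ g • (φ K').1 := by rw [hg', hφmem]; exact K.1.one_mem
      rw [← Finset.inv_smul_mem_iff, hφmem, smul_eq_mul, mul_one] at h2
      have h3 : g ∈ MulAction.stabilizer G (φ K') := by
        rw [hφstab]; simpa using K'.1.inv_mem h2
      rw [hstabmem, hg'] at h3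
      apply Subtype.ext
      ext x
      rw [← hφmem, ← hφmem, h3]
    · rintro ⟨ω, hω⟩
      obtain ⟨x, hx⟩ : (ω.out).1.Nonempty := by
        rw [← Finset.card_pos, (ω.out).2]; exact hqpos
      let K : {H : Subgroup G // Nat.card H = q} :=
        ⟨(MulAction.stabilizer G ω.out).map (MulAut.conj x⁻¹).toMonoidHom, by
          rw [Subgroup.card_map_of_injective (MulAut.conj x⁻¹).injective]; exact hω⟩
      have h1 : (φ K).1 = x⁻¹ • (ω.out).1 := by
        apply Finset.eq_of_subset_of_card_le
        · intro y hy
          rw [hφmem] at hy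
          obtain ⟨h, hh, rfl⟩ := hy
          have h2 : h • x ∈ h • (ω.out).1 := Finset.smul_mem_smul_finset hx
          rw [(hstabmem _ h).mp hh] at h2
          rw [← Finset.inv_smul_mem_iff]
          simpa [mul_assoc] using h2
        · rw [Finset.card_smul_finset, (φ K).2, (ω.out).2]
      refine ⟨K, ?_⟩
      apply Subtype.ext
      show (⟦φ K⟧ : Quotient (MulAction.orbitRel G {X : Finset G // X.card = q})) = ω
      rw [← Quotient.out_eq ω]
      apply Quotient.sound
      exact ⟨x⁻¹, Subtype.ext h1.symm⟩
  rw [hcardΩ, choose_mul_eq q m hqpos hmpos, ← hbij, mul_comm p m] at hmod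
  have h3 := Nat.ModEq.mul_left_cancel' hmpos.ne' hmod
  exact h3.symm.trans (choose_pred_modEq_one p β m hmpos)

end Cfsg.Agent.H2
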