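import Cfsg.Agent.Lib_helper2_Glaub12

set_option autoImplicit false
set_option linter.unusedSectionVars false
open Cfsg

namespace Cfsg.Agent.H2

open Cfsg.Agent.H4
universe u v

theorem eq_of_constituent_of_degree {G : Type u} [Group G] [Fintype G] {χ : G → ℂ}
    (hχ : IsCharacter G χ) (θ : IrrCharacter G) (hcon : classInner χ (θ : G → ℂ) ≠ 0)
    (hdeg : χ 1 = (θ : G → ℂ) 1) : χ = θ := by
  classical
  have := Fintype.ofFinite (IrrCharacter G)
  have h : IsCharacter G (χ - (θ : G → ℂ)) := by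
    rw [isCharacter_iff]
    refine ⟨IsClassFunction.sub (IsCharacter.isClassFunction hχ)
      (IsCharacter.isClassFunction (IsIrrCharacter.isCharacter θ.2)), fun ψ => ?_⟩
    obtain ⟨n, hn⟩ := IsCharacter.classInner_irr_nat hχ ψ
    rw [classInner_sub_left, hn, irr_orthonormal]
    by_cases h : θ = ψ
    · subst h
      have hn0 : n ≠ 0 := by
        rintro rfl
        exact hcon (by rw [hn]; simp)
      refine ⟨n - 1, ?_⟩
      rw [if_pos rfl, Nat.cast_sub (Nat.one_le_iff_ne_zero.mpr hn0)]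
      simp
    · exact ⟨n, by rw [if_neg h]; simp⟩
  have h2 := IsCharacter.eq_zero_of_apply_one h (by simp [hdeg])
  exact sub_eq_zero.mp h2

/-- transport of irreducible characters as an equivalence -/
def irrEquiv {D' D : Type u} [Group D'] [Group D] (e : D' ≃* D) : IrrCharacter D ≃ IrrCharacter D' where
  toFun := irrCongr e
  invFun := irrCongr e.symm
  left_inv := irrCongr_symm e
  right_inv := irrCongr_symm' e

theorem card_lin {X : Type u} [Group X] [Finite X] (M H : Subgroup X) [hM : M.Normal]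
    (htop : M ⊔ H = ⊤) (hcop : (Nat.card M).Coprime (Nat.card H)) :
    Nat.card {μ : X →* ℂˣ // ∀ m ∈ M, μ m = 1} = Nat.card (H →* ℂˣ) := by
  have hbij : Function.Bijective ((QuotientGroup.mk' M).comp H.subtype) := by
    constructor
    · rw [injective_iff_map_eq_one]
      intro h hh
      have h1 : (h : X) ∈ M := (QuotientGroup.eq_one_iff (h : X)).mp hh
      have h2 : (h : X) ∈ M ⊓ H := ⟨h1, h.2⟩
      rw [(Subgroup.disjoint_of_coprime_natCard hcop).eq_bot, Subgroup.mem_bot] at h2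
      exact Subtype.ext h2
    · intro q
      obtain ⟨x, rfl⟩ := QuotientGroup.mk'_surjective M q
      obtain ⟨g, hg, t, ht, rfl⟩ := gs_decomp M H htop x
      refine ⟨⟨t, ht⟩, ?_⟩
      show (QuotientGroup.mk t : X ⧸ M) = QuotientGroup.mk (g * t)
      rw [QuotientGroup.eq]
      have : t⁻¹ * (g * t) = t⁻¹ * g * t⁻¹⁻¹ := by group
      rw [this]
      exact hM.conj_mem g hg t⁻¹
  let e : H ≃* X ⧸ M := MulEquiv.ofBijective _ hbij
  have he : ∀ h : H, e h = QuotientGroup.mk (h : X) := fun h => rfl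
  apply Nat.card_congr (Equiv.ofBijective
    (fun μ : {μ : X →* ℂˣ // ∀ m ∈ M, μ m = 1} => μ.1.comp H.subtype) ⟨?_, ?_⟩)
  · rintro ⟨μ, hμ⟩ ⟨μ', hμ'⟩ h
    apply Subtype.ext
    apply MonoidHom.ext
    intro x
    obtain ⟨g, hg, t, ht, rfl⟩ := gs_decomp M H htop x
    have h1 := DFunLike.congr_fun h ⟨t, ht⟩
    simp only [MonoidHom.comp_apply, Subgroup.subtype_apply] at h1
    rw [map_mul, map_mul, hμ g hg, hμ' g hg, h1]
  · intro lam
    refine ⟨⟨(lam.comp e.symm.toMonoidHom).comp (QuotientGroup.mk' M), ?_⟩, ?_⟩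
    · intro m hm
      have : (QuotientGroup.mk' M) m = 1 := (QuotientGroup.eq_one_iff m).mpr hm
      simp only [MonoidHom.comp_apply, this, map_one]
    · apply MonoidHom.ext
      intro h
      show lam (e.symm (QuotientGroup.mk (h : X))) = lam h
      rw [← he, MulEquiv.symm_apply_apply]

theorem card_coprime_degree {X : Type u} [Group X] [Finite X] (M H : Subgroup X) [hM : M.Normal]
    (htop : M ⊔ H = ⊤) (hcop : (Nat.card M).Coprime (Nat.card H)) :
    Nat.card {χ : IrrCharacter X // (charDegree (χ : X → ℂ)).Coprime (Nat.card H)}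
      = Nat.card {θ : IrrCharacter M // ∀ (x : X) (n : M),
          (θ : M → ℂ) ⟨x * n * x⁻¹, hM.conj_mem n n.2 x⟩ = (θ : M → ℂ) n}
        * Nat.card {μ : X →* ℂˣ // ∀ m ∈ M, μ m = 1} := by
  classical
  have := Fintype.ofFinite X
  have := Fintype.ofFinite M
  have hidx : M.index = Nat.card H := gs_index M H hcop htop
  have hex : ∀ θ : {θ : IrrCharacter M // ∀ (x : X) (n : M),
      (θ : M → ℂ) ⟨x * n * x⁻¹, hM.conj_mem n n.2 x⟩ = (θ : M → ℂ) n},
      ∃ χ : X → ℂ, IsIrrCharacter X χ ∧ ∀ n : M, χ n = (θ.1 : M → ℂ) n := fun θ =>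
    extends_of_coprime_card M θ.1 θ.1.2 θ.2 (by rw [hidx]; exact hcop)
  choose E hE1 hE2 using hex
  rw [← Nat.card_prod]
  symm
  have hirr : ∀ (θ : {θ : IrrCharacter M // ∀ (x : X) (n : M),
      (θ : M → ℂ) ⟨x * n * x⁻¹, hM.conj_mem n n.2 x⟩ = (θ : M → ℂ) n}) (μ : X →* ℂˣ),
      IsIrrCharacter X ((fun x => (μ x : ℂ)) * E θ) := fun θ μ =>
    IsIrrCharacter.linear_mul_irr (isCharacter_of_hom μ) (by simp) (hE1 θ)
  have hdeg : ∀ (θ : {θ : IrrCharacter M // ∀ (x : X) (n : M),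
      (θ : M → ℂ) ⟨x * n * x⁻¹, hM.conj_mem n n.2 x⟩ = (θ : M → ℂ) n}) (μ : X →* ℂˣ),
      (charDegree ((fun x => (μ x : ℂ)) * E θ)).Coprime (Nat.card H) := by
    intro θ μ
    obtain ⟨d, -, hdvd, hd⟩ := IsIrrCharacter.exists_degree θ.1.2
    have h1 : ((fun x => (μ x : ℂ)) * E θ) 1 = d := by
      have := hE2 θ 1
      simp only [Pi.mul_apply, map_one, Units.val_one, one_mul]
      rw [← hd, ← this]
      rfl
    rw [charDegree_eq h1]
    exact Nat.Coprime.coprime_dvd_left hdvd hcop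
  apply Nat.card_congr (Equiv.ofBijective
    (fun q : {θ : IrrCharacter M // ∀ (x : X) (n : M),
      (θ : M → ℂ) ⟨x * n * x⁻¹, hM.conj_mem n n.2 x⟩ = (θ : M → ℂ) n} ×
        {μ : X →* ℂˣ // ∀ m ∈ M, μ m = 1} =>
      (⟨⟨_, hirr q.1 q.2.1⟩, hdeg q.1 q.2.1⟩ :
        {χ : IrrCharacter X // (charDegree (χ : X → ℂ)).Coprime (Nat.card H)})) ⟨?_, ?_⟩)
  · rintro ⟨θ, μ, hμ⟩ ⟨θ', μ', hμ'⟩ h
    have h0 : ((fun x => (μ x : ℂ)) * E θ) = ((fun x => (μ' x : ℂ)) * E θ') :=
      congrArg (fun z => (z.1 : X → ℂ)) h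
    have h1 : θ = θ' := by
      apply Subtype.ext
      apply Subtype.ext
      funext m
      have := congrFun h0 m
      simp only [Pi.mul_apply, hμ m m.2, hμ' m m.2, Units.val_one, one_mul, hE2] at this
      exact this
    subst h1
    have hres : IsIrrCharacter M (fun n : M => E θ n) := by
      have : (fun n : M => E θ n) = θ.1 := funext (hE2 θ)
      rw [this]
      exact θ.1.2
    have h2 := (gallagher M (E θ) (hE1 θ) hres).2.1 _ _ (isIrrCharacter_of_hom μ)
      (by intro n hn; simp [hμ n hn]) (isIrrCharacter_of_hom μ') (by intro n hn; simp [hμ' n hn]) h0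
    have h3 : μ = μ' := by
      apply MonoidHom.ext
      intro x
      exact Units.ext (congrFun h2 x)
    subst h3
    rfl
  · rintro ⟨χ, hχ⟩
    have hχM : IsCharacter M (fun n : M => (χ : X → ℂ) n) :=
      IsCharacter.restrict M (IsIrrCharacter.isCharacter χ.2)
    obtain ⟨dχ, hdχ0, -, hdχ⟩ := IsIrrCharacter.exists_degree χ.2
    have hne : (fun n : M => (χ : X → ℂ) n) ≠ 0 := by
      intro h
      have := congrFun h 1
      simp only [OneMemClass.coe_one, Pi.zero_apply, hdχ] at this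
      exact hdχ0.ne' (by exact_mod_cast this)
    obtain ⟨θ, hθ⟩ := IsCharacter.exists_constituent hχM hne
    obtain ⟨e, he1, he2⟩ := degree_ratio M θ θ.2 χ χ.2 hθ
    obtain ⟨d, -, -, hd⟩ := IsIrrCharacter.exists_degree θ.2
    have h1 : dχ = e * d := by
      rw [hdχ, hd] at he1
      exact_mod_cast he1
    rw [charDegree_eq hdχ, h1] at hχ
    have he : e = 1 := by
      have h2 : e.Coprime (Nat.card H) := Nat.Coprime.coprime_dvd_left (Dvd.intro _ rfl) hχ
      rw [hidx] at he2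
      exact Nat.Coprime.eq_one_of_dvd h2 he2
    rw [he, Nat.cast_one, one_mul] at he1
    have hres : (fun n : M => (χ : X → ℂ) n) = θ := eq_of_constituent_of_degree hχM θ hθ he1
    have hinv : ∀ (x : X) (n : M),
        (θ : M → ℂ) ⟨x * n * x⁻¹, hM.conj_mem n n.2 x⟩ = (θ : M → ℂ) n := by
      intro x n
      rw [← hres]
      exact IsCharacter.isClassFunction (IsIrrCharacter.isCharacter χ.2) n x
    have hresE : IsIrrCharacter M (fun n : M => E ⟨θ, hinv⟩ n) := by
      have : (fun n : M => E ⟨θ, hinv⟩ n) = θ := funext (hE2 ⟨θ, hinv⟩)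
      rw [this]
      exact θ.2
    obtain ⟨μ, hμ1, hμ2⟩ := ext_differ_linear M (E ⟨θ, hinv⟩) χ (hE1 _) χ.2 hresE (by
      intro m
      rw [hE2]
      exact congrFun hres m)
    refine ⟨(⟨θ, hinv⟩, ⟨μ, hμ1⟩), ?_⟩
    apply Subtype.ext
    apply Subtype.ext
    funext x
    exact (hμ2 x).symm

end Cfsg.Agent.H2
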