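import Cfsg.Agent.Lib_helper2_Glaub13

set_option autoImplicit false
set_option linter.unusedSectionVars false
open Cfsg

namespace Cfsg.Agent.H2

open Cfsg.Agent.H4
universe u v

theorem card_weighted {X : Type u} [Fintype X] (Q : X → Prop) [DecidablePred Q] (f : X → ℕ) :
    Finite {q : X × ℕ // Q q.1 ∧ q.2 < f q.1} ∧
    Nat.card {q : X × ℕ // Q q.1 ∧ q.2 < f q.1} = ∑ x ∈ Finset.univ.filter Q, f x := by
  classical
  have h : ∀ q : X × ℕ, q ∈ ((Finset.univ.filter Q).sigma (fun x => Finset.range (f x))).map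
      (Equiv.sigmaEquivProd X ℕ).toEmbedding ↔ Q q.1 ∧ q.2 < f q.1 := by
    rintro ⟨x, n⟩
    simp only [Finset.mem_map, Finset.mem_sigma, Finset.mem_filter, Finset.mem_univ, true_and,
      Finset.mem_range, Equiv.coe_toEmbedding, Equiv.sigmaEquivProd_apply, Sigma.exists,
      Prod.mk.injEq]
    constructor
    · rintro ⟨a, b, h, rfl, rfl⟩
      exact h
    · intro h
      exact ⟨x, n, h, rfl, rfl⟩
  have := Fintype.subtype _ h
  refine ⟨inferInstance, ?_⟩
  rw [Nat.card_eq_fintype_card, Fintype.card_of_subtype _ h, Finset.card_map, Finset.card_sigma]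
  simp

theorem sum_modEq_fixed {p : ℕ} [Fact p.Prime] {R : Type v} {X : Type u} [Group R]
    (hP : IsPGroup p R) [MulAction R X] [Fintype X]
    [DecidablePred fun x : X => x ∈ MulAction.fixedPoints R X] (f : X → ℕ)
    (hf : ∀ (g : R) (x : X), f (g • x) = f x) :
    ∑ x, f x ≡ ∑ x ∈ Finset.univ.filter (fun x : X => x ∈ MulAction.fixedPoints R X), f x
      [MOD p] := by
  classical
  let Y := {q : X × ℕ // True ∧ q.2 < f q.1}
  let act : MulAction R Y :=
    { smul := fun g q => ⟨(g • q.1.1, q.1.2), trivial, by rw [hf]; exact q.2.2⟩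
      one_smul := fun q => Subtype.ext (Prod.ext (one_smul R q.1.1) rfl)
      mul_smul := fun g h q => Subtype.ext (Prod.ext (mul_smul g h q.1.1) rfl) }
  obtain ⟨hfinY, hY⟩ := card_weighted (fun _ : X => True) f
  have hY' : Nat.card Y = ∑ x, f x := by
    rw [hY, Finset.filter_true_of_mem (fun _ _ => trivial)]
  obtain ⟨-, hZ⟩ := card_weighted (fun x : X => x ∈ MulAction.fixedPoints R X) f
  have hfix : Nat.card (MulAction.fixedPoints R Y)
      = Nat.card {q : X × ℕ // q.1 ∈ MulAction.fixedPoints R X ∧ q.2 < f q.1} := by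
    apply Nat.card_congr
    refine ⟨fun y => ⟨y.1.1, ?_, y.1.2.2⟩, fun q => ⟨⟨q.1, trivial, q.2.2⟩, ?_⟩, ?_, ?_⟩
    · intro g
      exact congrArg (fun z : Y => z.1.1) (y.2 g)
    · intro g
      exact Subtype.ext (Prod.ext (q.2.1 g) rfl)
    · intro y; rfl
    · intro q; rfl
  have := hP.card_modEq_card_fixedPoints Y
  rw [hY', hfix, hZ] at this
  exact this

theorem restrict_sum {A D E : Type u} [Group A] [Group D] [Group E] [Fintype D] [Fintype E]
    [Fintype (IrrCharacter D)] (j₁ : D →* A) (j₂ : E →* D) {χ : A → ℂ} (hχ : IsCharacter A χ)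
    (m : IrrCharacter D → ℕ) (hm : ∀ δ : IrrCharacter D,
      classInner (fun d => χ (j₁ d)) (δ : D → ℂ) = m δ)
    (γ : IrrCharacter E) (k : IrrCharacter D → ℕ)
    (hk : ∀ δ : IrrCharacter D, classInner (fun e => (δ : D → ℂ) (j₂ e)) (γ : E → ℂ) = k δ) :
    classInner (fun e => χ (j₁ (j₂ e))) (γ : E → ℂ) = ((∑ δ, m δ * k δ : ℕ) : ℂ) := by
  classical
  have hexp := classFunction_expansion' (fun d => χ (j₁ d))
    (IsCharacter.isClassFunction (IsCharacter.comp j₁ hχ))
  have h1 : (fun e => χ (j₁ (j₂ e)))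
      = ∑ δ : IrrCharacter D, (m δ : ℂ) • (fun e => (δ : D → ℂ) (j₂ e)) := by
    funext e
    have := congrFun hexp (j₂ e)
    rw [this]
    simp only [Finset.sum_apply, Pi.smul_apply, hm]
  rw [h1, classInner_sum_left]
  push_cast
  apply Finset.sum_congr rfl
  intro δ _
  rw [classInner_smul_left, hk]

theorem Corr.dvd_of_dvd_sum {p : ℕ} (hp : p.Prime) {A D : Type u} [Group A] [Group D] [Fintype D]
    [Fintype (IrrCharacter D)] {j : D →* A} {χ : A → ℂ} {β : IrrCharacter D} (h : Corr p j χ β)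
    (m : IrrCharacter D → ℕ) (hm : ∀ δ : IrrCharacter D,
      classInner (fun d => χ (j d)) (δ : D → ℂ) = m δ) (k : IrrCharacter D → ℕ)
    (hd : p ∣ ∑ δ, m δ * k δ) : p ∣ k β := by
  classical
  rw [← Finset.add_sum_erase Finset.univ _ (Finset.mem_univ β)] at hd
  have h1 : p ∣ ∑ δ ∈ Finset.univ.erase β, m δ * k δ := by
    apply Finset.dvd_sum
    intro δ hδ
    apply Dvd.dvd.mul_right
    by_contra hnd
    exact (Finset.ne_of_mem_erase hδ) (h.eq_of_not_dvd (hm δ) hnd)
  have h2 : p ∣ m β * k β := (Nat.dvd_add_left h1).mp hd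
  exact (hp.dvd_mul.mp h2).resolve_left (h.not_dvd hp (hm β))

theorem mult_dvd_card {A D : Type u} [Group A] [Group D] [Fintype A] [Fintype D] (j : D →* A)
    (hj : Function.Injective j) (hn : j.range.Normal) (β : IrrCharacter A) (φ : IrrCharacter D)
    (m : ℕ) (hm : classInner (fun d => (β : A → ℂ) (j d)) (φ : D → ℂ) = m) (hm0 : m ≠ 0) :
    m ∣ Nat.card A := by
  classical
  let e : D ≃* j.range := MonoidHom.ofInjective hj
  have h1 : classInner (fun n : j.range => (β : A → ℂ) n) (irrCongr e.symm φ : j.range → ℂ) = m := by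
    rw [← hm, ← classInner_equiv e]
    congr 1
    funext d
    simp [irrCongr_apply]
  have h2 := clifford j.range hn β β.2 (irrCongr e.symm φ) (irrCongr e.symm φ).2 (by
    rw [h1]; exact_mod_cast hm0)
  rw [h1] at h2
  have h3 : IsCharacter j.range (∑ᶠ ψ ∈ {ψ : j.range → ℂ | ∃ g : A, ψ = fun n : j.range =>
      (irrCongr e.symm φ : j.range → ℂ) ⟨g * n * g⁻¹, hn.conj_mem n n.2 g⟩}, ψ) := by
    apply finsum_mem_induction (fun f => IsCharacter j.range f) IsCharacter.zero
      (fun x y hx hy => IsCharacter.add hx hy)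
    rintro ψ ⟨g, rfl⟩
    exact IsIrrCharacter.isCharacter (conjFun_irr hn (irrCongr e.symm φ).2 g)
  obtain ⟨t, ht⟩ := IsCharacter.apply_one h3
  obtain ⟨d, -, hdvd, hd⟩ := IsIrrCharacter.exists_degree β.2
  have h4 := congrFun h2 1
  simp only [OneMemClass.coe_one, Pi.smul_apply, smul_eq_mul, ht, hd] at h4
  have h5 : d = m * t := by exact_mod_cast h4
  exact (Dvd.intro _ h5.symm).trans hdvd

theorem exists_over_hom {A D : Type u} [Group A] [Group D] [Fintype A] [Fintype D] (j : D →* A)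
    (hj : Function.Injective j) (θ : IrrCharacter D) :
    ∃ χ : IrrCharacter A, classInner (fun d => (χ : A → ℂ) (j d)) (θ : D → ℂ) ≠ 0 := by
  classical
  let e : D ≃* j.range := MonoidHom.ofInjective hj
  obtain ⟨χ, hχ⟩ := H4.exists_over j.range (irrCongr e.symm θ)
  refine ⟨χ, ?_⟩
  rw [← classInner_equiv e] at hχ
  have h1 : (fun a => (irrCongr e.symm θ : j.range → ℂ) (e a)) = θ := by
    funext d
    simp [irrCongr_apply]
  rw [h1] at hχ
  exact hχ

end Cfsg.Agent.H2
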