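import Cfsg.Agent.Lib_helper2_Glaub14

set_option autoImplicit false
set_option linter.unusedSectionVars false
open Cfsg

namespace Cfsg.Agent.H2

open Cfsg.Agent.H4
universe u v

/-- the automorphism of `N` used for the action of `x` on `Irr(N)` -/
def actE {Γ : Type u} [Group Γ] (N P : Subgroup Γ) (h : ∀ x ∈ P, ∀ n ∈ N, x * n * x⁻¹ ∈ N) (x : P) :
    N ≃* N :=
  conjE N (x : Γ)⁻¹ (h _ (P.inv_mem x.2)) (fun g hg => by simpa using h x x.2 g hg)

theorem actE_coe {Γ : Type u} [Group Γ] (N P : Subgroup Γ) (h : ∀ x ∈ P, ∀ n ∈ N, x * n * x⁻¹ ∈ N)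
    (x : P) (n : N) : ((actE N P h x n : N) : Γ) = (x : Γ)⁻¹ * n * x := by
  simp [actE, conjE_coe]

/-- action of `P` on `Irr(N)` -/
abbrev irrAct {Γ : Type u} [Group Γ] (N P : Subgroup Γ) (h : ∀ x ∈ P, ∀ n ∈ N, x * n * x⁻¹ ∈ N) :
    MulAction P (IrrCharacter N) where
  smul x ψ := irrCongr (actE N P h x) ψ
  one_smul ψ := by
    apply Subtype.ext
    funext n
    show (ψ : N → ℂ) (actE N P h 1 n) = (ψ : N → ℂ) n
    refine congrArg (ψ : N → ℂ) (Subtype.ext ?_)
    rw [actE_coe]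
    simp
  mul_smul x y ψ := by
    apply Subtype.ext
    funext n
    show (ψ : N → ℂ) (actE N P h (x * y) n) = (ψ : N → ℂ) (actE N P h y (actE N P h x n))
    refine congrArg (ψ : N → ℂ) (Subtype.ext ?_)
    rw [actE_coe, actE_coe, actE_coe]
    simp [mul_assoc]

theorem pstep {p : ℕ} (hp : p.Prime) {Γ : Type u} [Group Γ] [Fintype Γ] (G N P : Subgroup Γ)
    (hNG : N ≤ G) (hGN : ∀ g ∈ G, ∀ n ∈ N, g * n * g⁻¹ ∈ N)
    (hPN : ∀ x ∈ P, ∀ n ∈ N, x * n * x⁻¹ ∈ N) (hP : IsPGroup p P) (hpG : ¬ p ∣ Nat.card G)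
    (B D : Subgroup Γ) [Fintype B] [Fintype D] [Fintype N]
    (hB : B = G ⊓ Subgroup.centralizer (P : Set Γ)) (hD : D = N ⊓ Subgroup.centralizer (P : Set Γ))
    (hBG : B ≤ G) (hDN : D ≤ N) (hDB : D ≤ B)
    (HN : GlaubP p (Subgroup.inclusion hDN) (InvUnder N P))
    (χ : IrrCharacter G) (hχ : InvUnder G P χ) (β : IrrCharacter B)
    (hχβ : Corr p (Subgroup.inclusion hBG) χ β) (θ : IrrCharacter N)
    (hθ : InvUnder N P θ) (φ : IrrCharacter D) (hθφ : Corr p (Subgroup.inclusion hDN) θ φ)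
    (hβφ : classInner (fun d : D => (β : B → ℂ) (Subgroup.inclusion hDB d)) (φ : D → ℂ) ≠ 0) :
    classInner (fun n : N => (χ : G → ℂ) (Subgroup.inclusion hNG n)) (θ : N → ℂ) ≠ 0 := by
  classical
  have := Fact.mk hp
  have := Fintype.ofFinite (IrrCharacter N)
  have := Fintype.ofFinite (IrrCharacter B)
  have := Fintype.ofFinite (IrrCharacter D)
  have hχc := IsIrrCharacter.isCharacter χ.2
  choose a ha using fun ψ : IrrCharacter N =>
    IsCharacter.classInner_irr_nat (IsCharacter.comp (Subgroup.inclusion hNG) hχc) ψ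
  choose c hc using fun ψ : IrrCharacter N =>
    IsCharacter.classInner_irr_nat
      (IsCharacter.comp (Subgroup.inclusion hDN) (IsIrrCharacter.isCharacter ψ.2)) φ
  choose b hb using fun γ : IrrCharacter B =>
    IsCharacter.classInner_irr_nat (IsCharacter.comp (Subgroup.inclusion hBG) hχc) γ
  choose k hk using fun γ : IrrCharacter B =>
    IsCharacter.classInner_irr_nat
      (IsCharacter.comp (Subgroup.inclusion hDB) (IsIrrCharacter.isCharacter γ.2)) φ
  have e1 := restrict_sum (Subgroup.inclusion hNG) (Subgroup.inclusion hDN) hχc a ha φ c hc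
  have e2 := restrict_sum (Subgroup.inclusion hBG) (Subgroup.inclusion hDB) hχc b hb φ k hk
  have e3 : ∑ ψ, a ψ * c ψ = ∑ γ, b γ * k γ := by
    have : ((∑ ψ, a ψ * c ψ : ℕ) : ℂ) = ((∑ γ, b γ * k γ : ℕ) : ℂ) := e1.symm.trans e2
    exact_mod_cast this
  intro h0
  have ha0 : a θ = 0 := by
    have := ha θ
    rw [h0] at this
    exact_mod_cast this.symm
  let _ := irrAct N P hPN
  have hsmul : ∀ (x : P) (ψ : IrrCharacter N), x • ψ = irrCongr (actE N P hPN x) ψ := fun _ _ => rfl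
  have hfix : ∀ ψ : IrrCharacter N, ψ ∈ MulAction.fixedPoints P (IrrCharacter N) →
      InvUnder N P ψ := by
    intro ψ hψ s hs g g' hg
    have h1 := hψ ⟨s, hs⟩
    rw [hsmul] at h1
    have h2 := congrArg (fun z : IrrCharacter N => (z : N → ℂ) g') h1
    simp only [irrCongr_apply] at h2
    rw [← h2]
    refine congrArg (ψ : N → ℂ) (Subtype.ext ?_)
    rw [actE_coe, hg]
    simp [mul_assoc]
  have hinv : ∀ (x : P) (ψ : IrrCharacter N), a (x • ψ) * c (x • ψ) = a ψ * c ψ := by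
    intro x ψ
    have h1 : a (x • ψ) = a ψ := by
      have h2 := ha (x • ψ)
      rw [hsmul] at h2
      have h3 : (fun n : N => (χ : G → ℂ) (Subgroup.inclusion hNG n))
          = fun n : N => (fun n : N => (χ : G → ℂ) (Subgroup.inclusion hNG n)) (actE N P hPN x n) := by
        funext n
        symm
        apply hχ (x : Γ)⁻¹ (P.inv_mem x.2)
        show ((actE N P hPN x n : N) : Γ) = _
        rw [actE_coe]
        simp
      rw [h3] at h2
      have h4 := classInner_equiv (actE N P hPN x)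
        (fun n : N => (χ : G → ℂ) (Subgroup.inclusion hNG n)) (ψ : N → ℂ)
      have h5 : ((a (irrCongr (actE N P hPN x) ψ) : ℕ) : ℂ) = a ψ := by
        rw [← h2, ← ha ψ]
        exact h4
      rw [hsmul]
      exact_mod_cast h5
    have h2 : c (x • ψ) = c ψ := by
      have h3 := hc (x • ψ)
      rw [hsmul] at h3
      have h4 : (fun d : D => (irrCongr (actE N P hPN x) ψ : N → ℂ) (Subgroup.inclusion hDN d))
          = fun d : D => (ψ : N → ℂ) (Subgroup.inclusion hDN d) := by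
        funext d
        rw [irrCongr_apply]
        refine congrArg (ψ : N → ℂ) (Subtype.ext ?_)
        rw [actE_coe]
        have h5 : (d : Γ) ∈ N ⊓ Subgroup.centralizer (P : Set Γ) := hD ▸ d.2
        have h6 := Subgroup.mem_centralizer_iff.mp h5.2 x x.2
        show (x : Γ)⁻¹ * (d : Γ) * x = d
        rw [mul_assoc, ← h6]
        simp
      rw [h4, hc ψ] at h3
      rw [hsmul]
      exact_mod_cast h3.symm
    rw [h1, h2]
  have hmod := sum_modEq_fixed (p := p) (R := P) hP (fun ψ : IrrCharacter N => a ψ * c ψ) hinv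
  have hdvd : p ∣ ∑ ψ ∈ Finset.univ.filter
      (fun ψ : IrrCharacter N => ψ ∈ MulAction.fixedPoints P (IrrCharacter N)), a ψ * c ψ := by
    apply Finset.dvd_sum
    intro ψ hψ
    have hψinv := hfix ψ (Finset.mem_filter.mp hψ).2
    by_cases hψθ : ψ = θ
    · rw [hψθ, ha0, zero_mul]
      exact dvd_zero p
    · apply Dvd.dvd.mul_left
      by_contra hnd
      obtain ⟨ψs, hψs⟩ := HN.1 ψ hψinv
      obtain rfl := hψs.eq_of_not_dvd (hc ψ) hnd
      exact hψθ (HN.2.1 ψ θ _ hψinv hθ hψs hθφ)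
  have hdvd2 : p ∣ ∑ ψ, a ψ * c ψ :=
    (Nat.modEq_zero_iff_dvd).mp (hmod.trans ((Nat.modEq_zero_iff_dvd).mpr hdvd))
  rw [e3] at hdvd2
  have hkβ := Corr.dvd_of_dvd_sum hp hχβ b hb k hdvd2
  have hk0 : k β ≠ 0 := by
    intro h
    apply hβφ
    rw [hk β, h]
    simp
  have hnr : (Subgroup.inclusion hDB).range.Normal := by
    refine ⟨?_⟩
    rintro _ ⟨d, rfl⟩ g
    have hg : (g : Γ) ∈ G ⊓ Subgroup.centralizer (P : Set Γ) := hB ▸ g.2
    have hd : (d : Γ) ∈ N ⊓ Subgroup.centralizer (P : Set Γ) := hD ▸ d.2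
    have hmem : (g : Γ) * d * (g : Γ)⁻¹ ∈ D := by
      have : (g : Γ) * d * (g : Γ)⁻¹ ∈ N ⊓ Subgroup.centralizer (P : Set Γ) :=
        ⟨hGN g hg.1 d hd.1, Subgroup.mul_mem _ (Subgroup.mul_mem _ hg.2 hd.2)
          (Subgroup.inv_mem _ hg.2)⟩
      exact hD ▸ this
    exact ⟨⟨_, hmem⟩, Subtype.ext rfl⟩
  have h7 := mult_dvd_card (Subgroup.inclusion hDB) (Subgroup.inclusion_injective hDB) hnr β φ (k β)
    (hk β) hk0
  exact hpG ((hkβ.trans h7).trans (Subgroup.card_dvd_of_le hBG))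

end Cfsg.Agent.H2
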