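import Cfsg.Agent.Lib_helper2_Glaub15

set_option autoImplicit false
set_option linter.unusedSectionVars false
open Cfsg

namespace Cfsg.Agent.H2

open Cfsg.Agent.H4
universe u v

theorem exists_inv_over {Γ : Type u} [Group Γ] [Fintype Γ] : ∀ (n : ℕ) (G N S : Subgroup Γ),
    Nat.card G = n → (∀ s ∈ S, ∀ g ∈ G, s * g * s⁻¹ ∈ G) → ∀ (hNG : N ≤ G),
    (∀ g ∈ G, ∀ n ∈ N, g * n * g⁻¹ ∈ N) → (∀ s ∈ S, ∀ n ∈ N, s * n * s⁻¹ ∈ N) →
    (Nat.card G).Coprime (Nat.card S) → Group.IsSolvable S → ∀ [Fintype N] (θ : IrrCharacter N),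
    InvUnder N S θ → ∃ χ : IrrCharacter G,
      classInner (fun n : N => (χ : G → ℂ) (Subgroup.inclusion hNG n)) (θ : N → ℂ) ≠ 0 ∧
      InvUnder G S χ := by
  classical
  intro n
  induction n using Nat.strong_induction_on with
  | _ n ih =>
  intro G N S hn hnorm hNG hGN hSN hcop hsolv _ θ hθ
  have hinvs : ∀ (X : Subgroup Γ), (∀ s ∈ S, ∀ g ∈ X, s * g * s⁻¹ ∈ X) →
      ∀ s ∈ S, ∀ g ∈ X, s⁻¹ * g * s ∈ X := by
    intro X hX s hs g hg
    simpa using hX s⁻¹ (S.inv_mem hs) g hg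
  have hnorm' := hinvs G hnorm
  have hSN' := hinvs N hSN
  set K : Subgroup Γ := S ⊓ Subgroup.centralizer (G : Set Γ) with hK
  by_cases hKS : K = S
  · have h1 : S ≤ Subgroup.centralizer (G : Set Γ) := by
      rw [← hKS]; exact inf_le_right
    obtain ⟨χ, hχ⟩ := exists_over_hom (Subgroup.inclusion hNG) (Subgroup.inclusion_injective hNG) θ
    refine ⟨χ, hχ, ?_⟩
    intro s hs g g' hg
    have h3 := Subgroup.mem_centralizer_iff.mp (h1 hs) g g.2
    have : g' = g := by
      apply Subtype.ext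
      rw [hg, ← h3]
      simp
    rw [this]
  · have hKn : ∀ s ∈ S, ∀ k ∈ K, s * k * s⁻¹ ∈ K := by
      intro s hs k hk
      refine Subgroup.mem_inf.mpr ⟨S.mul_mem (S.mul_mem hs hk.1) (S.inv_mem hs), ?_⟩
      rw [Subgroup.mem_centralizer_iff]
      intro g hg
      have h3 := Subgroup.mem_centralizer_iff.mp hk.2 _ (hnorm' s hs g hg)
      calc g * (s * k * s⁻¹) = s * ((s⁻¹ * g * s) * k) * s⁻¹ := by group
        _ = s * (k * (s⁻¹ * g * s)) * s⁻¹ := by rw [h3]
        _ = _ := by group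
    obtain ⟨p, hp, T, P, hTS, hPT, hTn, hP, hdec, hTK⟩ :=
      exists_rel_pgroup S K hsolv inf_le_left hKn hKS
    have hPS : P ≤ S := hPT.trans hTS
    have hTn' := hinvs T hTn
    have hcent : ∀ X : Subgroup Γ, X ≤ G → X ⊓ Subgroup.centralizer (T : Set Γ)
        = X ⊓ Subgroup.centralizer (P : Set Γ) := by
      intro X hX
      apply le_antisymm
      · exact le_inf inf_le_left (inf_le_right.trans (Subgroup.centralizer_le hPT))
      · intro g hg
        refine Subgroup.mem_inf.mpr ⟨hg.1, ?_⟩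
        rw [Subgroup.mem_centralizer_iff]
        intro t ht
        obtain ⟨x, hx, k, hk, rfl⟩ := hdec t ht
        have e1 := Subgroup.mem_centralizer_iff.mp hg.2 x hx
        have e2 := Subgroup.mem_centralizer_iff.mp hk.2 g (hX hg.1)
        rw [mul_assoc, ← e2, ← mul_assoc, e1, mul_assoc]
    have hinvPT : ∀ (X : Subgroup Γ), X ≤ G → ∀ ψ : X → ℂ, InvUnder X P ψ → InvUnder X T ψ := by
      intro X hX ψ h t ht g g' hg
      obtain ⟨x, hx, k, hk, rfl⟩ := hdec t ht
      apply h x hx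
      rw [hg]
      have e2 := Subgroup.mem_centralizer_iff.mp hk.2 g (hX g.2)
      calc x * k * g * (x * k)⁻¹ = x * (k * g) * k⁻¹ * x⁻¹ := by group
        _ = x * (g * k) * k⁻¹ * x⁻¹ := by rw [e2]
        _ = _ := by group
    have hpG : ¬ p ∣ Nat.card G := by
      have hPne : P ≠ ⊥ := by
        intro hbot
        apply hTK
        intro t ht
        obtain ⟨x, hx, k, hk, rfl⟩ := hdec t ht
        rw [hbot, Subgroup.mem_bot] at hx
        rw [hx, one_mul]
        exact hk
      have := Fact.mk hp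
      have : Nontrivial P := (Subgroup.nontrivial_iff_ne_bot P).mpr hPne
      obtain ⟨m, hm0, hm⟩ := hP.nontrivial_iff_card.mp this
      have h1 : p ∣ Nat.card S :=
        (Dvd.intro_left (p ^ (m - 1)) (by rw [hm, ← pow_succ]; congr 1; omega)).trans
          (Subgroup.card_dvd_of_le hPS)
      intro h2
      exact hp.one_lt.ne' (Nat.eq_one_of_dvd_coprimes hcop h2 h1)
    set B : Subgroup Γ := G ⊓ Subgroup.centralizer (T : Set Γ) with hB
    set D : Subgroup Γ := N ⊓ Subgroup.centralizer (T : Set Γ) with hD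
    have hBG : B ≤ G := inf_le_left
    have hDN : D ≤ N := inf_le_left
    have hDB : D ≤ B := le_inf (inf_le_left.trans hNG) inf_le_right
    have hBn : ∀ s ∈ S, ∀ b ∈ B, s * b * s⁻¹ ∈ B := fun s hs =>
      conj_mem_fix G T s (hnorm s hs) (hTn' s hs)
    have hDn : ∀ s ∈ S, ∀ b ∈ D, s * b * s⁻¹ ∈ D := fun s hs =>
      conj_mem_fix N T s (hSN s hs) (hTn' s hs)
    have hBn' := hinvs B hBn
    have hDn' := hinvs D hDn
    have hBlt : Nat.card B < n := by
      rw [← hn]
      apply H1.card_lt_card_of_lt (lt_of_le_of_ne hBG ?_)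
      intro h
      apply hTK
      have h1 : G ≤ Subgroup.centralizer (T : Set Γ) := by
        rw [← h]; exact inf_le_right
      exact le_inf hTS (Subgroup.le_centralizer_iff.mp h1)
    have hcopP : (Nat.card G).Coprime (Nat.card P) :=
      Nat.Coprime.coprime_dvd_right (Subgroup.card_dvd_of_le hPS) hcop
    have HG := glaubP_pgroup hp G _ P rfl (fun s hs => hnorm s (hPS hs)) hcopP hP B
      (hcent G le_rfl) hBG
    have HN := glaubP_pgroup hp N _ P rfl (fun s hs => hSN s (hPS hs))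
      (Nat.Coprime.coprime_dvd_left (Subgroup.card_dvd_of_le hNG) hcopP) hP D (hcent N hNG) hDN
    have hθP : InvUnder N P θ := fun s hs => hθ s (hPS hs)
    obtain ⟨φ, hθφ⟩ := HN.1 θ hθP
    have hφS : InvUnder D S φ := by
      intro s hs
      rw [invBy_iff_conjE D s (hDn s hs) (hDn' s hs)]
      have h4 := Corr.equiv (conjE N s (hSN s hs) (hSN' s hs)) (conjE D s (hDn s hs) (hDn' s hs))
        (j' := Subgroup.inclusion hDN) (fun x => rfl) hθφ
      have h5 : (fun x => (θ : N → ℂ) (conjE N s (hSN s hs) (hSN' s hs) x)) = θ :=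
        funext ((invBy_iff_conjE N s (hSN s hs) (hSN' s hs) θ).mp (hθ s hs))
      rw [h5] at h4
      intro x
      rw [← irrCongr_apply, Corr.unique hp h4 hθφ]
    obtain ⟨β, hβφ, hβS⟩ := ih (Nat.card B) hBlt B D S rfl hBn hDB (by
      intro g hg d hd
      exact ⟨hGN g hg.1 d hd.1, Subgroup.mul_mem _ (Subgroup.mul_mem _ hg.2 hd.2)
        (Subgroup.inv_mem _ hg.2)⟩) hDn
      (Nat.Coprime.coprime_dvd_left (Subgroup.card_dvd_of_le hBG) hcop) hsolv φ hφS
    obtain ⟨χ, hχP, hχβ⟩ := HG.2.2 β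
    have hχS : InvUnder G S χ := by
      intro s hs
      rw [invBy_iff_conjE G s (hnorm s hs) (hnorm' s hs)]
      have h5 := Corr.equiv (conjE G s (hnorm s hs) (hnorm' s hs))
        (conjE B s (hBn s hs) (hBn' s hs)) (j' := Subgroup.inclusion hBG) (fun x => rfl) hχβ
      have h6 : irrCongr (conjE B s (hBn s hs) (hBn' s hs)) β = β :=
        Subtype.ext (funext ((invBy_iff_conjE B s (hBn s hs) (hBn' s hs) β).mp (hβS s hs)))
      rw [h6] at h5
      have h7 : InvUnder G P (irrCongr (conjE G s (hnorm s hs) (hnorm' s hs)) χ : G → ℂ) := by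
        intro t ht g g' hg
        apply hinvPT G le_rfl χ hχP (s * t * s⁻¹) (hTn s hs t (hPT ht))
        rw [conjE_coe, conjE_coe, hg]
        group
      intro x
      rw [← irrCongr_apply, HG.2.1 _ χ β h7 hχP h5 hχβ]
    exact ⟨χ, pstep hp G N P hNG hGN (fun s hs => hSN s (hPS hs)) hP hpG B D (hcent G le_rfl)
      (hcent N hNG) hBG hDN hDB HN χ hχP β hχβ θ hθP φ hθφ hβφ, hχS⟩

end Cfsg.Agent.H2
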