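import Cfsg.Agent.Lib_helper2_Glaub16

set_option autoImplicit false
set_option linter.unusedSectionVars false
open Cfsg

namespace Cfsg.Agent.H2

open Cfsg.Agent.H4
open scoped ComplexConjugate
universe u v

theorem classInner_ne_zero_of_common {N : Type u} [Group N] [Fintype N] {a b : N → ℂ}
    (ha : IsCharacter N a) (hb : IsCharacter N b) (θ : IrrCharacter N)
    (h1 : classInner a (θ : N → ℂ) ≠ 0) (h2 : classInner b (θ : N → ℂ) ≠ 0) :
    classInner a b ≠ 0 := by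
  classical
  have := Fintype.ofFinite (IrrCharacter N)
  obtain ⟨m, rfl⟩ := IsCharacter.exists_mult ha
  obtain ⟨m', rfl⟩ := IsCharacter.exists_mult hb
  rw [classInner_sum_mult] at h1 h2
  rw [classInner_sum_sum]
  have h3 : ∑ φ : IrrCharacter N, (m φ : ℂ) * conj ((m' φ : ℂ)) = ((∑ φ, m φ * m' φ : ℕ) : ℂ) := by
    push_cast
    apply Finset.sum_congr rfl
    intro φ _
    rw [Complex.conj_natCast]
  rw [h3]
  have h4 : m θ ≠ 0 := by exact_mod_cast h1
  have h5 : m' θ ≠ 0 := by exact_mod_cast h2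
  have h6 : 0 < ∑ φ, m φ * m' φ :=
    lt_of_lt_of_le (Nat.mul_pos (Nat.pos_of_ne_zero h4) (Nat.pos_of_ne_zero h5))
      (Finset.single_le_sum (f := fun φ => m φ * m' φ) (fun _ _ => Nat.zero_le _) (Finset.mem_univ θ))
  exact_mod_cast h6.ne'

theorem exists_linear_mul {G : Type u} [Group G] [Fintype G] (N : Subgroup G) [hN : N.Normal]
    [Fintype N] (hab : ∀ x y : G, x * y * x⁻¹ * y⁻¹ ∈ N) (χ ψ : IrrCharacter G) (θ : IrrCharacter N)
    (h1 : classInner (fun n : N => (χ : G → ℂ) n) (θ : N → ℂ) ≠ 0)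
    (h2 : classInner (fun n : N => (ψ : G → ℂ) n) (θ : N → ℂ) ≠ 0) :
    ∃ lam : G →* ℂˣ, (∀ n ∈ N, lam n = 1) ∧ ∀ x, (ψ : G → ℂ) x = lam x * (χ : G → ℂ) x := by
  classical
  have := Fintype.ofFinite (IrrCharacter G)
  have hcl : ∀ χ : IrrCharacter G, IsClassFunction G (χ : G → ℂ) :=
    fun χ => IsCharacter.isClassFunction (IsIrrCharacter.isCharacter χ.2)
  have h3 := classInner_ne_zero_of_common (IsCharacter.restrict N (IsIrrCharacter.isCharacter χ.2))
    (IsCharacter.restrict N (IsIrrCharacter.isCharacter ψ.2)) θ h1 h2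
  rw [← frobenius_reciprocity N _ _ (hcl ψ)] at h3
  obtain ⟨m, hm⟩ := IsCharacter.exists_mult (IsCharacter.ind N (IsCharacter.one (G := N)))
  have hmk : ∀ β : IrrCharacter G, m β ≠ 0 → ∀ n ∈ N, (β : G → ℂ) n = (β : G → ℂ) 1 := by
    intro β hβ
    rw [ker_iff_classInner_one N β.2]
    have h1 : classInner (indFun N (fun _ => 1)) (β : G → ℂ) = m β := by rw [hm, classInner_sum_mult]
    rw [frobenius_reciprocity N _ _ (hcl β), ← classInner_conj_symm] at h1
    intro h0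
    rw [h0] at h1
    apply hβ
    simp at h1
    exact_mod_cast h1.symm
  have hexp : indFun N (fun n : N => (χ : G → ℂ) n)
      = ∑ β : IrrCharacter G, (m β : ℂ) • ((β : G → ℂ) * (χ : G → ℂ)) := by
    have h1 := indFun_mul_restrict N (fun _ => 1) (χ : G → ℂ) (hcl χ)
    have h2 : ((fun _ => 1 : N → ℂ) * fun n : N => (χ : G → ℂ) n) = fun n : N => (χ : G → ℂ) n := by
      funext n; simp
    rw [h2] at h1
    rw [h1, hm, Finset.sum_mul]
    apply Finset.sum_congr rfl; intro β _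
    rw [smul_mul_assoc]
  rw [hexp, classInner_sum_left] at h3
  obtain ⟨β, _, hβ⟩ := Finset.exists_ne_zero_of_sum_ne_zero h3
  rw [classInner_smul_left] at hβ
  have hmβ : m β ≠ 0 := by
    intro h0; apply hβ; rw [h0]; simp
  have hk := hmk β hmβ
  have hlin := linear_of_ker_of_abelian_quotient N hab β.2 hk
  have hirr := IsIrrCharacter.linear_mul_irr (IsIrrCharacter.isCharacter β.2) hlin χ.2
  have heq := irr_eq_of_classInner_ne_zero hirr ψ.2 (right_ne_zero_of_mul hβ)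
  refine ⟨linearHom (IsIrrCharacter.isCharacter β.2) hlin, ?_, ?_⟩
  · intro n hn
    apply Units.ext
    rw [linearHom_apply, hk n hn, hlin]
    rfl
  · intro x
    rw [← heq, linearHom_apply]
    rfl

theorem abelian_fixed {G : Type u} [Group G] [Fintype G] (N : Subgroup G) [hN : N.Normal] [Fintype N]
    (hab : ∀ x y : G, x * y * x⁻¹ * y⁻¹ ∈ N) {R : Type v} [Group R] [Fintype R] (c : R → G ≃* G)
    (hc : ∀ r s : R, ∃ g : G, ∀ x, c (r * s) x = c r (c s (g * x * g⁻¹)))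
    (hcN : ∀ r, ∀ n ∈ N, c r n ∈ N) (hcop : (Nat.card R).Coprime N.index)
    (θ : IrrCharacter N) (hθ : ∀ r (n : N), (θ : N → ℂ) ⟨c r n, hcN r n n.2⟩ = (θ : N → ℂ) n) :
    ∃ χ : IrrCharacter G, classInner (fun n : N => (χ : G → ℂ) n) (θ : N → ℂ) ≠ 0 ∧
      ∀ r x, (χ : G → ℂ) (c r x) = (χ : G → ℂ) x := by
  classical
  obtain ⟨χ₀, hχ₀⟩ := H4.exists_over N θ
  have hcl := IsCharacter.isClassFunction (IsIrrCharacter.isCharacter χ₀.2)
  have h1 : ∀ r, ∃ lam : G →* ℂˣ, (∀ n ∈ N, lam n = 1) ∧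
      ∀ x, (χ₀ : G → ℂ) (c r x) = lam x * (χ₀ : G → ℂ) x := by
    intro r
    let f : N →* N :=
      { toFun := fun n => ⟨c r n, hcN r n n.2⟩
        map_one' := Subtype.ext (by simp)
        map_mul' := fun a b => Subtype.ext (by simp) }
    have hfinj : Function.Injective f := by
      intro a b hab'
      have := congrArg Subtype.val hab'
      exact Subtype.ext ((c r).injective this)
    let e : N ≃* N := MulEquiv.ofBijective f ⟨hfinj, Finite.injective_iff_surjective.mp hfinj⟩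
    have h2 := classInner_equiv e (fun n : N => (χ₀ : G → ℂ) n) (θ : N → ℂ)
    have h3 : (fun a => (θ : N → ℂ) (e a)) = θ := funext (hθ r)
    rw [h3] at h2
    exact exists_linear_mul N hab χ₀ (irrCongr (c r) χ₀) θ hχ₀ (by
      rw [← h2] at hχ₀
      exact hχ₀)
  choose lam hlamN hlam using h1
  let U : G → Subgroup ℂˣ := fun x =>
    { carrier := {u | (u : ℂ) * (χ₀ : G → ℂ) x = (χ₀ : G → ℂ) x}
      one_mem' := by simp
      mul_mem' := fun {a b} ha hb => by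
        show ((a * b : ℂˣ) : ℂ) * (χ₀ : G → ℂ) x = (χ₀ : G → ℂ) x
        have ha' : (a : ℂ) * (χ₀ : G → ℂ) x = (χ₀ : G → ℂ) x := ha
        have hb' : (b : ℂ) * (χ₀ : G → ℂ) x = (χ₀ : G → ℂ) x := hb
        rw [Units.val_mul, mul_assoc, hb', ha']
      inv_mem' := fun {a} ha => by
        show ((a⁻¹ : ℂˣ) : ℂ) * (χ₀ : G → ℂ) x = (χ₀ : G → ℂ) x
        have ha' : (a : ℂ) * (χ₀ : G → ℂ) x = (χ₀ : G → ℂ) x := ha
        calc ((a⁻¹ : ℂˣ) : ℂ) * (χ₀ : G → ℂ) x = ((a⁻¹ : ℂˣ) : ℂ) * ((a : ℂ) * (χ₀ : G → ℂ) x) := by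
              rw [ha']
          _ = _ := by rw [← mul_assoc, ← Units.val_mul]; simp }
  have hU : ∀ x (u : ℂˣ), u ∈ U x ↔ (u : ℂ) * (χ₀ : G → ℂ) x = (χ₀ : G → ℂ) x := fun _ _ => Iff.rfl
  have hconj : ∀ (α : G →* ℂˣ) (g x : G), α (g * x * g⁻¹) = α x := by
    intro α g x
    rw [map_mul, map_mul, map_inv, mul_comm (α g), mul_assoc, mul_inv_cancel, mul_one]
  have F1 : ∀ r s x, lam r (c s x) * lam s x * (lam (r * s) x)⁻¹ ∈ U x := by
    intro r s x
    obtain ⟨g, hg⟩ := hc r s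
    have e1 := hlam (r * s) x
    have e2 : c s (g * x * g⁻¹) = c s g * c s x * (c s g)⁻¹ := by simp
    rw [hg x, hlam r, hlam s, hcl x g, hconj, e2, hconj] at e1
    rw [hU]
    simp only [Units.val_mul]
    calc (lam r (c s x) : ℂ) * (lam s x : ℂ) * (((lam (r * s) x)⁻¹ : ℂˣ) : ℂ) * (χ₀ : G → ℂ) x
        = (((lam (r * s) x)⁻¹ : ℂˣ) : ℂ) * ((lam r (c s x) : ℂ) * ((lam s x : ℂ) * (χ₀ : G → ℂ) x)) := by
          ring
      _ = (((lam (r * s) x)⁻¹ : ℂˣ) : ℂ) * ((lam (r * s) x : ℂ) * (χ₀ : G → ℂ) x) := by rw [e1]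
      _ = _ := by rw [← mul_assoc, ← Units.val_mul]; simp
  set μ : G →* ℂˣ := ∏ r, lam r with hμ
  have hμx : ∀ x, μ x = ∏ r, lam r x := fun x => by rw [hμ, MonoidHom.finsetProd_apply]
  have F2 : ∀ s x, μ (c s x) * lam s x ^ (Nat.card R) * (μ x)⁻¹ ∈ U x := by
    intro s x
    have h2 := Subgroup.prod_mem (U x) (fun r (_ : r ∈ Finset.univ) => F1 r s x)
    have h3 : ∏ r, lam (r * s) x = ∏ r, lam r x :=
      Equiv.prod_comp (Equiv.mulRight s) (fun r => lam r x)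
    rw [Finset.prod_mul_distrib, Finset.prod_mul_distrib, Finset.prod_const,
      Finset.prod_inv_distrib, h3,
      Finset.card_univ, ← Nat.card_eq_fintype_card, ← hμx, ← hμx] at h2
    exact h2
  have hidx : 0 < N.index := Nat.pos_of_ne_zero Subgroup.FiniteIndex.index_ne_zero
  set k : ℕ := (Nat.card R) ^ (Nat.totient N.index - 1) with hk
  have hkmod : Nat.card R * k ≡ 1 [MOD N.index] := by
    have h1 := Nat.ModEq.pow_totient hcop
    have h2 : Nat.card R * k = Nat.card R ^ Nat.totient N.index := by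
      rw [hk, ← pow_succ']
      congr 1
      have := Nat.totient_pos.mpr hidx
      omega
    rw [h2]
    exact h1
  have hpow : ∀ s x, lam s x ^ (Nat.card R * k) = lam s x := by
    intro s x
    have h1 : lam s x ^ N.index = 1 := by
      rw [← map_pow, hlamN s _ (Subgroup.pow_index_mem N x)]
    have h2 : lam s x ^ (Nat.card R * k) = lam s x ^ 1 := by
      rw [pow_eq_pow_iff_modEq]
      exact hkmod.of_dvd (orderOf_dvd_of_pow_eq_one h1)
    rw [h2, pow_one]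
  set ν : G →* ℂˣ := μ ^ k with hν
  have hνx : ∀ x, ν x = μ x ^ k := fun x => by rw [hν, MonoidHom.pow_apply]
  have F3 : ∀ s x, ν (c s x) * lam s x * (ν x)⁻¹ ∈ U x := by
    intro s x
    have h2 := (U x).pow_mem (F2 s x) k
    rw [mul_pow, mul_pow, ← pow_mul, hpow, inv_pow, ← hνx, ← hνx] at h2
    exact h2
  have hνN : ∀ n ∈ N, ν n = 1 := by
    intro n hn
    rw [hνx, hμx, Finset.prod_eq_one (fun r _ => hlamN r n hn), one_pow]
  refine ⟨⟨_, IsIrrCharacter.linear_mul_irr (isCharacter_of_hom ν) (by simp) χ₀.2⟩, ?_, ?_⟩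
  · have : (fun n : N => ((fun g => (ν g : ℂ)) * (χ₀ : G → ℂ)) n) = fun n : N => (χ₀ : G → ℂ) n := by
      funext n
      simp [hνN n n.2]
    show classInner (fun n : N => ((fun g => (ν g : ℂ)) * (χ₀ : G → ℂ)) n) (θ : N → ℂ) ≠ 0
    rw [this]
    exact hχ₀
  · intro s x
    show (ν (c s x) : ℂ) * (χ₀ : G → ℂ) (c s x) = (ν x : ℂ) * (χ₀ : G → ℂ) x
    have h2 := (hU x _).mp (F3 s x)
    simp only [Units.val_mul] at h2
    rw [hlam s x]
    calc (ν (c s x) : ℂ) * ((lam s x : ℂ) * (χ₀ : G → ℂ) x)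
        = ((ν x : ℂ) * (((ν x)⁻¹ : ℂˣ) : ℂ)) *
          ((ν (c s x) : ℂ) * ((lam s x : ℂ) * (χ₀ : G → ℂ) x)) := by
          rw [← Units.val_mul]; simp
      _ = (ν x : ℂ) * ((ν (c s x) : ℂ) * (lam s x : ℂ) * (((ν x)⁻¹ : ℂˣ) : ℂ)
            * (χ₀ : G → ℂ) x) := by ring
      _ = _ := by rw [h2]

end Cfsg.Agent.H2
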