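import Cfsg.Agent.Lib_helper2_Glaub17

set_option autoImplicit false
set_option linter.unusedSectionVars false
open Cfsg

namespace Cfsg.Agent.H2

open Cfsg.Agent.H4
open scoped ComplexConjugate commutatorElement
universe u v

/-- restriction of an automorphism to an invariant finite subgroup -/
noncomputable def resEquiv {G : Type u} [Group G] (e : G ≃* G) (B : Subgroup G) [Finite B]
    (h : ∀ b ∈ B, e b ∈ B) : B ≃* B :=
  MulEquiv.ofBijective
    ({ toFun := fun b => ⟨e b, h b b.2⟩
       map_one' := Subtype.ext (by simp)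
       map_mul' := fun a b => Subtype.ext (by simp) } : B →* B)
    (by
      have hinj : Function.Injective (fun b : B => (⟨e b, h b b.2⟩ : B)) := by
        intro a b hab
        exact Subtype.ext (e.injective (congrArg Subtype.val hab))
      exact ⟨hinj, Finite.injective_iff_surjective.mp hinj⟩)

theorem resEquiv_coe {G : Type u} [Group G] (e : G ≃* G) (B : Subgroup G) [Finite B]
    (h : ∀ b ∈ B, e b ∈ B) (b : B) : ((resEquiv e B h b : B) : G) = e b := rfl

/-- invariance of a function on a subgroup under a family of automorphisms -/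
def InvC {G : Type u} [Group G] {R : Type v} (c : R → G ≃* G) (B : Subgroup G) (ψ : B → ℂ) : Prop :=
  ∀ (r : R) (b b' : B), (b' : G) = c r b → ψ b' = ψ b

theorem over_trans {A D E : Type u} [Group A] [Group D] [Group E] [Fintype D] [Fintype E]
    (j₁ : D →* A) (j₂ : E →* D) (χ : IrrCharacter A) (η : IrrCharacter D) (θ : IrrCharacter E)
    (h1 : classInner (fun d => (χ : A → ℂ) (j₁ d)) (η : D → ℂ) ≠ 0)
    (h2 : classInner (fun e => (η : D → ℂ) (j₂ e)) (θ : E → ℂ) ≠ 0) :
    classInner (fun e => (χ : A → ℂ) (j₁ (j₂ e))) (θ : E → ℂ) ≠ 0 := by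
  classical
  have := Fintype.ofFinite (IrrCharacter D)
  have := Fintype.ofFinite (IrrCharacter E)
  have hχc := IsIrrCharacter.isCharacter χ.2
  choose m hm using fun δ : IrrCharacter D =>
    IsCharacter.classInner_irr_nat (IsCharacter.comp j₁ hχc) δ
  choose k hk using fun δ : IrrCharacter D =>
    IsCharacter.classInner_irr_nat (IsCharacter.comp j₂ (IsIrrCharacter.isCharacter δ.2)) θ
  rw [restrict_sum j₁ j₂ hχc m hm θ k hk]
  have h4 : m η ≠ 0 := by
    intro h; apply h1; rw [hm, h]; simp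
  have h5 : k η ≠ 0 := by
    intro h; apply h2; rw [hk, h]; simp
  have h6 : 0 < ∑ δ, m δ * k δ :=
    lt_of_lt_of_le (Nat.mul_pos (Nat.pos_of_ne_zero h4) (Nat.pos_of_ne_zero h5))
      (Finset.single_le_sum (f := fun δ => m δ * k δ) (fun _ _ => Nat.zero_le _) (Finset.mem_univ η))
  exact_mod_cast h6.ne'

/-- the abelian step inside a group -/
theorem abelian_step {G : Type u} [Group G] [Fintype G] {R : Type v} [Group R] [Fintype R]
    (c : R → G ≃* G) (A B : Subgroup G) [Fintype A] [Fintype B] (hAB : A ≤ B)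
    (hab : ∀ x ∈ B, ∀ y ∈ B, x * y * x⁻¹ * y⁻¹ ∈ A)
    (hc : ∀ r s : R, ∃ g ∈ A, ∀ x, c (r * s) x = c r (c s (g * x * g⁻¹)))
    (hcA : ∀ r, ∀ a ∈ A, c r a ∈ A) (hcB : ∀ r, ∀ b ∈ B, c r b ∈ B)
    (hcop : (Nat.card R).Coprime (A.relIndex B))
    (η : IrrCharacter A) (hη : InvC c A η) :
    ∃ χ : IrrCharacter B,
      classInner (fun a : A => (χ : B → ℂ) (Subgroup.inclusion hAB a)) (η : A → ℂ) ≠ 0 ∧
      InvC c B χ := by
  classical
  have hn : (A.subgroupOf B).Normal := by
    refine ⟨fun a ha b => ?_⟩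
    rw [Subgroup.mem_subgroupOf] at ha ⊢
    have h1 := hab b b.2 a a.2
    have h2 : ((b * a * b⁻¹ : B) : G) = ((b : G) * a * (b : G)⁻¹ * (a : G)⁻¹) * a := by
      simp
    rw [h2]
    exact A.mul_mem h1 ha
  let e := Subgroup.subgroupOfEquivOfLe hAB
  obtain ⟨χ, h1, h2⟩ := abelian_fixed (A.subgroupOf B)
    (fun x y => Subgroup.mem_subgroupOf.mpr (hab x x.2 y y.2))
    (fun r => resEquiv (c r) B (hcB r)) (by
      intro r s
      obtain ⟨g, hg, h⟩ := hc r s
      refine ⟨⟨g, hAB hg⟩, fun x => Subtype.ext ?_⟩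
      exact h x)
    (fun r n hn => Subgroup.mem_subgroupOf.mpr (hcA r n (Subgroup.mem_subgroupOf.mp hn)))
    hcop (irrCongr e η) (by
      intro r n
      exact hη r (e n) _ rfl)
  refine ⟨χ, ?_, ?_⟩
  · rw [← classInner_equiv e]
    exact h1
  · intro r b b' hb
    rw [← h2 r b]
    exact congrArg (χ : B → ℂ) (Subtype.ext hb)

end Cfsg.Agent.H2
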