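import Cfsg.Agent.Lib_helper2_Glaub18

set_option autoImplicit false
set_option linter.unusedSectionVars false
open Cfsg

namespace Cfsg.Agent.H2

open Cfsg.Agent.H4
open scoped ComplexConjugate commutatorElement
universe u v

theorem solvable_chain {G : Type u} [Group G] [Fintype G] {R : Type v} [Group R] [Fintype R]
    (c : R → G ≃* G) (N : Subgroup G) [hN : N.Normal] [Fintype N]
    (hc : ∀ r s : R, ∃ g ∈ N, ∀ x, c (r * s) x = c r (c s (g * x * g⁻¹)))
    (hcN : ∀ r, ∀ a ∈ N, c r a ∈ N) (hcop : (Nat.card R).Coprime N.index)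
    (θ : IrrCharacter N) (hθ : InvC c N θ) :
    ∀ (K : ℕ) (B : Subgroup G) (hNB : N ≤ B), (∀ r, ∀ b ∈ B, c r b ∈ B) →
      (fun M : Subgroup G => N ⊔ ⁅M, M⁆)^[K] B = N →
      ∃ χ : IrrCharacter B,
        classInner (fun a : N => (χ : B → ℂ) (Subgroup.inclusion hNB a)) (θ : N → ℂ) ≠ 0 ∧
        InvC c B χ := by
  classical
  intro K
  induction K with
  | zero =>
    intro B hNB hcB hB
    have hB' : B = N := hB
    subst hB'
    refine ⟨θ, ?_, hθ⟩
    have : (fun a : B => (θ : B → ℂ) (Subgroup.inclusion hNB a)) = θ := by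
      funext a
      rfl
    rw [this, IsIrrCharacter.norm_one θ.2]
    exact one_ne_zero
  | succ K ih =>
    intro B hNB hcB hB
    rw [Function.iterate_succ_apply] at hB
    set A : Subgroup G := N ⊔ ⁅B, B⁆ with hA
    have hNA : N ≤ A := le_sup_left
    have hAB : A ≤ B := by
      apply sup_le hNB
      rw [Subgroup.commutator_le]
      intro x hx y hy
      rw [commutatorElement_def]
      exact B.mul_mem (B.mul_mem (B.mul_mem hx hy) (B.inv_mem hx)) (B.inv_mem hy)
    have hcA : ∀ r, ∀ a ∈ A, c r a ∈ A := by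
      intro r a ha
      have h1 : A.map (c r).toMonoidHom ≤ A := by
        rw [hA, Subgroup.map_sup, Subgroup.map_commutator]
        have h2 : B.map (c r).toMonoidHom ≤ B := by
          rintro _ ⟨b, hb, rfl⟩
          exact hcB r b hb
        apply sup_le_sup _ (Subgroup.commutator_mono h2 h2)
        rintro _ ⟨b, hb, rfl⟩
        exact hcN r b hb
      exact h1 ⟨a, ha, rfl⟩
    obtain ⟨η, hη1, hη2⟩ := ih A hNA hcA hB
    obtain ⟨χ, hχ1, hχ2⟩ := abelian_step c A B hAB (by
        intro x hx y hy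
        have := Subgroup.commutator_mem_commutator hx hy
        rw [commutatorElement_def] at this
        exact (le_sup_right : ⁅B, B⁆ ≤ A) this)
      (by
        intro r s
        obtain ⟨g, hg, h⟩ := hc r s
        exact ⟨g, hNA hg, h⟩) hcA hcB
      (Nat.Coprime.coprime_dvd_right
        ((Subgroup.relIndex_dvd_of_le_left B hNA).trans (Subgroup.relIndex_dvd_index_of_normal N B))
        hcop) η hη2
    exact ⟨χ, over_trans (Subgroup.inclusion hAB) (Subgroup.inclusion hNA) χ η θ hχ1 hη1, hχ2⟩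

theorem solvable_fixed {G : Type u} [Group G] [Fintype G] {R : Type v} [Group R] [Fintype R]
    (c : R → G ≃* G) (N : Subgroup G) [hN : N.Normal] [Fintype N]
    (hsolv : Group.IsSolvable (G ⧸ N))
    (hc : ∀ r s : R, ∃ g ∈ N, ∀ x, c (r * s) x = c r (c s (g * x * g⁻¹)))
    (hcN : ∀ r, ∀ a ∈ N, c r a ∈ N) (hcop : (Nat.card R).Coprime N.index)
    (θ : IrrCharacter N) (hθ : InvC c N θ) :
    ∃ χ : IrrCharacter G, classInner (fun n : N => (χ : G → ℂ) n) (θ : N → ℂ) ≠ 0 ∧
      ∀ r x, (χ : G → ℂ) (c r x) = (χ : G → ℂ) x := by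
  classical
  have hmap : ∀ k, ((fun M : Subgroup G => N ⊔ ⁅M, M⁆)^[k] ⊤).map (QuotientGroup.mk' N)
      = derivedSeries (G ⧸ N) k := by
    intro k
    induction k with
    | zero =>
      rw [Function.iterate_zero, id, derivedSeries_zero, ← MonoidHom.range_eq_map,
        MonoidHom.range_eq_top]
      exact QuotientGroup.mk'_surjective N
    | succ k ih =>
      rw [Function.iterate_succ_apply', Subgroup.map_sup, Subgroup.map_commutator, ih,
        derivedSeries_succ]
      have : N.map (QuotientGroup.mk' N) = ⊥ := by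
        rw [eq_bot_iff]
        rintro _ ⟨n, hn, rfl⟩
        exact (QuotientGroup.eq_one_iff n).mpr hn
      rw [this, bot_sup_eq]
  obtain ⟨K, hK⟩ := (Group.isSolvable_def (G ⧸ N)).mp hsolv
  have hle : ∀ k, N ≤ (fun M : Subgroup G => N ⊔ ⁅M, M⁆)^[k] ⊤ := by
    intro k
    cases k with
    | zero => exact le_top
    | succ k =>
      rw [Function.iterate_succ_apply']
      exact le_sup_left
  have hKN : (fun M : Subgroup G => N ⊔ ⁅M, M⁆)^[K] ⊤ = N := by
    apply le_antisymm _ (hle K)
    intro x hx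
    have h1 : (QuotientGroup.mk' N) x ∈ derivedSeries (G ⧸ N) K := by
      rw [← hmap]
      exact ⟨x, hx, rfl⟩
    rw [hK, Subgroup.mem_bot] at h1
    exact (QuotientGroup.eq_one_iff x).mp h1
  obtain ⟨χ, h1, h2⟩ := solvable_chain c N hc hcN hcop θ hθ K ⊤ le_top (fun _ _ _ => trivial) hKN
  refine ⟨irrCongr Subgroup.topEquiv.symm χ, h1, ?_⟩
  intro r x
  exact h2 r ⟨x, trivial⟩ ⟨c r x, trivial⟩ rfl

end Cfsg.Agent.H2
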