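import Cfsg.Agent.Lib_helper2_Glaub19

set_option autoImplicit false
set_option linter.unusedSectionVars false
open Cfsg

namespace Cfsg.Agent.H2

open Cfsg.Agent.H4
universe u v

theorem coprime_split (n : ℕ) : ∀ m : ℕ, 0 < m → ∃ m₁ m₂ : ℕ, m = m₁ * m₂ ∧ m₂.Coprime n ∧
    ∀ a : ℕ, a.Coprime n → a.Coprime m₁ := by
  intro m
  induction m using Nat.strong_induction_on with
  | _ m ih =>
  intro hm
  by_cases h : m.Coprime n
  · exact ⟨1, m, (one_mul m).symm, h, fun a _ => Nat.coprime_one_right a⟩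
  · obtain ⟨m', hm'⟩ := Nat.gcd_dvd_left m n
    have hd1 : 1 < Nat.gcd m n := by
      have h0 : Nat.gcd m n ≠ 0 := (Nat.gcd_pos_of_pos_left n hm).ne'
      have h1 : Nat.gcd m n ≠ 1 := h
      omega
    have hm'0 : 0 < m' := by
      rcases Nat.eq_zero_or_pos m' with h0 | h0
      · rw [h0, mul_zero] at hm'; omega
      · exact h0
    have hlt : m' < m := by
      calc m' = 1 * m' := (one_mul m').symm
        _ < Nat.gcd m n * m' := Nat.mul_lt_mul_of_pos_right hd1 hm'0
        _ = m := hm'.symm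
    obtain ⟨m₁, m₂, h1, h2, h3⟩ := ih m' hlt hm'0
    refine ⟨Nat.gcd m n * m₁, m₂, ?_, h2, ?_⟩
    · rw [mul_assoc, ← h1]; exact hm'
    · intro a ha
      exact Nat.Coprime.mul_right (Nat.Coprime.coprime_dvd_right (Nat.gcd_dvd_right m n) ha) (h3 a ha)

theorem central_hall {Q : Type u} [Group Q] [Finite Q] (Gs Z : Subgroup Q) [hGs : Gs.Normal]
    (hZG : Z ≤ Gs) (hZc : Z ≤ Subgroup.center Q) (hcop : Gs.index.Coprime (Z.relIndex Gs)) :
    ∃ (W A S : Subgroup Q), W ≤ Z ∧ A ≤ Gs ∧ A.Normal ∧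
      (∀ g ∈ Gs, ∃ w ∈ W, ∃ a ∈ A, g = w * a) ∧ (Nat.card W).Coprime (Nat.card A) ∧
      (Nat.card A).Coprime (Nat.card S) ∧ A ⊔ S = ⊤ := by
  classical
  set n := Z.relIndex Gs with hn
  obtain ⟨m₁, m₂, hm, hm2, hm1⟩ := coprime_split n (Nat.card Z) Nat.card_pos
  have hcomm : ∀ a b : Z, a * b = b * a := by
    intro a b
    exact Subtype.ext (Subgroup.mem_center_iff.mp (hZc b.2) a)
  have hZsolv : Group.IsSolvable Z := Group.isSolvable_of_comm hcomm
  have h12 : m₂.Coprime m₁ := hm1 m₂ hm2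
  obtain ⟨H, hH, -⟩ := (H1.hall_aux _ Z m₂ m₁ rfl (by rw [hm, mul_comm]) h12).1 ⊥ (by simp)
  set W : Subgroup Q := H.map Z.subtype with hW
  have hWZ : W ≤ Z := Subgroup.map_subtype_le H
  have hWcard : Nat.card W = m₂ := by
    rw [hW, Subgroup.card_map_of_injective Z.subtype_injective, hH]
  have hWc : ∀ w ∈ W, ∀ x : Q, x * w = w * x := fun w hw x =>
    Subgroup.mem_center_iff.mp (hZc (hWZ hw)) x
  have hWG : W ≤ Gs := hWZ.trans hZG
  have hGcard : Nat.card Gs = n * m₁ * m₂ := by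
    rw [← H1.relIndex_mul_card' hZG, hm, mul_assoc]
  have hW'n : (W.subgroupOf Gs).Normal := by
    refine ⟨fun w hw g => ?_⟩
    rw [Subgroup.mem_subgroupOf] at hw ⊢
    have : ((g * w * g⁻¹ : Gs) : Q) = w := by
      simp only [Subgroup.coe_mul, InvMemClass.coe_inv]
      rw [hWc w hw g]
      simp
    rw [this]
    exact hw
  have hW'card : Nat.card (W.subgroupOf Gs) = m₂ := by
    rw [H1.card_subgroupOf_of_le hWG, hWcard]
  have hm2pos : 0 < m₂ := by
    rw [← hWcard]; exact Nat.card_pos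
  have hW'idx : (W.subgroupOf Gs).index = n * m₁ := by
    have := (W.subgroupOf Gs).index_mul_card
    rw [hW'card, hGcard] at this
    exact Nat.eq_of_mul_eq_mul_right hm2pos this
  have hc1 : m₂.Coprime (n * m₁) := Nat.Coprime.mul_right hm2 h12
  obtain ⟨A', hA'⟩ := Subgroup.exists_right_complement'_of_coprime (N := W.subgroupOf Gs)
    (by rw [hW'card, hW'idx]; exact hc1)
  set A : Subgroup Q := A'.map Gs.subtype with hA
  have hAG : A ≤ Gs := Subgroup.map_subtype_le A'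
  have hAcard : Nat.card A = n * m₁ := by
    rw [hA, Subgroup.card_map_of_injective Gs.subtype_injective, ← hW'idx]
    exact (hA'.symm.index_eq_card).symm
  have hdec : ∀ g ∈ Gs, ∃ w ∈ W, ∃ a ∈ A, g = w * a := by
    intro g hg
    obtain ⟨⟨w, a⟩, hwa, -⟩ := (Subgroup.isComplement'_def.mp hA').existsUnique ⟨g, hg⟩
    refine ⟨((w : Gs) : Q), Subgroup.mem_subgroupOf.mp w.2, ((a : Gs) : Q), ⟨a, a.2, rfl⟩, ?_⟩
    exact (congrArg Subtype.val hwa).symm
  have hchar : ∀ g ∈ Gs, g ^ (n * m₁) = 1 → g ∈ A := by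
    intro g hg hpow
    obtain ⟨w, hw, a, ha, rfl⟩ := hdec g hg
    have h1 : (w * a) ^ (n * m₁) = w ^ (n * m₁) * a ^ (n * m₁) :=
      (show Commute w a from (hWc w hw a).symm).mul_pow _
    have h2 : a ^ (n * m₁) = 1 := by
      rw [← hAcard]
      have := pow_card_eq_one' (G := A) (x := ⟨a, ha⟩)
      exact congrArg Subtype.val this
    have h3 : w ^ m₂ = 1 := by
      rw [← hWcard]
      have := pow_card_eq_one' (G := W) (x := ⟨w, hw⟩)
      exact congrArg Subtype.val this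
    rw [h1, h2, mul_one] at hpow
    have h4 : w = 1 := by
      have h5 : orderOf w ∣ Nat.gcd m₂ (n * m₁) :=
        Nat.dvd_gcd (orderOf_dvd_of_pow_eq_one h3) (orderOf_dvd_of_pow_eq_one hpow)
      rw [hc1] at h5
      exact orderOf_eq_one_iff.mp (Nat.dvd_one.mp h5)
    rw [h4, one_mul]
    exact ha
  have hAn : A.Normal := by
    refine ⟨fun a ha x => ?_⟩
    apply hchar _ (hGs.conj_mem a (hAG ha) x)
    rw [conj_pow, ← hAcard]
    have := pow_card_eq_one' (G := A) (x := ⟨a, ha⟩)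
    have h2 : a ^ Nat.card A = 1 := congrArg Subtype.val this
    rw [h2]
    simp
  have hAidx : A.index = Gs.index * m₂ := by
    have h1 := A.index_mul_card
    have h2 := Gs.index_mul_card
    rw [hAcard] at h1
    rw [hGcard] at h2
    have hpos : 0 < n * m₁ := by rw [← hAcard]; exact Nat.card_pos
    apply Nat.eq_of_mul_eq_mul_right hpos
    rw [h1, ← h2]
    ring
  have hc2 : (n * m₁).Coprime (Gs.index * m₂) :=
    Nat.Coprime.mul_right (Nat.Coprime.mul_left hcop.symm (hm1 _ hcop).symm) hc1.symm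
  obtain ⟨S, hS⟩ := Subgroup.exists_right_complement'_of_coprime (N := A)
    (by rw [hAcard, hAidx]; exact hc2)
  refine ⟨W, A, S, hWZ, hAG, hAn, hdec, by rw [hWcard, hAcard]; exact hc1, ?_, hS.sup_eq_top⟩
  rw [← hS.symm.index_eq_card, hAcard, hAidx]
  exact hc2

end Cfsg.Agent.H2
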