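import Cfsg.Statements.S4448
import Cfsg.Agent.Lib_helper2_Glaub19

set_option autoImplicit false
open Cfsg

namespace Cfsg.Agent.S4448

open Cfsg.Agent.H4 Cfsg.Agent.H2

/-- Inside a finite group Γ let S normalise G and also normalise a normal subgroup N of G, with the order of S coprime to the index of N in G and G/N solvable. Then for every S-invariant irreducible character ϑ of N, the induced character ϑ^G has an S-invariant irreducible constituent. -/
theorem result {Γ : Type*} [Group Γ] [Fintype Γ] (G S N : Subgroup Γ) [Fintype G] [Fintype N] (hnorm : ∀ s ∈ S, ∀ g ∈ G, s * g * s⁻¹ ∈ G) (hNG : N ≤ G) [hNn : (N.subgroupOf G).Normal] (hNS : ∀ s ∈ S, ∀ n ∈ N, s * n * s⁻¹ ∈ N) (hcop : (N.relIndex G).Coprime (Nat.card S)) (hsolv : Group.IsSolvable (G ⧸ N.subgroupOf G)) (θ : Cfsg.IrrCharacter N) (hinv : (∀ s ∈ S, ∀ g g' : N, (g' : Γ) = s * g * s⁻¹ → (θ : N → ℂ) g' = (θ : N → ℂ) g)) : ∃ χ : Cfsg.IrrCharacter G, Cfsg.classInner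 (fun n : N => (χ : G → ℂ) ⟨n, hNG n.2⟩) (θ : N → ℂ) ≠ 0 ∧ (∀ s ∈ S, ∀ g g' : G, (g' : Γ) = s * g * s⁻¹ → (χ : G → ℂ) g' = (χ : G → ℂ) g) := by
  classical
  have hnorm' : ∀ s ∈ S, ∀ g ∈ G, s⁻¹ * g * s ∈ G := by
    intro s hs g hg
    simpa using hnorm s⁻¹ (S.inv_mem hs) g hg
  let e := Subgroup.subgroupOfEquivOfLe hNG
  obtain ⟨χ, h1, h2⟩ := solvable_fixed (R := S)
    (fun s : S => conjE G s (hnorm s s.2) (hnorm' s s.2)) (N.subgroupOf G) hsolv
    (by
      intro r s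
      refine ⟨1, Subgroup.one_mem _, fun x => Subtype.ext ?_⟩
      simp [conjE_coe, mul_assoc])
    (fun r a ha => Subgroup.mem_subgroupOf.mpr (hNS r r.2 a (Subgroup.mem_subgroupOf.mp ha)))
    hcop.symm (irrCongr e θ)
    (by
      intro r b b' hb
      exact hinv r r.2 (e b) (e b') (congrArg Subtype.val hb))
  refine ⟨χ, ?_, ?_⟩
  · rw [← classInner_equiv e]
    exact h1
  · intro s hs g g' hg
    rw [← h2 ⟨s, hs⟩ g]
    exact congrArg (χ : G → ℂ) (Subtype.ext hg)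

end Cfsg.Agent.S4448
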