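import Cfsg.Agent.Lib_helper2_Glaub20
import Cfsg.Agent.S4448

set_option autoImplicit false
set_option linter.unusedSectionVars false
open Cfsg

namespace Cfsg.Agent.H2

open Cfsg.Agent.H4
universe u v

theorem inv_of_stab' {X : Type u} [Group X] (M H : Subgroup X) [hM : M.Normal] (htop : M ⊔ H = ⊤)
    (θ : M → ℂ) (hcl : IsClassFunction M θ) (h : InvUnder M H θ) :
    ∀ (x : X) (n : M), θ ⟨x * n * x⁻¹, hM.conj_mem n n.2 x⟩ = θ n := by
  have h1 : stabSub M θ = ⊤ := by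
    rw [eq_top_iff, ← htop]
    apply sup_le (le_stabSub_self hcl)
    intro s hs
    exact ⟨fun g hg => hM.conj_mem g hg s, fun g hg => by simpa using hM.conj_mem g hg s⁻¹, h s hs⟩
  intro x n
  have h2 : x ∈ stabSub M θ := by rw [h1]; trivial
  exact h2.2.2 n _ rfl

theorem isSolvable_quotient_of_hom {G : Type u} {T : Type v} [Group G] [Group T]
    [hT : Group.IsSolvable T] (σ : G →* T) (N : Subgroup G) [N.Normal] (h : σ.ker ≤ N) :
    Group.IsSolvable (G ⧸ N) := by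
  have h1 : Group.IsSolvable σ.range := inferInstance
  have h2 : Group.IsSolvable (G ⧸ σ.ker) :=
    Group.isSolvable_of_surjective (f := (QuotientGroup.quotientKerEquivRange σ).symm.toMonoidHom)
      (QuotientGroup.quotientKerEquivRange σ).symm.surjective
  apply Group.isSolvable_of_surjective (f := QuotientGroup.map σ.ker N (MonoidHom.id G) h)
  intro q
  obtain ⟨x, rfl⟩ := QuotientGroup.mk_surjective q
  exact ⟨QuotientGroup.mk x, rfl⟩

theorem central_glue {Q : Type u} [Group Q] [Fintype Q] (Gs Z W A : Subgroup Q) [hGs : Gs.Normal]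
    [hAn : A.Normal] (hZG : Z ≤ Gs) (hZc : Z ≤ Subgroup.center Q) (hWZ : W ≤ Z) (hAG : A ≤ Gs)
    (hdec : ∀ g ∈ Gs, ∃ w ∈ W, ∃ a ∈ A, g = w * a) (hWA : (Nat.card W).Coprime (Nat.card A))
    (μ : Z →* ℂˣ) (ψ : IrrCharacter A)
    (hψμ : ∀ (n : Q) (hn : n ∈ Z) (hnA : n ∈ A) (a : A),
      (ψ : A → ℂ) (⟨n, hnA⟩ * a) = μ ⟨n, hn⟩ * (ψ : A → ℂ) a)
    (hψinv : ∀ (x : Q) (a : A), (ψ : A → ℂ) ⟨x * a * x⁻¹, hAn.conj_mem a a.2 x⟩ = (ψ : A → ℂ) a) :
    ∃ β : IrrCharacter Gs,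
      (∀ (z : Z) (y : Gs), (β : Gs → ℂ) (⟨z, hZG z.2⟩ * y) = μ z * (β : Gs → ℂ) y) ∧
      (∀ (x : Q) (y : Gs), (β : Gs → ℂ) ⟨x * y * x⁻¹, hGs.conj_mem y y.2 x⟩ = (β : Gs → ℂ) y) := by
  classical
  have hcen : ∀ z ∈ Z, ∀ x : Q, x * z = z * x := fun z hz x =>
    Subgroup.mem_center_iff.mp (hZc hz) x
  have hCS : ∀ c ∈ W, ∀ t ∈ A, c * t = t * c := fun c hc t _ => (hcen c (hWZ hc) t).symm
  let j := mulHomCS W A hCS
  let jG : W × A →* Gs := j.codRestrict Gs (fun p => Gs.mul_mem (hZG (hWZ p.1.2)) (hAG p.2.2))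
  have hjG : ∀ p : W × A, ((jG p : Gs) : Q) = (p.1 : Q) * p.2 := fun p => rfl
  have hbij : Function.Bijective jG := by
    constructor
    · rw [injective_iff_map_eq_one]
      intro p hp
      have h1 : (p.1 : Q) * p.2 = 1 := by rw [← hjG, hp]; rfl
      have h2 : (p.1 : Q) ∈ W ⊓ A := by
        refine ⟨p.1.2, ?_⟩
        rw [eq_inv_of_mul_eq_one_left h1]
        exact A.inv_mem p.2.2
      rw [(Subgroup.disjoint_of_coprime_natCard hWA).eq_bot, Subgroup.mem_bot] at h2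
      rw [h2, one_mul] at h1
      exact Prod.ext (Subtype.ext h2) (Subtype.ext h1)
    · intro g
      obtain ⟨w, hw, a, ha, hg⟩ := hdec g g.2
      exact ⟨(⟨w, hw⟩, ⟨a, ha⟩), Subtype.ext hg.symm⟩
  let e : W × A ≃* Gs := MulEquiv.ofBijective jG hbij
  let μW : W × A →* ℂˣ := (μ.comp (Subgroup.inclusion hWZ)).comp (MonoidHom.fst W A)
  let βp : IrrCharacter (W × A) :=
    ⟨(fun p => (μW p : ℂ)) * (fun p => (ψ : A → ℂ) (MonoidHom.snd W A p)),
      IsIrrCharacter.linear_mul_irr (isCharacter_of_hom μW) (by simp)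
        (IsIrrCharacter.comp_surj (MonoidHom.snd W A) (fun a => ⟨(1, a), rfl⟩) ψ.2)⟩
  have hform : ∀ (w : Q) (hw : w ∈ W) (a : Q) (ha : a ∈ A) (h : w * a ∈ Gs),
      (irrCongr e.symm βp : Gs → ℂ) ⟨w * a, h⟩ = μ ⟨w, hWZ hw⟩ * (ψ : A → ℂ) ⟨a, ha⟩ := by
    intro w hw a ha h
    rw [irrCongr_apply]
    have h1 : e.symm ⟨w * a, h⟩ = (⟨w, hw⟩, ⟨a, ha⟩) := by
      rw [MulEquiv.symm_apply_eq]
      exact Subtype.ext rfl
    rw [h1]
    rfl
  refine ⟨irrCongr e.symm βp, ?_, ?_⟩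
  · intro z y
    obtain ⟨w, hw, a, ha, hz⟩ := hdec z (hZG z.2)
    obtain ⟨w', hw', a', ha', hy⟩ := hdec y y.2
    have haZ : a ∈ Z := by
      have : a = w⁻¹ * z := by rw [hz]; group
      rw [this]
      exact Z.mul_mem (Z.inv_mem (hWZ hw)) z.2
    have h1 : (⟨z, hZG z.2⟩ * y : Gs) = ⟨(w * w') * (a * a'),
        Gs.mul_mem (hZG (hWZ (W.mul_mem hw hw'))) (hAG (A.mul_mem ha ha'))⟩ := by
      apply Subtype.ext
      show (z : Q) * y = _
      rw [hz, hy]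
      calc w * a * (w' * a') = w * (a * w') * a' := by group
        _ = w * (w' * a) * a' := by rw [hcen w' (hWZ hw') a]
        _ = _ := by group
    have h2 : y = ⟨w' * a', hy ▸ y.2⟩ := Subtype.ext hy
    rw [h1, hform _ (W.mul_mem hw hw') _ (A.mul_mem ha ha')]
    conv_rhs => rw [h2]
    rw [hform _ hw' _ ha']
    have h3 : (⟨a * a', A.mul_mem ha ha'⟩ : A) = ⟨a, ha⟩ * ⟨a', ha'⟩ := rfl
    rw [h3, hψμ a haZ ha]
    have h4 : z = ⟨w, hWZ hw⟩ * ⟨a, haZ⟩ := Subtype.ext hz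
    have h5 : (⟨w * w', hWZ (W.mul_mem hw hw')⟩ : Z) = ⟨w, hWZ hw⟩ * ⟨w', hWZ hw'⟩ := rfl
    rw [h4, h5, map_mul, map_mul]
    push_cast
    ring
  · intro x y
    obtain ⟨w', hw', a', ha', hy⟩ := hdec y y.2
    have h1 : (⟨x * y * x⁻¹, hGs.conj_mem y y.2 x⟩ : Gs) = ⟨w' * (x * a' * x⁻¹),
        Gs.mul_mem (hZG (hWZ hw')) (hAG (hAn.conj_mem a' ha' x))⟩ := by
      apply Subtype.ext
      show x * (y : Q) * x⁻¹ = _
      rw [hy]
      calc x * (w' * a') * x⁻¹ = (x * w') * a' * x⁻¹ := by group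
        _ = (w' * x) * a' * x⁻¹ := by rw [hcen w' (hWZ hw') x]
        _ = _ := by group
    have h2 : y = ⟨w' * a', hy ▸ y.2⟩ := Subtype.ext hy
    rw [h1, hform _ hw' _ (hAn.conj_mem a' ha' x)]
    conv_rhs => rw [h2]
    rw [hform _ hw' _ ha']
    rw [hψinv x ⟨a', ha'⟩]

theorem central_case {Q : Type u} [Group Q] [Fintype Q] (Gs Z : Subgroup Q) [hGs : Gs.Normal]
    (hZG : Z ≤ Gs) (hZc : Z ≤ Subgroup.center Q) (hcop : Gs.index.Coprime (Z.relIndex Gs))
    (hsolv : (∃ (T : Type u) (_ : Group T) (σ : Q →* T), Group.IsSolvable T ∧ σ.ker ≤ Gs) ∨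
      (∃ (T : Type u) (_ : Group T) (σ : Gs →* T), Group.IsSolvable T ∧
        ∀ y : Gs, σ y = 1 → (y : Q) ∈ Z))
    (μ : Z →* ℂˣ) :
    ∃ β : IrrCharacter Gs,
      (∀ (z : Z) (y : Gs), (β : Gs → ℂ) (⟨z, hZG z.2⟩ * y) = μ z * (β : Gs → ℂ) y) ∧
      (∀ (x : Q) (y : Gs), (β : Gs → ℂ) ⟨x * y * x⁻¹, hGs.conj_mem y y.2 x⟩ = (β : Gs → ℂ) y) := by
  classical
  obtain ⟨W, A, S, hWZ, hAG, hAn, hdec, hWA, hAS, htop⟩ := central_hall Gs Z hZG hZc hcop
  have hcen : ∀ z ∈ Z, ∀ x : Q, x * z = z * x := fun z hz x =>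
    Subgroup.mem_center_iff.mp (hZc hz) x
  have hconjZ : ∀ z ∈ Z, ∀ x : Q, x * z * x⁻¹ = z := by
    intro z hz x
    rw [hcen z hz x]
    simp
  set NA : Subgroup Q := Z ⊓ A with hNAdef
  have hNA : NA ≤ A := inf_le_right
  let θA : IrrCharacter NA :=
    ⟨fun n => (μ (Subgroup.inclusion (inf_le_left : NA ≤ Z) n) : ℂ),
      isIrrCharacter_of_hom (μ.comp (Subgroup.inclusion (inf_le_left : NA ≤ Z)))⟩
  have hθAinv : ∀ s ∈ S, ∀ g g' : NA, (g' : Q) = s * g * s⁻¹ →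
      (θA : NA → ℂ) g' = (θA : NA → ℂ) g := by
    intro s _ g g' hg
    have : g' = g := Subtype.ext (by rw [hg, hconjZ g g.2.1 s])
    rw [this]
  have hψ : ∃ ψ : IrrCharacter A,
      classInner (fun n : NA => (ψ : A → ℂ) (Subgroup.inclusion hNA n)) (θA : NA → ℂ) ≠ 0 ∧
      InvUnder A S ψ := by
    rcases hsolv with ⟨T, _, σ, hT, hσ⟩ | ⟨T, _, σ, hT, hσ⟩
    · have hSsolv : Group.IsSolvable S := by
        let g : S →* T := σ.comp S.subtype
        have hker : ∀ a b : g.ker, a * b = b * a := by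
          intro a b
          have ha : ((a : S) : Q) ∈ Gs := hσ (MonoidHom.mem_ker.mpr (MonoidHom.mem_ker.mp a.2))
          have hb : ((b : S) : Q) ∈ Gs := hσ (MonoidHom.mem_ker.mpr (MonoidHom.mem_ker.mp b.2))
          obtain ⟨w, hw, x, hx, hax⟩ := hdec _ ha
          obtain ⟨w', hw', x', hx', hbx⟩ := hdec _ hb
          have h1 : ((a : S) : Q) * b * ((a : S) : Q)⁻¹ * ((b : S) : Q)⁻¹ ∈ A ⊓ S := by
            refine ⟨?_, S.mul_mem (S.mul_mem (S.mul_mem a.1.2 b.1.2) (S.inv_mem a.1.2))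
              (S.inv_mem b.1.2)⟩
            have e1 := hcen w (hWZ hw)
            have e2 := hcen w' (hWZ hw')
            have : ((a : S) : Q) * b * ((a : S) : Q)⁻¹ * ((b : S) : Q)⁻¹ = x * x' * x⁻¹ * x'⁻¹ := by
              rw [hax, hbx]
              calc w * x * (w' * x') * (w * x)⁻¹ * (w' * x')⁻¹
                  = w * (x * w') * x' * x⁻¹ * w⁻¹ * x'⁻¹ * w'⁻¹ := by group
                _ = w * (w' * x) * x' * x⁻¹ * w⁻¹ * x'⁻¹ * w'⁻¹ := by rw [e2 x]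
                _ = (w * w' * (x * x' * x⁻¹)) * w⁻¹ * x'⁻¹ * w'⁻¹ := by group
                _ = ((x * x' * x⁻¹) * w * w') * w⁻¹ * x'⁻¹ * w'⁻¹ := by
                    rw [mul_assoc w w', ← e2, ← mul_assoc, ← e1]
                _ = (x * x' * x⁻¹) * (w * w' * w⁻¹) * x'⁻¹ * w'⁻¹ := by group
                _ = (x * x' * x⁻¹) * w' * x'⁻¹ * w'⁻¹ := by rw [hconjZ w' (hWZ hw') w]
                _ = (x * x' * x⁻¹) * (w' * x'⁻¹ * w'⁻¹) := by group
                _ = (x * x' * x⁻¹) * (x'⁻¹ * w' * w'⁻¹) := by rw [← e2]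
                _ = _ := by group
            rw [this]
            exact A.mul_mem (A.mul_mem (A.mul_mem hx hx') (A.inv_mem hx)) (A.inv_mem hx')
          rw [(Subgroup.disjoint_of_coprime_natCard hAS).eq_bot, Subgroup.mem_bot] at h1
          apply Subtype.ext
          apply Subtype.ext
          rw [mul_inv_eq_one, mul_inv_eq_iff_eq_mul] at h1
          exact h1
        have : Group.IsSolvable g.ker := Group.isSolvable_of_comm hker
        exact Group.isSolvable_of_ker_le_range g.ker.subtype g (by rw [Subgroup.range_subtype])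
      exact exists_inv_over (Nat.card A) A NA S rfl (fun s _ g hg => hAn.conj_mem g hg s) hNA
        (fun g _ n hn => by rw [hconjZ n hn.1 g]; exact hn)
        (fun g _ n hn => by rw [hconjZ n hn.1 g]; exact hn) hAS hSsolv θA hθAinv
    · have hnn : (NA.subgroupOf A).Normal := by
        refine ⟨fun n hn g => ?_⟩
        rw [Subgroup.mem_subgroupOf] at hn ⊢
        have : ((g * n * g⁻¹ : A) : Q) = n := hconjZ n hn.1 g
        rw [this]
        exact hn
      have hq : Group.IsSolvable (A ⧸ NA.subgroupOf A) := by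
        apply isSolvable_quotient_of_hom (σ.comp (Subgroup.inclusion hAG))
        intro a ha
        exact Subgroup.mem_subgroupOf.mpr ⟨hσ _ (MonoidHom.mem_ker.mp ha), a.2⟩
      exact S4448.result A S NA (fun s _ g hg => hAn.conj_mem g hg s) hNA
        (fun g _ n hn => by rw [hconjZ n hn.1 g]; exact hn)
        (Nat.Coprime.coprime_dvd_left (by
          rw [← H1.relIndex_mul_card' hNA]; exact Dvd.intro _ rfl) hAS) hq θA hθAinv
  obtain ⟨ψ, hψ1, hψ2⟩ := hψ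
  have hcA : NA.subgroupOf A ≤ Subgroup.center A := by
    intro n hn
    rw [Subgroup.mem_center_iff]
    intro g
    apply Subtype.ext
    exact hcen n (Subgroup.mem_subgroupOf.mp hn).1 g
  obtain ⟨lam, hlam⟩ := exists_central_char (NA.subgroupOf A) hcA ψ.2
  let i : NA →* NA.subgroupOf A := (Subgroup.subgroupOfEquivOfLe hNA).symm.toMonoidHom
  have hi : ∀ n : NA, ((i n : NA.subgroupOf A) : A) = Subgroup.inclusion hNA n := fun n => rfl
  have h1 : (fun n : NA => (ψ : A → ℂ) (Subgroup.inclusion hNA n))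
      = ((ψ : A → ℂ) 1) • (fun n : NA => ((lam.comp i) n : ℂ)) := by
    funext n
    have := hlam (i n) 1
    rw [mul_one] at this
    rw [← hi, this]
    simp [mul_comm]
  rw [h1, classInner_smul_left] at hψ1
  have h2 : classInner (fun n : NA => ((lam.comp i) n : ℂ)) (θA : NA → ℂ) ≠ 0 :=
    right_ne_zero_of_mul hψ1
  have h3 := irr_eq_of_classInner_ne_zero (isIrrCharacter_of_hom (lam.comp i)) θA.2 h2
  apply central_glue Gs Z W A hZG hZc hWZ hAG hdec hWA μ ψ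
  · intro n hn hnA a
    have h4 := congrFun h3 ⟨n, ⟨hn, hnA⟩⟩
    have h5 := hlam (i ⟨n, ⟨hn, hnA⟩⟩) a
    have h6 : (((i ⟨n, ⟨hn, hnA⟩⟩ : NA.subgroupOf A) : A)) = ⟨n, hnA⟩ := rfl
    rw [h6] at h5
    rw [h5]
    congr 1
  · exact inv_of_stab' A S htop ψ (IsCharacter.isClassFunction (IsIrrCharacter.isCharacter ψ.2)) hψ2

end Cfsg.Agent.H2
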