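import Cfsg.Agent.Lib_helper2_Glaub21

set_option autoImplicit false
set_option linter.unusedSectionVars false
open Cfsg

namespace Cfsg.Agent.H2

open Cfsg.Agent.H4
universe u v

theorem cover_transfer {Γ Γh : Type u} [Group Γ] [Fintype Γ] [Group Γh] [Fintype Γh]
    (G N : Subgroup Γ) [hG : G.Normal] [hN : N.Normal] [Fintype N] (hNG : N ≤ G)
    (hcop : (G.index).Coprime (N.relIndex G))
    (hsolv : Group.IsSolvable (Γ ⧸ G) ∨ Group.IsSolvable (G ⧸ N.subgroupOf G))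
    (θ : IrrCharacter N)
    (π : Γh →* Γ) (ι : N →* Γh) (η : Γh → ℂ) (hπ : Function.Surjective π)
    (hπι : ∀ n, π (ι n) = n) (hιn : ι.range.Normal) (hker : π.ker ≤ Subgroup.center Γh)
    (hη : IsIrrCharacter Γh η) (hηι : ∀ n, η (ι n) = (θ : N → ℂ) n) :
    ∃ χ : IrrCharacter G,
      classInner (fun n : N => (χ : G → ℂ) ⟨n, hNG n.2⟩) (θ : N → ℂ) ≠ 0 ∧
      ∀ (x : Γ) (g : G), (χ : G → ℂ) ⟨x * g * x⁻¹, hG.conj_mem g g.2 x⟩ = (χ : G → ℂ) g := by
  classical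
  let q : Γh →* Γh ⧸ ι.range := QuotientGroup.mk' ι.range
  have hq : Function.Surjective q := QuotientGroup.mk'_surjective _
  have hqker : q.ker = ι.range := QuotientGroup.ker_mk' _
  let Gh : Subgroup Γh := G.comap π
  have hGhn : Gh.Normal := inferInstance
  let Gs : Subgroup (Γh ⧸ ι.range) := Gh.map q
  let Z : Subgroup (Γh ⧸ ι.range) := π.ker.map q
  have hGsn : Gs.Normal := Subgroup.Normal.map hGhn q hq
  have hkG : π.ker ≤ Gh := fun x hx => by
    show π x ∈ G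
    rw [MonoidHom.mem_ker.mp hx]; exact G.one_mem
  have hZG : Z ≤ Gs := Subgroup.map_mono hkG
  have hZc : Z ≤ Subgroup.center (Γh ⧸ ι.range) := by
    rintro _ ⟨z, hz, rfl⟩
    rw [Subgroup.mem_center_iff]
    intro y
    obtain ⟨x, rfl⟩ := hq y
    rw [← map_mul, ← map_mul, Subgroup.mem_center_iff.mp (hker hz) x]
  have hιG : ι.range ≤ Gh := by
    rintro _ ⟨n, rfl⟩
    show π (ι n) ∈ G
    rw [hπι]; exact hNG n.2
  have hsplit : ∀ x : Γh, π x ∈ N → ∃ k ∈ π.ker, ∃ n : N, x = k * ι n := by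
    intro x hx
    refine ⟨x * (ι ⟨π x, hx⟩)⁻¹, ?_, ⟨π x, hx⟩, by group⟩
    rw [MonoidHom.mem_ker, map_mul, map_inv, hπι]; simp
  have hsup : π.ker ⊔ ι.range = N.comap π := by
    apply le_antisymm
    · apply sup_le
      · intro x hx; show π x ∈ N; rw [MonoidHom.mem_ker.mp hx]; exact N.one_mem
      · rintro _ ⟨n, rfl⟩; show π (ι n) ∈ N; rw [hπι]; exact n.2
    · intro x hx
      obtain ⟨k, hk, n, rfl⟩ := hsplit x hx
      exact Subgroup.mul_mem_sup hk ⟨_, rfl⟩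
  have hidx : Gs.index = G.index := by
    rw [Subgroup.index_map, hqker, sup_eq_left.mpr hιG, MonoidHom.range_eq_top.mpr hq,
      Subgroup.index_top, mul_one, Subgroup.index_comap_of_surjective G hπ]
  have hrel : Z.relIndex Gs = N.relIndex G := by
    rw [Subgroup.relIndex_map_map, hqker, hsup, sup_eq_left.mpr hιG, Subgroup.relIndex_comap,
      Subgroup.map_comap_eq_self_of_surjective hπ]
  let qG : Gh →* Gs := q.subgroupMap Gh
  have hqG : Function.Surjective qG := q.subgroupMap_surjective Gh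
  have hqGc : ∀ x : Gh, ((qG x : Gs) : Γh ⧸ ι.range) = q x := fun x => rfl
  let πG : Gh →* G := π.subgroupComap G
  have hπG : Function.Surjective πG := π.subgroupComap_surjective_of_surjective G hπ
  have hπGc : ∀ x : Gh, ((πG x : G) : Γ) = π x := fun x => rfl
  have hqι : ∀ n : N, q (ι n) = 1 := fun n =>
    (QuotientGroup.eq_one_iff _).mpr ⟨n, rfl⟩
  have hsolv' : (∃ (T : Type u) (_ : Group T) (σ : (Γh ⧸ ι.range) →* T),
        Group.IsSolvable T ∧ σ.ker ≤ Gs) ∨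
      (∃ (T : Type u) (_ : Group T) (σ : Gs →* T), Group.IsSolvable T ∧
        ∀ y : Gs, σ y = 1 → (y : Γh ⧸ ι.range) ∈ Z) := by
    rcases hsolv with h | h
    · left
      refine ⟨Γ ⧸ G, inferInstance, QuotientGroup.lift ι.range ((QuotientGroup.mk' G).comp π) ?_,
        h, ?_⟩
      · rintro _ ⟨n, rfl⟩
        show (QuotientGroup.mk' G) (π (ι n)) = 1
        rw [hπι]
        exact (QuotientGroup.eq_one_iff _).mpr (hNG n.2)
      · intro y hy
        obtain ⟨x, rfl⟩ := hq y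
        have h1 : (QuotientGroup.mk' G) (π x) = 1 := MonoidHom.mem_ker.mp hy
        exact ⟨x, (QuotientGroup.eq_one_iff (π x)).mp h1, rfl⟩
    · right
      let f : Gh →* G ⧸ N.subgroupOf G := (QuotientGroup.mk' (N.subgroupOf G)).comp πG
      have hf : qG.ker ≤ f.ker := by
        intro x hx
        have h1 : q x = 1 := by rw [← hqGc, MonoidHom.mem_ker.mp hx]; rfl
        obtain ⟨n, hn⟩ : (x : Γh) ∈ ι.range := (QuotientGroup.eq_one_iff _).mp h1
        rw [MonoidHom.mem_ker]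
        show (QuotientGroup.mk' (N.subgroupOf G)) (πG x) = 1
        apply (QuotientGroup.eq_one_iff _).mpr
        rw [Subgroup.mem_subgroupOf, hπGc, ← hn, hπι]
        exact n.2
      refine ⟨G ⧸ N.subgroupOf G, inferInstance, qG.liftOfSurjective hqG ⟨f, hf⟩, h, ?_⟩
      intro y hy
      obtain ⟨x, rfl⟩ := hqG y
      rw [MonoidHom.liftOfRightInverse_comp_apply] at hy
      have h1 : πG x ∈ N.subgroupOf G := (QuotientGroup.eq_one_iff _).mp hy
      rw [Subgroup.mem_subgroupOf, hπGc] at h1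
      obtain ⟨k, hk, n, hx⟩ := hsplit x h1
      refine ⟨k, hk, ?_⟩
      rw [hqGc, hx, map_mul, hqι, mul_one]
  obtain ⟨lam, hlam⟩ := exists_central_char π.ker hker hη
  -- the isomorphism `ker π ≃ Z`
  have hbij : Function.Bijective (q.subgroupMap π.ker) := by
    refine ⟨?_, q.subgroupMap_surjective π.ker⟩
    rw [injective_iff_map_eq_one]
    intro z hz
    have h1 : q z = 1 := congrArg Subtype.val hz
    obtain ⟨n, hn⟩ : (z : Γh) ∈ ι.range := (QuotientGroup.eq_one_iff _).mp h1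
    have h2 : π (z : Γh) = 1 := MonoidHom.mem_ker.mp z.2
    rw [← hn, hπι] at h2
    have h3 : n = 1 := Subtype.ext h2
    apply Subtype.ext
    rw [← hn, h3, map_one]
    rfl
  let eZ : π.ker ≃* Z := MulEquiv.ofBijective (q.subgroupMap π.ker) hbij
  let μ : Z →* ℂˣ := (lam.comp eZ.symm.toMonoidHom)⁻¹
  have hμ : ∀ (z : π.ker) (h : q z ∈ Z), μ ⟨q z, h⟩ = (lam z)⁻¹ := by
    intro z h
    have h1 : eZ.symm ⟨q z, h⟩ = z := by
      rw [MulEquiv.symm_apply_eq]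
      rfl
    show (lam (eZ.symm ⟨q z, h⟩))⁻¹ = _
    rw [h1]
  obtain ⟨β, hβ1, hβ2⟩ := central_case Gs Z hZG hZc (by rw [hidx, hrel]; exact hcop) hsolv' μ
  -- the character on the cover
  let ηG : Gh → ℂ := fun x => η x
  have hηGc : IsCharacter Gh ηG := IsCharacter.comp Gh.subtype (IsIrrCharacter.isCharacter hη)
  let M : Subgroup Gh := ι.range.subgroupOf Gh
  have hMn : M.Normal := inferInstance
  let fM : M →* N := (π.comp (Gh.subtype.comp M.subtype)).codRestrict N (by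
    intro m
    obtain ⟨n, hn⟩ : ((m : Gh) : Γh) ∈ ι.range := m.2
    show π ((m : Gh) : Γh) ∈ N
    rw [← hn, hπι]
    exact n.2)
  have hfM : Function.Surjective fM := by
    intro n
    refine ⟨⟨⟨ι n, hιG ⟨n, rfl⟩⟩, ⟨n, rfl⟩⟩, ?_⟩
    apply Subtype.ext
    exact hπι n
  have hηM : IsIrrCharacter M (fun m : M => ηG m) := by
    have h1 : (fun m : M => ηG m) = fun m : M => (θ : N → ℂ) (fM m) := by
      funext m
      obtain ⟨n, hn⟩ : ((m : Gh) : Γh) ∈ ι.range := m.2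
      have h2 : fM m = n := by
        apply Subtype.ext
        show π ((m : Gh) : Γh) = n
        rw [← hn, hπι]
      rw [h2, ← hηι, hn]
    rw [h1]
    exact IsIrrCharacter.comp_surj fM hfM θ.2
  have hηG : IsIrrCharacter Gh ηG := irr_of_restrict_irr M hηGc hηM
  have hβq : IsIrrCharacter Gh (fun x => (β : Gs → ℂ) (qG x)) := IsIrrCharacter.comp_surj qG hqG β.2
  have hχh : IsIrrCharacter Gh ((fun x => (β : Gs → ℂ) (qG x)) * ηG) := by
    apply (gallagher M ηG hηG hηM).1 _ hβq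
    intro m hm
    obtain ⟨n, hn⟩ : (m : Γh) ∈ ι.range := hm
    have h1 : qG m = 1 := by
      apply Subtype.ext
      rw [hqGc, ← hn, hqι]
      rfl
    show (β : Gs → ℂ) (qG m) = (β : Gs → ℂ) (qG 1)
    rw [h1, map_one]
  obtain ⟨χ', hχ', hχ'π⟩ := irr_descend πG hπG hχh (by
    intro z hz
    have hzk : (z : Γh) ∈ π.ker := by
      rw [MonoidHom.mem_ker, ← hπGc, MonoidHom.mem_ker.mp hz]
      rfl
    have h1 := hβ1 ⟨q z, ⟨z, hzk, rfl⟩⟩ 1
    have h2 := hlam ⟨z, hzk⟩ 1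
    rw [mul_one] at h1 h2
    have h3 : qG z = ⟨q z, hZG ⟨z, hzk, rfl⟩⟩ := rfl
    show (β : Gs → ℂ) (qG z) * η z = (β : Gs → ℂ) (qG 1) * η ((1 : Gh) : Γh)
    have h6 : μ ⟨q z, ⟨z, hzk, rfl⟩⟩ = (lam ⟨z, hzk⟩)⁻¹ := hμ ⟨z, hzk⟩ _
    rw [h3, h1, map_one, h6]
    have h4 : η (z : Γh) = lam ⟨z, hzk⟩ * η 1 := h2
    rw [h4]
    have h5 : ((lam ⟨z, hzk⟩ : ℂˣ) : ℂ) ≠ 0 := Units.ne_zero _
    push_cast
    field_simp)
  refine ⟨⟨χ', hχ'⟩, ?_, ?_⟩
  · have h1 : (fun n : N => χ' ⟨n, hNG n.2⟩) = ((β : Gs → ℂ) 1) • (θ : N → ℂ) := by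
      funext n
      have h2 : (⟨n, hNG n.2⟩ : G) = πG ⟨ι n, hιG ⟨n, rfl⟩⟩ := Subtype.ext (hπι n).symm
      rw [h2, hχ'π]
      show (β : Gs → ℂ) (qG ⟨ι n, hιG ⟨n, rfl⟩⟩) * η (ι n) = _
      have h3 : qG ⟨ι n, hιG ⟨n, rfl⟩⟩ = 1 := Subtype.ext (hqι n)
      rw [h3, hηι]
      rfl
    show classInner (fun n : N => χ' ⟨n, hNG n.2⟩) (θ : N → ℂ) ≠ 0
    rw [h1, classInner_smul_left, IsIrrCharacter.norm_one θ.2, mul_one]
    exact IsIrrCharacter.apply_one_ne_zero β.2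
  · intro x g
    obtain ⟨xh, rfl⟩ := hπ x
    obtain ⟨gh, rfl⟩ := hπG g
    have h1 : (⟨π xh * (πG gh : G) * (π xh)⁻¹, hG.conj_mem _ (πG gh).2 (π xh)⟩ : G)
        = πG ⟨xh * gh * xh⁻¹, hGhn.conj_mem gh gh.2 xh⟩ := by
      apply Subtype.ext
      show π xh * π gh * (π xh)⁻¹ = π (xh * gh * xh⁻¹)
      simp
    show χ' _ = χ' _
    rw [h1, hχ'π, hχ'π]
    show (β : Gs → ℂ) (qG ⟨xh * gh * xh⁻¹, hGhn.conj_mem gh gh.2 xh⟩) * η (xh * gh * xh⁻¹)
      = (β : Gs → ℂ) (qG gh) * η gh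
    have h2 : qG ⟨xh * gh * xh⁻¹, hGhn.conj_mem gh gh.2 xh⟩
        = ⟨q xh * (qG gh : Gs) * (q xh)⁻¹, hGsn.conj_mem _ (qG gh).2 (q xh)⟩ := by
      apply Subtype.ext
      show q (xh * gh * xh⁻¹) = q xh * q gh * (q xh)⁻¹
      simp
    rw [h2, hβ2, IsCharacter.isClassFunction (IsIrrCharacter.isCharacter hη)]

end Cfsg.Agent.H2
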