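import Cfsg.Agent.Lib_helper2_Glaub22

set_option autoImplicit false
set_option linter.unusedSectionVars false
open Cfsg

namespace Cfsg.Agent.H2

open Cfsg.Agent.H4
open Pointwise
universe u v

/-- Glauberman's lemma (existence), relative to a normal subgroup `N`. -/
theorem glauberman_rel {Γ : Type u} [Group Γ] [Finite Γ] (G S N T : Subgroup Γ)
    (hnorm : ∀ s ∈ S, ∀ g ∈ G, s * g * s⁻¹ ∈ G) (hNG : N ≤ G) [hNn : (N.subgroupOf G).Normal]
    (hNS : ∀ s ∈ S, ∀ n ∈ N, s * n * s⁻¹ ∈ N) (hcop : (N.relIndex G).Coprime (Nat.card S))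
    (hsolv : Group.IsSolvable S ∨ Group.IsSolvable (G ⧸ N.subgroupOf G))
    (hNT : N ≤ T) (hT : ∀ s ∈ S, ∃ g ∈ G, g * s ∈ T) :
    ∃ g ∈ G, ∀ s ∈ S, g * s * g⁻¹ ∈ T := by
  classical
  have hGX : G ≤ Subgroup.normalizer (N : Set Γ) := by
    apply H1.le_normalizer_of_forall
    intro g hg n hn
    have := hNn.conj_mem ⟨n, hNG hn⟩ (Subgroup.mem_subgroupOf.mpr hn) ⟨g, hg⟩
    exact Subgroup.mem_subgroupOf.mp this
  have hSX : S ≤ Subgroup.normalizer (N : Set Γ) := H1.le_normalizer_of_forall hNS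
  let mk := QuotientGroup.mk' (N.subgroupOf (Subgroup.normalizer (N : Set Γ)))
  have hmk1 : ∀ x : Subgroup.normalizer (N : Set Γ), mk x = 1 ↔ (x : Γ) ∈ N := fun x =>
    (QuotientGroup.eq_one_iff x).trans Subgroup.mem_subgroupOf
  let A := (S.subgroupOf (Subgroup.normalizer (N : Set Γ))).map mk
  let Kq := (G.subgroupOf (Subgroup.normalizer (N : Set Γ))).map mk
  let Tq := (T.subgroupOf (Subgroup.normalizer (N : Set Γ))).map mk
  have hAK : A ≤ Subgroup.normalizer (Kq : Set _) := by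
    apply H1.le_normalizer_of_forall
    rintro _ ⟨s, hs, rfl⟩ _ ⟨g, hg, rfl⟩
    refine ⟨s * g * s⁻¹, ?_, by simp⟩
    exact Subgroup.mem_subgroupOf.mpr (hnorm s (Subgroup.mem_subgroupOf.mp hs) g
      (Subgroup.mem_subgroupOf.mp hg))
  have hcardA : Nat.card A ∣ Nat.card S := by
    have := Subgroup.card_map_dvd (H := S.subgroupOf (Subgroup.normalizer (N : Set Γ))) mk
    rwa [H1.card_subgroupOf_of_le hSX] at this
  have hcardK : Nat.card Kq = N.relIndex G := by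
    rw [← Subgroup.relIndex_ker, QuotientGroup.ker_mk', Subgroup.relIndex_subgroupOf hGX]
  have hcop' : (Nat.card A).Coprime (Nat.card Kq) := by
    rw [hcardK]
    exact (Nat.Coprime.coprime_dvd_right hcardA hcop).symm
  have hsolv' : Group.IsSolvable A ∨ Group.IsSolvable Kq := by
    rcases hsolv with h | h
    · left
      let f : S →* A := (mk.subgroupMap _).comp (Subgroup.subgroupOfEquivOfLe hSX).symm.toMonoidHom
      exact Group.isSolvable_of_surjective (f := f)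
        ((mk.subgroupMap_surjective _).comp (Subgroup.subgroupOfEquivOfLe hSX).symm.surjective)
    · right
      let f : G →* Kq := (mk.subgroupMap _).comp (Subgroup.subgroupOfEquivOfLe hGX).symm.toMonoidHom
      have hf : Function.Surjective f :=
        (mk.subgroupMap_surjective _).comp (Subgroup.subgroupOfEquivOfLe hGX).symm.surjective
      have hfk : N.subgroupOf G ≤ f.ker := by
        intro n hn
        rw [MonoidHom.mem_ker]
        apply Subtype.ext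
        show mk ⟨(n : Γ), hGX n.2⟩ = 1
        rw [hmk1]
        exact Subgroup.mem_subgroupOf.mp hn
      apply Group.isSolvable_of_surjective (f := QuotientGroup.lift (N.subgroupOf G) f hfk)
      intro y
      obtain ⟨x, rfl⟩ := hf y
      exact ⟨QuotientGroup.mk x, rfl⟩
  have hS : ∀ a ∈ A, ∃ k ∈ Kq, k * a ∈ Tq := by
    rintro _ ⟨s, hs, rfl⟩
    obtain ⟨g, hg, hgs⟩ := hT s (Subgroup.mem_subgroupOf.mp hs)
    refine ⟨mk ⟨g, hGX hg⟩, ⟨⟨g, hGX hg⟩, Subgroup.mem_subgroupOf.mpr hg, rfl⟩,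
      ⟨⟨g, hGX hg⟩ * s, Subgroup.mem_subgroupOf.mpr hgs, by simp⟩⟩
  obtain ⟨k, ⟨g, hg, rfl⟩, hk⟩ := H1.glauberman_exists A Kq Tq hAK hcop' hsolv' hS
  refine ⟨g, Subgroup.mem_subgroupOf.mp hg, ?_⟩
  intro s hs
  have h1 : mk g * mk ⟨s, hSX hs⟩ * (mk g)⁻¹ ∈ MulAut.conj (mk g) • A := by
    rw [H1.mem_conj_smul]
    refine ⟨⟨s, hSX hs⟩, Subgroup.mem_subgroupOf.mpr hs, ?_⟩
    group
  obtain ⟨t, ht, hte⟩ := hk h1
  have h2 : mk (t⁻¹ * (g * ⟨s, hSX hs⟩ * g⁻¹)) = 1 := by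
    rw [map_mul, map_inv, hte, map_mul, map_mul, map_inv]
    group
  rw [hmk1] at h2
  have h3 : (g : Γ) * s * (g : Γ)⁻¹ = t * ((t : Γ)⁻¹ * ((g : Γ) * s * (g : Γ)⁻¹)) := by group
  rw [h3]
  exact T.mul_mem (Subgroup.mem_subgroupOf.mp ht) (hNT h2)

/-- Clifford's theorem (conjugacy of constituents) for subgroups of an ambient group. -/
theorem clifford_internal {Γ : Type u} [Group Γ] [Fintype Γ] (G N : Subgroup Γ) [Fintype G]
    [Fintype N] (hNG : N ≤ G) [hNn : (N.subgroupOf G).Normal] (χ : IrrCharacter G)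
    (θ₁ θ₂ : IrrCharacter N)
    (h1 : classInner (fun n : N => (χ : G → ℂ) ⟨n, hNG n.2⟩) (θ₁ : N → ℂ) ≠ 0)
    (h2 : classInner (fun n : N => (χ : G → ℂ) ⟨n, hNG n.2⟩) (θ₂ : N → ℂ) ≠ 0) :
    ∃ g ∈ G, ∀ n n' : N, (n' : Γ) = g * n * g⁻¹ → (θ₂ : N → ℂ) n = (θ₁ : N → ℂ) n' := by
  classical
  let e : N.subgroupOf G ≃* N := Subgroup.subgroupOfEquivOfLe hNG
  have := Fintype.ofFinite (N.subgroupOf G)
  have hres : (fun m : N.subgroupOf G => (χ : G → ℂ) m)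
      = fun m => (fun n : N => (χ : G → ℂ) ⟨n, hNG n.2⟩) (e m) := by
    funext m; rfl
  have k1 : classInner (fun m : N.subgroupOf G => (χ : G → ℂ) m)
      (fun m => (θ₁ : N → ℂ) (e m)) ≠ 0 := by
    rw [hres, classInner_equiv e (fun n : N => (χ : G → ℂ) ⟨n, hNG n.2⟩) (θ₁ : N → ℂ)]; exact h1
  have k2 : classInner (fun m : N.subgroupOf G => (χ : G → ℂ) m)
      (fun m => (θ₂ : N → ℂ) (e m)) ≠ 0 := by
    rw [hres, classInner_equiv e (fun n : N => (χ : G → ℂ) ⟨n, hNG n.2⟩) (θ₂ : N → ℂ)]; exact h2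
  obtain ⟨g, hg⟩ := clifford_conj hNn χ.2
    (IsIrrCharacter.comp_surj e.toMonoidHom e.surjective θ₁.2)
    (IsIrrCharacter.comp_surj e.toMonoidHom e.surjective θ₂.2) k1 k2
  refine ⟨g, g.2, ?_⟩
  intro n n' hn
  have h3 := congrFun hg (e.symm n)
  rw [conjFun_apply] at h3
  simp only [MulEquiv.coe_toMonoidHom, MulEquiv.apply_symm_apply] at h3
  rw [h3]
  apply congrArg
  apply Subtype.ext
  rw [hn]
  rfl

/-- Isaacs 13.27. -/
theorem exists_inv_under {Γ : Type u} [Group Γ] [Fintype Γ] (G S N : Subgroup Γ) [Fintype G]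
    [Fintype N] (hnorm : ∀ s ∈ S, ∀ g ∈ G, s * g * s⁻¹ ∈ G) (hNG : N ≤ G)
    [hNn : (N.subgroupOf G).Normal] (hNS : ∀ s ∈ S, ∀ n ∈ N, s * n * s⁻¹ ∈ N)
    (hcop : (N.relIndex G).Coprime (Nat.card S))
    (hsolv : Group.IsSolvable S ∨ Group.IsSolvable (G ⧸ N.subgroupOf G)) (χ : IrrCharacter G)
    (hinv : InvUnder G S χ) :
    ∃ θ : IrrCharacter N, classInner (fun n : N => (χ : G → ℂ) ⟨n, hNG n.2⟩) (θ : N → ℂ) ≠ 0 ∧
      InvUnder N S θ := by
  classical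
  have hχc := IsIrrCharacter.isCharacter χ.2
  have hGN : ∀ g ∈ G, ∀ n ∈ N, g * n * g⁻¹ ∈ N := by
    intro g hg n hn
    have := hNn.conj_mem ⟨n, hNG hn⟩ (Subgroup.mem_subgroupOf.mpr hn) ⟨g, hg⟩
    exact Subgroup.mem_subgroupOf.mp this
  have hGN' : ∀ g ∈ G, ∀ n ∈ N, g⁻¹ * n * g ∈ N := by
    intro g hg n hn
    simpa using hGN g⁻¹ (G.inv_mem hg) n hn
  have hNS' : ∀ s ∈ S, ∀ n ∈ N, s⁻¹ * n * s ∈ N := by
    intro s hs n hn
    simpa using hNS s⁻¹ (S.inv_mem hs) n hn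
  have hres : IsCharacter N (fun n : N => (χ : G → ℂ) ⟨n, hNG n.2⟩) :=
    IsCharacter.comp (Subgroup.inclusion hNG) hχc
  obtain ⟨θ₀, hθ₀⟩ := IsCharacter.exists_constituent hres (by
    intro h
    have h1 := congrFun h 1
    exact IsIrrCharacter.apply_one_ne_zero χ.2 h1)
  -- conjugates of constituents by elements of `G` or `S` are constituents
  have hconj : ∀ (x : Γ) (h1 : ∀ n ∈ N, x * n * x⁻¹ ∈ N) (h2 : ∀ n ∈ N, x⁻¹ * n * x ∈ N),
      (∀ g g' : G, (g' : Γ) = x * g * x⁻¹ → (χ : G → ℂ) g' = (χ : G → ℂ) g) →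
      ∀ θ : IrrCharacter N, classInner (fun n : N => (χ : G → ℂ) ⟨n, hNG n.2⟩) (θ : N → ℂ) ≠ 0 →
      classInner (fun n : N => (χ : G → ℂ) ⟨n, hNG n.2⟩)
        (irrCongr (conjE N x h1 h2) θ : N → ℂ) ≠ 0 := by
    intro x h1 h2 hx θ hθ
    have h3 : (fun n : N => (χ : G → ℂ) ⟨n, hNG n.2⟩)
        = fun n : N => (fun n : N => (χ : G → ℂ) ⟨n, hNG n.2⟩) (conjE N x h1 h2 n) := by
      funext n
      exact (hx ⟨n, hNG n.2⟩ ⟨(conjE N x h1 h2 n : N), hNG (conjE N x h1 h2 n).2⟩ rfl).symm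
    rw [h3]
    have h4 : (irrCongr (conjE N x h1 h2) θ : N → ℂ) = fun n => (θ : N → ℂ) (conjE N x h1 h2 n) := rfl
    rw [h4, classInner_equiv (conjE N x h1 h2) (fun n : N => (χ : G → ℂ) ⟨n, hNG n.2⟩) (θ : N → ℂ)]
    exact hθ
  have hχG : ∀ x ∈ G, ∀ g g' : G, (g' : Γ) = x * g * x⁻¹ → (χ : G → ℂ) g' = (χ : G → ℂ) g := by
    intro x hx g g' h
    have : g' = ⟨x, hx⟩ * g * ⟨x, hx⟩⁻¹ := Subtype.ext h
    rw [this, IsCharacter.isClassFunction hχc]
  have hT : ∀ s ∈ S, ∃ g ∈ G, g * s ∈ stabSub N (θ₀ : N → ℂ) := by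
    intro s hs
    have h1 := hconj s⁻¹ (by simpa using hNS' s hs) (by simpa using hNS s hs)
      (hinv s⁻¹ (S.inv_mem hs)) θ₀ hθ₀
    obtain ⟨g, hg, hgθ⟩ := clifford_internal G N hNG χ θ₀ _ hθ₀ h1
    refine ⟨g, hg, ?_, ?_, ?_⟩
    · intro n hn
      have := hGN g hg _ (hNS s hs n hn)
      simpa [mul_assoc] using this
    · intro n hn
      have := hNS' s hs _ (hGN' g hg n hn)
      simpa [mul_assoc] using this
    · intro n n' hn
      have h2 := hgθ ⟨s * n * s⁻¹, hNS s hs n n.2⟩ n' (by rw [hn]; simp [mul_assoc])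
      rw [← h2, irrCongr_apply]
      apply congrArg
      apply Subtype.ext
      rw [conjE_coe]
      simp [mul_assoc]
  obtain ⟨g, hg, hgS⟩ := glauberman_rel G S N (stabSub N (θ₀ : N → ℂ)) hnorm hNG hNS hcop hsolv
    (le_stabSub_self (IsCharacter.isClassFunction (IsIrrCharacter.isCharacter θ₀.2))) hT
  refine ⟨irrCongr (conjE N g (hGN g hg) (hGN' g hg)) θ₀,
    hconj g _ _ (hχG g hg) θ₀ hθ₀, ?_⟩
  intro s hs n n' hn
  rw [irrCongr_apply, irrCongr_apply]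
  apply (hgS s hs).2.2
  rw [conjE_coe, conjE_coe, hn]
  group

end Cfsg.Agent.H2
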