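import Cfsg.Agent.Lib_helper4_BlkL
import Cfsg.Agent.Lib_helper4_CharN

set_option autoImplicit false
set_option linter.style.haveILetI false
open Cfsg

namespace Cfsg.Agent.H2

open Cfsg.Agent.H4
open scoped ComplexConjugate
universe u

variable {G : Type u} [Group G]

/-- an irreducible character of degree prime to `p` does not vanish at `p`-elements. -/
theorem nonvanish_pElement [Finite G] (p : ℕ) (hp : p.Prime) {χ : G → ℂ} (hχ : IsCharacter G χ) (d : ℕ)
    (hd : χ 1 = d) (hpd : ¬ p ∣ d) (x : G) (k : ℕ) (hx : x ^ (p ^ k) = 1) : χ x ≠ 0 := by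
  obtain ⟨M, hM⟩ := exists_pModular hp
  intro h0
  have h1 := char_mul_sub_mem hM hχ (Commute.one_right x) hx
  rw [mul_one, h0, hd, zero_sub] at h1
  have h2 := MemLocalIdeal.neg h1
  rw [neg_neg] at h2
  exact hpd ((memLocalIdeal_natCast_iff hM d).1 h2)

/-- inflation of irreducible characters -/
noncomputable def inflIrr (N : Subgroup G) [N.Normal] (β : IrrCharacter (G ⧸ N)) : IrrCharacter G :=
  ⟨fun g => (β : G ⧸ N → ℂ) (g : G ⧸ N), IsIrrCharacter.inflate N β.2⟩

theorem inflIrr_injective (N : Subgroup G) [N.Normal] : Function.Injective (inflIrr N) := by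
  intro β γ h
  apply Subtype.ext
  funext q
  obtain ⟨g, rfl⟩ := QuotientGroup.mk_surjective q
  exact congrArg (fun z : IrrCharacter G => (z : G → ℂ) g) h

/-- the Knörr-type bound. -/
theorem kgv_bound [Finite G] (p : ℕ) [Fact p.Prime] (V : Subgroup G) [hV : V.Normal]
    (hVp : IsPGroup p V) (hidx : ¬ p ∣ V.index) (hab : ∀ a ∈ V, ∀ b ∈ V, a * b = b * a)
    (v : G) (hv : v ∈ V) :
    Nat.card (ConjClasses G) + Nat.card (G ⧸ V)
      ≤ Nat.card (Subgroup.centralizer ({v} : Set G)) + Nat.card (ConjClasses (G ⧸ V)) := by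
  classical
  haveI := Fintype.ofFinite G
  haveI := Fintype.ofFinite (G ⧸ V)
  haveI := Fintype.ofFinite (IrrCharacter G)
  haveI := Fintype.ofFinite (IrrCharacter (G ⧸ V))
  have hp : p.Prime := Fact.out
  haveI : NeZero (Nat.card G) := ⟨Nat.card_pos.ne'⟩
  set U := (ZMod (Nat.card G))ˣ with hU
  set a : IrrCharacter G → ℝ := fun χ =>
    ∑ k : U, Complex.normSq ((χ : G → ℂ) (v ^ (k : ZMod (Nat.card G)).val)) with ha
  have hφpos : (0 : ℝ) < (Fintype.card U : ℝ) := by exact_mod_cast Fintype.card_pos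
  obtain ⟨j, hj⟩ := (IsPGroup.iff_orderOf.1 hVp) ⟨v, hv⟩
  have hvp : v ^ (p ^ j) = 1 := by
    rw [← hj, Subgroup.orderOf_mk, pow_orderOf_eq_one]
  have hlow : ∀ χ : IrrCharacter G, (Fintype.card U : ℝ) ≤ a χ := by
    intro χ
    apply IsCharacter.card_units_le_sum (IsIrrCharacter.isCharacter χ.2) v
    obtain ⟨d, hd, hdvd⟩ := ito_aux _ G rfl χ χ.2 V hV hab
    exact nonvanish_pElement p hp (IsIrrCharacter.isCharacter χ.2) d hd
      (fun h => hidx (h.trans hdvd)) v j hvp
  choose dg hdg0 _ hdg using fun β : IrrCharacter (G ⧸ V) => IsIrrCharacter.exists_degree β.2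
  have hinf : ∀ β : IrrCharacter (G ⧸ V), a (inflIrr V β) = (Fintype.card U : ℝ) * (dg β : ℝ) ^ 2 := by
    intro β
    have h1 : ∀ k : U, Complex.normSq (((inflIrr V β : IrrCharacter G) : G → ℂ)
        (v ^ (k : ZMod (Nat.card G)).val)) = (dg β : ℝ) ^ 2 := by
      intro k
      have h2 : ((inflIrr V β : IrrCharacter G) : G → ℂ) (v ^ (k : ZMod (Nat.card G)).val)
          = (β : G ⧸ V → ℂ) 1 := by
        show (β : G ⧸ V → ℂ) ((v ^ (k : ZMod (Nat.card G)).val : G) : G ⧸ V) = _
        rw [(QuotientGroup.eq_one_iff _).2 (V.pow_mem hv _)]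
      rw [h2, hdg, Complex.normSq_natCast, sq]
    simp only [ha, h1, Finset.sum_const, Finset.card_univ, nsmul_eq_mul]
  -- total
  have hcent : ∀ k : U, Nat.card (Subgroup.centralizer ({v ^ (k : ZMod (Nat.card G)).val} : Set G))
      ≤ Nat.card (Subgroup.centralizer ({v} : Set G)) := by
    intro k
    apply Subgroup.card_le_of_le
    intro c hc
    rw [Subgroup.mem_centralizer_singleton_iff] at hc ⊢
    have hk := ZMod.val_coe_unit_coprime k
    obtain ⟨m, hm⟩ := exists_pow_eq_self_of_coprime (x := v) (n := (k : ZMod (Nat.card G)).val)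
      (Nat.Coprime.coprime_dvd_right (orderOf_dvd_natCard v) hk)
    have h1 : Commute c (v ^ (k : ZMod (Nat.card G)).val) := by
      first | exact hc | exact hc.symm
    have h2 : Commute c v := by
      rw [← hm]; exact h1.pow_right m
    first | exact h2.eq | exact h2.eq.symm
  have hcol : ∀ g : G, ∑ χ : IrrCharacter G, Complex.normSq ((χ : G → ℂ) g)
      = (Nat.card (Subgroup.centralizer ({g} : Set G)) : ℝ) := by
    intro g
    have h1 := column_orthogonality' g g
    rw [card_conj_eq g g (IsConj.refl g)] at h1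
    have h2 : ((∑ χ : IrrCharacter G, Complex.normSq ((χ : G → ℂ) g) : ℝ) : ℂ)
        = ((Nat.card (Subgroup.centralizer ({g} : Set G)) : ℝ) : ℂ) := by
      push_cast
      rw [← h1]
      apply Finset.sum_congr rfl
      intro χ _
      rw [Complex.mul_conj]
    exact_mod_cast h2
  have htotal : ∑ χ : IrrCharacter G, a χ
      ≤ (Fintype.card U : ℝ) * (Nat.card (Subgroup.centralizer ({v} : Set G)) : ℝ) := by
    simp only [ha]
    rw [Finset.sum_comm]
    simp only [hcol]
    calc ∑ k : U, (Nat.card (Subgroup.centralizer ({v ^ (k : ZMod (Nat.card G)).val} : Set G)) : ℝ)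
        ≤ ∑ _k : U, (Nat.card (Subgroup.centralizer ({v} : Set G)) : ℝ) := by
          apply Finset.sum_le_sum
          intro k _
          exact_mod_cast hcent k
      _ = _ := by rw [Finset.sum_const, Finset.card_univ, nsmul_eq_mul]
  -- split
  set Im := (Finset.univ : Finset (IrrCharacter (G ⧸ V))).image (inflIrr V) with hIm
  have hsplit : ∑ χ : IrrCharacter G, a χ = ∑ χ ∈ Im, a χ + ∑ χ ∈ Finset.univ \ Im, a χ := by
    rw [add_comm]
    exact (Finset.sum_sdiff (Finset.subset_univ Im)).symm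
  have h1 : ∑ χ ∈ Im, a χ = (Fintype.card U : ℝ) * (Nat.card (G ⧸ V) : ℝ) := by
    rw [hIm, Finset.sum_image (fun x _ y _ h => inflIrr_injective V h)]
    simp only [hinf]
    rw [← Finset.mul_sum]
    congr 1
    have h2 := sum_sq_degrees' (G := G ⧸ V)
    simp only [hdg] at h2
    exact_mod_cast h2
  have hImcard : Im.card = Nat.card (ConjClasses (G ⧸ V)) := by
    rw [hIm, Finset.card_image_of_injective _ (inflIrr_injective V), Finset.card_univ,
      ← Nat.card_eq_fintype_card, card_irr]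
  have h2 : (Fintype.card U : ℝ) * ((Nat.card (ConjClasses G) : ℝ) - (Nat.card (ConjClasses (G ⧸ V)) : ℝ))
      ≤ ∑ χ ∈ Finset.univ \ Im, a χ := by
    have h3 : ((Finset.univ \ Im).card : ℝ)
        = (Nat.card (ConjClasses G) : ℝ) - (Nat.card (ConjClasses (G ⧸ V)) : ℝ) := by
      rw [Finset.card_sdiff_of_subset (Finset.subset_univ Im), Nat.cast_sub (Finset.card_le_card (Finset.subset_univ Im)),
        hImcard, Finset.card_univ, ← Nat.card_eq_fintype_card, card_irr]
    rw [← h3, mul_comm, ← nsmul_eq_mul, ← Finset.sum_const]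
    exact Finset.sum_le_sum (fun χ _ => hlow χ)
  have h4 : (Fintype.card U : ℝ) * ((Nat.card (G ⧸ V) : ℝ) + ((Nat.card (ConjClasses G) : ℝ)
      - (Nat.card (ConjClasses (G ⧸ V)) : ℝ)))
      ≤ (Fintype.card U : ℝ) * (Nat.card (Subgroup.centralizer ({v} : Set G)) : ℝ) := by
    rw [mul_add, ← h1]
    calc _ ≤ ∑ χ ∈ Im, a χ + ∑ χ ∈ Finset.univ \ Im, a χ := by linarith
      _ = ∑ χ : IrrCharacter G, a χ := hsplit.symm
      _ ≤ _ := htotal
  have h5 := le_of_mul_le_mul_left h4 hφpos
  have h6 : (Nat.card (ConjClasses G) : ℝ) + (Nat.card (G ⧸ V) : ℝ)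
      ≤ (Nat.card (Subgroup.centralizer ({v} : Set G)) : ℝ) + (Nat.card (ConjClasses (G ⧸ V)) : ℝ) := by
    linarith
  exact_mod_cast h6

end Cfsg.Agent.H2
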