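import Cfsg.Prelude.Def_PLocal
import Mathlib

set_option autoImplicit false

namespace Cfsg.Agent.H2

open scoped commutatorElement

theorem exists_subgroup_between {X : Type*} [Group X] [Finite X] {p : ℕ} [Fact p.Prime]
    {P E : Subgroup X}
    (hEP : E ≤ P) {k m : ℕ} (hE : Nat.card E = p ^ k) (hm : p ^ m ∣ Nat.card P) (hkm : k ≤ m) :
    ∃ K : Subgroup X, E ≤ K ∧ K ≤ P ∧ Nat.card K = p ^ m := by
  have h1 : Nat.card (E.subgroupOf P) = p ^ k := by
    rw [Nat.card_congr (Subgroup.subgroupOfEquivOfLe hEP).toEquiv, hE]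
  obtain ⟨K, hK, hle⟩ := Sylow.exists_subgroup_card_pow_prime_le p hm (E.subgroupOf P) h1 hkm
  refine ⟨K.map P.subtype, ?_, Subgroup.map_subtype_le K, ?_⟩
  · intro x hx
    exact ⟨⟨x, hEP hx⟩, hle (Subgroup.mem_subgroupOf.mpr hx), rfl⟩
  · rw [Subgroup.card_map_of_injective P.subtype_injective, hK]

/-- a subgroup of index `p` in a `p`-subgroup is normalized by it -/
theorem le_normalizer_of_card_pow {X : Type*} [Group X] [Finite X] {p : ℕ} [Fact p.Prime]
    {M K : Subgroup X} (hMK : M ≤ K) {n : ℕ} (hK : Nat.card K = p ^ (n + 1))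
    (hM : Nat.card M = p ^ n) : K ≤ Subgroup.normalizer (M : Set X) := by
  have hp : p.Prime := Fact.out
  rw [← Subgroup.normal_subgroupOf_iff_le_normalizer hMK]
  apply Subgroup.normal_of_index_eq_minFac_card
  rw [hK, hp.pow_minFac (Nat.succ_ne_zero n)]
  have h1 := (M.subgroupOf K).card_mul_index
  rw [Nat.card_congr (Subgroup.subgroupOfEquivOfLe hMK).toEquiv, hM, hK, pow_succ] at h1
  exact Nat.eq_of_mul_eq_mul_left (pow_pos hp.pos _) h1

theorem commutator_closure_le {G : Type*} [Group G] (S : Set G) (N : Subgroup G)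
    (hN : Subgroup.closure S ≤ Subgroup.normalizer (N : Set G))
    (h : ∀ s ∈ S, ∀ t ∈ S, ⁅s, t⁆ ∈ N) : ⁅Subgroup.closure S, Subgroup.closure S⁆ ≤ N := by
  have conj : ∀ g ∈ Subgroup.closure S, ∀ n ∈ N, g * n * g⁻¹ ∈ N :=
    fun g hg n hn => (Subgroup.mem_normalizer_iff.mp (hN hg) n).mp hn
  have step : ∀ (y : G), (∀ s ∈ S, ⁅s, y⁆ ∈ N) → ∀ x ∈ Subgroup.closure S, ⁅x, y⁆ ∈ N := by
    intro y hs x hx
    induction hx using Subgroup.closure_induction with
    | mem x hx => exact hs x hx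
    | one => simp
    | mul x₁ x₂ hx₁ hx₂ ih₁ ih₂ =>
      have : ⁅x₁ * x₂, y⁆ = x₁ * ⁅x₂, y⁆ * x₁⁻¹ * ⁅x₁, y⁆ := by
        simp only [commutatorElement_def]; group
      rw [this]
      exact N.mul_mem (conj x₁ hx₁ _ ih₂) ih₁
    | inv x hx ih =>
      have : ⁅x⁻¹, y⁆ = x⁻¹ * ⁅x, y⁆⁻¹ * (x⁻¹)⁻¹ := by
        simp only [commutatorElement_def]; group
      rw [this]
      exact conj x⁻¹ (Subgroup.inv_mem _ hx) _ (N.inv_mem ih)
  rw [Subgroup.commutator_le]
  intro x hx y hy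
  apply step y _ x hx
  intro s hs
  rw [← commutatorElement_inv]
  apply N.inv_mem
  exact step s (fun s' hs' => h s' hs' s hs) y hy

/-- forward half of Hall's power criterion, relative to a subgroup -/
def PowProp {G : Type*} [Group G] (q : ℕ) (H : Subgroup G) : Prop :=
  ∀ a ∈ H, ∀ b ∈ H, a ^ q = b ^ q → (a * b⁻¹) ^ q = 1

theorem regular_core {G : Type*} [Group G] [Finite G] {p : ℕ} [Fact p.Prime]
    (hG : Cfsg.IsRegularPGroup p G) (k : ℕ) (H : Subgroup G)
    (IH : ∀ M : Subgroup G, M < H → PowProp (p ^ k) M) (x y : G) (hx : x ∈ H) (hy : y ∈ H)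
    (hxy : (y * x * y⁻¹) ^ p ^ k = x ^ p ^ k) : (x * y) ^ p ^ k = x ^ p ^ k * y ^ p ^ k := by
  have hp : p.Prime := Fact.out
  by_cases hc : Commute x y
  · exact hc.mul_pow _
  set K := Subgroup.closure ({x, y} : Set G) with hKdef
  have hxK : x ∈ K := Subgroup.subset_closure (by simp)
  have hyK : y ∈ K := Subgroup.subset_closure (by simp)
  have hKH : K ≤ H := by
    rw [hKdef, Subgroup.closure_le]
    rintro z (rfl | rfl)
    · exact hx
    · exact hy
  have hKp : IsPGroup p K := hG.1.to_subgroup K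
  have hzK : Subgroup.zpowers x ≤ K := by rwa [Subgroup.zpowers_le]
  have hzne : Subgroup.zpowers x ≠ K := by
    intro h
    apply hc
    rw [← h] at hyK
    obtain ⟨j, rfl⟩ := Subgroup.mem_zpowers_iff.mp hyK
    exact (Commute.refl x).zpow_right j
  obtain ⟨n, hn⟩ := hKp.exists_card_eq
  obtain ⟨i, hi⟩ := (hKp.to_le hzK).exists_card_eq
  have hin : i < n := by
    by_contra hcon
    push Not at hcon
    apply hzne
    apply Subgroup.eq_of_le_of_card_ge hzK
    rw [hn, hi]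
    exact Nat.pow_le_pow_right hp.pos hcon
  obtain ⟨n', rfl⟩ : ∃ n', n = n' + 1 := ⟨n - 1, by omega⟩
  obtain ⟨M, hzM, hMK, hM⟩ := exists_subgroup_between hzK hi
    (by rw [hn]; exact pow_dvd_pow p (Nat.le_succ n')) (by omega : i ≤ n')
  have hMH : M < H := by
    refine lt_of_lt_of_le (lt_of_le_of_ne hMK ?_) hKH
    intro h
    rw [h, hn] at hM
    have := Nat.pow_right_injective hp.two_le hM
    omega
  have hKM : K ≤ Subgroup.normalizer (M : Set G) := le_normalizer_of_card_pow hMK hn hM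
  have hPM := IH M hMH
  let Ω : Subgroup G :=
    { carrier := {z | z ∈ M ∧ z ^ p ^ k = 1}
      one_mem' := ⟨M.one_mem, one_pow _⟩
      mul_mem' := by
        rintro a b ⟨ha, ha'⟩ ⟨hb, hb'⟩
        refine ⟨M.mul_mem ha hb, ?_⟩
        have := hPM a ha b⁻¹ (M.inv_mem hb) (by rw [ha', inv_pow, hb', inv_one])
        rwa [inv_inv] at this
      inv_mem' := by
        rintro a ⟨ha, ha'⟩
        exact ⟨M.inv_mem ha, by rw [inv_pow, ha', inv_one]⟩ }
  have hKΩ : K ≤ Subgroup.normalizer (Ω : Set G) := by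
    rw [Subgroup.le_normalizer_iff]
    rintro g hg z ⟨hz, hz'⟩
    refine ⟨(Subgroup.mem_normalizer_iff.mp (hKM hg) z).mp hz, ?_⟩
    rw [conj_pow, hz', mul_one, mul_inv_cancel]
  have hxM : x ∈ M := hzM (Subgroup.mem_zpowers x)
  have hyxM : y * x * y⁻¹ ∈ M := (Subgroup.mem_normalizer_iff.mp (hKM hyK) x).mp hxM
  have hcomm : ⁅x, y⁆ ∈ Ω := by
    have h1 : ⁅x, y⁆ = x * (y * x * y⁻¹)⁻¹ := by
      simp only [commutatorElement_def]; group
    rw [h1]
    exact ⟨M.mul_mem hxM (M.inv_mem hyxM), hPM x hxM _ hyxM hxy.symm⟩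
  have hK' : ⁅K, K⁆ ≤ Ω := by
    apply commutator_closure_le _ Ω hKΩ
    rintro s (rfl | rfl) t (rfl | rfl)
    · rw [commutatorElement_self]; exact Ω.one_mem
    · exact hcomm
    · rw [← commutatorElement_inv]; exact Ω.inv_mem hcomm
    · rw [commutatorElement_self]; exact Ω.one_mem
  obtain ⟨c, hcmem, hceq⟩ := hG.2 x y k
  have hc1 : c = 1 := by
    have h1 : Cfsg.powerClosure p k ⁅K, K⁆ ≤ ⊥ := by
      unfold Cfsg.powerClosure
      rw [Subgroup.closure_le]
      rintro _ ⟨w, hw, rfl⟩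
      exact (hK' hw).2
    exact Subgroup.mem_bot.mp (h1 hcmem)
  rw [hceq, hc1, mul_one]

theorem powProp_all {G : Type*} [Group G] [Finite G] {p : ℕ} [Fact p.Prime]
    (hG : Cfsg.IsRegularPGroup p G) (k : ℕ) (H : Subgroup G) : PowProp (p ^ k) H := by
  induction H using WellFoundedLT.induction with
  | ind H ih =>
  intro a ha b hb hab
  have h1 := regular_core hG k H ih a b⁻¹ ha (H.inv_mem hb) (by
    rw [conj_pow, hab, inv_inv]
    have : Commute b⁻¹ (b ^ p ^ k) := ((Commute.refl b).inv_left).pow_right _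
    rw [this.eq, mul_assoc, inv_mul_cancel, mul_one])
  rw [h1, hab, inv_pow, mul_inv_cancel]

/-- Hall: in a regular `p`-group `a^q = b^q ↔ (a b⁻¹)^q = 1`. -/
theorem regular_pow_eq_iff {G : Type*} [Group G] [Finite G] {p : ℕ} [Fact p.Prime]
    (hG : Cfsg.IsRegularPGroup p G) (a b : G) (k : ℕ) :
    a ^ p ^ k = b ^ p ^ k ↔ (a * b⁻¹) ^ p ^ k = 1 := by
  constructor
  · exact powProp_all hG k ⊤ a (Subgroup.mem_top a) b (Subgroup.mem_top b)
  · intro h
    have h1 := regular_core hG k ⊤ (fun M _ => powProp_all hG k M) (a * b⁻¹) b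
      (Subgroup.mem_top _) (Subgroup.mem_top _) (by rw [conj_pow, h, mul_one, mul_inv_cancel])
    rw [inv_mul_cancel_right, h, one_mul] at h1
    exact h1

end Cfsg.Agent.H2
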