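import Cfsg.Agent.Lib_helper2_Regular
import Cfsg.Agent.Lib_helper1_Frattini

set_option autoImplicit false

namespace Cfsg.Agent.H2

open scoped commutatorElement

/-- the regular identity at one fixed level `n` -/
def RegAt (p n : ℕ) (G : Type*) [Group G] : Prop :=
  ∀ a b : G, ∃ c ∈ Cfsg.powerClosure p n
      ⁅Subgroup.closure ({a, b} : Set G), Subgroup.closure ({a, b} : Set G)⁆,
    (a * b) ^ (p ^ n) = a ^ (p ^ n) * b ^ (p ^ n) * c

theorem comm_self_le {G : Type*} [Group G] (K : Subgroup G) : ⁅K, K⁆ ≤ K := by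
  rw [Subgroup.commutator_le]
  intro x hx y hy
  exact K.mul_mem (K.mul_mem (K.mul_mem hx hy) (K.inv_mem hx)) (K.inv_mem hy)

theorem commutator_le_of_card_pow {X : Type*} [Group X] [Finite X] {p : ℕ} [Fact p.Prime]
    {M K : Subgroup X} (hMK : M ≤ K) {n : ℕ} (hK : Nat.card K = p ^ (n + 1))
    (hM : Nat.card M = p ^ n) : ⁅K, K⁆ ≤ M := by
  have hp : p.Prime := Fact.out
  have hn : (M.subgroupOf K).Normal :=
    (Subgroup.normal_subgroupOf_iff_le_normalizer hMK).mpr (le_normalizer_of_card_pow hMK hK hM)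
  have hidx : (M.subgroupOf K).index = p := by
    have h1 := (M.subgroupOf K).card_mul_index
    rw [Nat.card_congr (Subgroup.subgroupOfEquivOfLe hMK).toEquiv, hM, hK, pow_succ] at h1
    exact Nat.eq_of_mul_eq_mul_left (pow_pos hp.pos _) h1
  have h2 : commutator K ≤ M.subgroupOf K :=
    H1.commutator_le_of_index_prime (by rw [hidx]; exact hp)
  rw [Subgroup.commutator_le]
  intro x hx y hy
  have h3 : ⁅(⟨x, hx⟩ : K), (⟨y, hy⟩ : K)⁆ ∈ commutator K :=
    Subgroup.commutator_mem_commutator (Subgroup.mem_top _) (Subgroup.mem_top _)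
  exact Subgroup.mem_subgroupOf.mp (h2 h3)

theorem powerClosure_mono {G : Type*} [Group G] (p n : ℕ) {H K : Subgroup G} (h : H ≤ K) :
    Cfsg.powerClosure p n H ≤ Cfsg.powerClosure p n K := by
  unfold Cfsg.powerClosure
  apply Subgroup.closure_mono
  rintro _ ⟨x, hx, rfl⟩
  exact ⟨x, h hx, rfl⟩

theorem powerClosure_le {G : Type*} [Group G] (p n : ℕ) (H : Subgroup G) :
    Cfsg.powerClosure p n H ≤ H := by
  unfold Cfsg.powerClosure
  rw [Subgroup.closure_le]
  rintro _ ⟨x, hx, rfl⟩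
  exact H.pow_mem hx _

theorem pow_mem_powerClosure {G : Type*} [Group G] (p n : ℕ) {H : Subgroup G} {x : G}
    (hx : x ∈ H) : x ^ p ^ n ∈ Cfsg.powerClosure p n H :=
  Subgroup.subset_closure ⟨x, hx, rfl⟩

def MulProp {G : Type*} [Group G] (q : ℕ) (H : Subgroup G) : Prop :=
  ∀ a ∈ H, ∀ b ∈ H, ∃ z ∈ H, a ^ q * b ^ q = z ^ q

theorem exists_of_mem_powerClosure {G : Type*} [Group G] {p n : ℕ} {H : Subgroup G}
    (h : MulProp (p ^ n) H) : ∀ y ∈ Cfsg.powerClosure p n H, ∃ x ∈ H, y = x ^ p ^ n := by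
  intro y hy
  unfold Cfsg.powerClosure at hy
  induction hy using Subgroup.closure_induction with
  | mem y hy => exact hy
  | one => exact ⟨1, H.one_mem, (one_pow _).symm⟩
  | mul y₁ y₂ _ _ ih₁ ih₂ =>
    obtain ⟨a, ha, rfl⟩ := ih₁
    obtain ⟨b, hb, rfl⟩ := ih₂
    obtain ⟨z, hz, hz'⟩ := h a ha b hb
    exact ⟨z, hz, hz'⟩
  | inv y _ ih =>
    obtain ⟨a, ha, rfl⟩ := ih
    exact ⟨a⁻¹, H.inv_mem ha, (inv_pow _ _).symm⟩

theorem mulProp_all {G : Type*} [Group G] [Finite G] {p : ℕ} [Fact p.Prime] (hG : IsPGroup p G)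
    {n : ℕ} (hR : RegAt p n G) (H : Subgroup G) : MulProp (p ^ n) H := by
  have hp : p.Prime := Fact.out
  induction H using WellFoundedLT.induction with
  | ind H ih =>
  intro a ha b hb
  by_cases hc : Commute a b
  · exact ⟨a * b, H.mul_mem ha hb, (hc.mul_pow _).symm⟩
  set K := Subgroup.closure ({a, b} : Set G) with hKdef
  have haK : a ∈ K := Subgroup.subset_closure (by simp)
  have hbK : b ∈ K := Subgroup.subset_closure (by simp)
  have hKH : K ≤ H := by
    rw [hKdef, Subgroup.closure_le]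
    rintro z (rfl | rfl)
    · exact ha
    · exact hb
  have hKp : IsPGroup p K := hG.to_subgroup K
  have hzK : Subgroup.zpowers (a * b) ≤ K := by
    rw [Subgroup.zpowers_le]; exact K.mul_mem haK hbK
  have hzne : Subgroup.zpowers (a * b) ≠ K := by
    intro h
    apply hc
    rw [← h] at haK hbK
    obtain ⟨i, hi⟩ := Subgroup.mem_zpowers_iff.mp haK
    obtain ⟨j, hj⟩ := Subgroup.mem_zpowers_iff.mp hbK
    have := (Commute.refl (a * b)).zpow_zpow i j
    rwa [hi, hj] at this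
  obtain ⟨m, hm⟩ := hKp.exists_card_eq
  obtain ⟨i, hi⟩ := (hKp.to_le hzK).exists_card_eq
  have him : i < m := by
    by_contra hcon
    push Not at hcon
    apply hzne
    apply Subgroup.eq_of_le_of_card_ge hzK
    rw [hm, hi]
    exact Nat.pow_le_pow_right hp.pos hcon
  obtain ⟨m', rfl⟩ : ∃ m', m = m' + 1 := ⟨m - 1, by omega⟩
  obtain ⟨M, hzM, hMK, hM⟩ := exists_subgroup_between hzK hi
    (by rw [hm]; exact pow_dvd_pow p (Nat.le_succ m')) (by omega : i ≤ m')
  have hMH : M < H := by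
    refine lt_of_lt_of_le (lt_of_le_of_ne hMK ?_) hKH
    intro h
    rw [h, hm] at hM
    have := Nat.pow_right_injective hp.two_le hM
    omega
  have hK'M : ⁅K, K⁆ ≤ M := commutator_le_of_card_pow hMK hm hM
  obtain ⟨c, hcmem, hceq⟩ := hR a b
  obtain ⟨w, hw, rfl⟩ := exists_of_mem_powerClosure (ih _ (lt_of_le_of_lt hK'M hMH)) c hcmem
  obtain ⟨z, hz, hz'⟩ := ih M hMH (a * b) (hzM (Subgroup.mem_zpowers _)) w⁻¹ (M.inv_mem (hK'M hw))
  refine ⟨z, hMH.le hz, ?_⟩
  rw [← hz', hceq, inv_pow, mul_inv_cancel_right]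

theorem comm_pow_mem {G : Type*} [Group G] {p n : ℕ} (hR : RegAt p n G) (H : Subgroup G)
    {a b : G} (ha : a ∈ H) (hb : b ∈ H) : ⁅a ^ p ^ n, b⁆ ∈ Cfsg.powerClosure p n ⁅H, H⁆ := by
  obtain ⟨c, hcmem, hceq⟩ := hR a (b * a⁻¹ * b⁻¹)
  have hle : Subgroup.closure ({a, b * a⁻¹ * b⁻¹} : Set G) ≤ H := by
    rw [Subgroup.closure_le]
    rintro z (rfl | rfl)
    · exact ha
    · exact H.mul_mem (H.mul_mem hb (H.inv_mem ha)) (H.inv_mem hb)
  have hc' : c ∈ Cfsg.powerClosure p n ⁅H, H⁆ :=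
    powerClosure_mono p n (Subgroup.commutator_mono hle hle) hcmem
  have h1 : a * (b * a⁻¹ * b⁻¹) = ⁅a, b⁆ := by
    simp only [commutatorElement_def]; group
  have h2 : a ^ p ^ n * (b * a⁻¹ * b⁻¹) ^ p ^ n = ⁅a ^ p ^ n, b⁆ := by
    rw [conj_pow, inv_pow]
    simp only [commutatorElement_def]; group
  rw [h1, h2] at hceq
  have h3 : ⁅a ^ p ^ n, b⁆ = ⁅a, b⁆ ^ p ^ n * c⁻¹ := by rw [hceq, mul_inv_cancel_right]
  rw [h3]
  exact Subgroup.mul_mem _
    (pow_mem_powerClosure p n (Subgroup.commutator_mem_commutator ha hb)) (Subgroup.inv_mem _ hc')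

theorem comm_powerClosure_le {G : Type*} [Group G] [Finite G] {p : ℕ} [Fact p.Prime]
    (hG : IsPGroup p G) {n : ℕ} (hR : RegAt p n G) (H : Subgroup G) :
    ⁅Cfsg.powerClosure p n H, Cfsg.powerClosure p n H⁆ ≤ Cfsg.powerClosure p n ⁅H, H⁆ := by
  rw [Subgroup.commutator_le]
  intro x hx y hy
  obtain ⟨a, ha, rfl⟩ := exists_of_mem_powerClosure (mulProp_all hG hR H) x hx
  exact comm_pow_mem hR H ha (powerClosure_le p n H hy)

/-- the level-one identity implies all levels -/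
theorem regAt_all {G : Type*} [Group G] [Finite G] {p : ℕ} [Fact p.Prime]
    (hG : IsPGroup p G) (h1 : RegAt p 1 G) : ∀ n, RegAt p n G := by
  intro n
  induction n with
  | zero =>
    intro a b
    exact ⟨1, Subgroup.one_mem _, by simp⟩
  | succ n ih =>
    intro a b
    set K := Subgroup.closure ({a, b} : Set G) with hKdef
    have haK : a ∈ K := Subgroup.subset_closure (by simp)
    have hbK : b ∈ K := Subgroup.subset_closure (by simp)
    obtain ⟨C, hCmem, hCeq⟩ := h1 a b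
    obtain ⟨c, hc, rfl⟩ := exists_of_mem_powerClosure (mulProp_all hG h1 _) C hCmem
    have key : ∀ L : Subgroup G, L ≤ Cfsg.powerClosure p 1 K →
        Cfsg.powerClosure p n ⁅L, L⁆ ≤ Cfsg.powerClosure p (n + 1) ⁅K, K⁆ := by
      intro L hL
      conv_lhs => unfold Cfsg.powerClosure
      rw [Subgroup.closure_le]
      rintro _ ⟨w, hw, rfl⟩
      have hw' := comm_powerClosure_le hG h1 K (Subgroup.commutator_mono hL hL hw)
      obtain ⟨f, hf, rfl⟩ := exists_of_mem_powerClosure (mulProp_all hG h1 _) w hw'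
      have : (f ^ p ^ 1) ^ p ^ n = f ^ p ^ (n + 1) := by
        rw [← pow_mul, pow_one, pow_succ, mul_comm]
      show (f ^ p ^ 1) ^ p ^ n ∈ _
      rw [this]
      exact pow_mem_powerClosure p (n + 1) hf
    have hA : a ^ p ^ 1 ∈ Cfsg.powerClosure p 1 K := pow_mem_powerClosure p 1 haK
    have hB : b ^ p ^ 1 ∈ Cfsg.powerClosure p 1 K := pow_mem_powerClosure p 1 hbK
    have hC : c ^ p ^ 1 ∈ Cfsg.powerClosure p 1 K := pow_mem_powerClosure p 1 (comm_self_le K hc)
    obtain ⟨d₁, hd₁, he₁⟩ := ih (a ^ p ^ 1 * b ^ p ^ 1) (c ^ p ^ 1)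
    obtain ⟨d₂, hd₂, he₂⟩ := ih (a ^ p ^ 1) (b ^ p ^ 1)
    have hd₁' := key _ (by
      rw [Subgroup.closure_le]
      rintro z (rfl | rfl)
      · exact Subgroup.mul_mem _ hA hB
      · exact hC) hd₁
    have hd₂' := key _ (by
      rw [Subgroup.closure_le]
      rintro z (rfl | rfl)
      · exact hA
      · exact hB) hd₂
    have hpw : ∀ x : G, (x ^ p ^ 1) ^ p ^ n = x ^ p ^ (n + 1) := by
      intro x
      rw [← pow_mul, pow_one, pow_succ, mul_comm]
    refine ⟨d₂ * c ^ p ^ (n + 1) * d₁, ?_, ?_⟩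
    · exact Subgroup.mul_mem _ (Subgroup.mul_mem _ hd₂' (pow_mem_powerClosure p (n + 1) hc)) hd₁'
    · rw [← hpw (a * b), hCeq, he₁, he₂, hpw, hpw, hpw]
      group

end Cfsg.Agent.H2
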