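import Mathlib
import Cfsg.Prelude.Def_KGroupFacts

set_option autoImplicit false
set_option linter.unusedSectionVars false
open scoped commutatorElement

namespace Cfsg.Agent.H2

universe u v w

/-- the commutator only depends on the cosets modulo the centre -/
theorem commutatorElement_mul_central {E : Type*} [Group E] (g h z z' : E)
    (hz : z ∈ Subgroup.center E) (hz' : z' ∈ Subgroup.center E) : ⁅g * z, h * z'⁆ = ⁅g, h⁆ := by
  have h1 : ∀ y, y * z = z * y := fun y => (Subgroup.mem_center_iff.mp hz) y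
  have h2 : ∀ y, y * z' = z' * y := fun y => (Subgroup.mem_center_iff.mp hz') y
  rw [commutatorElement_def, commutatorElement_def]
  have e1 : (g * z)⁻¹ = g⁻¹ * z⁻¹ := by rw [h1 g, mul_inv_rev]
  have e2 : (h * z')⁻¹ = h⁻¹ * z'⁻¹ := by rw [h2 h, mul_inv_rev]
  rw [e1, e2]
  calc g * z * (h * z') * (g⁻¹ * z⁻¹) * (h⁻¹ * z'⁻¹)
      = g * (z * h) * (z' * g⁻¹) * (z⁻¹ * h⁻¹) * z'⁻¹ := by group
    _ = g * (h * z) * (g⁻¹ * z') * (z⁻¹ * h⁻¹) * z'⁻¹ := by rw [h1 h, h2 g⁻¹]
    _ = g * h * (z * g⁻¹) * (z' * z⁻¹) * h⁻¹ * z'⁻¹ := by group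
    _ = g * h * (g⁻¹ * z) * (z⁻¹ * z') * h⁻¹ * z'⁻¹ := by rw [h1 g⁻¹, h2 z⁻¹]
    _ = g * h * g⁻¹ * (z' * h⁻¹) * z'⁻¹ := by group
    _ = g * h * g⁻¹ * (h⁻¹ * z') * z'⁻¹ := by rw [h2 h⁻¹]
    _ = g * h * g⁻¹ * h⁻¹ := by group

/-- Schur: a central extension of a finite group has finite commutator subgroup. -/
theorem finite_commutator_of_central_ker {E : Type*} {Q : Type*} [Group E] [Group Q] [Finite Q]
    (ε : E →* Q) (hc : ε.ker ≤ Subgroup.center E) : Finite (commutator E) := by
  classical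
  have hfin : Finite (commutatorSet E) := by
    let s : ε.range → E := fun q => q.2.choose
    have hs : ∀ q : ε.range, ε (s q) = q := fun q => q.2.choose_spec
    have hsub : commutatorSet E ⊆ Set.range (fun ab : ε.range × ε.range => ⁅s ab.1, s ab.2⁆) := by
      rintro _ ⟨g, h, rfl⟩
      refine ⟨(⟨ε g, g, rfl⟩, ⟨ε h, h, rfl⟩), ?_⟩
      set g' := s ⟨ε g, g, rfl⟩ with hg'
      set h' := s ⟨ε h, h, rfl⟩ with hh'
      have e1 : ε g' = ε g := hs _
      have e2 : ε h' = ε h := hs _
      have z1 : g'⁻¹ * g ∈ Subgroup.center E := hc (by rw [MonoidHom.mem_ker, map_mul, map_inv, e1]; simp)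
      have z2 : h'⁻¹ * h ∈ Subgroup.center E := hc (by rw [MonoidHom.mem_ker, map_mul, map_inv, e2]; simp)
      have := commutatorElement_mul_central g' h' _ _ z1 z2
      simpa using this.symm
    exact Set.Finite.subset (Set.finite_range _) hsub
  infer_instance

/-- Splitting off the kernel of a homomorphism to a free abelian group of finite rank. -/
theorem exists_split {Z : Type*} [CommGroup Z] {V : Type*} [AddCommGroup V] {ι : Type*} [Finite ι]
    (b : Module.Basis ι ℤ V) (f : Z →* Multiplicative V) :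
    ∃ S : Subgroup Z, S ⊓ f.ker = ⊥ ∧ S ⊔ f.ker = ⊤ := by
  let fl : Additive Z →ₗ[ℤ] V := (MonoidHom.toAdditiveLeft f).toIntLinearMap
  obtain ⟨n, ⟨b'⟩⟩ := Submodule.nonempty_basis_of_pid b (LinearMap.range fl)
  have hfree : Module.Free ℤ (LinearMap.range fl) := Module.Free.of_basis b'
  obtain ⟨s, hs⟩ := Module.projective_lifting_property fl.rangeRestrict LinearMap.id
    fl.surjective_rangeRestrict
  have hfl : ∀ z : Z, fl (Additive.ofMul z) = Multiplicative.toAdd (f z) := fun z => rfl
  have hs' : ∀ y : LinearMap.range fl, fl (s y) = y := by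
    intro y
    have := congrArg (fun t : LinearMap.range fl →ₗ[ℤ] LinearMap.range fl => ((t y : LinearMap.range fl) : V)) hs
    simpa using this
  let g : Z →* Z :=
    { toFun := fun z => Additive.toMul (s (fl.rangeRestrict (Additive.ofMul z)))
      map_one' := by
        have : (Additive.ofMul (1 : Z)) = 0 := rfl
        rw [this, map_zero, map_zero]; rfl
      map_mul' := by
        intro a c
        have : (Additive.ofMul (a * c)) = Additive.ofMul a + Additive.ofMul c := rfl
        rw [this, map_add, map_add]; rfl }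
  have hg : ∀ z : Z, f (g z) = f z := by
    intro z
    have h1 : fl (Additive.ofMul (g z)) = fl (Additive.ofMul z) := by
      change fl (s (fl.rangeRestrict (Additive.ofMul z))) = _
      rw [hs']; rfl
    rw [hfl, hfl] at h1
    exact Multiplicative.toAdd.injective h1
  have hg0 : ∀ z : Z, f z = 1 → g z = 1 := by
    intro z hz
    have h1 : fl.rangeRestrict (Additive.ofMul z) = 0 := by
      apply Subtype.ext
      change fl (Additive.ofMul z) = 0
      rw [hfl, hz]; rfl
    change Additive.toMul (s (fl.rangeRestrict (Additive.ofMul z))) = 1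
    rw [h1, map_zero]; rfl
  refine ⟨g.range, ?_, ?_⟩
  · rw [eq_bot_iff]
    rintro _ ⟨⟨z, rfl⟩, hz⟩
    have hz' : f (g z) = 1 := hz
    rw [hg] at hz'
    rw [Subgroup.mem_bot]
    exact hg0 z hz'
  · rw [eq_top_iff]
    intro z _
    have : z = g z * ((g z)⁻¹ * z) := by group
    rw [this]
    refine Subgroup.mul_mem_sup ⟨z, rfl⟩ ?_
    rw [MonoidHom.mem_ker, map_mul, map_inv, hg]
    simp

/-- commutative group structure on a central subgroup -/
@[reducible] def commGroupOfLeCenter {E : Type*} [Group E] (N : Subgroup E) (hN : N ≤ Subgroup.center E) :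
    CommGroup N :=
  { (inferInstance : Group N) with
    mul_comm := fun a c => Subtype.ext ((Subgroup.mem_center_iff.mp (hN c.2)) a.1) }

/-- Splitting a central subgroup along the commutator subgroup. -/
theorem exists_split_central {E : Type*} [Group E] {V : Type*} [AddCommGroup V] {ι : Type*} [Finite ι]
    (b : Module.Basis ι ℤ V) (f : E →* Multiplicative V) (hf : f.ker = commutator E)
    (N : Subgroup E) (hN : N ≤ Subgroup.center E) :
    ∃ S : Subgroup E, S ≤ N ∧ S ⊓ commutator E = ⊥ ∧ S ⊔ (N ⊓ commutator E) = N := by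
  let _ := commGroupOfLeCenter N hN
  obtain ⟨S₀, h1, h2⟩ := exists_split b (f.comp N.subtype)
  have hk : (f.comp N.subtype).ker.map N.subtype = N ⊓ commutator E := by
    rw [← hf]
    ext x
    constructor
    · rintro ⟨y, hy, rfl⟩
      exact ⟨y.2, hy⟩
    · rintro ⟨hx1, hx2⟩
      exact ⟨⟨x, hx1⟩, hx2, rfl⟩
  refine ⟨S₀.map N.subtype, Subgroup.map_subtype_le _, ?_, ?_⟩
  · rw [eq_bot_iff]
    rintro _ ⟨⟨y, hy, rfl⟩, hx⟩
    have : y ∈ S₀ ⊓ (f.comp N.subtype).ker := by
      refine ⟨hy, ?_⟩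
      rw [← hf] at hx
      exact hx
    rw [h1, Subgroup.mem_bot] at this
    rw [this]; exact one_mem _
  · rw [← hk, ← Subgroup.map_sup, h2, ← MonoidHom.range_eq_map, Subgroup.range_subtype]

section cover

variable {E : Type w} {Q : Type u} [Group E] [Group Q] (ε : E →* Q)

/-- the "multiplier" subgroup `ker ∩ E'` of a central extension -/
def mSub : Subgroup E := ε.ker ⊓ commutator E

/-- complements of the multiplier subgroup in the kernel -/
def IsSchurCompl (S : Subgroup E) : Prop :=
  S ≤ ε.ker ∧ S ⊓ commutator E = ⊥ ∧ S ⊔ mSub ε = ε.ker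

variable {ε}

theorem normal_of_le_center {S : Subgroup E} (h : S ≤ Subgroup.center E) : S.Normal := by
  constructor
  intro n hn g
  have : g * n * g⁻¹ = n := by
    rw [(Subgroup.mem_center_iff.mp (h hn)) g]; group
  rw [this]; exact hn

theorem map_commutator_le {E' : Type*} [Group E'] (φ : E →* E') :
    (commutator E).map φ ≤ commutator E' := by
  rw [commutator_def, Subgroup.map_commutator, commutator_def]
  exact Subgroup.commutator_mono le_top le_top

theorem cover_mem_ker {S : Subgroup E} [S.Normal] (hS : IsSchurCompl ε S) (x : E ⧸ S) :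
    x ∈ (QuotientGroup.lift S ε hS.1).ker ↔ ∃ m ∈ mSub ε, (QuotientGroup.mk' S) m = x := by
  constructor
  · intro hx
    obtain ⟨y, rfl⟩ := QuotientGroup.mk'_surjective S x
    have hy : y ∈ ε.ker := hx
    rw [← hS.2.2, Subgroup.mem_sup_of_normal_left] at hy
    obtain ⟨s, hs, m, hm, rfl⟩ := hy
    refine ⟨m, hm, ?_⟩
    have h1 : (QuotientGroup.mk' S) s = 1 := (QuotientGroup.eq_one_iff s).mpr hs
    rw [map_mul, h1, one_mul]
  · rintro ⟨m, hm, rfl⟩
    exact hm.1

theorem cover_stem (hs : Function.Surjective ε) (hc : ε.ker ≤ Subgroup.center E)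
    {S : Subgroup E} [S.Normal] (hS : IsSchurCompl ε S) :
    Cfsg.IsStemExtension (QuotientGroup.lift S ε hS.1) := by
  refine ⟨?_, ?_, ?_⟩
  · intro q
    obtain ⟨x, rfl⟩ := hs q
    exact ⟨QuotientGroup.mk' S x, rfl⟩
  · intro x hx
    obtain ⟨m, hm, rfl⟩ := (cover_mem_ker hS x).mp hx
    rw [Subgroup.mem_center_iff]
    intro y
    obtain ⟨y, rfl⟩ := QuotientGroup.mk'_surjective S y
    rw [← map_mul, ← map_mul, (Subgroup.mem_center_iff.mp (hc hm.1)) y]
  · intro x hx
    obtain ⟨m, hm, rfl⟩ := (cover_mem_ker hS x).mp hx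
    exact map_commutator_le _ ⟨m, hm.2, rfl⟩

theorem cover_finite [Finite Q] (hc : ε.ker ≤ Subgroup.center E)
    {S : Subgroup E} [S.Normal] (hS : IsSchurCompl ε S) : Finite (E ⧸ S) := by
  have hfin : Finite (commutator E) := finite_commutator_of_central_ker ε hc
  have hM : Finite (mSub ε) := Finite.of_injective
    (fun x : mSub ε => (⟨x.1, x.2.2⟩ : commutator E)) (fun a c h => Subtype.ext (congrArg (fun t => t.1) h))
  have h1 : S.relIndex ε.ker ≠ 0 := by
    rw [← hS.2.2, Subgroup.relIndex_sup_left]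
    exact Subgroup.index_ne_zero_of_finite
  have h2 : ε.ker.index ≠ 0 := by
    rw [Subgroup.index_ker]
    exact Nat.card_pos.ne'
  have h3 : S.index ≠ 0 := by
    rw [← Subgroup.relIndex_mul_index hS.1]
    exact mul_ne_zero h1 h2
  have : S.FiniteIndex := ⟨h3⟩
  infer_instance

theorem cover_ker_equiv {S : Subgroup E} [S.Normal] (hS : IsSchurCompl ε S) :
    Nonempty ((QuotientGroup.lift S ε hS.1).ker ≃* mSub ε) := by
  let g : mSub ε →* (QuotientGroup.lift S ε hS.1).ker :=
    { toFun := fun m => ⟨QuotientGroup.mk' S m.1, (cover_mem_ker hS _).mpr ⟨m.1, m.2, rfl⟩⟩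
      map_one' := by apply Subtype.ext; simp
      map_mul' := by intro a c; apply Subtype.ext; simp }
  have hg : Function.Bijective g := by
    constructor
    · rw [injective_iff_map_eq_one]
      intro m hm
      have h1 : QuotientGroup.mk' S m.1 = 1 := congrArg Subtype.val hm
      have h2 : m.1 ∈ S := (QuotientGroup.eq_one_iff m.1).mp h1
      have h3 : m.1 ∈ S ⊓ commutator E := ⟨h2, m.2.2⟩
      rw [hS.2.1, Subgroup.mem_bot] at h3
      exact Subtype.ext h3
    · rintro ⟨x, hx⟩
      obtain ⟨m, hm, rfl⟩ := (cover_mem_ker hS x).mp hx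
      exact ⟨⟨m, hm⟩, rfl⟩
  exact ⟨(MulEquiv.ofBijective g hg).symm⟩

/-- image of the multiplier subgroup under a morphism of central extensions -/
theorem map_mSub {D : Type v} [Group D] (hs : Function.Surjective ε) (τ : D →* Q)
    (hτ : τ.ker ≤ Subgroup.center D) (φ : E →* D) (hφ : τ.comp φ = ε) :
    (mSub ε).map φ = mSub τ := by
  have hφ' : ∀ e, τ (φ e) = ε e := fun e => by rw [← hφ]; rfl
  have hcomm : commutator D ≤ (commutator E).map φ := by
    rw [commutator_def, Subgroup.commutator_le]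
    intro a _ c _
    obtain ⟨a', ha'⟩ := hs (τ a)
    obtain ⟨c', hc'⟩ := hs (τ c)
    have z1 : (φ a')⁻¹ * a ∈ Subgroup.center D :=
      hτ (by rw [MonoidHom.mem_ker, map_mul, map_inv, hφ', ha']; simp)
    have z2 : (φ c')⁻¹ * c ∈ Subgroup.center D :=
      hτ (by rw [MonoidHom.mem_ker, map_mul, map_inv, hφ', hc']; simp)
    have := commutatorElement_mul_central (φ a') (φ c') _ _ z1 z2
    rw [mul_inv_cancel_left, mul_inv_cancel_left] at this
    rw [this, ← map_commutatorElement]
    exact ⟨_, Subgroup.commutator_mem_commutator (Subgroup.mem_top _) (Subgroup.mem_top _), rfl⟩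
  apply le_antisymm
  · rintro _ ⟨m, hm, rfl⟩
    refine ⟨?_, map_commutator_le φ ⟨m, hm.2, rfl⟩⟩
    change φ m ∈ τ.ker
    rw [MonoidHom.mem_ker, hφ']
    exact hm.1
  · rintro x ⟨hx1, hx2⟩
    obtain ⟨y, hy, rfl⟩ := hcomm hx2
    refine ⟨y, ⟨?_, hy⟩, rfl⟩
    change y ∈ ε.ker
    rw [MonoidHom.mem_ker, ← hφ']
    exact hx1

end cover

section free

variable {X : Type w} {Q : Type u} [Group Q] (π : FreeGroup X →* Q)

/-- `[F, R]` -/
def relComm : Subgroup (FreeGroup X) := ⁅(⊤ : Subgroup (FreeGroup X)), π.ker⁆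

instance relComm_normal : (relComm π).Normal := Subgroup.commutator_normal _ _

theorem relComm_le_ker : relComm π ≤ π.ker := Subgroup.commutator_le_right _ _

/-- `F / [F, R]` -/
abbrev FBar := FreeGroup X ⧸ relComm π

/-- the free central extension `F / [F,R] → Q` -/
def piBar : FBar π →* Q := QuotientGroup.lift (relComm π) π (relComm_le_ker π)

theorem piBar_mk (x : FreeGroup X) : piBar π (QuotientGroup.mk' (relComm π) x) = π x := rfl

variable {π}

theorem piBar_surjective (h : Function.Surjective π) : Function.Surjective (piBar π) := by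
  intro q
  obtain ⟨x, rfl⟩ := h q
  exact ⟨QuotientGroup.mk' _ x, rfl⟩

variable (π)

theorem piBar_ker_le_center : (piBar π).ker ≤ Subgroup.center (FBar π) := by
  intro x hx
  obtain ⟨x, rfl⟩ := QuotientGroup.mk'_surjective _ x
  have hx' : x ∈ π.ker := hx
  rw [Subgroup.mem_center_iff]
  intro y
  obtain ⟨y, rfl⟩ := QuotientGroup.mk'_surjective _ y
  rw [← commutatorElement_eq_one_iff_mul_comm, ← map_commutatorElement]
  exact (QuotientGroup.eq_one_iff _).mpr
    (Subgroup.commutator_mem_commutator (Subgroup.mem_top y) hx')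

/-- the lifting property of the free central extension -/
theorem exists_lift {D : Type v} {P : Type*} [Group D] [Group P] (τ : D →* P)
    (hs : Function.Surjective τ) (hτ : τ.ker ≤ Subgroup.center D) (γ : Q →* P) :
    ∃ φ : FBar π →* D, τ.comp φ = γ.comp (piBar π) := by
  choose d hd using fun x : X => hs (γ (π (FreeGroup.of x)))
  let φ₀ : FreeGroup X →* D := FreeGroup.lift d
  have h0 : τ.comp φ₀ = γ.comp π := by
    apply FreeGroup.ext_hom
    intro x
    simp [φ₀, hd]
  have h0' : ∀ y, τ (φ₀ y) = γ (π y) := fun y => by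
    have := congrArg (fun f : FreeGroup X →* P => f y) h0
    exact this
  have hle : relComm π ≤ φ₀.ker := by
    rw [relComm, Subgroup.commutator_le]
    intro f _ r hr
    rw [MonoidHom.mem_ker, map_commutatorElement, commutatorElement_eq_one_iff_mul_comm]
    have : φ₀ r ∈ Subgroup.center D := hτ (by
      rw [MonoidHom.mem_ker, h0', MonoidHom.mem_ker.mp hr, map_one])
    exact (Subgroup.mem_center_iff.mp this) _
  refine ⟨QuotientGroup.lift _ φ₀ hle, ?_⟩
  apply MonoidHom.ext
  intro y
  obtain ⟨y, rfl⟩ := QuotientGroup.mk'_surjective _ y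
  exact h0' y

/-- the standard basis of the abelianized free group -/
noncomputable def abBasis (X : Type w) : Module.Basis X ℤ (Additive (Abelianization (FreeGroup X))) :=
  FreeAbelianGroup.basis X

/-- the abelianization map of `F / [F,R]` -/
def abBar : FBar π →* Multiplicative (Additive (Abelianization (FreeGroup X))) :=
  QuotientGroup.lift (relComm π)
    ((MulEquiv.multiplicativeAdditive (Abelianization (FreeGroup X))).symm.toMonoidHom.comp Abelianization.of)
    (by
      intro x hx
      have h1 : x ∈ commutator (FreeGroup X) := by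
        rw [commutator_def]
        exact Subgroup.commutator_mono le_rfl le_top hx
      rw [← Abelianization.ker_of] at h1
      rw [MonoidHom.mem_ker, MonoidHom.comp_apply, MonoidHom.mem_ker.mp h1, map_one])

theorem abBar_ker : (abBar π).ker = commutator (FBar π) := by
  apply le_antisymm
  · intro x hx
    obtain ⟨x, rfl⟩ := QuotientGroup.mk'_surjective _ x
    have h1 : (MulEquiv.multiplicativeAdditive (Abelianization (FreeGroup X))).symm
      (Abelianization.of x) = 1 := hx
    have h2 : Abelianization.of x = 1 := by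
      simpa using h1
    have h3 : x ∈ commutator (FreeGroup X) := by
      rw [← Abelianization.ker_of]; exact h2
    exact map_commutator_le _ ⟨x, h3, rfl⟩
  · exact Abelianization.commutator_subset_ker _

end free

/-- a finite group can be moved to any universe -/
theorem exists_mulEquiv_universe (Γ : Type w) [Group Γ] [Finite Γ] :
    ∃ (Γ' : Type u) (_ : Group Γ') (_ : Finite Γ'), Nonempty (Γ' ≃* Γ) := by
  have : Small.{u} Γ := Countable.toSmall Γ
  exact ⟨Shrink.{u} Γ, inferInstance, Finite.of_equiv _ (equivShrink Γ), ⟨Shrink.mulEquiv⟩⟩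

theorem isStemExtension_comp_mulEquiv {Γ : Type*} {Γ' : Type*} {Q : Type*} [Group Γ] [Group Γ'] [Group Q]
    {σ : Γ →* Q} (hσ : Cfsg.IsStemExtension σ) (e : Γ' ≃* Γ) :
    Cfsg.IsStemExtension (σ.comp e.toMonoidHom) := by
  obtain ⟨h1, h2, h3⟩ := hσ
  refine ⟨h1.comp e.surjective, ?_, ?_⟩
  · intro x hx
    have hx' : e x ∈ σ.ker := hx
    have := h2 hx'
    rw [Subgroup.mem_center_iff] at this ⊢
    intro y
    apply e.injective
    rw [map_mul, map_mul]
    exact this (e y)
  · intro x hx
    have hx' : e x ∈ σ.ker := hx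
    have h4 := map_commutator_le e.symm.toMonoidHom ⟨e x, h3 hx', rfl⟩
    simpa using h4

/-- kernel of the transported extension -/
theorem ker_comp_mulEquiv {Γ : Type*} {Γ' : Type*} {Q : Type*} [Group Γ] [Group Γ'] [Group Q]
    (σ : Γ →* Q) (e : Γ' ≃* Γ) : Nonempty ((σ.comp e.toMonoidHom).ker ≃* σ.ker) := by
  refine ⟨{ toFun := fun x => ⟨e x.1, x.2⟩
            invFun := fun y => ⟨e.symm y.1, by
              have h := y.2
              rw [MonoidHom.mem_ker] at h ⊢
              simpa using h⟩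
            left_inv := fun x => by apply Subtype.ext; simp
            right_inv := fun y => by apply Subtype.ext; simp
            map_mul' := fun x y => by apply Subtype.ext; exact map_mul e x.1 y.1 }⟩

section main

variable {X : Type w} [Finite X] {Q : Type u} [Group Q] [Finite Q] {π : FreeGroup X →* Q}

theorem exists_schurCompl (N : Subgroup (FBar π)) (hN : N ≤ (piBar π).ker)
    (hNM : N ⊔ mSub (piBar π) = (piBar π).ker) : ∃ S ≤ N, IsSchurCompl (piBar π) S := by
  obtain ⟨S, h1, h2, h3⟩ := exists_split_central (abBasis X) (abBar π) (abBar_ker π) N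
    (hN.trans (piBar_ker_le_center π))
  refine ⟨S, h1, h1.trans hN, h2, ?_⟩
  have h4 : N ⊓ commutator (FBar π) ≤ mSub (piBar π) := inf_le_inf_right _ hN
  rw [← hNM, ← h3, sup_assoc, sup_eq_right.mpr h4]

theorem exists_hom_mSub (hπ : Function.Surjective π) {D : Type v} [Group D] (τ : D →* Q)
    (hs : Function.Surjective τ) (hτ : τ.ker ≤ Subgroup.center D) :
    ∃ φ : FBar π →* D, τ.comp φ = piBar π ∧ (mSub (piBar π)).map φ = mSub τ := by
  obtain ⟨φ, hφ⟩ := exists_lift π τ hs hτ (MonoidHom.id Q)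
  rw [MonoidHom.id_comp] at hφ
  exact ⟨φ, hφ, map_mSub (piBar_surjective hπ) τ hτ φ hφ⟩

theorem mSub_finite : Finite (mSub (piBar π)) := by
  have hfin : Finite (commutator (FBar π)) := finite_commutator_of_central_ker (piBar π) (piBar_ker_le_center π)
  exact Finite.of_injective
    (fun x : mSub (piBar π) => (⟨x.1, x.2.2⟩ : commutator (FBar π)))
    (fun a c h => Subtype.ext (congrArg (fun t => t.1) h))

theorem mSub_of_stem {D : Type v} [Group D] {τ : D →* Q} (h : Cfsg.IsStemExtension τ) : mSub τ = τ.ker :=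
  inf_eq_left.mpr h.2.2

/-- the multiplier subgroup of any finite free presentation is a quotient of and surjects onto `A` -/
theorem hasSchurMultiplier_equiv_mSub (hπ : Function.Surjective π) {A : Type v} [CommGroup A]
    (hA : Cfsg.HasSchurMultiplier Q A) : Nonempty (A ≃* mSub (piBar π)) := by
  obtain ⟨⟨Γ₀, _, _, σ₀, hσ₀, ⟨e₀⟩⟩, huniv⟩ := hA
  have hAfin : Finite A := Finite.of_equiv _ e₀.toEquiv
  have hMfin : Finite (mSub (piBar π)) := mSub_finite
  -- surjection `M → A`
  obtain ⟨φ, _, hφ2⟩ := exists_hom_mSub hπ σ₀ hσ₀.1 hσ₀.2.1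
  rw [mSub_of_stem hσ₀] at hφ2
  have hle1 : Nat.card A ≤ Nat.card (mSub (piBar π)) := by
    rw [← Nat.card_congr e₀.toEquiv, ← hφ2]
    exact Nat.card_le_card_of_surjective
      (fun m : mSub (piBar π) => (⟨φ m.1, m.1, m.2, rfl⟩ : (mSub (piBar π)).map φ))
      (by rintro ⟨_, m, hm, rfl⟩; exact ⟨⟨m, hm⟩, rfl⟩)
  -- surjection `A → M`
  obtain ⟨S, _, hS⟩ := exists_schurCompl (π := π) (piBar π).ker le_rfl
    (sup_eq_left.mpr inf_le_left)
  have hSn : S.Normal := normal_of_le_center (hS.1.trans (piBar_ker_le_center π))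
  have hst := cover_stem (piBar_surjective hπ) (piBar_ker_le_center π) hS
  have hfin := cover_finite (piBar_ker_le_center π) hS
  obtain ⟨e1⟩ := cover_ker_equiv hS
  obtain ⟨Γ', _, _, ⟨e⟩⟩ := exists_mulEquiv_universe.{u} (FBar π ⧸ S)
  obtain ⟨f, hf⟩ := huniv Γ' _ (isStemExtension_comp_mulEquiv hst e)
  obtain ⟨e2⟩ := ker_comp_mulEquiv (QuotientGroup.lift S (piBar π) hS.1) e
  let g : A →* mSub (piBar π) := (e1.toMonoidHom.comp e2.toMonoidHom).comp f
  have hg : Function.Surjective g := (e1.surjective.comp e2.surjective).comp hf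
  exact ⟨MulEquiv.ofBijective g (hg.bijective_of_nat_card_le hle1)⟩

end main

section interface

variable {Q : Type u} [Group Q] [Finite Q]

theorem hasSchurMultiplier_mSub {X : Type u} [Finite X] {π : FreeGroup X →* Q} (hπ : Function.Surjective π) :
    @Cfsg.HasSchurMultiplier Q _ (mSub (piBar π))
      (commGroupOfLeCenter _ (inf_le_left.trans (piBar_ker_le_center π))) := by
  constructor
  · obtain ⟨S, _, hS⟩ := exists_schurCompl (π := π) (piBar π).ker le_rfl
      (sup_eq_left.mpr inf_le_left)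
    have hSn : S.Normal := normal_of_le_center (hS.1.trans (piBar_ker_le_center π))
    exact ⟨FBar π ⧸ S, inferInstance, cover_finite (piBar_ker_le_center π) hS,
      QuotientGroup.lift S (piBar π) hS.1,
      cover_stem (piBar_surjective hπ) (piBar_ker_le_center π) hS, cover_ker_equiv hS⟩
  · intro Γ _ _ σ hσ
    obtain ⟨φ, _, hφ2⟩ := exists_hom_mSub hπ σ hσ.1 hσ.2.1
    rw [mSub_of_stem hσ] at hφ2
    refine ⟨{ toFun := fun m => ⟨φ m.1, by rw [← hφ2]; exact ⟨m.1, m.2, rfl⟩⟩
              map_one' := by apply Subtype.ext; simp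
              map_mul' := fun a c => by apply Subtype.ext; simp }, ?_⟩
    rintro ⟨x, hx⟩
    rw [← hφ2] at hx
    obtain ⟨m, hm, rfl⟩ := hx
    exact ⟨⟨m, hm⟩, rfl⟩

/-- canonical presentation -/
def canPres (Q : Type u) [Group Q] : FreeGroup Q →* Q := FreeGroup.lift id

theorem canPres_surjective (Q : Type u) [Group Q] : Function.Surjective (canPres Q) :=
  fun q => ⟨FreeGroup.of q, by simp [canPres]⟩

/-- every finite group has a Schur multiplier -/
theorem exists_hasSchurMultiplier (Q : Type u) [Group Q] [Finite Q] :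
    ∃ (A : Type u) (_ : CommGroup A) (_ : Finite A), Cfsg.HasSchurMultiplier Q A :=
  ⟨mSub (piBar (canPres Q)), commGroupOfLeCenter _ (inf_le_left.trans (piBar_ker_le_center _)),
    mSub_finite, hasSchurMultiplier_mSub (canPres_surjective Q)⟩

theorem hasSchurMultiplier_finite {A : Type v} [CommGroup A] (hA : Cfsg.HasSchurMultiplier Q A) : Finite A := by
  obtain ⟨⟨Γ₀, _, _, σ₀, _, ⟨e₀⟩⟩, _⟩ := hA
  exact Finite.of_equiv _ e₀.toEquiv

/-- for any central extension `τ` of `Q`, `ker τ ∩ D'` is a homomorphic image of the multiplier -/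
theorem hasSchurMultiplier_exists_hom {A : Type v} [CommGroup A] (hA : Cfsg.HasSchurMultiplier Q A)
    {D : Type w} [Group D] (τ : D →* Q) (hs : Function.Surjective τ) (hτ : τ.ker ≤ Subgroup.center D) :
    ∃ f : A →* D, f.range = mSub τ := by
  obtain ⟨e⟩ := hasSchurMultiplier_equiv_mSub (canPres_surjective Q) hA
  obtain ⟨φ, _, hφ2⟩ := exists_hom_mSub (canPres_surjective Q) τ hs hτ
  refine ⟨(φ.comp (mSub (piBar (canPres Q))).subtype).comp e.toMonoidHom, ?_⟩
  rw [← hφ2]
  ext x
  constructor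
  · rintro ⟨a, rfl⟩
    exact ⟨(e a).1, (e a).2, rfl⟩
  · rintro ⟨m, hm, rfl⟩
    exact ⟨e.symm ⟨m, hm⟩, by simp⟩

theorem hasSchurMultiplier_unique {A : Type v} [CommGroup A] {B : Type w} [CommGroup B]
    (hA : Cfsg.HasSchurMultiplier Q A) (hB : Cfsg.HasSchurMultiplier Q B) : Nonempty (A ≃* B) := by
  obtain ⟨e⟩ := hasSchurMultiplier_equiv_mSub (canPres_surjective Q) hA
  obtain ⟨e'⟩ := hasSchurMultiplier_equiv_mSub (canPres_surjective Q) hB
  exact ⟨e.trans e'.symm⟩

/-- transport of the multiplier along an isomorphism of the coefficient group -/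
theorem hasSchurMultiplier_of_mulEquiv {Q : Type u} [Group Q] {A : Type v} [CommGroup A] {B : Type w} [CommGroup B]
    (hA : Cfsg.HasSchurMultiplier Q A) (e : A ≃* B) : Cfsg.HasSchurMultiplier Q B := by
  obtain ⟨⟨Γ₀, i1, i2, σ₀, h0, ⟨e₀⟩⟩, huniv⟩ := hA
  refine ⟨⟨Γ₀, i1, i2, σ₀, h0, ⟨e₀.trans e⟩⟩, ?_⟩
  intro Γ _ _ σ hσ
  obtain ⟨f, hf⟩ := huniv Γ σ hσ
  exact ⟨f.comp e.symm.toMonoidHom, hf.comp e.symm.surjective⟩

/-- A Schur cover is a quotient of the free central extension by a complement of the multiplier. -/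
theorem exists_hom_of_cover {X : Type w} [Finite X] {π : FreeGroup X →* Q} (hπ : Function.Surjective π)
    {A : Type v} [CommGroup A] (hA : Cfsg.HasSchurMultiplier Q A)
    {Γ : Type*} [Group Γ] (σ : Γ →* Q) (hσ : Cfsg.IsStemExtension σ) (hk : Nonempty (σ.ker ≃* A)) :
    ∃ ψ : FBar π →* Γ, σ.comp ψ = piBar π ∧ Function.Surjective ψ ∧ IsSchurCompl (piBar π) ψ.ker := by
  obtain ⟨e⟩ := hasSchurMultiplier_equiv_mSub hπ hA
  obtain ⟨k⟩ := hk
  have hMfin : Finite (mSub (piBar π)) := mSub_finite
  obtain ⟨ψ, h1, h2⟩ := exists_hom_mSub hπ σ hσ.1 hσ.2.1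
  rw [mSub_of_stem hσ] at h2
  have h1' : ∀ y, σ (ψ y) = piBar π y := fun y => by rw [← h1]; rfl
  have hsurj : Function.Surjective ψ := by
    intro g
    obtain ⟨y, hy⟩ := piBar_surjective hπ (σ g)
    have : (ψ y)⁻¹ * g ∈ σ.ker := by
      rw [MonoidHom.mem_ker, map_mul, map_inv, h1', hy]; simp
    rw [← h2] at this
    obtain ⟨m, _, hm⟩ := this
    exact ⟨y * m, by rw [map_mul, hm]; group⟩
  -- `ψ` restricted to `M` is injective by counting
  let r : mSub (piBar π) → σ.ker := fun m => ⟨ψ m.1, by rw [← h2]; exact ⟨m.1, m.2, rfl⟩⟩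
  have hr : Function.Surjective r := by
    rintro ⟨x, hx⟩
    rw [← h2] at hx
    obtain ⟨m, hm, rfl⟩ := hx
    exact ⟨⟨m, hm⟩, rfl⟩
  have hcard : Nat.card (mSub (piBar π)) ≤ Nat.card σ.ker := by
    rw [Nat.card_congr k.toEquiv, Nat.card_congr e.toEquiv]
  have hbij := hr.bijective_of_nat_card_le hcard
  refine ⟨ψ, h1, hsurj, ?_, ?_, ?_⟩
  · intro y hy
    rw [MonoidHom.mem_ker, ← h1', MonoidHom.mem_ker.mp hy, map_one]
  · rw [eq_bot_iff]
    rintro y ⟨hy1, hy2⟩
    have hy1' : ψ y = 1 := hy1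
    have hyM : y ∈ mSub (piBar π) := ⟨by
      change y ∈ (piBar π).ker
      rw [MonoidHom.mem_ker, ← h1', hy1', map_one], hy2⟩
    have : r ⟨y, hyM⟩ = r 1 := by
      apply Subtype.ext
      change ψ y = ψ 1
      rw [hy1', map_one]
    have := hbij.1 this
    rw [Subgroup.mem_bot]
    exact congrArg Subtype.val this
  · apply le_antisymm
    · refine sup_le ?_ inf_le_left
      intro y hy
      rw [MonoidHom.mem_ker, ← h1', MonoidHom.mem_ker.mp hy, map_one]
    · intro y hy
      have : ψ y ∈ σ.ker := by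
        rw [MonoidHom.mem_ker, h1']; exact hy
      rw [← h2] at this
      obtain ⟨m, hm, hm2⟩ := this
      have : y = (y * m⁻¹) * m := by group
      rw [this]
      refine Subgroup.mul_mem_sup ?_ hm
      rw [MonoidHom.mem_ker, map_mul, map_inv, hm2]; simp

end interface

end Cfsg.Agent.H2
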