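import Mathlib
import Cfsg.Agent.Lib_helper2_SchurTheory

set_option autoImplicit false
set_option linter.unusedSectionVars false
open scoped commutatorElement

namespace Cfsg.Agent.H2

universe u v w

/-- the commutator subgroup maps onto the commutator subgroup under a surjection -/
theorem map_commutator_eq_of_surjective {E : Type*} {E' : Type*} [Group E] [Group E'] (φ : E →* E')
    (h : Function.Surjective φ) : (commutator E).map φ = commutator E' := by
  rw [commutator_def, Subgroup.map_commutator, Subgroup.map_top_of_surjective φ h, commutator_def]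

/-- If `Γ` has trivial multiplier, then any central extension of `Q` can be reached from `Γ'`. -/
theorem exists_theta {Γ : Type v} [Group Γ] [Finite Γ] (hΓ : Cfsg.HasCyclicSchurMultiplier Γ 1)
    {Q : Type u} [Group Q] (σ : Γ →* Q) {X : Type w} [Group X] (ξ : X →* Q)
    (hξs : Function.Surjective ξ) (hξc : ξ.ker ≤ Subgroup.center X) :
    ∃ θ : commutator Γ →* X, (∀ g, ξ (θ g) = σ g) ∧
      (Function.Surjective σ → ∀ x ∈ commutator X, ∃ g, θ g = x) := by
  let P : Subgroup (Γ × X) := (σ.comp (MonoidHom.fst Γ X)).eqLocus (ξ.comp (MonoidHom.snd Γ X))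
  have hP : ∀ p : P, σ p.1.1 = ξ p.1.2 := fun p => p.2
  let ρ : P →* Γ := (MonoidHom.fst Γ X).comp P.subtype
  let ρ' : P →* X := (MonoidHom.snd Γ X).comp P.subtype
  have hρs : Function.Surjective ρ := by
    intro g
    obtain ⟨x, hx⟩ := hξs (σ g)
    exact ⟨⟨(g, x), hx.symm⟩, rfl⟩
  have hρc : ρ.ker ≤ Subgroup.center P := by
    rintro ⟨⟨g, x⟩, hgx⟩ hk
    have hg : g = 1 := hk
    subst hg
    have hx : x ∈ ξ.ker := by
      have : σ 1 = ξ x := hgx
      rw [MonoidHom.mem_ker, ← this, map_one]
    have hxc := hξc hx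
    rw [Subgroup.mem_center_iff]
    rintro ⟨⟨g', x'⟩, _⟩
    apply Subtype.ext
    apply Prod.ext
    · simp
    · exact (Subgroup.mem_center_iff.mp hxc) x'
  obtain ⟨f, hf⟩ := hasSchurMultiplier_exists_hom hΓ ρ hρs hρc
  have hbot : mSub ρ = ⊥ := by
    rw [← hf, eq_bot_iff]
    rintro _ ⟨a, rfl⟩
    have h2 : Subsingleton (Multiplicative (ZMod 1)) := by
      change Subsingleton (ZMod 1)
      infer_instance
    rw [Subsingleton.elim a 1, map_one]
    exact one_mem _
  have hmap : (commutator P).map ρ = commutator Γ := map_commutator_eq_of_surjective ρ hρs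
  let r : commutator P →* commutator Γ :=
    { toFun := fun p => ⟨ρ p.1, by rw [← hmap]; exact ⟨p.1, p.2, rfl⟩⟩
      map_one' := by apply Subtype.ext; simp
      map_mul' := fun a c => by apply Subtype.ext; simp }
  have hr : Function.Bijective r := by
    constructor
    · rw [injective_iff_map_eq_one]
      intro p hp
      have h1 : ρ p.1 = 1 := congrArg Subtype.val hp
      have h2 : p.1 ∈ mSub ρ := ⟨h1, p.2⟩
      rw [hbot, Subgroup.mem_bot] at h2
      exact Subtype.ext h2
    · rintro ⟨g, hg⟩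
      rw [← hmap] at hg
      obtain ⟨p, hp, rfl⟩ := hg
      exact ⟨⟨p, hp⟩, rfl⟩
  let e := MulEquiv.ofBijective r hr
  refine ⟨(ρ'.comp (commutator P).subtype).comp e.symm.toMonoidHom, ?_, ?_⟩
  · intro g
    obtain ⟨p, rfl⟩ := e.surjective g
    have : e.symm (e p) = p := e.symm_apply_apply p
    change ξ (ρ' (e.symm (e p)).1) = σ (ρ p.1)
    rw [this]
    exact (hP p.1).symm
  · intro hσ x hx
    have hρ's : Function.Surjective ρ' := by
      intro x
      obtain ⟨g, hg⟩ := hσ (ξ x)
      exact ⟨⟨(g, x), hg⟩, rfl⟩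
    rw [← map_commutator_eq_of_surjective ρ' hρ's] at hx
    obtain ⟨p, hp, rfl⟩ := hx
    refine ⟨e ⟨p, hp⟩, ?_⟩
    change ρ' (e.symm (e ⟨p, hp⟩)).1 = ρ' p
    rw [e.symm_apply_apply]

/-- homomorphisms from a perfect group into a central extension are determined by their projections -/
theorem hom_eq_of_perfect {G : Type*} {X : Type*} {Q : Type*} [Group G] [Group X] [Group Q]
    (hG : Group.IsPerfect G) (ξ : X →* Q) (hξ : ξ.ker ≤ Subgroup.center X) (η₁ η₂ : G →* X)
    (h : ξ.comp η₁ = ξ.comp η₂) : η₁ = η₂ := by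
  have h' : ∀ g, ξ (η₁ g) = ξ (η₂ g) := fun g => congrArg (fun f : G →* Q => f g) h
  have hle : commutator G ≤ η₁.eqLocus η₂ := by
    rw [commutator_def, Subgroup.commutator_le]
    intro a _ c _
    change η₁ ⁅a, c⁆ = η₂ ⁅a, c⁆
    rw [map_commutatorElement, map_commutatorElement]
    have z1 : (η₂ a)⁻¹ * η₁ a ∈ Subgroup.center X :=
      hξ (by rw [MonoidHom.mem_ker, map_mul, map_inv, h']; simp)
    have z2 : (η₂ c)⁻¹ * η₁ c ∈ Subgroup.center X :=
      hξ (by rw [MonoidHom.mem_ker, map_mul, map_inv, h']; simp)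
    have := commutatorElement_mul_central (η₂ a) (η₂ c) _ _ z1 z2
    rw [mul_inv_cancel_left, mul_inv_cancel_left] at this
    exact this
  rw [hG.commutator_eq_top] at hle
  apply MonoidHom.ext
  intro g
  exact hle (Subgroup.mem_top g)

end Cfsg.Agent.H2
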