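import Mathlib
import Cfsg.Prelude.Def_KGroupFacts

set_option autoImplicit false
open scoped commutatorElement

namespace Cfsg.Agent.H2

universe u v

/-- The central extension of `G` by `W` defined by a bimultiplicative cocycle `c`. -/
@[ext] structure Tw {G : Type u} {W : Type v} [Group G] [CommGroup W] (c : G →* G →* W) where
  /-- component in `G` -/
  fst : G
  /-- component in `W` -/
  snd : W

namespace Tw

variable {G : Type u} {W : Type v} [Group G] [CommGroup W] (c : G →* G →* W)

instance instMulTw : Mul (Tw c) := ⟨fun a b => ⟨a.fst * b.fst, a.snd * b.snd * c a.fst b.fst⟩⟩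
instance instOneTw : One (Tw c) := ⟨⟨1, 1⟩⟩
instance instInvTw : Inv (Tw c) := ⟨fun a => ⟨a.fst⁻¹, a.snd⁻¹ * c a.fst a.fst⟩⟩

variable {c}

@[simp] theorem mul_fst (a b : Tw c) : (a * b).fst = a.fst * b.fst := rfl
@[simp] theorem mul_snd (a b : Tw c) : (a * b).snd = a.snd * b.snd * c a.fst b.fst := rfl
@[simp] theorem one_fst : (1 : Tw c).fst = 1 := rfl
@[simp] theorem one_snd : (1 : Tw c).snd = 1 := rfl
@[simp] theorem inv_fst (a : Tw c) : (a⁻¹).fst = a.fst⁻¹ := rfl
@[simp] theorem inv_snd (a : Tw c) : (a⁻¹).snd = a.snd⁻¹ * c a.fst a.fst := rfl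

variable (c)

instance instGroupTw : Group (Tw c) :=
  Group.ofLeftAxioms
    (by
      intro a b d
      ext
      · simp [mul_assoc]
      · simp only [mul_snd, mul_fst, map_mul, MonoidHom.mul_apply]
        generalize (c a.fst) d.fst = x
        generalize (c b.fst) d.fst = y
        generalize (c a.fst) b.fst = z
        ac_rfl)
    (by
      intro a
      ext
      · simp
      · simp)
    (by
      intro a
      ext
      · simp
      · simp only [mul_snd, inv_snd, inv_fst, map_inv, MonoidHom.inv_apply, one_snd]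
        have : a.snd⁻¹ * (c a.fst) a.fst * a.snd * ((c a.fst) a.fst)⁻¹
          = (a.snd⁻¹ * a.snd) * ((c a.fst) a.fst * ((c a.fst) a.fst)⁻¹) := by ac_rfl
        rw [this]; simp)

/-- projection onto `G` -/
def proj : Tw c →* G where
  toFun := Tw.fst
  map_one' := rfl
  map_mul' _ _ := rfl

/-- inclusion of `W` -/
def incl : W →* Tw c where
  toFun w := ⟨1, w⟩
  map_one' := rfl
  map_mul' a b := by
    ext
    · simp
    · simp

theorem proj_surjective : Function.Surjective (proj c) := fun g => ⟨⟨g, 1⟩, rfl⟩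

theorem finite_tw [Finite G] [Finite W] : Finite (Tw c) :=
  Finite.of_injective (fun a : Tw c => (a.fst, a.snd)) (fun a b h => by
    ext
    · exact congrArg Prod.fst h
    · exact congrArg Prod.snd h)

theorem c_commutator (g h k : G) : c ⁅g, h⁆ k = 1 := by
  have : c ⁅g, h⁆ = 1 := by
    rw [map_commutatorElement, commutatorElement_eq_one_iff_mul_comm, mul_comm]
  rw [this]; rfl

theorem commutator_formula (a b : Tw c) :
    ⁅a, b⁆ = ⟨⁅a.fst, b.fst⁆, c a.fst b.fst * (c b.fst a.fst)⁻¹⟩ := by
  have key : (⟨⁅a.fst, b.fst⁆, c a.fst b.fst * (c b.fst a.fst)⁻¹⟩ : Tw c) * (b * a) = a * b := by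
    ext
    · simp only [mul_fst, commutatorElement_def]; group
    · simp only [mul_snd, mul_fst, c_commutator, mul_one]
      have : (c a.fst) b.fst * ((c b.fst) a.fst)⁻¹ * (b.snd * a.snd * (c b.fst) a.fst)
        = a.snd * b.snd * (c a.fst) b.fst * (((c b.fst) a.fst)⁻¹ * (c b.fst) a.fst) := by ac_rfl
      rw [this]; simp
  have h2 : ⁅a, b⁆ * (b * a) = a * b := by
    rw [commutatorElement_def]; group
  exact mul_right_cancel (h2.trans key.symm)

/-- elements over the "radical" of `c` and the centre of `G` are central -/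
theorem mem_center_of (a : Tw c) (h1 : a.fst ∈ Subgroup.center G) (h2 : ∀ g, c a.fst g = 1)
    (h3 : ∀ g, c g a.fst = 1) : a ∈ Subgroup.center (Tw c) := by
  rw [Subgroup.mem_center_iff]
  intro b
  ext
  · exact (Subgroup.mem_center_iff.mp h1) b.fst
  · simp only [mul_snd, h2, h3, mul_one, mul_comm]

end Tw

end Cfsg.Agent.H2
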