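import Mathlib
import Cfsg.Agent.Lib_helper2_Twisted
import Cfsg.Agent.Lib_helper2_SchurTheory2

set_option autoImplicit false
open scoped commutatorElement TensorProduct

namespace Cfsg.Agent.H2

universe u v w

/-- the cocycle `(g,h) ↦ a(g) ⊗ b(h)` -/
def tensorCoc {G : Type*} [Group G] {M N : Type*} [AddCommGroup M] [AddCommGroup N]
    (a : G →* Multiplicative M) (b : G →* Multiplicative N) : G →* G →* Multiplicative (M ⊗[ℤ] N) where
  toFun g :=
    { toFun := fun h => Multiplicative.ofAdd (Multiplicative.toAdd (a g) ⊗ₜ[ℤ] Multiplicative.toAdd (b h))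
      map_one' := by simp
      map_mul' := fun x y => by simp [TensorProduct.tmul_add] }
  map_one' := by
    apply MonoidHom.ext
    intro h
    change Multiplicative.ofAdd (Multiplicative.toAdd (a 1) ⊗ₜ[ℤ] Multiplicative.toAdd (b h)) = 1
    simp
  map_mul' x y := by
    apply MonoidHom.ext
    intro h
    change Multiplicative.ofAdd (Multiplicative.toAdd (a (x * y)) ⊗ₜ[ℤ] Multiplicative.toAdd (b h)) =
      Multiplicative.ofAdd (Multiplicative.toAdd (a x) ⊗ₜ[ℤ] Multiplicative.toAdd (b h)) *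
      Multiplicative.ofAdd (Multiplicative.toAdd (a y) ⊗ₜ[ℤ] Multiplicative.toAdd (b h))
    simp [TensorProduct.add_tmul]

theorem tensorCoc_apply {G : Type*} [Group G] {M N : Type*} [AddCommGroup M] [AddCommGroup N]
    (a : G →* Multiplicative M) (b : G →* Multiplicative N) (g h : G) :
    tensorCoc a b g h = Multiplicative.ofAdd (Multiplicative.toAdd (a g) ⊗ₜ[ℤ] Multiplicative.toAdd (b h)) := rfl

/-- the tensor product of finite abelian groups is finite -/
theorem finite_tensor (M N : Type*) [AddCommGroup M] [AddCommGroup N] [Finite M] [Finite N] :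
    Finite (M ⊗[ℤ] N) := by
  have : Module.Finite ℤ M := Module.Finite.of_finite
  have : Module.Finite ℤ N := Module.Finite.of_finite
  have h := @Module.Finite.tensorProduct ℤ M N _ _ _ _ _ _ _
  refine @Module.finite_of_fg_torsion (M ⊗[ℤ] N) _ _ h ?_
  intro x
  refine ⟨⟨(Nat.card M : ℤ), ?_⟩, ?_⟩
  · rw [mem_nonZeroDivisors_iff_ne_zero]
    exact_mod_cast (Nat.card_pos (α := M)).ne'
  · change (Nat.card M : ℤ) • x = 0
    induction x using TensorProduct.induction_on with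
    | zero => simp
    | tmul m n =>
      rw [TensorProduct.smul_tmul', natCast_zsmul, card_nsmul_eq_zero', TensorProduct.zero_tmul]
    | add x y hx hy => rw [smul_add, hx, hy, add_zero]

/-- the tensor product of finite abelian groups of coprime orders is trivial -/
theorem subsingleton_tensor (M N : Type*) [AddCommGroup M] [AddCommGroup N] [Finite M] [Finite N]
    (h : Nat.Coprime (Nat.card M) (Nat.card N)) : Subsingleton (M ⊗[ℤ] N) := by
  have key : ∀ x : M ⊗[ℤ] N, x = 0 := by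
    intro x
    induction x using TensorProduct.induction_on with
    | zero => rfl
    | tmul m n =>
      have h1 : (Nat.card M : ℤ) • (m ⊗ₜ[ℤ] n) = 0 := by
        rw [TensorProduct.smul_tmul', natCast_zsmul, card_nsmul_eq_zero', TensorProduct.zero_tmul]
      have h2 : (Nat.card N : ℤ) • (m ⊗ₜ[ℤ] n) = 0 := by
        rw [← TensorProduct.tmul_smul, natCast_zsmul, card_nsmul_eq_zero', TensorProduct.tmul_zero]
      have h3 : IsCoprime (Nat.card M : ℤ) (Nat.card N : ℤ) := Nat.isCoprime_iff_coprime.mpr h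
      obtain ⟨s, t, hst⟩ := h3
      calc m ⊗ₜ[ℤ] n = (1 : ℤ) • (m ⊗ₜ[ℤ] n) := (one_smul _ _).symm
        _ = (s * Nat.card M + t * Nat.card N) • (m ⊗ₜ[ℤ] n) := by rw [hst]
        _ = 0 := by rw [add_smul, mul_smul, mul_smul, h1, h2]; simp
    | add x y hx hy => rw [hx, hy, add_zero]
  exact ⟨fun a b => by rw [key a, key b]⟩

/-- criterion for a commutator subgroup to lie in a normal subgroup -/
theorem commutator_le_iff_map_le_centralizer {D : Type*} [Group D] (H K N : Subgroup D) [N.Normal] :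
    ⁅H, K⁆ ≤ N ↔ H.map (QuotientGroup.mk' N) ≤ Subgroup.centralizer (K.map (QuotientGroup.mk' N) : Set (D ⧸ N)) := by
  rw [← Subgroup.commutator_eq_bot_iff_le_centralizer, ← Subgroup.map_commutator,
    Subgroup.map_eq_bot_iff, QuotientGroup.ker_mk']

theorem sup_commutator_le {D : Type*} [Group D] (H₁ H₂ K N : Subgroup D) [N.Normal]
    (h1 : ⁅H₁, K⁆ ≤ N) (h2 : ⁅H₂, K⁆ ≤ N) : ⁅H₁ ⊔ H₂, K⁆ ≤ N := by
  rw [commutator_le_iff_map_le_centralizer] at h1 h2 ⊢
  rw [Subgroup.map_sup]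
  exact sup_le h1 h2

/-- the commutator subgroup of a product of two normal subgroups -/
theorem commutator_le_of_sup_eq_top {D : Type*} [Group D] (H₁ H₂ : Subgroup D) [H₁.Normal] [H₂.Normal]
    (h : H₁ ⊔ H₂ = ⊤) : commutator D ≤ ⁅H₁, H₁⁆ ⊔ ⁅H₂, H₂⁆ ⊔ ⁅H₁, H₂⁆ := by
  set L := ⁅H₁, H₁⁆ ⊔ ⁅H₂, H₂⁆ ⊔ ⁅H₁, H₂⁆ with hL
  have hLn : L.Normal := inferInstance
  have a1 : ⁅H₁, H₁⁆ ≤ L := le_sup_left.trans le_sup_left
  have a2 : ⁅H₂, H₂⁆ ≤ L := le_sup_right.trans le_sup_left
  have a3 : ⁅H₁, H₂⁆ ≤ L := le_sup_right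
  have a4 : ⁅H₂, H₁⁆ ≤ L := by rw [Subgroup.commutator_comm]; exact a3
  have b1 : ⁅H₁, (⊤ : Subgroup D)⁆ ≤ L := by
    rw [Subgroup.commutator_comm, ← h]
    exact sup_commutator_le _ _ _ _ a1 a4
  have b2 : ⁅H₂, (⊤ : Subgroup D)⁆ ≤ L := by
    rw [Subgroup.commutator_comm, ← h]
    exact sup_commutator_le _ _ _ _ a3 a2
  rw [commutator_def]
  conv_lhs => rw [← h]
  rw [h]
  have := sup_commutator_le _ _ _ _ b1 b2
  rw [h] at this
  exact this

/-- bimultiplicativity of commutators with central values -/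
theorem commutatorElement_mul_left_of_central {D : Type*} [Group D] (a b c : D)
    (h : ⁅b, c⁆ ∈ Subgroup.center D) : ⁅a * b, c⁆ = ⁅a, c⁆ * ⁅b, c⁆ := by
  have h1 : ⁅a * b, c⁆ = a * ⁅b, c⁆ * a⁻¹ * ⁅a, c⁆ := by
    simp only [commutatorElement_def]; group
  rw [h1, (Subgroup.mem_center_iff.mp h) a, mul_inv_cancel_right, (Subgroup.mem_center_iff.mp h) ⁅a, c⁆]

theorem commutatorElement_mul_right_of_central {D : Type*} [Group D] (a b c : D)
    (h : ⁅a, c⁆ ∈ Subgroup.center D) : ⁅a, b * c⁆ = ⁅a, b⁆ * ⁅a, c⁆ := by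
  have h1 : ⁅a, b * c⁆ = ⁅a, b⁆ * (b * ⁅a, c⁆ * b⁻¹) := by
    simp only [commutatorElement_def]; group
  rw [h1, (Subgroup.mem_center_iff.mp h) b, mul_inv_cancel_right]

end Cfsg.Agent.H2
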