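import Mathlib
import Cfsg.Agent.Lib_helper2_SchurProd

set_option autoImplicit false
open scoped commutatorElement TensorProduct

namespace Cfsg.Agent.H2

universe u v w

/-- the abelianization map, written with type tags -/
def abQ (Q : Type*) [Group Q] : Q →* Multiplicative (Additive (Abelianization Q)) :=
  (MulEquiv.multiplicativeAdditive (Abelianization Q)).symm.toMonoidHom.comp Abelianization.of

theorem abQ_apply (Q : Type*) [Group Q] (q : Q) :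
    Multiplicative.toAdd (abQ Q q) = Additive.ofMul (Abelianization.of q) := rfl

theorem abOf_surjective (Q : Type*) [Group Q] : Function.Surjective (Abelianization.of : Q →* Abelianization Q) :=
  QuotientGroup.mk'_surjective (commutator Q)

section exist

variable {Q₁ : Type u} {Q₂ : Type v} [Group Q₁] [Group Q₂]
  {Γ₁ : Type u} {Γ₂ : Type v} [Group Γ₁] [Group Γ₂] (σ₁ : Γ₁ →* Q₁) (σ₂ : Γ₂ →* Q₂)

/-- the cocycle on `Γ₁ × Γ₂` -/
def prodCoc : (Γ₁ × Γ₂) →* (Γ₁ × Γ₂) →*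
    Multiplicative (Additive (Abelianization Q₁) ⊗[ℤ] Additive (Abelianization Q₂)) :=
  tensorCoc ((abQ Q₁).comp (σ₁.comp (MonoidHom.fst Γ₁ Γ₂))) ((abQ Q₂).comp (σ₂.comp (MonoidHom.snd Γ₁ Γ₂)))

theorem prodCoc_apply (g h : Γ₁ × Γ₂) : prodCoc σ₁ σ₂ g h =
    Multiplicative.ofAdd (Additive.ofMul (Abelianization.of (σ₁ g.1)) ⊗ₜ[ℤ]
      Additive.ofMul (Abelianization.of (σ₂ h.2))) := rfl

theorem prodCoc_left (g h : Γ₁ × Γ₂) (hg : σ₁ g.1 = 1) : prodCoc σ₁ σ₂ g h = 1 := by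
  rw [prodCoc_apply, hg, map_one]
  change Multiplicative.ofAdd ((0 : Additive (Abelianization Q₁)) ⊗ₜ[ℤ] _) = 1
  rw [TensorProduct.zero_tmul]; rfl

theorem prodCoc_right (g h : Γ₁ × Γ₂) (hh : σ₂ h.2 = 1) : prodCoc σ₁ σ₂ g h = 1 := by
  rw [prodCoc_apply, hh, map_one]
  change Multiplicative.ofAdd (_ ⊗ₜ[ℤ] (0 : Additive (Abelianization Q₂))) = 1
  rw [TensorProduct.tmul_zero]; rfl

/-- the extension of `Q₁ × Q₂` -/
def prodSigma : Tw (prodCoc σ₁ σ₂) →* Q₁ × Q₂ := (σ₁.prodMap σ₂).comp (Tw.proj _)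

theorem mem_ker_prodSigma (x : Tw (prodCoc σ₁ σ₂)) :
    x ∈ (prodSigma σ₁ σ₂).ker ↔ σ₁ x.fst.1 = 1 ∧ σ₂ x.fst.2 = 1 := by
  rw [MonoidHom.mem_ker]
  change (σ₁ x.fst.1, σ₂ x.fst.2) = 1 ↔ _
  exact Prod.ext_iff

/-- embedding of the first factor -/
def inOne : Γ₁ →* Tw (prodCoc σ₁ σ₂) where
  toFun g := ⟨(g, 1), 1⟩
  map_one' := rfl
  map_mul' a b := by
    apply Tw.ext
    · simp
    · rw [Tw.mul_snd, prodCoc_right σ₁ σ₂ _ _ (map_one σ₂)]; simp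

/-- embedding of the second factor -/
def inTwo : Γ₂ →* Tw (prodCoc σ₁ σ₂) where
  toFun g := ⟨(1, g), 1⟩
  map_one' := rfl
  map_mul' a b := by
    apply Tw.ext
    · simp
    · rw [Tw.mul_snd, prodCoc_left σ₁ σ₂ _ _ (map_one σ₁)]; simp

theorem incl_mem_commutator (h₁ : Function.Surjective σ₁) (h₂ : Function.Surjective σ₂)
    (t : Additive (Abelianization Q₁) ⊗[ℤ] Additive (Abelianization Q₂)) :
    Tw.incl (prodCoc σ₁ σ₂) (Multiplicative.ofAdd t) ∈ commutator (Tw (prodCoc σ₁ σ₂)) := by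
  induction t using TensorProduct.induction_on with
  | zero =>
    have : (Multiplicative.ofAdd (0 : Additive (Abelianization Q₁) ⊗[ℤ] Additive (Abelianization Q₂))) = 1 := rfl
    rw [this, map_one]; exact one_mem _
  | tmul m n =>
    obtain ⟨q₁, hq₁⟩ := abOf_surjective Q₁ (Additive.toMul m)
    obtain ⟨q₂, hq₂⟩ := abOf_surjective Q₂ (Additive.toMul n)
    obtain ⟨g₁, rfl⟩ := h₁ q₁
    obtain ⟨g₂, rfl⟩ := h₂ q₂
    have : Tw.incl (prodCoc σ₁ σ₂) (Multiplicative.ofAdd (m ⊗ₜ[ℤ] n)) = ⁅inOne σ₁ σ₂ g₁, inTwo σ₁ σ₂ g₂⁆ := by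
      rw [Tw.commutator_formula]
      apply Tw.ext
      · symm
        change ⁅((g₁, 1) : Γ₁ × Γ₂), (1, g₂)⁆ = 1
        rw [commutatorElement_eq_one_iff_mul_comm]
        simp
      · change Multiplicative.ofAdd (m ⊗ₜ[ℤ] n) = prodCoc σ₁ σ₂ (g₁, 1) (1, g₂) * (prodCoc σ₁ σ₂ (1, g₂) (g₁, 1))⁻¹
        rw [prodCoc_left σ₁ σ₂ (1, g₂) _ (map_one σ₁), prodCoc_apply, hq₁, hq₂]
        simp
    rw [this]
    exact Subgroup.commutator_mem_commutator (Subgroup.mem_top _) (Subgroup.mem_top _)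
  | add x y hx hy =>
    rw [ofAdd_add, map_mul]
    exact Subgroup.mul_mem _ hx hy

theorem prodSigma_stem (h₁ : Cfsg.IsStemExtension σ₁) (h₂ : Cfsg.IsStemExtension σ₂) :
    Cfsg.IsStemExtension (prodSigma σ₁ σ₂) := by
  refine ⟨?_, ?_, ?_⟩
  · rintro ⟨q₁, q₂⟩
    obtain ⟨g₁, rfl⟩ := h₁.1 q₁
    obtain ⟨g₂, rfl⟩ := h₂.1 q₂
    exact ⟨⟨(g₁, g₂), 1⟩, rfl⟩
  · intro x hx
    rw [mem_ker_prodSigma] at hx
    apply Tw.mem_center_of
    · rw [Subgroup.mem_center_iff]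
      intro y
      apply Prod.ext
      · exact (Subgroup.mem_center_iff.mp (h₁.2.1 hx.1)) y.1
      · exact (Subgroup.mem_center_iff.mp (h₂.2.1 hx.2)) y.2
    · intro g; exact prodCoc_left σ₁ σ₂ _ _ hx.1
    · intro g; exact prodCoc_right σ₁ σ₂ _ _ hx.2
  · intro x hx
    rw [mem_ker_prodSigma] at hx
    have : x = inOne σ₁ σ₂ x.fst.1 * inTwo σ₁ σ₂ x.fst.2 * Tw.incl _ x.snd := by
      apply Tw.ext
      · change x.fst = (x.fst.1, 1) * (1, x.fst.2) * 1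
        simp
      · change x.snd = (1 * 1 * prodCoc σ₁ σ₂ (x.fst.1, 1) (1, x.fst.2)) * x.snd *
          prodCoc σ₁ σ₂ ((x.fst.1, 1) * (1, x.fst.2)) 1
        rw [prodCoc_left σ₁ σ₂ (x.fst.1, 1) _ hx.1, map_one]
        simp
    rw [this]
    refine Subgroup.mul_mem _ (Subgroup.mul_mem _ ?_ ?_) ?_
    · exact map_commutator_le (inOne σ₁ σ₂) ⟨_, h₁.2.2 hx.1, rfl⟩
    · exact map_commutator_le (inTwo σ₁ σ₂) ⟨_, h₂.2.2 hx.2, rfl⟩
    · exact incl_mem_commutator σ₁ σ₂ h₁.1 h₂.1 (Multiplicative.toAdd x.snd)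

/-- the kernel of the extension -/
def prodSigmaKerEquiv : (prodSigma σ₁ σ₂).ker ≃* σ₁.ker × σ₂.ker ×
    Multiplicative (Additive (Abelianization Q₁) ⊗[ℤ] Additive (Abelianization Q₂)) where
  toFun x := (⟨x.1.fst.1, ((mem_ker_prodSigma σ₁ σ₂ x.1).mp x.2).1⟩,
    ⟨x.1.fst.2, ((mem_ker_prodSigma σ₁ σ₂ x.1).mp x.2).2⟩, x.1.snd)
  invFun y := ⟨⟨(y.1.1, y.2.1.1), y.2.2⟩, (mem_ker_prodSigma σ₁ σ₂ _).mpr ⟨y.1.2, y.2.1.2⟩⟩
  left_inv x := rfl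
  right_inv y := rfl
  map_mul' x y := by
    have hx := (mem_ker_prodSigma σ₁ σ₂ x.1).mp x.2
    apply Prod.ext
    · rfl
    · apply Prod.ext
      · rfl
      · change x.1.snd * y.1.snd * prodCoc σ₁ σ₂ x.1.fst y.1.fst = x.1.snd * y.1.snd
        rw [prodCoc_left σ₁ σ₂ _ _ hx.1, mul_one]

end exist

end Cfsg.Agent.H2
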