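import Mathlib
import Cfsg.Agent.Lib_helper2_SchurProd2

set_option autoImplicit false
open scoped commutatorElement TensorProduct

namespace Cfsg.Agent.H2

universe u v w

/-- a bimultiplicative map into a commutative group factors through the tensor product of abelianizations -/
theorem exists_tensor_lift {Q₁ : Type*} {Q₂ : Type*} [Group Q₁] [Group Q₂] {K : Type*} [CommGroup K]
    (β : Q₁ →* Q₂ →* K) :
    ∃ f : Multiplicative (Additive (Abelianization Q₁) ⊗[ℤ] Additive (Abelianization Q₂)) →* K,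
      ∀ q₁ q₂, f (Multiplicative.ofAdd (Additive.ofMul (Abelianization.of q₁) ⊗ₜ[ℤ]
        Additive.ofMul (Abelianization.of q₂))) = β q₁ q₂ := by
  let β₁ : Abelianization Q₁ →* Q₂ →* K := Abelianization.lift β
  let β₂ : Abelianization Q₂ →* Abelianization Q₁ →* K := Abelianization.lift β₁.flip
  let β₃ : Abelianization Q₁ →* Abelianization Q₂ →* K := β₂.flip
  have hβ₃ : ∀ q₁ q₂, β₃ (Abelianization.of q₁) (Abelianization.of q₂) = β q₁ q₂ := fun q₁ q₂ => rfl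
  let F : Additive (Abelianization Q₁) →+ Additive (Abelianization Q₂) →+ Additive K :=
    AddMonoidHom.mk' (fun x => MonoidHom.toAdditive (β₃ (Additive.toMul x)))
      (by
        intro a b
        apply AddMonoidHom.ext
        intro y
        change Additive.ofMul (β₃ (Additive.toMul a * Additive.toMul b) (Additive.toMul y)) =
          Additive.ofMul (β₃ (Additive.toMul a) (Additive.toMul y)) + Additive.ofMul (β₃ (Additive.toMul b) (Additive.toMul y))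
        rw [map_mul]; rfl)
  have hF : ∀ (r : ℤ) (m : Additive (Abelianization Q₁)) (n : Additive (Abelianization Q₂)),
      F (r • m) n = F m (r • n) := by
    intro r m n
    rw [map_zsmul, map_zsmul]; rfl
  refine ⟨AddMonoidHom.toMultiplicativeLeft (TensorProduct.liftAddHom F hF), ?_⟩
  intro q₁ q₂
  exact hβ₃ q₁ q₂

section univ

variable {Q₁ : Type u} {Q₂ : Type v} [Group Q₁] [Group Q₂] {Δ : Type w} [Group Δ] (τ : Δ →* Q₁ × Q₂)

/-- preimage of the first factor -/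
def preOne : Subgroup Δ := ((MonoidHom.snd Q₁ Q₂).comp τ).ker
/-- preimage of the second factor -/
def preTwo : Subgroup Δ := ((MonoidHom.fst Q₁ Q₂).comp τ).ker

instance preOne_normal : (preOne τ).Normal := MonoidHom.normal_ker _
instance preTwo_normal : (preTwo τ).Normal := MonoidHom.normal_ker _

theorem mem_preOne (d : Δ) : d ∈ preOne τ ↔ (τ d).2 = 1 := Iff.rfl
theorem mem_preTwo (d : Δ) : d ∈ preTwo τ ↔ (τ d).1 = 1 := Iff.rfl

variable {τ}

theorem preOne_sup_preTwo (hs : Function.Surjective τ) : preOne τ ⊔ preTwo τ = ⊤ := by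
  rw [eq_top_iff]
  intro d _
  obtain ⟨e, he⟩ := hs ((τ d).1, 1)
  have : d = e * (e⁻¹ * d) := by group
  rw [this]
  refine Subgroup.mul_mem_sup ?_ ?_
  · rw [mem_preOne, he]
  · rw [mem_preTwo, map_mul, map_inv, he]; simp

theorem commutator_mem_ker {d₁ d₂ : Δ} (h1 : d₁ ∈ preOne τ) (h2 : d₂ ∈ preTwo τ) : ⁅d₁, d₂⁆ ∈ τ.ker := by
  rw [mem_preOne] at h1
  rw [mem_preTwo] at h2
  rw [MonoidHom.mem_ker, map_commutatorElement, commutatorElement_eq_one_iff_mul_comm]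
  apply Prod.ext
  · simp [h2]
  · simp [h1]

theorem commutator_congr (hc : τ.ker ≤ Subgroup.center Δ) {d₁ d₂ e₁ e₂ : Δ} (h1 : τ d₁ = τ e₁)
    (h2 : τ d₂ = τ e₂) : ⁅d₁, d₂⁆ = ⁅e₁, e₂⁆ := by
  have z1 : e₁⁻¹ * d₁ ∈ Subgroup.center Δ :=
    hc (by rw [MonoidHom.mem_ker, map_mul, map_inv, h1]; simp)
  have z2 : e₂⁻¹ * d₂ ∈ Subgroup.center Δ :=
    hc (by rw [MonoidHom.mem_ker, map_mul, map_inv, h2]; simp)
  have := commutatorElement_mul_central e₁ e₂ _ _ z1 z2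
  rw [mul_inv_cancel_left, mul_inv_cancel_left] at this
  exact this

theorem prod_universal [Finite Q₁] [Finite Q₂] {A : Type*} {B : Type*} [CommGroup A] [CommGroup B]
    (hA : Cfsg.HasSchurMultiplier Q₁ A) (hB : Cfsg.HasSchurMultiplier Q₂ B)
    (hτ : Cfsg.IsStemExtension τ) :
    ∃ π : A × B × Multiplicative (Additive (Abelianization Q₁) ⊗[ℤ] Additive (Abelianization Q₂)) →* τ.ker,
      Function.Surjective π := by
  obtain ⟨hs, hc, hk⟩ := hτ
  let _ := commGroupOfLeCenter τ.ker hc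
  choose s₁ hs₁ using fun q : Q₁ => hs (q, 1)
  choose s₂ hs₂ using fun q : Q₂ => hs (1, q)
  have m₁ : ∀ q, s₁ q ∈ preOne τ := fun q => by rw [mem_preOne, hs₁]
  have m₂ : ∀ q, s₂ q ∈ preTwo τ := fun q => by rw [mem_preTwo, hs₂]
  have cen : ∀ q₁ q₂, ⁅s₁ q₁, s₂ q₂⁆ ∈ Subgroup.center Δ := fun q₁ q₂ => hc (commutator_mem_ker (m₁ _) (m₂ _))
  let β : Q₁ →* Q₂ →* τ.ker :=
    { toFun := fun q₁ =>
        { toFun := fun q₂ => ⟨⁅s₁ q₁, s₂ q₂⁆, commutator_mem_ker (m₁ _) (m₂ _)⟩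
          map_one' := by
            apply Subtype.ext
            change ⁅s₁ q₁, s₂ 1⁆ = 1
            rw [commutator_congr hc (rfl : τ (s₁ q₁) = τ (s₁ q₁)) (show τ (s₂ 1) = τ 1 by rw [hs₂, map_one]; rfl)]
            simp
          map_mul' := fun a b => by
            apply Subtype.ext
            change ⁅s₁ q₁, s₂ (a * b)⁆ = ⁅s₁ q₁, s₂ a⁆ * ⁅s₁ q₁, s₂ b⁆
            rw [commutator_congr hc (rfl : τ (s₁ q₁) = τ (s₁ q₁))
              (show τ (s₂ (a * b)) = τ (s₂ a * s₂ b) by rw [map_mul, hs₂, hs₂, hs₂]; simp)]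
            exact commutatorElement_mul_right_of_central _ _ _ (cen _ _) }
      map_one' := by
        apply MonoidHom.ext
        intro q₂
        apply Subtype.ext
        change ⁅s₁ 1, s₂ q₂⁆ = 1
        rw [commutator_congr hc (show τ (s₁ 1) = τ 1 by rw [hs₁, map_one]; rfl) (rfl : τ (s₂ q₂) = τ (s₂ q₂))]
        simp
      map_mul' := fun a b => by
        apply MonoidHom.ext
        intro q₂
        apply Subtype.ext
        change ⁅s₁ (a * b), s₂ q₂⁆ = ⁅s₁ a, s₂ q₂⁆ * ⁅s₁ b, s₂ q₂⁆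
        rw [commutator_congr hc (show τ (s₁ (a * b)) = τ (s₁ a * s₁ b) by rw [map_mul, hs₁, hs₁, hs₁]; simp)
          (rfl : τ (s₂ q₂) = τ (s₂ q₂))]
        exact commutatorElement_mul_left_of_central _ _ _ (cen _ _) }
  obtain ⟨f₃, hf₃⟩ := exists_tensor_lift β
  -- the two factors
  let τ₁ : preOne τ →* Q₁ := ((MonoidHom.fst Q₁ Q₂).comp τ).comp (preOne τ).subtype
  let τ₂ : preTwo τ →* Q₂ := ((MonoidHom.snd Q₁ Q₂).comp τ).comp (preTwo τ).subtype
  have hτ₁s : Function.Surjective τ₁ := fun q => ⟨⟨s₁ q, m₁ q⟩, by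
    change (τ (s₁ q)).1 = q
    rw [hs₁]⟩
  have hτ₂s : Function.Surjective τ₂ := fun q => ⟨⟨s₂ q, m₂ q⟩, by
    change (τ (s₂ q)).2 = q
    rw [hs₂]⟩
  have hker₁ : ∀ x : preOne τ, x ∈ τ₁.ker → x.1 ∈ τ.ker := by
    intro x hx
    rw [MonoidHom.mem_ker]
    exact Prod.ext hx x.2
  have hker₂ : ∀ x : preTwo τ, x ∈ τ₂.ker → x.1 ∈ τ.ker := by
    intro x hx
    rw [MonoidHom.mem_ker]
    exact Prod.ext x.2 hx
  have hτ₁c : τ₁.ker ≤ Subgroup.center (preOne τ) := by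
    intro x hx
    rw [Subgroup.mem_center_iff]
    intro y
    apply Subtype.ext
    exact (Subgroup.mem_center_iff.mp (hc (hker₁ x hx))) y.1
  have hτ₂c : τ₂.ker ≤ Subgroup.center (preTwo τ) := by
    intro x hx
    rw [Subgroup.mem_center_iff]
    intro y
    apply Subtype.ext
    exact (Subgroup.mem_center_iff.mp (hc (hker₂ x hx))) y.1
  obtain ⟨f₁, hf₁⟩ := hasSchurMultiplier_exists_hom hA τ₁ hτ₁s hτ₁c
  obtain ⟨f₂, hf₂⟩ := hasSchurMultiplier_exists_hom hB τ₂ hτ₂s hτ₂c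
  have hf₁k : ∀ a, (f₁ a).1 ∈ τ.ker := fun a => hker₁ _ (by
    have : f₁ a ∈ mSub τ₁ := by rw [← hf₁]; exact ⟨a, rfl⟩
    exact this.1)
  have hf₂k : ∀ b, (f₂ b).1 ∈ τ.ker := fun b => hker₂ _ (by
    have : f₂ b ∈ mSub τ₂ := by rw [← hf₂]; exact ⟨b, rfl⟩
    exact this.1)
  let g₁ : A →* τ.ker :=
    { toFun := fun a => ⟨(f₁ a).1, hf₁k a⟩
      map_one' := by apply Subtype.ext; simp
      map_mul' := fun a b => by apply Subtype.ext; simp }
  let g₂ : B →* τ.ker :=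
    { toFun := fun a => ⟨(f₂ a).1, hf₂k a⟩
      map_one' := by apply Subtype.ext; simp
      map_mul' := fun a b => by apply Subtype.ext; simp }
  refine ⟨g₁.coprod (g₂.coprod f₃), ?_⟩
  rintro ⟨k, hkk⟩
  have h12 : ⁅preOne τ, preTwo τ⁆ ≤ (f₃.range).map τ.ker.subtype := by
    rw [Subgroup.commutator_le]
    intro d₁ hd₁ d₂ hd₂
    refine ⟨_, ⟨Multiplicative.ofAdd (Additive.ofMul (Abelianization.of (τ d₁).1) ⊗ₜ[ℤ]
        Additive.ofMul (Abelianization.of (τ d₂).2)), rfl⟩, ?_⟩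
    rw [hf₃]
    change ⁅s₁ (τ d₁).1, s₂ (τ d₂).2⁆ = ⁅d₁, d₂⁆
    apply commutator_congr hc
    · rw [hs₁]; exact Prod.ext rfl hd₁.symm
    · rw [hs₂]; exact Prod.ext hd₂.symm rfl
  have hmem := commutator_le_of_sup_eq_top (preOne τ) (preTwo τ) (preOne_sup_preTwo hs) (hk hkk)
  rw [Subgroup.mem_sup_of_normal_right] at hmem
  obtain ⟨u, hu, z, hz, huz⟩ := hmem
  rw [Subgroup.mem_sup_of_normal_right] at hu
  obtain ⟨u₁, hu₁, u₂, hu₂, hu12⟩ := hu
  obtain ⟨_, ⟨w, rfl⟩, hw⟩ := h12 hz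
  have hzk : τ z = 1 := by
    rw [← hw]; exact (f₃ w).2
  rw [← Subgroup.map_subtype_commutator] at hu₁ hu₂
  obtain ⟨v₁, hv₁, rfl⟩ := hu₁
  obtain ⟨v₂, hv₂, rfl⟩ := hu₂
  have hprod : τ v₁.1 * τ v₂.1 = 1 := by
    have : τ k = 1 := hkk
    rw [← huz, ← hu12, map_mul, map_mul, hzk, mul_one] at this
    exact this
  have hv₁k : v₁ ∈ τ₁.ker := by
    have := congrArg Prod.fst hprod
    rw [Prod.fst_mul, (mem_preTwo τ v₂.1).mp v₂.2, mul_one] at this
    exact this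
  have hv₂k : v₂ ∈ τ₂.ker := by
    have := congrArg Prod.snd hprod
    rw [Prod.snd_mul, (mem_preOne τ v₁.1).mp v₁.2, one_mul] at this
    exact this
  have hv₁r : v₁ ∈ f₁.range := by rw [hf₁]; exact ⟨hv₁k, hv₁⟩
  have hv₂r : v₂ ∈ f₂.range := by rw [hf₂]; exact ⟨hv₂k, hv₂⟩
  obtain ⟨a, rfl⟩ := hv₁r
  obtain ⟨b, rfl⟩ := hv₂r
  refine ⟨(a, b, w), ?_⟩
  apply Subtype.ext
  change (f₁ a).1 * ((f₂ b).1 * (f₃ w).1) = k
  rw [← huz, ← hu12, ← hw, mul_assoc]
  rfl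

end univ

end Cfsg.Agent.H2
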