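import Mathlib
import Cfsg.Agent.Lib_helper2_SchurTheory2

set_option autoImplicit false
set_option linter.unusedSectionVars false
open scoped commutatorElement

namespace Cfsg.Agent.H2

universe u v w

/-- Extending a homomorphism from a central subgroup meeting the kernel of `f` trivially to a divisible group. -/
theorem exists_extend_divisible {E : Type*} [Group E] {V : Type*} [AddCommGroup V]
    (f : E →* Multiplicative V) (S : Subgroup E) (hS : S ≤ Subgroup.center E) (hSf : S ⊓ f.ker = ⊥)
    {Z : Type*} [CommGroup Z] (hZ : ∀ n : ℕ, n ≠ 0 → Function.Surjective (fun z : Z => z ^ n))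
    (g : S →* Z) : ∃ χ : E →* Z, ∀ s : S, χ s.1 = g s := by
  let _ := commGroupOfLeCenter S hS
  have hdiv : ∀ {n : ℤ}, n ≠ 0 → Function.Surjective (fun a : Additive Z => n • a) := by
    intro n hn a
    obtain ⟨z, hz⟩ := hZ n.natAbs (Int.natAbs_ne_zero.mpr hn) (Additive.toMul a)
    have hz' : n.natAbs • Additive.ofMul z = a := hz
    rcases Int.natAbs_eq n with h | h
    · refine ⟨Additive.ofMul z, ?_⟩
      change n • Additive.ofMul z = a
      rw [h, natCast_zsmul]; exact hz'
    · refine ⟨-Additive.ofMul z, ?_⟩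
      change n • -Additive.ofMul z = a
      rw [h, neg_smul, smul_neg, neg_neg, natCast_zsmul]; exact hz'
  let _ : DivisibleBy (Additive Z) ℤ := divisibleByOfSMulRightSurj (Additive Z) ℤ hdiv
  have hB : Module.Baer ℤ (Additive Z) := Module.Baer.of_divisible (Additive Z)
  let j : Additive S →+ V := MonoidHom.toAdditiveLeft (f.comp S.subtype)
  have hj : Function.Injective j := by
    rw [injective_iff_map_eq_zero]
    intro s hs
    have h1 : f (Additive.toMul s).1 = 1 := hs
    have h2 : (Additive.toMul s).1 ∈ S ⊓ f.ker := ⟨(Additive.toMul s).2, h1⟩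
    rw [hSf, Subgroup.mem_bot] at h2
    have h3 : Additive.toMul s = 1 := Subtype.ext h2
    exact h3
  obtain ⟨h, hh⟩ := hB.extension_property_addMonoidHom j hj (MonoidHom.toAdditive g)
  refine ⟨{ toFun := fun x => Additive.toMul (h (Multiplicative.toAdd (f x)))
            map_one' := by rw [map_one]; change Additive.toMul (h 0) = 1; rw [map_zero]; rfl
            map_mul' := fun a c => by
              rw [map_mul]
              change Additive.toMul (h (Multiplicative.toAdd (f a) + Multiplicative.toAdd (f c))) = _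
              rw [map_add]; rfl }, ?_⟩
  intro s
  have := congrArg (fun t : Additive S →+ Additive Z => t (Additive.ofMul s)) hh
  exact this

/-- twisting a homomorphism by a central character -/
def twistHom {E : Type*} {H : Type*} [Group E] [Group H] (ρ : E →* H) (χ : E →* Subgroup.center H) : E →* H where
  toFun x := ρ x * ((χ x)⁻¹ : Subgroup.center H).1
  map_one' := by simp
  map_mul' a c := by
    have h1 : ∀ y, y * ((χ a)⁻¹ : Subgroup.center H).1 = ((χ a)⁻¹ : Subgroup.center H).1 * y :=
      fun y => (Subgroup.mem_center_iff.mp ((χ a)⁻¹ : Subgroup.center H).2) y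
    rw [map_mul, map_mul, mul_inv_rev, Subgroup.coe_mul]
    calc ρ a * ρ c * (((χ c)⁻¹ : Subgroup.center H).1 * ((χ a)⁻¹ : Subgroup.center H).1)
        = ρ a * ((ρ c * ((χ c)⁻¹ : Subgroup.center H).1) * ((χ a)⁻¹ : Subgroup.center H).1) := by group
      _ = ρ a * (((χ a)⁻¹ : Subgroup.center H).1 * (ρ c * ((χ c)⁻¹ : Subgroup.center H).1)) := by rw [h1]
      _ = _ := by group

/-- the centre of `GL n ℂ` is divisible -/
theorem center_GL_divisible (n : ℕ) (k : ℕ) (hk : k ≠ 0) :
    Function.Surjective (fun z : Subgroup.center (GL (Fin n) ℂ) => z ^ k) := by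
  rintro ⟨z, hz⟩
  have hz' := hz
  rw [Matrix.GeneralLinearGroup.center_eq_range_scalar] at hz'
  obtain ⟨a, rfl⟩ := hz'
  obtain ⟨b, hb⟩ := IsAlgClosed.exists_pow_nat_eq (a : ℂ) (Nat.pos_of_ne_zero hk)
  have hb0 : b ≠ 0 := by
    rintro rfl
    rw [zero_pow hk] at hb
    exact a.ne_zero hb.symm
  refine ⟨⟨Matrix.GeneralLinearGroup.scalar (Fin n) (Units.mk0 b hb0), ?_⟩, ?_⟩
  · rw [Matrix.GeneralLinearGroup.center_eq_range_scalar]; exact ⟨_, rfl⟩
  · apply Subtype.ext
    change (Matrix.GeneralLinearGroup.scalar (Fin n) (Units.mk0 b hb0)) ^ k = _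
    rw [← map_pow]
    congr 1
    apply Units.ext
    simpa using hb

end Cfsg.Agent.H2
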