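import Mathlib
import Cfsg.Agent.Lib_helper2_SchurProj

set_option autoImplicit false
set_option linter.unusedSectionVars false
open scoped commutatorElement

namespace Cfsg.Agent.H2

universe u v w

/-- two lifts of the same projective homomorphism agree on the commutator subgroup -/
theorem hom_eqOn_commutator {G : Type*} {X : Type*} {Q : Type*} [Group G] [Group X] [Group Q]
    (ξ : X →* Q) (hξ : ξ.ker ≤ Subgroup.center X) (η₁ η₂ : G →* X)
    (h : ξ.comp η₁ = ξ.comp η₂) : ∀ g ∈ commutator G, η₁ g = η₂ g := by
  have h' : ∀ g, ξ (η₁ g) = ξ (η₂ g) := fun g => congrArg (fun f : G →* Q => f g) h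
  have hle : commutator G ≤ η₁.eqLocus η₂ := by
    rw [commutator_def, Subgroup.commutator_le]
    intro a _ c _
    change η₁ ⁅a, c⁆ = η₂ ⁅a, c⁆
    rw [map_commutatorElement, map_commutatorElement]
    have z1 : (η₂ a)⁻¹ * η₁ a ∈ Subgroup.center X :=
      hξ (by rw [MonoidHom.mem_ker, map_mul, map_inv, h']; simp)
    have z2 : (η₂ c)⁻¹ * η₁ c ∈ Subgroup.center X :=
      hξ (by rw [MonoidHom.mem_ker, map_mul, map_inv, h']; simp)
    have := commutatorElement_mul_central (η₂ a) (η₂ c) _ _ z1 z2
    rw [mul_inv_cancel_left, mul_inv_cancel_left] at this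
    exact this
  intro g hg
  exact hle hg

section induced

variable {G : Type u} [Group G] (M : Subgroup G) (l : M →* ℂˣ)

/-- the space of the representation induced from a linear character of `M` -/
def indSpace : Submodule ℂ (G → ℂ) where
  carrier := {f | ∀ (m : M) (g : G), f (m.1 * g) = (l m : ℂ) * f g}
  add_mem' := by
    intro a b ha hb m g
    simp only [Pi.add_apply, ha m g, hb m g, mul_add]
  zero_mem' := by
    intro m g
    simp
  smul_mem' := by
    intro c a ha m g
    simp only [Pi.smul_apply, smul_eq_mul, ha m g]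
    ring

/-- right translation on the induced space -/
def indAct (x : G) : indSpace M l →ₗ[ℂ] indSpace M l where
  toFun f := ⟨fun g => f.1 (g * x), fun m g => by
    have := f.2 m (g * x)
    rw [← mul_assoc] at this
    exact this⟩
  map_add' a b := by
    apply Subtype.ext
    funext g
    rfl
  map_smul' c a := by
    apply Subtype.ext
    funext g
    rfl

/-- the induced representation -/
def indRep : G →* (indSpace M l →ₗ[ℂ] indSpace M l) where
  toFun := indAct M l
  map_one' := by
    apply LinearMap.ext
    intro f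
    apply Subtype.ext
    funext g
    change f.1 (g * 1) = f.1 g
    rw [mul_one]
  map_mul' x y := by
    apply LinearMap.ext
    intro f
    apply Subtype.ext
    funext g
    change f.1 (g * (x * y)) = f.1 (g * x * y)
    rw [mul_assoc]

theorem indRep_central (hM : M ≤ Subgroup.center G) (m : M) (f : indSpace M l) :
    indRep M l m.1 f = (l m : ℂ) • f := by
  apply Subtype.ext
  funext g
  change f.1 (g * m.1) = (l m : ℂ) * f.1 g
  rw [(Subgroup.mem_center_iff.mp (hM m.2)) g]
  exact f.2 m g

open Classical in
/-- a nonzero vector of the induced space -/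
noncomputable def indVec : indSpace M l :=
  ⟨fun g => if h : g ∈ M then (l ⟨g, h⟩ : ℂ) else 0, by
    intro m g
    by_cases h : g ∈ M
    · have h' : m.1 * g ∈ M := M.mul_mem m.2 h
      simp only [dif_pos h, dif_pos h']
      have : (⟨m.1 * g, h'⟩ : M) = m * ⟨g, h⟩ := rfl
      rw [this, map_mul]
      simp
    · have h' : m.1 * g ∉ M := by
        intro hc
        apply h
        have := M.mul_mem (M.inv_mem m.2) hc
        simpa using this
      simp only [dif_neg h, dif_neg h', mul_zero]⟩

open Classical in
theorem indVec_one : (indVec M l).1 1 = 1 := by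
  change (if h : (1 : G) ∈ M then (l ⟨1, h⟩ : ℂ) else 0) = 1
  rw [dif_pos M.one_mem]
  have : (⟨1, M.one_mem⟩ : M) = 1 := rfl
  rw [this, map_one]
  simp

/-- A representation on which a central subgroup acts through a given linear character. -/
theorem exists_rep_of_central_char [Finite G] (hM : M ≤ Subgroup.center G) :
    ∃ (N : ℕ) (ind : G →* GL (Fin N) ℂ), (∀ m ∈ M, ind m ∈ Subgroup.center (GL (Fin N) ℂ)) ∧
      ∀ m : M, l m ≠ 1 → ind m.1 ≠ 1 := by
  let b := Module.finBasis ℂ (indSpace M l)
  let Φ := (Matrix.GeneralLinearGroup.toLin' b).symm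
  let r : G →* (indSpace M l →ₗ[ℂ] indSpace M l)ˣ := (indRep M l).toHomUnits
  refine ⟨_, Φ.toMonoidHom.comp r, ?_, ?_⟩
  · intro m hm
    rw [Subgroup.mem_center_iff]
    intro y
    obtain ⟨y, rfl⟩ := Φ.surjective y
    change Φ y * Φ (r m) = Φ (r m) * Φ y
    rw [← map_mul, ← map_mul]
    congr 1
    apply Units.ext
    apply LinearMap.ext
    intro f
    change (y : indSpace M l →ₗ[ℂ] indSpace M l) (indRep M l m f) = indRep M l m ((y : indSpace M l →ₗ[ℂ] indSpace M l) f)
    rw [indRep_central M l hM ⟨m, hm⟩, indRep_central M l hM ⟨m, hm⟩, map_smul]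
  · intro m hm hc
    have h1 : r m.1 = 1 := by
      apply Φ.injective
      rw [map_one]; exact hc
    have h2 : indRep M l m.1 (indVec M l) = indVec M l := by
      have := congrArg (fun u : (indSpace M l →ₗ[ℂ] indSpace M l)ˣ =>
        (u : indSpace M l →ₗ[ℂ] indSpace M l) (indVec M l)) h1
      exact this
    rw [indRep_central M l hM] at h2
    have h3 := congrArg (fun f : indSpace M l => f.1 1) h2
    change (l m : ℂ) * (indVec M l).1 1 = (indVec M l).1 1 at h3
    rw [indVec_one, mul_one] at h3
    exact hm (Units.ext h3)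

end induced

end Cfsg.Agent.H2
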