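import Mathlib
import Cfsg.Prelude.Def_SolvableStructure
import Cfsg.Agent.Lib_helper2_KP2
import Cfsg.Agent.Lib_helper2_Cores

set_option autoImplicit false

namespace Cfsg.Agent.H2

theorem isSupersolvable_quotient {G : Type*} [Group G] (h : Cfsg.IsSupersolvable G) (N : Subgroup G)
    [N.Normal] : Cfsg.IsSupersolvable (G ⧸ N) := by
  obtain ⟨n, H, h0, hn, hnorm, hstep⟩ := h
  refine ⟨n, fun i => (H i).map (QuotientGroup.mk' N), ?_, ?_, ?_, ?_⟩
  · simp only [h0, Subgroup.map_bot]
  · simp only [hn]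
    exact Subgroup.map_top_of_surjective _ (QuotientGroup.mk'_surjective N)
  · intro i
    exact (hnorm i).map _ (QuotientGroup.mk'_surjective N)
  · intro i
    obtain ⟨g, hg⟩ := hstep i
    refine ⟨QuotientGroup.mk' N g, ?_⟩
    simp only [hg, Subgroup.map_sup, MonoidHom.map_zpowers]

theorem exists_normal_zpowers {G : Type*} [Group G] [Nontrivial G] (h : Cfsg.IsSupersolvable G) :
    ∃ g : G, g ≠ 1 ∧ (Subgroup.zpowers g).Normal := by
  by_contra hcon
  push Not at hcon
  obtain ⟨n, H, h0, hn, hnorm, hstep⟩ := h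
  have hall : ∀ i : Fin (n + 1), H i = ⊥ := by
    intro i
    induction i using Fin.induction with
    | zero => exact h0
    | succ i ih =>
      obtain ⟨g, hg⟩ := hstep i
      rw [ih, bot_sup_eq] at hg
      by_cases hg1 : g = 1
      · rw [hg, hg1, Subgroup.zpowers_one_eq_bot]
      · exact absurd (hg ▸ hnorm i.succ) (hcon g hg1)
  have := hall (Fin.last n)
  rw [hn] at this
  exact top_ne_bot this

theorem exists_normal_prime {G : Type*} [Group G] [Finite G] [Nontrivial G]
    (h : Cfsg.IsSupersolvable G) :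
    ∃ z : G, (orderOf z).Prime ∧ (Subgroup.zpowers z).Normal := by
  obtain ⟨g, hg1, hgn⟩ := exists_normal_zpowers h
  have hm : orderOf g ≠ 1 := fun h => hg1 (orderOf_eq_one_iff.mp h)
  have hq := Nat.minFac_prime hm
  refine ⟨g ^ (orderOf g / (orderOf g).minFac), ?_, ?_⟩
  · rw [orderOf_pow_orderOf_div (orderOf_pos g).ne' (Nat.minFac_dvd _)]
    exact hq
  · set e := orderOf g / (orderOf g).minFac
    constructor
    intro n hn y
    obtain ⟨j, rfl⟩ := Subgroup.mem_zpowers_iff.mp hn
    have h1 : y * g * y⁻¹ ∈ Subgroup.zpowers g := hgn.conj_mem g (Subgroup.mem_zpowers g) y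
    obtain ⟨k, hk⟩ := Subgroup.mem_zpowers_iff.mp h1
    have h2 : y * (g ^ e) ^ j * y⁻¹ = ((g ^ e) ^ k) ^ j := by
      have h3 : y * (g ^ e) ^ j * y⁻¹ = ((y * g * y⁻¹) ^ e) ^ j := by
        rw [conj_pow, conj_zpow]
      rw [h3, ← hk]
      congr 1
      rw [← zpow_natCast, ← zpow_natCast, ← zpow_mul, ← zpow_mul, mul_comm]
    rw [h2]
    exact Subgroup.zpow_mem _ (Subgroup.zpow_mem _ (Subgroup.mem_zpowers _) _) _

/-- an element all of whose prime divisors are at least `q` centralizes a normal subgroup of prime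
order `q`. -/
theorem conj_eq_of_normal_prime {G : Type*} [Group G] [Finite G] (z x : G) (hq : (orderOf z).Prime)
    (hn : (Subgroup.zpowers z).Normal) (hx : ∀ r : ℕ, r.Prime → r ∣ orderOf x → orderOf z ≤ r) :
    x * z * x⁻¹ = z := by
  set q := orderOf z with hqdef
  have h1 : orderOf (MulAut.conjNormal x : MulAut ↥(Subgroup.zpowers z)) ∣ orderOf x :=
    orderOf_map_dvd _ x
  have h2 : orderOf (MulAut.conjNormal x : MulAut ↥(Subgroup.zpowers z)) ∣ q - 1 := by
    have h3 := orderOf_dvd_natCard (MulAut.conjNormal x : MulAut ↥(Subgroup.zpowers z))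
    rw [IsCyclic.card_mulAut, Nat.card_zpowers, ← hqdef, Nat.totient_prime hq] at h3
    exact h3
  have h3 : orderOf (MulAut.conjNormal x : MulAut ↥(Subgroup.zpowers z)) = 1 := by
    by_contra hne
    obtain ⟨r, hr, hrd⟩ := Nat.exists_prime_and_dvd hne
    have h4 := hx r hr (hrd.trans h1)
    have h5 := Nat.le_of_dvd (by have := hq.two_le; omega) (hrd.trans h2)
    have h6 := hq.two_le
    omega
  rw [orderOf_eq_one_iff] at h3
  have h4 := congrArg (fun a : MulAut ↥(Subgroup.zpowers z) =>
    ((a ⟨z, Subgroup.mem_zpowers z⟩ : ↥(Subgroup.zpowers z)) : G)) h3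
  simpa [MulAut.conjNormal_apply] using h4

/-- the number of elements all of whose prime divisors are at least `c`. -/
noncomputable def eCount (c : ℕ) (G : Type*) [Group G] : ℕ :=
  Nat.card {x : G // IsPiElt {q : ℕ | c ≤ q} x}

theorem isPiElt_map {G G' : Type*} [Group G] [Group G'] (σ : Set ℕ) (f : G →* G') (x : G)
    (hx : IsPiElt σ x) : IsPiElt σ (f x) :=
  fun r hr hrd => hx r hr (hrd.trans (orderOf_map_dvd f x))

theorem eCount_le_card_mul {G : Type*} [Group G] [Finite G] (c : ℕ) (N : Subgroup G) [N.Normal] :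
    eCount c G ≤ Nat.card ↥N * eCount c (G ⧸ N) := by
  unfold eCount
  rw [← Nat.card_prod]
  apply Nat.card_le_card_of_injective (fun x : {x : G // IsPiElt {q : ℕ | c ≤ q} x} =>
    ((⟨(Quotient.out (QuotientGroup.mk' N x.1))⁻¹ * x.1, by
        apply QuotientGroup.eq.mp
        rw [QuotientGroup.out_eq']
        rfl⟩ : ↥N),
     (⟨QuotientGroup.mk' N x.1, isPiElt_map _ _ _ x.2⟩ : {y : G ⧸ N // IsPiElt {q : ℕ | c ≤ q} y})))
  intro x y hxy
  have h1 := congrArg (fun t => ((t.1 : ↥N) : G)) hxy
  have h2 := congrArg (fun t => (t.2 : {y : G ⧸ N // IsPiElt {q : ℕ | c ≤ q} y}).1) hxy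
  simp only at h1 h2
  rw [h2] at h1
  apply Subtype.ext
  exact mul_left_cancel h1

theorem eCount_le_of_lt {G : Type*} [Group G] [Finite G] (c : ℕ) (z : G) (hq : (orderOf z).Prime)
    (hn : (Subgroup.zpowers z).Normal) (hc : orderOf z < c) :
    eCount c G ≤ eCount c (G ⧸ Subgroup.zpowers z) := by
  unfold eCount
  apply Nat.card_le_card_of_injective (fun x : {x : G // IsPiElt {q : ℕ | c ≤ q} x} =>
     (⟨QuotientGroup.mk' (Subgroup.zpowers z) x.1, isPiElt_map _ _ _ x.2⟩ :
      {y : G ⧸ Subgroup.zpowers z // IsPiElt {q : ℕ | c ≤ q} y}))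
  rintro ⟨x, hx⟩ ⟨y, hy⟩ hxy
  have h1 : QuotientGroup.mk' (Subgroup.zpowers z) x = QuotientGroup.mk' (Subgroup.zpowers z) y :=
    congrArg Subtype.val hxy
  have h2 : x⁻¹ * y ∈ Subgroup.zpowers z := QuotientGroup.eq.mp h1
  have hxz : x * z * x⁻¹ = z := conj_eq_of_normal_prime z x hq hn
    (fun r hr hrd => le_trans hc.le (hx r hr hrd))
  have hcz : Commute x z := by
    rw [mul_inv_eq_iff_eq_mul] at hxz
    exact hxz
  obtain ⟨j, hj⟩ := Subgroup.mem_zpowers_iff.mp h2
  have hcn : Commute x (x⁻¹ * y) := by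
    rw [← hj]
    exact hcz.zpow_right j
  have hcy : Commute x⁻¹ y := by
    have h3 : y = x * (x⁻¹ * y) := by group
    rw [h3]
    exact ((Commute.refl x).mul_right hcn).inv_left
  have hord : orderOf (x⁻¹ * y) ∣ orderOf z := orderOf_dvd_of_mem_zpowers h2
  rcases (Nat.dvd_prime hq).mp hord with h3 | h3
  · rw [orderOf_eq_one_iff, inv_mul_eq_one] at h3
    exact Subtype.ext h3
  · exfalso
    have h4 := hcy.orderOf_mul_dvd_lcm
    rw [h3, orderOf_inv] at h4
    have h5 : orderOf z ∣ orderOf x * orderOf y := h4.trans (Nat.lcm_dvd_mul _ _)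
    rcases (Nat.Prime.dvd_mul hq).mp h5 with h6 | h6
    · have := hx _ hq h6
      simp only [Set.mem_ofPred_eq] at this
      omega
    · have := hy _ hq h6
      simp only [Set.mem_ofPred_eq] at this
      omega

/-- In a supersolvable group the number of elements all of whose prime divisors are `≥ c` is at most
the corresponding part of the group order. -/
theorem super_count.{u} (c : ℕ) : ∀ (n : ℕ) (G : Type u) [Group G] [Finite G], Nat.card G = n →
    Cfsg.IsSupersolvable G →
    ∃ d : ℕ, d ∣ Nat.card G ∧ (∀ q : ℕ, q.Prime → q ∣ d → c ≤ q) ∧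
      (∀ q : ℕ, q.Prime → q ∣ Nat.card G / d → q < c) ∧ eCount c G ≤ d := by
  intro n
  induction n using Nat.strong_induction_on with
  | _ n ih =>
    intro G _ _ hn hG
    rcases subsingleton_or_nontrivial G with hs | hnt
    · refine ⟨1, one_dvd _, ?_, ?_, ?_⟩
      · intro q hq hqd
        exact absurd (Nat.dvd_one.mp hqd) hq.one_lt.ne'
      · intro q hq hqd
        rw [Nat.card_eq_one_iff_unique.mpr ⟨hs, ⟨1⟩⟩] at hqd
        exact absurd (Nat.dvd_one.mp hqd) hq.one_lt.ne'
      · unfold eCount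
        rw [Finite.card_le_one_iff_subsingleton]
        infer_instance
    · obtain ⟨z, hq, hzn⟩ := exists_normal_prime hG
      set q := orderOf z with hqdef
      have hcard : Nat.card G = q * Nat.card (G ⧸ Subgroup.zpowers z) := by
        rw [hqdef, ← Nat.card_zpowers, mul_comm]
        exact Subgroup.card_eq_card_quotient_mul_card_subgroup _
      have hpos : 0 < Nat.card (G ⧸ Subgroup.zpowers z) := Nat.card_pos
      have hlt : Nat.card (G ⧸ Subgroup.zpowers z) < n := by
        rw [← hn, hcard]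
        have := hq.two_le
        nlinarith
      obtain ⟨d, hd1, hd2, hd3, hd4⟩ := ih _ hlt (G ⧸ Subgroup.zpowers z) rfl
        (isSupersolvable_quotient hG _)
      have hdpos : 0 < d := Nat.pos_of_dvd_of_pos hd1 hpos
      by_cases hc : c ≤ q
      · refine ⟨q * d, ?_, ?_, ?_, ?_⟩
        · rw [hcard]
          exact Nat.mul_dvd_mul_left q hd1
        · intro r hr hrd
          rcases (Nat.Prime.dvd_mul hr).mp hrd with h | h
          · rw [(Nat.prime_dvd_prime_iff_eq hr hq).mp h]
            exact hc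
          · exact hd2 r hr h
        · intro r hr hrd
          rw [hcard, Nat.mul_div_mul_left _ _ hq.pos] at hrd
          exact hd3 r hr hrd
        · calc eCount c G ≤ Nat.card ↥(Subgroup.zpowers z) * eCount c (G ⧸ Subgroup.zpowers z) :=
                eCount_le_card_mul c _
            _ = q * eCount c (G ⧸ Subgroup.zpowers z) := by rw [Nat.card_zpowers]
            _ ≤ q * d := Nat.mul_le_mul_left _ hd4
      · push Not at hc
        refine ⟨d, ?_, hd2, ?_, ?_⟩
        · rw [hcard]
          exact Dvd.dvd.mul_left hd1 q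
        · intro r hr hrd
          rw [hcard, Nat.mul_div_assoc _ hd1] at hrd
          rcases (Nat.Prime.dvd_mul hr).mp hrd with h | h
          · rw [(Nat.prime_dvd_prime_iff_eq hr hq).mp h]
            exact hc
          · exact hd3 r hr h
        · exact (eCount_le_of_lt c z hq hzn hc).trans hd4

end Cfsg.Agent.H2
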