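import Mathlib

set_option autoImplicit false

namespace Cfsg.Agent.H3

/-- Generating `r`-tuples in an `r`-dimensional `ZMod p`-space. -/
theorem card_generating_tuples_add {V : Type*} [AddCommGroup V] {p r : ℕ} [hp : Fact p.Prime]
    [Module (ZMod p) V] [Finite V] (hcard : Nat.card V = p ^ r) :
    Nat.card {f : Fin r → V // AddSubgroup.closure (Set.range f) = ⊤} =
      ∏ i ∈ Finset.range r, (p ^ r - p ^ i) := by
  classical
  have hrank : Module.finrank (ZMod p) V = r := by
    have h1 := Module.natCard_eq_pow_finrank (K := ZMod p) (V := V)
    rw [Nat.card_zmod] at h1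
    rw [hcard] at h1
    exact (Nat.pow_right_injective hp.out.two_le h1).symm
  have key : ∀ f : Fin r → V, AddSubgroup.closure (Set.range f) = ⊤ ↔
      LinearIndependent (ZMod p) f := by
    intro f
    constructor
    · intro h
      apply linearIndependent_of_top_le_span_of_card_eq_finrank
      · intro v _
        have hv : v ∈ AddSubgroup.closure (Set.range f) := h ▸ AddSubgroup.mem_top _
        have gen : ∀ x ∈ AddSubgroup.closure (Set.range f),
            x ∈ Submodule.span (ZMod p) (Set.range f) := by
          intro x hx
          induction hx using AddSubgroup.closure_induction with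
          | mem x hx => exact Submodule.subset_span hx
          | zero => exact Submodule.zero_mem _
          | add a b _ _ iha ihb => exact Submodule.add_mem _ iha ihb
          | neg a _ iha => exact Submodule.neg_mem _ iha
        exact gen _ hv
      · rw [Fintype.card_fin, hrank]
    · intro h
      have hspan := h.span_eq_top_of_card_eq_finrank' (by rw [Fintype.card_fin, hrank])
      rw [eq_top_iff]
      intro x _
      have hx : x ∈ Submodule.span (ZMod p) (Set.range f) :=
        hspan ▸ Submodule.mem_top
      have gen : ∀ v ∈ Submodule.span (ZMod p) (Set.range f),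
          v ∈ AddSubgroup.closure (Set.range f) := by
        intro v hv
        induction hv using Submodule.span_induction with
        | mem v hv => exact AddSubgroup.subset_closure hv
        | zero => exact AddSubgroup.zero_mem _
        | add a b _ _ iha ihb => exact AddSubgroup.add_mem _ iha ihb
        | smul c a _ iha => exact ZMod.smul_mem iha c
      exact gen _ hx
  have h3 := card_linearIndependent (K := ZMod p) (V := V) (k := r) (by rw [hrank])
  rw [hrank, ZMod.card] at h3
  rw [Finset.prod_range, ← h3]
  apply Nat.card_congr
  exact (Equiv.refl (Fin r → V)).subtypeEquiv (fun f => key f)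

theorem card_generating_tuples_comm {Q : Type*} [CommGroup Q] [Finite Q] {p r : ℕ}
    [hp : Fact p.Prime] (hexp : ∀ x : Q, x ^ p = 1) (hcard : Nat.card Q = p ^ r) :
    Nat.card {f : Fin r → Q // Subgroup.closure (Set.range f) = ⊤} =
      ∏ i ∈ Finset.range r, (p ^ r - p ^ i) := by
  classical
  let mod : Module (ZMod p) (Additive Q) := AddCommGroup.zmodModule (n := p) (fun x => by
    show Additive.ofMul ((Additive.toMul x) ^ p) = 0
    rw [hexp]; rfl)
  have hfin : Finite (Additive Q) := inferInstanceAs (Finite Q)
  have h := card_generating_tuples_add (V := Additive Q) (p := p) (r := r) hcard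
  rw [← h]
  apply Nat.card_congr
  refine (Equiv.refl (Fin r → Q)).subtypeEquiv (fun f => ?_)
  show Subgroup.closure (Set.range f) = ⊤ ↔
    AddSubgroup.closure (Set.range (fun i => Additive.ofMul (f i))) = ⊤
  have e : AddSubgroup.closure (Set.range (fun i => Additive.ofMul (f i))) =
      Subgroup.toAddSubgroup (Subgroup.closure (Set.range f)) := by
    rw [Subgroup.toAddSubgroup_closure]
    congr 1
  rw [e]
  constructor
  · intro h; rw [h]; rfl
  · intro h
    have := congrArg (Subgroup.toAddSubgroup (G := Q)).symm h
    simpa using this

/-- The number of generating `r`-tuples of an elementary abelian group of order `p ^ r`. -/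
theorem card_generating_tuples {Q : Type*} [Group Q] [Finite Q] {p r : ℕ} [hp : Fact p.Prime]
    (hcomm : ∀ a b : Q, a * b = b * a) (hexp : ∀ x : Q, x ^ p = 1) (hcard : Nat.card Q = p ^ r) :
    Nat.card {f : Fin r → Q // Subgroup.closure (Set.range f) = ⊤} =
      ∏ i ∈ Finset.range r, (p ^ r - p ^ i) := by
  let inst : CommGroup Q := { ‹Group Q› with mul_comm := hcomm }
  exact @card_generating_tuples_comm Q inst _ p r hp hexp hcard

end Cfsg.Agent.H3
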