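import Mathlib
import Cfsg.Agent.Lib_helper3_FrobN
import Cfsg.Agent.Lib_helper1_Basic

set_option autoImplicit false

namespace Cfsg.Agent.H3

universe u

theorem exists_normal_elemAb (G : Type*) [Group G] [Finite G] [Group.IsSolvable G] [Nontrivial G] :
    ∃ (p : ℕ) (_ : p.Prime) (K : Subgroup G), K.Normal ∧ K ≠ ⊥ ∧ ∀ x ∈ K, x ^ p = 1 := by
  obtain ⟨p, hp, P, hPc, hPp, hPbot, hPcomm⟩ := H1.exists_normal_pgroup_of_solvable G
  have : Fact p.Prime := ⟨hp⟩
  have hPn : P.Normal := inferInstance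
  let K : Subgroup G :=
    { carrier := {x | x ∈ P ∧ x ^ p = 1}
      one_mem' := ⟨P.one_mem, one_pow _⟩
      mul_mem' := by
        rintro a b ⟨ha, ha'⟩ ⟨hb, hb'⟩
        refine ⟨P.mul_mem ha hb, ?_⟩
        have hc : Commute a b := by
          have := hPcomm.is_comm.comm ⟨a, ha⟩ ⟨b, hb⟩
          exact congr_arg Subtype.val this
        rw [hc.mul_pow, ha', hb', one_mul]
      inv_mem' := by
        rintro a ⟨ha, ha'⟩
        exact ⟨P.inv_mem ha, by rw [inv_pow, ha', inv_one]⟩ }
  refine ⟨p, hp, K, ?_, ?_, fun x hx => hx.2⟩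
  · constructor
    rintro x ⟨hx, hx'⟩ g
    exact ⟨hPn.conj_mem x hx g, by rw [conj_pow, hx', mul_one, mul_inv_cancel]⟩
  · intro hK
    have hcard : p ∣ Nat.card P := by
      obtain ⟨k, hk⟩ := hPp.exists_card_eq
      rw [hk]
      cases k with
      | zero =>
        exfalso
        rw [pow_zero] at hk
        exact hPbot (Subgroup.card_eq_one.mp hk)
      | succ k => exact Dvd.intro_left _ (pow_succ p k).symm
    obtain ⟨w, hw⟩ := exists_prime_orderOf_dvd_card' p hcard
    have h1 : (w : G) ∈ K := ⟨w.2, by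
      have := pow_orderOf_eq_one w
      rw [hw] at this
      exact_mod_cast congr_arg Subtype.val this⟩
    rw [hK, Subgroup.mem_bot] at h1
    have h2 : w = 1 := Subtype.ext h1
    rw [h2, orderOf_one] at hw
    exact hp.one_lt.ne hw

theorem card_fiber_mk {G : Type*} [Group G] (K : Subgroup G) [K.Normal] (b : G ⧸ K) :
    Nat.card {a : G // (QuotientGroup.mk a : G ⧸ K) = b} = Nat.card K := by
  obtain ⟨a0, rfl⟩ := QuotientGroup.mk_surjective b
  refine Nat.card_congr ⟨fun a => ⟨a0⁻¹ * a.1, QuotientGroup.eq.mp a.2.symm⟩,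
    fun k => ⟨a0 * k.1, ?_⟩, ?_, ?_⟩
  · symm
    rw [QuotientGroup.eq]
    simp
  · intro a; apply Subtype.ext; simp
  · intro k; apply Subtype.ext; simp

theorem imp_of_card_le {α : Type*} [Finite α] (P Q : α → Prop) (h : ∀ a, P a → Q a)
    (hc : Nat.card {a // Q a} ≤ Nat.card {a // P a}) : ∀ a, Q a → P a := by
  have hinj : Function.Injective (fun a : {a // P a} => (⟨a.1, h a.1 a.2⟩ : {a // Q a})) :=
    fun a b hab => Subtype.ext (congr_arg (fun z => z.1) hab)
  have hsurj : Function.Surjective (fun a : {a // P a} => (⟨a.1, h a.1 a.2⟩ : {a // Q a})) := by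
    have hb := (Nat.bijective_iff_injective_and_card _).mpr
      ⟨hinj, le_antisymm (Nat.card_le_card_of_injective _ hinj) hc⟩
    exact hb.2
  intro a ha
  obtain ⟨b, hb⟩ := hsurj ⟨a, ha⟩
  have : b.1 = a := congr_arg (fun z => z.1) hb
  exact this ▸ b.2

theorem frob_exact_aux : ∀ (N : ℕ) (G : Type u) [Group G] [Finite G] [Group.IsSolvable G],
    Nat.card G = N → ∀ n : ℕ, n ∣ Nat.card G → Nat.card {x : G // x ^ n = 1} = n →
    ∃ H : Subgroup G, H.Normal ∧ (H : Set G) = {x : G | x ^ n = 1} := by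
  intro N
  induction N using Nat.strong_induction_on with
  | _ N ih =>
  intro G _ _ _ hN n hn hcount
  rcases subsingleton_or_nontrivial G with hs | hnt
  · refine ⟨⊤, inferInstance, ?_⟩
    ext x
    simp [Subsingleton.elim x 1]
  obtain ⟨p, hp, K, hKn, hKbot, hKexp⟩ := exists_normal_elemAb G
  have : Fact p.Prime := ⟨hp⟩
  have hn0 : 0 < n := Nat.pos_of_dvd_of_pos hn Nat.card_pos
  set q := Nat.card K with hq
  have hq0 : 0 < q := Nat.card_pos
  have hKp : IsPGroup p K := by
    intro x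
    refine ⟨1, ?_⟩
    rw [pow_one]
    exact Subtype.ext (by simpa using hKexp x.1 x.2)
  obtain ⟨i, hi⟩ := hKp.exists_card_eq
  have hi0 : i ≠ 0 := by
    intro h0
    rw [h0, pow_zero] at hi
    exact hKbot (Subgroup.card_eq_one.mp hi)
  have hpq : p ∣ q := by
    rw [hq, hi]
    exact dvd_pow_self p hi0
  have hcardQ : Nat.card (G ⧸ K) * q = Nat.card G := by
    rw [← Subgroup.index_eq_card]; exact K.index_mul_card
  have hlt : Nat.card (G ⧸ K) < N := by
    rw [← hN]; exact H1.card_quotient_lt hKbot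
  have hfrob : ∀ n1, n1 ∣ Nat.card (G ⧸ K) → n1 ∣ Nat.card {y : G ⧸ K // y ^ n1 = 1} := by
    intro n1 h1
    have := frobenius_pow_eq_one (G := G ⧸ K) n1
    rwa [Nat.gcd_eq_left h1] at this
  have hpos : ∀ n1, 0 < Nat.card {y : G ⧸ K // y ^ n1 = 1} := by
    intro n1
    have : Nonempty {y : G ⧸ K // y ^ n1 = 1} := ⟨⟨1, one_pow _⟩⟩
    exact Nat.card_pos
  have hpre : ∀ n1, Nat.card {x : G // (QuotientGroup.mk x : G ⧸ K) ^ n1 = 1}
      = Nat.card {y : G ⧸ K // y ^ n1 = 1} * q := by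
    intro n1
    exact card_fiberwise_const (fun x : G => (QuotientGroup.mk x : G ⧸ K)) (fun y => y ^ n1 = 1) q
      (fun b _ => card_fiber_mk K b)
  by_cases hpn : p ∣ n
  · -- Case A
    set D := Nat.gcd n q with hD
    have hDn : D ∣ n := Nat.gcd_dvd_left _ _
    have hDq : D ∣ q := Nat.gcd_dvd_right _ _
    have hD0 : 0 < D := Nat.pos_of_dvd_of_pos hDn hn0
    have hpD : p ∣ D := Nat.dvd_gcd hpn hpq
    set n1 := n / D with hn1
    have hn1D : n1 * D = n := Nat.div_mul_cancel hDn
    have hn10 : 0 < n1 := Nat.div_pos (Nat.le_of_dvd hn0 hDn) hD0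
    have hn1dvd : n1 ∣ Nat.card (G ⧸ K) := by
      have hcop : Nat.Coprime n1 (q / D) := Nat.coprime_div_gcd_div_gcd hD0
      have h1 : n1 * D ∣ (Nat.card (G ⧸ K) * (q / D)) * D := by
        rw [hn1D, mul_assoc, Nat.div_mul_cancel hDq, hcardQ]
        exact hn
      have h2 : n1 ∣ Nat.card (G ⧸ K) * (q / D) := Nat.dvd_of_mul_dvd_mul_right hD0 h1
      exact hcop.dvd_of_dvd_mul_right h2
    have hX : ∀ x : G, (QuotientGroup.mk x : G ⧸ K) ^ n1 = 1 → x ^ n = 1 := by
      intro x hx
      rw [← QuotientGroup.mk_pow, QuotientGroup.eq_one_iff] at hx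
      have h1 := hKexp _ hx
      obtain ⟨D', hD'⟩ := hpD
      rw [← hn1D, hD', ← mul_assoc, pow_mul, pow_mul, h1, one_pow]
    have hle : Nat.card {x : G // (QuotientGroup.mk x : G ⧸ K) ^ n1 = 1} ≤ n := by
      rw [← hcount]
      exact Nat.card_le_card_of_injective (fun x => ⟨x.1, hX x.1 x.2⟩)
        (fun a b hab => Subtype.ext (congr_arg (fun z => z.1) hab))
    rw [hpre] at hle
    have h1 : n1 ≤ Nat.card {y : G ⧸ K // y ^ n1 = 1} := Nat.le_of_dvd (hpos n1) (hfrob n1 hn1dvd)
    have hDleq : D ≤ q := Nat.le_of_dvd hq0 hDq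
    have h2 : Nat.card {y : G ⧸ K // y ^ n1 = 1} * q ≤ n1 * q := by
      calc _ ≤ n := hle
        _ = n1 * D := hn1D.symm
        _ ≤ n1 * q := Nat.mul_le_mul_left _ hDleq
    have h3 : Nat.card {y : G ⧸ K // y ^ n1 = 1} = n1 :=
      le_antisymm (Nat.le_of_mul_le_mul_right h2 hq0) h1
    have h4 : n ≤ Nat.card {x : G // (QuotientGroup.mk x : G ⧸ K) ^ n1 = 1} := by
      rw [hpre, h3, ← hn1D]
      exact Nat.mul_le_mul_left _ hDleq
    obtain ⟨Hb, hHbn, hHb⟩ := ih _ hlt (G ⧸ K) rfl n1 hn1dvd h3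
    refine ⟨Hb.comap (QuotientGroup.mk' K), hHbn.comap _, ?_⟩
    have hset : ((Hb.comap (QuotientGroup.mk' K) : Subgroup G) : Set G)
        = {x : G | (QuotientGroup.mk x : G ⧸ K) ^ n1 = 1} := by
      ext x
      have : (QuotientGroup.mk x : G ⧸ K) ∈ (Hb : Set (G ⧸ K)) ↔ (QuotientGroup.mk x : G ⧸ K) ^ n1 = 1 := by
        rw [hHb]; rfl
      exact this
    rw [hset]
    ext x
    exact ⟨fun hx => hX x hx, imp_of_card_le _ _ hX (by rw [hcount]; exact h4) x⟩
  · -- Case B
    have hcop : Nat.Coprime n q := by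
      rw [hq, hi]
      exact Nat.Coprime.pow_right i ((Nat.coprime_comm.mp ((Nat.Prime.coprime_iff_not_dvd hp).mpr hpn)))
    have hndvd : n ∣ Nat.card (G ⧸ K) := by
      rw [← hcardQ] at hn
      exact hcop.dvd_of_dvd_mul_right hn
    have hsurj : Nat.card {y : G ⧸ K // y ^ n = 1} ≤ n := by
      refine le_trans ?_ (le_of_eq hcount)
      apply Nat.card_le_card_of_surjective
        (fun x : {x : G // x ^ n = 1} => (⟨(QuotientGroup.mk x.1 : G ⧸ K), by
          rw [← QuotientGroup.mk_pow, x.2]; rfl⟩ : {y : G ⧸ K // y ^ n = 1}))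
      rintro ⟨y, hy⟩
      obtain ⟨x, rfl⟩ := QuotientGroup.mk_surjective y
      have hx : x ^ n ∈ K := by
        rw [← QuotientGroup.mk_pow, QuotientGroup.eq_one_iff] at hy
        exact hy
      have hxnp : x ^ (n * p) = 1 := by rw [pow_mul]; exact hKexp _ hx
      have hcop' : Nat.Coprime p (orderOf (QuotientGroup.mk x : G ⧸ K)) := by
        apply Nat.Coprime.coprime_dvd_right (orderOf_dvd_of_pow_eq_one hy)
        exact (Nat.Prime.coprime_iff_not_dvd hp).mpr hpn
      obtain ⟨u, hu⟩ := exists_pow_eq_self_of_coprime hcop'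
      refine ⟨⟨(x ^ p) ^ u, ?_⟩, ?_⟩
      · rw [← pow_mul, ← pow_mul, show p * (u * n) = (n * p) * u by ring, pow_mul, hxnp, one_pow]
      · apply Subtype.ext
        simp only [QuotientGroup.mk_pow]
        exact hu
    have h3 : Nat.card {y : G ⧸ K // y ^ n = 1} = n :=
      le_antisymm hsurj (Nat.le_of_dvd (hpos n) (hfrob n hndvd))
    obtain ⟨Hb, hHbn, hHb⟩ := ih _ hlt (G ⧸ K) rfl n hndvd h3
    have hHbcard : Nat.card Hb = n := by
      rw [← h3]
      exact Nat.card_congr (Equiv.subtypeEquivRight (fun y => Set.ext_iff.mp hHb y))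
    set H := Hb.comap (QuotientGroup.mk' K) with hH
    have hHcard : Nat.card H = n * q := by
      have hKH : K ≤ H := by
        conv_lhs => rw [← QuotientGroup.ker_mk' K]
        exact MonoidHom.ker_le_comap _ _
      have h5 : Nat.card (H.map (QuotientGroup.mk' K)) = n := by
        rw [hH, Subgroup.map_comap_eq_self_of_surjective (QuotientGroup.mk'_surjective K), hHbcard]
      have h6 := hpre n
      rw [h3] at h6
      rw [← h6]
      apply Nat.card_congr
      apply Equiv.subtypeEquivRight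
      intro x
      have : (QuotientGroup.mk x : G ⧸ K) ∈ (Hb : Set (G ⧸ K)) ↔ (QuotientGroup.mk x : G ⧸ K) ^ n = 1 := by
        rw [hHb]; rfl
      exact this
    have hKH : K ≤ H := by
      conv_lhs => rw [← QuotientGroup.ker_mk' K]
      exact MonoidHom.ker_le_comap _ _
    have hN' : (K.subgroupOf H).Normal := inferInstance
    have hcardK' : Nat.card (K.subgroupOf H) = q := H1.card_subgroupOf_of_le hKH
    have hidx : (K.subgroupOf H).index = n := by
      have := (K.subgroupOf H).card_mul_index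
      rw [hcardK', hHcard, mul_comm n q] at this
      exact Nat.eq_of_mul_eq_mul_left hq0 this
    obtain ⟨Q', hQ'⟩ := Subgroup.exists_right_complement'_of_coprime (N := K.subgroupOf H)
      (by rw [hcardK', hidx]; exact hcop.symm)
    have hQ'card : Nat.card Q' = n := by
      have := hQ'.card_mul_card
      rw [hcardK', hHcard, mul_comm n q] at this
      exact Nat.eq_of_mul_eq_mul_left hq0 this
    set Q := Q'.map H.subtype with hQ
    have hQcard : Nat.card Q = n := by
      rw [hQ, Subgroup.card_map_of_injective H.subtype_injective, hQ'card]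
    have hQset : (Q : Set G) = {x : G | x ^ n = 1} := by
      have hsub : ∀ x : G, x ∈ Q → x ^ n = 1 := by
        intro x hx
        have : (⟨x, hx⟩ : Q) ^ Nat.card Q = 1 := pow_card_eq_one'
        rw [hQcard] at this
        exact congr_arg Subtype.val this
      ext x
      exact ⟨fun hx => hsub x hx, imp_of_card_le (fun x => x ∈ Q) _ hsub
        (by rw [hcount]; exact le_of_eq hQcard.symm) x⟩
    refine ⟨Q, ?_, hQset⟩
    constructor
    intro x hx g
    have h7 : x ∈ (Q : Set G) := hx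
    rw [hQset] at h7
    have h8 : g * x * g⁻¹ ∈ (Q : Set G) := by
      rw [hQset]
      show (g * x * g⁻¹) ^ n = 1
      rw [conj_pow, h7, mul_one, mul_inv_cancel]
    exact h8

theorem frob_exact {G : Type u} [Group G] [Finite G] [Group.IsSolvable G] (n : ℕ)
    (hn : n ∣ Nat.card G) (hcount : Nat.card {x : G // x ^ n = 1} = n) :
    ∃ H : Subgroup G, H.Normal ∧ (H : Set G) = {x : G | x ^ n = 1} :=
  frob_exact_aux _ G rfl n hn hcount

end Cfsg.Agent.H3
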