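import Mathlib
import Cfsg.Agent.Lib_helper3_SelfCent
import Cfsg.Agent.Lib_helper3_Sylow3
import Cfsg.Agent.Lib_lead_SylNum
import Cfsg.Agent.Lib_helper7_Sylow

set_option autoImplicit false

namespace Cfsg.Agent.H3
open Subgroup

section
variable {G : Type*} [Group G] [Finite G] {p : ℕ} [Fact p.Prime] {x : G}

/-- a normal subgroup of order divisible by `p` contains `x` -/
theorem selfCent_mem_of_dvd (hx : orderOf x = p) (hC : centralizer ({x} : Set G) = zpowers x)
    (S : Subgroup G) [hS : S.Normal] (hpS : p ∣ Nat.card S) : x ∈ S := by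
  obtain ⟨y, hy⟩ := exists_prime_orderOf_dvd_card' (G := S) p hpS
  have hy' : orderOf (y : G) = p := by rw [Subgroup.orderOf_coe, hy]
  obtain ⟨P, hP⟩ := selfCent_exists_sylow hx hC
  obtain ⟨Q₂, hQ₂⟩ := exists_mem_sylow (p := p) (x := (y : G)) ⟨1, by rw [hy', pow_one]⟩
  obtain ⟨g, hg⟩ := MulAction.exists_smul_eq G P Q₂
  rw [← hg, mem_smul_sylow_iff] at hQ₂
  have hwx : g⁻¹ * y * g ∈ zpowers x := by rw [← hP]; exact hQ₂
  have hwo : orderOf (g⁻¹ * (y : G) * g) = p := by
    have := orderOf_conj' g⁻¹ (y : G)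
    rw [inv_inv] at this
    rw [this, hy']
  have hw1 : g⁻¹ * (y : G) * g ≠ 1 := by
    intro h; rw [h, orderOf_one] at hwo; exact (Fact.out : p.Prime).one_lt.ne hwo
  have hzp := zpowers_eq_of_mem_of_ne_one hx hwx hw1
  have hwS : g⁻¹ * (y : G) * g ∈ S := by
    have := hS.conj_mem y y.2 g⁻¹
    rwa [inv_inv] at this
  have : zpowers x ≤ S := hzp ▸ zpowers_le.2 hwS
  exact this (mem_zpowers x)

omit [Finite G] in
/-- elements of `N(⟨x⟩)` commute modulo `⟨x⟩` -/
theorem selfCent_normalizer_comm (hC : centralizer ({x} : Set G) = zpowers x) (n n' : G)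
    (hn : n ∈ normalizer ((zpowers x : Subgroup G) : Set G))
    (hn' : n' ∈ normalizer ((zpowers x : Subgroup G) : Set G)) :
    (n' * n)⁻¹ * (n * n') ∈ zpowers x := by
  obtain ⟨i, hi⟩ := mem_zpowers_iff.1 ((mem_normalizer_iff.1 hn x).1 (mem_zpowers x))
  obtain ⟨j, hj⟩ := mem_zpowers_iff.1 ((mem_normalizer_iff.1 hn' x).1 (mem_zpowers x))
  have h1 : (n * n') * x * (n * n')⁻¹ = x ^ (i * j) := by
    calc (n * n') * x * (n * n')⁻¹ = n * (n' * x * n'⁻¹) * n⁻¹ := by group
      _ = n * x ^ j * n⁻¹ := by rw [hj]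
      _ = (n * x * n⁻¹) ^ j := by rw [conj_zpow]
      _ = x ^ (i * j) := by rw [← hi, zpow_mul]
  have h2 : (n' * n) * x * (n' * n)⁻¹ = x ^ (i * j) := by
    calc (n' * n) * x * (n' * n)⁻¹ = n' * (n * x * n⁻¹) * n'⁻¹ := by group
      _ = n' * x ^ i * n'⁻¹ := by rw [hi]
      _ = (n' * x * n'⁻¹) ^ i := by rw [conj_zpow]
      _ = x ^ (i * j) := by rw [← hj, ← zpow_mul, mul_comm]
  rw [← hC, mem_centralizer_singleton_iff]
  have h3 : (n * n') * x * (n * n')⁻¹ = (n' * n) * x * (n' * n)⁻¹ := h1.trans h2.symm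
  calc (n' * n)⁻¹ * (n * n') * x = (n' * n)⁻¹ * ((n * n') * x * (n * n')⁻¹) * (n * n') := by group
    _ = (n' * n)⁻¹ * ((n' * n) * x * (n' * n)⁻¹) * (n * n') := by rw [h3]
    _ = x * ((n' * n)⁻¹ * (n * n')) := by group

theorem selfCent_commutator_le (hx : orderOf x = p) (hC : centralizer ({x} : Set G) = zpowers x)
    (S : Subgroup G) [hS : S.Normal] (hpS : p ∣ Nat.card S) : commutator G ≤ S := by
  have hxS := selfCent_mem_of_dvd hx hC S hpS
  obtain ⟨P, hP⟩ := selfCent_exists_sylow hx hC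
  have hfrat : normalizer ((P : Subgroup G) : Set G) ⊔ S = ⊤ :=
    Sylow.normalizer_sup_eq_top' P (by rw [hP]; exact zpowers_le.2 hxS)
  rw [hP] at hfrat
  have hrep : ∀ g : G, ∃ n ∈ normalizer ((zpowers x : Subgroup G) : Set G),
      (QuotientGroup.mk g : G ⧸ S) = QuotientGroup.mk n := by
    intro g
    have hg : g ∈ normalizer ((zpowers x : Subgroup G) : Set G) ⊔ S := by rw [hfrat]; trivial
    rw [mem_sup_of_normal_right] at hg
    obtain ⟨n, hn, s, hs, rfl⟩ := hg
    refine ⟨n, hn, ?_⟩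
    rw [QuotientGroup.eq]
    simpa using S.inv_mem hs
  have hcomm : ∀ a b : G ⧸ S, a * b = b * a := by
    intro a b
    obtain ⟨g, rfl⟩ := QuotientGroup.mk_surjective a
    obtain ⟨h, rfl⟩ := QuotientGroup.mk_surjective b
    obtain ⟨n, hn, hgn⟩ := hrep g
    obtain ⟨n', hn', hhn⟩ := hrep h
    rw [hgn, hhn, ← QuotientGroup.mk_mul, ← QuotientGroup.mk_mul]
    symm
    rw [QuotientGroup.eq]
    exact zpowers_le.2 hxS (selfCent_normalizer_comm hC n n' hn hn')
  let _ : CommGroup (G ⧸ S) := { (inferInstance : Group (G ⧸ S)) with mul_comm := hcomm }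
  have := Abelianization.commutator_subset_ker (QuotientGroup.mk' S)
  rwa [QuotientGroup.ker_mk'] at this

omit [Finite G] in
theorem selfCent_inf_eq_bot (hx : orderOf x = p) (S : Subgroup G) (hpS : ¬ p ∣ Nat.card S) :
    zpowers x ⊓ S = ⊥ := by
  apply (disjoint_of_coprime_natCard _).eq_bot
  rw [Nat.card_zpowers, hx]
  exact (Nat.Prime.coprime_iff_not_dvd Fact.out).2 hpS

omit [Finite G] in
theorem selfCent_normalizer_inf_eq_bot (hx : orderOf x = p)
    (hC : centralizer ({x} : Set G) = zpowers x)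
    (S : Subgroup G) [hS : S.Normal] (hpS : ¬ p ∣ Nat.card S) :
    normalizer ((zpowers x : Subgroup G) : Set G) ⊓ S = ⊥ := by
  have hdisj := selfCent_inf_eq_bot hx S hpS
  rw [eq_bot_iff]
  intro s hs
  have h1 : s * x * s⁻¹ * x⁻¹ ∈ zpowers x ⊓ S := by
    refine ⟨(zpowers x).mul_mem ((mem_normalizer_iff.1 hs.1 x).1 (mem_zpowers x))
      ((zpowers x).inv_mem (mem_zpowers x)), ?_⟩
    have : s * x * s⁻¹ * x⁻¹ = s * (x * s⁻¹ * x⁻¹) := by group
    rw [this]
    exact S.mul_mem hs.2 (hS.conj_mem _ (S.inv_mem hs.2) x)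
  rw [hdisj, mem_bot] at h1
  have h2 : s ∈ zpowers x := by
    rw [← hC, mem_centralizer_singleton_iff]
    have h3 : s * x * s⁻¹ = x := mul_inv_eq_one.1 h1
    calc s * x = s * x * s⁻¹ * s := by group
      _ = x * s := by rw [h3]
  have h4 : s ∈ zpowers x ⊓ S := ⟨h2, hs.2⟩
  rwa [hdisj] at h4

theorem selfCent_relIndex_eq_card (hx : orderOf x = p)
    (hC : centralizer ({x} : Set G) = zpowers x)
    (S : Subgroup G) [hS : S.Normal] (hpS : ¬ p ∣ Nat.card S) :
    (normalizer ((zpowers x : Subgroup G) : Set G)).relIndex (zpowers x ⊔ S) = Nat.card S := by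
  have h1 : (normalizer ((zpowers x : Subgroup G) : Set G)).relIndex (zpowers x ⊔ S)
      = (normalizer ((zpowers x : Subgroup G) : Set G)).relIndex S := by
    apply LeadSyl.relIndex_eq_of_sup S _ _ le_sup_right
    · rw [normalizer_eq_top]; exact le_top
    · exact sup_le (le_trans (le_inf le_normalizer le_sup_left) le_sup_right) le_sup_left
  have h2 := H1.relIndex_mul_card_inf (normalizer ((zpowers x : Subgroup G) : Set G)) S
  rw [selfCent_normalizer_inf_eq_bot hx hC S hpS, card_bot, mul_one] at h2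
  rw [h1, h2]

theorem selfCent_card_dvd_and_mod (hx : orderOf x = p)
    (hC : centralizer ({x} : Set G) = zpowers x)
    (S : Subgroup G) [hS : S.Normal] (hpS : ¬ p ∣ Nat.card S) :
    Nat.card S ∣ Nat.card (Sylow p G) ∧ Nat.card S % p = 1 := by
  obtain ⟨P, hP⟩ := selfCent_exists_sylow hx hC
  have h0 := selfCent_relIndex_eq_card hx hC S hpS
  constructor
  · have h1 := LeadSyl.index_normalizer_eq S P
    rw [hP, h0] at h1
    rw [P.card_eq_index_normalizer]
    change _ ∣ (normalizer ((P : Subgroup G) : Set G)).index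
    rw [hP, h1]
    exact Dvd.intro_left _ rfl
  · have h1 := card_sylow_subgroup_eq_relIndex P ((P : Subgroup G) ⊔ S) le_sup_left
    have h2 : Nat.card (Sylow p ↥((P : Subgroup G) ⊔ S)) ≡ 1 [MOD p] := card_sylow_modEq_one p _
    rw [h1, hP, h0] at h2
    have h3 : Nat.card S % p = 1 % p := h2
    rw [h3, Nat.mod_eq_of_lt (Fact.out : p.Prime).one_lt]

theorem selfCent_card_subgroups (hx : orderOf x = p)
    (hC : centralizer ({x} : Set G) = zpowers x) :
    Nat.card {H : Subgroup G // Nat.card H = p} = Nat.card (Sylow p G) := by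
  have hmult : p ^ (Nat.card G).factorization p = p := by
    obtain ⟨Q⟩ : Nonempty (Sylow p G) := inferInstance
    rw [← Q.card_eq_multiplicity, selfCent_card_sylow hx hC Q]
  apply Nat.card_congr
  exact
    { toFun := fun H => Sylow.ofCard H.1 (by rw [H.2, hmult])
      invFun := fun Q => ⟨(Q : Subgroup G), selfCent_card_sylow hx hC Q⟩
      left_inv := fun H => Subtype.ext (Sylow.coe_ofCard (p := p) H.1 (by rw [H.2, hmult]))
      right_inv := fun Q => Sylow.ext (Sylow.coe_ofCard (p := p) _ _) }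

theorem selfCent_quotient (hx : orderOf x = p)
    (hC : centralizer ({x} : Set G) = zpowers x)
    (S : Subgroup G) [hS : S.Normal] (hpS : ¬ p ∣ Nat.card S) :
    orderOf (QuotientGroup.mk x : G ⧸ S) = p ∧
      centralizer ({(QuotientGroup.mk x : G ⧸ S)} : Set (G ⧸ S))
        = zpowers (QuotientGroup.mk x : G ⧸ S) := by
  have hdisj := selfCent_inf_eq_bot hx S hpS
  have hx1 : x ≠ 1 := by
    intro h; rw [h, orderOf_one] at hx; exact (Fact.out : p.Prime).one_lt.ne hx
  constructor
  · apply orderOf_eq_prime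
    · rw [← QuotientGroup.mk_pow, ← hx, pow_orderOf_eq_one]; rfl
    · intro h
      rw [QuotientGroup.eq_one_iff] at h
      have : x ∈ zpowers x ⊓ S := ⟨mem_zpowers x, h⟩
      rw [hdisj] at this
      exact hx1 this
  · apply le_antisymm
    · intro q hq
      obtain ⟨g, rfl⟩ := QuotientGroup.mk_surjective q
      rw [mem_centralizer_singleton_iff] at hq
      -- `g` commutes with `x` modulo `S`
      have hmemH : ∀ a ∈ zpowers x ⊔ S, (QuotientGroup.mk a : G ⧸ S) ∈
          zpowers (QuotientGroup.mk x : G ⧸ S) := by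
        intro a ha
        rw [mem_sup_of_normal_right] at ha
        obtain ⟨u, hu, s, hs, rfl⟩ := ha
        obtain ⟨i, rfl⟩ := mem_zpowers_iff.1 hu
        rw [QuotientGroup.mk_mul, (QuotientGroup.eq_one_iff s).2 hs, mul_one, QuotientGroup.mk_zpow]
        exact zpow_mem (mem_zpowers _) i
      apply hmemH
      set y := g⁻¹ * x * g with hy
      have hyH : y ∈ zpowers x ⊔ S := by
        have h1 : x⁻¹ * y ∈ S := by
          rw [← QuotientGroup.eq_one_iff, hy]
          simp only [QuotientGroup.mk_mul, QuotientGroup.mk_inv]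
          rw [mul_assoc (QuotientGroup.mk g : G ⧸ S)⁻¹, ← hq]
          group
        have h2 : y = x * (x⁻¹ * y) := by group
        rw [h2]
        exact (zpowers x ⊔ S).mul_mem (le_sup_left (a := zpowers x) (mem_zpowers x)) (le_sup_right (a := zpowers x) h1)
      obtain ⟨P, hP⟩ := selfCent_exists_sylow hx hC
      have hsyl : H7.IsSylowIn p (zpowers x) (zpowers x ⊔ S) :=
        ⟨le_sup_left, hP ▸ P.2, fun h => P.not_dvd_index (by
          rw [hP]; exact h.trans (relIndex_dvd_index_of_le le_sup_left))⟩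
      have hyo : orderOf y = p := by
        have := orderOf_conj' g⁻¹ x
        rw [inv_inv] at this
        rw [hy, this, hx]
      obtain ⟨a, haH, ha⟩ := hsyl.exists_conj_le (Q := zpowers y)
        (IsPGroup.of_card (n := 1) (by rw [Nat.card_zpowers, hyo, pow_one])) (zpowers_le.2 hyH)
      rw [H7.map_conj_le_iff] at ha
      have h3 : a * y * a⁻¹ ∈ zpowers x := ha y (mem_zpowers y)
      -- modulo S, a*y*a⁻¹ = x
      have h4 : (QuotientGroup.mk (a * y * a⁻¹) : G ⧸ S) = QuotientGroup.mk x := by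
        obtain ⟨i, hi⟩ := mem_zpowers_iff.1 (hmemH a haH)
        have hyq : (QuotientGroup.mk y : G ⧸ S) = QuotientGroup.mk x := by
          rw [hy]
          simp only [QuotientGroup.mk_mul, QuotientGroup.mk_inv]
          rw [mul_assoc, ← hq]; group
        simp only [QuotientGroup.mk_mul, QuotientGroup.mk_inv]
        rw [hyq, ← hi]
        group
      have h5 : x⁻¹ * (a * y * a⁻¹) ∈ zpowers x ⊓ S :=
        ⟨(zpowers x).mul_mem ((zpowers x).inv_mem (mem_zpowers x)) h3, QuotientGroup.eq.1 h4.symm⟩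
      rw [hdisj, mem_bot] at h5
      have h6 : a * y * a⁻¹ = x := (inv_mul_eq_one.1 h5).symm
      have h7 : a * g⁻¹ ∈ zpowers x := by
        rw [← hC, mem_centralizer_singleton_iff]
        calc a * g⁻¹ * x = (a * (g⁻¹ * x * g) * a⁻¹) * (a * g⁻¹) := by group
          _ = x * (a * g⁻¹) := by rw [← hy, h6]
      have h8 : g = (a * g⁻¹)⁻¹ * a := by group
      rw [h8]
      exact (zpowers x ⊔ S).mul_mem ((zpowers x ⊔ S).inv_mem (le_sup_left (a := zpowers x) h7)) haH
    · rw [zpowers_le, mem_centralizer_singleton_iff]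

end

end Cfsg.Agent.H3
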