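import Mathlib
import Cfsg.Agent.Lib_helper3_SelfCent2

set_option autoImplicit false

namespace Cfsg.Agent.H3
open Subgroup

section
variable {G : Type*} [Group G] [Finite G] {p : ℕ} [Fact p.Prime] {x : G}

/-- normal `p'`-subgroups lie in the commutator subgroup -/
theorem selfCent_le_commutator (hx : orderOf x = p) (hC : centralizer ({x} : Set G) = zpowers x)
    (K : Subgroup G) [hKn : K.Normal] (hpK : ¬ p ∣ Nat.card K) : K ≤ commutator G := by
  have hdisj := selfCent_inf_eq_bot hx K hpK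
  let φ : K → (K ⊓ commutator G : Subgroup G) := fun k =>
    ⟨(k : G) * x * (k : G)⁻¹ * x⁻¹, by
      constructor
      · have : (k : G) * x * (k : G)⁻¹ * x⁻¹ = k * (x * (k : G)⁻¹ * x⁻¹) := by group
        rw [this]
        exact K.mul_mem k.2 (hKn.conj_mem _ (K.inv_mem k.2) x)
      · rw [commutator_def]
        exact commutator_mem_commutator (mem_top (k : G)) (mem_top x)⟩
  have hinj : Function.Injective φ := by
    intro k k' h
    have h1 : (k : G) * x * (k : G)⁻¹ * x⁻¹ = (k' : G) * x * (k' : G)⁻¹ * x⁻¹ :=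
      congrArg Subtype.val h
    have h2 : (k : G) * x * (k : G)⁻¹ = (k' : G) * x * (k' : G)⁻¹ := mul_right_cancel h1
    have h3 : (k' : G)⁻¹ * k ∈ centralizer ({x} : Set G) := by
      rw [mem_centralizer_singleton_iff]
      calc (k' : G)⁻¹ * k * x = (k' : G)⁻¹ * (k * x * (k : G)⁻¹) * k := by group
        _ = (k' : G)⁻¹ * ((k' : G) * x * (k' : G)⁻¹) * k := by rw [h2]
        _ = x * ((k' : G)⁻¹ * k) := by group
    rw [hC] at h3
    have h4 : (k' : G)⁻¹ * k ∈ zpowers x ⊓ K := ⟨h3, K.mul_mem (K.inv_mem k'.2) k.2⟩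
    rw [hdisj, mem_bot] at h4
    exact Subtype.ext (inv_mul_eq_one.1 h4).symm
  have hle := Nat.card_le_card_of_injective φ hinj
  have heq2 : K ⊓ commutator G = K := eq_of_le_of_card_ge inf_le_left hle
  exact inf_eq_left.1 heq2

omit [Finite G] in
/-- if `N(⟨x⟩) ≠ ⟨x⟩` then `x ∈ G'` -/
theorem selfCent_mem_commutator (hx : orderOf x = p) (hC : centralizer ({x} : Set G) = zpowers x)
    (hne : (zpowers x).relIndex (normalizer ((zpowers x : Subgroup G) : Set G)) ≠ 1) :
    x ∈ commutator G := by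
  have hNP : ¬ normalizer ((zpowers x : Subgroup G) : Set G) ≤ zpowers x :=
    fun h => hne (relIndex_eq_one.2 h)
  obtain ⟨n, hnN, hnP⟩ := SetLike.not_le_iff_exists.1 hNP
  have hconj : n * x * n⁻¹ ∈ zpowers x := (mem_normalizer_iff.1 hnN x).1 (mem_zpowers x)
  have hc : n * x * n⁻¹ * x⁻¹ ∈ zpowers x :=
    (zpowers x).mul_mem hconj ((zpowers x).inv_mem (mem_zpowers x))
  have hc1 : n * x * n⁻¹ * x⁻¹ ≠ 1 := by
    intro h
    apply hnP
    rw [← hC, mem_centralizer_singleton_iff]
    have h2 : n * x * n⁻¹ = x := mul_inv_eq_one.1 h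
    calc n * x = n * x * n⁻¹ * n := by group
      _ = x * n := by rw [h2]
  have hcG : n * x * n⁻¹ * x⁻¹ ∈ commutator G := by
    rw [commutator_def]
    exact commutator_mem_commutator (mem_top n) (mem_top x)
  have hPG : zpowers x ≤ commutator G := by
    rw [← zpowers_eq_of_mem_of_ne_one hx hc hc1]
    exact zpowers_le.2 hcG
  exact hPG (mem_zpowers x)

omit [Finite G] [Fact p.Prime] in
/-- conjugates of `x` are self-centralizing -/
theorem selfCent_conj (hC : centralizer ({x} : Set G) = zpowers x) (g : G) :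
    centralizer ({g * x * g⁻¹} : Set G) = zpowers (g * x * g⁻¹) := by
  ext y
  have h1 : y ∈ centralizer ({g * x * g⁻¹} : Set G) ↔ g⁻¹ * y * g ∈ centralizer ({x} : Set G) := by
    rw [mem_centralizer_singleton_iff, mem_centralizer_singleton_iff]
    constructor
    · intro h
      calc g⁻¹ * y * g * x = g⁻¹ * (y * (g * x * g⁻¹)) * g := by group
        _ = g⁻¹ * ((g * x * g⁻¹) * y) * g := by rw [h]
        _ = x * (g⁻¹ * y * g) := by group
    · intro h
      calc y * (g * x * g⁻¹) = g * (g⁻¹ * y * g * x) * g⁻¹ := by group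
        _ = g * (x * (g⁻¹ * y * g)) * g⁻¹ := by rw [h]
        _ = g * x * g⁻¹ * y := by group
  rw [h1, hC, mem_zpowers_iff, mem_zpowers_iff]
  constructor
  · rintro ⟨k, hk⟩
    refine ⟨k, ?_⟩
    rw [conj_zpow, hk]; group
  · rintro ⟨k, hk⟩
    refine ⟨k, ?_⟩
    rw [← hk, conj_zpow]; group

omit [Finite G] [Fact p.Prime] in
/-- the self-centralizing property passes to subgroups containing `x` -/
theorem selfCent_subgroup (hC : centralizer ({x} : Set G) = zpowers x) (H : Subgroup G)
    (hxH : x ∈ H) :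
    centralizer ({(⟨x, hxH⟩ : H)} : Set H) = zpowers (⟨x, hxH⟩ : H) := by
  ext y
  rw [mem_centralizer_singleton_iff]
  constructor
  · intro h
    have h1 : (y : G) ∈ centralizer ({x} : Set G) := by
      rw [mem_centralizer_singleton_iff]
      exact congrArg Subtype.val h
    rw [hC] at h1
    obtain ⟨k, hk⟩ := mem_zpowers_iff.1 h1
    exact mem_zpowers_iff.2 ⟨k, Subtype.ext (by simpa using hk)⟩
  · intro h
    obtain ⟨k, rfl⟩ := mem_zpowers_iff.1 h
    exact ((Commute.refl (⟨x, hxH⟩ : H)).zpow_left k).eq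

end

end Cfsg.Agent.H3
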