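import Cfsg.Agent.Lib_helper4_BlkBU

set_option autoImplicit false
set_option linter.style.haveILetI false
set_option linter.unusedSectionVars false
namespace Cfsg.Agent.H4
open Module
open scoped ComplexConjugate
universe u v w

section PQ
variable {p : ℕ} {M : Ideal AlgInt} {G : Type u} [Group G]

theorem trIrr_comm {A : Type v} {A₂ : Type w} [Group A] [Group A₂] (α : A ≃* A₂) (γ : A ≃* A) (γ₂ : A₂ ≃* A₂)
    (h : ∀ a, α (γ a) = γ₂ (α a)) (θ : IrrCharacter A₂) : trIrr γ (trIrr α θ) = trIrr α (trIrr γ₂ θ) := by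
  apply Subtype.ext
  funext a
  rw [trIrr_apply, trIrr_apply, trIrr_apply, trIrr_apply, h]

theorem trSet_comm {A : Type v} {A₂ : Type w} [Group A] [Group A₂] (α : A ≃* A₂) (γ : A ≃* A) (γ₂ : A₂ ≃* A₂)
    (h : ∀ a, α (γ a) = γ₂ (α a)) (b : Set (IrrCharacter A₂)) : trSet γ (trSet α b) = trSet α (trSet γ₂ b) := by
  ext φ
  constructor
  · rintro ⟨_, ⟨θ, hθ, rfl⟩, rfl⟩
    exact ⟨_, ⟨θ, hθ, rfl⟩, trIrr_comm α γ γ₂ h θ⟩
  · rintro ⟨_, ⟨θ, hθ, rfl⟩, rfl⟩
    exact ⟨_, ⟨θ, hθ, rfl⟩, (trIrr_comm α γ γ₂ h θ).symm⟩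

/-- `C_N(R') ≃ C_G(R) ∩ N` -/
def kEquiv (N : Subgroup G) (R' : Subgroup N) :
    Subgroup.centralizer (R' : Set N) ≃*
      (Subgroup.centralizer ((R'.map N.subtype : Subgroup G) : Set G) ⊓ N : Subgroup G) where
  toFun k := ⟨((k : N) : G), ⟨(tdict_h1 N _ R' rfl k).mp k.2, (k : N).2⟩⟩
  invFun l := ⟨⟨(l : G), l.2.2⟩, (tdict_h1 N _ R' rfl ⟨(l : G), l.2.2⟩).mpr l.2.1⟩
  left_inv k := rfl
  right_inv l := rfl
  map_mul' a b := rfl

theorem trIrr_inner (L : Subgroup G) (w : G) (hw : w ∈ L) (hw' : w ∈ Subgroup.normalizer (L : Set G))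
    (θ : IrrCharacter L) : trIrr (conjInvEquiv L w hw') θ = θ := by
  apply Subtype.ext
  funext k
  rw [trIrr_apply]
  have h1 : conjInvEquiv L w hw' k = (⟨w, hw⟩ : L)⁻¹ * k * (⟨w, hw⟩ : L)⁻¹⁻¹ := by
    apply Subtype.ext
    show w⁻¹ * (k : G) * w = w⁻¹ * (k : G) * w⁻¹⁻¹
    rw [inv_inv]
  rw [h1]
  exact IrrCharacter.isClassFunction θ k _

theorem trSet_inner (L : Subgroup G) (w : G) (hw : w ∈ L) (hw' : w ∈ Subgroup.normalizer (L : Set G))
    (f : Set (IrrCharacter L)) : trSet (conjInvEquiv L w hw') f = f := by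
  ext φ
  constructor
  · rintro ⟨θ, hθ, rfl⟩
    rw [trIrr_inner L w hw]; exact hθ
  · intro h
    exact ⟨φ, h, (trIrr_inner L w hw hw' φ).symm⟩

theorem trSet_conj_iterate (L : Subgroup G) (w : G) (hw : w ∈ Subgroup.normalizer (L : Set G))
    (f : Set (IrrCharacter L)) (j : ℕ) :
    (trSet (conjInvEquiv L w hw))^[j] f = trSet (conjInvEquiv L (w ^ j) (Subgroup.pow_mem _ hw j)) f := by
  induction j with
  | zero => rw [Function.iterate_zero, id, trSet_conj_one L _ _ (pow_zero w)]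
  | succ j ih =>
    rw [Function.iterate_succ_apply', ih]
    exact (trSet_conj_mul L w (w ^ j) _ hw _ _ (pow_succ' w j) f).symm

/-- commuting actions: `a f = b f` forces `a f = f` when `b` has `p`-power order modulo `L` and `a` has order prime
to `p` -/
theorem stab_of_commuting [Fact p.Prime] (L : Subgroup G) (u y : G) (hu : u ∈ Subgroup.normalizer (L : Set G))
    (hy : y ∈ Subgroup.normalizer (L : Set G)) (hcomm : u⁻¹ * y⁻¹ * u * y ∈ L) (s : ℕ) (hys : y ^ p ^ s ∈ L)
    (hreg : ¬ p ∣ orderOf u) (hfin : 0 < orderOf u)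
    (f : Set (IrrCharacter L))
    (h : trSet (conjInvEquiv L u hu) f = trSet (conjInvEquiv L y hy) f) :
    trSet (conjInvEquiv L u hu) f = f := by
  have hp : p.Prime := Fact.out
  have hc : Function.Commute (trSet (conjInvEquiv L u hu)) (trSet (conjInvEquiv L y hy)) := by
    intro b
    have hz := Subgroup.le_normalizer hcomm
    rw [← trSet_conj_mul L u y (u * y) hu hy (Subgroup.mul_mem _ hu hy) rfl,
      ← trSet_conj_mul L y u (y * u) hy hu (Subgroup.mul_mem _ hy hu) rfl,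
      trSet_conj_mul L (y * u) (u⁻¹ * y⁻¹ * u * y) (u * y) (Subgroup.mul_mem _ hy hu) hz _ (by group),
      trSet_inner L _ hcomm]
  have hit : ∀ j : ℕ, (trSet (conjInvEquiv L u hu))^[j] f = (trSet (conjInvEquiv L y hy))^[j] f := by
    intro j
    induction j with
    | zero => rfl
    | succ j ih =>
      rw [Function.iterate_succ_apply, h, (hc.iterate_left j).eq, ih]
      exact (Function.iterate_succ_apply' _ j f).symm
  have h1 : Function.IsPeriodicPt (trSet (conjInvEquiv L u hu)) (p ^ s) f := by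
    show (trSet (conjInvEquiv L u hu))^[p ^ s] f = f
    rw [hit, trSet_conj_iterate, trSet_inner L _ hys]
  have h2 : Function.IsPeriodicPt (trSet (conjInvEquiv L u hu)) (orderOf u) f := by
    show (trSet (conjInvEquiv L u hu))^[orderOf u] f = f
    rw [trSet_conj_iterate, trSet_conj_one L _ _ (pow_orderOf_eq_one u)]
  have h3 := h1.gcd h2
  have h4 : (p ^ s).gcd (orderOf u) = 1 :=
    Nat.Coprime.pow_left _ ((Nat.Prime.coprime_iff_not_dvd hp).mpr hreg)
  rw [h4] at h3
  exact h3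

theorem spec_over [Fintype G] (N : Subgroup G) [hN : N.Normal] [Fintype N] (χ : IrrCharacter G)
    (θ : IrrCharacter N) (h : classInner (fun n : N => (χ : G → ℂ) n) (θ : N → ℂ) ≠ 0) (a : G → ℂ)
    (ha : IsClassFunction G a) (hsupp : ∀ g, g ∉ N → a g = 0) :
    spec a χ = spec (fun n : N => a n) θ := by
  classical
  haveI := Fintype.ofFinite (IrrCharacter G)
  haveI := Fintype.ofFinite (ConjClasses G)
  have h1 : lamInd N (θ : N → ℂ) (spec a) = spec (fun n : N => a n) θ := by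
    unfold lamInd
    rw [coef_spec a ha]
    unfold spec
    rw [Finset.sum_div]
    apply Finset.sum_congr rfl; intro n _
    rw [mul_div_assoc]
  rw [← h1, lamInd_eq_sum_classes, eval_eq_sum_classes (spec a) χ]
  apply Finset.sum_congr rfl; intro C _
  by_cases hC : Quotient.out C ∈ N
  · rw [centralChar_eq_icc_of_over N χ θ h ⟨_, hC⟩]
  · rw [coef_spec a ha, hsupp _ hC, zero_mul, zero_mul]

/-- the omega equality -/
theorem omega_pq [Fintype G] (N : Subgroup G) [hN : N.Normal] (c : Set (IrrCharacter N))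
    (B : Set (IrrCharacter G)) (hBc : ∀ g : G, blockCoeff B g = subgroupBlockCoeff N c g) (R' : Subgroup N)
    (ξL : IrrCharacter (Subgroup.centralizer ((R'.map N.subtype : Subgroup G) : Set G) ⊓ N : Subgroup G))
    (ξ₁ : IrrCharacter (Subgroup.centralizer ((R'.map N.subtype : Subgroup G) : Set G)))
    [Fintype ((Subgroup.centralizer ((R'.map N.subtype : Subgroup G) : Set G) ⊓ N : Subgroup G).subgroupOf
      (Subgroup.centralizer ((R'.map N.subtype : Subgroup G) : Set G)))]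
    (h : classInner (fun l : (Subgroup.centralizer ((R'.map N.subtype : Subgroup G) : Set G) ⊓ N : Subgroup G).subgroupOf
      (Subgroup.centralizer ((R'.map N.subtype : Subgroup G) : Set G)) => ξ₁.1 l)
      (trIrr (Subgroup.subgroupOfEquivOfLe inf_le_left) ξL).1 ≠ 0) :
    brauerOmega (R'.map N.subtype) (blockCoeff B) (ξ₁ : _ → ℂ)
      = brauerOmega R' (blockCoeff c) (trIrr (kEquiv N R') ξL : _ → ℂ) := by
  classical
  haveI := Fintype.ofFinite (Subgroup.centralizer ((R'.map N.subtype : Subgroup G) : Set G))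
  haveI := Fintype.ofFinite (Subgroup.centralizer (R' : Set N))
  haveI hLn : ((Subgroup.centralizer ((R'.map N.subtype : Subgroup G) : Set G) ⊓ N : Subgroup G).subgroupOf
      (Subgroup.centralizer ((R'.map N.subtype : Subgroup G) : Set G))).Normal := by
    rw [Subgroup.inf_subgroupOf_left]
    infer_instance
  rw [brauerOmega_eq_spec, brauerOmega_eq_spec, spec_over _ ξ₁ _ h]
  · unfold spec
    rw [trIrr_apply, trIrr_apply, map_one, map_one]
    congr 1
    rw [← Equiv.sum_comp ((kEquiv N R').trans (Subgroup.subgroupOfEquivOfLe inf_le_left).symm).toEquiv]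
    apply Finset.sum_congr rfl; intro k _
    rw [trIrr_apply, trIrr_apply]
    have e1 : (Subgroup.subgroupOfEquivOfLe inf_le_left)
        (((kEquiv N R').trans (Subgroup.subgroupOfEquivOfLe inf_le_left).symm).toEquiv k) = kEquiv N R' k := by
      show (Subgroup.subgroupOfEquivOfLe inf_le_left) ((Subgroup.subgroupOfEquivOfLe inf_le_left).symm _) = _
      rw [MulEquiv.apply_symm_apply]
      rfl
    rw [e1]
    congr 1
    beta_reduce
    have e2 : (((((kEquiv N R').trans (Subgroup.subgroupOfEquivOfLe inf_le_left).symm).toEquiv k :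
        (Subgroup.centralizer ((R'.map N.subtype : Subgroup G) : Set G) ⊓ N : Subgroup G).subgroupOf
      (Subgroup.centralizer ((R'.map N.subtype : Subgroup G) : Set G))) :
        Subgroup.centralizer ((R'.map N.subtype : Subgroup G) : Set G)) : G) = ((k : N) : G) := rfl
    rw [e2, hBc, subgroupBlockCoeff_mem N c _ (k : N).2]
  · intro g x
    exact blockCoeff_conj B (x : G) (g : G)
  · intro g hg
    rw [hBc]
    unfold subgroupBlockCoeff
    rw [dif_neg]
    intro hgN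
    exact hg (Subgroup.mem_subgroupOf.mpr ⟨g.2, hgN⟩)

theorem stab_k_to_l (N : Subgroup G) (R' : Subgroup N)
    (fL : Set (IrrCharacter (Subgroup.centralizer ((R'.map N.subtype : Subgroup G) : Set G) ⊓ N : Subgroup G)))
    (x : N) (hx : (x : G) ∈ Subgroup.normalizer
      ((Subgroup.centralizer ((R'.map N.subtype : Subgroup G) : Set G) ⊓ N : Subgroup G) : Set G))
    (h : StabilizesBlock (Subgroup.centralizer (R' : Set N)) (trSet (kEquiv N R') fL) x) :
    StabilizesBlock (Subgroup.centralizer ((R'.map N.subtype : Subgroup G) : Set G) ⊓ N : Subgroup G) fL (x : G) := by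
  refine ⟨hx, ?_⟩
  intro χ hχ
  obtain ⟨_, ⟨χ1, hχ1, rfl⟩, hc⟩ := h.2 _ (trIrr_mem (kEquiv N R') hχ)
  refine ⟨χ1, hχ1, ?_⟩
  intro k k' hk
  exact hc ((kEquiv N R').symm k) ((kEquiv N R').symm k') (Subtype.ext hk)

theorem stab_l_to_k (N : Subgroup G) (R' : Subgroup N)
    (fL : Set (IrrCharacter (Subgroup.centralizer ((R'.map N.subtype : Subgroup G) : Set G) ⊓ N : Subgroup G)))
    (x : N) (hx : x ∈ Subgroup.normalizer (Subgroup.centralizer (R' : Set N) : Set N))
    (h : StabilizesBlock (Subgroup.centralizer ((R'.map N.subtype : Subgroup G) : Set G) ⊓ N : Subgroup G) fL (x : G)) :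
    StabilizesBlock (Subgroup.centralizer (R' : Set N)) (trSet (kEquiv N R') fL) x := by
  refine ⟨hx, ?_⟩
  rintro _ ⟨χ, hχ, rfl⟩
  obtain ⟨χ1, hχ1, hc⟩ := h.2 χ hχ
  refine ⟨_, trIrr_mem _ hχ1, ?_⟩
  intro k k' hk
  rw [trIrr_apply, trIrr_apply]
  exact hc _ _ (congrArg Subtype.val hk)

/-- conjugating both a character of `C` and a constituent of its restriction to `L` -/
theorem over_conj (C L₀ : Subgroup G) (hle : L₀ ≤ C) [Fintype (L₀.subgroupOf C)] (x : G)
    (hxC : x ∈ Subgroup.normalizer (C : Set G)) (hxL : x ∈ Subgroup.normalizer (L₀ : Set G))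
    (ξ₁ : IrrCharacter C) (ξL : IrrCharacter L₀) :
    classInner (fun l : L₀.subgroupOf C => (trIrr (conjInvEquiv C x hxC) ξ₁ : C → ℂ) l)
      (trIrr (Subgroup.subgroupOfEquivOfLe hle) (trIrr (conjInvEquiv L₀ x hxL) ξL) : _ → ℂ)
    = classInner (fun l : L₀.subgroupOf C => (ξ₁ : C → ℂ) l) (trIrr (Subgroup.subgroupOfEquivOfLe hle) ξL : _ → ℂ) := by
  unfold classInner
  congr 1
  rw [← Equiv.sum_comp (((Subgroup.subgroupOfEquivOfLe hle).trans (conjInvEquiv L₀ x hxL)).trans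
    (Subgroup.subgroupOfEquivOfLe hle).symm).toEquiv (fun l => (ξ₁ : C → ℂ) l *
      conj ((trIrr (Subgroup.subgroupOfEquivOfLe hle) ξL : _ → ℂ) l))]
  apply Finset.sum_congr rfl; intro l _
  beta_reduce
  rw [trIrr_apply, trIrr_apply, trIrr_apply, trIrr_apply]
  congr 2

theorem pairOf_of_one [Fintype G] (hM : IsPModular p M) (B : Set (IrrCharacter G)) (hB : IsPBlock M B)
    (Q : Subgroup G) (hQ : IsPGroup p Q) (f : Set (IrrCharacter (Subgroup.centralizer (Q : Set G))))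
    (hf : IsPBlock M f) (ξ0 : IrrCharacter (Subgroup.centralizer (Q : Set G))) (hξ0 : ξ0 ∈ f)
    (h : MemLocalIdeal M (brauerOmega Q (blockCoeff B) (ξ0 : Subgroup.centralizer (Q : Set G) → ℂ) - 1)) :
    IsBrauerPairOf p M B Q f := by
  classical
  haveI := Fintype.ofFinite (Subgroup.centralizer (Q : Set G))
  haveI := Fintype.ofFinite (IrrCharacter (Subgroup.centralizer (Q : Set G)))
  refine ⟨⟨hQ, hf⟩, hB, ?_⟩
  intro ξ hξ
  have hvZ : InZ M (spec (fun l : Subgroup.centralizer (Q : Set G) => blockCoeff B l)) := by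
    intro l
    rw [coef_spec (fun l : Subgroup.centralizer (Q : Set G) => blockCoeff B l)
      (fun l k => blockCoeff_conj B (k : G) (l : G))]
    exact blockCoeff_loc hM B hB _
  have hsb : SameBlock M (ξ : Subgroup.centralizer (Q : Set G) → ℂ) (ξ0 : Subgroup.centralizer (Q : Set G) → ℂ) := by
    rw [IsPBlock.eq_blockOf hM hf hξ] at hξ0; exact hξ0
  have h1 := hvZ.congr hM hsb
  rw [brauerOmega_eq_spec] at h ⊢
  have h2 := MemLocalIdeal.add hM h1 h
  rwa [sub_add_sub_cancel] at h2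

theorem stab_up [Fintype G] (hM : IsPModular p M) (C L₀ : Subgroup G) (hle : L₀ ≤ C)
    [hLn : (L₀.subgroupOf C).Normal] (hidx : ∃ k : ℕ, (L₀.subgroupOf C).index = p ^ k)
    [Fintype (L₀.subgroupOf C)]
    (f₁ : Set (IrrCharacter C)) (hf₁ : IsPBlock M f₁) (fL : Set (IrrCharacter L₀)) (hfL : IsPBlock M fL)
    (ξ₁ : IrrCharacter C) (hξ₁ : ξ₁ ∈ f₁) (ξL : IrrCharacter L₀) (hξL : ξL ∈ fL)
    (hov : classInner (fun l : L₀.subgroupOf C => (ξ₁ : C → ℂ) l)
      (trIrr (Subgroup.subgroupOfEquivOfLe hle) ξL).1 ≠ 0)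
    (x : G) (hxC : x ∈ Subgroup.normalizer (C : Set G)) (hxs : StabilizesBlock L₀ fL x) :
    StabilizesBlock C f₁ x := by
  classical
  haveI := Fintype.ofFinite C
  apply stabilizes_of_trSet C f₁ x hxC
  have h1 := trSet_eq_of_stabilizes hM L₀ fL hfL x hxs
  have h2 : trIrr (conjInvEquiv L₀ x hxs.1) ξL ∈ fL := by
    have := trIrr_mem (conjInvEquiv L₀ x hxs.1) hξL
    rwa [h1] at this
  have h3 := over_conj C L₀ hle x hxC hxs.1 ξ₁ ξL
  have h4 : SameBlock M (trIrr (conjInvEquiv C x hxC) ξ₁ : C → ℂ) (ξ₁ : C → ℂ) :=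
    unique_cover_of_pquot hM (L₀.subgroupOf C) hidx (trSet (Subgroup.subgroupOfEquivOfLe hle) fL)
      (isPBlock_trSet _ hfL) _ _
      ⟨_, trIrr_mem _ h2, by rw [h3]; exact hov⟩ ⟨_, trIrr_mem _ hξL, hov⟩
  have h5 : ξ₁ ∈ trSet (conjInvEquiv C x hxC) f₁ := by
    rw [IsPBlock.eq_blockOf hM (isPBlock_trSet _ hf₁) (trIrr_mem _ hξ₁)]
    exact h4
  exact block_eq_of_mem hM (isPBlock_trSet _ hf₁) hf₁ ξ₁ h5 hξ₁

theorem stab_down [Fintype G] [Fact p.Prime] (hM : IsPModular p M) (C L₀ : Subgroup G) (hle : L₀ ≤ C)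
    [hLn : (L₀.subgroupOf C).Normal] [Fintype (L₀.subgroupOf C)]
    (hCL : C ≤ Subgroup.normalizer (L₀ : Set G))
    (f₁ : Set (IrrCharacter C)) (hf₁ : IsPBlock M f₁) (fL : Set (IrrCharacter L₀)) (hfL : IsPBlock M fL)
    (ξ₁ : IrrCharacter C) (hξ₁ : ξ₁ ∈ f₁) (ξL : IrrCharacter L₀) (hξL : ξL ∈ fL)
    (hov : classInner (fun l : L₀.subgroupOf C => (ξ₁ : C → ℂ) l)
      (trIrr (Subgroup.subgroupOfEquivOfLe hle) ξL).1 ≠ 0)
    (x : G) (hxL : x ∈ Subgroup.normalizer (L₀ : Set G)) (hxs : StabilizesBlock C f₁ x)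
    (hcomm : ∀ y ∈ C, x⁻¹ * y⁻¹ * x * y ∈ L₀) (s : ℕ) (hpow : ∀ y ∈ C, y ^ p ^ s ∈ L₀)
    (hreg : ¬ p ∣ orderOf x) :
    StabilizesBlock L₀ fL x := by
  classical
  haveI := Fintype.ofFinite C
  have hxC : x ∈ Subgroup.normalizer (C : Set G) := hxs.1
  have h1 : trSet (conjInvEquiv C x hxC) f₁ = f₁ := trSet_eq_of_stabilizes hM C f₁ hf₁ x hxs
  have h2 : trIrr (conjInvEquiv C x hxC) ξ₁ ∈ f₁ := by
    have := trIrr_mem (conjInvEquiv C x hxC) hξ₁
    rwa [h1] at this
  have h3 := over_conj C L₀ hle x hxC hxL ξ₁ ξL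
  have hsb : SameBlock M (ξ₁ : C → ℂ) (trIrr (conjInvEquiv C x hxC) ξ₁ : C → ℂ) := by
    rw [IsPBlock.eq_blockOf hM hf₁ hξ₁] at h2; exact h2
  obtain ⟨g, _, ⟨θ, hθ, rfl⟩, hg⟩ := block_constituents_conj hM (L₀.subgroupOf C)
    (trSet (Subgroup.subgroupOfEquivOfLe hle) fL)
    (isPBlock_trSet _ hfL) ξ₁ _ ⟨_, trIrr_mem _ hξL, hov⟩ hsb
    (trIrr (Subgroup.subgroupOfEquivOfLe hle) (trIrr (conjInvEquiv L₀ x hxL) ξL)) (by rw [h3]; exact hov)
  have hgL : ((g : G))⁻¹ ∈ Subgroup.normalizer (L₀ : Set G) := hCL (inv_mem g.2)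
  have key : trIrr (conjInvEquiv L₀ x hxL) ξL = trIrr (conjInvEquiv L₀ (g : G)⁻¹ hgL) θ := by
    apply Subtype.ext; funext l
    have h5 := congrFun hg ((Subgroup.subgroupOfEquivOfLe hle).symm l)
    rw [trIrr_apply, conjFun_apply, trIrr_apply, MulEquiv.apply_symm_apply, trIrr_apply] at h5
    rw [trIrr_apply, h5, trIrr_apply]
    refine congrArg θ.1 (Subtype.ext ?_)
    show (g : G) * (l : G) * (g : G)⁻¹ = (g : G)⁻¹⁻¹ * (l : G) * (g : G)⁻¹
    rw [inv_inv]
  have heq : trSet (conjInvEquiv L₀ x hxL) fL = trSet (conjInvEquiv L₀ (g : G)⁻¹ hgL) fL :=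
    block_eq_of_mem hM (isPBlock_trSet _ hfL) (isPBlock_trSet _ hfL) _ (trIrr_mem _ hξL)
      (key ▸ trIrr_mem _ hθ)
  apply stabilizes_of_trSet L₀ fL x hxL
  exact stab_of_commuting L₀ x (g : G)⁻¹ hxL hgL (hcomm _ (inv_mem g.2)) s (hpow _ (inv_mem g.2)) hreg
    (orderOf_pos x) fL heq

theorem normalizer_inf_normal (N : Subgroup G) [hN : N.Normal] (C : Subgroup G) (x : G)
    (hx : x ∈ Subgroup.normalizer (C : Set G)) : x ∈ Subgroup.normalizer ((C ⊓ N : Subgroup G) : Set G) := by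
  rw [Subgroup.mem_normalizer_iff]
  intro h
  have h1 := Subgroup.mem_normalizer_iff.mp hx h
  have h2 : h ∈ N ↔ x * h * x⁻¹ ∈ N := ⟨fun hh => hN.conj_mem h hh x, fun hh => by
    have := hN.conj_mem _ hh x⁻¹
    simpa [mul_assoc] using this⟩
  rw [Subgroup.mem_inf, Subgroup.mem_inf, h1, h2]

theorem pq_normal (N : Subgroup G) [hN : N.Normal] (C : Subgroup G) : ((C ⊓ N).subgroupOf C).Normal := by
  rw [Subgroup.inf_subgroupOf_left]
  infer_instance

theorem pq_index [Fact p.Prime] (N : Subgroup G) [hN : N.Normal] (C : Subgroup G) (k : ℕ) (hk : N.index = p ^ k) :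
    ∃ j : ℕ, ((C ⊓ N).subgroupOf C).index = p ^ j := by
  rw [Subgroup.inf_subgroupOf_left]
  have h1 : (N.subgroupOf C).index ∣ N.index := Subgroup.relIndex_dvd_index_of_normal N C
  rw [hk] at h1
  obtain ⟨j, -, hj⟩ := (Nat.dvd_prime_pow (Fact.out : p.Prime)).mp h1
  exact ⟨j, hj⟩

theorem coprime_centralize [Finite G] [Fact p.Prime] (Q R : Subgroup G) (hQ : IsPGroup p Q) (hRQ : R ≤ Q) (x : G)
    (hreg : ¬ p ∣ orderOf x) (hxR : x ∈ Subgroup.centralizer (R : Set G))
    (hcomm : ∀ q ∈ Q, q⁻¹ * (x * q * x⁻¹) ∈ R) : x ∈ Subgroup.centralizer (Q : Set G) := by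
  have hp : p.Prime := Fact.out
  rw [Subgroup.mem_centralizer_iff]
  intro q hq
  set r := q⁻¹ * (x * q * x⁻¹) with hr
  have hrR := hcomm q hq
  have hxr : x * r = r * x := (Subgroup.mem_centralizer_iff.mp hxR r hrR).symm
  have h2' : x * q * x⁻¹ = q * r := by rw [hr]; group
  have hpow : ∀ j : ℕ, x ^ j * q * (x ^ j)⁻¹ = q * r ^ j := by
    intro j
    induction j with
    | zero => simp
    | succ j ih =>
      have e1 : x ^ (j + 1) * q * (x ^ (j + 1))⁻¹ = x * (x ^ j * q * (x ^ j)⁻¹) * x⁻¹ := by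
        rw [pow_succ']; group
      rw [e1, ih]
      have h1 : x * r ^ j * x⁻¹ = r ^ j := by
        have hc : Commute x (r ^ j) := (show Commute x r from hxr).pow_right j
        rw [hc.eq, mul_inv_cancel_right]
      calc x * (q * r ^ j) * x⁻¹ = (x * q * x⁻¹) * (x * r ^ j * x⁻¹) := by group
        _ = q * r ^ (j + 1) := by rw [h1, h2', pow_succ', mul_assoc]
  have h1 := hpow (orderOf x)
  rw [pow_orderOf_eq_one] at h1
  have h2 : r ^ orderOf x = 1 := by simpa using h1.symm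
  obtain ⟨m, hm⟩ := hQ ⟨r, hRQ hrR⟩
  have h3 : r ^ p ^ m = 1 := by simpa using congrArg Subtype.val hm
  have h4 : r = 1 := by
    have hcop : Nat.Coprime (orderOf x) (p ^ m) :=
      (Nat.Coprime.pow_left m ((Nat.Prime.coprime_iff_not_dvd hp).mpr hreg)).symm
    have h5 := Nat.dvd_gcd (orderOf_dvd_of_pow_eq_one h2) (orderOf_dvd_of_pow_eq_one h3)
    rw [hcop] at h5
    exact orderOf_eq_one_iff.mp (Nat.dvd_one.mp h5)
  have h5 : x * q * x⁻¹ = q := by rw [h2', h4, mul_one]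
  calc q * x = (x * q * x⁻¹) * x := by rw [h5]
    _ = x * q := by group

theorem nilpotent_pquot [Fintype G] [Fact p.Prime] (hM : IsPModular p M) (N : Subgroup G) [hN : N.Normal]
    (hidx : ∃ k : ℕ, N.index = p ^ k) (c : Set (IrrCharacter N)) (hc : IsPBlock M c)
    (B : Set (IrrCharacter G)) (hB : IsPBlock M B)
    (hBc : ∀ g : G, blockCoeff B g = subgroupBlockCoeff N c g) :
    IsNilpotentBlock p M c ↔ IsNilpotentBlock p M B := by
  classical
  obtain ⟨k, hk⟩ := hidx
  constructor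
  · intro hcn
    refine ⟨hB, ?_⟩
    intro Q e hpair x hxN hxs hreg
    have hxNN : x ∈ N := mem_of_regular_of_index N k hk x hreg
    have hR : ((Q ⊓ N).subgroupOf N).map N.subtype = Q ⊓ N := Subgroup.map_subgroupOf_eq_of_le inf_le_right
    generalize hR'def : (Q ⊓ N).subgroupOf N = R' at hR
    haveI := pq_normal N (Subgroup.centralizer ((R'.map N.subtype : Subgroup G) : Set G))
    haveI := Fintype.ofFinite ((Subgroup.centralizer ((R'.map N.subtype : Subgroup G) : Set G) ⊓ N : Subgroup G).subgroupOf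
      (Subgroup.centralizer ((R'.map N.subtype : Subgroup G) : Set G)))
    haveI := Fintype.ofFinite (Subgroup.centralizer ((R'.map N.subtype : Subgroup G) : Set G))
    haveI := Fintype.ofFinite N
    haveI := Fintype.ofFinite (IrrCharacter (Subgroup.centralizer ((R'.map N.subtype : Subgroup G) : Set G)))
    haveI := Fintype.ofFinite (IrrCharacter (Subgroup.centralizer ((R'.map N.subtype : Subgroup G) : Set G) ⊓ N : Subgroup G))
    have hQn : Q ≤ Subgroup.normalizer ((R'.map N.subtype : Subgroup G) : Set G) := by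
      rw [hR]
      intro q hq
      exact normalizer_inf_normal N Q q (Subgroup.le_normalizer hq)
    obtain ⟨f₁, hf₁n⟩ := normalSubpair_exists hM (R'.map N.subtype) Q e hpair.1 (by rw [hR]; exact inf_le_left) hQn
    have hf₁B : IsBrauerPairOf p M B (R'.map N.subtype) f₁ :=
      (brauerPairOf_normal_step hM _ Q f₁ e hf₁n B hB).mp hpair
    have hxR : x ∈ Subgroup.normalizer ((R'.map N.subtype : Subgroup G) : Set G) := by
      rw [hR]; exact normalizer_inf_normal N Q x hxN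
    have hxf₁ := stabilizes_subpair hM Q e hpair.1 _ f₁ hf₁n.1.2 (Relation.ReflTransGen.single hf₁n) x hxN hxs hxR
    obtain ⟨ξ₁, hξ₁⟩ := IsPBlock.nonempty hM hf₁n.1.2
    obtain ⟨θ, hθ⟩ := exists_under ((Subgroup.centralizer ((R'.map N.subtype : Subgroup G) : Set G) ⊓ N :
      Subgroup G).subgroupOf (Subgroup.centralizer ((R'.map N.subtype : Subgroup G) : Set G))) ξ₁
    have hθ' : θ = trIrr (Subgroup.subgroupOfEquivOfLe inf_le_left)
        (trIrr (Subgroup.subgroupOfEquivOfLe inf_le_left).symm θ) := (trIrr_symm' _ θ).symm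
    generalize trIrr (Subgroup.subgroupOfEquivOfLe inf_le_left).symm θ = ξL at hθ'
    subst hθ'
    have hRp : IsPGroup p R' := by
      rw [← hR'def]
      exact (hpair.1.1.to_le inf_le_left).comap_subtype
    have hmemL : ξL ∈ blockOf M ξL.1 := SameBlock.refl hM _
    have hpc : IsBrauerPairOf p M c R' (trSet (kEquiv N R') (blockOf M ξL.1)) :=
      pairOf_of_one hM c hc R' hRp _ (isPBlock_trSet _ ⟨ξL, rfl⟩) (trIrr (kEquiv N R') ξL)
        (trIrr_mem _ hmemL) (by
          rw [← omega_pq N c B hBc R' ξL ξ₁ hθ]; exact hf₁B.2.2 ξ₁ hξ₁)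
    have hxC := normalizer_le_normalizer_centralizer _ hxR
    have hsd := stab_down hM (Subgroup.centralizer ((R'.map N.subtype : Subgroup G) : Set G)) (Subgroup.centralizer ((R'.map N.subtype : Subgroup G) : Set G) ⊓ N : Subgroup G) inf_le_left
      (fun y hy => normalizer_inf_normal N _ y (Subgroup.le_normalizer hy)) f₁ hf₁n.1.2
      (blockOf M ξL.1) ⟨ξL, rfl⟩ ξ₁ hξ₁ ξL hmemL hθ x
      (normalizer_inf_normal N _ x hxC) hxf₁
      (fun y hy => ⟨by
          have h1 := (Subgroup.mem_normalizer_iff.mp (inv_mem hxC) y⁻¹).mp (inv_mem hy)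
          rw [inv_inv] at h1
          exact mul_mem h1 hy, by
          have h1 := hN.conj_mem x hxNN y⁻¹
          rw [inv_inv] at h1
          have h2 := mul_mem (inv_mem hxNN) h1
          have e1 : x⁻¹ * y⁻¹ * x * y = x⁻¹ * (y⁻¹ * x * y) := by group
          rw [e1]; exact h2⟩) k
      (fun y hy => ⟨pow_mem hy _, by rw [← hk]; exact Subgroup.pow_index_mem N y⟩) hreg
    have hxR' : (⟨x, hxNN⟩ : N) ∈ Subgroup.normalizer (R' : Set N) := by
      rw [← hR'def, Subgroup.mem_normalizer_iff]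
      intro h
      rw [Subgroup.mem_subgroupOf, Subgroup.mem_subgroupOf]
      exact Subgroup.mem_normalizer_iff.mp (normalizer_inf_normal N Q x hxN) h
    have hsk := stab_l_to_k N R' _ ⟨x, hxNN⟩ (normalizer_le_normalizer_centralizer R' hxR') hsd
    have hreg' : IsPRegular p (⟨x, hxNN⟩ : N) := by
      unfold IsPRegular
      rw [Subgroup.orderOf_mk]; exact hreg
    have hxc := hcn.2 R' _ hpc ⟨x, hxNN⟩ hxR' hsk hreg'
    have hxcR := (tdict_h1 N _ R' rfl ⟨x, hxNN⟩).mp hxc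
    rw [hR] at hxcR
    refine coprime_centralize Q (Q ⊓ N) hpair.1.1 inf_le_left x hreg hxcR ?_
    intro q hq
    refine Subgroup.mem_inf.mpr ⟨Q.mul_mem (Q.inv_mem hq) ((Subgroup.mem_normalizer_iff.mp hxN q).mp hq), ?_⟩
    have h1 := hN.conj_mem x hxNN q⁻¹
    rw [inv_inv] at h1
    have e1 : q⁻¹ * (x * q * x⁻¹) = (q⁻¹ * x * q) * x⁻¹ := by group
    rw [e1]; exact N.mul_mem h1 (N.inv_mem hxNN)
  · intro hBn
    refine ⟨hc, ?_⟩
    intro R' f' hpair x hxN hxs hreg
    haveI := pq_normal N (Subgroup.centralizer ((R'.map N.subtype : Subgroup G) : Set G))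
    haveI := Fintype.ofFinite ((Subgroup.centralizer ((R'.map N.subtype : Subgroup G) : Set G) ⊓ N : Subgroup G).subgroupOf
      (Subgroup.centralizer ((R'.map N.subtype : Subgroup G) : Set G)))
    haveI := Fintype.ofFinite (Subgroup.centralizer ((R'.map N.subtype : Subgroup G) : Set G))
    haveI := Fintype.ofFinite N
    haveI := Fintype.ofFinite (IrrCharacter (Subgroup.centralizer ((R'.map N.subtype : Subgroup G) : Set G)))
    haveI := Fintype.ofFinite (IrrCharacter (Subgroup.centralizer ((R'.map N.subtype : Subgroup G) : Set G) ⊓ N : Subgroup G))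
    have hf' : f' = trSet (kEquiv N R') (trSet (kEquiv N R').symm f') := (trSet_symm' _ _).symm
    have hfLb : IsPBlock M (trSet (kEquiv N R').symm f') := isPBlock_trSet _ hpair.1.2
    generalize trSet (kEquiv N R').symm f' = fL at hf' hfLb
    subst hf'
    obtain ⟨ξL, hξL⟩ := IsPBlock.nonempty hM hfLb
    obtain ⟨ξ₁, hov⟩ := exists_over ((Subgroup.centralizer ((R'.map N.subtype : Subgroup G) : Set G) ⊓ N :
      Subgroup G).subgroupOf (Subgroup.centralizer ((R'.map N.subtype : Subgroup G) : Set G)))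
      (trIrr (Subgroup.subgroupOfEquivOfLe inf_le_left) ξL)
    have hmem1 : ξ₁ ∈ blockOf M ξ₁.1 := SameBlock.refl hM _
    have hpB : IsBrauerPairOf p M B (R'.map N.subtype) (blockOf M ξ₁.1) :=
      pairOf_of_one hM B hB _ (hpair.1.1.map _) _ ⟨ξ₁, rfl⟩ ξ₁ hmem1 (by
        rw [omega_pq N c B hBc R' ξL ξ₁ hov]; exact hpair.2.2 _ (trIrr_mem _ hξL))
    have hxG : (x : G) ∈ Subgroup.normalizer ((R'.map N.subtype : Subgroup G) : Set G) :=
      map_subtype_normalizer N R' x hxN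
    have hxC := normalizer_le_normalizer_centralizer _ hxG
    have hxL := normalizer_inf_normal N _ (x : G) hxC
    have hsL := stab_k_to_l N R' fL x hxL hxs
    have hsC := stab_up hM (Subgroup.centralizer ((R'.map N.subtype : Subgroup G) : Set G)) (Subgroup.centralizer ((R'.map N.subtype : Subgroup G) : Set G) ⊓ N : Subgroup G) inf_le_left (pq_index N _ k hk) (blockOf M ξ₁.1) ⟨ξ₁, rfl⟩ fL hfLb ξ₁
      hmem1 ξL hξL hov (x : G) hxC hsL
    have hreg' : IsPRegular p (x : G) := by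
      unfold IsPRegular
      rw [Subgroup.orderOf_coe]; exact hreg
    exact (tdict_h1 N _ R' rfl x).mpr (hBn.2 _ _ hpB (x : G) hxG hsC hreg')

end PQ
end Cfsg.Agent.H4
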