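import Cfsg.Agent.Lib_helper4_BlkBX

set_option autoImplicit false
set_option linter.style.haveILetI false
set_option linter.unusedSectionVars false
namespace Cfsg.Agent.H4
open Module
open scoped ComplexConjugate
universe u v w

section LB
variable {p : ℕ} {M : Ideal AlgInt} {G : Type u} [Group G]

theorem principal_over [Fintype G] [Fact p.Prime] (hM : IsPModular p M) (H : Subgroup G) [hN : H.Normal] [Fintype H]
    (θ : IrrCharacter H) (hθ : θ ∈ principalBlock M H) :
    ∃ χ ∈ principalBlock M G, classInner (fun n : H => (χ : G → ℂ) n) (θ : H → ℂ) ≠ 0 := by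
  classical
  haveI := Fintype.ofFinite (IrrCharacter G)
  rw [mem_principal_iff_regsum hM] at hθ
  have hreal : ∀ g : G, conj (regInd p G g) = regInd p G g := by
    intro g; unfold regInd; split_ifs <;> simp
  have h1 := frobenius_reciprocity H (θ : H → ℂ) (regInd p G) regInd_isClassFunction
  have h2 : classInner (θ : H → ℂ) (fun h : H => regInd p G h) ≠ 0 := by
    unfold classInner
    apply mul_ne_zero (inv_ne_zero card_ne_zero_C)
    intro h0
    apply hθ
    rw [← h0]
    apply Finset.sum_congr rfl; intro h _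
    rw [hreal, mul_comm]
    congr 1
    unfold regInd
    rw [Subgroup.orderOf_coe]
  rw [← h1] at h2
  by_contra hcon
  push Not at hcon
  apply h2
  have h3 := classFunction_expansion' (indFun H (θ : H → ℂ)) (indFun_isClassFunction H _)
  unfold classInner
  rw [mul_eq_zero]; right
  have h4 : ∀ g : G, indFun H (θ : H → ℂ) g = ∑ χ : IrrCharacter G,
      classInner (indFun H (θ : H → ℂ)) (χ : G → ℂ) * (χ : G → ℂ) g := by
    intro g
    have := congrFun h3 g
    simpa [Finset.sum_apply] using this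
  simp_rw [hreal]
  have h5 : ∑ g : G, indFun H (θ : H → ℂ) g * regInd p G g
      = ∑ χ : IrrCharacter G, classInner (indFun H (θ : H → ℂ)) (χ : G → ℂ) * ∑ g : G, regInd p G g * (χ : G → ℂ) g := by
    calc ∑ g : G, indFun H (θ : H → ℂ) g * regInd p G g
        = ∑ g : G, ∑ χ : IrrCharacter G, classInner (indFun H (θ : H → ℂ)) (χ : G → ℂ) * (regInd p G g * (χ : G → ℂ) g) := by
          apply Finset.sum_congr rfl; intro g _
          conv_lhs => rw [h4 g]
          rw [Finset.sum_mul]
          apply Finset.sum_congr rfl; intro χ _; ring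
      _ = _ := by
          rw [Finset.sum_comm]
          apply Finset.sum_congr rfl; intro χ _
          rw [Finset.mul_sum]
  rw [h5]
  apply Finset.sum_eq_zero
  intro χ _
  by_cases hχ : χ ∈ principalBlock M G
  · have h6 := hcon χ hχ
    rw [frobenius_reciprocity H _ _ (IrrCharacter.isClassFunction χ), ← classInner_conj_symm, h6]
    simp
  · have h7 : ∑ g : G, regInd p G g * (χ : G → ℂ) g = 0 := by
      by_contra h8
      exact hχ ((mem_principal_iff_regsum hM χ).mpr h8)
    rw [h7, mul_zero]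

theorem principal_under [Fintype G] [Fact p.Prime] (hM : IsPModular p M) (H : Subgroup G) [hN : H.Normal] [Fintype H]
    (χ : IrrCharacter G) (hχ : χ ∈ principalBlock M G) (θ : IrrCharacter H)
    (h : classInner (fun n : H => (χ : G → ℂ) n) (θ : H → ℂ) ≠ 0) : θ ∈ principalBlock M H := by
  classical
  haveI := Fintype.ofFinite (IrrCharacter H)
  have htriv : classInner (fun n : H => (trivIrr G : G → ℂ) n) (trivIrr H : H → ℂ) ≠ 0 := by
    unfold classInner
    apply mul_ne_zero (inv_ne_zero card_ne_zero_C)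
    have : ∑ g : H, (trivIrr G : G → ℂ) g * conj ((trivIrr H : H → ℂ) g) = (Fintype.card H : ℂ) := by
      have e : ∀ g : H, (trivIrr G : G → ℂ) g * conj ((trivIrr H : H → ℂ) g) = 1 := by
        intro g
        show (1 : ℂ) * conj (1 : ℂ) = 1
        simp
      simp_rw [e]; simp
    rw [this]
    exact_mod_cast Fintype.card_ne_zero
  obtain ⟨g, θ', hθ', hg⟩ := block_constituents_conj hM H (principalBlock M H) ⟨trivIrr H, rfl⟩ (trivIrr G) χ
    ⟨trivIrr H, SameBlock.refl hM _, htriv⟩ hχ θ h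
  have hst := stabilizes_principal (M := M) H g⁻¹ (by rw [Subgroup.normalizer_eq_top]; exact Subgroup.mem_top _)
  obtain ⟨χ', hχ', hc⟩ := hst.2 θ' hθ'
  have : χ' = θ := by
    apply Subtype.ext
    funext k
    rw [hg, conjFun_apply]
    exact hc ⟨g * k * g⁻¹, hN.conj_mem k k.2 g⟩ k (by show (k : G) = g⁻¹ * (g * k * g⁻¹) * g⁻¹⁻¹; group)
  rw [← this]; exact hχ'

theorem lambda_bounds [Finite G] [Fact p.Prime] (hM : IsPModular p M) (H : Subgroup G) [hN : H.Normal] :
    (∑ᶠ θ ∈ principalBlock M H, charDegree (θ : H → ℂ) ^ 2) ≤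
      (∑ᶠ χ ∈ principalBlock M G, charDegree (χ : G → ℂ) ^ 2) ∧
    (∑ᶠ χ ∈ principalBlock M G, charDegree (χ : G → ℂ) ^ 2) ≤
      H.index * ∑ᶠ θ ∈ principalBlock M H, charDegree (θ : H → ℂ) ^ 2 := by
  classical
  haveI := Fintype.ofFinite G
  haveI := Fintype.ofFinite H
  haveI := Fintype.ofFinite (IrrCharacter G)
  haveI := Fintype.ofFinite (IrrCharacter H)
  have hn : ∀ (χ : IrrCharacter G) (θ : IrrCharacter H), ∃ n : ℕ,
      classInner (fun h : H => (χ : G → ℂ) h) (θ : H → ℂ) = n :=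
    fun χ θ => IsCharacter.classInner_irr_nat (IsCharacter.restrict H (IsIrrCharacter.isCharacter χ.2)) θ
  choose n hn using hn
  set d : IrrCharacter G → ℕ := fun χ => charDegree (χ : G → ℂ) with hd
  set dH : IrrCharacter H → ℕ := fun θ => charDegree (θ : H → ℂ) with hdH
  have F1 : ∀ χ, d χ = ∑ θ, n χ θ * dH θ := by
    intro χ
    have hres : IsCharacter H (fun h : H => (χ : G → ℂ) h) :=
      IsCharacter.restrict H (IsIrrCharacter.isCharacter χ.2)
    have h2 := congrFun (classFunction_expansion' _ (IsCharacter.isClassFunction hres)) 1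
    simp only [Finset.sum_apply, Pi.smul_apply, smul_eq_mul, OneMemClass.coe_one] at h2
    have h3 : ((d χ : ℕ) : ℂ) = ((∑ θ, n χ θ * dH θ : ℕ) : ℂ) := by
      push_cast
      rw [hd, hdH]
      beta_reduce
      rw [charDegree_cast, h2]
      apply Finset.sum_congr rfl; intro θ _
      rw [hn, charDegree_cast]
    exact_mod_cast h3
  have F2 : ∀ θ, ∑ χ, n χ θ * d χ = H.index * dH θ := by
    intro θ
    have h2 := congrFun (classFunction_expansion' _ (indFun_isClassFunction H (θ : H → ℂ))) 1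
    simp only [Finset.sum_apply, Pi.smul_apply, smul_eq_mul] at h2
    rw [indFun_apply_one] at h2
    have h3 : ((∑ χ, n χ θ * d χ : ℕ) : ℂ) = ((H.index * dH θ : ℕ) : ℂ) := by
      push_cast
      rw [hd, hdH]
      beta_reduce
      rw [charDegree_cast, h2]
      apply Finset.sum_congr rfl; intro χ _
      rw [frobenius_reciprocity H _ _ (IrrCharacter.isClassFunction χ), ← classInner_conj_symm, hn,
        charDegree_cast]
      simp
    exact_mod_cast h3
  have F3 : ∀ χ ∈ principalBlock M G, ∀ θ, n χ θ ≠ 0 → θ ∈ principalBlock M H := by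
    intro χ hχ θ h
    apply principal_under hM H χ hχ θ
    rw [hn]; exact_mod_cast h
  have F4 : ∀ θ ∈ principalBlock M H, ∃ χ ∈ principalBlock M G, n χ θ ≠ 0 := by
    intro θ hθ
    obtain ⟨χ, hχ, h⟩ := principal_over hM H θ hθ
    refine ⟨χ, hχ, ?_⟩
    rw [hn] at h; exact_mod_cast h
  rw [finsum_mem_eq_toFinset_sum, finsum_mem_eq_toFinset_sum]
  set A := (principalBlock M G).toFinset with hA
  set Bh := (principalBlock M H).toFinset with hBh
  have hG : ∑ χ ∈ A, d χ ^ 2 = ∑ θ ∈ Bh, dH θ * ∑ χ ∈ A, n χ θ * d χ := by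
    have e1 : ∀ χ ∈ A, d χ ^ 2 = ∑ θ ∈ Bh, dH θ * (n χ θ * d χ) := by
      intro χ hχ
      have hχ' : χ ∈ principalBlock M G := Set.mem_toFinset.mp hχ
      have e2 : d χ = ∑ θ ∈ Bh, n χ θ * dH θ := by
        rw [F1 χ]
        symm
        apply Finset.sum_subset (Finset.subset_univ _)
        intro θ _ hθ
        have h0' : n χ θ = 0 := by
          by_contra h0
          exact hθ (Set.mem_toFinset.mpr (F3 χ hχ' θ h0))
        rw [h0', zero_mul]
      calc d χ ^ 2 = (∑ θ ∈ Bh, n χ θ * dH θ) * d χ := by rw [← e2]; ring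
        _ = _ := by rw [Finset.sum_mul]; apply Finset.sum_congr rfl; intro θ _; ring
    rw [Finset.sum_congr rfl e1, Finset.sum_comm]
    apply Finset.sum_congr rfl; intro θ _
    rw [Finset.mul_sum]
  show ∑ θ ∈ Bh, dH θ ^ 2 ≤ ∑ χ ∈ A, d χ ^ 2 ∧ ∑ χ ∈ A, d χ ^ 2 ≤ H.index * ∑ θ ∈ Bh, dH θ ^ 2
  rw [hG]
  constructor
  · apply Finset.sum_le_sum
    intro θ hθ
    obtain ⟨χ, hχ, h0⟩ := F4 θ (Set.mem_toFinset.mp hθ)
    have h1 : n χ θ * d χ ≤ ∑ χ ∈ A, n χ θ * d χ :=
      Finset.single_le_sum (f := fun χ => n χ θ * d χ) (fun _ _ => Nat.zero_le _) (Set.mem_toFinset.mpr hχ)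
    have h2 : n χ θ * dH θ ≤ d χ := by
      rw [F1 χ]
      exact Finset.single_le_sum (f := fun θ => n χ θ * dH θ) (fun _ _ => Nat.zero_le _) (Finset.mem_univ θ)
    have h3 : 1 ≤ n χ θ := Nat.one_le_iff_ne_zero.mpr h0
    have h4 : dH θ ≤ ∑ χ ∈ A, n χ θ * d χ :=
      calc dH θ = 1 * dH θ := (one_mul _).symm
        _ ≤ n χ θ * dH θ := Nat.mul_le_mul_right _ h3
        _ ≤ d χ := h2
        _ = 1 * d χ := (one_mul _).symm
        _ ≤ n χ θ * d χ := Nat.mul_le_mul_right _ h3
        _ ≤ _ := h1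
    rw [pow_two]
    exact Nat.mul_le_mul_left _ h4
  · rw [Finset.mul_sum]
    apply Finset.sum_le_sum
    intro θ _
    have h1 : ∑ χ ∈ A, n χ θ * d χ ≤ H.index * dH θ := by
      rw [← F2 θ]
      exact Finset.sum_le_sum_of_subset (Finset.subset_univ _)
    calc dH θ * ∑ χ ∈ A, n χ θ * d χ ≤ dH θ * (H.index * dH θ) := Nat.mul_le_mul_left _ h1
      _ = H.index * dH θ ^ 2 := by ring

end LB
end Cfsg.Agent.H4
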