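import Mathlib
import Cfsg.Agent.Lib_helper5_Invol

set_option autoImplicit false

namespace Cfsg.Agent.H5

variable {G : Type*} [Group G]

theorem card_conj_eq_index_centralizer (x : G) :
    Nat.card {g : G // IsConj x g} = (Subgroup.centralizer ({x} : Set G)).index := by
  have h1 : (MulAction.stabilizer (ConjAct G) x).index = (MulAction.orbit (ConjAct G) x).ncard :=
    MulAction.index_stabilizer (ConjAct G) x
  have h2 : (MulAction.orbit (ConjAct G) x) = {g : G | IsConj x g} := by
    ext g
    rw [ConjAct.mem_orbit_conjAct, isConj_comm]; rfl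
  have h3 : (Subgroup.centralizer ({x} : Set G)).index = (MulAction.stabilizer (ConjAct G) x).index := by
    rw [Subgroup.centralizer_eq_comap_stabilizer]
    exact Subgroup.index_comap_of_surjective _ ConjAct.toConjAct.surjective
  rw [h3, h1, h2]
  exact Nat.card_coe_set_eq _

theorem card_conj_mul_card_centralizer (x : G) :
    Nat.card {g : G // IsConj x g} * Nat.card (Subgroup.centralizer ({x} : Set G)) = Nat.card G := by
  rw [card_conj_eq_index_centralizer, mul_comm, Subgroup.card_mul_index]

/-- the elements conjugating `x` to `y` form a coset of the centralizer. -/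
theorem card_conjugators (x y : G) (h : IsConj x y) :
    Nat.card {g : G // g * x * g⁻¹ = y} = Nat.card (Subgroup.centralizer ({x} : Set G)) := by
  obtain ⟨g₀, hg₀⟩ := isConj_iff.1 h
  symm
  refine Nat.card_congr ⟨fun c => ⟨g₀ * c, ?_⟩, fun g => ⟨g₀⁻¹ * g, ?_⟩, ?_, ?_⟩
  · have hc : (c : G) * x = x * c := Subgroup.mem_centralizer_singleton_iff.1 c.2
    rw [mul_inv_rev, ← hg₀]
    have : (c : G) * x * (c : G)⁻¹ = x := by rw [hc, mul_inv_cancel_right]
    calc g₀ * ↑c * x * ((c : G)⁻¹ * g₀⁻¹) = g₀ * (↑c * x * (c : G)⁻¹) * g₀⁻¹ := by group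
      _ = _ := by rw [this]
  · rw [Subgroup.mem_centralizer_singleton_iff]
    have h1 : (g : G) * x * (g : G)⁻¹ = g₀ * x * g₀⁻¹ := g.2.trans hg₀.symm
    have h2 : (g : G) * x = g₀ * x * g₀⁻¹ * g := by rw [← h1]; group
    calc g₀⁻¹ * ↑g * x = g₀⁻¹ * (↑g * x) := by group
      _ = g₀⁻¹ * (g₀ * x * g₀⁻¹ * g) := by rw [h2]
      _ = _ := by group
  · intro c; ext; simp
  · intro g; ext; simp

/-- Pairs of involutions with product `x` inject (first coordinate) into the inverters of `x`. -/
theorem invol_pair_inverts {u v x : G} (hu : orderOf u = 2) (hv : orderOf v = 2) (h : u * v = x) :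
    u * x * u⁻¹ = x⁻¹ := by
  subst h
  rw [mul_inv_rev, inv_of_order_two hu, inv_of_order_two hv, ← mul_assoc,
    mul_self_of_order_two hu, one_mul]

end Cfsg.Agent.H5
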