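import Cfsg.Statements.S0236
import Cfsg.Agent.Lib_helper5_Count

set_option autoImplicit false
open Cfsg

namespace Cfsg.Agent.S0236


/-- If x is an involution, the number of ordered pairs (u, v) of involutions with uv = x, plus one, equals the number of involutions in the centralizer of x. -/
theorem result {G : Type*} [Group G] [Finite G] (x : G) (hx : orderOf x = 2) : Nat.card {p : G × G // orderOf p.1 = 2 ∧ orderOf p.2 = 2 ∧ p.1 * p.2 = x} + 1 = Nat.card {t : G // orderOf t = 2 ∧ Commute t x} := by
  classical
  have hx2 := H5.mul_self_of_order_two hx
  have e : Option {p : G × G // orderOf p.1 = 2 ∧ orderOf p.2 = 2 ∧ p.1 * p.2 = x} ≃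
      {t : G // orderOf t = 2 ∧ Commute t x} :=
    { toFun := fun o => match o with
        | none => ⟨x, hx, Commute.refl x⟩
        | some p => ⟨p.1.1, p.2.1, by
            have h := H5.invol_pair_inverts p.2.1 p.2.2.1 p.2.2.2
            rw [H5.inv_of_order_two hx] at h
            exact mul_inv_eq_iff_eq_mul.1 h⟩
      invFun := fun t => if h : (t : G) = x then none else some ⟨(t.1, t.1 * x), t.2.1, by
          obtain ⟨t, ht, hc⟩ := t
          have ht2 := H5.mul_self_of_order_two ht
          apply H5.order_two_of
          · intro h1
            apply h
            have h2 : x = t⁻¹ := eq_inv_of_mul_eq_one_right h1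
            show t = x
            exact (H5.inv_of_order_two ht).symm.trans h2.symm
          · show t * x * (t * x) = 1
            rw [← sq, hc.mul_pow, sq, sq, ht2, hx2, one_mul], by
          show t.1 * (t.1 * x) = x
          rw [← mul_assoc, H5.mul_self_of_order_two t.2.1, one_mul]⟩
      left_inv := by
        intro o
        cases o with
        | none => simp
        | some p =>
          obtain ⟨⟨u, v⟩, hu, hv, huv⟩ := p
          simp only at hu hv huv
          have hne : u ≠ x := by
            intro h
            rw [h] at huv
            have : v = 1 := by
              have := congrArg (fun z => x * z) huv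
              simpa [← mul_assoc, hx2] using this
            exact H5.ne_one_of_order_two hv this
          simp only [hne, dite_false, Option.some.injEq, Subtype.mk.injEq, Prod.mk.injEq, true_and]
          rw [← huv, ← mul_assoc, H5.mul_self_of_order_two hu, one_mul]
      right_inv := by
        intro t
        by_cases h : (t : G) = x
        · simp only [h, dite_true]
          ext; exact h.symm
        · simp only [h, dite_false] }
  rw [← Nat.card_congr e, Finite.card_option]

end Cfsg.Agent.S0236
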