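import Cfsg.Statements.S0238
import Cfsg.Agent.Lib_helper5_Count
import Cfsg.Agent.S0236

set_option autoImplicit false
open Cfsg

namespace Cfsg.Agent.S0238


/-- For every x in a finite group G, the number c of ordered pairs (u, v) of involutions with uv = x is at most |C_G(x)|; c = 0 when x is not conjugate to x⁻¹; and c + 2 ≤ |C_G(x)| when x is an involution. -/
theorem result {G : Type*} [Group G] [Finite G] (x : G) : Nat.card {p : G × G // orderOf p.1 = 2 ∧ orderOf p.2 = 2 ∧ p.1 * p.2 = x} ≤ Nat.card (Subgroup.centralizer ({x} : Set G)) ∧ (¬ IsConj x x⁻¹ → Nat.card {p : G × G // orderOf p.1 = 2 ∧ orderOf p.2 = 2 ∧ p.1 * p.2 = x} = 0) ∧ (orderOf x = 2 → Nat.card {p : G × G // orderOf p.1 = 2 ∧ orderOf p.2 = 2 ∧ p.1 * p.2 = x} + 2 ≤ Nat.card (Subgroup.centralizer ({x} : Set G))) := by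
  classical
  have hempty : ¬ IsConj x x⁻¹ →
      Nat.card {p : G × G // orderOf p.1 = 2 ∧ orderOf p.2 = 2 ∧ p.1 * p.2 = x} = 0 := by
    intro hnr
    have : IsEmpty {p : G × G // orderOf p.1 = 2 ∧ orderOf p.2 = 2 ∧ p.1 * p.2 = x} := by
      constructor
      rintro ⟨⟨u, v⟩, hu, hv, huv⟩
      exact hnr (isConj_iff.2 ⟨u, H5.invol_pair_inverts hu hv huv⟩)
    exact Nat.card_of_isEmpty
  refine ⟨?_, hempty, ?_⟩
  · by_cases hr : IsConj x x⁻¹
    · rw [← H5.card_conjugators x x⁻¹ hr]
      refine Nat.card_le_card_of_injective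
        (fun p => (⟨p.1.1, H5.invol_pair_inverts p.2.1 p.2.2.1 p.2.2.2⟩ : {g : G // g * x * g⁻¹ = x⁻¹})) ?_
      rintro ⟨⟨u, v⟩, hu, hv, huv⟩ ⟨⟨u', v'⟩, hu', hv', huv'⟩ h
      simp only [Subtype.mk.injEq] at h
      simp only at huv huv'
      subst h
      have : v = v' := mul_left_cancel (huv.trans huv'.symm)
      subst this
      rfl
    · rw [hempty hr]; exact Nat.zero_le _
  · intro hx
    have h1 := Cfsg.Agent.S0236.result x hx
    have h2 : Nat.card (Option {t : G // orderOf t = 2 ∧ Commute t x}) ≤
        Nat.card (Subgroup.centralizer ({x} : Set G)) := by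
      refine Nat.card_le_card_of_injective (fun o => match o with
        | none => (1 : Subgroup.centralizer ({x} : Set G))
        | some t => ⟨t.1, Subgroup.mem_centralizer_singleton_iff.2 t.2.2⟩) ?_
      intro a b hab
      cases a with
      | none =>
        cases b with
        | none => rfl
        | some t =>
          exfalso
          have : (1 : G) = t.1 := congrArg (fun z : Subgroup.centralizer ({x} : Set G) => (z : G)) hab
          exact H5.ne_one_of_order_two t.2.1 this.symm
      | some s =>
        cases b with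
        | none =>
          exfalso
          have : s.1 = (1 : G) := congrArg (fun z : Subgroup.centralizer ({x} : Set G) => (z : G)) hab
          exact H5.ne_one_of_order_two s.2.1 this
        | some t =>
          have : s.1 = t.1 := congrArg (fun z : Subgroup.centralizer ({x} : Set G) => (z : G)) hab
          congr 1
          ext
          exact this
    rw [Finite.card_option] at h2
    omega

end Cfsg.Agent.S0238
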