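import Mathlib
import Cfsg.Agent.Lib_helper5_Count
import Cfsg.Agent.Lib_helper5_Basic
import Cfsg.Agent.S0238

set_option autoImplicit false

namespace Cfsg.Agent.H5

variable {G : Type*} [Group G]

/-- The extended centralizer of `x`. -/
def extC (x : G) : Subgroup G where
  carrier := {g | g * x * g⁻¹ = x ∨ g * x * g⁻¹ = x⁻¹}
  one_mem' := Or.inl (by simp)
  mul_mem' := by
    intro a b ha hb
    have e : ∀ y : G, a * b * y * (a * b)⁻¹ = a * (b * y * b⁻¹) * a⁻¹ := by intro y; group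
    have inv' : ∀ c : G, c * x * c⁻¹ = x⁻¹ → c * x⁻¹ * c⁻¹ = x := by
      intro c hc
      have := congrArg (fun z => z⁻¹) hc
      simp only [mul_inv_rev, inv_inv] at this
      rw [← mul_assoc] at this
      exact this
    have inv'' : ∀ c : G, c * x * c⁻¹ = x → c * x⁻¹ * c⁻¹ = x⁻¹ := by
      intro c hc
      have := congrArg (fun z => z⁻¹) hc
      simp only [mul_inv_rev, inv_inv] at this
      rw [← mul_assoc] at this
      exact this
    rcases ha with ha | ha <;> rcases hb with hb | hb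
    · left; rw [e, hb, ha]
    · right; rw [e, hb, inv'' a ha]
    · right; rw [e, hb, ha]
    · left; rw [e, hb, inv' a ha]
  inv_mem' := by
    intro a ha
    rcases ha with ha | ha
    · left
      rw [inv_inv]
      nth_rewrite 1 [← ha]
      group
    · right
      rw [inv_inv]
      have h1 : x = a⁻¹ * x⁻¹ * a := by rw [← ha]; group
      have := congrArg (fun z => z⁻¹) h1
      simp only [mul_inv_rev, inv_inv] at this
      rw [← mul_assoc] at this
      exact this.symm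

theorem mem_extC {x g : G} : g ∈ extC x ↔ g * x * g⁻¹ = x ∨ g * x * g⁻¹ = x⁻¹ := Iff.rfl

theorem card_extC [Finite G] (x : G) (hreal : IsConj x x⁻¹) (hne : x ≠ x⁻¹) :
    Nat.card (extC x) = 2 * Nat.card (Subgroup.centralizer ({x} : Set G)) := by
  classical
  have e : (extC x) ≃ {g : G // g * x * g⁻¹ = x} ⊕ {g : G // g * x * g⁻¹ = x⁻¹} :=
    subtypeOrEquiv _ _ (by
      rw [Pi.disjoint_iff]
      intro g
      rw [Prop.disjoint_iff]
      rintro ⟨h1, h2⟩
      exact hne (h1.symm.trans h2))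
  rw [Nat.card_congr e, Nat.card_sum, card_conjugators x x (IsConj.refl x),
    card_conjugators x x⁻¹ hreal, two_mul]

/-- number of ordered pairs of involutions with product `x`. -/
noncomputable def cPairs (x : G) : ℕ :=
  Nat.card {p : G × G // orderOf p.1 = 2 ∧ orderOf p.2 = 2 ∧ p.1 * p.2 = x}

theorem cPairs_one : cPairs (1 : G) = Nat.card {t : G // orderOf t = 2} := by
  unfold cPairs
  refine Nat.card_congr ⟨fun p => ⟨p.1.1, p.2.1⟩, fun t => ⟨(t.1, t.1), t.2, t.2,
    mul_self_of_order_two t.2⟩, ?_, ?_⟩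
  · rintro ⟨⟨u, v⟩, hu, hv, huv⟩
    simp only [Subtype.mk.injEq, Prod.mk.injEq, true_and]
    simp only at huv hu
    have : v = u⁻¹ := eq_inv_of_mul_eq_one_right huv
    rw [this, inv_of_order_two hu]
  · rintro ⟨t, ht⟩; rfl

theorem sum_cPairs [Fintype G] :
    ∑ x : G, cPairs x = Nat.card {t : G // orderOf t = 2} ^ 2 := by
  classical
  let f : {t : G // orderOf t = 2} × {t : G // orderOf t = 2} → G := fun q => q.1.1 * q.2.1
  rw [sq, ← Nat.card_prod, Nat.card_congr (Equiv.sigmaFiberEquiv f).symm, Nat.card_sigma]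
  apply Finset.sum_congr rfl
  intro x _
  unfold cPairs
  refine Nat.card_congr ⟨fun p => ⟨(⟨p.1.1, p.2.1⟩, ⟨p.1.2, p.2.2.1⟩), p.2.2.2⟩,
    fun q => ⟨(q.1.1.1, q.1.2.1), q.1.1.2, q.1.2.2, q.2⟩, ?_, ?_⟩
  · rintro ⟨⟨u, v⟩, hu, hv, huv⟩; rfl
  · rintro ⟨⟨⟨u, hu⟩, ⟨v, hv⟩⟩, huv⟩; rfl

end Cfsg.Agent.H5
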