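import Mathlib
import Cfsg.Agent.Lib_helper5_Count
import Cfsg.Agent.Lib_helper5_Basic

set_option autoImplicit false

namespace Cfsg.Agent.H5

variable {G : Type*} [Group G]

theorem card_le_invol_mul_centralizer [Finite G] (t : G) (ht : orderOf t = 2) :
    Nat.card G ≤ Nat.card {s : G // orderOf s = 2} * Nat.card (Subgroup.centralizer ({t} : Set G)) := by
  rw [← card_conj_mul_card_centralizer t]
  apply Nat.mul_le_mul_right
  apply Nat.card_le_card_of_injective (fun s : {g : G // IsConj t g} =>
    (⟨s.1, by
      obtain ⟨c, hc⟩ := isConj_iff.1 s.2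
      rw [← hc]
      exact order_two_conj ht c⟩ : {s : G // orderOf s = 2}))
  intro a b hab
  apply Subtype.ext
  exact congrArg (fun z : {s : G // orderOf s = 2} => z.1) hab

theorem simple_toPerm_injective [IsSimpleGroup G] (H : Subgroup G) (hH : H ≠ ⊤) :
    Function.Injective (MulAction.toPermHom G (G ⧸ H)) := by
  rw [← MonoidHom.ker_eq_bot_iff]
  rcases ((MulAction.toPermHom G (G ⧸ H)).normal_ker).eq_bot_or_eq_top with h | h
  · exact h
  · exfalso
    apply hH
    rw [eq_top_iff, ← h, ← Subgroup.normalCore_eq_ker]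
    exact Subgroup.normalCore_le H

theorem simple_card_dvd_factorial_index [Finite G] [IsSimpleGroup G] (H : Subgroup G) (hH : H ≠ ⊤) :
    Nat.card G ∣ Nat.factorial H.index := by
  have := Subgroup.card_dvd_of_injective _ (simple_toPerm_injective H hH)
  rwa [Nat.card_perm, ← Subgroup.index_eq_card] at this

theorem simple_card_le_factorial_index [Finite G] [IsSimpleGroup G] (H : Subgroup G) (hH : H ≠ ⊤) :
    Nat.card G ≤ Nat.factorial H.index :=
  Nat.le_of_dvd (Nat.factorial_pos _) (simple_card_dvd_factorial_index H hH)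

end Cfsg.Agent.H5
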