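import Mathlib
import Cfsg.Agent.Lib_helper5_Comp2

set_option autoImplicit false

namespace Cfsg.Agent.H5

/-- central extensions of quasisimple groups: the commutator subgroup is quasisimple. -/
theorem commutator_quasisimple_of_central_ext {X Y : Type*} [Group X] [Group Y] (f : X →* Y)
    (hf : Function.Surjective f) (hker : f.ker ≤ Subgroup.center X) (hY : Cfsg.IsQuasisimple Y) :
    commutator X ⊔ f.ker = ⊤ ∧ Cfsg.IsQuasisimple ↥(commutator X) := by
  obtain ⟨hperf, hnt, hdich⟩ := quasisimple_iff.1 hY
  have hkc : IsMulCommutative ↥f.ker := by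
    rw [← Subgroup.commutator_self_eq_bot_iff, Subgroup.commutator_eq_bot_iff_le_centralizer]
    exact hker.trans (Subgroup.center_le_centralizer _)
  have hsup : ∀ N : Subgroup X, N.map f = ⊤ → N ⊔ f.ker = ⊤ := by
    intro N h
    have h2 := Subgroup.comap_map_eq f N
    rw [h, Subgroup.comap_top] at h2
    exact h2.symm
  have hmapL : (commutator X).map f = ⊤ := by
    rw [map_commutator_eq, MonoidHom.range_eq_top.2 hf, ← commutator_def,
      hperf.commutator_eq_top]
  have h1 : commutator X ⊔ f.ker = ⊤ := hsup _ hmapL
  refine ⟨h1, ?_⟩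
  have hLperf : ⁅commutator X, commutator X⁆ = commutator X := by
    apply le_antisymm (Subgroup.commutator_le_self _)
    have hm : (⁅commutator X, commutator X⁆ : Subgroup X).map f = ⊤ := by
      rw [Subgroup.map_commutator, hmapL, ← commutator_def, hperf.commutator_eq_top]
    exact Subgroup.Normal.commutator_le_of_self_sup_commutative_eq_top (hsup _ hm) hkc
  rw [qs_iff]
  refine ⟨hLperf, ?_, ?_⟩
  · intro h
    rw [h, Subgroup.map_bot] at hmapL
    exact bot_ne_top hmapL
  · intro N hN hnorm
    have hNn : N.Normal := by
      rw [← Subgroup.normalizer_eq_top_iff, eq_top_iff, ← h1]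
      apply sup_le hnorm
      exact (hker.trans (Subgroup.center_le_centralizer _)).trans
        (Subgroup.centralizer_le_normalizer _)
    have hmap : (N.map f).Normal := hNn.map _ hf
    rcases hdich _ hmap with h | h
    · left
      apply le_antisymm hN
      exact Subgroup.Normal.commutator_le_of_self_sup_commutative_eq_top (hsup _ h) hkc
    · right
      rw [← Subgroup.commutator_eq_bot_iff_le_centralizer]
      apply perfect_comm_comm hLperf
      rw [Subgroup.commutator_eq_bot_iff_le_centralizer]
      refine le_trans ?_ (hker.trans (Subgroup.center_le_centralizer _))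
      rw [← Subgroup.map_eq_bot_iff, Subgroup.map_commutator,
        Subgroup.commutator_eq_bot_iff_le_centralizer]
      exact h.trans (Subgroup.center_le_centralizer _)

variable {G : Type*} [Group G]

/-- internal version: `E ≤ G`, `f` a hom whose kernel centralizes `E`, `f(E)` quasisimple. -/
theorem qs_commutator_of_map {G' : Type*} [Group G'] (f : G →* G') (E : Subgroup G)
    (hker : f.ker ≤ Subgroup.centralizer (E : Set G)) (hq : Cfsg.IsQuasisimple ↥(E.map f)) :
    Cfsg.IsQuasisimple ↥(⁅E, E⁆ : Subgroup G) := by
  have h := (commutator_quasisimple_of_central_ext (f.subgroupMap E) (f.subgroupMap_surjective E)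
    (by
      intro x hx
      rw [Subgroup.mem_center_iff]
      intro y
      apply Subtype.ext
      have h1 : f (x : G) = 1 := congrArg Subtype.val (MonoidHom.mem_ker.1 hx)
      exact (Subgroup.mem_centralizer_iff.1 (hker (MonoidHom.mem_ker.2 h1))) y y.2) hq).2
  have e1 := (commutator ↥E).equivMapOfInjective E.subtype E.subtype_injective
  have e2 := MulEquiv.subgroupCongr (Subgroup.map_subtype_commutator E)
  exact quasisimple_of_mulEquiv (e1.trans e2) h

end Cfsg.Agent.H5
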