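import Mathlib
import Cfsg.Agent.Lib_helper5_Comp3
import Cfsg.Agent.Lib_helper5_CharP6

set_option autoImplicit false

namespace Cfsg.Agent.H5

variable {G : Type*} [Group G]

/-- conjugation transports "component of the subgroup `C`". -/
theorem component_subgroupOf_conj {L C : Subgroup G} (g : G)
    (h : Cfsg.IsComponent (L.subgroupOf C)) :
    Cfsg.IsComponent ((L.map (MulAut.conj g).toMonoidHom).subgroupOf
      (C.map (MulAut.conj g).toMonoidHom)) := by
  have h1 := component_map_equiv ((MulAut.conj g).subgroupMap C) h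
  have e : (L.map (MulAut.conj g).toMonoidHom).subgroupOf (C.map (MulAut.conj g).toMonoidHom) =
      (L.subgroupOf C).map ((MulAut.conj g).subgroupMap C).toMonoidHom := ?_
  · rw [e]
    exact h1
  ext ⟨y, hy⟩
  rw [Subgroup.mem_subgroupOf]
  constructor
  · rintro ⟨l, hl, hly⟩
    obtain ⟨c, hc, hcy⟩ := hy
    have hlc : l = c := (MulAut.conj g).injective (hly.trans hcy.symm)
    refine ⟨⟨l, hlc ▸ hc⟩, ?_, ?_⟩
    · rw [SetLike.mem_coe, Subgroup.mem_subgroupOf]
      exact hl
    · apply Subtype.ext
      exact hly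
  · rintro ⟨c, hc, hcy⟩
    rw [SetLike.mem_coe, Subgroup.mem_subgroupOf] at hc
    exact ⟨c, hc, congrArg Subtype.val hcy⟩

/-- two components of a subgroup `C`, given as subgroups of `G`, are equal or commute. -/
theorem components_in_commute {L K C : Subgroup G} (hLC : L ≤ C) (hKC : K ≤ C)
    (hL : Cfsg.IsComponent (L.subgroupOf C)) (hK : Cfsg.IsComponent (K.subgroupOf C)) :
    L = K ∨ ⁅L, K⁆ = ⊥ := by
  by_cases h : L.subgroupOf C = K.subgroupOf C
  · left
    have := congrArg (Subgroup.map C.subtype) h
    rwa [Subgroup.subgroupOf_map_subtype, Subgroup.subgroupOf_map_subtype, inf_eq_left.2 hLC,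
      inf_eq_left.2 hKC] at this
  · right
    have h1 := components_commute hL hK h
    have := congrArg (Subgroup.map C.subtype) h1
    rwa [Subgroup.map_commutator, Subgroup.subgroupOf_map_subtype, Subgroup.subgroupOf_map_subtype,
      inf_eq_left.2 hLC, inf_eq_left.2 hKC, Subgroup.map_bot] at this

end Cfsg.Agent.H5
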