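import Mathlib
import Cfsg.Prelude.Def_Balance
import Cfsg.Agent.Lib_helper5_PComp5
import Cfsg.Agent.Lib_helper5_Basic
import Cfsg.Agent.Lib_helper2_Cores
import Cfsg.Agent.Lib_helper1_Transfer

set_option autoImplicit false

universe u

namespace Cfsg.Agent.H5.Ext

open Subgroup
open scoped Pointwise

variable {X : Type u} [Group X]

/-- the odd core of a subgroup, inside the ambient group -/
def coreOf (C : Subgroup X) : Subgroup X := (Cfsg.oddCore ↥C).map C.subtype

theorem coreOf_le (C : Subgroup X) : coreOf C ≤ C := map_subtype_le _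

theorem coreOf_conj (g : X) (C : Subgroup X) :
    (coreOf C).map (MulAut.conj g).toMonoidHom = coreOf (C.map (MulAut.conj g).toMonoidHom) := by
  have h := pPrimeCore_map_equiv 2
    (C.equivMapOfInjective (MulAut.conj g).toMonoidHom (MulAut.conj g).injective)
  unfold coreOf Cfsg.oddCore
  rw [← h, Subgroup.map_map, Subgroup.map_map]
  rfl

theorem centralizer_conj (g : X) (S : Subgroup X) :
    (centralizer (S : Set X)).map (MulAut.conj g).toMonoidHom =
      centralizer ((S.map (MulAut.conj g).toMonoidHom : Subgroup X) : Set X) := by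
  ext x
  rw [mem_conj_map, mem_centralizer_iff, mem_centralizer_iff]
  constructor
  · intro h y hy
    have h1 := h _ ((mem_conj_map S g y).1 hy)
    calc y * x = g * ((g⁻¹ * y * g) * (g⁻¹ * x * g)) * g⁻¹ := by group
      _ = g * ((g⁻¹ * x * g) * (g⁻¹ * y * g)) * g⁻¹ := by rw [h1]
      _ = x * y := by group
  · intro h y hy
    have h1 := h (g * y * g⁻¹) ((conj_mem_conj_map S g y).2 hy)
    calc y * (g⁻¹ * x * g) = g⁻¹ * ((g * y * g⁻¹) * x) * g := by group
      _ = g⁻¹ * (x * (g * y * g⁻¹)) * g := by rw [h1]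
      _ = g⁻¹ * x * g * y := by group

/-- a Sylow subgroup of a subgroup, inside the ambient group -/
def T1 {N : Subgroup X} (T : Sylow 2 ↥N) : Subgroup X := (T : Subgroup ↥N).map N.subtype

def DT {N : Subgroup X} (T : Sylow 2 ↥N) : Subgroup X := coreOf (centralizer (T1 T : Set X))

theorem T1_le {N : Subgroup X} (T : Sylow 2 ↥N) : T1 T ≤ N := map_subtype_le _

theorem T1_conjNormal {N : Subgroup X} [N.Normal] (g : X) (T : Sylow 2 ↥N) :
    T1 ((MulAut.conjNormal g : MulAut N) • T) = (T1 T).map (MulAut.conj g).toMonoidHom := by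
  ext x
  constructor
  · rintro ⟨y, hy, rfl⟩
    have hy' : y ∈ (MulAut.conjNormal g : MulAut N) • (T : Subgroup ↥N) := hy
    rw [Subgroup.mem_smul_pointwise_iff_exists] at hy'
    obtain ⟨s, hs, rfl⟩ := hy'
    exact ⟨s, ⟨s, hs, rfl⟩, by simp [MulAut.smul_def, MulAut.conjNormal_apply]⟩
  · rintro ⟨_, ⟨s, hs, rfl⟩, rfl⟩
    refine ⟨(MulAut.conjNormal g : MulAut N) • s, ?_, by
      simp [MulAut.smul_def, MulAut.conjNormal_apply]⟩
    show (MulAut.conjNormal g : MulAut N) • s ∈ (MulAut.conjNormal g : MulAut N) • (T : Subgroup ↥N)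
    exact Subgroup.smul_mem_pointwise_smul _ _ _ hs

theorem DT_conjNormal {N : Subgroup X} [N.Normal] (g : X) (T : Sylow 2 ↥N) :
    DT ((MulAut.conjNormal g : MulAut N) • T) = (DT T).map (MulAut.conj g).toMonoidHom := by
  unfold DT
  rw [T1_conjNormal, ← centralizer_conj, ← coreOf_conj]

theorem DT_smul {N : Subgroup X} [N.Normal] (n : ↥N) (T : Sylow 2 ↥N) :
    DT (n • T) = (DT T).map (MulAut.conj (n : X)).toMonoidHom := by
  rw [← DT_conjNormal, Sylow.smul_def, MulAut.conjNormal_val]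

/-- elements normalizing `T1 T` normalize `DT T` -/
theorem DT_map_of_normalizes {N : Subgroup X} (T : Sylow 2 ↥N) {t : X}
    (ht : (T1 T).map (MulAut.conj t).toMonoidHom = T1 T) :
    (DT T).map (MulAut.conj t).toMonoidHom = DT T := by
  unfold DT
  rw [coreOf_conj, centralizer_conj, ht]

theorem map_conj_of_mem {H : Subgroup X} {t : X} (ht : t ∈ H) :
    H.map (MulAut.conj t).toMonoidHom = H := by
  ext x
  rw [mem_conj_map]
  constructor
  · intro h
    have : x = t * (t⁻¹ * x * t) * t⁻¹ := by group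
    rw [this]
    exact H.mul_mem (H.mul_mem ht h) (H.inv_mem ht)
  · intro h
    exact H.mul_mem (H.mul_mem (H.inv_mem ht) h) ht

theorem map_conj_of_normal (H : Subgroup X) [hH : H.Normal] (g : X) :
    H.map (MulAut.conj g).toMonoidHom = H := by
  ext x
  rw [mem_conj_map]
  constructor
  · intro h
    have h1 := hH.conj_mem _ h g
    have : g * (g⁻¹ * x * g) * g⁻¹ = x := by group
    rwa [this] at h1
  · intro h
    have h1 := hH.conj_mem _ h g⁻¹
    rwa [inv_inv] at h1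

theorem mem_normalizer_of_map_conj {H : Subgroup X} {g : X}
    (h : H.map (MulAut.conj g).toMonoidHom = H) : g ∈ normalizer (H : Set X) := by
  rw [mem_normalizer_iff]
  intro x
  constructor
  · intro hx
    rw [← h]
    exact (conj_mem_conj_map H g x).2 hx
  · intro hx
    rw [← h] at hx
    exact (conj_mem_conj_map H g x).1 hx

theorem map_conj_of_mem_normalizer {H : Subgroup X} {g : X}
    (h : g ∈ normalizer (H : Set X)) : H.map (MulAut.conj g).toMonoidHom = H := by
  rw [mem_normalizer_iff] at h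
  ext x
  rw [mem_conj_map, h (g⁻¹ * x * g)]
  have : g * (g⁻¹ * x * g) * g⁻¹ = x := by group
  rw [this]

abbrev NN (X : Type u) [Group X] : Subgroup X := Cfsg.pLayer 2 X ⊔ Cfsg.pPrimePCore 2 X

theorem pPrimePCore_normal : (Cfsg.pPrimePCore 2 X).Normal := by
  have := H1.pPrimeCore_normal (G := X) 2
  have : (Cfsg.pCore 2 (X ⧸ Cfsg.pPrimeCore 2 X)).Normal := H1.pCore_normal 2
  unfold Cfsg.pPrimePCore
  infer_instance

theorem ext_def : Cfsg.extendedTwoLayer X =
    Cfsg.pLayer 2 X ⊔ Cfsg.oddCore X ⊔ ⨆ T : Sylow 2 ↥(NN X), DT T := rfl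

variable [Finite X]

theorem NN_normal : (NN X).Normal := by
  have := pLayer_normal (X := X) (p := 2)
  have := pPrimePCore_normal (X := X)
  infer_instance

theorem AB_normal : (Cfsg.pLayer 2 X ⊔ Cfsg.oddCore X).Normal := by
  have := pLayer_normal (X := X) (p := 2)
  have := H1.pPrimeCore_normal (G := X) 2
  infer_instance

theorem ext_normal : (Cfsg.extendedTwoLayer X).Normal := by
  have hN := NN_normal (X := X)
  have hAB := AB_normal (X := X)
  have key : ∀ g : X, (Cfsg.extendedTwoLayer X).map (MulAut.conj g).toMonoidHom ≤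
      Cfsg.extendedTwoLayer X := by
    intro g
    rw [ext_def, Subgroup.map_sup, Subgroup.map_iSup, map_conj_of_normal]
    apply sup_le le_sup_left
    apply iSup_le
    intro T
    rw [← DT_conjNormal]
    exact (le_iSup (fun T : Sylow 2 ↥(NN X) => DT T) _).trans le_sup_right
  exact ⟨fun n hn g => key g ⟨n, hn, rfl⟩⟩

omit [Finite X] in
theorem oddCore_le_pPrimePCore : Cfsg.oddCore X ≤ Cfsg.pPrimePCore 2 X := by
  intro x hx
  have := H1.pPrimeCore_normal (G := X) 2
  unfold Cfsg.pPrimePCore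
  rw [mem_comap]
  have : QuotientGroup.mk' (Cfsg.pPrimeCore 2 X) x = 1 := (QuotientGroup.eq_one_iff x).2 hx
  rw [this]
  exact one_mem _

omit [Finite X] in
theorem AB_le_NN : Cfsg.pLayer 2 X ⊔ Cfsg.oddCore X ≤ NN X :=
  sup_le_sup_left oddCore_le_pPrimePCore _

theorem exists_pow_mem_AB {n : X} (hn : n ∈ NN X) :
    ∃ k : ℕ, n ^ 2 ^ k ∈ Cfsg.pLayer 2 X ⊔ Cfsg.oddCore X := by
  have hA := pLayer_normal (X := X) (p := 2)
  have hB := H1.pPrimeCore_normal (G := X) 2
  have hAB := AB_normal (X := X)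
  obtain ⟨a, ha, w, hw, rfl⟩ := mem_sup_of_normal_left.mp hn
  have hw' : QuotientGroup.mk' (Cfsg.pPrimeCore 2 X) w ∈ Cfsg.pCore 2 (X ⧸ Cfsg.pPrimeCore 2 X) := hw
  obtain ⟨k, hk⟩ := (H1.pCore_isPGroup (p := 2) (G := X ⧸ Cfsg.pPrimeCore 2 X)) ⟨_, hw'⟩
  have hk' : (QuotientGroup.mk' (Cfsg.pPrimeCore 2 X) w) ^ 2 ^ k = 1 := congrArg Subtype.val hk
  rw [← map_pow] at hk'
  have hwk : w ^ 2 ^ k ∈ Cfsg.pPrimeCore 2 X := (QuotientGroup.eq_one_iff _).1 hk'
  refine ⟨k, ?_⟩
  rw [← QuotientGroup.eq_one_iff]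
  have h1 : ((a * w : X) : X ⧸ (Cfsg.pLayer 2 X ⊔ Cfsg.oddCore X)) = (w : X ⧸ _) := by
    rw [QuotientGroup.mk_mul, (QuotientGroup.eq_one_iff a).2 (mem_sup_left ha), one_mul]
  rw [QuotientGroup.mk_pow, h1, ← QuotientGroup.mk_pow, QuotientGroup.eq_one_iff]
  exact mem_sup_right hwk

theorem NN_factor (T : Sylow 2 ↥(NN X)) {n : X} (hn : n ∈ NN X) :
    ∃ m ∈ Cfsg.pLayer 2 X ⊔ Cfsg.oddCore X, ∃ t ∈ T1 T, n = m * t := by
  have hAB := AB_normal (X := X)
  set R : Subgroup ↥(NN X) := (Cfsg.pLayer 2 X ⊔ Cfsg.oddCore X).subgroupOf (NN X) with hR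
  have hRn : R.Normal := inferInstance
  have hq : IsPGroup 2 (↥(NN X) ⧸ R) := by
    intro q
    obtain ⟨y, rfl⟩ := QuotientGroup.mk'_surjective R q
    obtain ⟨k, hk⟩ := exists_pow_mem_AB y.2
    refine ⟨k, ?_⟩
    rw [← map_pow]
    exact (QuotientGroup.eq_one_iff _).2 (mem_subgroupOf.2 (by simpa using hk))
  have htop := H1.sylow_sup_eq_top_of_isPGroup_quotient T R hq
  have hmem : (⟨n, hn⟩ : ↥(NN X)) ∈ R ⊔ (T : Subgroup ↥(NN X)) := by
    rw [sup_comm, htop]; trivial
  obtain ⟨m, hm, t, ht, hmt⟩ := mem_sup_of_normal_left.mp hmem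
  refine ⟨m, mem_subgroupOf.1 hm, t, ⟨t, ht, rfl⟩, ?_⟩
  exact (congrArg Subtype.val hmt).symm

theorem ext_eq (T : Sylow 2 ↥(NN X)) :
    Cfsg.extendedTwoLayer X = Cfsg.pLayer 2 X ⊔ Cfsg.oddCore X ⊔ DT T := by
  have hN := NN_normal (X := X)
  apply le_antisymm
  · rw [ext_def]
    apply sup_le le_sup_left
    apply iSup_le
    intro T'
    obtain ⟨n, rfl⟩ := MulAction.exists_smul_eq ↥(NN X) T T'
    rw [DT_smul]
    rintro _ ⟨x, hx, rfl⟩
    obtain ⟨m, hm, t, ht, hn⟩ := NN_factor T n.2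
    have h1 : t * x * t⁻¹ ∈ DT T := by
      rw [← DT_map_of_normalizes T (map_conj_of_mem ht)]
      exact ⟨x, hx, rfl⟩
    have h2 : (MulAut.conj (n : X)).toMonoidHom x = m * (t * x * t⁻¹) * m⁻¹ := by
      show (n : X) * x * (n : X)⁻¹ = _
      rw [hn]; group
    rw [h2]
    exact mul_mem (mul_mem (mem_sup_left hm) (mem_sup_right h1)) (inv_mem (mem_sup_left hm))
  · rw [ext_def]
    exact sup_le_sup_left (le_iSup (fun T : Sylow 2 ↥(NN X) => DT T) T) _

end Cfsg.Agent.H5.Ext
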