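import Mathlib

set_option autoImplicit false

namespace Cfsg.Agent.H5

/-- fixed point congruence for a `p`-element acting on an invariant subset. -/
theorem card_invariant_modEq {C Ω : Type*} [Group C] [MulAction C Ω] [Finite Ω] {p : ℕ}
    [hp : Fact p.Prime] (O : Set Ω) (t : C) {n : ℕ} (ht : t ^ (p ^ n) = 1)
    (hO : ∀ ω ∈ O, t • ω ∈ O) :
    Nat.card O ≡ Nat.card {ω : Ω // ω ∈ O ∧ t • ω = ω} [MOD p] := by
  classical
  haveI : Fintype O := Fintype.ofFinite O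
  let f : Function.End O := fun c => ⟨t • (c : Ω), hO _ c.2⟩
  have hpow : ∀ (m : ℕ) (c : O), (((f ^ m) c : O) : Ω) = t ^ m • (c : Ω) := by
    intro m
    induction m with
    | zero =>
      intro c
      rw [pow_zero, pow_zero, one_smul]
      rfl
    | succ m ih =>
      intro c
      rw [pow_succ']
      show t • (((f ^ m) c : O) : Ω) = _
      rw [ih c, pow_succ', mul_smul]
  have hf : f ^ p ^ n = 1 := by
    funext c
    apply Subtype.ext
    rw [hpow, ht, one_smul]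
    rfl
  have h1 := Equiv.Perm.card_fixedPoints_modEq (p := p) (n := n) hf
  rw [← Nat.card_eq_fintype_card, ← Nat.card_eq_fintype_card] at h1
  have e : Nat.card (Function.fixedPoints f) = Nat.card {ω : Ω // ω ∈ O ∧ t • ω = ω} := by
    refine Nat.card_congr ⟨fun c => ⟨((c : O) : Ω), (c : O).2, congrArg Subtype.val c.2⟩,
      fun c => ⟨⟨c.1, c.2.1⟩, Subtype.ext c.2.2⟩, ?_, ?_⟩
    · intro c; rfl
    · intro c; rfl
  rw [e] at h1
  exact h1

/-- **Gleason's lemma**: if every point of an invariant set `S` is the unique fixed point in `S`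
of some `p`-element, the group is transitive on `S`. -/
theorem gleason_transitive {C Ω : Type*} [Group C] [MulAction C Ω] [Finite Ω] {p : ℕ}
    [hp : Fact p.Prime] (S : Set Ω) (hS : ∀ (c : C), ∀ ω ∈ S, c • ω ∈ S)
    (h : ∀ ω ∈ S, ∃ (t : C) (n : ℕ), t ^ (p ^ n) = 1 ∧ ∀ ω' ∈ S, t • ω' = ω' ↔ ω' = ω)
    {ω ω' : Ω} (hω : ω ∈ S) (hω' : ω' ∈ S) : ∃ c : C, c • ω = ω' := by
  by_contra hcon
  have hsub : MulAction.orbit C ω ⊆ S := by
    rintro _ ⟨c, rfl⟩
    exact hS c ω hω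
  have hinv : ∀ (t : C), ∀ x ∈ MulAction.orbit C ω, t • x ∈ MulAction.orbit C ω := by
    rintro t _ ⟨c, rfl⟩
    exact ⟨t * c, mul_smul t c ω⟩
  obtain ⟨t, n, ht, hfix⟩ := h ω hω
  obtain ⟨t', n', ht', hfix'⟩ := h ω' hω'
  have h1 := card_invariant_modEq (p := p) (MulAction.orbit C ω) t ht (hinv t)
  have h2 := card_invariant_modEq (p := p) (MulAction.orbit C ω) t' ht' (hinv t')
  have e1 : Nat.card {x : Ω // x ∈ MulAction.orbit C ω ∧ t • x = x} = 1 := by
    rw [Nat.card_eq_one_iff_unique]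
    refine ⟨⟨?_⟩, ⟨⟨ω, MulAction.mem_orbit_self ω, (hfix ω hω).2 rfl⟩⟩⟩
    rintro ⟨a, ha1, ha2⟩ ⟨b, hb1, hb2⟩
    apply Subtype.ext
    exact ((hfix a (hsub ha1)).1 ha2).trans ((hfix b (hsub hb1)).1 hb2).symm
  have e2 : Nat.card {x : Ω // x ∈ MulAction.orbit C ω ∧ t' • x = x} = 0 := by
    haveI : IsEmpty {x : Ω // x ∈ MulAction.orbit C ω ∧ t' • x = x} := by
      refine ⟨?_⟩
      rintro ⟨a, ha1, ha2⟩
      have := (hfix' a (hsub ha1)).1 ha2
      subst this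
      obtain ⟨c, hc⟩ := ha1
      exact hcon ⟨c, hc⟩
    exact Nat.card_of_isEmpty
  rw [e1] at h1
  rw [e2] at h2
  have h3 : 1 ≡ 0 [MOD p] := h1.symm.trans h2
  have h4 : p ∣ 1 := (Nat.modEq_zero_iff_dvd).1 h3
  exact hp.out.one_lt.ne' (Nat.dvd_one.1 h4)

end Cfsg.Agent.H5
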