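import Mathlib
import Cfsg.Agent.Lib_helper5_Isolated
import Cfsg.Agent.Lib_helper5_Sylow

set_option autoImplicit false

namespace Cfsg.Agent.H5

variable {G : Type*} [Group G] [Finite G]

/-- an involution of a Sylow 2-subgroup `P` that is its only conjugate in `P` is isolated. -/
theorem isolated_of_sylow (P : Sylow 2 G) (u : G) (hu : orderOf u = 2)
    (h : ∀ g : G, g * u * g⁻¹ ∈ P → g * u * g⁻¹ = u) : Cfsg.IsIsolatedInvolution u := by
  refine ⟨hu, ?_⟩
  intro g hc
  set w := g * u * g⁻¹ with hw
  have hw2 : orderOf w = 2 := order_two_conj hu g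
  have huu := mul_self_of_order_two hu
  have hww := mul_self_of_order_two hw2
  obtain ⟨a, ha⟩ := exists_conj_mem_sylow P _ (isPGroup_closure_commuting_invol huu hww hc)
  have h1 := h a (ha u (left_mem_closure_pair u w))
  have h2 : a * w * a⁻¹ = (a * g) * u * (a * g)⁻¹ := by rw [hw]; group
  have h3 := ha w (right_mem_closure_pair u w)
  rw [h2] at h3
  have h4 := h _ h3
  rw [← h2, ← h1] at h4
  have h5 : a * w = a * u := mul_right_cancel h4
  exact mul_left_cancel h5

/-- an isolated involution in a Sylow 2-subgroup is its only conjugate there. -/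
theorem isolated_sylow {z : G} (hz : Cfsg.IsIsolatedInvolution z) (P : Sylow 2 G) (hzP : z ∈ P)
    (g : G) (hg : g * z * g⁻¹ ∈ P) : g * z * g⁻¹ = z := by
  have h1 := isolated_odd hz g
  have h2 : z * (g * z * g⁻¹) = 1 :=
    eq_one_of_mem_two_group_of_odd P.2 ((P : Subgroup G).mul_mem hzP hg) h1
  have h3 : g * z * g⁻¹ = z⁻¹ := eq_inv_of_mul_eq_one_right h2
  rw [h3, inv_of_order_two hz.1]

end Cfsg.Agent.H5
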