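import Mathlib
import Cfsg.Agent.Lib_helper5_SE

set_option autoImplicit false

namespace Cfsg.Agent.H5

variable {G : Type*} [Group G]

section klein

variable (P : Subgroup G) [hP : IsKleinFour P]

include hP in
theorem klein_sq {x : G} (hx : x ∈ P) : x * x = 1 :=
  congrArg Subtype.val (IsKleinFour.mul_self (⟨x, hx⟩ : P))

include hP in
theorem klein_comm {x y : G} (hx : x ∈ P) (hy : y ∈ P) : x * y = y * x := by
  have h := (IsKleinFour.isMulCommutative (G := P)).is_comm.comm ⟨x, hx⟩ ⟨y, hy⟩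
  exact congrArg Subtype.val h

include hP in
theorem klein_third {x y z : G} (hx : x ∈ P) (hy : y ∈ P) (hz : z ∈ P) (hx1 : x ≠ 1) (hy1 : y ≠ 1)
    (hxy : x ≠ y) (hz1 : z ≠ 1) (hzx : z ≠ x) (hzy : z ≠ y) : z = x * y := by
  have h := IsKleinFour.eq_mul_of_ne_all (G := P) (x := ⟨x, hx⟩) (y := ⟨y, hy⟩) (z := ⟨z, hz⟩)
    (fun h => hx1 (congrArg Subtype.val h)) (fun h => hy1 (congrArg Subtype.val h))
    (fun h => hxy (congrArg Subtype.val h)) (fun h => hz1 (congrArg Subtype.val h))
    (fun h => hzx (congrArg Subtype.val h)) (fun h => hzy (congrArg Subtype.val h))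
  exact congrArg Subtype.val h

include hP in
theorem klein_order_two {x : G} (hx : x ∈ P) (hx1 : x ≠ 1) : orderOf x = 2 :=
  order_two_of hx1 (klein_sq P hx)

include hP in
theorem klein_exists_pair : ∃ a b : G, a ∈ P ∧ b ∈ P ∧ a ≠ 1 ∧ b ≠ 1 ∧ a ≠ b := by
  obtain ⟨e⟩ := IsKleinFour.nonempty_mulEquiv (G₁ := DihedralGroup 2) (G₂ := P)
  refine ⟨e (DihedralGroup.r 1), e (DihedralGroup.sr 0), (e _).2, (e _).2, ?_, ?_, ?_⟩
  · intro h
    have h1 : e (DihedralGroup.r 1) = 1 := Subtype.ext h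
    rw [map_eq_one_iff e e.injective] at h1
    revert h1; decide
  · intro h
    have h1 : e (DihedralGroup.sr 0) = 1 := Subtype.ext h
    rw [map_eq_one_iff e e.injective] at h1
    revert h1; decide
  · intro h
    have h1 : e (DihedralGroup.r 1) = e (DihedralGroup.sr 0) := Subtype.ext h
    have h2 := e.injective h1
    revert h2; decide

end klein

variable [Finite G]

/-- An element of the normalizer of a Klein four Sylow 2-subgroup that fixes a nontrivial element
centralizes the subgroup. -/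
theorem klein_fix_centralizes (P : Sylow 2 G) (hP : IsKleinFour (P : Subgroup G)) {n a : G}
    (hn : n ∈ Subgroup.normalizer ((P : Subgroup G) : Set G)) (ha : a ∈ P) (ha1 : a ≠ 1)
    (hna : n * a * n⁻¹ = a) : ∀ y ∈ P, n * y * n⁻¹ = y := by
  intro y hy
  by_contra hne
  have hy1 : y ≠ 1 := by
    rintro rfl
    apply hne; group
  have hya : y ≠ a := by
    rintro rfl
    exact hne hna
  have hny : n * y * n⁻¹ ∈ (P : Subgroup G) := (Subgroup.mem_normalizer_iff.1 hn y).1 hy
  have h1 : n * y * n⁻¹ ≠ 1 := by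
    intro h
    apply hy1
    have : y = n⁻¹ * (n * y * n⁻¹) * n := by group
    rw [this, h]; group
  have h2 : n * y * n⁻¹ ≠ a := by
    intro h
    apply hya
    have h3 : n * y * n⁻¹ = n * a * n⁻¹ := h.trans hna.symm
    exact mul_left_cancel (mul_right_cancel h3)
  have h3 : n * y * n⁻¹ = a * y :=
    klein_third (P : Subgroup G) ha hy hny ha1 hy1 (Ne.symm hya) h1 h2 hne
  have haa := klein_sq (P : Subgroup G) ha
  have hpow : ∀ j : ℕ, n ^ j * y * (n ^ j)⁻¹ = if Even j then y else a * y := by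
    intro j
    induction j with
    | zero => simp
    | succ j ih =>
      have e1 : n ^ (j + 1) * y * (n ^ (j + 1))⁻¹ = n * (n ^ j * y * (n ^ j)⁻¹) * n⁻¹ := by
        rw [pow_succ']; group
      rw [e1, ih]
      by_cases hj : Even j
      · have : ¬ Even (j + 1) := by rw [Nat.even_add_one]; simpa using hj
        rw [if_pos hj, if_neg this, h3]
      · have : Even (j + 1) := by rw [Nat.even_add_one]; exact hj
        rw [if_neg hj, if_pos this]
        calc n * (a * y) * n⁻¹ = (n * a * n⁻¹) * (n * y * n⁻¹) := by group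
          _ = a * (a * y) := by rw [hna, h3]
          _ = y := by rw [← mul_assoc, haa, one_mul]
  obtain ⟨k, m, hm, hkm⟩ := Nat.exists_eq_two_pow_mul_odd (orderOf_pos n).ne'
  -- n^m is a 2-element of the normalizer, hence in P
  have hp : IsPGroup 2 (Subgroup.zpowers (n ^ m)) := by
    apply IsPGroup.of_card (n := k)
    rw [Nat.card_zpowers, orderOf_pow, hkm, Nat.gcd_eq_right (Dvd.intro_left _ rfl),
      Nat.mul_div_cancel _ hm.pos]
  have h4 := hp.inf_normalizer_sylow P
  have h5 : n ^ m ∈ Subgroup.zpowers (n ^ m) ⊓ (P : Subgroup G) := by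
    rw [← h4]
    exact Subgroup.mem_inf.2 ⟨Subgroup.mem_zpowers _, Subgroup.pow_mem _ hn m⟩
  have h6 : n ^ m ∈ (P : Subgroup G) := (Subgroup.mem_inf.1 h5).2
  have h7 := hpow m
  rw [if_neg (Nat.not_even_iff_odd.2 hm), klein_comm (P : Subgroup G) h6 hy, mul_inv_cancel_right] at h7
  apply ha1
  have : a * y = 1 * y := by rw [one_mul]; exact h7.symm
  exact mul_right_cancel this

/-- dichotomy for Klein four Sylow 2-subgroups. -/
theorem klein_dichotomy (P : Sylow 2 G) (hP : IsKleinFour (P : Subgroup G)) :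
    (Subgroup.normalizer ((P : Subgroup G) : Set G) ≤ Subgroup.centralizer ((P : Subgroup G) : Set G)) ∨
    (∀ s ∈ P, ∀ t ∈ P, s ≠ 1 → t ≠ 1 →
      ∃ n ∈ Subgroup.normalizer ((P : Subgroup G) : Set G), n * s * n⁻¹ = t) := by
  by_cases h : Subgroup.normalizer ((P : Subgroup G) : Set G) ≤
      Subgroup.centralizer ((P : Subgroup G) : Set G)
  · exact Or.inl h
  · right
    obtain ⟨n, hn, hnC⟩ := SetLike.not_le_iff_exists.1 h
    have hfree : ∀ a ∈ P, a ≠ 1 → n * a * n⁻¹ ≠ a := by
      intro a ha ha1 hna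
      apply hnC
      rw [Subgroup.mem_centralizer_iff]
      intro y hy
      have := klein_fix_centralizes P hP hn ha ha1 hna y hy
      calc y * n = (n * y * n⁻¹) * n := by rw [this]
        _ = n * y := by group
    have hmem : ∀ a ∈ P, n * a * n⁻¹ ∈ (P : Subgroup G) :=
      fun a ha => (Subgroup.mem_normalizer_iff.1 hn a).1 ha
    have hne1 : ∀ a : G, a ≠ 1 → n * a * n⁻¹ ≠ 1 := by
      intro a ha1 h
      apply ha1
      have : a = n⁻¹ * (n * a * n⁻¹) * n := by group
      rw [this, h]; group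
    intro s hs t ht hs1 ht1
    set s' := n * s * n⁻¹ with hs'
    set s'' := n * s' * n⁻¹ with hs''
    have hs'P := hmem s hs
    have hs''P := hmem s' hs'P
    have hs'1 := hne1 s hs1
    have hs''1 := hne1 s' hs'1
    have h1 : s' ≠ s := hfree s hs hs1
    have h2 : s'' ≠ s' := hfree s' hs'P hs'1
    have h3 : s'' ≠ s := by
      intro h3
      have hss' : s * s' ≠ 1 := by
        intro h4
        apply h1
        have h5 : s' = s⁻¹ := eq_inv_of_mul_eq_one_right h4
        rw [h5]
        exact inv_eq_of_mul_eq_one_left (klein_sq (P : Subgroup G) hs)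
      apply hfree (s * s') ((P : Subgroup G).mul_mem hs hs'P) hss'
      calc n * (s * s') * n⁻¹ = (n * s * n⁻¹) * (n * s' * n⁻¹) := by group
        _ = s' * s := by rw [← hs', ← hs'', h3]
        _ = s * s' := klein_comm (P : Subgroup G) hs'P hs
    have h4 : s'' = s * s' :=
      klein_third (P : Subgroup G) hs hs'P hs''P hs1 hs'1 (Ne.symm h1) hs''1 h3 h2
    by_cases e1 : t = s
    · exact ⟨1, Subgroup.one_mem _, by rw [e1]; group⟩
    by_cases e2 : t = s'
    · exact ⟨n, hn, by rw [e2]⟩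
    · have h5 : t = s * s' := klein_third (P : Subgroup G) hs hs'P ht hs1 hs'1 (Ne.symm h1) ht1 e1 e2
      refine ⟨n * n, Subgroup.mul_mem _ hn hn, ?_⟩
      rw [h5, ← h4, hs'', hs']; group

/-- every involution is conjugate into a given Sylow 2-subgroup -/
theorem invol_conj_into_sylow (P : Sylow 2 G) {t : G} (ht : orderOf t = 2) :
    ∃ g : G, g * t * g⁻¹ ∈ P := by
  have hp : IsPGroup 2 (Subgroup.zpowers t) := by
    apply IsPGroup.of_card (n := 1)
    rw [Nat.card_zpowers, ht, pow_one]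
  obtain ⟨g, hg⟩ := exists_conj_mem_sylow P _ hp
  exact ⟨g, hg t (Subgroup.mem_zpowers t)⟩

/-- Burnside fusion in the form `g x g⁻¹`. -/
theorem burnside_fusion {p : ℕ} [Fact p.Prime] (P : Sylow p G) (hP : IsMulCommutative (P : Subgroup G))
    {x g : G} (hx : x ∈ P) (hy : g * x * g⁻¹ ∈ P) :
    ∃ n ∈ Subgroup.normalizer ((P : Subgroup G) : Set G), n * x * n⁻¹ = g * x * g⁻¹ := by
  have h := P.conj_eq_normalizer_conj_of_mem x g⁻¹ hx (by rwa [inv_inv])
  obtain ⟨n, hn, h1⟩ := h
  rw [inv_inv] at h1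
  exact ⟨n⁻¹, Subgroup.inv_mem _ hn, by rw [inv_inv]; exact h1.symm⟩

end Cfsg.Agent.H5
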