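import Mathlib
import Cfsg.Agent.Lib_helper5_Klein

set_option autoImplicit false

namespace Cfsg.Agent.H5

variable {G : Type*} [Group G]

theorem card_classes_eq_one (k : ℕ) (t₀ : G) (ht₀ : orderOf t₀ = k)
    (h : ∀ s t : G, orderOf s = k → orderOf t = k → IsConj s t) :
    Nat.card {C : ConjClasses G // ∃ t : G, orderOf t = k ∧ ConjClasses.mk t = C} = 1 := by
  rw [Nat.card_eq_one_iff_unique]
  constructor
  · constructor
    rintro ⟨_, s, hs, rfl⟩ ⟨_, t, ht, rfl⟩
    ext
    exact ConjClasses.mk_eq_mk_iff_isConj.2 (h s t hs ht)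
  · exact ⟨⟨_, t₀, ht₀, rfl⟩⟩

variable [Finite G]

theorem klein_card_classes_eq_three (P : Sylow 2 G) (hP : IsKleinFour (P : Subgroup G))
    (hnc : ∀ s ∈ P, ∀ t ∈ P, IsConj s t → s = t) :
    Nat.card {C : ConjClasses G // ∃ t : G, orderOf t = 2 ∧ ConjClasses.mk t = C} = 3 := by
  obtain ⟨a, b, ha, hb, ha1, hb1, hab⟩ := klein_exists_pair (P : Subgroup G)
  have hc : a * b ∈ (P : Subgroup G) := (P : Subgroup G).mul_mem ha hb
  have hc1 : a * b ≠ 1 := by
    intro h
    apply hab
    have h5 : b = a⁻¹ := eq_inv_of_mul_eq_one_right h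
    rw [h5]
    exact (inv_eq_of_mul_eq_one_left (klein_sq (P : Subgroup G) ha)).symm
  have hca : a * b ≠ a := by
    intro h
    apply hb1
    have : a * b = a * 1 := by rw [mul_one]; exact h
    exact mul_left_cancel this
  have hcb : a * b ≠ b := by
    intro h
    apply ha1
    have : a * b = 1 * b := by rw [one_mul]; exact h
    exact mul_right_cancel this
  let f : Fin 3 → {C : ConjClasses G // ∃ t : G, orderOf t = 2 ∧ ConjClasses.mk t = C} := fun i =>
    match i with
    | 0 => ⟨ConjClasses.mk a, a, klein_order_two (P : Subgroup G) ha ha1, rfl⟩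
    | 1 => ⟨ConjClasses.mk b, b, klein_order_two (P : Subgroup G) hb hb1, rfl⟩
    | 2 => ⟨ConjClasses.mk (a * b), a * b, klein_order_two (P : Subgroup G) hc hc1, rfl⟩
  have hinj : Function.Injective f := by
    have key : ∀ s ∈ P, ∀ t ∈ P, ConjClasses.mk s = ConjClasses.mk t → s = t :=
      fun s hs t ht h => hnc s hs t ht (ConjClasses.mk_eq_mk_iff_isConj.1 h)
    intro i j hij
    have hij' := congrArg Subtype.val hij
    fin_cases i <;> fin_cases j <;> simp only [f] at hij' <;> first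
      | rfl
      | exact absurd (key _ ha _ hb hij') hab
      | exact absurd (key _ hb _ ha hij') (Ne.symm hab)
      | exact absurd (key _ hc _ ha hij') hca
      | exact absurd (key _ ha _ hc hij') (Ne.symm hca)
      | exact absurd (key _ hc _ hb hij') hcb
      | exact absurd (key _ hb _ hc hij') (Ne.symm hcb)
  have hsurj : Function.Surjective f := by
    rintro ⟨_, t, ht, rfl⟩
    obtain ⟨g, hg⟩ := invol_conj_into_sylow P ht
    have hg1 : g * t * g⁻¹ ≠ 1 := ne_one_of_order_two (order_two_conj ht g)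
    have hmk : ConjClasses.mk t = ConjClasses.mk (g * t * g⁻¹) :=
      ConjClasses.mk_eq_mk_iff_isConj.2 (isConj_iff.2 ⟨g, rfl⟩)
    by_cases e1 : g * t * g⁻¹ = a
    · refine ⟨0, ?_⟩
      ext
      show ConjClasses.mk a = ConjClasses.mk t
      rw [hmk, e1]
    by_cases e2 : g * t * g⁻¹ = b
    · refine ⟨1, ?_⟩
      ext
      show ConjClasses.mk b = ConjClasses.mk t
      rw [hmk, e2]
    · refine ⟨2, ?_⟩
      ext
      show ConjClasses.mk (a * b) = ConjClasses.mk t
      rw [hmk, klein_third (P : Subgroup G) ha hb hg ha1 hb1 hab hg1 e1 e2]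
  rw [← Nat.card_congr (Equiv.ofBijective f ⟨hinj, hsurj⟩), Nat.card_fin]

/-- in the transitive case all involutions are conjugate -/
theorem klein_all_conj (P : Sylow 2 G) 
    (htr : ∀ s ∈ P, ∀ t ∈ P, s ≠ 1 → t ≠ 1 →
      ∃ n ∈ Subgroup.normalizer ((P : Subgroup G) : Set G), n * s * n⁻¹ = t)
    (s t : G) (hs : orderOf s = 2) (ht : orderOf t = 2) : IsConj s t := by
  obtain ⟨g, hg⟩ := invol_conj_into_sylow P hs
  obtain ⟨h, hh⟩ := invol_conj_into_sylow P ht
  obtain ⟨n, -, hn⟩ := htr _ hg _ hh (ne_one_of_order_two (order_two_conj hs g))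
    (ne_one_of_order_two (order_two_conj ht h))
  have h1 : IsConj s (g * s * g⁻¹) := isConj_iff.2 ⟨g, rfl⟩
  have h2 : IsConj (g * s * g⁻¹) (h * t * h⁻¹) := isConj_iff.2 ⟨n, hn⟩
  have h3 : IsConj t (h * t * h⁻¹) := isConj_iff.2 ⟨h, rfl⟩
  exact (h1.trans h2).trans h3.symm

/-- in the central case no fusion -/
theorem klein_no_fusion (P : Sylow 2 G) (hP : IsKleinFour (P : Subgroup G))
    (hNC : Subgroup.normalizer ((P : Subgroup G) : Set G) ≤
      Subgroup.centralizer ((P : Subgroup G) : Set G)) :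
    ∀ s ∈ P, ∀ t ∈ P, IsConj s t → s = t := by
  intro s hs t ht hst
  obtain ⟨g, rfl⟩ := isConj_iff.1 hst
  obtain ⟨n, hn, h1⟩ := burnside_fusion P IsKleinFour.isMulCommutative hs ht
  rw [← h1]
  have h2 := Subgroup.mem_centralizer_iff.1 (hNC hn) s hs
  rw [← h2, mul_inv_cancel_right]

end Cfsg.Agent.H5
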