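import Mathlib
import Cfsg.Prelude.Def_AxialAlgebras

set_option autoImplicit false

namespace Cfsg.Agent.H5.Maj

open Cfsg.Axial

variable {V : Type*} [AddCommGroup V] [Module ℝ V] {mul : V →ₗ[ℝ] V →ₗ[ℝ] V}

theorem mem_eigen {a v : V} {c : ℝ} : v ∈ eigen mul a c ↔ mul a v = c • v :=
  Module.End.mem_eigenspace_iff

theorem eigen_le_eigenSum {a : V} {c : ℝ} {S : Set ℝ} (hc : c ∈ S) :
    eigen mul a c ≤ eigenSum mul a S :=
  le_iSup₂ (f := fun c (_ : c ∈ S) => eigen mul a c) c hc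

theorem mem_eigenSum_singleton {a v : V} {c : ℝ} :
    v ∈ eigenSum mul a {c} ↔ mul a v = c • v := by
  unfold eigenSum
  rw [iSup_singleton, mem_eigen]

theorem mem_eigenSum_pair {a v : V} {c d : ℝ} :
    v ∈ eigenSum mul a {c, d} ↔ ∃ x y, mul a x = c • x ∧ mul a y = d • y ∧ v = x + y := by
  unfold eigenSum
  rw [iSup_insert, iSup_singleton, Submodule.mem_sup]
  constructor
  · rintro ⟨x, hx, y, hy, rfl⟩
    exact ⟨x, y, mem_eigen.1 hx, mem_eigen.1 hy, rfl⟩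
  · rintro ⟨x, y, hx, hy, rfl⟩
    exact ⟨x, mem_eigen.2 hx, y, mem_eigen.2 hy, rfl⟩

theorem exists_decomp {a : V} (h : eigenSum mul a majoranaSpectrum = ⊤) (v : V) :
    ∃ v1 v0 vq vr, mul a v1 = v1 ∧ mul a v0 = 0 ∧ mul a vq = (1 / 4 : ℝ) • vq ∧
      mul a vr = (1 / 32 : ℝ) • vr ∧ v = v1 + v0 + vq + vr := by
  have hv : v ∈ eigenSum mul a majoranaSpectrum := h ▸ Submodule.mem_top
  unfold eigenSum majoranaSpectrum at hv
  rw [iSup_insert, iSup_insert, iSup_insert, iSup_singleton] at hv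
  obtain ⟨v1, h1, w, hw, rfl⟩ := Submodule.mem_sup.1 hv
  obtain ⟨v0, h0, w', hw', rfl⟩ := Submodule.mem_sup.1 hw
  obtain ⟨vq, hq, vr, hr, rfl⟩ := Submodule.mem_sup.1 hw'
  refine ⟨v1, v0, vq, vr, ?_, ?_, mem_eigen.1 hq, mem_eigen.1 hr, by abel⟩
  · simpa using mem_eigen.1 h1
  · simpa using mem_eigen.1 h0

theorem law00 : monsterLaw (1 / 4 : ℝ) (1 / 32) 0 0 = {0} := by
  unfold monsterLaw
  norm_num

theorem law0q : monsterLaw (1 / 4 : ℝ) (1 / 32) 0 (1 / 4) = {1 / 4} := by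
  unfold monsterLaw
  norm_num

theorem lawqq : monsterLaw (1 / 4 : ℝ) (1 / 32) (1 / 4) (1 / 4) = {1, 0} := by
  unfold monsterLaw
  norm_num

theorem indep3 {a x1 x0 xq : V} (h1 : mul a x1 = x1) (h0 : mul a x0 = 0)
    (hq : mul a xq = (1 / 4 : ℝ) • xq) (h : x1 + x0 + xq = 0) : x1 = 0 ∧ x0 = 0 ∧ xq = 0 := by
  have e1 : x1 + (1 / 4 : ℝ) • xq = 0 := by
    have := congrArg (mul a) h
    simpa [map_add, h1, h0, hq] using this
  have e2 : x1 + (1 / 16 : ℝ) • xq = 0 := by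
    have := congrArg (mul a) e1
    simp only [map_add, map_smul, h1, hq, map_zero, smul_smul] at this
    norm_num at this
    exact this
  have e3 : xq = 0 := by
    have : (3 / 16 : ℝ) • xq = 0 := by
      have : (3 / 16 : ℝ) • xq = (x1 + (1 / 4 : ℝ) • xq) - (x1 + (1 / 16 : ℝ) • xq) := by module
      rw [this, e1, e2, sub_zero]
    exact (smul_eq_zero.1 this).resolve_left (by norm_num)
  have e4 : x1 = 0 := by simpa [e3] using e1
  refine ⟨e4, ?_, e3⟩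
  simpa [e3, e4] using h

/-- comparison of components -/
theorem indep3' {a x1 x0 xq y1 y0 yq : V} (h1 : mul a x1 = x1) (h0 : mul a x0 = 0)
    (hq : mul a xq = (1 / 4 : ℝ) • xq) (k1 : mul a y1 = y1) (k0 : mul a y0 = 0)
    (kq : mul a yq = (1 / 4 : ℝ) • yq) (h : x1 + x0 + xq = y1 + y0 + yq) :
    x1 = y1 ∧ x0 = y0 ∧ xq = yq := by
  have := indep3 (mul := mul) (a := a) (x1 := x1 - y1) (x0 := x0 - y0) (xq := xq - yq)
    (by rw [map_sub, h1, k1]) (by rw [map_sub, h0, k0, sub_zero])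
    (by rw [map_sub, hq, kq, smul_sub])
    (by
      have : x1 - y1 + (x0 - y0) + (xq - yq) = (x1 + x0 + xq) - (y1 + y0 + yq) := by abel
      rw [this, h, sub_self])
  exact ⟨sub_eq_zero.1 this.1, sub_eq_zero.1 this.2.1, sub_eq_zero.1 this.2.2⟩

variable {B : LinearMap.BilinForm ℝ V} {μ : V ≃ₗ[ℝ] V} {a : V}

theorem idem (h : IsMajoranaPair mul B μ a) : mul a a = a := h.2.2.1.1.2.1

theorem ne_zero (h : IsMajoranaPair mul B μ a) : a ≠ 0 := h.2.2.1.1.1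

theorem fus00 (h : IsMajoranaPair mul B μ a) {x y : V} (hx : mul a x = 0) (hy : mul a y = 0) :
    mul a (mul x y) = 0 := by
  have := h.2.2.1.1.2.2.2 0 (by simp [majoranaSpectrum]) 0 (by simp [majoranaSpectrum]) x
    (mem_eigen.2 (by simpa using hx)) y (mem_eigen.2 (by simpa using hy))
  rw [law00, mem_eigenSum_singleton] at this
  simpa using this

theorem fus0q (h : IsMajoranaPair mul B μ a) {x y : V} (hx : mul a x = 0)
    (hy : mul a y = (1 / 4 : ℝ) • y) : mul a (mul x y) = (1 / 4 : ℝ) • mul x y := by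
  have := h.2.2.1.1.2.2.2 0 (by simp [majoranaSpectrum]) (1 / 4) (by simp [majoranaSpectrum]) x
    (mem_eigen.2 (by simpa using hx)) y (mem_eigen.2 hy)
  rw [law0q, mem_eigenSum_singleton] at this
  exact this

theorem fusqq (h : IsMajoranaPair mul B μ a) {x y : V} (hx : mul a x = (1 / 4 : ℝ) • x)
    (hy : mul a y = (1 / 4 : ℝ) • y) : ∃ (n : ℝ) (g : V), mul x y = n • a + g ∧ mul a g = 0 := by
  have := h.2.2.1.1.2.2.2 (1 / 4) (by simp [majoranaSpectrum]) (1 / 4) (by simp [majoranaSpectrum]) x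
    (mem_eigen.2 hx) y (mem_eigen.2 hy)
  rw [lawqq, mem_eigenSum_pair] at this
  obtain ⟨u, g, hu, hg, e⟩ := this
  have hu' : u ∈ eigen mul a 1 := mem_eigen.2 hu
  rw [h.2.2.1.2, Submodule.mem_span_singleton] at hu'
  obtain ⟨n, rfl⟩ := hu'
  exact ⟨n, g, e, by simpa using hg⟩

theorem fix_decomp (h : IsMajoranaPair mul B μ a) {v : V} (hv : μ v = v) :
    ∃ (l : ℝ) (v0 vq : V), v = l • a + v0 + vq ∧ mul a v0 = 0 ∧ mul a vq = (1 / 4 : ℝ) • vq := by
  obtain ⟨v1, v0, vq, vr, h1, h0, hq, hr, rfl⟩ := exists_decomp h.2.2.1.1.2.2.1 v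
  have hfix : ∀ (c : ℝ), c ∈ ({1, 0, 1 / 4} : Set ℝ) → ∀ w, mul a w = c • w → μ w = w := by
    intro c hc w hw
    exact h.2.2.2.1 w (eigen_le_eigenSum hc (mem_eigen.2 hw))
  have f1 : μ v1 = v1 := hfix 1 (by simp) v1 (by simpa using h1)
  have f0 : μ v0 = v0 := hfix 0 (by simp) v0 (by simpa using h0)
  have fq : μ vq = vq := hfix (1 / 4) (by simp) vq hq
  have fr : μ vr = -vr := h.2.2.2.2 vr (mem_eigen.2 hr)
  rw [map_add, map_add, map_add, f1, f0, fq, fr] at hv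
  have hvr : vr = 0 := by
    have : (2 : ℝ) • vr = 0 := by
      have e : (2 : ℝ) • vr = (v1 + v0 + vq + vr) - (v1 + v0 + vq + -vr) := by module
      rw [e, hv, sub_self]
    exact (smul_eq_zero.1 this).resolve_left (by norm_num)
  have hu' : v1 ∈ eigen mul a 1 := mem_eigen.2 (by simpa using h1)
  rw [h.2.2.1.2, Submodule.mem_span_singleton] at hu'
  obtain ⟨l, rfl⟩ := hu'
  exact ⟨l, v0, vq, by rw [hvr, add_zero], h0, hq⟩

theorem eigen_map (σ : V ≃ₗ[ℝ] V) (hσ : ∀ u v : V, σ (mul u v) = mul (σ u) (σ v)) (a : V) (c : ℝ) :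
    eigen mul (σ a) c = (eigen mul a c).map (σ : V →ₗ[ℝ] V) := by
  ext v
  rw [Submodule.mem_map, mem_eigen]
  constructor
  · intro hv
    refine ⟨σ.symm v, ?_, by simp⟩
    rw [mem_eigen]
    apply σ.injective
    rw [hσ, map_smul, LinearEquiv.apply_symm_apply, hv]
  · rintro ⟨w, hw, rfl⟩
    rw [mem_eigen] at hw
    rw [LinearEquiv.coe_coe, ← hσ, hw, map_smul]

theorem eigenSum_map (σ : V ≃ₗ[ℝ] V) (hσ : ∀ u v : V, σ (mul u v) = mul (σ u) (σ v)) (a : V)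
    (S : Set ℝ) : eigenSum mul (σ a) S = (eigenSum mul a S).map (σ : V →ₗ[ℝ] V) := by
  unfold eigenSum
  simp_rw [eigen_map σ hσ, Submodule.map_iSup]

theorem pair_map (h : IsMajoranaPair mul B μ a) (σ : V ≃ₗ[ℝ] V)
    (hσ : ∀ u v : V, σ (mul u v) = mul (σ u) (σ v)) (hc : ∀ v, σ (μ v) = μ (σ v)) :
    IsMajoranaPair mul B μ (σ a) := by
  refine ⟨h.1, h.2.1, ⟨⟨?_, ?_, ?_, ?_⟩, ?_⟩, ?_, ?_⟩
  · intro h0
    exact ne_zero h (by simpa using h0)
  · rw [← hσ, idem h]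
  · rw [eigenSum_map σ hσ, h.2.2.1.1.2.2.1, Submodule.map_top, LinearMap.range_eq_top]
    exact σ.surjective
  · intro c hcS d hdS u hu v hv
    rw [eigen_map σ hσ, Submodule.mem_map] at hu hv
    obtain ⟨u', hu', rfl⟩ := hu
    obtain ⟨v', hv', rfl⟩ := hv
    rw [eigenSum_map σ hσ, Submodule.mem_map]
    exact ⟨mul u' v', h.2.2.1.1.2.2.2 c hcS d hdS u' hu' v' hv', by simp [hσ]⟩
  · rw [eigen_map σ hσ, h.2.2.1.2, Submodule.map_span, Set.image_singleton]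
    rfl
  · intro v hv
    rw [eigenSum_map σ hσ, Submodule.mem_map] at hv
    obtain ⟨v', hv', rfl⟩ := hv
    have := h.2.2.2.1 v' hv'
    simp only [LinearEquiv.coe_coe] at this ⊢
    rw [← hc, this]
  · intro v hv
    rw [eigen_map σ hσ, Submodule.mem_map] at hv
    obtain ⟨v', hv', rfl⟩ := hv
    have := h.2.2.2.2 v' hv'
    simp only [LinearEquiv.coe_coe] at this ⊢
    rw [← hc, this, map_neg]

end Cfsg.Agent.H5.Maj
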