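import Cfsg.Statements.S1224
import Cfsg.Agent.Lib_helper5_SE3

set_option autoImplicit false
open Cfsg

namespace Cfsg.Agent.S1224

theorem uniq {G : Type*} [Group G] [Finite G] (H : Subgroup G) (hH : Cfsg.IsStronglyEmbedded H)
    (t σ : G) (ht : orderOf t = 2) (htH : t ∈ H) (hσ : orderOf σ = 2) (hσH : σ ∉ H) :
    ∃ w : G, orderOf w = 2 ∧ w * t * w⁻¹ = σ ∧
      ∀ i : G, orderOf i = 2 → i * t * i⁻¹ = σ → i = w := by
  have hodd := H5.se_odd_mul hH ht htH hσ hσH
  obtain ⟨k, hw1, hw2⟩ := H5.conj_of_odd (H5.mul_self_of_order_two ht)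
    (H5.mul_self_of_order_two hσ) hodd
  set w := (t * σ) ^ k * t with hw
  have hwi : w⁻¹ = w := inv_eq_of_mul_eq_one_left hw1
  have hw0 : w ≠ 1 := by
    intro h
    rw [h] at hw2
    apply hσH
    rw [← hw2]
    simpa using htH
  refine ⟨w, H5.order_two_of hw0 hw1, hw2, ?_⟩
  intro i hi hit
  have hii := H5.mul_self_of_order_two hi
  have hiinv : i⁻¹ = i := inv_eq_of_mul_eq_one_left hii
  -- relations
  have e1 : i * t = σ * i := by
    rw [← hit]; group
  have e2 : w * t = σ * w := by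
    rw [← hw2]; group
  have e3 : i * σ = t * i := by
    rw [← hit, hiinv]
    calc i * (i * t * i) = (i * i) * t * i := by group
      _ = t * i := by rw [hii, one_mul]
  have e4 : w * σ = t * w := by
    rw [← hw2, hwi]
    calc w * (w * t * w) = (w * w) * t * w := by group
      _ = t * w := by rw [hw1, one_mul]
  have c1 : Commute (w * i) t := by
    show w * i * t = t * (w * i)
    rw [mul_assoc, e1, ← mul_assoc, e4, mul_assoc]
  have c2 : Commute (w * i) σ := by
    show w * i * σ = σ * (w * i)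
    rw [mul_assoc, e3, ← mul_assoc, e2, mul_assoc]
  have c3 : Commute (w * i) w := by
    rw [hw]
    rw [← hw]
    have : Commute (w * i) ((t * σ) ^ k * t) := ((c1.mul_right c2).zpow_right k).mul_right c1
    exact this
  have hcc : (w * i) * (w * i) = 1 := by
    have h : w * i * w = w * (w * i) := c3
    rw [← mul_assoc, h, ← mul_assoc, hw1, one_mul, hii]
  by_contra hne
  have hc0 : w * i ≠ 1 := by
    intro h
    apply hne
    have : i = w⁻¹ := eq_inv_of_mul_eq_one_right h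
    rw [this, hwi]
  have hco : orderOf (w * i) = 2 := H5.order_two_of hc0 hcc
  have hcH : w * i ∈ H := H5.se_mem_of_commute hH ht htH c1
  exact hσH (H5.se_mem_of_commute hH hco hcH c2.symm)

theorem main {G : Type*} [Group G] [Finite G] (H : Subgroup G) (hH : Cfsg.IsStronglyEmbedded H)
    (g : G) (hg : g ∉ H) :
    Nat.card {i : G // orderOf i = 2 ∧ g⁻¹ * i ∈ H} = Nat.card {t : G // orderOf t = 2 ∧ t ∈ H} := by
  obtain ⟨s0, hs0H, hs0⟩ := H5.exists_invol_of_even H hH.2.1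
  have hσ : orderOf (g * s0 * g⁻¹) = 2 := H5.order_two_conj hs0 g
  have hσH : g * s0 * g⁻¹ ∉ H := fun h => hg (H5.se_mem_of_conj hH hs0 hs0H h)
  set σ := g * s0 * g⁻¹ with hσdef
  have hmap : ∀ i : {i : G // orderOf i = 2 ∧ g⁻¹ * i ∈ H},
      orderOf ((i : G)⁻¹ * σ * (i : G)) = 2 ∧ (i : G)⁻¹ * σ * (i : G) ∈ H := by
    rintro ⟨i, hi, hiH⟩
    refine ⟨?_, ?_⟩
    · have := H5.order_two_conj hσ i⁻¹
      simpa using this
    · have : i⁻¹ * σ * i = (g⁻¹ * i)⁻¹ * s0 * (g⁻¹ * i) := by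
        rw [hσdef]; group
      show i⁻¹ * σ * i ∈ H
      rw [this]
      exact H.mul_mem (H.mul_mem (H.inv_mem hiH) hs0H) hiH
  refine Nat.card_congr (Equiv.ofBijective (fun i => ⟨(i : G)⁻¹ * σ * (i : G), hmap i⟩) ⟨?_, ?_⟩)
  · rintro ⟨i, hi, hiH⟩ ⟨j, hj, hjH⟩ hij
    have hij' : i⁻¹ * σ * i = j⁻¹ * σ * j := congrArg Subtype.val hij
    obtain ⟨w, -, -, hu⟩ := uniq H hH (i⁻¹ * σ * i) σ (hmap ⟨i, hi, hiH⟩).1 (hmap ⟨i, hi, hiH⟩).2 hσ hσH
    have h1 : i = w := hu i hi (by group)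
    have h2 : j = w := hu j hj (by rw [hij']; group)
    exact Subtype.ext (h1.trans h2.symm)
  · rintro ⟨t, ht, htH⟩
    obtain ⟨w, hw, hwt, -⟩ := uniq H hH t σ ht htH hσ hσH
    have hwH : g⁻¹ * w ∈ H := by
      apply H5.se_mem_of_conj hH ht htH
      have : g⁻¹ * w * t * (g⁻¹ * w)⁻¹ = g⁻¹ * (w * t * w⁻¹) * g := by group
      rw [this, hwt, hσdef]
      have : g⁻¹ * (g * s0 * g⁻¹) * g = s0 := by group
      rw [this]; exact hs0H
    refine ⟨⟨w, hw, hwH⟩, Subtype.ext ?_⟩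
    show w⁻¹ * σ * w = t
    rw [← hwt]; group

/-- Let H be a strongly embedded subgroup of the finite group G and x ≠ y two cosets in G/H. Then the number of involutions i of G with i • x = y equals the number of involutions lying in H. -/
theorem result {G : Type*} [Group G] [Finite G] (H : Subgroup G) (hH : Cfsg.IsStronglyEmbedded H) (x y : G ⧸ H) (hxy : x ≠ y) : Nat.card {i : G // orderOf i = 2 ∧ i • x = y} = Nat.card {t : G // orderOf t = 2 ∧ t ∈ H} := by
  induction x using QuotientGroup.induction_on with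
  | H a =>
  induction y using QuotientGroup.induction_on with
  | H b =>
  have hg : a⁻¹ * b ∉ H := fun h => hxy (QuotientGroup.eq.2 h)
  rw [← main H hH (a⁻¹ * b) hg]
  refine Nat.card_congr (Equiv.subtypeEquiv (MulAut.conj a⁻¹).toEquiv (fun i => ?_))
  have e : (MulAut.conj a⁻¹).toEquiv i = a⁻¹ * i * a := by simp [MulAut.conj_apply]
  rw [e]
  have h1 : orderOf (a⁻¹ * i * a) = orderOf i := by
    have := orderOf_injective (MulAut.conj a⁻¹).toMonoidHom (MulAut.conj a⁻¹).injective i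
    simpa [MulAut.conj_apply] using this
  rw [h1]
  have h2 : i • (a : G ⧸ H) = ((i * a : G) : G ⧸ H) := rfl
  rw [h2, QuotientGroup.eq, ← H.inv_mem_iff]
  have h3 : ((i * a)⁻¹ * b)⁻¹ = (a⁻¹ * b)⁻¹ * (a⁻¹ * i * a) := by group
  rw [h3]

end Cfsg.Agent.S1224
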