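import Cfsg.Statements.S1225
import Cfsg.Agent.Lib_helper5_SE3

set_option autoImplicit false
open Cfsg

namespace Cfsg.Agent.S1225

theorem part1 {G : Type*} [Group G] [Finite G] (H : Subgroup G) (hH : Cfsg.IsStronglyEmbedded H) (u : G)
    (hu : orderOf u = 2) (huH : u ∉ H) (s t : G) (hs : orderOf s = 2) (hsH : s ∈ H)
    (ht : orderOf t = 2) (htH : t ∈ H) :
    ∃ d ∈ (H ⊓ H.map (MulAut.conj u).toMonoidHom), d * s * d⁻¹ = t := by
  have huu := H5.mul_self_of_order_two hu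
  have hui := H5.inv_of_order_two hu
  -- σ = u t u⁻¹
  have hσ : orderOf (u * t * u⁻¹) = 2 := H5.order_two_conj ht u
  have hσH : u * t * u⁻¹ ∉ H := fun h => huH (H5.se_mem_of_conj hH ht htH h)
  have hodd := H5.se_odd_mul hH hs hsH hσ hσH
  obtain ⟨k, hw1, hw2⟩ := H5.conj_of_odd (H5.mul_self_of_order_two hs)
    (H5.mul_self_of_order_two hσ) hodd
  set w := (s * (u * t * u⁻¹)) ^ k * s with hw
  have hwi : w⁻¹ = w := inv_eq_of_mul_eq_one_left hw1
  have hd : (u⁻¹ * w) * s * (u⁻¹ * w)⁻¹ = t := by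
    calc (u⁻¹ * w) * s * (u⁻¹ * w)⁻¹ = u⁻¹ * (w * s * w⁻¹) * u := by group
      _ = u⁻¹ * (u * t * u⁻¹) * u := by rw [hw2]
      _ = t := by group
  have hdH : u⁻¹ * w ∈ H := H5.se_mem_of_conj hH hs hsH (by rw [hd]; exact htH)
  refine ⟨u⁻¹ * w, Subgroup.mem_inf.2 ⟨hdH, ?_⟩, hd⟩
  rw [H5.mem_conj_map]
  have : u⁻¹ * (u⁻¹ * w) * u = (u⁻¹ * w)⁻¹ := by
    rw [mul_inv_rev, inv_inv, hwi, hui, ← mul_assoc, huu, one_mul]
  rw [this]
  exact H.inv_mem hdH

/-- Let H be a strongly embedded subgroup of the finite group G, u an involution outside H and D = H ∩ uHu⁻¹. Then any two involutions of H are conjugate by an element of D, and any two involutions of G are conjugate in G. -/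
theorem result {G : Type*} [Group G] [Finite G] (H : Subgroup G) (hH : Cfsg.IsStronglyEmbedded H) (u : G) (hu : orderOf u = 2) (huH : u ∉ H) (s t : G) (hs : orderOf s = 2) (hsH : s ∈ H) (ht : orderOf t = 2) (htH : t ∈ H) : (∃ d ∈ (H ⊓ H.map (MulAut.conj u).toMonoidHom), d * s * d⁻¹ = t) ∧ ∀ a b : G, orderOf a = 2 → orderOf b = 2 → IsConj a b := by
  refine ⟨part1 H hH u hu huH s t hs hsH ht htH, ?_⟩
  have key : ∀ a : G, orderOf a = 2 → IsConj s a := by
    intro a ha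
    by_cases haH : a ∈ H
    · obtain ⟨d, -, hd⟩ := part1 H hH u hu huH s a hs hsH ha haH
      exact isConj_iff.2 ⟨d, hd⟩
    · have hodd := H5.se_odd_mul hH hs hsH ha haH
      obtain ⟨k, -, hw2⟩ := H5.conj_of_odd (H5.mul_self_of_order_two hs)
        (H5.mul_self_of_order_two ha) hodd
      exact isConj_iff.2 ⟨_, hw2⟩
  intro a b ha hb
  exact (key a ha).symm.trans (key b hb)

end Cfsg.Agent.S1225
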