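import Mathlib
import Cfsg.Agent.Lib_helper5_SE3
import Cfsg.Agent.Lib_helper3_Solv
import Cfsg.Agent.Lib_helper1_SZ
import Cfsg.Agent.S1224
import Cfsg.Agent.S1225
import Cfsg.Prelude.Def_LieRecognition

set_option autoImplicit false

namespace Cfsg.Agent.H5.R1

open MulAction

variable {G Ω : Type*} [Group G] [MulAction G Ω] {a : Ω} {t : G} {Q : Subgroup G}

theorem two (hS : Cfsg.IsRankOneSetup G Ω a t Q) {x y z w : Ω} (h1 : x ≠ y) (h2 : z ≠ w) :
    ∃ g : G, g • x = z ∧ g • y = w :=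
  (MulAction.is_two_pretransitive_iff.1 hS.two_transitive) h1 h2

theorem ta_ne (hS : Cfsg.IsRankOneSetup G Ω a t Q) : t • a ≠ a :=
  fun h => hS.not_mem (mem_stabilizer_iff.2 h)

theorem t_inv (hS : Cfsg.IsRankOneSetup G Ω a t Q) : t⁻¹ = t :=
  inv_eq_of_mul_eq_one_left hS.mul_self

theorem t_order (hS : Cfsg.IsRankOneSetup G Ω a t Q) : orderOf t = 2 :=
  H5.order_two_of hS.ne_one hS.mul_self

theorem tta (hS : Cfsg.IsRankOneSetup G Ω a t Q) : t • t • a = a := by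
  rw [← mul_smul, hS.mul_self, one_smul]

theorem le_normalizer (hS : Cfsg.IsRankOneSetup G Ω a t Q) :
    stabilizer G a ≤ Subgroup.normalizer (Q : Set G) :=
  H1.le_normalizer_of_forall hS.conj_mem

theorem decomp (hS : Cfsg.IsRankOneSetup G Ω a t Q) {h : G} (hh : h ∈ stabilizer G a) :
    ∃ q ∈ Q, ∃ d ∈ stabilizer G a ⊓ stabilizer G (t • a), h = q * d := by
  rw [← hS.sup_eq] at hh
  exact H3.mem_sup_of_le_normalizer (inf_le_left.trans (le_normalizer hS)) hh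

theorem trans (hS : Cfsg.IsRankOneSetup G Ω a t Q) {c : Ω} (hc : c ≠ a) :
    ∃ q ∈ Q, q • (t • a) = c := by
  obtain ⟨g, hg1, hg2⟩ := two hS (ta_ne hS).symm hc.symm
  obtain ⟨q, hq, d, hd, rfl⟩ := decomp hS (mem_stabilizer_iff.2 hg1)
  refine ⟨q, hq, ?_⟩
  rw [mul_smul, mem_stabilizer_iff.1 (Subgroup.mem_inf.1 hd).2] at hg2
  exact hg2

theorem free (hS : Cfsg.IsRankOneSetup G Ω a t Q) {q : G} (hq : q ∈ Q) {c : Ω} (hc : c ≠ a)
    (h : q • c = c) : q = 1 := by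
  obtain ⟨r, hr, rfl⟩ := trans hS hc
  have h1 : r⁻¹ * q * r ∈ Q ⊓ stabilizer G (t • a) := by
    refine Subgroup.mem_inf.2 ⟨Q.mul_mem (Q.mul_mem (Q.inv_mem hr) hq) hr, ?_⟩
    rw [mem_stabilizer_iff, mul_smul, mul_smul, h, inv_smul_smul]
  rw [hS.inf_eq_bot, Subgroup.mem_bot] at h1
  have : q = r * (r⁻¹ * q * r) * r⁻¹ := by group
  rw [this, h1]; group

theorem trans' (hS : Cfsg.IsRankOneSetup G Ω a t Q) {b c : Ω} (hb : b ≠ a) (hc : c ≠ a) :
    ∃ q ∈ Q, q • b = c := by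
  obtain ⟨r, hr, rfl⟩ := trans hS hb
  obtain ⟨s, hs, rfl⟩ := trans hS hc
  exact ⟨s * r⁻¹, Q.mul_mem hs (Q.inv_mem hr), by rw [mul_smul, inv_smul_smul]⟩

theorem uniq (hS : Cfsg.IsRankOneSetup G Ω a t Q) {b : Ω} (hb : b ≠ a) {q r : G} (hq : q ∈ Q)
    (hr : r ∈ Q) (h : q • b = r • b) : q = r := by
  have h1 : r⁻¹ * q = 1 := by
    apply free hS (Q.mul_mem (Q.inv_mem hr) hq) hb
    rw [mul_smul, h, inv_smul_smul]
  calc q = r * (r⁻¹ * q) := by group
    _ = r := by rw [h1, mul_one]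

theorem fix_a (hS : Cfsg.IsRankOneSetup G Ω a t Q) {q : G} (hq : q ∈ Q) : q • a = a :=
  mem_stabilizer_iff.1 (hS.le hq)

theorem smul_ne_a {h : G} (hh : h • a = a) {c : Ω} (hc : c ≠ a) : h • c ≠ a := by
  intro h1
  apply hc
  rw [← hh] at h1
  exact smul_left_cancel h h1

theorem odd_two_point (hS : Cfsg.IsRankOneSetup G Ω a t Q) {c c' : Ω} (h : c ≠ c') :
    Odd (Nat.card ↥(stabilizer G c ⊓ stabilizer G c')) := by
  obtain ⟨k, hk1, hk2⟩ := two hS (ta_ne hS).symm h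
  have e : stabilizer G c ⊓ stabilizer G c' =
      (stabilizer G a ⊓ stabilizer G (t • a)).map (MulAut.conj k).toMonoidHom := by
    rw [Subgroup.map_inf _ _ _ (MulAut.conj k).injective, ← stabilizer_smul_eq_stabilizer_map_conj,
      ← stabilizer_smul_eq_stabilizer_map_conj, hk1, hk2]
  rw [e, Subgroup.card_map_of_injective (MulAut.conj k).injective]
  exact hS.odd_card

theorem se [Finite G] (hS : Cfsg.IsRankOneSetup G Ω a t Q) :
    Cfsg.IsStronglyEmbedded (stabilizer G a) := by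
  refine ⟨fun h => hS.not_mem (h ▸ Subgroup.mem_top t), ?_, ?_⟩
  · exact hS.even_card.trans_dvd (Subgroup.card_dvd_of_le hS.le)
  · intro g hg
    rw [← stabilizer_smul_eq_stabilizer_map_conj]
    exact odd_two_point hS (fun h => hg (mem_stabilizer_iff.2 h.symm))

theorem invol_fix_unique [Finite G] (hS : Cfsg.IsRankOneSetup G Ω a t Q) {u : G}
    (hu : orderOf u = 2) {c c' : Ω} (h1 : u • c = c) (h2 : u • c' = c') : c = c' := by
  by_contra h
  have hodd := odd_two_point hS h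
  have heven := H5.even_card_of_invol_mem (stabilizer G c ⊓ stabilizer G c') u hu
    (Subgroup.mem_inf.2 ⟨mem_stabilizer_iff.2 h1, mem_stabilizer_iff.2 h2⟩)
  exact (Nat.not_even_iff_odd.2 hodd) heven

theorem exists_invol [Finite G] (hS : Cfsg.IsRankOneSetup G Ω a t Q) :
    ∃ s ∈ Q, orderOf s = 2 := H5.exists_invol_of_even Q hS.even_card

theorem invol_conj [Finite G] (hS : Cfsg.IsRankOneSetup G Ω a t Q) {u v : G}
    (hu : orderOf u = 2) (hv : orderOf v = 2) : ∃ g : G, g * u * g⁻¹ = v := by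
  obtain ⟨s, hsQ, hs⟩ := exists_invol hS
  exact isConj_iff.1 ((Cfsg.Agent.S1225.result _ (se hS) t (t_order hS) hS.not_mem s s hs (hS.le hsQ) hs
    (hS.le hsQ)).2 u v hu hv)

theorem invol_exists_fix [Finite G] (hS : Cfsg.IsRankOneSetup G Ω a t Q) {u : G}
    (hu : orderOf u = 2) : ∃ c : Ω, u • c = c := by
  obtain ⟨s, hsQ, hs⟩ := exists_invol hS
  obtain ⟨g, rfl⟩ := invol_conj hS hs hu
  refine ⟨g • a, ?_⟩
  rw [← mul_smul, inv_mul_cancel_right, mul_smul, fix_a hS hsQ]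

/-- involutions of the point stabiliser lie in `Q`. -/
theorem invol_mem_Q [Finite G] (hS : Cfsg.IsRankOneSetup G Ω a t Q) {s : G} (hs : orderOf s = 2)
    (hsa : s • a = a) : s ∈ Q := by
  obtain ⟨q, hq, d, hd, rfl⟩ := decomp hS (mem_stabilizer_iff.2 hsa)
  -- (q d)^2 = 1 gives d^2 ∈ Q ∩ D = 1
  have hdH : d ∈ stabilizer G a := (Subgroup.mem_inf.1 hd).1
  have hsq := H5.mul_self_of_order_two hs
  have h1 : d * d ∈ Q := by
    have e : d * d = (d * q * d⁻¹)⁻¹ * q⁻¹ * (q * d * (q * d)) := by group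
    rw [e, hsq, mul_one]
    exact Q.mul_mem (Q.inv_mem (hS.conj_mem d hdH q hq)) (Q.inv_mem hq)
  have h2 : d * d ∈ Q ⊓ stabilizer G (t • a) :=
    Subgroup.mem_inf.2 ⟨h1, Subgroup.mul_mem _ (Subgroup.mem_inf.1 hd).2 (Subgroup.mem_inf.1 hd).2⟩
  rw [hS.inf_eq_bot, Subgroup.mem_bot] at h2
  have h3 : d = 1 := by
    by_contra hne
    have := H5.even_card_of_invol_mem _ d (H5.order_two_of hne h2) hd
    exact (Nat.not_even_iff_odd.2 hS.odd_card) this
  rw [h3, mul_one]; exact hq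

end Cfsg.Agent.H5.R1
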