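import Mathlib
import Cfsg.Agent.Lib_helper5_R1a
import Cfsg.Agent.Lib_helper5_OddInv

set_option autoImplicit false

namespace Cfsg.Agent.H5.R1

open MulAction

variable {G Ω : Type*} [Group G] [MulAction G Ω] {a : Ω} {t : G} {Q : Subgroup G}

theorem mem_involutionsIn_iff {s : G} :
    s ∈ Cfsg.involutionsIn (stabilizer G a : Set G) ↔ orderOf s = 2 ∧ s • a = a := by
  constructor
  · rintro ⟨h1, h2, h3⟩
    exact ⟨H5.order_two_of h2 h3, mem_stabilizer_iff.1 h1⟩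
  · rintro ⟨h1, h2⟩
    exact ⟨mem_stabilizer_iff.2 h2, H5.ne_one_of_order_two h1, H5.mul_self_of_order_two h1⟩

theorem mem_D_of_inverted (hS : Cfsg.IsRankOneSetup G Ω a t Q) {k : G} (hk : k • a = a)
    (hinv : t * k * t⁻¹ = k⁻¹) : k ∈ stabilizer G a ⊓ stabilizer G (t • a) := by
  refine Subgroup.mem_inf.2 ⟨mem_stabilizer_iff.2 hk, ?_⟩
  rw [mem_stabilizer_iff]
  have h1 : k * t = t * k⁻¹ := by
    rw [← hinv, t_inv hS]
    rw [← mul_assoc, ← mul_assoc, hS.mul_self, one_mul]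
  rw [← mul_smul, h1, mul_smul, inv_smul_eq_iff.2 hk.symm]

theorem D_conj_t (hS : Cfsg.IsRankOneSetup G Ω a t Q) {d : G}
    (hd : d ∈ stabilizer G a ⊓ stabilizer G (t • a)) :
    t * d * t⁻¹ ∈ stabilizer G a ⊓ stabilizer G (t • a) := by
  obtain ⟨h1, h2⟩ := Subgroup.mem_inf.1 hd
  rw [mem_stabilizer_iff] at h1 h2
  refine Subgroup.mem_inf.2 ⟨?_, ?_⟩
  · rw [mem_stabilizer_iff, t_inv hS, mul_smul, mul_smul, h2, tta hS]
  · rw [mem_stabilizer_iff, t_inv hS, mul_smul, mul_smul, tta hS, h1]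

theorem conj_t_not_fix [Finite G] (hS : Cfsg.IsRankOneSetup G Ω a t Q) {s : G} (hs : orderOf s = 2)
    (hsa : s • a = a) : t * s * t⁻¹ ∉ stabilizer G a :=
  fun h => hS.not_mem (H5.se_mem_of_conj (se hS) hs (mem_stabilizer_iff.2 hsa) h)

theorem K_conj [Finite G] (hS : Cfsg.IsRankOneSetup G Ω a t Q) {s s' : G} (hs : orderOf s = 2)
    (hsa : s • a = a) (hs' : orderOf s' = 2) (hsa' : s' • a = a) :
    ∃ k ∈ Cfsg.invertedBy (stabilizer G a ⊓ stabilizer G (t • a)) t, k⁻¹ * s * k = s' := by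
  obtain ⟨w, hw, hws, -⟩ := Cfsg.Agent.S1224.uniq _ (se hS) s' (t * s * t⁻¹) hs'
    (mem_stabilizer_iff.2 hsa') (H5.order_two_conj hs t) (conj_t_not_fix hS hs hsa)
  have hwi := H5.inv_of_order_two hw
  have hti := t_inv hS
  have h1 : (t * w) * s' * (t * w)⁻¹ = s := by
    calc (t * w) * s' * (t * w)⁻¹ = t * (w * s' * w⁻¹) * t⁻¹ := by group
      _ = t * (t * s * t⁻¹) * t⁻¹ := by rw [hws]
      _ = (t * t) * s * (t * t)⁻¹ := by group
      _ = s := by rw [hS.mul_self]; group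
  have hkH : t * w ∈ stabilizer G a :=
    H5.se_mem_of_conj (se hS) hs' (mem_stabilizer_iff.2 hsa') (by
      rw [h1]; exact mem_stabilizer_iff.2 hsa)
  have hinv : t * (t * w) * t⁻¹ = (t * w)⁻¹ := by
    rw [mul_inv_rev, hwi, ← mul_assoc, hS.mul_self, one_mul]
  refine ⟨t * w, ⟨mem_D_of_inverted hS (mem_stabilizer_iff.1 hkH) hinv, hinv⟩, ?_⟩
  rw [← h1]; group

theorem K_inj [Finite G] (hS : Cfsg.IsRankOneSetup G Ω a t Q) {s : G} (hs : orderOf s = 2)
    (hsa : s • a = a) {k k' : G}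
    (hk : k ∈ Cfsg.invertedBy (stabilizer G a ⊓ stabilizer G (t • a)) t)
    (hk' : k' ∈ Cfsg.invertedBy (stabilizer G a ⊓ stabilizer G (t • a)) t)
    (h : k⁻¹ * s * k = k'⁻¹ * s * k') : k = k' := by
  have hti := t_inv hS
  have hs' : orderOf (k⁻¹ * s * k) = 2 := by
    have := H5.order_two_conj hs k⁻¹
    rwa [inv_inv] at this
  have hka : k • a = a := mem_stabilizer_iff.1 (Subgroup.mem_inf.1 hk.1).1
  have hsa' : (k⁻¹ * s * k) • a = a := by
    rw [mul_smul, mul_smul, hka, hsa, inv_smul_eq_iff.2 hka.symm]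
  obtain ⟨w, -, -, hu⟩ := Cfsg.Agent.S1224.uniq _ (se hS) (k⁻¹ * s * k) (t * s * t⁻¹) hs'
    (mem_stabilizer_iff.2 hsa') (H5.order_two_conj hs t) (conj_t_not_fix hS hs hsa)
  have aux : ∀ j ∈ Cfsg.invertedBy (stabilizer G a ⊓ stabilizer G (t • a)) t,
      orderOf (t * j) = 2 := by
    intro j hj
    apply H5.order_two_of
    · intro h1
      apply hS.not_mem
      have : t = j⁻¹ := eq_inv_of_mul_eq_one_left h1
      rw [this]
      exact Subgroup.inv_mem _ (Subgroup.mem_inf.1 hj.1).1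
    · have h2 := hj.2
      rw [hti] at h2
      calc t * j * (t * j) = (t * j * t) * j := by group
        _ = 1 := by rw [h2, inv_mul_cancel]
  have e1 : t * k = w := hu _ (aux k hk) (by group)
  have e2 : t * k' = w := hu _ (aux k' hk') (by rw [h]; group)
  exact mul_left_cancel (e1.trans e2.symm)

end Cfsg.Agent.H5.R1
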