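import Mathlib
import Cfsg.Agent.Lib_helper5_R1b
import Cfsg.Agent.Lib_helper7_Sylow

set_option autoImplicit false

namespace Cfsg.Agent.H5.R1

open MulAction

variable {G Ω : Type*} [Group G] [MulAction G Ω] {a : Ω} {t : G} {Q : Subgroup G}

/-- the set-up is invariant under conjugation. -/
theorem conj (hS : Cfsg.IsRankOneSetup G Ω a t Q) (g : G) :
    Cfsg.IsRankOneSetup G Ω (g • a) (g * t * g⁻¹) (Q.map (MulAut.conj g).toMonoidHom) := by
  have e1 : (g * t * g⁻¹) • (g • a) = g • (t • a) := by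
    rw [← mul_smul, inv_mul_cancel_right, mul_smul]
  have e2 : stabilizer G (g • a) = (stabilizer G a).map (MulAut.conj g).toMonoidHom :=
    stabilizer_smul_eq_stabilizer_map_conj g a
  have e3 : stabilizer G (g • (t • a)) = (stabilizer G (t • a)).map (MulAut.conj g).toMonoidHom :=
    stabilizer_smul_eq_stabilizer_map_conj g (t • a)
  have hinj := (MulAut.conj g).injective
  refine ⟨hS.two_transitive, ?_, ?_, ?_, ?_, ?_, ?_, ?_, ?_, ?_⟩
  · calc g * t * g⁻¹ * (g * t * g⁻¹) = g * (t * t) * g⁻¹ := by group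
      _ = 1 := by rw [hS.mul_self]; group
  · intro h
    apply hS.ne_one
    calc t = g⁻¹ * (g * t * g⁻¹) * g := by group
      _ = 1 := by rw [h]; group
  · rw [mem_stabilizer_iff, e1]
    intro h
    exact ta_ne hS (smul_left_cancel g h)
  · rw [e2]; exact Subgroup.map_mono hS.le
  · rw [e2]
    rintro _ ⟨h, hh, rfl⟩ _ ⟨x, hx, rfl⟩
    refine ⟨h * x * h⁻¹, hS.conj_mem h hh x hx, ?_⟩
    rw [map_mul, map_mul, map_inv]
  · rw [e1, e3, ← Subgroup.map_inf _ _ _ hinj, hS.inf_eq_bot, Subgroup.map_bot]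
  · rw [e1, e3, e2, ← Subgroup.map_inf _ _ _ hinj, ← Subgroup.map_sup, hS.sup_eq]
  · rw [Subgroup.card_map_of_injective hinj]; exact hS.even_card
  · rw [e1, e3, e2, ← Subgroup.map_inf _ _ _ hinj, Subgroup.card_map_of_injective hinj]
    exact hS.odd_card

theorem swap (hS : Cfsg.IsRankOneSetup G Ω a t Q) :
    Cfsg.IsRankOneSetup G Ω (t • a) t (Q.map (MulAut.conj t).toMonoidHom) := by
  have := conj hS t
  rwa [mul_inv_cancel_right] at this

/-- `C_Q(X)` is transitive on the fixed points of `X` other than `a`. -/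
theorem cent_trans (hS : Cfsg.IsRankOneSetup G Ω a t Q) {X : Set G}
    (hX : ∀ x ∈ X, x • a = a) {e e' : Ω} (he : e ≠ a) (he' : e' ≠ a)
    (hF : ∀ x ∈ X, x • e = e) (hF' : ∀ x ∈ X, x • e' = e') :
    ∃ q ∈ Subgroup.centralizer X ⊓ Q, q • e = e' := by
  obtain ⟨q, hq, hqe⟩ := trans' hS he he'
  refine ⟨q, Subgroup.mem_inf.2 ⟨?_, hq⟩, hqe⟩
  rw [Subgroup.mem_centralizer_iff]
  intro x hx
  have h1 : x * q * x⁻¹ = q := by
    apply uniq hS he (hS.conj_mem x (mem_stabilizer_iff.2 (hX x hx)) q hq) hq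
    rw [mul_smul, mul_smul, inv_smul_eq_iff.2 (hF x hx).symm, hqe, hF' x hx]
  calc x * q = (x * q * x⁻¹) * x := by group
    _ = q * x := by rw [h1]

theorem fixed_smul {X : Set G} {g : G} (hg : g ∈ Subgroup.centralizer X) {e : Ω}
    (hF : ∀ x ∈ X, x • e = e) : ∀ x ∈ X, x • (g • e) = g • e := by
  intro x hx
  rw [← mul_smul, (Subgroup.mem_centralizer_iff.1 hg) x hx, mul_smul, hF x hx]

section three

variable {X : Set G}

theorem fixed_a (hX : X ⊆ ((stabilizer G a ⊓ stabilizer G (t • a) : Subgroup G) : Set G)) :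
    ∀ x ∈ X, x • a = a := fun x hx => mem_stabilizer_iff.1 (Subgroup.mem_inf.1 (hX hx)).1

theorem fixed_b (hX : X ⊆ ((stabilizer G a ⊓ stabilizer G (t • a) : Subgroup G) : Set G)) :
    ∀ x ∈ X, x • (t • a) = t • a := fun x hx => mem_stabilizer_iff.1 (Subgroup.mem_inf.1 (hX hx)).2

theorem exists_third (h3 : ∃ b c d : Ω, b ≠ c ∧ b ≠ d ∧ c ≠ d ∧ ∀ x ∈ X, x • b = b ∧ x • c = c ∧ x • d = d)
    (p q : Ω) : ∃ e : Ω, e ≠ p ∧ e ≠ q ∧ ∀ x ∈ X, x • e = e := by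
  obtain ⟨b, c, d, hbc, hbd, hcd, hF⟩ := h3
  by_cases h1 : b = p
  · by_cases h2 : c = q
    · refine ⟨d, ?_, ?_, fun x hx => (hF x hx).2.2⟩
      · rw [← h1]; exact hbd.symm
      · rw [← h2]; exact hcd.symm
    · refine ⟨c, ?_, h2, fun x hx => (hF x hx).2.1⟩
      rw [← h1]; exact hbc.symm
  · by_cases h2 : b = q
    · by_cases h4 : c = p
      · refine ⟨d, ?_, ?_, fun x hx => (hF x hx).2.2⟩
        · rw [← h4]; exact hcd.symm
        · rw [← h2]; exact hbd.symm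
      · refine ⟨c, h4, ?_, fun x hx => (hF x hx).2.1⟩
        rw [← h2]; exact hbc.symm
    · exact ⟨b, h1, h2, fun x hx => (hF x hx).1⟩

theorem cent_to_a (hS : Cfsg.IsRankOneSetup G Ω a t Q)
    (hX : X ⊆ ((stabilizer G a ⊓ stabilizer G (t • a) : Subgroup G) : Set G))
    (h3 : ∃ b c d : Ω, b ≠ c ∧ b ≠ d ∧ c ≠ d ∧ ∀ x ∈ X, x • b = b ∧ x • c = c ∧ x • d = d)
    {e : Ω} (hF : ∀ x ∈ X, x • e = e) : ∃ g ∈ Subgroup.centralizer X, g • e = a := by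
  have hb := ta_ne hS
  have key : ∀ e : Ω, e ≠ t • a → (∀ x ∈ X, x • e = e) → ∃ g ∈ Subgroup.centralizer X, g • e = a := by
    intro e he hF
    obtain ⟨q, hq, hqe⟩ := cent_trans (swap hS) (fixed_b hX) he hb.symm hF (fixed_a hX)
    exact ⟨q, (Subgroup.mem_inf.1 hq).1, hqe⟩
  by_cases he : e = t • a
  · obtain ⟨c, hca, hcb, hFc⟩ := exists_third h3 a (t • a)
    obtain ⟨q, hq, hqe⟩ := cent_trans hS (fixed_a hX) hb hca (fixed_b hX) hFc
    obtain ⟨g, hg, hgc⟩ := key c hcb hFc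
    refine ⟨g * q, Subgroup.mul_mem _ hg (Subgroup.mem_inf.1 hq).1, ?_⟩
    rw [he, mul_smul, hqe, hgc]
  · exact key e he hF

theorem cent_two (hS : Cfsg.IsRankOneSetup G Ω a t Q)
    (hX : X ⊆ ((stabilizer G a ⊓ stabilizer G (t • a) : Subgroup G) : Set G))
    (h3 : ∃ b c d : Ω, b ≠ c ∧ b ≠ d ∧ c ≠ d ∧ ∀ x ∈ X, x • b = b ∧ x • c = c ∧ x • d = d)
    {b₁ b₂ c₁ c₂ : Ω} (hb₁ : ∀ x ∈ X, x • b₁ = b₁) (hb₂ : ∀ x ∈ X, x • b₂ = b₂)
    (hc₁ : ∀ x ∈ X, x • c₁ = c₁) (hc₂ : ∀ x ∈ X, x • c₂ = c₂) (hb : b₁ ≠ b₂) (hc : c₁ ≠ c₂) :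
    ∃ g ∈ Subgroup.centralizer X, g • b₁ = c₁ ∧ g • b₂ = c₂ := by
  obtain ⟨g₁, hg₁, h1⟩ := cent_to_a hS hX h3 hb₁
  obtain ⟨g₂, hg₂, h2⟩ := cent_to_a hS hX h3 hc₁
  have hn1 : g₁ • b₂ ≠ a := by
    rw [← h1]; exact fun h => hb (smul_left_cancel g₁ h).symm
  have hn2 : g₂ • c₂ ≠ a := by
    rw [← h2]; exact fun h => hc (smul_left_cancel g₂ h).symm
  obtain ⟨q, hq, hq1⟩ := cent_trans hS (fixed_a hX) hn1 hn2 (fixed_smul hg₁ hb₂) (fixed_smul hg₂ hc₂)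
  obtain ⟨hqC, hqQ⟩ := Subgroup.mem_inf.1 hq
  refine ⟨g₂⁻¹ * q * g₁, Subgroup.mul_mem _ (Subgroup.mul_mem _ (Subgroup.inv_mem _ hg₂) hqC) hg₁,
    ?_, ?_⟩
  · rw [mul_smul, mul_smul, h1, fix_a hS hqQ, inv_smul_eq_iff, h2]
  · rw [mul_smul, mul_smul, hq1, inv_smul_smul]

/-- an involution of `C_G(X)` interchanging `a` and `t • a`. -/
theorem exists_swap_invol [Finite G] (hS : Cfsg.IsRankOneSetup G Ω a t Q)
    (hX : X ⊆ ((stabilizer G a ⊓ stabilizer G (t • a) : Subgroup G) : Set G))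
    (h3 : ∃ b c d : Ω, b ≠ c ∧ b ≠ d ∧ c ≠ d ∧ ∀ x ∈ X, x • b = b ∧ x • c = c ∧ x • d = d) :
    ∃ u ∈ Subgroup.centralizer X, orderOf u = 2 ∧ u • a = t • a ∧ u • (t • a) = a := by
  have hb := ta_ne hS
  obtain ⟨g, hg, hg1, hg2⟩ := cent_two hS hX h3 (fixed_a hX) (fixed_b hX) (fixed_b hX) (fixed_a hX)
    hb.symm hb
  have hggD : g * g ∈ stabilizer G a ⊓ stabilizer G (t • a) := by
    refine Subgroup.mem_inf.2 ⟨?_, ?_⟩
    · rw [mem_stabilizer_iff, mul_smul, hg1, hg2]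
    · rw [mem_stabilizer_iff, mul_smul, hg2, hg1]
  obtain ⟨m, hm⟩ := H5.odd_orderOf_of_mem hS.odd_card hggD
  have hpow : (g * g) ^ m ∈ stabilizer G a ⊓ stabilizer G (t • a) := Subgroup.pow_mem _ hggD m
  have hu1 : ((g * g) ^ m * g) • a = t • a := by
    rw [mul_smul, hg1]; exact mem_stabilizer_iff.1 (Subgroup.mem_inf.1 hpow).2
  have hu2 : ((g * g) ^ m * g) • (t • a) = a := by
    rw [mul_smul, hg2]; exact mem_stabilizer_iff.1 (Subgroup.mem_inf.1 hpow).1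
  refine ⟨(g * g) ^ m * g, Subgroup.mul_mem _ (Subgroup.pow_mem _ (Subgroup.mul_mem _ hg hg) m) hg,
    ?_, hu1, hu2⟩
  apply H5.order_two_of
  · intro h
    rw [h, one_smul] at hu1
    exact hb hu1.symm
  · have hc : Commute ((g * g) ^ m) g := ((Commute.refl g).mul_left (Commute.refl g)).pow_left m
    calc (g * g) ^ m * g * ((g * g) ^ m * g) = (g * g) ^ m * (g * (g * g) ^ m) * g := by group
      _ = (g * g) ^ m * ((g * g) ^ m * g) * g := by rw [hc.eq]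
      _ = (g * g) ^ (2 * m + 1) := by
        rw [pow_succ, two_mul, pow_add]; group
      _ = 1 := by rw [← hm, pow_orderOf_eq_one]

end three

end Cfsg.Agent.H5.R1
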