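import Mathlib
import Cfsg.Agent.Lib_helper5_SE3
import Cfsg.Agent.Lib_helper1_Basic
import Cfsg.Agent.S1225

set_option autoImplicit false

namespace Cfsg.Agent.H5

variable {G : Type*} [Group G]

/-- a strongly embedded subgroup induces one on any subgroup not inside it that meets it evenly. -/
theorem se_subgroupOf [Finite G] {H L : Subgroup G} (hH : Cfsg.IsStronglyEmbedded H)
    (hL : ¬ L ≤ H) (heven : Even (Nat.card ↥(H ⊓ L))) :
    Cfsg.IsStronglyEmbedded (H.subgroupOf L) := by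
  refine ⟨fun h => hL (Subgroup.subgroupOf_eq_top.1 h), ?_, ?_⟩
  · rw [← Subgroup.inf_subgroupOf_right, H1.card_subgroupOf_of_le inf_le_right]
    exact heven
  · intro g hg
    have hg' : (g : G) ∉ H := fun h => hg (Subgroup.mem_subgroupOf.2 h)
    have hodd := hH.2.2 (g : G) hg'
    have hle : ((H.subgroupOf L) ⊓ (H.subgroupOf L).map (MulAut.conj g).toMonoidHom).map L.subtype ≤
        H ⊓ H.map (MulAut.conj (g : G)).toMonoidHom := by
      rintro _ ⟨w, hw, rfl⟩
      obtain ⟨hw1, hw2⟩ := Subgroup.mem_inf.1 hw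
      refine Subgroup.mem_inf.2 ⟨Subgroup.mem_subgroupOf.1 hw1, ?_⟩
      obtain ⟨v, hv, rfl⟩ := hw2
      exact ⟨(v : G), Subgroup.mem_subgroupOf.1 hv, rfl⟩
    have hdvd := Subgroup.card_dvd_of_le hle
    rw [Subgroup.card_map_of_injective L.subtype_injective] at hdvd
    exact Odd.of_dvd_nat hodd hdvd

/-- involutions of a subgroup `L` not contained in the strongly embedded subgroup `H` but
containing an involution of `H` and one outside `H` are conjugate in `L`. -/
theorem se_invol_conj_in [Finite G] {H L : Subgroup G} (hH : Cfsg.IsStronglyEmbedded H)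
    {z u : G} (hz : orderOf z = 2) (hzH : z ∈ H) (hzL : z ∈ L) (hu : orderOf u = 2) (huH : u ∉ H)
    (huL : u ∈ L) : ∃ g ∈ L, g * z * g⁻¹ = u := by
  have hL : ¬ L ≤ H := fun h => huH (h huL)
  have heven : Even (Nat.card ↥(H ⊓ L)) :=
    even_card_of_invol_mem _ z hz (Subgroup.mem_inf.2 ⟨hzH, hzL⟩)
  have hse := se_subgroupOf hH hL heven
  have hz' : orderOf (⟨z, hzL⟩ : ↥L) = 2 := by rw [← Subgroup.orderOf_coe]; exact hz
  have hu' : orderOf (⟨u, huL⟩ : ↥L) = 2 := by rw [← Subgroup.orderOf_coe]; exact hu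
  have h := (Cfsg.Agent.S1225.result _ hse ⟨u, huL⟩ hu' (fun h => huH (Subgroup.mem_subgroupOf.1 h))
    ⟨z, hzL⟩ ⟨z, hzL⟩ hz' (Subgroup.mem_subgroupOf.2 hzH) hz' (Subgroup.mem_subgroupOf.2 hzH)).2
    ⟨z, hzL⟩ ⟨u, huL⟩ hz' hu'
  obtain ⟨g, hg⟩ := isConj_iff.1 h
  exact ⟨g, g.2, congrArg Subtype.val hg⟩

end Cfsg.Agent.H5
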