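import Mathlib
import Cfsg.Agent.Lib_helper5_R1c
import Cfsg.Agent.Lib_helper5_SE4

set_option autoImplicit false

namespace Cfsg.Agent.H5.R1

open MulAction

variable {G Ω : Type*} [Group G] [MulAction G Ω] {a : Ω} {t : G} {Q : Subgroup G}

/-- `C_Q(X)` contains an involution when `X ⊆ D` fixes three points. -/
theorem exists_invol_cent [Finite G] (hS : Cfsg.IsRankOneSetup G Ω a t Q) {X : Set G}
    (hX : X ⊆ ((stabilizer G a ⊓ stabilizer G (t • a) : Subgroup G) : Set G))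
    (h3 : ∃ b c d : Ω, b ≠ c ∧ b ≠ d ∧ c ≠ d ∧ ∀ x ∈ X, x • b = b ∧ x • c = c ∧ x • d = d) :
    ∃ z ∈ Subgroup.centralizer X ⊓ Q, orderOf z = 2 := by
  obtain ⟨u, huC, hu, -, -⟩ := exists_swap_invol hS hX h3
  obtain ⟨e, he⟩ := invol_exists_fix hS hu
  have hFe : ∀ x ∈ X, x • e = e := by
    intro x hx
    apply invol_fix_unique hS hu _ he
    rw [← mul_smul, ← (Subgroup.mem_centralizer_iff.1 huC) x hx, mul_smul, he]
  obtain ⟨h, hh, hhe⟩ := cent_to_a hS hX h3 hFe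
  have hs : orderOf (h * u * h⁻¹) = 2 := H5.order_two_conj hu h
  have hsa : (h * u * h⁻¹) • a = a := by
    rw [mul_smul, mul_smul, inv_smul_eq_iff.2 hhe.symm, he, hhe]
  exact ⟨_, Subgroup.mem_inf.2
    ⟨Subgroup.mul_mem _ (Subgroup.mul_mem _ hh huC) (Subgroup.inv_mem _ hh),
      invol_mem_Q hS hs hsa⟩, hs⟩

/-- A non-identity element of `D` inverted by `t` acts fixed-point-freely on `Q`. -/
theorem inverted_fpf [Finite G] (hS : Cfsg.IsRankOneSetup G Ω a t Q) {x : G}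
    (hx : x ∈ Cfsg.invertedBy (stabilizer G a ⊓ stabilizer G (t • a)) t) (hx1 : x ≠ 1) :
    Q ⊓ Subgroup.centralizer {x} = ⊥ := by
  rw [eq_bot_iff]
  intro q hq
  rw [Subgroup.mem_bot]
  by_contra hq1
  obtain ⟨hqQ, hqx⟩ := Subgroup.mem_inf.1 hq
  rw [Subgroup.mem_centralizer_singleton_iff] at hqx
  have hb := ta_ne hS
  have hxa : x • a = a := mem_stabilizer_iff.1 (Subgroup.mem_inf.1 hx.1).1
  have hxb : x • (t • a) = t • a := mem_stabilizer_iff.1 (Subgroup.mem_inf.1 hx.1).2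
  have hX : ({x} : Set G) ⊆ ((stabilizer G a ⊓ stabilizer G (t • a) : Subgroup G) : Set G) := by
    rintro _ rfl; exact hx.1
  have h3 : ∃ b c d : Ω, b ≠ c ∧ b ≠ d ∧ c ≠ d ∧
      ∀ y ∈ ({x} : Set G), y • b = b ∧ y • c = c ∧ y • d = d := by
    refine ⟨a, t • a, q • (t • a), hb.symm, (smul_ne_a (fix_a hS hqQ) hb).symm, ?_, ?_⟩
    · intro h
      exact hq1 (free hS hqQ hb h.symm)
    · rintro _ rfl
      refine ⟨hxa, hxb, ?_⟩
      rw [← mul_smul, ← hqx, mul_smul, hxb]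
  obtain ⟨z, hz, hzo⟩ := exists_invol_cent hS hX h3
  obtain ⟨hzC, hzQ⟩ := Subgroup.mem_inf.1 hz
  have hzx : x * z = z * x := (Subgroup.mem_centralizer_iff.1 hzC) x rfl
  -- work in the normalizer of ⟨x⟩
  have hzL : z ∈ Subgroup.normalizer ((Subgroup.zpowers x : Subgroup G) : Set G) := by
    apply Subgroup.centralizer_le_normalizer
    rw [Subgroup.mem_centralizer_iff]
    intro y hy
    obtain ⟨i, rfl⟩ := Subgroup.mem_zpowers_iff.1 hy
    exact ((show Commute x z from hzx).zpow_left i)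
  have htL : t ∈ Subgroup.normalizer ((Subgroup.zpowers x : Subgroup G) : Set G) := by
    have key : ∀ w ∈ Subgroup.zpowers x, t * w * t⁻¹ ∈ Subgroup.zpowers x := by
      intro w hw
      obtain ⟨l, rfl⟩ := Subgroup.mem_zpowers_iff.1 hw
      rw [← conj_zpow, hx.2]
      exact Subgroup.zpow_mem _ (Subgroup.inv_mem _ (Subgroup.mem_zpowers x)) l
    rw [Subgroup.mem_normalizer_iff]
    intro y
    refine ⟨key y, fun h => ?_⟩
    have h2 := key _ h
    have e : t * (t * y * t⁻¹) * t⁻¹ = (t * t) * y * (t * t)⁻¹ := by group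
    rw [e, hS.mul_self] at h2
    simpa using h2
  obtain ⟨g, hgL, hgz⟩ := H5.se_invol_conj_in (se hS) hzo (hS.le hzQ) hzL (t_order hS) hS.not_mem htL
  -- t commutes with g x g⁻¹
  have h5 : Commute t (g * x * g⁻¹) := by
    show t * (g * x * g⁻¹) = g * x * g⁻¹ * t
    rw [← hgz]
    calc g * z * g⁻¹ * (g * x * g⁻¹) = g * (z * x) * g⁻¹ := by group
      _ = g * (x * z) * g⁻¹ := by rw [hzx]
      _ = g * x * g⁻¹ * (g * z * g⁻¹) := by group
  have h6 : g⁻¹ * x * g ∈ Subgroup.zpowers x := by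
    have := (Subgroup.mem_normalizer_iff.1 (Subgroup.inv_mem _ hgL) x).1 (Subgroup.mem_zpowers x)
    rwa [inv_inv] at this
  obtain ⟨j, hj⟩ := Subgroup.mem_zpowers_iff.1 h6
  have h7 : x = (g * x * g⁻¹) ^ j := by
    rw [conj_zpow, hj]; group
  have h8 : Commute t x := by
    rw [h7]; exact h5.zpow_right j
  have h9 : x⁻¹ = x := by
    rw [← hx.2, h8.eq]; group
  apply hx1
  apply H5.eq_of_mul_self_eq_of_odd (H5.odd_orderOf_of_mem hS.odd_card hx.1) (by simp)
  rw [mul_one]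
  calc x * x = x⁻¹ * x := by rw [h9]
    _ = 1 := inv_mul_cancel x

end Cfsg.Agent.H5.R1
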