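import Mathlib
import Cfsg.Prelude.Def_CaseTheorems
import Cfsg.Agent.Lib_helper5_SE

set_option autoImplicit false

namespace Cfsg.Agent.H5

/-- `PRankLE` passes to groups that embed. -/
theorem pRankLE_of_injective {X Y : Type*} [Group X] [Group Y] (p k : ℕ) (f : X →* Y)
    (hf : Function.Injective f) (h : Cfsg.PRankLE p k Y) : Cfsg.PRankLE p k X := by
  intro A hA hexp
  have h1 := h (A.map f) ?_ ?_
  · rwa [Subgroup.card_map_of_injective hf] at h1
  · constructor
    constructor
    rintro ⟨_, a, ha, rfl⟩ ⟨_, b, hb, rfl⟩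
    ext
    show f a * f b = f b * f a
    have := hA.is_comm.comm ⟨a, ha⟩ ⟨b, hb⟩
    have h2 : a * b = b * a := congrArg Subtype.val this
    rw [← map_mul, ← map_mul, h2]
  · rintro _ ⟨a, ha, rfl⟩
    rw [← map_pow, hexp a ha, map_one]

theorem pRankLE_of_le {G : Type*} [Group G] (p k : ℕ) {A B : Subgroup G} (hAB : A ≤ B)
    (h : Cfsg.PRankLE p k B) : Cfsg.PRankLE p k A :=
  pRankLE_of_injective p k (Subgroup.inclusion hAB) (Subgroup.inclusion_injective hAB) h

theorem pRankLE_conj {G : Type*} [Group G] (p k : ℕ) (A : Subgroup G) (g : G)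
    (h : Cfsg.PRankLE p k (A.map (MulAut.conj g).toMonoidHom)) : Cfsg.PRankLE p k A :=
  pRankLE_of_injective p k
    (A.equivMapOfInjective (MulAut.conj g).toMonoidHom (MulAut.conj g).injective).toMonoidHom
    (MulEquiv.injective _) h

/-- If `K` does not have rank `≤ k` then it contains an elementary abelian `p`-subgroup `U` (of `G`)
which itself has not rank `≤ k`. -/
theorem exists_of_not_pRankLE {G : Type*} [Group G] (p k : ℕ) (K : Subgroup G)
    (h : ¬ Cfsg.PRankLE p k K) : ∃ U : Subgroup G, U ≤ K ∧ IsPGroup p U ∧ ¬ Cfsg.PRankLE p k U := by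
  unfold Cfsg.PRankLE at h
  push Not at h
  obtain ⟨A, hA, hexp, hcard⟩ := h
  refine ⟨A.map K.subtype, ?_, ?_, ?_⟩
  · rintro _ ⟨a, -, rfl⟩; exact a.2
  · rintro ⟨_, a, ha, rfl⟩
    refine ⟨1, ?_⟩
    ext
    show ((a : G)) ^ p ^ 1 = 1
    rw [pow_one]
    exact congrArg Subtype.val (hexp a ha)
  · intro hle
    have h1 := hle ⊤ ?_ ?_
    · rw [Subgroup.card_top, Subgroup.card_map_of_injective K.subtype_injective] at h1
      omega
    · constructor
      constructor
      rintro ⟨⟨_, a, ha, rfl⟩, -⟩ ⟨⟨_, b, hb, rfl⟩, -⟩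
      ext
      show (a : G) * b = b * a
      have := hA.is_comm.comm ⟨a, ha⟩ ⟨b, hb⟩
      have h2 : a * b = b * a := congrArg Subtype.val this
      exact congrArg Subtype.val h2
    · rintro ⟨_, a, ha, rfl⟩ -
      ext
      show ((a : G)) ^ p = 1
      exact congrArg Subtype.val (hexp a ha)

end Cfsg.Agent.H5
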