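import Mathlib
import Cfsg.Prelude.Def_RootSubgroups
import Cfsg.Agent.Lib_helper5_RkOne

set_option autoImplicit false

namespace Cfsg.Agent.H5.RkOne

open Cfsg

variable {X : Type*} [Group X] {A B : Subgroup X}

theorem commute_of_normal_le_normalizer (h : IsRankOnePair A B) {N : Subgroup X} (hN : N.Normal)
    (hNA : N ≤ Subgroup.normalizer (A : Set X)) (hNB : N ≤ Subgroup.normalizer (B : Set X))
    {n a : X} (hn : n ∈ N) (ha : a ∈ A) : a * n = n * a := by
  have h1 : n * a * n⁻¹ * a⁻¹ ∈ A :=
    mul_mem ((Subgroup.mem_normalizer_iff.1 (hNA hn) a).1 ha) (inv_mem ha)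
  have h2 : n * a * n⁻¹ * a⁻¹ ∈ N := by
    have := mul_mem hn (hN.conj_mem n⁻¹ (inv_mem hn) a)
    simpa only [mul_assoc] using this
  have h3 := eq_one_of_mem_normalizer h h1 (hNB h2)
  have h4 : n * a = a * n := by
    have := congrArg (fun t => t * a * n) h3
    simpa [mul_assoc] using this
  exact h4.symm

/-- a normal subgroup of a rank one group is central or supplements `A`. -/
theorem normal_dichotomy (h : IsRankOneGroup X A B) (N : Subgroup X) (hN : N.Normal) :
    N ⊔ A = ⊤ ∨ N ≤ Subgroup.center X := by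
  obtain ⟨htop, hp⟩ := h
  by_cases hNA : N ≤ Subgroup.normalizer (A : Set X)
  · right
    have hNB : N ≤ Subgroup.normalizer (B : Set X) := by
      obtain ⟨x, -, hx⟩ := right_mem_unipotent hp
      rw [hx, normalizer_conjBy]
      intro n hn
      rw [mem_conjBy]
      apply hNA
      have := hN.conj_mem n hn x⁻¹
      rwa [inv_inv] at this
    intro n hn
    rw [Subgroup.mem_center_iff]
    have h1 : A ≤ Subgroup.centralizer {n} := by
      intro a ha
      rw [Subgroup.mem_centralizer_singleton_iff]
      exact commute_of_normal_le_normalizer hp hN hNA hNB hn ha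
    have h2 : B ≤ Subgroup.centralizer {n} := by
      intro a ha
      rw [Subgroup.mem_centralizer_singleton_iff]
      exact commute_of_normal_le_normalizer (RankOnePair_symm hp) hN hNB hNA hn ha
    intro g
    have hg : g ∈ Subgroup.centralizer {n} := (sup_le h1 h2) (htop ▸ Subgroup.mem_top g)
    exact Subgroup.mem_centralizer_singleton_iff.1 hg
  · left
    obtain ⟨n, hn, hnA⟩ := SetLike.not_le_iff_exists.1 hNA
    have hC : conjBy A n ∈ unipotentSubgroups A B := ⟨n, htop ▸ Subgroup.mem_top n, rfl⟩
    have hCA : conjBy A n ≠ A := fun e => hnA (conjBy_eq_self_iff.1 e)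
    obtain ⟨a, ⟨ha, hae⟩, -⟩ := regular hp hC (right_mem_unipotent hp) hCA hp.ne.symm
    rw [conjBy_conjBy] at hae
    have hB : B ≤ N ⊔ A := by
      rw [← hae]
      exact conjBy_le_of_mem le_sup_right
        (mul_mem (Subgroup.mem_sup_right ha) (Subgroup.mem_sup_left hn))
    rw [eq_top_iff, ← htop]
    exact sup_le le_sup_right hB

theorem nontrivial_of_rankOne (h : IsRankOnePair A B) : Nontrivial X := by
  obtain ⟨a, -, ha1⟩ := exists_ne_one h
  exact ⟨a, 1, ha1⟩

/-- the centre of a rank one group is proper. -/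
theorem center_ne_top (h : IsRankOnePair A B) : Subgroup.center X ≠ ⊤ := by
  intro htop
  obtain ⟨a, ha, ha1⟩ := exists_ne_one h
  apply ha1
  apply eq_one_of_mem_normalizer h ha
  have hac : a ∈ Subgroup.center X := htop ▸ Subgroup.mem_top a
  rw [Subgroup.mem_normalizer_iff]
  intro b
  rw [← Subgroup.mem_center_iff.1 hac b, mul_inv_cancel_right]

end Cfsg.Agent.H5.RkOne
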