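import Mathlib
import Cfsg.Prelude.Def_RootSubgroups
import Cfsg.Agent.Lib_helper5_RkOne

set_option autoImplicit false

namespace Cfsg.Agent.H5.RkOne

open Cfsg

variable {G : Type*} [Group G] {A B : Subgroup G}

theorem eq_one_of_conj_eq_one {x y : G} (h : y⁻¹ * x * y = 1) : x = 1 := by
  have := congrArg (fun t => y * t * y⁻¹) h
  simpa [mul_assoc] using this

/-- distinct unipotent subgroups: `C ∩ N(D) = 1`. -/
theorem unipotent_eq_one (h : IsRankOnePair A B) {C D : Subgroup G}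
    (hC : C ∈ unipotentSubgroups A B) (hD : D ∈ unipotentSubgroups A B) (hCD : C ≠ D)
    {x : G} (hx : x ∈ C) (hn : x ∈ Subgroup.normalizer (D : Set G)) : x = 1 := by
  obtain ⟨y, -, h1, h2⟩ :=
    two_transitive h (left_mem_unipotent A B) (right_mem_unipotent h) hC hD h.ne hCD
  rw [← h1, mem_conjBy] at hx
  rw [← h2, normalizer_conjBy, mem_conjBy] at hn
  exact eq_one_of_conj_eq_one (eq_one_of_mem_normalizer h hx hn)

theorem exists_partner {S : Set (Subgroup G)} (hA : ¬ IsIsolatedIn (FAdj S) S A) (hAS : A ∈ S) :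
    ∃ B ∈ S, IsRankOnePair A B := by
  by_contra hcon
  apply hA
  refine ⟨hAS, fun B => ⟨fun h => hcon ⟨B, h.2.1, h.2.2⟩, fun h => hcon ⟨B, h.1, RankOnePair_symm h.2.2⟩⟩⟩

theorem comm_of_mem {A : Subgroup G} (hA : IsMulCommutative A) {x y : G} (hx : x ∈ A) (hy : y ∈ A) :
    x * y = y * x :=
  congrArg Subtype.val (hA.is_comm.comm ⟨x, hx⟩ ⟨y, hy⟩)

/-- if `a B a⁻¹ ≤ N(B)` with `a ∈ A`, then `a = 1`. -/
theorem eq_one_of_conjBy_le_normalizer (h : IsRankOnePair A B) {a : G} (ha : a ∈ A)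
    (hle : conjBy B a ≤ Subgroup.normalizer (B : Set G)) : a = 1 := by
  by_contra ha1
  have hne : conjBy B a ≠ B := fun e => ha1 (eq_one_of_mem_normalizer h ha (conjBy_eq_self_iff.1 e))
  obtain ⟨b, hb, hb1⟩ := exists_ne_one (RankOnePair_symm h)
  apply hb1
  have h1 : a * b * a⁻¹ ∈ conjBy B a := conj_mem_conjBy a hb
  have h2 := unipotent_eq_one h
    (conjBy_mem_unipotent (right_mem_unipotent h) (Subgroup.mem_sup_left ha)) (right_mem_unipotent h)
    hne h1 (hle h1)
  apply eq_one_of_conj_eq_one (y := a⁻¹)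
  rwa [inv_inv]

/-- Key lemma: a member `C` of `S` containing an element acting on `B` like a non-identity
element of `A` is a `B`-conjugate of `A`. -/
theorem root_key {S : Set (Subgroup G)} (hS : IsRootSubgroupSet S) (h : IsRankOnePair A B)
    (hB : B ∈ S) {C : Subgroup G} (hC : C ∈ S) {a c : G} (ha : a ∈ A) (ha1 : a ≠ 1) (hc : c ∈ C)
    (hac : ∀ b ∈ B, c * b * c⁻¹ = a * b * a⁻¹) : ∃ β ∈ B, C = conjBy A β := by
  have hconj : conjBy B c = conjBy B a := by
    ext x
    constructor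
    · rintro ⟨b, hb, rfl⟩
      exact ⟨b, hb, (hac b hb).symm⟩
    · rintro ⟨b, hb, rfl⟩
      exact ⟨b, hb, hac b hb⟩
  -- the two "commuting" cases
  have hbad : (∀ t ∈ ⁅C, B⁆, ∀ x ∈ B, t * x = x * t) → False := by
    intro hcen
    apply ha1
    apply eq_one_of_conjBy_le_normalizer h ha
    rintro _ ⟨b, hb, rfl⟩
    have ht : c * b * c⁻¹ * b⁻¹ ∈ ⁅C, B⁆ := Subgroup.commutator_mem_commutator hc hb
    have ht2 : c * b * c⁻¹ * b⁻¹ ∈ Subgroup.normalizer (B : Set G) := by
      apply Subgroup.centralizer_le_normalizer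
      rw [Subgroup.mem_centralizer_iff]
      intro x hx
      exact (hcen _ ht x hx).symm
    have := mul_mem ht2 (Subgroup.le_normalizer hb)
    rw [inv_mul_cancel_right, hac b hb] at this
    exact this
  rcases hS.pair C hC B hB with h1 | h1 | h1
  · exfalso
    apply hbad
    intro t ht x _
    rw [h1, Subgroup.mem_bot] at ht
    rw [ht, one_mul, mul_one]
  · have hc1 : c ≠ 1 := by
      rintro rfl
      rw [conjBy_one] at hconj
      exact ha1 (eq_one_of_mem_normalizer h ha (conjBy_eq_self_iff.1 hconj.symm))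
    obtain ⟨b', hb', -, e1⟩ := h1.cond_left c⁻¹ (inv_mem hc) (fun e => hc1 (inv_eq_one.1 e))
    obtain ⟨b, hb, -, e2⟩ := h.cond_left a⁻¹ (inv_mem ha) (fun e => ha1 (inv_eq_one.1 e))
    rw [inv_inv] at e1 e2
    refine ⟨b' * b⁻¹, mul_mem hb' (inv_mem hb), ?_⟩
    rw [← conjBy_conjBy, e2, ← hconj, ← e1, conjBy_conjBy_inv]
  · exfalso
    apply hbad
    intro t ht x hx
    exact h1.2.1 t ht x (Subgroup.mem_sup_right hx)

theorem conjBy_right_mem_unipotent {β : G} (hβ : β ∈ B) : conjBy A β ∈ unipotentSubgroups A B :=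
  ⟨β, Subgroup.mem_sup_right hβ, rfl⟩

end Cfsg.Agent.H5.RkOne
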