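import Mathlib
import Cfsg.Prelude.Def_RootSubgroups
import Cfsg.Agent.Lib_helper5_RkOne3

set_option autoImplicit false

namespace Cfsg.Agent.H5.RkOne

open Cfsg Relation

variable {G : Type*} [Group G] {A B : Subgroup G}

theorem rankOneCondition_conj (h : RankOneCondition A B) (g : G) :
    RankOneCondition (conjBy A g) (conjBy B g) := by
  rintro _ ⟨a, ha, rfl⟩ hx1
  have ha1 : a ≠ 1 := by
    rintro rfl
    exact hx1 (map_one _)
  obtain ⟨b, hb, hb1, e⟩ := h a ha ha1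
  refine ⟨g * b * g⁻¹, conj_mem_conjBy g hb, ?_, ?_⟩
  · intro e1
    apply hb1
    apply eq_one_of_conj_eq_one (y := g⁻¹)
    rwa [inv_inv]
  · change conjBy (conjBy A g) (g * b * g⁻¹)⁻¹ = conjBy (conjBy B g) (g * a * g⁻¹)⁻¹
    rw [conjBy_conjBy, conjBy_conjBy]
    have e1 : (g * b * g⁻¹)⁻¹ * g = g * b⁻¹ := by group
    have e2 : (g * a * g⁻¹)⁻¹ * g = g * a⁻¹ := by group
    rw [e1, e2, ← conjBy_conjBy, ← conjBy_conjBy, e]

theorem rankOne_conj (h : IsRankOnePair A B) (g : G) :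
    IsRankOnePair (conjBy A g) (conjBy B g) where
  ne := fun e => h.ne (conjBy_injective g e)
  nilpotent_left := by
    have := h.nilpotent_left
    exact Group.nilpotent_of_mulEquiv (A.equivMapOfInjective _ (MulAut.conj g).injective)
  nilpotent_right := by
    have := h.nilpotent_right
    exact Group.nilpotent_of_mulEquiv (B.equivMapOfInjective _ (MulAut.conj g).injective)
  cond_left := rankOneCondition_conj h.cond_left g
  cond_right := rankOneCondition_conj h.cond_right g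

variable {S : Set (Subgroup G)}

theorem inf_eq_bot_or_eq (hS : IsRootSubgroupSet S) (hB : B ∈ S) (hAB : IsRankOnePair A B) :
    ∀ C ∈ S, A ⊓ C = ⊥ ∨ A = C := by
  intro C hC
  rcases (A ⊓ C).bot_or_exists_ne_one with hbot | ⟨a, ha, ha1⟩
  · left; exact hbot
  · right
    obtain ⟨β, hβ, rfl⟩ := root_key hS hAB hB hC ha.1 ha1 ha.2 (fun _ _ => rfl)
    by_contra hne
    apply ha1
    exact unipotent_eq_one hAB (left_mem_unipotent A B)
      (conjBy_right_mem_unipotent hβ) hne ha.1 (Subgroup.le_normalizer ha.2)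

/-- non rank-one pairs: conjugates of `D` under `T` centralize `D`. -/
theorem conj_comm_of_not_rankOne (hS : IsRootSubgroupSet S) {T D : Subgroup G} (hT : T ∈ S)
    (hD : D ∈ S) (hn : ¬ IsRankOnePair T D) {t d d' : G} (ht : t ∈ T) (hd : d ∈ D) (hd' : d' ∈ D) :
    Commute d' (t * d * t⁻¹) := by
  have key : ∀ x ∈ ⁅T, D⁆, x * d' = d' * x := by
    rcases hS.pair T hT D hD with h1 | h1 | h1
    · intro x hx
      rw [h1, Subgroup.mem_bot] at hx
      rw [hx, one_mul, mul_one]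
    · exact absurd h1 hn
    · intro x hx
      exact h1.2.1 x hx d' (Subgroup.mem_sup_right hd')
  have hx : t * d * t⁻¹ * d⁻¹ ∈ ⁅T, D⁆ := Subgroup.commutator_mem_commutator ht hd
  have e : t * d * t⁻¹ = (t * d * t⁻¹ * d⁻¹) * d := by rw [inv_mul_cancel_right]
  rw [e]
  exact Commute.mul_right (key _ hx).symm (comm_of_mem (hS.commutative D hD) hd' hd)

/-- Lemma M. -/
theorem rankOne_of_mul_mem (hS : IsRootSubgroupSet S) {D T : Subgroup G} (hB : B ∈ S) (hD : D ∈ S)
    (hT : T ∈ S) (hAD : IsRankOnePair A D) (hAB : ∀ x ∈ A, ∀ y ∈ B, x * y = y * x)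
    (hBD : ¬ IsRankOnePair B D) {a b : G} (ha : a ∈ A) (ha1 : a ≠ 1) (hb : b ∈ B)
    (hab : a * b ∈ T) : IsRankOnePair T D := by
  by_contra hTD
  apply ha1
  apply eq_one_of_mem_normalizer hAD ha
  apply Subgroup.centralizer_le_normalizer
  rw [Subgroup.mem_centralizer_iff]
  intro d' hd'
  obtain ⟨d₀, hd₀, -, e⟩ := hAD.cond_left a⁻¹ (inv_mem ha) (fun e => ha1 (inv_eq_one.1 e))
  rw [inv_inv] at e
  have hbA : conjBy A b = A := by
    rw [conjBy_eq_self_iff]
    apply Subgroup.centralizer_le_normalizer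
    rw [Subgroup.mem_centralizer_iff]
    intro x hx
    exact hAB x hx b hb
  have e2 : conjBy (conjBy D (a * b)) (b * d₀ * b⁻¹) = A := by
    rw [conjBy_conjBy, hAB a ha b hb]
    have : b * d₀ * b⁻¹ * (b * a) = (b * d₀) * a := by group
    rw [this, ← conjBy_conjBy, ← e, conjBy_conjBy, mul_inv_cancel_right, hbA]
  have ha' : a ∈ conjBy (conjBy D (a * b)) (b * d₀ * b⁻¹) := e2.symm ▸ ha
  obtain ⟨_, ⟨d₁, hd₁, rfl⟩, he⟩ := ha'
  rw [← he]
  change Commute d' ((b * d₀ * b⁻¹) * ((a * b) * d₁ * (a * b)⁻¹) * (b * d₀ * b⁻¹)⁻¹)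
  have c1 : Commute d' (b * d₀ * b⁻¹) := conj_comm_of_not_rankOne hS hB hD hBD hb hd₀ hd'
  have c2 : Commute d' ((a * b) * d₁ * (a * b)⁻¹) := conj_comm_of_not_rankOne hS hT hD hTD hab hd₁ hd'
  exact (c1.mul_right c2).mul_right c1.inv_right

theorem fadj_symm {A B : Subgroup G} (h : FAdj S A B) : FAdj S B A :=
  ⟨h.2.1, h.1, RankOnePair_symm h.2.2⟩

theorem rtg_symm {A B : Subgroup G} (h : ReflTransGen (FAdj S) A B) :
    ReflTransGen (FAdj S) B A := by
  induction h with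
  | refl => exact .refl
  | tail _ hbc ih => exact .head (fadj_symm hbc) ih

theorem component_eq {A B : Subgroup G} (h : ReflTransGen (FAdj S) A B) :
    componentOf (FAdj S) S A = componentOf (FAdj S) S B := by
  ext C
  constructor
  · rintro ⟨hC, h1⟩
    exact ⟨hC, (rtg_symm h).trans h1⟩
  · rintro ⟨hC, h1⟩
    exact ⟨hC, h.trans h1⟩

theorem exists_partner_of_component {A : Subgroup G}
    (h : ∃ A' ∈ componentOf (FAdj S) S A, A' ≠ A) : ∃ D ∈ S, IsRankOnePair A D := by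
  obtain ⟨A', ⟨-, h1⟩, hne⟩ := h
  rcases h1.cases_head with rfl | ⟨D, hD, -⟩
  · exact absurd rfl hne
  · exact ⟨D, hD.2.1, hD.2.2⟩

/-- Lemma Q: two commuting non-isolated members with a "diagonal" member are connected. -/
theorem connected_of_mul_mem (hS : IsRootSubgroupSet S) {C T : Subgroup G} (hA : A ∈ S) (hC : C ∈ S)
    (hT : T ∈ S) (hAp : ∃ D ∈ S, IsRankOnePair A D) (hCp : ∃ D ∈ S, IsRankOnePair C D)
    (hAC : ∀ x ∈ A, ∀ y ∈ C, x * y = y * x) {a c : G} (ha : a ∈ A) (ha1 : a ≠ 1) (hc : c ∈ C)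
    (hc1 : c ≠ 1) (hac : a * c ∈ T) : ReflTransGen (FAdj S) A C := by
  obtain ⟨D, hD, hAD⟩ := hAp
  obtain ⟨E, hE, hCE⟩ := hCp
  by_cases h1 : IsRankOnePair C D
  · exact .head ⟨hA, hD, hAD⟩ (.single ⟨hD, hC, RankOnePair_symm h1⟩)
  by_cases h2 : IsRankOnePair A E
  · exact .head ⟨hA, hE, h2⟩ (.single ⟨hE, hC, RankOnePair_symm hCE⟩)
  have h3 : IsRankOnePair T D := rankOne_of_mul_mem hS hC hD hT hAD hAC h1 ha ha1 hc hac
  have h4 : IsRankOnePair T E :=
    rankOne_of_mul_mem hS hA hE hT hCE (fun x hx y hy => (hAC y hy x hx).symm) h2 hc hc1 ha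
      (hAC a ha c hc ▸ hac)
  exact .head ⟨hA, hD, hAD⟩ (.head ⟨hD, hT, RankOnePair_symm h3⟩
    (.head ⟨hT, hE, h4⟩ (.single ⟨hE, hC, RankOnePair_symm hCE⟩)))

theorem comm_of_commutator_eq_bot {A B : Subgroup G} (h : ⁅A, B⁆ = ⊥) {x y : G} (hx : x ∈ A)
    (hy : y ∈ B) : x * y = y * x := by
  have ht : x * y * x⁻¹ * y⁻¹ ∈ ⁅A, B⁆ := Subgroup.commutator_mem_commutator hx hy
  rw [h, Subgroup.mem_bot] at ht
  have h3 := congrArg (fun t => t * y * x) ht
  simp only [inv_mul_cancel_right, one_mul] at h3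
  exact h3

theorem exists_ne_one_of_mem (hS : IsRootSubgroupSet S) (hA : A ∈ S) : ∃ a ∈ A, a ≠ 1 :=
  A.bot_or_exists_ne_one.resolve_left (hS.ne_bot A hA)

/-- in the commutator case with `A` non-isolated, non-identity elements do not commute. -/
theorem not_comm_of_commutatorCase (hS : IsRootSubgroupSet S) (hA : A ∈ S)
    (hAp : ∃ D ∈ S, IsRankOnePair A D) (h : RootCommutatorCase S A B) {a b : G} (ha : a ∈ A)
    (ha1 : a ≠ 1) (hb : b ∈ B) (hb1 : b ≠ 1) : a * b ≠ b * a := by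
  intro hab
  obtain ⟨D, hD, hAD⟩ := hAp
  have haa : a ∈ A ⊓ conjBy A b := by
    refine Subgroup.mem_inf.2 ⟨ha, ?_⟩
    rw [mem_conjBy, mul_assoc, hab, inv_mul_cancel_left]
    exact ha
  have hbN : conjBy A b = A := by
    rcases inf_eq_bot_or_eq hS hD hAD _ (hS.conj_mem A hA b) with h1 | h1
    · rw [h1, Subgroup.mem_bot] at haa
      exact absurd haa ha1
    · exact h1.symm
  have hCA : ⁅A, B⁆ ≤ A := by
    rw [← h.2.2.2 b hb hb1, Subgroup.closure_le]
    rintro _ ⟨x, hx, rfl⟩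
    have h1 : b * x⁻¹ * b⁻¹ ∈ A := hbN ▸ conj_mem_conjBy b (inv_mem hx)
    have := mul_mem hx h1
    rw [SetLike.mem_coe]
    simpa only [mul_assoc] using this
  have hAC : A = ⁅A, B⁆ := by
    rcases inf_eq_bot_or_eq hS hD hAD _ h.1 with h1 | h1
    · rw [inf_eq_right.2 hCA] at h1
      exact absurd h1 (hS.ne_bot _ h.1)
    · exact h1
  apply hS.ne_bot _ h.1
  rw [Subgroup.commutator_eq_bot_iff_le_centralizer]
  intro x hx
  rw [Subgroup.mem_centralizer_iff]
  intro y hy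
  exact (h.2.1 x (hAC ▸ hx) y (Subgroup.mem_sup_right hy)).symm

theorem commutatorCase_symm (h : RootCommutatorCase S A B) : RootCommutatorCase S B A := by
  obtain ⟨h1, h2, h3, h4⟩ := h
  have hinv : ∀ (f g : G → G) (X : Subgroup G), (∀ x, f x = (g x)⁻¹) →
      Subgroup.closure (f '' (X : Set G)) = Subgroup.closure (g '' (X : Set G)) := by
    intro f g X hfg
    apply le_antisymm
    · rw [Subgroup.closure_le]
      rintro _ ⟨x, hx, rfl⟩
      rw [hfg x]
      exact inv_mem (Subgroup.subset_closure ⟨x, hx, rfl⟩)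
    · rw [Subgroup.closure_le]
      rintro _ ⟨x, hx, rfl⟩
      have : g x = (f x)⁻¹ := by rw [hfg x, inv_inv]
      rw [this]
      exact inv_mem (Subgroup.subset_closure ⟨x, hx, rfl⟩)
  refine ⟨Subgroup.commutator_comm A B ▸ h1, ?_, ?_, ?_⟩
  · intro c hc x hx
    exact h2 c (Subgroup.commutator_comm A B ▸ hc) x (sup_comm A B ▸ hx)
  · intro b hb hb1
    rw [Subgroup.commutator_comm B A, ← h4 b hb hb1]
    apply hinv
    intro x
    group
  · intro a ha ha1
    rw [Subgroup.commutator_comm B A, ← h3 a ha ha1]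
    apply hinv
    intro x
    group

/-- Lemma P (half): `A` is connected to `⁅A, B⁆`. -/
theorem connected_commutator (hS : IsRootSubgroupSet S) (hA : A ∈ S) (hB : B ∈ S)
    (hAp : ∃ D ∈ S, IsRankOnePair A D) (hCp : ∃ D ∈ S, IsRankOnePair ⁅A, B⁆ D)
    (h : RootCommutatorCase S A B) : ReflTransGen (FAdj S) A ⁅A, B⁆ := by
  obtain ⟨a, ha, ha1⟩ := exists_ne_one_of_mem hS hA
  obtain ⟨b, hb, hb1⟩ := exists_ne_one_of_mem hS hB
  have hc : b * a * b⁻¹ * a⁻¹ ∈ ⁅A, B⁆ := by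
    rw [Subgroup.commutator_comm]
    exact Subgroup.commutator_mem_commutator hb ha
  have hc1 : b * a * b⁻¹ * a⁻¹ ≠ 1 := by
    intro e
    apply not_comm_of_commutatorCase hS hA hAp h ha ha1 hb hb1
    have h3 := congrArg (fun t => t * a * b) e
    simp only [inv_mul_cancel_right, one_mul] at h3
    exact h3.symm
  have hAC : ∀ x ∈ A, ∀ y ∈ ⁅A, B⁆, x * y = y * x := fun x hx y hy =>
    (h.2.1 y hy x (Subgroup.mem_sup_left hx)).symm
  refine connected_of_mul_mem hS hA h.1 (hS.conj_mem A hA b) hAp hCp hAC ha ha1 hc hc1 ?_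
  rw [hAC a ha _ hc, inv_mul_cancel_right]
  exact conj_mem_conjBy b ha

/-- Lemma P. -/
theorem connected_of_commutatorCase (hS : IsRootSubgroupSet S) (hA : A ∈ S) (hB : B ∈ S)
    (hall : ∀ C ∈ S, ∃ D ∈ S, IsRankOnePair C D)
    (h : RootCommutatorCase S A B) : ReflTransGen (FAdj S) A B := by
  have h1 := connected_commutator hS hA hB (hall A hA) (hall _ h.1) h
  have h' := commutatorCase_symm h
  have h2 := connected_commutator hS hB hA (hall B hB) (hall _ h'.1) h'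
  rw [Subgroup.commutator_comm] at h2
  exact h1.trans (rtg_symm h2)

theorem rtg_conj (hS : IsRootSubgroupSet S) {A B : Subgroup G} (h : ReflTransGen (FAdj S) A B)
    (g : G) : ReflTransGen (FAdj S) (conjBy A g) (conjBy B g) := by
  induction h with
  | refl => exact .refl
  | tail _ hbc ih =>
    exact .tail ih ⟨hS.conj_mem _ hbc.1 g, hS.conj_mem _ hbc.2.1 g, rankOne_conj hbc.2.2 g⟩

end Cfsg.Agent.H5.RkOne
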