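import Mathlib
import Cfsg.Prelude.Def_RootSubgroups
import Cfsg.Agent.Lib_helper5_RkOne4
import Cfsg.Agent.Lib_helper3_Solv

set_option autoImplicit false

namespace Cfsg.Agent.H5.RkOne

open Cfsg Relation

variable {G : Type*} [Group G] {A B : Subgroup G} {S : Set (Subgroup G)}

/-- `A` normalizes `⁅A, B⁆`. -/
theorem conj_mem_commutator_left {a x : G} (ha : a ∈ A) (hx : x ∈ ⁅A, B⁆) :
    a * x * a⁻¹ ∈ ⁅A, B⁆ := by
  have : ⁅A, B⁆ ≤ conjBy ⁅A, B⁆ a⁻¹ := by
    rw [Subgroup.commutator_le]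
    intro a' ha' b hb
    rw [mem_conjBy, inv_inv, commutatorElement_def]
    have e : a * (a' * b * a'⁻¹ * b⁻¹) * a⁻¹ =
        ((a * a') * b * (a * a')⁻¹ * b⁻¹) * (a * b * a⁻¹ * b⁻¹)⁻¹ := by group
    rw [e]
    exact mul_mem (Subgroup.commutator_mem_commutator (mul_mem ha ha') hb)
      (inv_mem (Subgroup.commutator_mem_commutator ha hb))
  have := this hx
  rwa [mem_conjBy, inv_inv] at this

theorem le_normalizer_commutator_left : A ≤ Subgroup.normalizer ((⁅A, B⁆ : Subgroup G) : Set G) := by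
  intro a ha
  rw [Subgroup.mem_normalizer_iff]
  intro x
  refine ⟨conj_mem_commutator_left ha, fun hx => ?_⟩
  have := conj_mem_commutator_left (inv_mem ha) hx
  simpa [mul_assoc] using this

theorem commutator_le_sup : ⁅A, B⁆ ≤ A ⊔ B := by
  rw [Subgroup.commutator_le]
  intro a ha b hb
  rw [commutatorElement_def]
  exact mul_mem (mul_mem (mul_mem (Subgroup.mem_sup_left ha) (Subgroup.mem_sup_right hb))
    (inv_mem (Subgroup.mem_sup_left ha))) (inv_mem (Subgroup.mem_sup_right hb))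

/-- if `⁅A,B⁆ ∈ S` then the pair is in the commutator case. -/
theorem commutatorCase_of_mem (hS : IsRootSubgroupSet S) (hA : A ∈ S) (hB : B ∈ S)
    (hC : ⁅A, B⁆ ∈ S) : RootCommutatorCase S A B := by
  rcases hS.pair A hA B hB with h | h | h
  · exact absurd h (hS.ne_bot _ hC)
  · exfalso
    have h1 : ¬ ⁅A, B⁆ ≤ Subgroup.normalizer (A : Set G) := by
      intro hle
      obtain ⟨b, hb, hb1⟩ := exists_ne_one (RankOnePair_symm h)
      apply hb1
      apply eq_one_of_conjBy_le_normalizer (RankOnePair_symm h) hb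
      rintro _ ⟨a, ha, rfl⟩
      have h2 : a⁻¹ * b * a⁻¹⁻¹ * b⁻¹ ∈ ⁅A, B⁆ :=
        Subgroup.commutator_mem_commutator (inv_mem ha) hb
      have h3 := mul_mem (Subgroup.le_normalizer ha) (hle h2)
      rw [inv_inv] at h3
      have e : a * (a⁻¹ * b * a * b⁻¹) = b * a * b⁻¹ := by group
      rw [e] at h3
      exact h3
    have h2 : IsRankOnePair ⁅A, B⁆ A := by
      by_contra hn
      apply h1
      intro c hc
      rw [← conjBy_eq_self_iff]
      by_contra hne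
      obtain ⟨a, ha, ha1⟩ := exists_ne_one h
      apply ha1
      have h3 : c * a * c⁻¹ = 1 :=
        unipotent_eq_one h ⟨c, commutator_le_sup hc, rfl⟩ (left_mem_unipotent A B) hne
          (conj_mem_conjBy c ha) (Subgroup.centralizer_le_normalizer _
            (Subgroup.mem_centralizer_iff.2 fun d' hd' =>
              (conj_comm_of_not_rankOne hS hC hA hn hc ha hd')))
      apply eq_one_of_conj_eq_one (y := c⁻¹)
      rwa [inv_inv]
    obtain ⟨a, ha, ha1⟩ := exists_ne_one h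
    exact ha1 (eq_one_of_mem_normalizer (RankOnePair_symm h2) ha (le_normalizer_commutator_left ha))
  · exact h

theorem commutator_equiv (hS : IsRootSubgroupSet S) (hA : A ∈ S)
    (hAp : ∃ D ∈ S, IsRankOnePair A D) (h : RootCommutatorCase S A B) {a : G} (ha : a ∈ A)
    (ha1 : a ≠ 1) :
    ∃ φ : ↥B ≃* ↥⁅A, B⁆, ∀ b : ↥B, (φ b : G) = a⁻¹ * (b : G)⁻¹ * a * b := by
  have hmem : ∀ b ∈ B, a⁻¹ * b⁻¹ * a * b ∈ ⁅A, B⁆ := by
    intro b hb
    have := Subgroup.commutator_mem_commutator (inv_mem ha) (inv_mem hb)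
    rwa [commutatorElement_def, inv_inv, inv_inv] at this
  let ψ : ↥B →* ↥(⁅A, B⁆ : Subgroup G) :=
    { toFun := fun b => ⟨a⁻¹ * (b : G)⁻¹ * a * b, hmem b b.2⟩
      map_one' := by ext; simp
      map_mul' := by
        intro x y
        ext
        simp only [Subgroup.coe_mul]
        have hu : a⁻¹ * (y : G)⁻¹ * a ∈ A ⊔ B :=
          mul_mem (mul_mem (inv_mem (Subgroup.mem_sup_left ha))
            (inv_mem (Subgroup.mem_sup_right y.2))) (Subgroup.mem_sup_left ha)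
        have hc := h.2.1 _ (hmem x x.2) _ hu
        calc a⁻¹ * ((x : G) * y)⁻¹ * a * (x * y)
            = (a⁻¹ * (y : G)⁻¹ * a) * (a⁻¹ * (x : G)⁻¹ * a * x) * y := by group
          _ = (a⁻¹ * (x : G)⁻¹ * a * x) * (a⁻¹ * (y : G)⁻¹ * a) * y := by rw [hc]
          _ = a⁻¹ * (x : G)⁻¹ * a * x * (a⁻¹ * (y : G)⁻¹ * a * y) := by group }
  have hψ : ∀ b : B, ((ψ b : ↥(⁅A, B⁆ : Subgroup G)) : G) = a⁻¹ * (b : G)⁻¹ * a * b := fun _ => rfl
  have hinj : Function.Injective ψ := by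
    rw [injective_iff_map_eq_one]
    intro b hb
    by_contra hb1
    have hb1' : (b : G) ≠ 1 := fun e => hb1 (Subtype.ext e)
    apply not_comm_of_commutatorCase hS hA hAp h ha ha1 b.2 hb1'
    have h2 : a⁻¹ * (b : G)⁻¹ * a * b = 1 := by rw [← hψ b, hb]; rfl
    have h3 := congrArg (fun t => (b : G) * a * t) h2
    simp only [mul_one] at h3
    rw [← h3]
    group
  have hsurj : Function.Surjective ψ := by
    have hle : ⁅A, B⁆ ≤ ψ.range.map (Subgroup.subtype _) := by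
      refine le_trans (h.2.2.1 a⁻¹ (inv_mem ha) (fun e => ha1 (inv_eq_one.1 e))).ge ?_
      rw [Subgroup.closure_le]
      rintro _ ⟨b, hb, rfl⟩
      refine ⟨ψ ⟨b⁻¹, inv_mem hb⟩, ⟨_, rfl⟩, ?_⟩
      simp only [Subgroup.subtype_apply, hψ, inv_inv]
    intro c
    obtain ⟨_, ⟨b, rfl⟩, hb⟩ := hle c.2
    exact ⟨b, Subtype.ext hb⟩
  exact ⟨MulEquiv.ofBijective ψ ⟨hinj, hsurj⟩, fun b => rfl⟩

theorem conjBy_ne_of_commutatorCase (hS : IsRootSubgroupSet S)
    (hAp : ∃ D ∈ S, IsRankOnePair A D) (h : RootCommutatorCase S A B) {b : G} (hb : b ∈ B)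
    (hb1 : b ≠ 1) : conjBy A b ≠ A := by
  intro hbN
  obtain ⟨D, hD, hAD⟩ := hAp
  have hCA : ⁅A, B⁆ ≤ A := by
    rw [← h.2.2.2 b hb hb1, Subgroup.closure_le]
    rintro _ ⟨x, hx, rfl⟩
    have h1 : b * x⁻¹ * b⁻¹ ∈ A := hbN ▸ conj_mem_conjBy b (inv_mem hx)
    have := mul_mem hx h1
    rw [SetLike.mem_coe]
    simpa only [mul_assoc] using this
  have hAC : A = ⁅A, B⁆ := by
    rcases inf_eq_bot_or_eq hS hD hAD _ h.1 with h1 | h1
    · rw [inf_eq_right.2 hCA] at h1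
      exact absurd h1 (hS.ne_bot _ h.1)
    · exact h1
  apply hS.ne_bot _ h.1
  rw [Subgroup.commutator_eq_bot_iff_le_centralizer]
  intro x hx
  rw [Subgroup.mem_centralizer_iff]
  intro y hy
  exact (h.2.1 x (hAC ▸ hx) y (Subgroup.mem_sup_right hy)).symm

theorem ne_commutator (hS : IsRootSubgroupSet S) (h : RootCommutatorCase S A B) : A ≠ ⁅A, B⁆ := by
  intro hAC
  apply hS.ne_bot _ h.1
  rw [Subgroup.commutator_eq_bot_iff_le_centralizer]
  intro x hx
  rw [Subgroup.mem_centralizer_iff]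
  intro y hy
  exact (h.2.1 x (hAC ▸ hx) y (Subgroup.mem_sup_right hy)).symm

theorem partner_conj (hS : IsRootSubgroupSet S) (hAp : ∃ D ∈ S, IsRankOnePair A D) (g : G) :
    ∃ D ∈ S, IsRankOnePair (conjBy A g) D := by
  obtain ⟨D, hD, hAD⟩ := hAp
  exact ⟨_, hS.conj_mem D hD g, rankOne_conj hAD g⟩

theorem comm_commutator (h : RootCommutatorCase S A B) {x y : G} (hx : x ∈ A) (hy : y ∈ ⁅A, B⁆) :
    x * y = y * x := (h.2.1 y hy x (Subgroup.mem_sup_left hx)).symm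

/-- every element `a c` (`a ≠ 1`) of `A ⁅A,B⁆` lies in a `B`-conjugate of `A`. -/
theorem exists_conj_of_mul (hS : IsRootSubgroupSet S) (hA : A ∈ S)
    (hAp : ∃ D ∈ S, IsRankOnePair A D) (h : RootCommutatorCase S A B) {a c : G} (ha : a ∈ A)
    (ha1 : a ≠ 1) (hc : c ∈ ⁅A, B⁆) : ∃ b ∈ B, a * c = b * a * b⁻¹ := by
  obtain ⟨φ, hφ⟩ := commutator_equiv hS hA hAp h ha ha1
  obtain ⟨b, hb⟩ := φ.surjective ⟨c, hc⟩
  refine ⟨(b : G)⁻¹, inv_mem b.2, ?_⟩
  have := hφ b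
  rw [hb] at this
  change c = _ at this
  rw [this]
  group

theorem mem_sup_commutator (h : RootCommutatorCase S A B) {x : G} (hx : x ∈ A ⊔ ⁅A, B⁆) :
    ∃ a ∈ A, ∃ c ∈ ⁅A, B⁆, x = a * c := by
  apply H3.mem_sup_of_le_normalizer _ hx
  intro c hc
  apply Subgroup.centralizer_le_normalizer
  rw [Subgroup.mem_centralizer_iff]
  intro a ha
  exact comm_commutator h ha hc

theorem conjBy_le_sup_commutator {b : G} (hb : b ∈ B) : conjBy A b ≤ A ⊔ ⁅A, B⁆ := by
  rintro _ ⟨a, ha, rfl⟩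
  have h1 : a * (a⁻¹ * b * a⁻¹⁻¹ * b⁻¹) ∈ A ⊔ ⁅A, B⁆ :=
    mul_mem (Subgroup.mem_sup_left ha)
      (Subgroup.mem_sup_right (Subgroup.commutator_mem_commutator (inv_mem ha) hb))
  have e : a * (a⁻¹ * b * a⁻¹⁻¹ * b⁻¹) = b * a * b⁻¹ := by group
  rw [e] at h1
  exact h1

theorem conj_comm_of_commutatorCase (hS : IsRootSubgroupSet S) (hA : A ∈ S)
    (h : RootCommutatorCase S A B) {a x b : G} (ha : a ∈ A) (hx : x ∈ A) (hb : b ∈ B) :
    (b * x * b⁻¹) * a = a * (b * x * b⁻¹) := by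
  have hc : b * x * b⁻¹ * x⁻¹ ∈ ⁅A, B⁆ := by
    rw [Subgroup.commutator_comm]
    exact Subgroup.commutator_mem_commutator hb hx
  have e : b * x * b⁻¹ = (b * x * b⁻¹ * x⁻¹) * x := by rw [inv_mul_cancel_right]
  rw [e, mul_assoc, comm_of_mem (hS.commutative A hA) hx ha, ← mul_assoc,
    ← comm_commutator h ha hc, mul_assoc]

theorem eq_commutator_of_le (hS : IsRootSubgroupSet S) (hA : A ∈ S) (hB : B ∈ S)
    (hAp : ∃ D ∈ S, IsRankOnePair A D) (h : RootCommutatorCase S A B) {E : Subgroup G}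
    (hE : E ∈ S) (hEC : E ≤ ⁅A, B⁆) : E = ⁅A, B⁆ := by
  obtain ⟨D, hD, hAD⟩ := hAp
  have hDp : ∃ D' ∈ S, IsRankOnePair D D' := ⟨A, hA, RankOnePair_symm hAD⟩
  obtain ⟨e₀, he₀, he₀1⟩ := exists_ne_one_of_mem hS hE
  rcases hS.pair D hD ⁅A, B⁆ h.1 with h1 | h1 | h1
  · exfalso
    obtain ⟨a, ha, ha1⟩ := exists_ne_one_of_mem hS hA
    obtain ⟨b, hb, hb1⟩ := exists_ne_one_of_mem hS hB
    have hc : b * a * b⁻¹ * a⁻¹ ∈ ⁅A, B⁆ := by
      rw [Subgroup.commutator_comm]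
      exact Subgroup.commutator_mem_commutator hb ha
    have hact : ∀ d ∈ D, (b * a * b⁻¹) * d * (b * a * b⁻¹)⁻¹ = a * d * a⁻¹ := by
      intro d hd
      have e : b * a * b⁻¹ = a * (b * a * b⁻¹ * a⁻¹) := by
        rw [comm_commutator h ha hc, inv_mul_cancel_right]
      rw [e]
      generalize b * a * b⁻¹ * a⁻¹ = c at hc
      have h2 : d * c = c * d := comm_of_commutator_eq_bot h1 hd hc
      rw [mul_inv_rev]
      calc a * c * d * (c⁻¹ * a⁻¹) = a * (c * d) * c⁻¹ * a⁻¹ := by group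
        _ = a * d * a⁻¹ := by rw [← h2]; group
    obtain ⟨δ, hδ, hT⟩ := root_key hS hAD hD (hS.conj_mem A hA b) ha ha1 (conj_mem_conjBy b ha) hact
    apply conjBy_ne_of_commutatorCase hS ⟨D, hD, hAD⟩ h hb hb1
    by_contra hne
    apply ha1
    apply unipotent_eq_one hAD (left_mem_unipotent A D) (hT ▸ conjBy_right_mem_unipotent hδ)
      (Ne.symm hne) ha
    apply Subgroup.centralizer_le_normalizer
    rw [Subgroup.mem_centralizer_iff]
    rintro _ ⟨x, hx, rfl⟩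
    exact conj_comm_of_commutatorCase hS hA h ha hx hb
  · rcases inf_eq_bot_or_eq hS hD (RankOnePair_symm h1) E hE with h2 | h2
    · rw [inf_eq_right.2 hEC] at h2
      exact absurd h2 (hS.ne_bot E hE)
    · exact h2.symm
  · rcases hS.pair D hD E hE with h2 | h2 | h2
    · exfalso
      obtain ⟨d, hd, hd1⟩ := exists_ne_one_of_mem hS hD
      exact not_comm_of_commutatorCase hS hD hDp h1 hd hd1 (hEC he₀) he₀1
        (comm_of_commutator_eq_bot h2 hd he₀)
    · exfalso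
      apply he₀1
      apply eq_one_of_conjBy_le_normalizer (RankOnePair_symm h2) he₀
      rintro _ ⟨d, hd, rfl⟩
      apply Subgroup.centralizer_le_normalizer
      rw [Subgroup.mem_centralizer_iff]
      intro d' hd'
      exact (conj_comm_of_commutatorCase hS hD h1 hd' hd (hEC he₀)).symm
    · have hFF : ⁅D, E⁆ = ⁅D, ⁅A, B⁆⁆ := by
        rw [← h2.2.2.2 e₀ he₀ he₀1, ← h1.2.2.2 e₀ (hEC he₀) he₀1]
      obtain ⟨d, hd, hd1⟩ := exists_ne_one_of_mem hS hD
      obtain ⟨φ, hφ⟩ := commutator_equiv hS hD hDp h1 hd hd1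
      obtain ⟨φ', hφ'⟩ := commutator_equiv hS hD hDp h2 hd hd1
      apply le_antisymm hEC
      intro c hc
      have hm : ((φ ⟨c, hc⟩ : ↥(⁅D, ⁅A, B⁆⁆ : Subgroup G)) : G) ∈ ⁅D, E⁆ := by
        rw [hFF]
        exact (φ ⟨c, hc⟩).2
      obtain ⟨e, he⟩ := φ'.surjective ⟨_, hm⟩
      have h3 : φ ⟨e, hEC e.2⟩ = φ ⟨c, hc⟩ := by
        ext
        rw [hφ]
        change _ * ((e : G))⁻¹ * _ * (e : G) = _
        rw [← hφ' e, he]
      have h4 : (e : G) = c := congrArg Subtype.val (φ.injective h3)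
      rw [← h4]
      exact e.2

/-- the members of `S` inside `A ⁅A,B⁆`. -/
theorem members_eq (hS : IsRootSubgroupSet S) (hA : A ∈ S) (hB : B ∈ S)
    (hAp : ∃ D ∈ S, IsRankOnePair A D) (h : RootCommutatorCase S A B) :
    membersIn S (A ⊔ ⁅A, B⁆) = (fun b : G => conjBy A b) '' (B : Set G) ∪ {⁅A, B⁆} := by
  ext E
  constructor
  · rintro ⟨hE, hle⟩
    by_cases hEC : E ≤ ⁅A, B⁆
    · right
      exact eq_commutator_of_le hS hA hB hAp h hE hEC
    · left
      obtain ⟨e, he, heC⟩ := SetLike.not_le_iff_exists.1 hEC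
      obtain ⟨a, ha, c, hc, rfl⟩ := mem_sup_commutator h (hle he)
      have ha1 : a ≠ 1 := by
        rintro rfl
        rw [one_mul] at heC
        exact heC hc
      obtain ⟨b, hb, hab⟩ := exists_conj_of_mul hS hA hAp h ha ha1 hc
      refine ⟨b, hb, ?_⟩
      obtain ⟨D', hD', hAD'⟩ := partner_conj hS hAp b
      rcases inf_eq_bot_or_eq hS hD' hAD' E hE with h1 | h1
      · exfalso
        have hm : a * c ∈ conjBy A b ⊓ E :=
          Subgroup.mem_inf.2 ⟨hab ▸ conj_mem_conjBy b ha, he⟩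
        rw [h1, Subgroup.mem_bot] at hm
        apply heC
        rw [hm]
        exact one_mem _
      · exact h1
  · rintro (⟨b, hb, rfl⟩ | rfl)
    · exact ⟨hS.conj_mem A hA b, conjBy_le_sup_commutator hb⟩
    · exact ⟨h.1, le_sup_right⟩

theorem partition_sup_commutator (hS : IsRootSubgroupSet S) (hA : A ∈ S) (hB : B ∈ S)
    (hAp : ∃ D ∈ S, IsRankOnePair A D) (h : RootCommutatorCase S A B) :
    IsSubgroupPartition (A ⊔ ⁅A, B⁆) (membersIn S (A ⊔ ⁅A, B⁆)) := by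
  refine ⟨fun C hC => hC.2, ?_, ?_⟩
  · intro x hx hx1
    obtain ⟨a, ha, c, hc, rfl⟩ := mem_sup_commutator h hx
    by_cases ha1 : a = 1
    · refine ⟨⁅A, B⁆, ⟨h.1, le_sup_right⟩, ?_⟩
      rw [ha1, one_mul]
      exact hc
    · obtain ⟨b, hb, hab⟩ := exists_conj_of_mul hS hA hAp h ha ha1 hc
      exact ⟨conjBy A b, ⟨hS.conj_mem A hA b, conjBy_le_sup_commutator hb⟩,
        hab ▸ conj_mem_conjBy b ha⟩
  · intro C hC D hD hCD
    have hC' := hC
    have hD' := hD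
    rw [members_eq hS hA hB hAp h] at hC' hD'
    rcases hC' with ⟨b, hb, rfl⟩ | hC'
    · obtain ⟨D', hD'S, hAD'⟩ := partner_conj hS hAp b
      exact (inf_eq_bot_or_eq hS hD'S hAD' D hD.1).resolve_right hCD
    · rcases hD' with ⟨b, hb, rfl⟩ | hD'
      · obtain ⟨D', hD'S, hAD'⟩ := partner_conj hS hAp b
        rw [inf_comm]
        exact (inf_eq_bot_or_eq hS hD'S hAD' C hC.1).resolve_right (Ne.symm hCD)
      · exact absurd (hC'.trans hD'.symm) hCD

theorem mem_linePartners_commutator (hS : IsRootSubgroupSet S) (hA : A ∈ S) (hB : B ∈ S)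
    (hAp : ∃ D ∈ S, IsRankOnePair A D) (h : RootCommutatorCase S A B) :
    A ∈ linePartners S ⁅A, B⁆ := by
  refine ⟨⟨hA, ne_commutator hS h, ?_⟩, ?_⟩
  · rw [Subgroup.commutator_eq_bot_iff_le_centralizer]
    intro c hc
    rw [Subgroup.mem_centralizer_iff]
    intro a ha
    exact comm_commutator h ha hc
  · rw [sup_comm]
    exact partition_sup_commutator hS hA hB hAp h

end Cfsg.Agent.H5.RkOne
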