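import Mathlib
import Cfsg.Prelude.Def_RootSubgroups
import Cfsg.Agent.Lib_helper5_RkOne5

set_option autoImplicit false

namespace Cfsg.Agent.H5.RkOne

open Cfsg Relation

variable {G : Type*} [Group G] {A B : Subgroup G} {S : Set (Subgroup G)}

theorem comm_mul_right (h : RootCommutatorCase S A B) {p q q' : G} (hp : p ∈ A) (hq : q ∈ B)
    (hq' : q' ∈ B) :
    p * (q * q') * p⁻¹ * (q * q')⁻¹ = (p * q * p⁻¹ * q⁻¹) * (p * q' * p⁻¹ * q'⁻¹) := by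
  have hz : p * q' * p⁻¹ * q'⁻¹ ∈ ⁅A, B⁆ := Subgroup.commutator_mem_commutator hp hq'
  have hc := h.2.1 _ hz q⁻¹ (inv_mem (Subgroup.mem_sup_right hq))
  calc p * (q * q') * p⁻¹ * (q * q')⁻¹ = p * q * p⁻¹ * ((p * q' * p⁻¹ * q'⁻¹) * q⁻¹) := by group
    _ = p * q * p⁻¹ * (q⁻¹ * (p * q' * p⁻¹ * q'⁻¹)) := by rw [hc]
    _ = _ := by group

/-- `q ↦ [p, q]` is onto `⁅A, B⁆` for `p ≠ 1`. -/
theorem commutator_surj (h : RootCommutatorCase S A B) {p : G} (hp : p ∈ A) (hp1 : p ≠ 1) :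
    ∀ c ∈ ⁅A, B⁆, ∃ q ∈ B, p * q * p⁻¹ * q⁻¹ = c := by
  intro c hc
  rw [← h.2.2.1 p hp hp1] at hc
  induction hc using Subgroup.closure_induction with
  | mem x hx =>
    obtain ⟨q, hq, rfl⟩ := hx
    exact ⟨q, hq, rfl⟩
  | one => exact ⟨1, one_mem B, by group⟩
  | mul x y _ _ ihx ihy =>
    obtain ⟨q, hq, rfl⟩ := ihx
    obtain ⟨q', hq', rfl⟩ := ihy
    exact ⟨q * q', mul_mem hq hq', comm_mul_right h hp hq hq'⟩
  | inv x _ ih =>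
    obtain ⟨q, hq, rfl⟩ := ih
    refine ⟨q⁻¹, inv_mem hq, ?_⟩
    have := comm_mul_right h hp hq (inv_mem hq)
    rw [mul_inv_cancel] at this
    have e : p * 1 * p⁻¹ * (1 : G)⁻¹ = 1 := by group
    rw [e] at this
    exact (inv_eq_of_mul_eq_one_right this.symm).symm

/-- `q ↦ [q, p]` is onto `⁅A, B⁆` for `p ≠ 1`. -/
theorem commutator_surj' (h : RootCommutatorCase S A B) {p : G} (hp : p ∈ A) (hp1 : p ≠ 1) :
    ∀ c ∈ ⁅A, B⁆, ∃ q ∈ B, q * p * q⁻¹ * p⁻¹ = c := by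
  intro c hc
  obtain ⟨q, hq, e⟩ := commutator_surj h hp hp1 c⁻¹ (inv_mem hc)
  refine ⟨q, hq, ?_⟩
  rw [← inv_inj, ← e]
  group

end Cfsg.Agent.H5.RkOne
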