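import Mathlib
import Cfsg.Prelude.Def_RootSubgroups
import Cfsg.Agent.Lib_helper7_Sylow

set_option autoImplicit false

namespace Cfsg.Agent.H5.RootInv

open Cfsg Relation

variable {G : Type*} [Group G] {D : Set G}

theorem orderOf_mul_comm' (a b : G) : orderOf (b * a) = orderOf (a * b) := by
  have e : b * a = a⁻¹ * (a * b) * a := by group
  rw [e, H7.orderOf_conj'']

theorem sq_eq_one (hD : IsRootInvolutionSet D) {d : G} (hd : d ∈ D) : d * d = 1 := by
  have := pow_orderOf_eq_one d
  rwa [hD.orderOf_eq d hd, pow_two] at this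

theorem inv_eq_self (hD : IsRootInvolutionSet D) {d : G} (hd : d ∈ D) : d⁻¹ = d :=
  inv_eq_of_mul_eq_one_left (sq_eq_one hD hd)

theorem ne_one (hD : IsRootInvolutionSet D) {d : G} (hd : d ∈ D) : d ≠ 1 := by
  rintro rfl
  have := hD.orderOf_eq 1 hd
  rw [orderOf_one] at this
  omega

theorem oddAdj_symm {a b : G} (h : OddAdj D a b) : OddAdj D b a :=
  ⟨h.2.1, h.1, h.2.2.1.symm, by rw [orderOf_mul_comm']; exact h.2.2.2⟩

theorem oddAdj_conj (hD : IsRootInvolutionSet D) {a b : G} (h : OddAdj D a b) (g : G) :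
    OddAdj D (g * a * g⁻¹) (g * b * g⁻¹) := by
  refine ⟨hD.conj_mem a h.1 g, hD.conj_mem b h.2.1 g, ?_, ?_⟩
  · intro e
    apply h.2.2.1
    have := congrArg (fun t => g⁻¹ * t * g) e
    simpa [mul_assoc] using this
  · have e : g * a * g⁻¹ * (g * b * g⁻¹) = g * (a * b) * g⁻¹ := by group
    rw [e, H7.orderOf_conj']
    exact h.2.2.2

theorem rtg_symm {a b : G} (h : ReflTransGen (OddAdj D) a b) : ReflTransGen (OddAdj D) b a := by
  induction h with
  | refl => exact .refl
  | tail _ hbc ih => exact .head (oddAdj_symm hbc) ih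

theorem component_eq {a b : G} (h : ReflTransGen (OddAdj D) a b) :
    elemComponentOf (OddAdj D) D a = elemComponentOf (OddAdj D) D b := by
  ext c
  constructor
  · rintro ⟨hc, h1⟩
    exact ⟨hc, (rtg_symm h).trans h1⟩
  · rintro ⟨hc, h1⟩
    exact ⟨hc, h.trans h1⟩

theorem exists_adj_of_component {a : G}
    (h : ∃ a' ∈ elemComponentOf (OddAdj D) D a, a' ≠ a) : ∃ d, OddAdj D a d := by
  obtain ⟨a', ⟨-, h1⟩, hne⟩ := h
  rcases h1.cases_head with rfl | ⟨d, hd, -⟩
  · exact absurd rfl hne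
  · exact ⟨d, hd⟩

theorem exists_adj_of_not_isolated {a : G} (ha : a ∈ D)
    (h : ¬ IsIsolatedElem (OddAdj D) D a) : ∃ d, OddAdj D a d := by
  by_contra hcon
  apply h
  exact ⟨ha, fun b => ⟨fun hb => hcon ⟨b, hb⟩, fun hb => hcon ⟨b, oddAdj_symm hb⟩⟩⟩

/-- non-adjacent members: `x d x⁻¹` commutes with `d`. -/
theorem commute_conj_of_not_adj (hD : IsRootInvolutionSet D) {x d : G} (hx : x ∈ D) (hd : d ∈ D)
    (h : ¬ OddAdj D x d) : Commute d (x * d * x⁻¹) := by
  have hcomm : x * d = d * x → Commute d (x * d * x⁻¹) := by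
    intro e
    rw [e, mul_inv_cancel_right]
  rcases hD.pair x hx d hd with h1 | h1 | ⟨h1, -⟩
  · exact hcomm h1
  · by_cases hxd : x = d
    · exact hcomm (by rw [hxd])
    · exact absurd ⟨hx, hd, hxd, h1⟩ h
  · have h4 : (x * d) ^ 4 = 1 := h1 ▸ pow_orderOf_eq_one (x * d)
    rw [inv_eq_self hD hx]
    have hxx := sq_eq_one hD hx
    have hdd := sq_eq_one hD hd
    -- (x d x d) (x d x d) = 1
    have e1 : (x * d * x * d) * (x * d * x * d) = 1 := by
      rw [← h4]; simp only [pow_succ, pow_zero, one_mul, mul_assoc]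
    have e2 : (x * d * x * d) * (d * x * d * x) = 1 := by
      calc (x * d * x * d) * (d * x * d * x) = x * d * x * (d * d) * x * d * x := by
            simp only [mul_assoc]
        _ = x * d * (x * x) * d * x := by rw [hdd]; simp only [mul_assoc, one_mul]
        _ = x * (d * d) * x := by rw [hxx]; simp only [mul_assoc, one_mul]
        _ = 1 := by rw [hdd, mul_one, hxx]
    have e3 : x * d * x * d = d * x * d * x := mul_left_cancel (e1.trans e2.symm)
    change d * (x * d * x) = x * d * x * d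
    rw [e3]
    simp only [mul_assoc]

/-- Lemma M for root involutions. -/
theorem adj_of_mul_mem (hD : IsRootInvolutionSet D) {a c d : G} (ha : a ∈ D) (hc : c ∈ D)
    (had : OddAdj D a d) (hac : a * c = c * a) (ht : a * c ∈ D) (hcd : ¬ OddAdj D c d) :
    OddAdj D (a * c) d := by
  by_contra htd
  have hd := had.2.1
  have c1 : Commute d (c * d * c⁻¹) := commute_conj_of_not_adj hD hc hd hcd
  have c2 : Commute d ((a * c) * d * (a * c)⁻¹) := commute_conj_of_not_adj hD ht hd htd
  have haa := inv_eq_self hD ha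
  -- ρ = a d'
  have hρ : orderOf (a * (c * d * c⁻¹)) = orderOf (a * d) := by
    have e : a * (c * d * c⁻¹) = c * (a * d) * c⁻¹ := by
      rw [← mul_assoc, ← mul_assoc, hac]; simp only [mul_assoc]
    rw [e, H7.orderOf_conj']
  obtain ⟨k, hk⟩ := had.2.2.2
  have c3 : Commute d ((a * (c * d * c⁻¹)) ^ 2) := by
    have e : (a * (c * d * c⁻¹)) ^ 2 = ((a * c) * d * (a * c)⁻¹) * (c * d * c⁻¹) := by
      rw [pow_two, mul_inv_rev, haa]
      simp only [mul_assoc]
    rw [e]
    exact c2.mul_right c1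
  have c4 : Commute d (a * (c * d * c⁻¹)) := by
    have e : a * (c * d * c⁻¹) = ((a * (c * d * c⁻¹)) ^ 2) ^ (k + 1) := by
      rw [← pow_mul]
      have : 2 * (k + 1) = orderOf (a * (c * d * c⁻¹)) + 1 := by rw [hρ, hk]; ring
      rw [this, pow_succ, pow_orderOf_eq_one, one_mul]
    rw [e]
    exact c3.pow_right _
  have c5 : Commute d a := by
    have e : a = (a * (c * d * c⁻¹)) * (c * d * c⁻¹)⁻¹ := by rw [mul_inv_cancel_right]
    rw [e]
    exact c4.mul_right c1.inv_right
  -- then `(a d)^2 = 1`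
  have h2 : (a * d) ^ 2 = 1 := by
    rw [pow_two]
    calc a * d * (a * d) = a * (d * a) * d := by simp only [mul_assoc]
      _ = a * (a * d) * d := by rw [c5.eq]
      _ = (a * a) * (d * d) := by simp only [mul_assoc]
      _ = 1 := by rw [sq_eq_one hD ha, sq_eq_one hD hd, one_mul]
  have h3 : orderOf (a * d) ∣ 2 := orderOf_dvd_of_pow_eq_one h2
  have h4 : orderOf (a * d) = 1 := by
    rcases (Nat.dvd_prime Nat.prime_two).1 h3 with h | h
    · exact h
    · rw [h] at hk; omega
  have h5 : a * d = 1 := orderOf_eq_one_iff.1 h4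
  apply had.2.2.1
  rw [← inv_eq_self hD hd]
  exact eq_inv_of_mul_eq_one_left h5

/-- Lemma Q for root involutions. -/
theorem connected_of_mul_mem (hD : IsRootInvolutionSet D) {a c : G} (ha : a ∈ D) (hc : c ∈ D)
    (hap : ∃ d, OddAdj D a d) (hcp : ∃ d, OddAdj D c d) (hac : a * c = c * a) (ht : a * c ∈ D) :
    ReflTransGen (OddAdj D) a c := by
  obtain ⟨d, had⟩ := hap
  obtain ⟨e, hce⟩ := hcp
  by_cases h1 : OddAdj D c d
  · exact .head had (.single (oddAdj_symm h1))
  by_cases h2 : OddAdj D a e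
  · exact .head h2 (.single (oddAdj_symm hce))
  have h3 := adj_of_mul_mem hD ha hc had hac ht h1
  have h4 := adj_of_mul_mem hD hc ha hce hac.symm (hac ▸ ht) h2
  rw [← hac] at h4
  exact .head had (.head (oddAdj_symm h3) (.head h4 (.single (oddAdj_symm hce))))

end Cfsg.Agent.H5.RootInv
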