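import Cfsg.Statements.S0200
import Cfsg.Agent.Lib_helper5_Dihedral
import Cfsg.Agent.Lib_helper2_BaerSuzuki

set_option autoImplicit false
open Cfsg

namespace Cfsg.Agent.S0200


/-- An involution lying in no normal 2-subgroup of a finite group inverts a nontrivial element of odd order (a consequence of the Baer–Suzuki Theorem). -/
theorem result {G : Type*} [Group G] [Finite G] (t : G) (ht : orderOf t = 2) (hO : ∀ N : Subgroup G, N.Normal → IsPGroup 2 N → t ∉ N) : ∃ h : G, h ≠ 1 ∧ Odd (orderOf h) ∧ t * h * t⁻¹ = h⁻¹ := by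
  have htt := H5.mul_self_of_order_two ht
  have hnot : t ∉ Cfsg.pCore 2 G := hO _ (H2.pCore_normal' 2) (H2.pCore_isPGroup 2)
  have hex : ∃ g : G, ¬ IsPGroup 2 (Subgroup.closure ({t, g * t * g⁻¹} : Set G)) := by
    by_contra hall
    push Not at hall
    exact hnot (H2.baer_suzuki t hall)
  obtain ⟨g, hg⟩ := hex
  set v := g * t * g⁻¹ with hv
  have hv2 : orderOf v = 2 := H5.order_two_conj ht g
  have hvv := H5.mul_self_of_order_two hv2
  have hpos : orderOf (t * v) ≠ 0 := (orderOf_pos _).ne'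
  obtain ⟨k, m, hm, hkm⟩ := Nat.exists_eq_two_pow_mul_odd hpos
  have hm1 : m ≠ 1 := by
    rintro rfl
    apply hg
    obtain ⟨e⟩ := H5.nonempty_dihedral_of_invol ht hv2
    apply IsPGroup.of_card (n := k + 1)
    rw [Nat.card_congr e.toEquiv, DihedralGroup.nat_card, hkm]
    ring
  refine ⟨(t * v) ^ (2 ^ k), ?_, ?_, ?_⟩
  · intro h
    have h1 : orderOf (t * v) ∣ 2 ^ k := orderOf_dvd_of_pow_eq_one h
    rw [hkm] at h1
    have h2 : 2 ^ k * m ≤ 2 ^ k := Nat.le_of_dvd (by positivity) h1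
    have h3 : 0 < m := hm.pos
    have h4 : 0 < 2 ^ k := by positivity
    have h5 : m ≤ 1 := by
      by_contra h6
      have : 2 ^ k * 2 ≤ 2 ^ k * m := Nat.mul_le_mul_left _ (by omega)
      omega
    omega
  · have h1 : orderOf ((t * v) ^ (2 ^ k)) = m := by
      rw [orderOf_pow, hkm, Nat.gcd_eq_right (Dvd.intro _ rfl), Nat.mul_div_cancel_left _ (by positivity)]
    rw [h1]; exact hm
  · have h := H5.invol_mul_zpow htt hvv ((2 ^ k : ℕ) : ℤ)
    rw [zpow_neg, zpow_natCast] at h
    rw [h, H5.inv_of_order_two ht, mul_assoc, htt, mul_one]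

end Cfsg.Agent.S0200
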