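import Mathlib
import Cfsg.Prelude.Def_FischerSpaces
import Cfsg.Agent.Lib_helper1_Cores
import Cfsg.Agent.S0200

set_option autoImplicit false

namespace Cfsg.Agent.H5.ThreeTr

variable {G : Type*} [Group G] {D : Set G}

theorem sq_eq_one (hD : Cfsg.IsThreeTranspositionSet D) {d : G} (hd : d ∈ D) : d * d = 1 := by
  have := pow_orderOf_eq_one d
  rw [hD.1 d hd, pow_two] at this
  exact this

theorem inv_eq_self (hD : Cfsg.IsThreeTranspositionSet D) {d : G} (hd : d ∈ D) : d⁻¹ = d :=
  inv_eq_of_mul_eq_one_left (sq_eq_one hD hd)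

theorem ne_one (hD : Cfsg.IsThreeTranspositionSet D) {d : G} (hd : d ∈ D) : d ≠ 1 := by
  intro h
  have := hD.1 d hd
  rw [h, orderOf_one] at this
  omega

theorem commute_of_sq {d e : G} (hd : d * d = 1) (he : e * e = 1) (h : (d * e) ^ 2 = 1) :
    Commute d e := by
  show d * e = e * d
  rw [pow_two] at h
  have h3 : d * e = (d * e)⁻¹ := eq_inv_of_mul_eq_one_left h
  rw [h3, mul_inv_rev, inv_eq_of_mul_eq_one_left hd, inv_eq_of_mul_eq_one_left he]

theorem braid_of_cube {d e : G} (hd : d * d = 1) (he : e * e = 1) (h : (d * e) ^ 3 = 1) :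
    d * e * d = e * d * e := by
  have h1 : (d * e * d) * (e * d * e) = 1 := by
    rw [← h, pow_succ, pow_two]; group
  have h2 := eq_inv_of_mul_eq_one_left h1
  rw [h2]
  simp only [mul_inv_rev, inv_eq_of_mul_eq_one_left hd, inv_eq_of_mul_eq_one_left he, mul_assoc]

theorem cube_of_not_commute (hD : Cfsg.IsThreeTranspositionSet D) {d e : G} (hd : d ∈ D)
    (he : e ∈ D) (h : ¬ Commute d e) : (d * e) ^ 3 = 1 := by
  rcases hD.2 d hd e he with h' | h'
  · exact absurd (commute_of_sq (sq_eq_one hD hd) (sq_eq_one hD he) h') h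
  · exact h'

theorem braid (hD : Cfsg.IsThreeTranspositionSet D) {d e : G} (hd : d ∈ D)
    (he : e ∈ D) (h : ¬ Commute d e) : d * e * d = e * d * e :=
  braid_of_cube (sq_eq_one hD hd) (sq_eq_one hD he) (cube_of_not_commute hD hd he h)

/-- conjugation-closedness of a class -/
theorem conj_mem_of_class (hD : Cfsg.IsThreeTranspositionClass D) (g : G) {d : G} (hd : d ∈ D) :
    g * d * g⁻¹ ∈ D := by
  obtain ⟨-, ⟨d0, -, h0⟩, -⟩ := hD
  rw [h0] at hd ⊢
  have hd' : IsConj d0 d := hd
  exact (hd'.trans (isConj_iff.2 ⟨g, rfl⟩) : IsConj d0 (g * d * g⁻¹))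

theorem group_of_class (hD : Cfsg.IsThreeTranspositionClass D) :
    Cfsg.IsThreeTranspositionGroup D :=
  ⟨hD.1, fun g _ hd => conj_mem_of_class hD g hd, hD.2.2⟩

theorem exists_conj_of_class (hD : Cfsg.IsThreeTranspositionClass D) {a b : G} (ha : a ∈ D)
    (hb : b ∈ D) : ∃ g : G, g * a * g⁻¹ = b := by
  obtain ⟨-, ⟨d0, -, h0⟩, -⟩ := hD
  rw [h0] at ha hb
  have ha' : IsConj d0 a := ha
  have hb' : IsConj d0 b := hb
  exact isConj_iff.1 (ha'.symm.trans hb')

/-- a member of a generating set commuting with all members is central -/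
theorem mem_center_of_commute (hgen : Subgroup.closure D = ⊤) {d : G}
    (h : ∀ e ∈ D, Commute d e) : d ∈ Subgroup.center G := by
  have h1 : Subgroup.closure D ≤ Subgroup.centralizer {d} := by
    rw [Subgroup.closure_le]
    intro e he
    rw [SetLike.mem_coe, Subgroup.mem_centralizer_singleton_iff]
    exact (h e he).symm.eq
  rw [Subgroup.mem_center_iff]
  intro g
  have : g ∈ Subgroup.centralizer {d} := h1 (hgen ▸ Subgroup.mem_top g)
  rw [Subgroup.mem_centralizer_singleton_iff] at this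
  exact this

theorem exists_not_commute (hD : Cfsg.IsThreeTranspositionClass D)
    (hD2 : ∃ a ∈ D, ∃ b ∈ D, a ≠ b) {d : G} (hd : d ∈ D) : ∃ e ∈ D, ¬ Commute d e := by
  by_contra hcon
  push Not at hcon
  have hc := mem_center_of_commute hD.2.2 hcon
  obtain ⟨a, ha, b, hb, hab⟩ := hD2
  apply hab
  obtain ⟨g, hg⟩ := exists_conj_of_class hD hd ha
  obtain ⟨g', hg'⟩ := exists_conj_of_class hD hd hb
  rw [← hg, ← hg', Subgroup.mem_center_iff.1 hc g, Subgroup.mem_center_iff.1 hc g']
  group

/-- `v` and `d` commute with the same members of `D`. -/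
def SameC (D : Set G) (v d : G) : Prop := ∀ e ∈ D, Commute v e ↔ Commute d e

theorem SameC.symm {v d : G} (h : SameC D v d) : SameC D d v := fun e he => (h e he).symm

theorem SameC.trans {a b c : G} (h : SameC D a b) (h' : SameC D b c) : SameC D a c :=
  fun e he => (h e he).trans (h' e he)

theorem SameC.refl (d : G) : SameC D d d := fun _ _ => Iff.rfl

theorem commute_conj_iff (g a b : G) : Commute (g * a * g⁻¹) b ↔ Commute a (g⁻¹ * b * g) := by
  constructor
  · intro h
    show a * (g⁻¹ * b * g) = g⁻¹ * b * g * a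
    have h' : g * a * g⁻¹ * b = b * (g * a * g⁻¹) := h
    calc a * (g⁻¹ * b * g) = g⁻¹ * (g * a * g⁻¹ * b) * g := by group
      _ = g⁻¹ * (b * (g * a * g⁻¹)) * g := by rw [h']
      _ = g⁻¹ * b * g * a := by group
  · intro h
    show g * a * g⁻¹ * b = b * (g * a * g⁻¹)
    have h' : a * (g⁻¹ * b * g) = g⁻¹ * b * g * a := h
    calc g * a * g⁻¹ * b = g * (a * (g⁻¹ * b * g)) * g⁻¹ := by group
      _ = g * (g⁻¹ * b * g * a) * g⁻¹ := by rw [h']
      _ = b * (g * a * g⁻¹) := by group

theorem SameC.conj (hconj : ∀ g : G, ∀ d ∈ D, g * d * g⁻¹ ∈ D) {v d : G} (h : SameC D v d)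
    (g : G) : SameC D (g * v * g⁻¹) (g * d * g⁻¹) := by
  intro e he
  rw [commute_conj_iff, commute_conj_iff]
  have : g⁻¹ * e * g ∈ D := by
    have := hconj g⁻¹ e he
    rwa [inv_inv] at this
  exact h _ this

theorem SameC.commute {v d : G} (h : SameC D v d) (hd : d ∈ D) : Commute v d :=
  (h d hd).2 (Commute.refl d)

theorem SameC.commute' {x y e : G} (hx : SameC D x e) (hy : SameC D y e) (he : e ∈ D)
    (hyD : y ∈ D) : Commute x y :=
  (hx y hyD).2 (hy.commute he).symm

/-- word identities in the group generated by a 3-string -/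
theorem word1 {d e v : G} (hd : d * d = 1) (he : e * e = 1) (hv : v * v = 1)
    (hde : d * e * d = e * d * e) (hve : v * e * v = e * v * e) (hdv : d * v = v * d) :
    d * v * e * (d * v)⁻¹ = (e * d * e⁻¹) * v * (e * d * e⁻¹)⁻¹ := by
  have hdi := inv_eq_of_mul_eq_one_left hd
  have hei := inv_eq_of_mul_eq_one_left he
  have hvi := inv_eq_of_mul_eq_one_left hv
  have hdvd : d * v * d = v := by rw [hdv, mul_assoc, hd, mul_one]
  calc d * v * e * (d * v)⁻¹ = d * (v * e * v) * d := by
        rw [mul_inv_rev, hvi, hdi]; group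
    _ = d * (e * v * e) * d := by rw [hve]
    _ = d * e * (d * v * d) * e * d := by rw [hdvd]; group
    _ = (d * e * d) * v * (d * e * d) := by group
    _ = (e * d * e) * v * (e * d * e) := by rw [hde]
    _ = (e * d * e⁻¹) * v * (e * d * e⁻¹)⁻¹ := by
        simp only [mul_inv_rev, hdi, hei, mul_assoc]

theorem word2 {d e : G} (hd : d * d = 1) (he : e * e = 1)
    (hde : d * e * d = e * d * e) :
    (e * d * e⁻¹) * d * (e * d * e⁻¹)⁻¹ = e := by
  have hdi := inv_eq_of_mul_eq_one_left hd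
  have hei := inv_eq_of_mul_eq_one_left he
  calc (e * d * e⁻¹) * d * (e * d * e⁻¹)⁻¹ = e * (d * e * d) * (e * d * e) := by
        simp only [mul_inv_rev, hdi, hei, mul_assoc]
    _ = e * (e * d * e) * (e * d * e) := by rw [hde]
    _ = (e * e) * d * (e * e) * d * e := by group
    _ = (d * d) * e := by rw [he]; group
    _ = e := by rw [hd, one_mul]

theorem word3 {d e v : G} (hd : d * d = 1) (he : e * e = 1) (hv : v * v = 1)
    (hde : d * e * d = e * d * e) (hve : v * e * v = e * v * e) (hdv : d * v = v * d) :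
    (e * (d * v) * e⁻¹) * d * (e * (d * v) * e⁻¹)⁻¹ = v := by
  have hdi := inv_eq_of_mul_eq_one_left hd
  have hei := inv_eq_of_mul_eq_one_left he
  have hvi := inv_eq_of_mul_eq_one_left hv
  have hdvd : d * v * d = v := by rw [hdv, mul_assoc, hd, mul_one]
  calc (e * (d * v) * e⁻¹) * d * (e * (d * v) * e⁻¹)⁻¹
      = e * d * v * (e * d * e) * v * d * e := by
        simp only [mul_inv_rev, hdi, hei, hvi, mul_assoc]
    _ = e * d * v * (d * e * d) * v * d * e := by rw [hde]
    _ = e * (d * v * d) * e * (d * v * d) * e := by group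
    _ = e * (v * e * v) * e := by rw [hdvd]; group
    _ = e * (e * v * e) * e := by rw [hve]
    _ = (e * e) * v * (e * e) := by group
    _ = v := by rw [he, one_mul, mul_one]

/-- the product `d v` with `v` in the class of `d` stabilizes every class -/
theorem sameC_conj_mul (hD : Cfsg.IsThreeTranspositionSet D)
    (hconj : ∀ g : G, ∀ d ∈ D, g * d * g⁻¹ ∈ D) {d v e : G} (hd : d ∈ D) (hv : v ∈ D)
    (he : e ∈ D) (h : SameC D v d) : SameC D (d * v * e * (d * v)⁻¹) e := by
  by_cases hc : Commute d e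
  · have hc' : Commute v e := (h e he).2 hc
    have : d * v * e * (d * v)⁻¹ = e := by
      have h1 : Commute (d * v) e := hc.mul_left hc'
      rw [h1.eq, mul_assoc, mul_inv_cancel, mul_one]
    rw [this]
    exact SameC.refl e
  · have hc' : ¬ Commute v e := fun h' => hc ((h e he).1 h')
    have hde := braid hD hd he hc
    have hve := braid hD hv he hc'
    have hdv : d * v = v * d := (h.commute hd).symm.eq
    rw [word1 (sq_eq_one hD hd) (sq_eq_one hD he) (sq_eq_one hD hv) hde hve hdv]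
    have := h.conj hconj (e * d * e⁻¹)
    rwa [word2 (sq_eq_one hD hd) (sq_eq_one hD he) hde] at this

theorem mul_mem_pCore [Finite G] (hD : Cfsg.IsThreeTranspositionSet D)
    (hconj : ∀ g : G, ∀ d ∈ D, g * d * g⁻¹ ∈ D) {d v : G} (hd : d ∈ D) (hv : v ∈ D)
    (h : SameC D v d) : d * v ∈ Cfsg.pCore 2 G := by
  by_cases hvd : v = d
  · rw [hvd, sq_eq_one hD hd]; exact one_mem _
  have hdv : Commute d v := (h.commute hd).symm
  have huu : (d * v) * (d * v) = 1 := by
    calc (d * v) * (d * v) = d * (v * d) * v := by group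
      _ = d * (d * v) * v := by rw [hdv.eq]
      _ = (d * d) * (v * v) := by group
      _ = 1 := by rw [sq_eq_one hD hd, sq_eq_one hD hv, one_mul]
  have hu1 : d * v ≠ 1 := by
    intro h1
    apply hvd
    have := eq_inv_of_mul_eq_one_right h1
    rw [this, inv_eq_self hD hd]
  have hou : orderOf (d * v) = 2 := by
    apply orderOf_eq_prime
    · rw [pow_two]; exact huu
    · exact hu1
  by_contra hcon
  obtain ⟨x, hx1, hodd, hinv⟩ := S0200.result (d * v) hou
    (fun N hN hN2 hwN => hcon (H1.le_pCore 2 hN hN2 hwN))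
  have hui : (d * v)⁻¹ = d * v := inv_eq_of_mul_eq_one_left huu
  set u := d * v with hu
  -- y = x u x⁻¹ = e w
  set e := x * d * x⁻¹ with he
  set w := x * v * x⁻¹ with hw
  have heD : e ∈ D := hconj x d hd
  have hwD : w ∈ D := hconj x v hv
  have hwe : SameC D w e := h.conj hconj x
  have hy : x * u * x⁻¹ = e * w := by rw [hu, he, hw]; group
  have h1 : SameC D (u * e * u⁻¹) e := sameC_conj_mul hD hconj hd hv heD h
  have h2 : SameC D (u * w * u⁻¹) e := (sameC_conj_mul hD hconj hd hv hwD h).trans hwe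
  have h1D : u * e * u⁻¹ ∈ D := hconj u e heD
  have h2D : u * w * u⁻¹ ∈ D := hconj u w hwD
  have hee : SameC D e e := SameC.refl e
  -- (u y)^2 = (u e u⁻¹)(u w u⁻¹) e w
  have e1 : u * (x * u * x⁻¹) = (x ^ 2)⁻¹ := by
    calc u * (x * u * x⁻¹) = (u * x * u⁻¹) * x⁻¹ := by rw [hui]; group
      _ = x⁻¹ * x⁻¹ := by rw [hinv]
      _ = (x ^ 2)⁻¹ := by rw [pow_two, mul_inv_rev]
  have e2 : (u * (x * u * x⁻¹)) * (u * (x * u * x⁻¹)) = (u * e * u⁻¹) * (u * w * u⁻¹) * (e * w) := by
    rw [hy]
    calc u * (e * w) * (u * (e * w)) = u * e * w * u⁻¹ * (e * w) := by rw [hui]; group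
      _ = (u * e * u⁻¹) * (u * w * u⁻¹) * (e * w) := by group
  have c12 : Commute (u * e * u⁻¹) (u * w * u⁻¹) := h1.commute' h2 heD h2D
  have c1e : Commute (u * e * u⁻¹) e := h1.commute heD
  have c1w : Commute (u * e * u⁻¹) w := h1.commute' hwe heD hwD
  have c2e : Commute (u * w * u⁻¹) e := h2.commute heD
  have c2w : Commute (u * w * u⁻¹) w := h2.commute' hwe heD hwD
  have cew : Commute e w := (hwe.commute heD).symm
  have e3 : ((u * e * u⁻¹) * (u * w * u⁻¹) * (e * w)) * ((u * e * u⁻¹) * (u * w * u⁻¹) * (e * w)) = 1 := by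
    have s1 := sq_eq_one hD h1D
    have s2 := sq_eq_one hD h2D
    have s3 := sq_eq_one hD heD
    have s4 := sq_eq_one hD hwD
    generalize u * e * u⁻¹ = a at *
    generalize u * w * u⁻¹ = b at *
    have hab : (a * b) * (a * b) = 1 := by
      calc (a * b) * (a * b) = a * (b * a) * b := by group
        _ = a * (a * b) * b := by rw [c12.eq]
        _ = (a * a) * (b * b) := by group
        _ = 1 := by rw [s1, s2, one_mul]
    have hew : (e * w) * (e * w) = 1 := by
      calc (e * w) * (e * w) = e * (w * e) * w := by group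
        _ = e * (e * w) * w := by rw [cew.eq]
        _ = (e * e) * (w * w) := by group
        _ = 1 := by rw [s3, s4, one_mul]
    have hc : Commute (a * b) (e * w) :=
      Commute.mul_left (Commute.mul_right c1e c1w) (Commute.mul_right c2e c2w)
    calc a * b * (e * w) * (a * b * (e * w)) = (a * b) * ((e * w) * (a * b)) * (e * w) := by group
      _ = (a * b) * ((a * b) * (e * w)) * (e * w) := by rw [hc.eq]
      _ = ((a * b) * (a * b)) * ((e * w) * (e * w)) := by group
      _ = 1 := by rw [hab, hew, one_mul]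
  rw [← e2, e1] at e3
  have e4 : x ^ 8 = 1 := by
    have : ((x ^ 2)⁻¹ * (x ^ 2)⁻¹ * ((x ^ 2)⁻¹ * (x ^ 2)⁻¹)) = (x ^ 8)⁻¹ := by group
    rw [this] at e3
    exact inv_eq_one.1 e3
  have h3 : orderOf x ∣ 2 ^ 3 := orderOf_dvd_of_pow_eq_one (by norm_num; exact e4)
  have hcop : (orderOf x).Coprime (2 ^ 3) :=
    Nat.Coprime.pow_right _ (Nat.Coprime.symm (Nat.coprime_two_left.2 hodd))
  exact hx1 (orderOf_eq_one_iff.1 (Nat.Coprime.eq_one_of_dvd hcop h3))

end Cfsg.Agent.H5.ThreeTr
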