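import Mathlib
import Cfsg.Prelude.Def_Classical

set_option autoImplicit false

namespace Cfsg.Agent.H6.Adj

variable {F : Type*} [Field F]

open scoped commutatorElement

/-- the adjoint matrix of `g` on trace-zero matrices `[[x,y],[z,-x]]` -/
def R (g : Matrix (Fin 2) (Fin 2) F) : Matrix (Fin 3) (Fin 3) F :=
  (g.det)⁻¹ • !![g 0 0 * g 1 1 + g 0 1 * g 1 0, -(g 0 0 * g 1 0), g 0 1 * g 1 1;
    -(2 * g 0 0 * g 0 1), g 0 0 ^ 2, -(g 0 1 ^ 2);
    2 * g 1 0 * g 1 1, -(g 1 0 ^ 2), g 1 1 ^ 2]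

theorem R_one : R (1 : Matrix (Fin 2) (Fin 2) F) = 1 := by
  ext i j
  fin_cases i <;> fin_cases j <;> simp [R]

theorem R_mul (g h : Matrix (Fin 2) (Fin 2) F) (hg : g.det ≠ 0) (hh : h.det ≠ 0) :
    R (g * h) = R g * R h := by
  have hg' := hg
  have hh' := hh
  rw [Matrix.det_fin_two] at hg' hh'
  ext i j
  fin_cases i <;> fin_cases j <;>
    simp [R, Matrix.mul_apply, Fin.sum_univ_two, Fin.sum_univ_three, Matrix.det_fin_two] <;>
    field_simp <;> ring

theorem det_ne_zero' (g : GL (Fin 2) F) : (g : Matrix (Fin 2) (Fin 2) F).det ≠ 0 :=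
  ((Matrix.isUnit_iff_isUnit_det _).mp g.isUnit).ne_zero

/-- the adjoint representation `GL₂ → GL₃` -/
noncomputable def rho3 : GL (Fin 2) F →* GL (Fin 3) F :=
  MonoidHom.toHomUnits
    { toFun := fun g => R (g : Matrix (Fin 2) (Fin 2) F)
      map_one' := R_one
      map_mul' := fun g h => R_mul _ _ (det_ne_zero' g) (det_ne_zero' h) }

theorem rho3_val (g : GL (Fin 2) F) :
    ((rho3 g : GL (Fin 3) F) : Matrix (Fin 3) (Fin 3) F) = R (g : Matrix (Fin 2) (Fin 2) F) := rfl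

/-- index bijection -/
def e3 : (Unit ⊕ (Fin 1 ⊕ Fin 1)) ≃ Fin 3 where
  toFun := fun i => match i with
    | .inl _ => 0
    | .inr (.inl _) => 1
    | .inr (.inr _) => 2
  invFun := fun i => match i with
    | 0 => .inl ()
    | 1 => .inr (.inl 0)
    | 2 => .inr (.inr 0)
  left_inv := by
    rintro (_ | ⟨i⟩ | ⟨i⟩)
    · rfl
    · have : i = 0 := Subsingleton.elim _ _
      subst this; rfl
    · have : i = 0 := Subsingleton.elim _ _
      subst this; rfl
  right_inv := by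
    intro i
    fin_cases i <;> rfl

noncomputable def tr3 : GL (Fin 3) F →* GL (Unit ⊕ (Fin 1 ⊕ Fin 1)) F :=
  Units.map ((Matrix.reindexAlgEquiv F F e3.symm).toMulEquiv.toMonoidHom)

theorem tr3_val (M : GL (Fin 3) F) :
    ((tr3 M : GL (Unit ⊕ (Fin 1 ⊕ Fin 1)) F) : Matrix (Unit ⊕ (Fin 1 ⊕ Fin 1)) _ F) =
      (M : Matrix (Fin 3) (Fin 3) F).submatrix e3 e3 := rfl

theorem tr3_injective : Function.Injective (tr3 (F := F)) := by
  intro M N h
  apply Units.ext
  have h1 := congrArg Units.val h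
  rw [tr3_val, tr3_val] at h1
  ext i j
  have := congrFun (congrFun h1 (e3.symm i)) (e3.symm j)
  simpa using this

theorem quadFormOdd_one (v : Unit ⊕ (Fin 1 ⊕ Fin 1) → F) :
    Cfsg.quadFormOdd 1 F v = v (e3.symm 0) ^ 2 + v (e3.symm 1) * v (e3.symm 2) := by
  simp [Cfsg.quadFormOdd]
  rfl

theorem tr3_mem (M : GL (Fin 3) F)
    (hM : ∀ x y z : F,
      ((M : Matrix (Fin 3) (Fin 3) F) 0 0 * x + (M : Matrix (Fin 3) (Fin 3) F) 0 1 * y +
        (M : Matrix (Fin 3) (Fin 3) F) 0 2 * z) ^ 2 +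
      ((M : Matrix (Fin 3) (Fin 3) F) 1 0 * x + (M : Matrix (Fin 3) (Fin 3) F) 1 1 * y +
        (M : Matrix (Fin 3) (Fin 3) F) 1 2 * z) *
      ((M : Matrix (Fin 3) (Fin 3) F) 2 0 * x + (M : Matrix (Fin 3) (Fin 3) F) 2 1 * y +
        (M : Matrix (Fin 3) (Fin 3) F) 2 2 * z) = x ^ 2 + y * z) :
    tr3 M ∈ Cfsg.isometryGroup F (Cfsg.quadFormOdd 1 F) := by
  intro u _
  show Cfsg.quadFormOdd 1 F (((tr3 M : GL _ F) : Matrix _ _ F).mulVec u) = Cfsg.quadFormOdd 1 F u
  rw [quadFormOdd_one, quadFormOdd_one, tr3_val]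
  have key : ∀ i : Fin 3, ((M : Matrix (Fin 3) (Fin 3) F).submatrix e3 e3).mulVec u (e3.symm i) =
      (M : Matrix (Fin 3) (Fin 3) F) i 0 * u (e3.symm 0) +
        (M : Matrix (Fin 3) (Fin 3) F) i 1 * u (e3.symm 1) +
        (M : Matrix (Fin 3) (Fin 3) F) i 2 * u (e3.symm 2) := by
    intro i
    rw [Matrix.mulVec, dotProduct, ← Equiv.sum_comp e3.symm, Fin.sum_univ_three]
    simp
  rw [key, key, key, hM]

theorem rho_mem (g : GL (Fin 2) F) :
    tr3 (rho3 g) ∈ Cfsg.isometryGroup F (Cfsg.quadFormOdd 1 F) := by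
  apply tr3_mem
  intro x y z
  have hg := det_ne_zero' g
  rw [rho3_val]
  rw [Matrix.det_fin_two] at hg
  simp [R, Matrix.det_fin_two]
  field_simp
  ring

/-- the adjoint representation into the isometry group -/
noncomputable def rho : GL (Fin 2) F →* Cfsg.isometryGroup F (Cfsg.quadFormOdd 1 F) :=
  (tr3.comp rho3).codRestrict _ rho_mem

theorem rho_coe (g : GL (Fin 2) F) : ((rho g : Cfsg.isometryGroup F (Cfsg.quadFormOdd 1 F)) :
    GL (Unit ⊕ (Fin 1 ⊕ Fin 1)) F) = tr3 (rho3 g) := rfl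

theorem R_offdiag {g : Matrix (Fin 2) (Fin 2) F} (hg : g.det ≠ 0) {c : F}
    (h : R g = c • (1 : Matrix (Fin 3) (Fin 3) F)) : g 0 1 = 0 ∧ g 1 0 = 0 := by
  have h12 := congrFun (congrFun h 1) 2
  have h21 := congrFun (congrFun h 2) 1
  simp [R, hg] at h12 h21
  exact ⟨h12, h21⟩

theorem R_eq_one_iff {g : Matrix (Fin 2) (Fin 2) F} (hg : g.det ≠ 0) :
    R g = 1 ↔ (g 0 1 = 0 ∧ g 1 0 = 0 ∧ g 0 0 = g 1 1) := by
  constructor
  · intro h
    obtain ⟨hb, hc⟩ := R_offdiag hg (c := 1) (by rw [h, one_smul])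
    refine ⟨hb, hc, ?_⟩
    have h11 := congrFun (congrFun h 1) 1
    rw [Matrix.det_fin_two, hb, hc] at hg
    simp [R, Matrix.det_fin_two, hb, hc] at h11
    have ha : g 0 0 ≠ 0 := by
      intro h0
      apply hg
      rw [h0]; ring
    have hd : g 1 1 ≠ 0 := by
      intro h0
      apply hg
      rw [h0]; ring
    field_simp at h11
    exact h11
  · rintro ⟨hb, hc, had⟩
    rw [Matrix.det_fin_two, hb, hc, had] at hg
    have hd : g 1 1 ≠ 0 := by
      intro h0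
      apply hg
      rw [h0]; ring
    ext i j
    fin_cases i <;> fin_cases j <;> simp [R, Matrix.det_fin_two, hb, hc, had] <;> field_simp

theorem R_ne_neg_one (h2 : (2 : F) ≠ 0) {g : Matrix (Fin 2) (Fin 2) F} (hg : g.det ≠ 0) :
    R g ≠ -1 := by
  intro h
  obtain ⟨hb, hc⟩ := R_offdiag hg (c := -1) (by rw [h]; simp)
  have h00 := congrFun (congrFun h 0) 0
  rw [Matrix.det_fin_two, hb, hc] at hg
  simp only [mul_zero, sub_zero] at hg
  simp [R, Matrix.det_fin_two, hb, hc] at h00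
  rw [← mul_inv] at h00
  have h1 : (g 1 1 * g 0 0)⁻¹ * (g 0 0 * g 1 1) = 1 := by
    rw [mul_comm (g 1 1) (g 0 0)]
    exact inv_mul_cancel₀ hg
  rw [h1] at h00
  apply h2
  linear_combination h00

theorem conj_central {O : Type*} [Group O] {c : O} (hc : c ∈ Subgroup.center O) (w : O) :
    c * w * c⁻¹ = w := by
  rw [← Subgroup.mem_center_iff.mp hc w, mul_assoc, mul_inv_cancel, mul_one]

theorem commutator_central_mul {O : Type*} [Group O] {c c' : O} (hc : c ∈ Subgroup.center O)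
    (hc' : c' ∈ Subgroup.center O) (x y : O) : ⁅c * x, c' * y⁆ = ⁅x, y⁆ := by
  have e1 : ∀ y' : O, ⁅c * x, y'⁆ = ⁅x, y'⁆ := by
    intro y'
    rw [commutatorElement_def, commutatorElement_def]
    have : c * x * y' * (c * x)⁻¹ * y'⁻¹ = (c * (x * y' * x⁻¹) * c⁻¹) * y'⁻¹ := by group
    rw [this, conj_central hc]
  have e2 : ⁅x, c' * y⁆ = ⁅x, y⁆ := by
    rw [commutatorElement_def, commutatorElement_def]
    have h1 : x * (c' * y) * x⁻¹ * (c' * y)⁻¹ = (x * c') * (y * x⁻¹ * y⁻¹) * c'⁻¹ := by group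
    have h2 : (c' * x) * (y * x⁻¹ * y⁻¹) * c'⁻¹ = c' * (x * y * x⁻¹ * y⁻¹) * c'⁻¹ := by group
    rw [h1, Subgroup.mem_center_iff.mp hc' x, h2, conj_central hc']
  rw [e1, e2]

theorem commutator_eq_map {O A : Type*} [Group O] [Group A] (ρ : A →* O) (z : O)
    (hz : z ∈ Subgroup.center O) (h : ∀ x : O, (∃ a, ρ a = x) ∨ (∃ a, z * ρ a = x)) :
    commutator O = (commutator A).map ρ := by
  have key : ∀ x : O, ∃ a, ∃ c ∈ Subgroup.center O, x = c * ρ a := by
    intro x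
    rcases h x with ⟨a, rfl⟩ | ⟨a, rfl⟩
    · exact ⟨a, 1, Subgroup.one_mem _, (one_mul _).symm⟩
    · exact ⟨a, z, hz, rfl⟩
  apply le_antisymm
  · rw [commutator_def, Subgroup.commutator_le]
    intro x _ y _
    obtain ⟨a, c, hc, rfl⟩ := key x
    obtain ⟨b, c', hc', rfl⟩ := key y
    rw [commutator_central_mul hc hc', ← map_commutatorElement]
    exact Subgroup.mem_map_of_mem _ (Subgroup.commutator_mem_commutator (Subgroup.mem_top a)
      (Subgroup.mem_top b))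
  · rw [commutator_def, commutator_def, Subgroup.map_commutator]
    exact Subgroup.commutator_mono le_top le_top

end Cfsg.Agent.H6.Adj
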