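import Cfsg.Agent.Lib_helper6_WittGen
import Cfsg.Agent.Lib_helper6_StabProd
import Cfsg.Agent.Lib_helper6_GU
import Cfsg.Prelude.Def_ClassicalGeometry

/-! Stabilisers of subspaces in the full linear group: order and maximality. -/

set_option autoImplicit false

namespace Cfsg.Agent.H6.GLin

variable {F V : Type*} [Field F] [AddCommGroup V] [Module F V]

/-- The trivial invariant: every automorphism is an isometry. -/
def triv (V : Type*) : V → V → Unit := fun _ _ => ()

theorem IsomOf_triv : IsomOf (F := F) (triv V) = ⊤ := by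
  rw [eq_top_iff]
  intro g _ u v
  rfl

variable [FiniteDimensional F V]

/-- The map `v ↦ v + φ v • z`. -/
noncomputable def dil (φ : Module.Dual F V) (z : V) (h : 1 + φ z ≠ 0) : V ≃ₗ[F] V :=
  LinearEquiv.ofInjectiveEndo (LinearMap.id + φ.smulRight z) (by
    rw [← LinearMap.ker_eq_bot, LinearMap.ker_eq_bot']
    intro v hv
    have hv' : v + φ v • z = 0 := by simpa using hv
    have h1 : φ v * (1 + φ z) = 0 := by
      have := congrArg φ hv'
      rw [map_add, map_smul, map_zero, smul_eq_mul] at this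
      linear_combination this
    have h2 : φ v = 0 := (mul_eq_zero.mp h1).resolve_right h
    rw [h2, zero_smul, add_zero] at hv'
    exact hv')

theorem dil_apply (φ : Module.Dual F V) (z : V) (h : 1 + φ z ≠ 0) (v : V) :
    dil φ z h v = v + φ v • z := by
  simp [dil]

omit [FiniteDimensional F V] in
theorem exists_functional (U : Submodule F V) {x y : V} (hx : x ∉ U) (hy : y ∉ U) :
    ∃ φ : Module.Dual F V, (∀ u ∈ U, φ u = 0) ∧ φ y = 1 ∧ φ x ≠ 0 := by
  obtain ⟨f, hfy, hfU⟩ := Submodule.exists_le_ker_of_notMem hy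
  obtain ⟨k, hkx, hkU⟩ := Submodule.exists_le_ker_of_notMem hx
  by_cases h1 : f x = 0
  · by_cases h2 : k y = 0
    · refine ⟨(f y)⁻¹ • f + k, fun u hu => ?_, ?_, ?_⟩
      · have e1 : f u = 0 := hfU hu
        have e2 : k u = 0 := hkU hu
        simp [e1, e2]
      · simp [h2, hfy]
      · simp [h1, hkx]
    · refine ⟨(k y)⁻¹ • k, fun u hu => ?_, ?_, ?_⟩
      · have e2 : k u = 0 := hkU hu
        simp [e2]
      · simp [h2]
      · simp [h2, hkx]
  · refine ⟨(f y)⁻¹ • f, fun u hu => ?_, ?_, ?_⟩
    · have e1 : f u = 0 := hfU hu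
      simp [e1]
    · simp [hfy]
    · simp [hfy, h1]

theorem exists_dil_mover (U : Submodule F V) {x y : V} (hx : x ∉ U) (hy : y ∉ U) :
    ∃ (φ : Module.Dual F V) (z : V) (h : 1 + φ z ≠ 0), (∀ u ∈ U, dil φ z h u = u) ∧
      dil φ z h y = x := by
  obtain ⟨φ, hφU, hφy, hφx⟩ := exists_functional U hx hy
  refine ⟨φ, x - y, by rw [map_sub, hφy]; simpa using hφx, fun u hu => ?_, ?_⟩
  · rw [dil_apply, hφU u hu]; simp
  · rw [dil_apply, hφy]; simp

theorem movingIn_of_dil (H : Subgroup (V ≃ₗ[F] V)) (hH : ∀ φ z h, dil φ z h ∈ H) :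
    MovingIn H (triv V) := by
  intro W x y hx hy _ _ _
  obtain ⟨φ, z, h, h1, h2⟩ := exists_dil_mover W hx hy
  exact ⟨_, hH φ z h, h1, h2⟩

theorem eq_top_of_dil (H : Subgroup (V ≃ₗ[F] V)) (hH : ∀ φ z h, dil φ z h ∈ H) : H = ⊤ := by
  rw [eq_IsomOf_of_movingIn (by rw [IsomOf_triv]; exact le_top) (movingIn_of_dil H hH),
    IsomOf_triv]

theorem moving : Moving F (triv V) := by
  intro W x y hx hy _ _ _
  obtain ⟨φ, z, h, h1, h2⟩ := exists_dil_mover W hx hy
  exact ⟨_, by rw [IsomOf_triv]; exact Subgroup.mem_top _, h1, h2⟩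

theorem mem_StabOf_of_forall' {W : Submodule F V} {g : V ≃ₗ[F] V} (h : ∀ v ∈ W, g v ∈ W) :
    g ∈ StabOf (triv V) W :=
  mem_StabOf_of_forall (by rw [IsomOf_triv]; exact Subgroup.mem_top _) h

theorem isCoatom_StabOf (W : Submodule F V) (h0 : W ≠ ⊥) (h1 : W ≠ ⊤) :
    IsCoatom (StabOf (triv V) W) := by
  obtain ⟨w, hw, hw0⟩ := (Submodule.ne_bot_iff _).mp h0
  obtain ⟨x, -, hx⟩ := SetLike.exists_of_lt (lt_top_iff_ne_top.mpr h1)
  constructor
  · intro htop
    obtain ⟨φ, z, h, -, h2⟩ := exists_dil_mover (⊥ : Submodule F V) (x := x) (y := w)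
      (fun h => hx (by rw [(Submodule.mem_bot F).mp h]; exact zero_mem _))
      (fun h => hw0 ((Submodule.mem_bot F).mp h))
    have hmem : dil φ z h ∈ StabOf (triv V) W := by rw [htop]; exact Subgroup.mem_top _
    exact hx (h2 ▸ (hmem.2 w).mp hw)
  · intro H hlt
    obtain ⟨g, hgH, hgS⟩ := SetLike.exists_of_lt hlt
    obtain ⟨w0, hw0W, hgw0⟩ : ∃ w0 ∈ W, g w0 ∉ W := by
      by_contra hcon
      push Not at hcon
      exact hgS (mem_StabOf_of_forall' hcon)
    apply eq_top_of_dil
    intro φ z h
    by_cases hz : z ∈ W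
    · apply hlt.le
      apply mem_StabOf_of_forall'
      intro v hv
      rw [dil_apply]
      exact W.add_mem hv (W.smul_mem _ hz)
    · obtain ⟨ψ, y, hy, hs1, hs2⟩ := exists_dil_mover W hz hgw0
      have hsH : dil ψ y hy ∈ H := hlt.le (mem_StabOf_of_forall' fun v hv => by
        rw [hs1 v hv]; exact hv)
      set k := dil ψ y hy * g with hk
      have hkH : k ∈ H := mul_mem hsH hgH
      have hkw : k w0 = z := by rw [hk, LinearEquiv.mul_apply, hs2]
      have hne : 1 + (φ ∘ₗ k.toLinearMap) w0 ≠ 0 := by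
        simpa [hkw] using h
      have hdS : dil (φ ∘ₗ k.toLinearMap) w0 hne ∈ H := by
        apply hlt.le
        apply mem_StabOf_of_forall'
        intro v hv
        rw [dil_apply]
        exact W.add_mem hv (W.smul_mem _ hw0W)
      have heq : dil φ z h = k * dil (φ ∘ₗ k.toLinearMap) w0 hne * k⁻¹ := by
        ext v
        have e1 : k (k⁻¹ v) = v := by
          rw [← LinearEquiv.mul_apply, mul_inv_cancel]; rfl
        rw [LinearEquiv.mul_apply, LinearEquiv.mul_apply, dil_apply, dil_apply, map_add, map_smul,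
          hkw, e1]
        simp
      rw [heq]
      exact mul_mem (mul_mem hkH hdS) (inv_mem hkH)

theorem card_PS [Finite F] : ∀ (e : ℕ) (W : Submodule F V),
    Module.finrank F W + e = Module.finrank F V →
    Nat.card (PSOf (triv V) W) = ∏ i ∈ Finset.range e,
      (Nat.card F ^ Module.finrank F V - Nat.card F ^ (Module.finrank F W + i)) := by
  have : Finite V := Module.finite_of_finite F
  intro e
  induction e with
  | zero =>
    intro W hW
    have : W = ⊤ := Submodule.eq_top_of_finrank_eq (by omega)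
    rw [this, PSOf_top, Subgroup.card_bot, Finset.range_zero, Finset.prod_empty]
  | succ e ih =>
    intro W hW
    have hne : W ≠ ⊤ := by
      intro h
      rw [h, finrank_top] at hW
      omega
    obtain ⟨x, -, hx⟩ := SetLike.exists_of_lt (lt_top_iff_ne_top.mpr hne)
    have hfr := Submodule.finrank_sup_span_singleton hx
    rw [card_PSOf_step moving W hx, ih (W ⊔ Submodule.span F {x}) (by omega), hfr,
      Finset.prod_range_succ', mul_comm]
    congr 1
    · refine Finset.prod_congr rfl fun i _ => ?_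
      rw [show Module.finrank F W + 1 + i = Module.finrank F W + (i + 1) by omega]
    · have e1 : {y : V | y ∉ W ∧ (∀ z ∈ W, triv V z y = triv V z x) ∧
          (∀ z ∈ W, triv V y z = triv V x z) ∧ triv V y y = triv V x x} = (W : Set V)ᶜ := by
        ext y
        simp [triv]
      rw [e1, Nat.card_coe_set_eq, Set.ncard_compl, ← Nat.card_coe_set_eq, add_zero,
        Module.natCard_eq_pow_finrank (K := F) (V := V)]
      congr 1
      exact Module.natCard_eq_pow_finrank (K := F) (V := W)

theorem resHomOf_surjective (W : Submodule F V) :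
    Function.Surjective (resHomOf (triv V) W) := by
  intro e
  obtain ⟨g, -, hg⟩ := witt_of_moving moving W (W.subtype ∘ₗ e.toLinearMap)
    (fun a b h => e.injective (Subtype.ext h)) (fun _ _ => rfl)
  refine ⟨⟨g, mem_StabOf_of_forall' fun v hv => ?_⟩, ?_⟩
  · rw [hg ⟨v, hv⟩]
    exact (e ⟨v, hv⟩).2
  · ext w
    exact hg w

theorem card_StabOf [Finite F] (W : Submodule F V) {k e : ℕ} (hk : Module.finrank F W = k)
    (he : k + e = Module.finrank F V) :
    Nat.card (StabOf (triv V) W) = (∏ i : Fin k, (Nat.card F ^ k - Nat.card F ^ (i : ℕ))) *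
      ∏ i ∈ Finset.range e, (Nat.card F ^ Module.finrank F V - Nat.card F ^ (k + i)) := by
  rw [card_eq_card_mul_card_ker _ (resHomOf_surjective W), card_ker_resHomOf, card_linearEquiv hk,
    card_PS e W (by omega), hk]

end Cfsg.Agent.H6.GLin

namespace Cfsg.Agent.H6

/-- The stabiliser of a subspace in `GL`, in matrices and abstractly. -/
noncomputable def glStabEquiv {ι : Type} [Fintype ι] [DecidableEq ι] {F : Type*} [Field F]
    (W : Submodule F (ι → F)) :
    ↥(Cfsg.stabilizing (Cfsg.glToMat ι F) (W : Set (ι → F))) ≃* ↥(StabOf (GLin.triv (ι → F)) W) where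
  toFun A := ⟨glEquivLin ι F A.1, fun _ _ => rfl, A.2⟩
  invFun g := ⟨(glEquivLin ι F).symm g.1, fun v => by
    have := g.2.2 v
    change v ∈ W ↔ (((glEquivLin ι F).symm g.1 : Matrix.GeneralLinearGroup ι F) :
      Matrix ι ι F).mulVec v ∈ W
    rw [← glEquivLin_apply, MulEquiv.apply_symm_apply]
    exact this⟩
  left_inv A := by
    apply Subtype.ext
    exact (glEquivLin ι F).symm_apply_apply A.1
  right_inv g := by
    apply Subtype.ext
    exact (glEquivLin ι F).apply_symm_apply g.1
  map_mul' A C := by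
    apply Subtype.ext
    exact map_mul (glEquivLin ι F) A.1 C.1

/-- The span of the first `k` coordinate vectors. -/
def coordSub (F : Type*) [Field F] (n k : ℕ) : Submodule F (Fin n → F) where
  carrier := {v | ∀ i : Fin n, k ≤ (i : ℕ) → v i = 0}
  add_mem' {a b} ha hb i hi := by rw [Pi.add_apply, ha i hi, hb i hi, add_zero]
  zero_mem' _ _ := rfl
  smul_mem' c a ha i hi := by rw [Pi.smul_apply, ha i hi, smul_zero]

theorem finrank_coordSub (F : Type*) [Field F] {n k : ℕ} (hk : k ≤ n) :
    Module.finrank F (coordSub F n k) = k := by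
  have e : coordSub F n k ≃ₗ[F] (Fin k → F) :=
    { toFun := fun v i => v.1 (Fin.castLE hk i)
      map_add' := fun _ _ => rfl
      map_smul' := fun _ _ => rfl
      invFun := fun u => ⟨fun i => if h : (i : ℕ) < k then u ⟨i, h⟩ else 0, fun i hi => by
        simp [Nat.not_lt.mpr hi]⟩
      left_inv := fun v => by
        apply Subtype.ext
        funext i
        by_cases h : (i : ℕ) < k
        · simp [h]
        · simp only [h, dite_false]
          exact (v.2 i (Nat.not_lt.mp h)).symm
      right_inv := fun u => by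
        funext i
        simp }
  rw [e.finrank_eq, Module.finrank_fin_fun]

end Cfsg.Agent.H6
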