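import Cfsg.Agent.Lib_helper6_AltCount
import Cfsg.Agent.Lib_helper6_GLStab

/-! Maximality of subspace stabilisers in the symplectic group (abstract form). -/

set_option autoImplicit false

namespace Cfsg.Agent.H6.Alt

variable {F V : Type*} [Field F] [AddCommGroup V] [Module F V]
variable {B : LinearMap.BilinForm F V}

theorem conj_transv (hA : B.IsAlt) {g : V ≃ₗ[F] V} (hg : g ∈ Isom B) (x : V) (c : F) :
    g * transv hA x c * g⁻¹ = transv hA (g x) c := by
  ext v
  have e1 : g (g⁻¹ v) = v := by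
    rw [← LinearEquiv.mul_apply, mul_inv_cancel]; rfl
  have e2 : B (g⁻¹ v) x = B v (g x) := by
    rw [← hg (g⁻¹ v) x, e1]
  rw [LinearEquiv.mul_apply, LinearEquiv.mul_apply, transv_apply, transv_apply, map_add, map_smul,
    e1, e2]

variable [FiniteDimensional F V]

theorem movingIn_of_transv (hB : B.Nondegenerate) (hA : B.IsAlt) (H : Subgroup (V ≃ₗ[F] V))
    (hH : ∀ v c, transv hA v c ∈ H) : MovingIn H (fun x y => B x y) := by
  intro W x y hx hy hxy' _ _
  have hxy : ∀ z ∈ W, B z y = B z x := hxy'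
  by_cases hyx : B y x = 0
  · obtain ⟨w, hwW, hxw, hyw⟩ : ∃ w, (∀ z ∈ W, B z w = 0) ∧ B x w ≠ 0 ∧ B y w ≠ 0 := by
      obtain ⟨w1, hw1, hxw1⟩ := exists_orth_nonorth hB hA W hx
      obtain ⟨w2, hw2, hyw2⟩ := exists_orth_nonorth hB hA W hy
      by_cases h1 : B y w1 = 0
      · by_cases h2 : B x w2 = 0
        · refine ⟨w1 + w2, fun z hz => ?_, ?_, ?_⟩
          · rw [map_add, hw1 z hz, hw2 z hz, add_zero]
          · rw [map_add, h2, add_zero]; exact hxw1
          · rw [map_add, h1, zero_add]; exact hyw2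
        · exact ⟨w2, hw2, h2, hyw2⟩
      · exact ⟨w1, hw1, hxw1, h1⟩
    have h1 : B y (x + w) ≠ 0 := by
      rw [map_add, hyx, zero_add]; exact hyw
    have h2 : B (x + w) x ≠ 0 := by
      rw [map_add, LinearMap.add_apply, hA x, zero_add, swap hA]; exact neg_ne_zero.mpr hxw
    refine ⟨transv hA ((x + w) - x) (B (x + w) x)⁻¹ * transv hA (y - (x + w)) (B y (x + w))⁻¹,
      mul_mem (hH _ _) (hH _ _), fun z hz => ?_, ?_⟩
    · have e1 : B z (y - (x + w)) = 0 := by
        rw [map_sub, map_add, hxy z hz, hwW z hz]; ring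
      have e2 : B z ((x + w) - x) = 0 := by
        rw [map_sub, map_add, hwW z hz]; ring
      rw [LinearEquiv.mul_apply, transv_fix hA _ e1, transv_fix hA _ e2]
    · rw [LinearEquiv.mul_apply, transv_step hA h1, transv_step hA h2]
  · refine ⟨transv hA (y - x) (B y x)⁻¹, hH _ _, fun z hz => ?_, ?_⟩
    · rw [transv_fix]
      rw [map_sub, hxy z hz]; ring
    · exact transv_step hA hyx

/-- A subgroup containing all symplectic transvections contains the isometry group. -/
theorem le_of_transv (hB : B.Nondegenerate) (hA : B.IsAlt) (H : Subgroup (V ≃ₗ[F] V))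
    (hH : ∀ v c, transv hA v c ∈ H) : Isom B ≤ H := by
  have h1 : H ⊓ Isom B = IsomOf (F := F) (fun x y => B x y) :=
    eq_IsomOf_of_movingIn inf_le_right
      (movingIn_of_transv hB hA (H ⊓ Isom B) fun v c => ⟨hH v c, transv_mem hA v c⟩)
  intro g hg
  have : g ∈ H ⊓ Isom B := by rw [h1]; exact hg
  exact this.1

theorem mem_Stab_of_fix {W : Submodule F V} {g : V ≃ₗ[F] V} (hg : g ∈ Isom B)
    (h : ∀ v ∈ W, g v = v) : g ∈ Stab B W :=
  mem_Stab_of_forall hg fun v hv => by rw [h v hv]; exact hv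

/-- Stabilising `W` is the same as stabilising its orthogonal. -/
theorem mem_Stab_of_orthogonal (hB : B.Nondegenerate) (hA : B.IsAlt) {W : Submodule F V}
    {g : V ≃ₗ[F] V} (hg : g ∈ Stab B (B.orthogonal W)) : g ∈ Stab B W := by
  apply mem_Stab_of_forall hg.1
  intro w hw
  rw [← LinearMap.BilinForm.orthogonal_orthogonal hB hA.isRefl W,
    LinearMap.BilinForm.mem_orthogonal_iff]
  intro n hn
  have e1 : g (g⁻¹ n) = n := by
    rw [← LinearEquiv.mul_apply, mul_inv_cancel]; rfl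
  have h1 : g⁻¹ n ∈ B.orthogonal W := (hg.2 _).mpr (by rw [e1]; exact hn)
  change B n (g w) = 0
  rw [← e1, hg.1]
  rw [LinearMap.BilinForm.mem_orthogonal_iff] at h1
  rw [swap hA]
  have := h1 w hw
  change B w (g⁻¹ n) = 0 at this
  rw [this, neg_zero]

/-- The stabiliser of a totally isotropic subspace is transitive on the vectors outside the
orthogonal. -/
theorem exists_Stab_map_isotropic (hB : B.Nondegenerate) (hA : B.IsAlt) (W : Submodule F V)
    (hW : ∀ u ∈ W, ∀ v ∈ W, B u v = 0) {x y : V} (hx : ∃ w ∈ W, B w x ≠ 0)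
    (hy : ∃ w ∈ W, B w y ≠ 0) : ∃ s ∈ Stab B W, s x = y := by
  set fx : Module.Dual F W := (B.flip x) ∘ₗ W.subtype with hfx
  set fy : Module.Dual F W := (B.flip y) ∘ₗ W.subtype with hfy
  have hfxa : ∀ w : W, fx w = B (w : V) x := fun w => rfl
  have hfya : ∀ w : W, fy w = B (w : V) y := fun w => rfl
  obtain ⟨z, hzx, hzy⟩ : ∃ z : W, fx z ≠ 0 ∧ fy z ≠ 0 := by
    obtain ⟨z1, hz1, h1⟩ := hx
    obtain ⟨z2, hz2, h2⟩ := hy
    by_cases h3 : B z1 y = 0
    · by_cases h4 : B z2 x = 0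
      · refine ⟨⟨z1, hz1⟩ + ⟨z2, hz2⟩, ?_, ?_⟩
        · rw [map_add, hfxa, hfxa]
          simpa [h4] using h1
        · rw [map_add, hfya, hfya]
          simpa [h3] using h2
      · exact ⟨⟨z2, hz2⟩, h4, h2⟩
    · exact ⟨⟨z1, hz1⟩, h1, h3⟩
  have hne : 1 + ((fy z)⁻¹ • (fx - fy)) z ≠ 0 := by
    have : 1 + ((fy z)⁻¹ • (fx - fy)) z = (fy z)⁻¹ * fx z := by
      simp only [LinearMap.smul_apply, LinearMap.sub_apply, smul_eq_mul]
      field_simp
      ring
    rw [this]
    exact mul_ne_zero (inv_ne_zero hzy) hzx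
  set A := GLin.dil ((fy z)⁻¹ • (fx - fy)) z hne with hAdef
  have hAy : ∀ w : W, fy (A w) = fx w := by
    intro w
    rw [hAdef, GLin.dil_apply, map_add, map_smul]
    simp only [LinearMap.smul_apply, LinearMap.sub_apply, smul_eq_mul]
    field_simp
    ring
  obtain ⟨s1, hs1⟩ := resHom_surjective_of_isotropic hB hA W hW A
  have hs1w : ∀ w : W, s1.1 (w : V) = (A w : V) := by
    intro w
    rw [← hs1]; rfl
  have hxW : x ∉ W := by
    intro h
    obtain ⟨w, hw, h1⟩ := hx
    exact h1 (hW w hw x h)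
  have hyW : y ∉ W := by
    intro h
    obtain ⟨w, hw, h1⟩ := hy
    exact h1 (hW w hw y h)
  obtain ⟨g2, hg2, hg2W, hg2x⟩ := exists_fix_map hB hA W (x := y) (y := s1.1 x) hyW
    (fun h => hxW ((s1.2.2 x).mpr h)) (by
      intro w' hw'
      obtain ⟨w, hw⟩ := A.surjective ⟨w', hw'⟩
      have e1 : w' = s1.1 (w : V) := by rw [hs1w, hw]
      rw [e1, s1.2.1, hs1w]
      exact (hAy w).symm)
  exact ⟨g2 * s1.1, mul_mem (mem_Stab_of_fix hg2 hg2W) s1.2, hg2x⟩

/-- The stabiliser of a non-zero totally isotropic subspace is maximal. -/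
theorem isotropic_maximal (hB : B.Nondegenerate) (hA : B.IsAlt) (W : Submodule F V) (hW0 : W ≠ ⊥)
    (hW : ∀ u ∈ W, ∀ v ∈ W, B u v = 0) :
    Stab B W < Isom B ∧ ∀ M : Subgroup (V ≃ₗ[F] V), Stab B W ≤ M → M ≤ Isom B →
      M = Stab B W ∨ M = Isom B := by
  have hle : Stab B W ≤ Isom B := fun g hg => hg.1
  constructor
  · refine lt_of_le_of_ne hle fun heq => ?_
    obtain ⟨w, hw, hw0⟩ := (Submodule.ne_bot_iff _).mp hW0
    obtain ⟨y, hy⟩ : ∃ y, B w y ≠ 0 := by
      by_contra h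
      push Not at h
      exact hw0 (hB.1 w h)
    have h1 : transv hA y 1 ∈ Stab B W := by rw [heq]; exact transv_mem hA y 1
    have h2 := (h1.2 w).mp hw
    rw [transv_apply, one_mul] at h2
    have h3 : (B w y) • y ∈ W := by
      have := W.sub_mem h2 hw
      simpa using this
    have h4 : y ∈ W := (W.smul_mem_iff hy).mp h3
    exact hy (hW w hw y h4)
  · intro M hSM hMI
    by_cases hMS : M ≤ Stab B W
    · left; exact le_antisymm hMS hSM
    right
    apply le_antisymm hMI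
    obtain ⟨g, hgM, hgS⟩ := SetLike.not_le_iff_exists.mp hMS
    have hgI := hMI hgM
    obtain ⟨x, hx, hgx⟩ : ∃ x ∈ B.orthogonal W, g x ∉ B.orthogonal W := by
      by_contra hcon
      push Not at hcon
      exact hgS (mem_Stab_of_orthogonal hB hA (mem_Stab_of_forall hgI hcon))
    have horth : ∀ y, y ∉ B.orthogonal W → ∃ w ∈ W, B w y ≠ 0 := by
      intro y hy
      by_contra hcon
      push Not at hcon
      exact hy (LinearMap.BilinForm.mem_orthogonal_iff.mpr hcon)
    have hin : ∀ y ∈ B.orthogonal W, ∀ c, transv hA y c ∈ M := by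
      intro y hy c
      apply hSM
      apply mem_Stab_of_fix (transv_mem hA y c)
      intro v hv
      exact transv_fix hA c (LinearMap.BilinForm.mem_orthogonal_iff.mp hy v hv)
    apply le_of_transv hB hA
    intro y c
    by_cases hy : y ∈ B.orthogonal W
    · exact hin y hy c
    · obtain ⟨s, hs, hsy⟩ := exists_Stab_map_isotropic hB hA W hW (horth _ hgx) (horth _ hy)
      have hsM := hSM hs
      rw [← hsy, ← conj_transv hA hs.1, ← conj_transv hA hgI]
      exact mul_mem (mul_mem hsM (mul_mem (mul_mem hgM (hin x hx c)) (inv_mem hgM))) (inv_mem hsM)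

omit [FiniteDimensional F V] in
theorem forall_or_forall_of_union (U A C : Submodule F V) (g : V →ₗ[F] V)
    (h : ∀ u ∈ U, g u ∈ A ∨ g u ∈ C) : (∀ u ∈ U, g u ∈ A) ∨ (∀ u ∈ U, g u ∈ C) := by
  by_contra hcon
  push Not at hcon
  obtain ⟨⟨a, haU, haA⟩, ⟨c, hcU, hcC⟩⟩ := hcon
  have haC : g a ∈ C := (h a haU).resolve_left haA
  have hcA : g c ∈ A := (h c hcU).resolve_right hcC
  rcases h (a + c) (U.add_mem haU hcU) with h1 | h1
  · rw [map_add] at h1
    exact haA (by simpa using A.sub_mem h1 hcA)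
  · rw [map_add] at h1
    exact hcC (by simpa using C.sub_mem h1 haC)

/-- The stabiliser of a non-zero non-degenerate subspace of less than half the dimension is
maximal. -/
theorem nondegenerate_maximal (hB : B.Nondegenerate) (hA : B.IsAlt) (W : Submodule F V)
    (hW0 : W ≠ ⊥) (hW : ∀ w ∈ W, w ≠ 0 → ∃ x ∈ W, B x w ≠ 0)
    (hdim : 2 * Module.finrank F W < Module.finrank F V) :
    Stab B W < Isom B ∧ ∀ M : Subgroup (V ≃ₗ[F] V), Stab B W ≤ M → M ≤ Isom B →
      M = Stab B W ∨ M = Isom B := by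
  have hle : Stab B W ≤ Isom B := fun g hg => hg.1
  set P := B.orthogonal W with hP
  have hPmem : ∀ {p}, p ∈ P ↔ ∀ w ∈ W, B w p = 0 := LinearMap.BilinForm.mem_orthogonal_iff
  have hdisj : ∀ v, v ∈ W → v ∈ P → v = 0 := by
    intro v hv hvP
    by_contra h0
    obtain ⟨x, hx, hxv⟩ := hW v hv h0
    exact hxv (hPmem.mp hvP x hx)
  have hPfr : Module.finrank F P = Module.finrank F V - Module.finrank F W :=
    LinearMap.BilinForm.finrank_orthogonal hB W
  have hsup : W ⊔ P = ⊤ := by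
    apply Submodule.eq_top_of_finrank_eq
    have h1 := Submodule.finrank_sup_add_finrank_inf_eq W P
    have h2 : W ⊓ P = ⊥ := by
      rw [eq_bot_iff]
      intro v hv
      exact (Submodule.mem_bot F).mpr (hdisj v hv.1 hv.2)
    rw [h2, finrank_bot] at h1
    have := Submodule.finrank_le W
    omega
  have hdec : ∀ v : V, ∃ w ∈ W, ∃ p ∈ P, v = w + p := by
    intro v
    have : v ∈ W ⊔ P := by rw [hsup]; exact Submodule.mem_top
    obtain ⟨w, hw, p, hp, h⟩ := Submodule.mem_sup.mp this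
    exact ⟨w, hw, p, hp, h.symm⟩
  have hWP : ∀ w ∈ W, ∀ p ∈ P, B p w = 0 := fun w hw p hp => by
    rw [swap hA, hPmem.mp hp w hw, neg_zero]
  have hinS : ∀ y, (y ∈ W ∨ y ∈ P) → ∀ c, transv hA y c ∈ Stab B W := by
    intro y hy c
    rcases hy with hy | hy
    · apply mem_Stab_of_forall (transv_mem hA y c)
      intro v hv
      rw [transv_apply]
      exact W.add_mem hv (W.smul_mem _ hy)
    · apply mem_Stab_of_fix (transv_mem hA y c)
      intro v hv
      exact transv_fix hA c (hPmem.mp hy v hv)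
  -- transitivity on the mixed vectors
  have htrans : ∀ x y, x ∉ W → x ∉ P → y ∉ W → y ∉ P → ∃ s ∈ Stab B W, s x = y := by
    intro x y hxW hxP hyW hyP
    obtain ⟨w0, hw0, p0, hp0, rfl⟩ := hdec x
    obtain ⟨w, hw, p, hp, rfl⟩ := hdec y
    have hn : ∀ {a b : V}, a ∈ W → b ∈ P → a + b ∉ W → a + b ∉ P → a ∉ P ∧ b ∉ W := by
      intro a b ha hb h1 h2
      constructor
      · intro h
        exact h2 (P.add_mem h hb)
      · intro h
        exact h1 (W.add_mem ha h)
    obtain ⟨h1, h2⟩ := hn hw0 hp0 hxW hxP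
    obtain ⟨h3, h4⟩ := hn hw hp hyW hyP
    obtain ⟨g1, hg1, hg1P, hg1w⟩ := exists_fix_map hB hA P (x := w) (y := w0) h3 h1
      (fun z hz => by rw [hWP w0 hw0 z hz, hWP w hw z hz])
    obtain ⟨g2, hg2, hg2W, hg2p⟩ := exists_fix_map hB hA W (x := p) (y := p0) h4 h2
      (fun z hz => by rw [hPmem.mp hp0 z hz, hPmem.mp hp z hz])
    refine ⟨g2 * g1, mul_mem (mem_Stab_of_fix hg2 hg2W)
      (mem_Stab_of_orthogonal hB hA (mem_Stab_of_fix hg1 hg1P)), ?_⟩
    rw [LinearEquiv.mul_apply, map_add, hg1w, hg1P p0 hp0, map_add, hg2W w hw, hg2p]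
  obtain ⟨w1, hw1, hw10⟩ := (Submodule.ne_bot_iff _).mp hW0
  have hP0 : P ≠ ⊥ := by
    intro h
    rw [h, finrank_bot] at hPfr
    omega
  obtain ⟨p1, hp1, hp10⟩ := (Submodule.ne_bot_iff _).mp hP0
  constructor
  · refine lt_of_le_of_ne hle fun heq => ?_
    obtain ⟨x, hx, hxw⟩ := hW w1 hw1 hw10
    have h1 : transv hA (w1 + p1) 1 ∈ Stab B W := by rw [heq]; exact transv_mem hA _ 1
    have h2 := (h1.2 x).mp hx
    rw [transv_apply, one_mul, map_add, hPmem.mp hp1 x hx, add_zero] at h2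
    have h3 : (B x w1) • (w1 + p1) ∈ W := by
      have := W.sub_mem h2 hx
      simpa using this
    have h4 : w1 + p1 ∈ W := (W.smul_mem_iff hxw).mp h3
    have h5 : p1 ∈ W := by simpa using W.sub_mem h4 hw1
    exact hp10 (hdisj p1 h5 hp1)
  · intro M hSM hMI
    by_cases hMS : M ≤ Stab B W
    · left; exact le_antisymm hMS hSM
    right
    apply le_antisymm hMI
    obtain ⟨g, hgM, hgS⟩ := SetLike.not_le_iff_exists.mp hMS
    have hgI := hMI hgM
    obtain ⟨x, hx, hgxW, hgxP⟩ : ∃ x, (x ∈ W ∨ x ∈ P) ∧ g x ∉ W ∧ g x ∉ P := by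
      by_contra hcon
      push Not at hcon
      have hW' : ∀ u ∈ W, g.toLinearMap u ∈ W ∨ g.toLinearMap u ∈ P := fun u hu => by
        by_cases h : g u ∈ W
        · exact Or.inl h
        · exact Or.inr (hcon u (Or.inl hu) h)
      have hP' : ∀ u ∈ P, g.toLinearMap u ∈ W ∨ g.toLinearMap u ∈ P := fun u hu => by
        by_cases h : g u ∈ W
        · exact Or.inl h
        · exact Or.inr (hcon u (Or.inr hu) h)
      rcases forall_or_forall_of_union W W P g.toLinearMap hW' with h1 | h1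
      · exact hgS (mem_Stab_of_forall hgI h1)
      rcases forall_or_forall_of_union P W P g.toLinearMap hP' with h2 | h2
      · have hle2 : P.map g.toLinearMap ≤ W := by
          rintro _ ⟨p, hp, rfl⟩
          exact h2 p hp
        have h3 := Submodule.finrank_mono hle2
        rw [LinearEquiv.finrank_map_eq g P] at h3
        omega
      · have h3 : g ∈ Stab B P := mem_Stab_of_forall hgI h2
        exact hw10 (hdisj w1 hw1 ((h3.2 w1).mpr (h1 w1 hw1)))
    apply le_of_transv hB hA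
    intro y c
    by_cases hy : y ∈ W ∨ y ∈ P
    · exact hSM (hinS y hy c)
    · push Not at hy
      obtain ⟨s, hs, hsy⟩ := htrans (g x) y hgxW hgxP hy.1 hy.2
      have hsM := hSM hs
      rw [← hsy, ← conj_transv hA hs.1, ← conj_transv hA hgI]
      exact mul_mem (mul_mem hsM (mul_mem (mul_mem hgM (hSM (hinS x hx c))) (inv_mem hgM)))
        (inv_mem hsM)

end Cfsg.Agent.H6.Alt
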