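import Cfsg.Agent.Lib_helper6_AltMax
import Cfsg.Agent.Lib_helper6_SympIsom

/-! Rank one isometries of alternating forms are transvections; centralisers of transvections. -/

set_option autoImplicit false

namespace Cfsg.Agent.H6.Alt

variable {F V : Type*} [Field F] [AddCommGroup V] [Module F V] {B : LinearMap.BilinForm F V}

theorem eq_transv_of_rank_one (hB : B.Nondegenerate) (hA : B.IsAlt) {g : V ≃ₗ[F] V}
    (hg : g ∈ Isom B)
    (h : Module.finrank F (LinearMap.range (g.toLinearMap - LinearMap.id)) = 1) :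
    ∃ (v : V) (c : F), v ≠ 0 ∧ c ≠ 0 ∧ g = transv hA v c := by
  obtain ⟨⟨u, hu⟩, hu0, hspan⟩ := finrank_eq_one_iff'.mp h
  have hu0' : u ≠ 0 := fun h0 => hu0 (Subtype.ext h0)
  have hex : ∀ x, ∃ a : F, a • u = g x - x := by
    intro x
    obtain ⟨a, ha⟩ := hspan ⟨g x - x, ⟨x, by simp⟩⟩
    exact ⟨a, congrArg Subtype.val ha⟩
  choose φ hφ using hex
  have hgx : ∀ x, g x = x + φ x • u := fun x => by rw [hφ]; abel
  have key : ∀ x y, φ y * B x u + φ x * B u y = 0 := by
    intro x y
    have := hg x y
    rw [hgx x, hgx y] at this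
    simp only [map_add, map_smul, LinearMap.add_apply, LinearMap.smul_apply, smul_eq_mul, hA u,
      mul_zero, add_zero] at this
    linear_combination this
  obtain ⟨y0, hy0⟩ := hu
  have hφy0 : φ y0 = 1 := by
    have h1 : φ y0 • u = (1 : F) • u := by
      rw [hφ, one_smul, ← hy0]; simp
    exact smul_left_injective F hu0' h1
  have h2 : ∀ x, B x u = φ x * B y0 u := by
    intro x
    have := key x y0
    rw [hφy0, one_mul, swap hA u y0] at this
    linear_combination this
  have hc : B y0 u ≠ 0 := by
    intro h0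
    apply hu0'
    apply hB.2
    intro x
    rw [h2, h0, mul_zero]
  refine ⟨u, (B y0 u)⁻¹, hu0', inv_ne_zero hc, ?_⟩
  ext x
  rw [transv_apply, hgx, h2 x, mul_comm (φ x), inv_mul_cancel_left₀ hc]

theorem transv_ne_one (hB : B.Nondegenerate) (hA : B.IsAlt) {v : V} {c : F} (hv : v ≠ 0)
    (hc : c ≠ 0) : transv hA v c ≠ 1 := by
  intro h
  obtain ⟨x, hx⟩ : ∃ x, B x v ≠ 0 := by
    by_contra hcon
    push Not at hcon
    exact hv (hB.2 v hcon)
  have := congrArg (fun g : V ≃ₗ[F] V => g x) h
  simp only [transv_apply, LinearEquiv.coe_one, id_eq, add_eq_left, smul_eq_zero, mul_eq_zero] at this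
  tauto

theorem transv_mul_transv (hA : B.IsAlt) (v : V) (c d : F) :
    transv hA v c * transv hA v d = transv hA v (c + d) := by
  ext x
  rw [LinearEquiv.mul_apply, transv_apply, transv_apply, transv_apply]
  simp only [map_add, map_smul, LinearMap.add_apply, LinearMap.smul_apply, hA v, smul_zero,
    add_zero]
  module

theorem transv_zero (hA : B.IsAlt) (v : V) : transv hA v 0 = 1 := by
  ext x
  rw [transv_apply]; simp

theorem rank_transv (hB : B.Nondegenerate) (hA : B.IsAlt) {v : V} {c : F} (hv : v ≠ 0)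
    (hc : c ≠ 0) :
    Module.finrank F (LinearMap.range ((transv hA v c).toLinearMap - LinearMap.id)) = 1 := by
  have : LinearMap.range ((transv hA v c).toLinearMap - LinearMap.id) = Submodule.span F {v} := by
    apply le_antisymm
    · rintro _ ⟨x, rfl⟩
      simp only [LinearMap.sub_apply, LinearEquiv.coe_coe, transv_apply, LinearMap.id_apply,
        add_sub_cancel_left]
      exact Submodule.smul_mem _ _ (Submodule.mem_span_singleton_self v)
    · rw [Submodule.span_singleton_le_iff_mem]
      obtain ⟨x, hx⟩ : ∃ x, B x v ≠ 0 := by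
        by_contra hcon
        push Not at hcon
        exact hv (hB.2 v hcon)
      refine ⟨(c * B x v)⁻¹ • x, ?_⟩
      simp only [LinearMap.sub_apply, LinearEquiv.coe_coe, transv_apply, LinearMap.id_apply,
        add_sub_cancel_left, map_smul]
      rw [smul_smul, inv_mul_cancel₀ (mul_ne_zero hc hx), one_smul]
  rw [this, finrank_span_singleton hv]

/-- In characteristic two, the centraliser of a transvection is the stabiliser of its centre. -/
theorem commute_transv_iff [CharP F 2] (hB : B.Nondegenerate) (hA : B.IsAlt) {g : V ≃ₗ[F] V}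
    (hg : g ∈ Isom B) {v : V} {c : F} (hv : v ≠ 0) (hc : c ≠ 0) :
    g * transv hA v c = transv hA v c * g ↔ g v = v := by
  have hconj := conj_transv hA hg v c
  constructor
  · intro h
    have h1 : transv hA (g v) c = transv hA v c := by
      rw [← hconj, h, mul_inv_cancel_right]
    obtain ⟨x, hx⟩ : ∃ x, B x v ≠ 0 := by
      by_contra hcon
      push Not at hcon
      exact hv (hB.2 v hcon)
    have h2 : ∀ x, (c * B x (g v)) • g v = (c * B x v) • v := by
      intro x
      have := congrArg (fun k : V ≃ₗ[F] V => k x) h1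
      simpa only [transv_apply, add_right_inj] using this
    have h3 : v = ((c * B x v)⁻¹ * (c * B x (g v))) • g v := by
      rw [mul_smul, h2, smul_smul, inv_mul_cancel₀ (mul_ne_zero hc hx), one_smul]
    set l := (c * B x v)⁻¹ * (c * B x (g v)) with hl
    have hl0 : l ≠ 0 := by
      intro h0
      rw [h0, zero_smul] at h3
      exact hv h3
    have h4 : g v = l⁻¹ • v := by
      rw [h3, smul_smul, inv_mul_cancel₀ hl0, one_smul, ← h3]
    have h5 := h2 x
    rw [h4, map_smul, smul_smul, smul_eq_mul] at h5
    have h6 : c * (l⁻¹ * B x v) * l⁻¹ = c * B x v := smul_left_injective F hv h5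
    have h7 : l⁻¹ * l⁻¹ = 1 := by
      have : (c * B x v) * (l⁻¹ * l⁻¹ - 1) = 0 := by linear_combination h6
      rcases mul_eq_zero.mp this with h | h
      · exact absurd h (mul_ne_zero hc hx)
      · exact sub_eq_zero.mp h
    have h8 : l⁻¹ = 1 := by
      have : (l⁻¹ + 1) ^ 2 = 0 := by
        rw [CharTwo.add_sq, pow_two, h7, one_pow, CharTwo.add_self_eq_zero]
      exact CharTwo.add_eq_zero.mp (pow_eq_zero_iff two_ne_zero |>.mp this)
    rw [h4, h8, one_smul]
  · intro h
    rw [h] at hconj
    conv_rhs => rw [← hconj]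
    group

end Cfsg.Agent.H6.Alt

namespace Cfsg.Agent.H6

theorem rank_sub_one_eq {F : Type*} [Field F] {ι : Type*} [Fintype ι] [DecidableEq ι]
    (M : Matrix ι ι F) (g : (ι → F) ≃ₗ[F] (ι → F)) (h : ∀ x, g x = M.mulVec x) :
    (M - 1).rank = Module.finrank F (LinearMap.range (g.toLinearMap - LinearMap.id)) := by
  have : (M - 1).mulVecLin = g.toLinearMap - LinearMap.id := by
    ext1 x
    apply LinearMap.ext
    intro y
    simp [h]
  rw [Matrix.rank, this]

end Cfsg.Agent.H6
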