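import Cfsg.Agent.Lib_helper6_ReflProd
import Cfsg.Agent.Lib_helper6_Spinor3

/-! Gram determinants (discriminants) and orthogonal bases. -/

set_option autoImplicit false

namespace Cfsg.Agent.H6.Quad

variable {F V : Type*} [Field F] [AddCommGroup V] [Module F V]

/-- The Gram matrix of a family. -/
def gram {ι : Type*} (B : LinearMap.BilinForm F V) (b : ι → V) : Matrix ι ι F :=
  Matrix.of fun i j => B (b i) (b j)

theorem gram_apply {ι : Type*} (B : LinearMap.BilinForm F V) (b : ι → V) (i j : ι) :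
    gram B b i j = B (b i) (b j) := rfl

theorem gram_eq_toMatrix {ι : Type*} [Fintype ι] [DecidableEq ι] (B : LinearMap.BilinForm F V)
    (b : Module.Basis ι F V) : gram B b = LinearMap.BilinForm.toMatrix b B := by
  ext i j
  rw [gram_apply, LinearMap.BilinForm.toMatrix_apply]

/-- Change of basis multiplies the Gram determinant by a non-zero square. -/
theorem exists_det_gram_eq {ι κ : Type*} [Fintype ι] [DecidableEq ι] [Fintype κ] [DecidableEq κ]
    (B : LinearMap.BilinForm F V) (b : Module.Basis ι F V) (c : Module.Basis κ F V) :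
    ∃ s : F, s ≠ 0 ∧ (gram B c).det = s * s * (gram B b).det := by
  set e : κ ≃ ι := c.indexEquiv b with he
  set c' : Module.Basis ι F V := c.reindex e with hc'
  have h1 : gram B c' = (gram B c).submatrix e.symm e.symm := by
    ext i j
    simp [gram_apply, hc']
  have h2 := LinearMap.BilinForm.toMatrix_mul_basis_toMatrix b c' B
  rw [← gram_eq_toMatrix, ← gram_eq_toMatrix, h1] at h2
  have h3 := congrArg Matrix.det h2
  rw [Matrix.det_submatrix_equiv_self, Matrix.det_mul, Matrix.det_mul, Matrix.det_transpose] at h3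
  refine ⟨(b.toMatrix c').det, ?_, ?_⟩
  · have := b.toMatrix_mul_toMatrix_flip c'
    intro h0
    have h4 := congrArg Matrix.det this
    rw [Matrix.det_mul, h0, zero_mul, Matrix.det_one] at h4
    exact zero_ne_one h4
  · rw [← h3]; ring

theorem isSquare_det_gram_iff {ι κ : Type*} [Fintype ι] [DecidableEq ι] [Fintype κ] [DecidableEq κ]
    (B : LinearMap.BilinForm F V) (b : Module.Basis ι F V) (c : Module.Basis κ F V) :
    IsSquare (gram B c).det ↔ IsSquare (gram B b).det := by
  obtain ⟨s, hs, h⟩ := exists_det_gram_eq B b c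
  rw [h]
  exact isSquare_mul_iff_of_sq (mul_ne_zero hs hs) ⟨s, rfl⟩

variable {Q : QuadraticForm F V} [FiniteDimensional F V]

theorem exists_orthogonal_basis (h2 : (2 : F) ≠ 0) (hQ : (pol Q).Nondegenerate) :
    ∃ v : Module.Basis (Fin (Module.finrank F V)) F V,
      (∀ i j, i ≠ j → pol Q (v i) (v j) = 0) ∧ ∀ i, Q (v i) ≠ 0 := by
  have : Invertible (2 : F) := invertibleOfNonzero h2
  obtain ⟨v, hv⟩ := LinearMap.BilinForm.exists_orthogonal_basis (B := pol Q)
    ⟨fun x y => pol_comm x y⟩
  refine ⟨v, fun i j hij => hv hij, fun i h0 => ?_⟩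
  have := hv.not_isOrtho_basis_self_of_separatingLeft hQ.1 i
  apply this
  rw [pol_self, h0, mul_zero]

theorem det_gram_orthogonal {ι : Type*} [Fintype ι] [DecidableEq ι] (v : ι → V)
    (hv : ∀ i j, i ≠ j → pol Q (v i) (v j) = 0) :
    (gram (pol Q) v).det = 2 ^ Fintype.card ι * ∏ i, Q (v i) := by
  have : gram (pol Q) v = Matrix.diagonal fun i => 2 * Q (v i) := by
    ext i j
    rw [gram_apply]
    by_cases hij : i = j
    · subst hij
      rw [pol_self, Matrix.diagonal_apply_eq]
    · rw [hv i j hij, Matrix.diagonal_apply_ne _ hij]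
  rw [this, Matrix.det_diagonal, Finset.prod_mul_distrib]
  simp

theorem sum_orthogonal_basis (hQ : (pol Q).Nondegenerate) {ι : Type*} [Fintype ι]
    (v : Module.Basis ι F V) (hv : ∀ i j, i ≠ j → pol Q (v i) (v j) = 0) (hv0 : ∀ i, Q (v i) ≠ 0)
    (x : V) : ∑ i, (pol Q x (v i) / Q (v i)) • v i = (2 : F) • x := by
  classical
  rw [← sub_eq_zero]
  apply hQ.1
  intro y
  have : pol Q (∑ i, (pol Q x (v i) / Q (v i)) • v i - (2 : F) • x) = 0 := by
    apply v.ext
    intro j
    rw [map_sub, LinearMap.sub_apply, map_sum, LinearMap.sum_apply, Finset.sum_eq_single j]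
    · simp only [map_smul, LinearMap.smul_apply, pol_self, smul_eq_mul, LinearMap.zero_apply]
      have := hv0 j
      field_simp
      ring
    · intro i _ hij
      rw [map_smul, LinearMap.smul_apply, hv i j hij, smul_zero]
    · intro h; exact absurd (Finset.mem_univ _) h
  rw [this]; rfl

/-- `-1 ∈ Ω` in terms of the discriminant. -/
theorem negO_mem_commutator_iff [Finite F] (h2 : (2 : F) ≠ 0) (hQ : (pol Q).Nondegenerate)
    (hd : 2 ≤ Module.finrank F V) (he : Even (Module.finrank F V)) {ι : Type*} [Fintype ι]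
    [DecidableEq ι] (b : Module.Basis ι F V) :
    negO Q ∈ commutator (IsomOf (F := F) (bet Q)) ↔ IsSquare (gram (pol Q) b).det := by
  obtain ⟨v, hv, hv0⟩ := exists_orthogonal_basis h2 hQ
  have h1 : negO Q = ((List.ofFn v).map (Rf' hQ)).prod := by
    apply Subtype.ext
    ext1 x
    rw [prod_ofFn_Rf'_apply hQ v hv0 hv, sum_orthogonal_basis hQ v hv hv0, negO_apply, two_smul]
    abel
  rw [h1, prod_ofFn_mem_commutator_iff h2 hQ hd v hv0, isSquare_det_gram_iff (pol Q) v b,
    det_gram_orthogonal v hv, Fintype.card_fin]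
  obtain ⟨k, hk⟩ := he
  have h3 : IsSquare ((2 : F) ^ Module.finrank F V) := ⟨2 ^ k, by rw [hk, pow_add]⟩
  rw [isSquare_mul_iff_of_sq (pow_ne_zero _ h2) h3]
  constructor
  · exact fun h => h.2
  · exact fun h => ⟨⟨k, hk⟩, h⟩

end Cfsg.Agent.H6.Quad

namespace Cfsg.Agent.H6.Quad

variable {F : Type*} [Field F] {ι : Type} [Fintype ι] [DecidableEq ι]

/-- Matrix version: `-1 ∈ Ω` iff the discriminant in any basis is a square. -/
theorem exists_neg_one_mem_Omega_iff [Finite F] (h2 : (2 : F) ≠ 0) (Q : QuadraticForm F (ι → F))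
    (hQ : (pol Q).Nondegenerate) (hd : 2 ≤ Fintype.card ι) (he : Even (Fintype.card ι))
    (Qf : (ι → F) → F) (hQf : ∀ v, Q v = Qf v) {κ : Type*} [Fintype κ] [DecidableEq κ]
    (b : Module.Basis κ F (ι → F)) :
    (∃ g : Cfsg.isometryGroup F Qf, g ∈ Cfsg.Omega F Qf ∧
      ((g : Matrix.GeneralLinearGroup ι F) : Matrix ι ι F) = -1) ↔
    IsSquare (Matrix.of (fun i j : κ => QuadraticMap.polar Qf (b i) (b j))).det := by
  obtain rfl : Qf = ⇑Q := by funext v; rw [hQf]
  rw [exists_mem_Omega_iff Q ⇑Q hQf (negO Q) (-1) (by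
    intro x
    rw [negO_apply, Matrix.neg_mulVec, Matrix.one_mulVec]),
    negO_mem_commutator_iff h2 hQ (by simpa using hd) (by simpa using he) b]
  rfl

theorem pow_mod_four_eq_one_iff {q : ℕ} (hq : Odd q) (m : ℕ) :
    q ^ m % 4 = 1 ↔ Even (m * (q - 1) / 2) := by
  obtain ⟨k, rfl⟩ := hq
  have e : m * (2 * k + 1 - 1) / 2 = m * k := by
    rw [Nat.add_sub_cancel, mul_comm 2 k, ← mul_assoc, Nat.mul_div_cancel _ (by norm_num)]
  rw [e]
  clear e
  have key : (2 * k + 1) ^ m % 4 = (1 + 2 * (m * k)) % 4 := by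
    induction m with
    | zero => simp
    | succ m ih =>
      rw [pow_succ, Nat.mul_mod, ih, ← Nat.mul_mod]
      have : (1 + 2 * (m * k)) * (2 * k + 1) = 1 + 2 * ((m + 1) * k) + 4 * (m * k * k) := by ring
      rw [this, Nat.add_mul_mod_self_left]
  rw [key, Nat.even_iff]
  omega

end Cfsg.Agent.H6.Quad
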