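import Cfsg.Statements.S0756


set_option autoImplicit false
open Cfsg

namespace Cfsg.Agent.S0756

theorem exists_sq_sum {F : Type*} [Field F] [Finite F] (h2 : (2 : F) ≠ 0) {a b : F} (ha : a ≠ 0)
    (hb : b ≠ 0) : ∃ x y : F, a * x ^ 2 + b * y ^ 2 = 1 := by
  classical
  have := Fintype.ofFinite F
  have hodd : Fintype.card F % 2 = 1 := by
    apply FiniteField.odd_card_of_char_ne_two
    intro hchar
    apply h2
    have := ringChar.Nat.cast_ringChar (R := F)
    rw [hchar] at this
    exact_mod_cast this
  obtain ⟨x, y, hab⟩ := FiniteField.exists_root_sum_quadratic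
    (f := Polynomial.C a * Polynomial.X ^ 2)
    (g := Polynomial.C b * Polynomial.X ^ 2 - Polynomial.C 1)
    (Polynomial.degree_C_mul_X_pow 2 ha)
    (by
      rw [Polynomial.degree_sub_C (by rw [Polynomial.degree_C_mul_X_pow 2 hb]; norm_num),
        Polynomial.degree_C_mul_X_pow 2 hb]
      rfl) hodd
  simp only [Polynomial.eval_mul, Polynomial.eval_C, Polynomial.eval_pow, Polynomial.eval_X,
    Polynomial.eval_sub] at hab
  exact ⟨x, y, by linear_combination hab⟩

theorem exists_scale {F : Type*} [Field F] [Finite F] (h2 : (2 : F) ≠ 0) {α : F}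
    (hα : ¬ IsSquare α) {a : F} (ha : a ≠ 0) : ∃ c : F, c ^ 2 * a = 1 ∨ c ^ 2 * a = α := by
  classical
  have := Fintype.ofFinite F
  have hchar : ringChar F ≠ 2 := by
    intro hchar
    apply h2
    have := ringChar.Nat.cast_ringChar (R := F)
    rw [hchar] at this
    exact_mod_cast this
  by_cases hs : IsSquare a
  · obtain ⟨d, rfl⟩ := hs
    have hd : d ≠ 0 := fun h => ha (by rw [h, mul_zero])
    exact ⟨d⁻¹, Or.inl (by field_simp)⟩
  · have hα0 : α ≠ 0 := fun h => hα (h ▸ IsSquare.zero)
    have h1 : IsSquare (α * a) := by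
      have h3 : quadraticChar F (α * a) = 1 := by
        rw [map_mul, (quadraticChar_neg_one_iff_not_isSquare).mpr hα,
          (quadraticChar_neg_one_iff_not_isSquare).mpr hs]
        norm_num
      exact (quadraticChar_one_iff_isSquare (mul_ne_zero hα0 ha)).mp h3
    obtain ⟨d, hd⟩ := h1
    refine ⟨d * a⁻¹, Or.inr ?_⟩
    have : (d * a⁻¹) ^ 2 * a = (d * d) * a⁻¹ := by field_simp
    rw [this, ← hd]
    field_simp

theorem normalise {F V : Type*} [Field F] [Finite F] [AddCommGroup V] [Module F V]
    (h2 : (2 : F) ≠ 0) (B : LinearMap.BilinForm F V) (hS : B.IsSymm) (α : F)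
    (hα : ¬ IsSquare α) (n : ℕ) : ∀ e : Fin (n + 1) → V, (∀ i j, i ≠ j → B (e i) (e j) = 0) →
      (∀ i, B (e i) (e i) ≠ 0) → ∃ e' : Fin (n + 1) → V, (∀ i j, i ≠ j → B (e' i) (e' j) = 0) ∧
        (∀ i, i ≠ Fin.last n → B (e' i) (e' i) = 1) ∧
        (B (e' (Fin.last n)) (e' (Fin.last n)) = 1 ∨ B (e' (Fin.last n)) (e' (Fin.last n)) = α) ∧
        ∀ w, (∀ i, B w (e i) = 0) → ∀ i, B w (e' i) = 0 := by
  induction n with
  | zero =>
    intro e _ he
    obtain ⟨c, hc⟩ := exists_scale h2 hα (he 0)
    have hsub : ∀ i j : Fin (0 + 1), i = j := fun i j => by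
      apply Fin.ext; omega
    refine ⟨fun _ => c • e 0, fun i j hij => absurd (hsub i j) hij,
      fun i hi => absurd (hsub i _) hi, ?_, fun w hw i => ?_⟩
    · simp only [map_smul, LinearMap.smul_apply, smul_eq_mul]
      rw [← mul_assoc, ← pow_two]
      exact hc
    · simp only [map_smul, hw 0, smul_zero]
  | succ n ih =>
    intro e he hd
    obtain ⟨x, y, hxy⟩ := exists_sq_sum h2 (hd 0) (hd 1)
    set a := B (e 0) (e 0) with ha
    set b := B (e 1) (e 1) with hb
    have h01 : B (e 0) (e 1) = 0 := he 0 1 (by simp)
    have h10 : B (e 1) (e 0) = 0 := he 1 0 (by simp)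
    set u := x • e 0 + y • e 1 with hu
    set u' := (-(b * y)) • e 0 + (a * x) • e 1 with hu'
    have huu : B u u = 1 := by
      simp only [hu, map_add, map_smul, LinearMap.add_apply, LinearMap.smul_apply, smul_eq_mul,
        h01, h10, ← ha, ← hb]
      linear_combination hxy
    have huu' : B u u' = 0 := by
      simp only [hu, hu', map_add, map_smul, LinearMap.add_apply, LinearMap.smul_apply, smul_eq_mul,
        h01, h10, ← ha, ← hb]
      ring
    have hu'u' : B u' u' = a * b := by
      simp only [hu', map_add, map_smul, LinearMap.add_apply, LinearMap.smul_apply, smul_eq_mul,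
        h01, h10, ← ha, ← hb]
      linear_combination (a * b) * hxy
    have hsymm : ∀ p q, B p q = 0 → B q p = 0 := fun p q h => by
      rw [← hS.eq]; simpa using h
    have hue : ∀ i : Fin n, B u (e i.succ.succ) = 0 := by
      intro i
      simp only [hu, map_add, map_smul, LinearMap.add_apply, LinearMap.smul_apply, smul_eq_mul]
      rw [he 0 i.succ.succ (Fin.succ_ne_zero _).symm, he 1 i.succ.succ (by
        intro h
        have : (0 : Fin (n + 1)) = i.succ := Fin.succ_injective _ (by simpa using h)
        exact (Fin.succ_ne_zero _).symm this)]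
      simp
    have hu'e : ∀ i : Fin n, B u' (e i.succ.succ) = 0 := by
      intro i
      simp only [hu', map_add, map_smul, LinearMap.add_apply, LinearMap.smul_apply, smul_eq_mul]
      rw [he 0 i.succ.succ (Fin.succ_ne_zero _).symm, he 1 i.succ.succ (by
        intro h
        have : (0 : Fin (n + 1)) = i.succ := Fin.succ_injective _ (by simpa using h)
        exact (Fin.succ_ne_zero _).symm this)]
      simp
    obtain ⟨e'', h1, h2', h3, h4⟩ := ih (Fin.cons u' (fun i => e i.succ.succ)) (by
      intro i j
      refine Fin.cases ?_ (fun i => ?_) i <;> refine Fin.cases ?_ (fun j => ?_) j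
      · intro h; exact absurd rfl h
      · intro _; simpa using hu'e j
      · intro _; simpa using hsymm _ _ (hu'e i)
      · intro h
        simp only [Fin.cons_succ]
        exact he _ _ (fun h' => h (by simpa using h'))) (by
      intro i
      refine Fin.cases ?_ (fun i => ?_) i
      · simp only [Fin.cons_zero, hu'u']; exact mul_ne_zero (hd 0) (hd 1)
      · simp only [Fin.cons_succ]; exact hd _)
    have hue'' : ∀ i, B u (e'' i) = 0 := h4 u (by
      intro i
      refine Fin.cases ?_ (fun i => ?_) i
      · simpa using huu'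
      · simpa using hue i)
    refine ⟨Fin.cons u e'', ?_, ?_, ?_, ?_⟩
    · intro i j
      refine Fin.cases ?_ (fun i => ?_) i <;> refine Fin.cases ?_ (fun j => ?_) j
      · intro h; exact absurd rfl h
      · intro _; simpa using hue'' j
      · intro _; simpa using hsymm _ _ (hue'' i)
      · intro h
        simp only [Fin.cons_succ]
        exact h1 _ _ (fun h' => h (by rw [h']))
    · intro i
      refine Fin.cases ?_ (fun i => ?_) i
      · intro _; simpa using huu
      · intro h
        simp only [Fin.cons_succ]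
        exact h2' i (fun h' => h (by rw [h', Fin.succ_last]))
    · rw [← Fin.succ_last]
      simpa only [Fin.cons_succ] using h3
    · intro w hw i
      refine Fin.cases ?_ (fun i => ?_) i
      · simp only [Fin.cons_zero, hu, map_add, map_smul, hw, smul_zero, add_zero]
      · simp only [Fin.cons_succ]
        apply h4 w
        intro j
        refine Fin.cases ?_ (fun j => ?_) j
        · simp only [Fin.cons_zero, hu', map_add, map_smul, hw, smul_zero, add_zero]
        · simp only [Fin.cons_succ]; exact hw _

/-- Classification of symmetric bilinear forms over finite fields of odd characteristic: if B is non-degenerate symmetric on V of dimension n + 1 and α is a fixed non-square of F, there is an orthogonal basis b_0, ..., b_n with B(b_i, b_i) = 1 for i < n and B(b_n, b_n) ∈ {1, α}. -/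
theorem result {F V : Type*} [Field F] [Finite F] [AddCommGroup V] [Module F V] [FiniteDimensional F V] (h2 : (2 : F) ≠ 0) (B : LinearMap.BilinForm F V) (hS : B.IsSymm) (hB : B.Nondegenerate) {n : ℕ} (hn : Module.finrank F V = n + 1) (α : F) (hα : ¬ IsSquare α) : ∃ b : Module.Basis (Fin (n + 1)) F V, (∀ i j, i ≠ j → B (b i) (b j) = 0) ∧ (∀ i, i ≠ Fin.last n → B (b i) (b i) = 1) ∧ (B (b (Fin.last n)) (b (Fin.last n)) = 1 ∨ B (b (Fin.last n)) (b (Fin.last n)) = α) := by
  classical
  have : Invertible (2 : F) := invertibleOfNonzero h2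
  obtain ⟨v, hv⟩ := LinearMap.BilinForm.exists_orthogonal_basis (LinearMap.BilinForm.isSymm_iff.mp hS)
  have hv' : ∀ i, B (v i) (v i) ≠ 0 := fun i =>
    hv.not_isOrtho_basis_self_of_separatingLeft hB.1 i
  obtain ⟨e', h1, h2', h3, -⟩ := normalise h2 B hS α hα n (fun i => v (Fin.cast hn.symm i))
    (fun i j hij => hv (fun h => hij (by simpa using h))) (fun i => hv' _)
  have hα0 : α ≠ 0 := fun h => hα (h ▸ IsSquare.zero)
  have hd : ∀ i, B (e' i) (e' i) ≠ 0 := by
    intro i
    by_cases hi : i = Fin.last n
    · rw [hi]; rcases h3 with h | h <;> rw [h]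
      · exact one_ne_zero
      · exact hα0
    · rw [h2' i hi]; exact one_ne_zero
  have hli : LinearIndependent F e' := by
    rw [Fintype.linearIndependent_iff]
    intro g hg j
    have := congrArg (fun x => B (e' j) x) hg
    simp only [map_sum, map_smul, smul_eq_mul, map_zero] at this
    rw [Finset.sum_eq_single j (fun i _ hij => by rw [h1 j i hij.symm, mul_zero])
      (fun h => absurd (Finset.mem_univ j) h)] at this
    exact (mul_eq_zero.mp this).resolve_right (hd j)
  refine ⟨basisOfLinearIndependentOfCardEqFinrank' e' hli (by simp [hn]), ?_, ?_, ?_⟩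
  · intro i j hij
    simp only [coe_basisOfLinearIndependentOfCardEqFinrank']
    exact h1 i j hij
  · intro i hi
    simp only [coe_basisOfLinearIndependentOfCardEqFinrank']
    exact h2' i hi
  · simp only [coe_basisOfLinearIndependentOfCardEqFinrank']
    exact h3

end Cfsg.Agent.S0756
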