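import Cfsg.Agent.Lib_helper6_Disc
import Cfsg.Agent.Lib_helper6_DicksonMat
import Cfsg.Agent.S0756

/-! Classification of symmetric bilinear forms over finite fields of odd order by the discriminant,
and the discriminant criterion for maximal Witt index. -/

set_option autoImplicit false

namespace Cfsg.Agent.H6.Quad

variable {F V V' : Type*} [Field F] [AddCommGroup V] [Module F V] [AddCommGroup V'] [Module F V']

theorem det_gram_ne_zero {ι : Type*} [Fintype ι] [DecidableEq ι] {B : LinearMap.BilinForm F V}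
    (hB : B.Nondegenerate) (b : Module.Basis ι F V) : (gram B b).det ≠ 0 := by
  rw [gram_eq_toMatrix]
  exact (LinearMap.BilinForm.nondegenerate_iff_det_ne_zero b).mp hB

/-- Isometric forms have discriminants in the same square class. -/
theorem isSquare_disc_mul_of_isometry {ι κ : Type*} [Fintype ι] [DecidableEq ι] [Fintype κ]
    [DecidableEq κ] (B : LinearMap.BilinForm F V) (B' : LinearMap.BilinForm F V') (g : V ≃ₗ[F] V')
    (hg : ∀ x y, B' (g x) (g y) = B x y) (b : Module.Basis ι F V) (c : Module.Basis κ F V') :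
    IsSquare ((gram B b).det * (gram B' c).det) := by
  have h1 : gram B' (b.map g) = gram B b := by
    ext i j
    simp [gram_apply, hg]
  obtain ⟨s, hs, h⟩ := exists_det_gram_eq B' (b.map g) c
  rw [h, h1]
  exact ⟨s * (gram B b).det, by ring⟩

theorem det_gram_normal {n : ℕ} (B : LinearMap.BilinForm F V) (b : Fin (n + 1) → V)
    (h1 : ∀ i j, i ≠ j → B (b i) (b j) = 0) (h2 : ∀ i, i ≠ Fin.last n → B (b i) (b i) = 1) :
    (gram B b).det = B (b (Fin.last n)) (b (Fin.last n)) := by
  have : gram B b = Matrix.diagonal fun i => B (b i) (b i) := by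
    ext i j
    rw [gram_apply]
    by_cases hij : i = j
    · subst hij
      rw [Matrix.diagonal_apply_eq]
    · rw [h1 i j hij, Matrix.diagonal_apply_ne _ hij]
  rw [this, Matrix.det_diagonal, Fin.prod_univ_castSucc]
  rw [Finset.prod_eq_one, one_mul]
  intro i _
  exact h2 _ (Fin.castSucc_lt_last i).ne

/-- Forms of the same dimension with discriminants in the same class are isometric. -/
theorem exists_isometry_of_isSquare [Finite F] [FiniteDimensional F V] [FiniteDimensional F V']
    (h2 : (2 : F) ≠ 0) {ι κ : Type*} [Fintype ι] [DecidableEq ι] [Fintype κ] [DecidableEq κ]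
    (B : LinearMap.BilinForm F V) (B' : LinearMap.BilinForm F V') (hS : B.IsSymm) (hS' : B'.IsSymm)
    (hB : B.Nondegenerate) (hB' : B'.Nondegenerate)
    (hdim : Module.finrank F V = Module.finrank F V') (b : Module.Basis ι F V)
    (c : Module.Basis κ F V') (hsq : IsSquare ((gram B b).det * (gram B' c).det)) :
    ∃ g : V ≃ₗ[F] V', ∀ x y, B' (g x) (g y) = B x y := by
  classical
  rcases Nat.eq_zero_or_pos (Module.finrank F V) with h0 | hpos
  · have := Module.finrank_zero_iff.mp h0
    refine ⟨LinearEquiv.ofFinrankEq V V' hdim, fun x y => ?_⟩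
    rw [Subsingleton.elim x 0]; simp
  obtain ⟨n, hn⟩ : ∃ n, Module.finrank F V = n + 1 := ⟨Module.finrank F V - 1, by omega⟩
  have := Fintype.ofFinite F
  obtain ⟨α, hα⟩ := FiniteField.exists_nonsquare (F := F) (by
    intro hchar
    apply h2
    have := ringChar.Nat.cast_ringChar (R := F)
    rw [hchar] at this
    exact_mod_cast this)
  have hα0 : α ≠ 0 := fun h => hα (h ▸ IsSquare.zero)
  obtain ⟨b₁, p1, p2, p3⟩ := Cfsg.Agent.S0756.result h2 B hS hB hn α hα
  obtain ⟨b₂, r1, r2, r3⟩ := Cfsg.Agent.S0756.result h2 B' hS' hB' (hdim ▸ hn) α hα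
  obtain ⟨s, hs, e1⟩ := exists_det_gram_eq B b₁ b
  obtain ⟨t, ht, e2⟩ := exists_det_gram_eq B' b₂ c
  rw [e1, e2, det_gram_normal B b₁ p1 p2, det_gram_normal B' b₂ r1 r2] at hsq
  have hsq' : IsSquare (B (b₁ (Fin.last n)) (b₁ (Fin.last n)) *
      B' (b₂ (Fin.last n)) (b₂ (Fin.last n))) := by
    have e3 : s * s * B (b₁ (Fin.last n)) (b₁ (Fin.last n)) *
        (t * t * B' (b₂ (Fin.last n)) (b₂ (Fin.last n))) = ((s * t) * (s * t)) *
        (B (b₁ (Fin.last n)) (b₁ (Fin.last n)) * B' (b₂ (Fin.last n)) (b₂ (Fin.last n))) := by ring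
    rw [e3] at hsq
    exact (isSquare_mul_iff_of_sq (mul_ne_zero (mul_ne_zero hs ht) (mul_ne_zero hs ht))
      ⟨s * t, rfl⟩).mp hsq
  have hlast : B (b₁ (Fin.last n)) (b₁ (Fin.last n)) = B' (b₂ (Fin.last n)) (b₂ (Fin.last n)) := by
    rcases p3 with p3 | p3 <;> rcases r3 with r3 | r3
    · rw [p3, r3]
    · rw [p3, r3, one_mul] at hsq'; exact absurd hsq' hα
    · rw [p3, r3, mul_one] at hsq'; exact absurd hsq' hα
    · rw [p3, r3]
  refine ⟨b₁.equiv b₂ (Equiv.refl _), ?_⟩
  have : B'.comp (b₁.equiv b₂ (Equiv.refl _) : V →ₗ[F] V') (b₁.equiv b₂ (Equiv.refl _) : V →ₗ[F] V')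
      = B := by
    apply LinearMap.BilinForm.ext_basis b₁
    intro i j
    rw [LinearMap.BilinForm.comp_apply]
    simp only [LinearEquiv.coe_coe, Module.Basis.equiv_apply, Equiv.refl_apply]
    by_cases hij : i = j
    · subst hij
      by_cases hi : i = Fin.last n
      · subst hi; exact hlast.symm
      · rw [p2 i hi, r2 i hi]
    · rw [p1 i j hij, r1 i j hij]
  intro x y
  conv_rhs => rw [← this]
  rfl

theorem det_fromBlocks_anti {k : ℕ} (A C : Matrix (Fin k) (Fin k) F) :
    (Matrix.fromBlocks 0 A A.transpose C).det = (-1) ^ k * (A.det * A.det) := by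
  have e1 : Matrix.fromBlocks 0 A A.transpose C =
      Matrix.fromBlocks A 0 C 1 * Matrix.fromBlocks 0 1 A.transpose 0 := by
    rw [Matrix.fromBlocks_multiply]
    congr 1 <;> simp
  have e2 : (Matrix.fromBlocks 0 1 A.transpose 0 : Matrix (Fin k ⊕ Fin k) (Fin k ⊕ Fin k) F) *
      Matrix.fromBlocks 1 0 1 1 = Matrix.fromBlocks 1 1 A.transpose 0 := by
    rw [Matrix.fromBlocks_multiply]
    congr 1 <;> simp
  have e3 := congrArg Matrix.det e2
  rw [Matrix.det_mul, Matrix.det_fromBlocks_zero₁₂, Matrix.det_fromBlocks_one₁₁] at e3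
  simp only [Matrix.det_one, mul_one, zero_sub, Matrix.det_neg, Fintype.card_fin,
    Matrix.det_transpose] at e3
  rw [e1, Matrix.det_mul, Matrix.det_fromBlocks_zero₁₂, e3]
  simp only [Matrix.det_one, mul_one]
  ring

/-- A form with a totally isotropic subspace of half the dimension has discriminant `(-1)^k`. -/
theorem isSquare_of_lagrangian [FiniteDimensional F V] {κ : Type*} [Fintype κ] [DecidableEq κ]
    (B : LinearMap.BilinForm F V) (hS : B.IsSymm) {k : ℕ} (hV : Module.finrank F V = 2 * k)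
    (X : Submodule F V) (hX : Module.finrank F X = k) (hiso : ∀ x ∈ X, ∀ y ∈ X, B x y = 0)
    (c : Module.Basis κ F V) : IsSquare ((-1) ^ k * (gram B c).det) := by
  obtain ⟨X', hX'⟩ := Submodule.exists_isCompl X
  have hk' : Module.finrank F X' = k := by
    have := Submodule.finrank_add_eq_of_isCompl hX'
    omega
  set bX := Module.finBasisOfFinrankEq F X hX with hbX
  set bX' := Module.finBasisOfFinrankEq F X' hk' with hbX'
  set b : Module.Basis (Fin k ⊕ Fin k) F V :=
    (bX.prod bX').map (Submodule.prodEquivOfIsCompl X X' hX') with hb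
  have hbl : ∀ i, b (Sum.inl i) = (bX i : V) := by
    intro i
    simp [hb, Submodule.coe_prodEquivOfIsCompl']
  have hbr : ∀ i, b (Sum.inr i) = (bX' i : V) := by
    intro i
    simp [hb, Submodule.coe_prodEquivOfIsCompl']
  have hg : gram B b = Matrix.fromBlocks 0 (Matrix.of fun i j => B (bX i : V) (bX' j : V))
      (Matrix.of fun i j => B (bX i : V) (bX' j : V)).transpose
      (Matrix.of fun i j => B (bX' i : V) (bX' j : V)) := by
    ext i j
    rcases i with i | i <;> rcases j with j | j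
    · simp [gram_apply, hbl, hiso _ (bX i).2 _ (bX j).2]
    · simp [gram_apply, hbl, hbr]
    · simp only [gram_apply, hbl, hbr, Matrix.fromBlocks_apply₂₁, Matrix.transpose_apply,
        Matrix.of_apply]
      exact hS.eq _ _
    · simp [gram_apply, hbr]
  obtain ⟨s, hs, e⟩ := exists_det_gram_eq B b c
  rw [e, hg, det_fromBlocks_anti]
  set a := (Matrix.of fun i j => B (bX i : V) (bX' j : V)).det
  refine ⟨(-1) ^ k * s * a, by ring⟩

theorem gram_qPlus (k : ℕ) : gram (pol (qPlus k F)) (Pi.basisFun F (Fin k ⊕ Fin k)) =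
    Matrix.fromBlocks 0 1 (1 : Matrix (Fin k) (Fin k) F).transpose 0 := by
  classical
  ext i j
  rw [gram_apply, pol_qPlus]
  rcases i with i | i <;> rcases j with j | j
  · simp [Pi.single_apply]
  · simp [Pi.single_apply, Matrix.one_apply, eq_comm]
  · simp [Pi.single_apply, Matrix.one_apply, eq_comm]
  · simp [Pi.single_apply]

theorem exists_lagrangian_of_isSquare [Finite F] [FiniteDimensional F V] (h2 : (2 : F) ≠ 0)
    {κ : Type*} [Fintype κ] [DecidableEq κ]
    (B : LinearMap.BilinForm F V) (hS : B.IsSymm) (hB : B.Nondegenerate) {k : ℕ}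
    (hV : Module.finrank F V = 2 * k) (c : Module.Basis κ F V)
    (hsq : IsSquare ((-1) ^ k * (gram B c).det)) :
    ∃ X : Submodule F V, Module.finrank F X = k ∧ ∀ x ∈ X, ∀ y ∈ X, B x y = 0 := by
  classical
  obtain ⟨g, hg⟩ := exists_isometry_of_isSquare h2 B (pol (qPlus k F)) hS
    ⟨fun x y => pol_comm x y⟩ hB (nondeg_qPlus k) (by rw [hV]; simp; ring) c
    (Pi.basisFun F (Fin k ⊕ Fin k)) (by
      rw [gram_qPlus, det_fromBlocks_anti]
      simpa [mul_comm] using hsq)
  set U₀ := LinearMap.ker (LinearMap.funLeft F F (Sum.inr : Fin k → Fin k ⊕ Fin k)) with hU₀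
  refine ⟨U₀.map (g.symm : (Fin k ⊕ Fin k → F) →ₗ[F] V), ?_, ?_⟩
  · rw [LinearEquiv.finrank_map_eq, finrank_ker_inr]
  · rintro _ ⟨x, hx, rfl⟩ _ ⟨y, hy, rfl⟩
    rw [← hg]
    simp only [LinearEquiv.coe_coe, LinearEquiv.apply_symm_apply]
    exact pol_eq_zero_of_singular (fun u hu => by rw [qPlus_apply, singular_ker_inr k u hu]) hx hy

theorem exists_lagrangian_iff [Finite F] [FiniteDimensional F V] (h2 : (2 : F) ≠ 0)
    {κ : Type*} [Fintype κ] [DecidableEq κ]
    (B : LinearMap.BilinForm F V) (hS : B.IsSymm) (hB : B.Nondegenerate) {k : ℕ}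
    (hV : Module.finrank F V = 2 * k) (c : Module.Basis κ F V) :
    (∃ X : Submodule F V, Module.finrank F X = k ∧ ∀ x ∈ X, ∀ y ∈ X, B x y = 0) ↔
      IsSquare ((-1) ^ k * (gram B c).det) :=
  ⟨fun ⟨X, hX, hiso⟩ => isSquare_of_lagrangian B hS hV X hX hiso c,
    exists_lagrangian_of_isSquare h2 B hS hB hV c⟩

end Cfsg.Agent.H6.Quad
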