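import Cfsg.Agent.Lib_helper6_Disc2

/-! Diagonal forms. -/

set_option autoImplicit false

namespace Cfsg.Agent.H6.Quad

variable {F : Type*} [Field F] {ι : Type*} [Fintype ι]

theorem pol_wSS (w : ι → F) (x y : ι → F) :
    pol (QuadraticMap.weightedSumSquares F w) x y = ∑ i, 2 * w i * x i * y i := by
  simp only [pol, QuadraticMap.polarBilin_apply_apply, QuadraticMap.polar,
    QuadraticMap.weightedSumSquares_apply, Pi.add_apply, smul_eq_mul, ← Finset.sum_sub_distrib]
  exact Finset.sum_congr rfl fun i _ => by ring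

theorem wSS_single [DecidableEq ι] (w : ι → F) (i : ι) :
    QuadraticMap.weightedSumSquares F w (Pi.single i 1) = w i := by
  rw [QuadraticMap.weightedSumSquares_apply, Finset.sum_eq_single i]
  · simp
  · intro j _ hj
    simp [Pi.single_apply, hj]
  · intro h; exact absurd (Finset.mem_univ _) h

theorem det_gram_wSS [DecidableEq ι] (w : ι → F) :
    (gram (pol (QuadraticMap.weightedSumSquares F w)) (Pi.basisFun F ι)).det =
      2 ^ Fintype.card ι * ∏ i, w i := by
  rw [det_gram_orthogonal]
  · simp only [Pi.basisFun_apply, wSS_single]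
  · intro i j hij
    rw [pol_wSS]
    apply Finset.sum_eq_zero
    intro k _
    by_cases hk : k = i
    · subst hk
      simp [Pi.single_apply, hij]
    · simp [Pi.single_apply, hk]

theorem nondeg_wSS (h2 : (2 : F) ≠ 0) (w : ι → F) (hw : ∀ i, w i ≠ 0) :
    (pol (QuadraticMap.weightedSumSquares F w)).Nondegenerate := by
  classical
  apply nondeg_of_left
  intro v hv
  funext i
  have := hv (Pi.single i 1)
  rw [pol_wSS, Finset.sum_eq_single i] at this
  · simpa [h2, hw i] using this
  · intro j _ hj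
    simp [Pi.single_apply, hj]
  · intro h; exact absurd (Finset.mem_univ _) h

/-- Totally singular versus totally isotropic. -/
theorem singular_iff_isotropic {V : Type*} [AddCommGroup V] [Module F V] [FiniteDimensional F V]
    (h2 : (2 : F) ≠ 0)
    (Q : QuadraticForm F V) (X : Submodule F V) :
    (∀ x ∈ X, Q x = 0) ↔ ∀ x ∈ X, ∀ y ∈ X, pol Q x y = 0 := by
  constructor
  · intro h x hx y hy
    exact pol_eq_zero_of_singular h hx hy
  · intro h x hx
    have := h x hx x hx
    rw [pol_self] at this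
    exact (mul_eq_zero.mp this).resolve_left h2

theorem isSquare_neg_one_pow_iff [Fintype F] (m : ℕ) :
    IsSquare ((-1 : F) ^ m) ↔ ¬ (Fintype.card F % 4 = 3 ∧ Odd m) := by
  rcases Nat.even_or_odd m with hm | hm
  · rw [hm.neg_one_pow]
    simp only [IsSquare.one, true_iff]
    rintro ⟨-, h⟩
    exact (Nat.not_even_iff_odd.mpr h) hm
  · rw [hm.neg_one_pow, FiniteField.isSquare_neg_one_iff]
    simp [hm]

end Cfsg.Agent.H6.Quad

namespace Cfsg.Agent.H6.Quad

variable {F U W : Type*} [Field F] [AddCommGroup U] [Module F U] [AddCommGroup W] [Module F W]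

theorem det_gram_tmul {ι κ : Type*} [Fintype ι] [DecidableEq ι] [Fintype κ] [DecidableEq κ]
    (B₁ : LinearMap.BilinForm F U) (B₂ : LinearMap.BilinForm F W) (b : Module.Basis ι F U)
    (c : Module.Basis κ F W) :
    (gram (B₁.tmul B₂) (b.tensorProduct c)).det =
      (gram B₁ b).det ^ Fintype.card κ * (gram B₂ c).det ^ Fintype.card ι := by
  rw [← Matrix.det_kronecker]
  congr 1
  ext ⟨i, j⟩ ⟨i', j'⟩
  rw [gram_apply, Module.Basis.tensorProduct_apply, Module.Basis.tensorProduct_apply,
    LinearMap.BilinForm.tensorDistrib_tmul, Matrix.kroneckerMap_apply, gram_apply, gram_apply,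
    smul_eq_mul, mul_comm]

theorem isSymm_tmul {B₁ : LinearMap.BilinForm F U} {B₂ : LinearMap.BilinForm F W}
    (h₁ : B₁.IsSymm) (h₂ : B₂.IsSymm) : LinearMap.BilinForm.IsSymm (B₁.tmul B₂) :=
  LinearMap.BilinForm.isSymm_iff.mpr (LinearMap.IsSymm.tmul (LinearMap.BilinForm.isSymm_iff.mp h₁)
    (LinearMap.BilinForm.isSymm_iff.mp h₂))

theorem nondeg_tmul [FiniteDimensional F U] [FiniteDimensional F W]
    {B₁ : LinearMap.BilinForm F U} {B₂ : LinearMap.BilinForm F W}
    (h₁ : B₁.Nondegenerate) (h₂ : B₂.Nondegenerate) :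
    LinearMap.BilinForm.Nondegenerate (B₁.tmul B₂) := by
  classical
  rw [LinearMap.BilinForm.nondegenerate_iff_det_ne_zero
    ((Module.finBasis F U).tensorProduct (Module.finBasis F W)), ← gram_eq_toMatrix, det_gram_tmul]
  exact mul_ne_zero (pow_ne_zero _ (det_gram_ne_zero h₁ _)) (pow_ne_zero _ (det_gram_ne_zero h₂ _))

end Cfsg.Agent.H6.Quad
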