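import Mathlib

set_option autoImplicit false

namespace Cfsg.Agent.H6

/-- a finite field of order `|K|^m` contains a copy of `K` -/
theorem exists_ringHom_of_card_pow {K F : Type*} [Field K] [Fintype K] [Field F] [Fintype F]
    (m : ℕ) (h : Fintype.card F = Fintype.card K ^ m) : Nonempty (K →+* F) := by
  obtain ⟨p, hp⟩ := CharP.exists K
  haveI : Fact p.Prime := ⟨CharP.char_is_prime K p⟩
  obtain ⟨n, hpn, hn⟩ := FiniteField.card K p
  obtain ⟨p', hp'⟩ := CharP.exists F
  haveI : Fact p'.Prime := ⟨CharP.char_is_prime F p'⟩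
  obtain ⟨n', hpn', hn'⟩ := FiniteField.card F p'
  have hm : m ≠ 0 := by
    rintro rfl
    rw [pow_zero] at h
    have := Fintype.one_lt_card (α := F)
    omega
  have hpp : p = p' := by
    have h1 : p ∣ p' ^ (n' : ℕ) := by
      rw [← hn', h, hn, ← pow_mul]
      exact dvd_pow_self p (mul_ne_zero n.ne_zero hm)
    exact (Nat.prime_dvd_prime_iff_eq hpn hpn').mp (hpn.dvd_of_dvd_pow h1)
  subst hpp
  letI := ZMod.algebra K p
  letI := ZMod.algebra F p
  have h1 := FiniteField.pow_finrank_eq_card p K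
  have h2 := FiniteField.pow_finrank_eq_card p F
  have h3 : Module.finrank (ZMod p) F = Module.finrank (ZMod p) K * m := by
    apply Nat.pow_right_injective hpn.two_le
    show p ^ _ = p ^ _
    rw [h2, h, ← h1, pow_mul]
  obtain ⟨f⟩ := FiniteField.nonempty_algHom_of_finrank_dvd (F := ZMod p) (K := K) (L := F)
    (by rw [h3]; exact dvd_mul_right _ _)
  exact ⟨f.toRingHom⟩

end Cfsg.Agent.H6
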