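import Cfsg.Agent.Lib_helper6_GLStab

/-! More on stabilisers of subspaces in the full linear group. -/

set_option autoImplicit false

namespace Cfsg.Agent.H6.GLin

variable {F V : Type*} [Field F] [AddCommGroup V] [Module F V] [FiniteDimensional F V]

/-- A proper non-zero subspace stabilised by the stabiliser of `W` is `W`. -/
theorem eq_of_StabOf_le (W U : Submodule F V) (hU0 : U ≠ ⊥) (hU1 : U ≠ ⊤)
    (h : StabOf (triv V) W ≤ StabOf (triv V) U) : U = W := by
  by_cases hUW : U ≤ W
  · apply le_antisymm hUW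
    obtain ⟨u, hu, hu0⟩ := (Submodule.ne_bot_iff _).mp hU0
    intro w hw
    by_cases hw0 : w = 0
    · rw [hw0]; exact zero_mem _
    obtain ⟨φ, z, hz, -, h2⟩ := exists_dil_mover (⊥ : Submodule F W) (x := (⟨w, hw⟩ : W))
      (y := (⟨u, hUW hu⟩ : W))
      (fun h => hw0 (congrArg Subtype.val ((Submodule.mem_bot F).mp h)))
      (fun h => hu0 (congrArg Subtype.val ((Submodule.mem_bot F).mp h)))
    obtain ⟨s, hs⟩ := resHomOf_surjective W (dil φ z hz)
    have h3 : s.1 u = w := by
      have := resHomOf_apply (β := triv V) W s ⟨u, hUW hu⟩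
      rw [hs, h2] at this
      exact this.symm
    rw [← h3]
    exact ((h s.2).2 u).mp hu
  · exfalso
    obtain ⟨u, hu, huW⟩ := SetLike.not_le_iff_exists.mp hUW
    have hout : ∀ y, y ∉ W → y ∈ U := by
      intro y hy
      obtain ⟨φ, z, hz, h1, h2⟩ := exists_dil_mover W hy huW
      have hs : dil φ z hz ∈ StabOf (triv V) W := mem_StabOf_of_forall' fun v hv => by
        rw [h1 v hv]; exact hv
      rw [← h2]
      exact ((h hs).2 u).mp hu
    apply hU1
    rw [eq_top_iff]
    intro v _
    by_cases hv : v ∈ W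
    · have h1 : v + u ∉ W := fun h => huW (by
        have := W.sub_mem h hv
        simpa using this)
      have := U.sub_mem (hout _ h1) hu
      simpa using this
    · exact hout v hv

end Cfsg.Agent.H6.GLin

namespace Cfsg.Agent.H6

open Matrix

variable {F : Type*} [Field F] {n : ℕ}

theorem mem_stabilizing_coord_iff (k : ℕ) (g : Matrix.GeneralLinearGroup (Fin n) F) :
    g ∈ Cfsg.stabilizing (Cfsg.glToMat (Fin n) F)
      {v : Fin n → F | ∀ i : Fin n, k ≤ (i : ℕ) → v i = 0} ↔
    ∀ j l : Fin n, k ≤ (j : ℕ) → (l : ℕ) < k → (g : Matrix (Fin n) (Fin n) F) j l = 0 := by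
  constructor
  · intro hg j l hj hl
    have h1 : (Pi.single l 1 : Fin n → F) ∈ {v : Fin n → F | ∀ i : Fin n, k ≤ (i : ℕ) → v i = 0} := by
      intro i hi
      rw [Pi.single_apply, if_neg]
      rintro rfl
      omega
    have h2 := (hg _).mp h1 j hj
    simpa using h2
  · intro hg
    have : glEquivLin (Fin n) F g ∈ StabOf (GLin.triv (Fin n → F)) (coordSub F n k) := by
      apply GLin.mem_StabOf_of_forall'
      intro v hv j hj
      rw [glEquivLin_apply, Matrix.mulVec, dotProduct]
      refine Finset.sum_eq_zero fun l _ => ?_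
      by_cases hl : (l : ℕ) < k
      · rw [hg j l hj hl, zero_mul]
      · rw [hv l (Nat.not_lt.mp hl), mul_zero]
    exact this.2

/-- Transpose followed by reversal of the coordinates. -/
def revT (A : Matrix (Fin n) (Fin n) F) : Matrix (Fin n) (Fin n) F :=
  Aᵀ.submatrix Fin.revPerm Fin.revPerm

omit [Field F] in
theorem revT_apply (A : Matrix (Fin n) (Fin n) F) (i j : Fin n) :
    revT A i j = A (Fin.rev j) (Fin.rev i) := rfl

theorem revT_mul (A B : Matrix (Fin n) (Fin n) F) : revT A * revT B = revT (B * A) := by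
  rw [revT, revT, Matrix.submatrix_mul_equiv, ← Matrix.transpose_mul]; rfl

theorem revT_one : revT (1 : Matrix (Fin n) (Fin n) F) = 1 := by
  rw [revT, Matrix.transpose_one, Matrix.submatrix_one_equiv]

omit [Field F] in
theorem revT_revT (A : Matrix (Fin n) (Fin n) F) : revT (revT A) = A := by
  ext i j
  simp [revT_apply]

/-- Inverse transpose followed by reversal of the coordinates. -/
def invTransposeRev : Matrix.GeneralLinearGroup (Fin n) F ≃* Matrix.GeneralLinearGroup (Fin n) F where
  toFun g := ⟨revT ((g⁻¹ : Matrix.GeneralLinearGroup (Fin n) F) : Matrix (Fin n) (Fin n) F),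
    revT (g : Matrix (Fin n) (Fin n) F), by
      rw [revT_mul, ← Units.val_mul, mul_inv_cancel, Units.val_one, revT_one], by
      rw [revT_mul, ← Units.val_mul, inv_mul_cancel, Units.val_one, revT_one]⟩
  invFun g := ⟨revT ((g⁻¹ : Matrix.GeneralLinearGroup (Fin n) F) : Matrix (Fin n) (Fin n) F),
    revT (g : Matrix (Fin n) (Fin n) F), by
      rw [revT_mul, ← Units.val_mul, mul_inv_cancel, Units.val_one, revT_one], by
      rw [revT_mul, ← Units.val_mul, inv_mul_cancel, Units.val_one, revT_one]⟩
  left_inv g := by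
    apply Units.ext
    exact revT_revT _
  right_inv g := by
    apply Units.ext
    exact revT_revT _
  map_mul' g h := by
    apply Units.ext
    change revT (((g * h)⁻¹ : Matrix.GeneralLinearGroup (Fin n) F) : Matrix (Fin n) (Fin n) F) =
      revT ((g⁻¹ : Matrix.GeneralLinearGroup (Fin n) F) : Matrix (Fin n) (Fin n) F) *
      revT ((h⁻¹ : Matrix.GeneralLinearGroup (Fin n) F) : Matrix (Fin n) (Fin n) F)
    rw [revT_mul, ← Units.val_mul, _root_.mul_inv_rev]

theorem invTransposeRev_apply (g : Matrix.GeneralLinearGroup (Fin n) F) (i j : Fin n) :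
    (invTransposeRev g : Matrix (Fin n) (Fin n) F) i j =
      ((g⁻¹ : Matrix.GeneralLinearGroup (Fin n) F) : Matrix (Fin n) (Fin n) F)
        (Fin.rev j) (Fin.rev i) := rfl

theorem invTransposeRev_mem {k k' : ℕ} (hk : k + k' = n) {g : Matrix.GeneralLinearGroup (Fin n) F}
    (hg : g ∈ Cfsg.stabilizing (Cfsg.glToMat (Fin n) F)
      {v : Fin n → F | ∀ i : Fin n, k ≤ (i : ℕ) → v i = 0}) :
    invTransposeRev g ∈ Cfsg.stabilizing (Cfsg.glToMat (Fin n) F)
      {v : Fin n → F | ∀ i : Fin n, k' ≤ (i : ℕ) → v i = 0} := by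
  rw [mem_stabilizing_coord_iff]
  intro j l hj hl
  rw [invTransposeRev_apply]
  apply (mem_stabilizing_coord_iff k _).mp (inv_mem hg)
  · rw [Fin.val_rev]; omega
  · rw [Fin.val_rev]; have := j.2; omega

/-- The stabilisers of the coordinate subspaces of dimensions `k` and `n - k` are isomorphic. -/
def stabCoordEquiv {k k' : ℕ} (hk : k + k' = n) :
    ↥(Cfsg.stabilizing (Cfsg.glToMat (Fin n) F)
      {v : Fin n → F | ∀ i : Fin n, k ≤ (i : ℕ) → v i = 0}) ≃*
    ↥(Cfsg.stabilizing (Cfsg.glToMat (Fin n) F)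
      {v : Fin n → F | ∀ i : Fin n, k' ≤ (i : ℕ) → v i = 0}) where
  toFun g := ⟨invTransposeRev g.1, invTransposeRev_mem hk g.2⟩
  invFun g := ⟨invTransposeRev g.1, invTransposeRev_mem (by omega) g.2⟩
  left_inv g := Subtype.ext (invTransposeRev.left_inv g.1)
  right_inv g := Subtype.ext (invTransposeRev.left_inv g.1)
  map_mul' g h := Subtype.ext (map_mul invTransposeRev g.1 h.1)

end Cfsg.Agent.H6
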