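import Mathlib
import Cfsg.Prelude
import Cfsg.Agent.Lib_helper5_Dihedral

set_option autoImplicit false

namespace Cfsg.Agent.H6.GO2

open Matrix

/-- recognition of the dihedral groups -/
theorem dihedral_iso {G : Type*} [Group G] [Finite G] (n : ℕ) (a y : G) (h1 : orderOf a = n)
    (h2 : y * a * y = a⁻¹) (h3 : y * y = 1) (h4 : Nat.card G = 2 * n)
    (h5 : y ∉ Subgroup.zpowers a) : Nonempty (G ≃* DihedralGroup n) := by
  subst h1
  haveI : NeZero (orderOf a) := ⟨(orderOf_pos a).ne'⟩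
  have hinj := H5.dihedralHom_injective a y h3 h2 h5
  have hbij : Function.Bijective (H5.dihedralHom a y h3 h2) := by
    rw [Nat.bijective_iff_injective_and_card]
    exact ⟨hinj, by rw [DihedralGroup.nat_card, h4]⟩
  exact ⟨(MulEquiv.ofBijective _ hbij).symm⟩

variable {F : Type*} [Field F] {ι : Type} [Fintype ι] [DecidableEq ι]

/-- transport of `2 × 2` matrices to an index type with two elements -/
noncomputable def tr (e : ι ≃ Fin 2) : GL (Fin 2) F →* GL ι F :=
  Units.map ((Matrix.reindexAlgEquiv F F e.symm).toMulEquiv.toMonoidHom)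

theorem tr_val (e : ι ≃ Fin 2) (M : GL (Fin 2) F) :
    ((tr e M : GL ι F) : Matrix ι ι F) = (M : Matrix (Fin 2) (Fin 2) F).submatrix e e := rfl

theorem tr_injective (e : ι ≃ Fin 2) : Function.Injective (tr (F := F) e) := by
  intro M N h
  apply Units.ext
  have h1 := congrArg Units.val h
  rw [tr_val, tr_val] at h1
  ext i j
  have := congrFun (congrFun h1 (e.symm i)) (e.symm j)
  simpa using this

theorem tr_mem (e : ι ≃ Fin 2) (Q : (ι → F) → F) (Q' : F → F → F)
    (hQ : ∀ v, Q v = Q' (v (e.symm 0)) (v (e.symm 1))) (M : GL (Fin 2) F)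
    (hM : ∀ x y : F, Q' ((M : Matrix (Fin 2) (Fin 2) F) 0 0 * x + (M : Matrix (Fin 2) (Fin 2) F) 0 1 * y)
      ((M : Matrix (Fin 2) (Fin 2) F) 1 0 * x + (M : Matrix (Fin 2) (Fin 2) F) 1 1 * y) = Q' x y) :
    tr e M ∈ Cfsg.isometryGroup F Q := by
  intro u _
  show Q (((tr e M : GL ι F) : Matrix ι ι F) *ᵥ u) = Q u
  rw [hQ, hQ, tr_val]
  have key : ∀ i : Fin 2, ((M : Matrix (Fin 2) (Fin 2) F).submatrix e e *ᵥ u) (e.symm i) =
      (M : Matrix (Fin 2) (Fin 2) F) i 0 * u (e.symm 0) +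
        (M : Matrix (Fin 2) (Fin 2) F) i 1 * u (e.symm 1) := by
    intro i
    rw [Matrix.mulVec, dotProduct, ← Equiv.sum_comp e.symm, Fin.sum_univ_two]
    simp
  rw [key, key, hM]

end Cfsg.Agent.H6.GO2
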