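import Cfsg.Agent.Lib_helper6_StabProd
import Cfsg.Agent.Lib_helper6_GU
import Cfsg.Prelude.Def_ClassicalGeometry

/-! Stabilisers of subspaces in `GU_n(q)`. -/

set_option autoImplicit false

namespace Cfsg.Agent.H6

open Matrix

variable {F : Type*} [Field F] [Fintype F] {q : ℕ}

theorem guEquivIsom_symm_apply (hF : Fintype.card F = q ^ 2) (n : ℕ)
    (g : IsomOf (F := F) (fun x y => hermB hF n x y)) (v : Fin n → F) :
    ((((guEquivIsom hF n).symm g : Cfsg.GU n F q) : Matrix.GeneralLinearGroup (Fin n) F) :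
      Matrix (Fin n) (Fin n) F) *ᵥ v = g.1 v := by
  rw [← guEquivIsom_apply hF, MulEquiv.apply_symm_apply]

/-- The stabiliser of a subspace in `GU`, in matrices and abstractly. -/
noncomputable def guStabEquiv (hF : Fintype.card F = q ^ 2) (n : ℕ)
    (W : Submodule F (Fin n → F)) :
    ↥((Cfsg.stabilizing (Cfsg.glToMat (Fin n) F) (W : Set (Fin n → F))).subgroupOf
      (Cfsg.GU n F q)) ≃* ↥(StabOf (fun x y => hermB hF n x y) W) where
  toFun g := ⟨(guEquivIsom hF n g.1).1, (guEquivIsom hF n g.1).2, g.2⟩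
  invFun g := ⟨(guEquivIsom hF n).symm ⟨g.1, g.2.1⟩, fun v => by
    have := g.2.2 v
    change v ∈ W ↔ ((((guEquivIsom hF n).symm ⟨g.1, g.2.1⟩ : Cfsg.GU n F q) :
      Matrix.GeneralLinearGroup (Fin n) F) : Matrix (Fin n) (Fin n) F) *ᵥ v ∈ W
    rw [guEquivIsom_symm_apply]
    exact this⟩
  left_inv g := by
    apply Subtype.ext
    exact (guEquivIsom hF n).symm_apply_apply g.1
  right_inv g := by
    apply Subtype.ext
    change (guEquivIsom hF n ((guEquivIsom hF n).symm ⟨g.1, g.2.1⟩)).1 = g.1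
    rw [MulEquiv.apply_symm_apply]
  map_mul' a c := by
    apply Subtype.ext
    change (guEquivIsom hF n (a.1 * c.1)).1 = (guEquivIsom hF n a.1).1 * (guEquivIsom hF n c.1).1
    rw [map_mul]
    rfl

namespace Herm

variable {V : Type*} [AddCommGroup V] [Module F V]
variable {σ : F →+* F} {B : V →ₛₗ[σ] V →ₗ[F] F}

omit [Fintype F] in
theorem StabOf_le_perp (W : Submodule F V) :
    StabOf (fun x y => B x y) W ≤ StabOf (fun x y => B x y) (perp B W) := by
  intro g hg
  refine ⟨hg.1, fun v => ?_⟩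
  rw [mem_perp, mem_perp]
  constructor
  · intro h n hn
    have h1 : g⁻¹ n ∈ W := ((inv_mem hg).2 n).mp hn
    have h2 : B (g (g⁻¹ n)) (g v) = B (g⁻¹ n) v := hg.1 (g⁻¹ n) v
    rw [← LinearEquiv.mul_apply, mul_inv_cancel] at h2
    change B n (g v) = _ at h2
    rw [h2, h _ h1]
  · intro h n hn
    have h2 : B (g n) (g v) = B n v := hg.1 n v
    rw [← h2]
    exact h _ ((hg.2 n).mp hn)

/-- The isometry group of a non-degenerate Hermitian space is `GU`. -/
theorem nonempty_isomOf_mulEquiv_GU [FiniteDimensional F V] (hF : Fintype.card F = q ^ 2)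
    (hσq : ∀ x, σ x = x ^ q) (hS : B.IsSymm) (hB : B.Nondegenerate) {n : ℕ}
    (hn : Module.finrank F V = n) :
    Nonempty (IsomOf (F := F) (fun x y => B x y) ≃* Cfsg.GU n F q) := by
  have hσ : σ = frobQ hF := RingHom.ext hσq
  obtain ⟨b, hb⟩ := exists_orthonormal_basis (B := B) (by rw [hσ]; exact frobQ_ne_id hF)
    (by intro a; rw [hσ]; exact frobQ_frobQ hF a) hS hB
  subst hn
  exact ⟨(isomOfCongr (β' := fun x y => hermB hF _ x y) b.equivFun (fun x y => by
    rw [form_eq_hermForm hσq b hb, hermB_apply])).trans (guEquivIsom hF _).symm⟩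

theorem nonempty_stabOf_mulEquiv_prod [FiniteDimensional F V] (hF : Fintype.card F = q ^ 2)
    (hσq : ∀ x, σ x = x ^ q) (hS : B.IsSymm) (hB : B.Nondegenerate) (W : Submodule F V)
    (hW : NondegOn B W) {k l : ℕ} (hk : Module.finrank F W = k)
    (hl : Module.finrank F V = k + l) :
    Nonempty (StabOf (fun x y => B x y) W ≃* Cfsg.GU k F q × Cfsg.GU l F q) := by
  have hσ : σ = frobQ hF := RingHom.ext hσq
  have hσ2 : ∀ a : F, σ (σ a) = a := by intro a; rw [hσ]; exact frobQ_frobQ hF a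
  have hP := nondegOn_perp hB hS hσ2 hW
  have hPdim : Module.finrank F (perp B W) = l := by
    have := finrank_perp hS hσ2 hW
    omega
  obtain ⟨e1⟩ := nonempty_isomOf_mulEquiv_GU hF hσq (res_isSymm hS W) (res_nondegenerate hS hW) hk
  obtain ⟨e2⟩ := nonempty_isomOf_mulEquiv_GU hF hσq (res_isSymm hS (perp B W))
    (res_nondegenerate hS hP) hPdim
  have hbij := stabToProdOf_bijective (β := fun x y => B x y) W (perp B W) (StabOf_le_perp W)
    (isCompl_perp hS hσ2 hW) (by
      intro w hw w' hw' p hp p' hp'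
      have h1 : B w p' = 0 := hp' w hw
      have h2 : B p w' = 0 := by rw [← hS.eq, hp w' hw', map_zero]
      simp only [map_add, LinearMap.add_apply, h1, h2, add_zero, zero_add])
  exact ⟨(MulEquiv.ofBijective _ hbij).trans (MulEquiv.prodCongr e1 e2)⟩

end Herm

end Cfsg.Agent.H6
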