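import Cfsg.Agent.Lib_helper6_HermStab
import Cfsg.Agent.Lib_helper6_IsoCount

/-! Totally isotropic lines of unitary spaces. -/

set_option autoImplicit false

namespace Cfsg.Agent.H6

variable {F : Type*} [Field F] [Fintype F] {q : ℕ}

theorem exists_isotropic_plane (hF : Fintype.card F = q ^ 2) {n : ℕ} (hn : 4 ≤ n) :
    ∃ W : Submodule F (Fin n → F), Module.finrank F W = 2 ∧
      ∀ u ∈ W, ∀ v ∈ W, hermB hF n u v = 0 := by
  classical
  have hq0 : q ≠ 0 := by have := two_le_of_card_sq hF; omega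
  obtain ⟨b, hb0, hb⟩ := norm_surj hF (μ := -1) (by simp) (by
    have := map_neg (frobQ hF) 1
    rw [map_one, frobQ_apply] at this
    exact this)
  set i0 : Fin n := ⟨0, by omega⟩
  set i1 : Fin n := ⟨1, by omega⟩
  set i2 : Fin n := ⟨2, by omega⟩
  set i3 : Fin n := ⟨3, by omega⟩
  have hs : ∀ i j : Fin n, hermB hF n (Pi.single i 1) (Pi.single j 1) = if i = j then 1 else 0 := by
    intro i j
    rw [hermB_apply, Cfsg.hermForm]
    simp only [Pi.single_apply, ite_pow, one_pow, zero_pow hq0, mul_ite, mul_one, mul_zero,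
      Finset.sum_ite_eq', Finset.mem_univ, if_true]
  set u1 : Fin n → F := Pi.single i0 1 + b • Pi.single i1 1 with hu1
  set u2 : Fin n → F := Pi.single i2 1 + b • Pi.single i3 1 with hu2
  have hne : ∀ a c : ℕ, ∀ (ha : a < n) (hc : c < n), a ≠ c → (⟨a, ha⟩ : Fin n) ≠ ⟨c, hc⟩ :=
    fun a c ha hc h => by simpa using h
  have hbb : b ^ q * b = -1 := by rw [← pow_succ, hb]
  have h11 : hermB hF n u1 u1 = 0 := by
    simp only [hu1, map_add, LinearMap.add_apply, LinearMap.map_smulₛₗ, map_smul,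
      LinearMap.smul_apply, hs, smul_eq_mul, frobQ_apply]
    simp only [i0, i1, Fin.mk.injEq]
    norm_num
    linear_combination hbb
  have h22 : hermB hF n u2 u2 = 0 := by
    simp only [hu2, map_add, LinearMap.add_apply, LinearMap.map_smulₛₗ, map_smul,
      LinearMap.smul_apply, hs, smul_eq_mul, frobQ_apply]
    simp only [i2, i3, Fin.mk.injEq]
    norm_num
    linear_combination hbb
  have h12 : hermB hF n u1 u2 = 0 := by
    simp only [hu1, hu2, map_add, LinearMap.add_apply, LinearMap.map_smulₛₗ, map_smul,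
      LinearMap.smul_apply, hs, smul_eq_mul, frobQ_apply]
    simp only [i0, i1, i2, i3, Fin.mk.injEq]
    norm_num
  have h21 : hermB hF n u2 u1 = 0 := by
    rw [← (hermB_isSymm hF n).eq, h12, map_zero]
  have hu10 : u1 ≠ 0 := by
    intro h
    have := congrFun h i0
    simp [hu1, i0, i1] at this
  have hu2not : u2 ∉ Submodule.span F {u1} := by
    intro h
    obtain ⟨c, hc⟩ := Submodule.mem_span_singleton.mp h
    have := congrFun hc i2
    simp [hu1, hu2, i0, i1, i2, i3] at this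
  refine ⟨Submodule.span F {u1} ⊔ Submodule.span F {u2}, ?_, ?_⟩
  · rw [Submodule.finrank_sup_span_singleton hu2not, finrank_span_singleton hu10]
  · intro u hu v hv
    obtain ⟨a, ha, c, hc, rfl⟩ := Submodule.mem_sup.mp hu
    obtain ⟨a', ha', c', hc', rfl⟩ := Submodule.mem_sup.mp hv
    obtain ⟨s, rfl⟩ := Submodule.mem_span_singleton.mp ha
    obtain ⟨t, rfl⟩ := Submodule.mem_span_singleton.mp hc
    obtain ⟨s', rfl⟩ := Submodule.mem_span_singleton.mp ha'
    obtain ⟨t', rfl⟩ := Submodule.mem_span_singleton.mp hc'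
    simp only [map_add, LinearMap.add_apply, LinearMap.map_smulₛₗ, map_smul,
      LinearMap.smul_apply, h11, h12, h21, h22, smul_zero, add_zero]

/-- `#lines * |Stab| = |GU_n|`. -/
theorem card_isotropic_planes_mul (hF : Fintype.card F = q ^ 2) {n : ℕ} (hn : 4 ≤ n) :
    Nat.card {W : Submodule F (Fin n → F) // Module.finrank F W = 2 ∧
        ∀ u ∈ W, ∀ v ∈ W, Cfsg.hermForm n F q u v = 0} *
      (q ^ (2 * (2 * n - 3 * 2)) * (∏ i : Fin 2, ((q ^ 2) ^ 2 - (q ^ 2) ^ (i : ℕ))) *
        ∏ i ∈ Finset.range (n - 2 * 2), Herm.N1 q (i + 1)) =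
      ∏ i ∈ Finset.range n, Herm.N1 q (i + 1) := by
  obtain ⟨W, hW2, hW⟩ := exists_isotropic_plane hF hn
  have hS := hermB_isSymm hF n
  have hB := hermB_nondegenerate hF n
  have h1 := card_IsomOf_eq_card_const_subspaces_mul
    (Herm.moving (frobQ_ne_id hF) (frobQ_frobQ hF) hS hB) 0 W hW hW2
  rw [Herm.card_Stab_isotropic hF (fun x => rfl) hS hB W hW n 2 (by simp) hW2 (by omega),
    ← PSOf_bot, Herm.card_PS_of_nondegOn hF (fun x => rfl) hS hB n ⊥
      (fun w hw _ => (Submodule.mem_bot F).mp hw) (by simp)] at h1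
  rw [h1]
  congr 1
  refine Nat.card_congr (Equiv.subtypeEquivRight fun W' => ?_)
  constructor
  · rintro ⟨h2, h⟩
    exact ⟨h2, fun u hu v hv => h v hv u hu⟩
  · rintro ⟨h2, h⟩
    exact ⟨h2, fun u hu v hv => h v hv u hu⟩

end Cfsg.Agent.H6
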