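import Cfsg.Agent.Lib_helper6_GUStab

/-! Orders of stabilisers of totally isotropic subspaces for Hermitian forms. -/

set_option autoImplicit false

namespace Cfsg.Agent.H6

theorem finrank_inf_ker {F V : Type*} [Field F] [AddCommGroup V] [Module F V]
    [FiniteDimensional F V] (P : Submodule F V) (f : Module.Dual F V) {w : V} (hw : w ∈ P)
    (hfw : f w ≠ 0) : Module.finrank F ↥(P ⊓ LinearMap.ker f) + 1 = Module.finrank F P := by
  have hnot : w ∉ P ⊓ LinearMap.ker f := fun h => hfw (LinearMap.mem_ker.mp h.2)
  have hsup : (P ⊓ LinearMap.ker f) ⊔ Submodule.span F {w} = P := by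
    apply le_antisymm
    · exact sup_le inf_le_left ((Submodule.span_singleton_le_iff_mem _ _).mpr hw)
    · intro r hr
      rw [Submodule.mem_sup]
      refine ⟨r - (f r / f w) • w, ⟨P.sub_mem hr (P.smul_mem _ hw), ?_⟩, (f r / f w) • w,
        Submodule.smul_mem _ _ (Submodule.mem_span_singleton_self w), by simp⟩
      rw [SetLike.mem_coe, LinearMap.mem_ker, map_sub, map_smul, smul_eq_mul,
        div_mul_cancel₀ _ hfw, sub_self]
  rw [← Submodule.finrank_sup_span_singleton hnot, hsup]

theorem card_fixed {F : Type*} [Field F] [Fintype F] {q : ℕ} (hF : Fintype.card F = q ^ 2) :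
    Nat.card {c : F // c ^ q = c} = q := by
  classical
  have hq := two_le_of_card_sq hF
  have h1 : Nat.card (powMonoidHom (q - 1) : Fˣ →* Fˣ).ker = q - 1 := by
    rw [IsCyclic.card_powMonoidHom_ker, card_units_sq hF]
    exact Nat.gcd_eq_right (Dvd.intro _ rfl)
  have hpow : ∀ c : F, c ^ q = c ^ (q - 1) * c := fun c => by
    rw [← pow_succ, Nat.sub_add_cancel (by omega)]
  have e : {c : F // c ^ q = c} ≃ Option (powMonoidHom (q - 1) : Fˣ →* Fˣ).ker :=
    { toFun := fun c => if h : c.1 = 0 then none else some ⟨Units.mk0 c.1 h, by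
        rw [MonoidHom.mem_ker, powMonoidHom_apply]
        ext
        simp only [Units.val_pow_eq_pow_val, Units.val_mk0, Units.val_one]
        have h2 := c.2
        rw [hpow] at h2
        exact mul_right_cancel₀ h (by rw [h2, one_mul])⟩
      invFun := fun o => match o with
        | none => ⟨0, zero_pow (by omega)⟩
        | some u => ⟨((u : Fˣ) : F), by
            have := MonoidHom.mem_ker.mp u.2
            rw [powMonoidHom_apply] at this
            have h2 := congrArg Units.val this
            simp only [Units.val_pow_eq_pow_val, Units.val_one] at h2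
            rw [hpow, h2, one_mul]⟩
      left_inv := fun c => by
        by_cases h : c.1 = 0
        · simp only [h, dite_true]
          exact Subtype.ext h.symm
        · simp only [h, dite_false]
          rfl
      right_inv := fun o => by
        rcases o with _ | u
        · simp
        · have : ((u : Fˣ) : F) ≠ 0 := (u : Fˣ).ne_zero
          simp only [this, dite_false]
          congr 1
          apply Subtype.ext
          ext
          rfl }
  rw [Nat.card_congr e, Finite.card_option, h1]
  omega

namespace Herm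

variable {F V : Type*} [Field F] [AddCommGroup V] [Module F V]
variable {σ : F →+* F} {B : V →ₛₗ[σ] V →ₗ[F] F}

theorem perp_sup_span (W : Submodule F V) (x : V) :
    perp B (W ⊔ Submodule.span F {x}) = perp B W ⊓ LinearMap.ker (B x) := by
  ext y
  rw [Submodule.mem_inf, mem_perp, mem_perp, LinearMap.mem_ker]
  constructor
  · intro h
    exact ⟨fun z hz => h z (Submodule.mem_sup_left hz),
      h x (Submodule.mem_sup_right (Submodule.mem_span_singleton_self x))⟩
  · rintro ⟨h1, h2⟩ z hz
    obtain ⟨w, hw, t, ht, rfl⟩ := Submodule.mem_sup.mp hz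
    obtain ⟨c, rfl⟩ := Submodule.mem_span_singleton.mp ht
    rw [map_add, LinearMap.add_apply, h1 w hw, LinearMap.map_smulₛₗ, LinearMap.smul_apply, h2]
    simp

variable [FiniteDimensional F V]

theorem finrank_perp_general (hB : B.Nondegenerate) (hS : B.IsSymm)
    (hσ2 : ∀ a : F, σ (σ a) = a) (U : Submodule F V) :
    Module.finrank F (perp B U) + Module.finrank F U = Module.finrank F V := by
  classical
  have key : ∀ s : Finset V, Module.finrank F (perp B (Submodule.span F (s : Set V))) +
      Module.finrank F (Submodule.span F (s : Set V)) = Module.finrank F V := by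
    intro s
    induction s using Finset.induction_on with
    | empty =>
      have : perp B (⊥ : Submodule F V) = ⊤ := by
        rw [eq_top_iff]
        intro y _ z hz
        rw [(Submodule.mem_bot F).mp hz]; simp
      rw [Finset.coe_empty, Submodule.span_empty, this, finrank_top, finrank_bot, add_zero]
    | insert a s _ ih =>
      rw [Finset.coe_insert, Submodule.span_insert, sup_comm]
      by_cases ha : a ∈ Submodule.span F (s : Set V)
      · have : Submodule.span F (s : Set V) ⊔ Submodule.span F {a} = Submodule.span F (s : Set V) :=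
          sup_eq_left.mpr ((Submodule.span_singleton_le_iff_mem _ _).mpr ha)
        rw [this]; exact ih
      · obtain ⟨w, hw, haw⟩ := exists_orth_nonorth hB hS hσ2 _ ha
        have h1 := finrank_inf_ker (perp B (Submodule.span F (s : Set V))) (B a) hw haw
        rw [perp_sup_span, Submodule.finrank_sup_span_singleton ha]
        omega
  obtain ⟨s, hs⟩ := (IsNoetherian.noetherian U : U.FG)
  rw [← hs]
  exact key s

/-- The counting step at a vector pairing to `1` with a radical vector. -/
theorem card_step_radical [Fintype F] {q : ℕ} (hF : Fintype.card F = q ^ 2)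
    (hσq : ∀ x, σ x = x ^ q) (hS : B.IsSymm) (hB : B.Nondegenerate) (U : Submodule F V) {z x : V}
    (hzU : z ∈ U) (hz : ∀ u ∈ U, B u z = 0) (hzx : B z x = 1) :
    Nat.card {y : V | y ∉ U ∧ (∀ u ∈ U, B u y = B u x) ∧ (∀ u ∈ U, B y u = B x u) ∧
      B y y = B x x} * q = (q ^ 2) ^ (Module.finrank F V - Module.finrank F U) := by
  have hσe : σ = frobQ hF := RingHom.ext hσq
  have hσ : σ ≠ RingHom.id F := by rw [hσe]; exact frobQ_ne_id hF
  have hσ2 : ∀ a : F, σ (σ a) = a := by intro a; rw [hσe]; exact frobQ_frobQ hF a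
  have hz' : ∀ u ∈ U, B z u = 0 := fun u hu => by rw [← hS.eq, hz u hu, map_zero]
  have hzz : B z z = 0 := hz z hzU
  have hsec : ∀ c : {c : F // c ^ q = c}, ∃ a : F, a + σ a = c.1 := fun c => by
    obtain ⟨a, -, ha⟩ := exists_trace_eq hσ hσ2 c.1 (by rw [hσq]; exact c.2)
    exact ⟨a, ha⟩
  choose sec hsec using hsec
  have hnorm : ∀ (y : V) (a : F), B z y = 1 → B (y + a • z) (y + a • z) = B y y + (a + σ a) := by
    intro y a hy
    have hy' : B y z = 1 := by rw [← hS.eq, hy, map_one]
    simp only [map_add, LinearMap.add_apply, LinearMap.map_smulₛₗ, map_smul, LinearMap.smul_apply,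
      smul_eq_mul, hy, hy', hzz]
    ring
  have hfix : ∀ y : V, (B y y - B x x) ^ q = B y y - B x x := by
    intro y
    rw [← hσq, map_sub, hS.eq, hS.eq]
  have e1 : perp B U ≃ {y : V // ∀ u ∈ U, B u y = B u x} :=
    ⟨fun y => ⟨y.1 + x, fun u hu => by rw [map_add, y.2 u hu, zero_add]⟩,
      fun y => ⟨y.1 - x, fun u hu => by rw [map_sub, y.2 u hu, sub_self]⟩,
      fun y => by simp, fun y => by simp⟩
  have e2 : {y : V // ∀ u ∈ U, B u y = B u x} ≃
      {y : V | y ∉ U ∧ (∀ u ∈ U, B u y = B u x) ∧ (∀ u ∈ U, B y u = B x u) ∧ B y y = B x x} ×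
        {c : F // c ^ q = c} :=
    { toFun := fun y => (⟨y.1 + (-(sec ⟨B y.1 y.1 - B x x, hfix y.1⟩)) • z, by
          have hzy : B z y.1 = 1 := by rw [y.2 z hzU, hzx]
          have h1 : ∀ u ∈ U, B u (y.1 + (-(sec ⟨B y.1 y.1 - B x x, hfix y.1⟩)) • z) = B u x := by
            intro u hu
            rw [map_add, map_smul, hz u hu, smul_zero, add_zero, y.2 u hu]
          refine ⟨fun h => ?_, h1, fun u hu => ?_, ?_⟩
          · have h2 := hz' _ h
            rw [h1 z hzU, hzx] at h2
            exact one_ne_zero h2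
          · rw [← hS.eq, h1 u hu, hS.eq]
          · rw [hnorm _ _ hzy, map_neg, ← neg_add, hsec]
            ring⟩, ⟨B y.1 y.1 - B x x, hfix y.1⟩)
      invFun := fun p => ⟨p.1.1 + sec p.2 • z, fun u hu => by
          rw [map_add, map_smul, hz u hu, smul_zero, add_zero, p.1.2.2.1 u hu]⟩
      left_inv := fun y => by
        apply Subtype.ext
        simp
      right_inv := fun p => by
        obtain ⟨⟨y, hy⟩, c⟩ := p
        have hzy : B z y = 1 := by rw [hy.2.1 z hzU, hzx]
        have hc : B (y + sec c • z) (y + sec c • z) - B x x = c.1 := by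
          rw [hnorm _ _ hzy, hsec, hy.2.2.2]; ring
        have hc' : (⟨B (y + sec c • z) (y + sec c • z) - B x x, hfix _⟩ : {c : F // c ^ q = c}) = c :=
          Subtype.ext hc
        apply Prod.ext
        · apply Subtype.ext
          simp only [hc']
          simp
        · exact hc' }
  have h3 := Nat.card_congr (e1.trans e2)
  rw [Nat.card_prod, card_fixed hF, Module.natCard_eq_pow_finrank (K := F),
    Nat.card_eq_fintype_card, hF] at h3
  rw [← h3]
  congr 1
  have := finrank_perp_general hB hS hσ2 U
  omega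

theorem card_PS_general [Fintype F] {q : ℕ} (hF : Fintype.card F = q ^ 2)
    (hσq : ∀ x, σ x = x ^ q) (hS : B.IsSymm) (hB : B.Nondegenerate) (d : ℕ) :
    ∀ (j : ℕ) (U : Submodule F V), Module.finrank F ↥(U ⊓ perp B U) = j →
      Module.finrank F V = Module.finrank F U + j + d →
      Nat.card (PSOf (fun x y => B x y) U) = q ^ (j * (j + 2 * d)) *
        ∏ i ∈ Finset.range d, N1 q (i + 1) := by
  have hσe : σ = frobQ hF := RingHom.ext hσq
  have hσ : σ ≠ RingHom.id F := by rw [hσe]; exact frobQ_ne_id hF
  have hσ2 : ∀ a : F, σ (σ a) = a := by intro a; rw [hσe]; exact frobQ_frobQ hF a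
  have hq := two_le_of_card_sq hF
  intro j
  induction j with
  | zero =>
    intro U hrad hdim
    rw [Submodule.finrank_eq_zero] at hrad
    rw [card_PS_of_nondegOn hF hσq hS hB d U ?_ (by omega)]
    · simp
    · intro w hw hwz
      have : w ∈ U ⊓ perp B U := ⟨hw, hwz⟩
      rw [hrad] at this
      exact (Submodule.mem_bot F).mp this
  | succ j ih =>
    intro U hrad hdim
    have hne : U ⊓ perp B U ≠ ⊥ := by
      intro h
      rw [h, finrank_bot] at hrad
      omega
    obtain ⟨z, hz, hz0⟩ := Submodule.exists_mem_ne_zero_of_ne_bot hne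
    have hzU : z ∈ U := hz.1
    have hzperp : ∀ n ∈ U, B n z = 0 := hz.2
    have hzperp' : ∀ n ∈ U, B z n = 0 := fun n hn => by rw [← hS.eq, hzperp n hn, map_zero]
    obtain ⟨x', hx'⟩ : ∃ x', B z x' ≠ 0 := by
      by_contra hcon
      push Not at hcon
      exact hz0 (hB.1 z hcon)
    obtain ⟨x, hzx⟩ : ∃ x, B z x = 1 :=
      ⟨(B z x')⁻¹ • x', by rw [map_smul, smul_eq_mul, inv_mul_cancel₀ hx']⟩
    have hxz : B x z = 1 := by rw [← hS.eq, hzx, map_one]
    have hxU : x ∉ U := by
      intro h
      have := hzperp' x h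
      rw [hzx] at this
      exact one_ne_zero this
    set U' := U ⊔ Submodule.span F {x} with hU'
    have hUU' : U ≤ U' := le_sup_left
    have hxU' : x ∈ U' := Submodule.mem_sup_right (Submodule.mem_span_singleton_self x)
    have hdim' : Module.finrank F U' = Module.finrank F U + 1 :=
      Submodule.finrank_sup_span_singleton hxU
    have hznot : z ∉ U' ⊓ perp B U' := by
      intro h
      have := h.2 x hxU'
      rw [hxz] at this
      exact one_ne_zero this
    have hsup : (U' ⊓ perp B U') ⊔ Submodule.span F {z} = U ⊓ perp B U := by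
      apply le_antisymm
      · apply sup_le
        · intro w hw
          have hw2 : ∀ n ∈ U', B n w = 0 := hw.2
          obtain ⟨u, hu, y, hy, rfl⟩ := Submodule.mem_sup.mp hw.1
          obtain ⟨α, rfl⟩ := Submodule.mem_span_singleton.mp hy
          have h1 := hw2 z (hUU' hzU)
          rw [map_add, map_smul, hzperp' u hu, hzx] at h1
          have hα : α = 0 := by simpa using h1
          subst hα
          exact ⟨by simpa using hu, fun n hn => hw2 n (hUU' hn)⟩
        · rw [Submodule.span_singleton_le_iff_mem]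
          exact hz
      · intro r hr
        have hr2 : ∀ n ∈ U, B n r = 0 := hr.2
        rw [Submodule.mem_sup]
        refine ⟨r - (B x r) • z, ⟨hUU' (U.sub_mem hr.1 (U.smul_mem _ hzU)), ?_⟩, (B x r) • z,
          Submodule.smul_mem _ _ (Submodule.mem_span_singleton_self z), by simp⟩
        intro n hn
        obtain ⟨u, hu, y, hy, rfl⟩ := Submodule.mem_sup.mp hn
        obtain ⟨α, rfl⟩ := Submodule.mem_span_singleton.mp hy
        simp only [map_add, map_sub, map_smul, LinearMap.add_apply, LinearMap.map_smulₛₗ,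
          LinearMap.smul_apply, smul_eq_mul, hr2 u hu, hzperp u hu, hxz]
        ring
    have hrad' : Module.finrank F ↥(U' ⊓ perp B U') = j := by
      have := Submodule.finrank_sup_span_singleton hznot
      rw [hsup, hrad] at this
      omega
    have c : Nat.card {y : V | y ∉ U ∧ (∀ u ∈ U, B u y = B u x) ∧ (∀ u ∈ U, B y u = B x u) ∧
        B y y = B x x} = q ^ (2 * j + 2 * d + 1) := by
      have h := card_step_radical hF hσq hS hB U hzU hzperp hzx
      have h2 : Module.finrank F V - Module.finrank F U = j + 1 + d := by omega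
      rw [h2] at h
      have h3 : (q ^ 2) ^ (j + 1 + d) = q ^ (2 * j + 2 * d + 1) * q := by
        rw [← pow_mul, ← pow_succ]; congr 1; ring
      rw [h3] at h
      exact Nat.eq_of_mul_eq_mul_right (by omega) h
    rw [card_PSOf_step (moving hσ hσ2 hS hB) U hxU, c, ih U' hrad' (by omega), ← mul_assoc,
      ← pow_add]
    congr 2
    ring

theorem resHomOf_surjective_of_isotropic (hσ : σ ≠ RingHom.id F) (hσ2 : ∀ a : F, σ (σ a) = a)
    (hS : B.IsSymm) (hB : B.Nondegenerate) (W : Submodule F V)
    (hW : ∀ u ∈ W, ∀ v ∈ W, B u v = 0) :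
    Function.Surjective (resHomOf (fun x y => B x y) W) := by
  intro e
  obtain ⟨g, hg, hge⟩ := witt_of_moving (moving hσ hσ2 hS hB) W (W.subtype ∘ₗ e.toLinearMap)
    (fun a b h => e.injective (Subtype.ext h))
    (fun x x' => by
      change B ((e x : W) : V) ((e x' : W) : V) = B (x : V) (x' : V)
      rw [hW x x.2 x' x'.2]
      exact hW _ (e x).2 _ (e x').2)
  have hgS : g ∈ StabOf (fun x y => B x y) W := mem_StabOf_of_forall hg (fun v hv => by
    rw [hge ⟨v, hv⟩]; exact (e ⟨v, hv⟩).2)
  refine ⟨⟨g, hgS⟩, ?_⟩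
  ext w
  exact hge w

theorem card_Stab_isotropic [Fintype F] {q : ℕ} (hF : Fintype.card F = q ^ 2)
    (hσq : ∀ x, σ x = x ^ q) (hS : B.IsSymm) (hB : B.Nondegenerate) (W : Submodule F V)
    (hW : ∀ u ∈ W, ∀ v ∈ W, B u v = 0) (n k : ℕ)
    (hdim : Module.finrank F V = n) (hk : Module.finrank F W = k) (hkn : 2 * k ≤ n) :
    Nat.card (StabOf (fun x y => B x y) W) = q ^ (k * (2 * n - 3 * k)) *
        (∏ i : Fin k, ((q ^ 2) ^ k - (q ^ 2) ^ (i : ℕ))) *
        ∏ i ∈ Finset.range (n - 2 * k), N1 q (i + 1) := by
  have hσe : σ = frobQ hF := RingHom.ext hσq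
  have hσ : σ ≠ RingHom.id F := by rw [hσe]; exact frobQ_ne_id hF
  have hσ2 : ∀ a : F, σ (σ a) = a := by intro a; rw [hσe]; exact frobQ_frobQ hF a
  rw [card_eq_card_mul_card_ker _ (resHomOf_surjective_of_isotropic hσ hσ2 hS hB W hW),
    card_ker_resHomOf, card_linearEquiv hk, Nat.card_eq_fintype_card, hF,
    card_PS_general hF hσq hS hB (n - 2 * k) k W ?_ (by omega)]
  · have : k * (k + 2 * (n - 2 * k)) = k * (2 * n - 3 * k) := by
      congr 1; omega
    rw [this]; ring
  · have : W ⊓ perp B W = W := by
      rw [inf_eq_left]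
      intro w hw n hn
      exact hW n hn w hw
    rw [this, hk]

end Herm

end Cfsg.Agent.H6
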