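import Cfsg.Agent.Lib_helper6_OmegaNonMax2

/-! A totally singular subspace of dimension `m` in a hyperbolic space of dimension `2(m+1)` lies
in exactly two maximal totally singular subspaces. -/

set_option autoImplicit false

namespace Cfsg.Agent.H6.Quad

variable {F V : Type*} [Field F] [AddCommGroup V] [Module F V] {Q : QuadraticForm F V}
variable [FiniteDimensional F V]

theorem card_lagrangians_ge (hQ : (pol Q).Nondegenerate) {m : ℕ}
    (hV : Module.finrank F V = 2 * (m + 1))
    (L₀ : Submodule F V) (hL₀m : Module.finrank F L₀ = m + 1) (hL₀ : ∀ u ∈ L₀, Q u = 0)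
    (U : Submodule F V) (hUm : Module.finrank F U = m) (hU : ∀ u ∈ U, Q u = 0) :
    Nat.card {W : Submodule F V // Module.finrank F W = m + 1 ∧ (∀ w ∈ W, Q w = 0) ∧ U ≤ W} = 2 := by
  obtain ⟨L₁, hUL₁, hL₁m, hL₁⟩ := exists_lagrangian_ge hQ L₀ hL₀m hL₀ U hUm hU
  have hlt : U < L₁ := lt_of_le_of_ne hUL₁ (fun h => by rw [h] at hUm; omega)
  obtain ⟨x, hxL, hxU⟩ := SetLike.exists_of_lt hlt
  have hQx : Q x = 0 := hL₁ x hxL
  have hUx : ∀ u ∈ U, pol Q u x = 0 := fun u hu => pol_eq_zero_of_singular hL₁ (hUL₁ hu) hxL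
  obtain ⟨w₀, hw₀U, hw₀x⟩ := exists_orth_nonorth hQ U hxU
  obtain ⟨w₁, hw₁U, hw₁x⟩ : ∃ w₁, (∀ z ∈ U, pol Q z w₁ = 0) ∧ pol Q x w₁ = 1 :=
    ⟨(pol Q x w₀)⁻¹ • w₀, fun z hz => by rw [map_smul, hw₀U z hz, smul_zero],
      by rw [map_smul, smul_eq_mul, inv_mul_cancel₀ hw₀x]⟩
  obtain ⟨y, hyU, hxy, hQy⟩ : ∃ y, (∀ z ∈ U, pol Q z y = 0) ∧ pol Q x y = 1 ∧ Q y = 0 := by
    refine ⟨w₁ - Q w₁ • x, fun z hz => ?_, ?_, ?_⟩
    · rw [map_sub, map_smul, hw₁U z hz, hUx z hz]; simp
    · rw [map_sub, map_smul, hw₁x, pol_self, hQx]; simp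
    · rw [Q_sub, Q_smul, hQx, map_smul, pol_comm w₁ x, hw₁x]; simp
  -- general shape of singular subspaces `U + <z>`
  have hsing : ∀ z, Q z = 0 → (∀ u ∈ U, pol Q u z = 0) →
      ∀ w ∈ U ⊔ Submodule.span F {z}, Q w = 0 := by
    intro z hz hUz w hw
    obtain ⟨u, hu, t, ht, rfl⟩ := Submodule.mem_sup.mp hw
    obtain ⟨c, rfl⟩ := Submodule.mem_span_singleton.mp ht
    rw [Q_add, hU u hu, Q_smul, hz, map_smul, hUz u hu]; simp
  have hyU' : y ∉ U := by
    intro h
    have := hUx y h
    rw [pol_comm, hxy] at this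
    exact one_ne_zero this
  have hfx : Module.finrank F ↥(U ⊔ Submodule.span F {x}) = m + 1 := by
    rw [Submodule.finrank_sup_span_singleton hxU, hUm]
  have hfy : Module.finrank F ↥(U ⊔ Submodule.span F {y}) = m + 1 := by
    rw [Submodule.finrank_sup_span_singleton hyU', hUm]
  have hynot : y ∉ U ⊔ Submodule.span F {x} := by
    intro h
    have h1 := pol_eq_zero_of_singular (hsing x hQx hUx)
      (Submodule.mem_sup_right (Submodule.mem_span_singleton_self x)) h
    rw [hxy] at h1
    exact one_ne_zero h1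
  -- the orthogonal complement of `U`
  have hperp : (pol Q).orthogonal U = (U ⊔ Submodule.span F {x}) ⊔ Submodule.span F {y} := by
    symm
    apply Submodule.eq_of_le_of_finrank_eq
    · refine sup_le (sup_le ?_ ?_) ?_
      · intro u hu
        rw [LinearMap.BilinForm.mem_orthogonal_iff]
        exact fun z hz => pol_eq_zero_of_singular hU hz hu
      · rw [Submodule.span_singleton_le_iff_mem, LinearMap.BilinForm.mem_orthogonal_iff]
        exact hUx
      · rw [Submodule.span_singleton_le_iff_mem, LinearMap.BilinForm.mem_orthogonal_iff]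
        exact hyU
    · rw [Submodule.finrank_sup_span_singleton hynot, hfx,
        LinearMap.BilinForm.finrank_orthogonal hQ, hV, hUm]
      omega
  rw [Nat.card_eq_two_iff]
  refine ⟨⟨U ⊔ Submodule.span F {x}, hfx, hsing x hQx hUx, le_sup_left⟩,
    ⟨U ⊔ Submodule.span F {y}, hfy, hsing y hQy hyU, le_sup_left⟩, ?_, ?_⟩
  · intro h
    have h1 : U ⊔ Submodule.span F {x} = U ⊔ Submodule.span F {y} := congrArg Subtype.val h
    apply hynot
    rw [h1]
    exact Submodule.mem_sup_right (Submodule.mem_span_singleton_self y)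
  · rw [Set.eq_univ_iff_forall]
    rintro ⟨W, hWm, hW, hUW⟩
    have hlt' : U < W := lt_of_le_of_ne hUW (fun h => by rw [h] at hUm; omega)
    obtain ⟨w, hwW, hwU⟩ := SetLike.exists_of_lt hlt'
    have hwperp : w ∈ (pol Q).orthogonal U := by
      rw [LinearMap.BilinForm.mem_orthogonal_iff]
      exact fun z hz => pol_eq_zero_of_singular hW (hUW hz) hwW
    rw [hperp] at hwperp
    obtain ⟨t, ht, s, hs, rfl⟩ := Submodule.mem_sup.mp hwperp
    obtain ⟨u, hu, r, hr, rfl⟩ := Submodule.mem_sup.mp ht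
    obtain ⟨a, rfl⟩ := Submodule.mem_span_singleton.mp hr
    obtain ⟨b, rfl⟩ := Submodule.mem_span_singleton.mp hs
    have hQw := hW _ hwW
    have hab : a * b = 0 := by
      rw [Q_add, Q_add, hU u hu, Q_smul, Q_smul, hQx, hQy] at hQw
      simp only [map_smul, map_add, LinearMap.add_apply, LinearMap.smul_apply, hUx u hu,
        hyU u hu, hxy, smul_eq_mul] at hQw
      linear_combination hQw
    have hmem : a • x + b • y ∈ W := by
      have := W.sub_mem hwW (hUW hu)
      have e : u + a • x + b • y - u = a • x + b • y := by abel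
      rwa [e] at this
    rcases mul_eq_zero.mp hab with rfl | rfl
    · have hb : b ≠ 0 := by
        rintro rfl
        apply hwU
        simpa using hu
      right
      apply Subtype.ext
      symm
      apply Submodule.eq_of_le_of_finrank_eq
      · refine sup_le hUW ?_
        rw [Submodule.span_singleton_le_iff_mem]
        have := W.smul_mem b⁻¹ hmem
        rwa [zero_smul, zero_add, smul_smul, inv_mul_cancel₀ hb, one_smul] at this
      · rw [hfy, hWm]
    · have ha : a ≠ 0 := by
        rintro rfl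
        apply hwU
        simpa using hu
      left
      apply Subtype.ext
      symm
      apply Submodule.eq_of_le_of_finrank_eq
      · refine sup_le hUW ?_
        rw [Submodule.span_singleton_le_iff_mem]
        have := W.smul_mem a⁻¹ hmem
        rwa [zero_smul, add_zero, smul_smul, inv_mul_cancel₀ ha, one_smul] at this
      · rw [hfx, hWm]

end Cfsg.Agent.H6.Quad
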