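import Cfsg.Agent.Lib_helper6_OmegaPerfect

/-! Long root elements of orthogonal groups. -/

set_option autoImplicit false

namespace Cfsg.Agent.H6.Quad

open scoped commutatorElement

variable {F V : Type*} [Field F] [AddCommGroup V] [Module F V] {Q : QuadraticForm F V}
variable [FiniteDimensional F V]

local notation "O" => IsomOf (F := F) (bet Q)

/-- `g` is the long root element `T_{u,v}(c)`. -/
def IsLongRoot (Q : QuadraticForm F V) (u v : V) (c : F) (g : IsomOf (F := F) (bet Q)) : Prop :=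
  ∀ x, g.1 x = x + c • (pol Q u x • v - pol Q v x • u)

theorem exists_longRoot (hQ : (pol Q).Nondegenerate) {u v : V} (hu : Q u = 0) (hv : Q v = 0)
    (huv : pol Q u v = 0) (c : F) : ∃ g : O, IsLongRoot Q u v c g := by
  obtain ⟨g, hg, hgx⟩ := exists_siegel hQ u (-c • v) hu (by rw [map_smul, huv, smul_zero])
  refine ⟨⟨g, hg⟩, fun x => ?_⟩
  change g x = _
  rw [hgx, Q_smul, hv, map_smul, pol_comm x v, pol_comm x u]
  simp only [mul_zero, zero_mul, zero_smul, sub_zero, smul_eq_mul]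
  module

theorem longRoot_mem_commutatorSet (h2 : (2 : F) ≠ 0) (hQ : (pol Q).Nondegenerate) {u v : V}
    (hu : Q u = 0) (hv : Q v = 0) (huv : pol Q u v = 0) {c : F} {g : O}
    (hg : IsLongRoot Q u v c g) : g ∈ commutatorSet O := by
  by_cases hmem : u ∈ Submodule.span F {v}
  · obtain ⟨t, rfl⟩ := Submodule.mem_span_singleton.mp hmem
    have : g = 1 := by
      apply Subtype.ext
      ext x
      change g.1 x = x
      rw [hg x, map_smul, LinearMap.smul_apply, smul_eq_mul]
      module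
    rw [this]
    exact ⟨1, 1, by simp⟩
  have hmem2 : (2 : F) • u ∉ Submodule.span F {v} := by
    intro h
    apply hmem
    have := Submodule.smul_mem _ (2 : F)⁻¹ h
    rwa [smul_smul, inv_mul_cancel₀ h2, one_smul] at this
  obtain ⟨h, hh, hhv, hhu⟩ := exists_fix_map hQ (Submodule.span F {v}) hmem2 hmem (by
    intro z hz
    obtain ⟨t, rfl⟩ := Submodule.mem_span_singleton.mp hz
    simp only [map_smul, LinearMap.smul_apply, pol_comm v u, huv, smul_zero])
    (by rw [Q_smul, hu, mul_zero])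
  have hhv' : h v = v := hhv v (Submodule.mem_span_singleton_self v)
  set H : O := ⟨h, hh⟩ with hH
  have hpol : ∀ a b, pol Q (h a) (h b) = pol Q a b := fun a b =>
    pol_map (T := (h : V →ₗ[F] V)) (mem_IsomOf_iff.mp hh) a b
  have key : H * g = g * g * H := by
    apply Subtype.ext
    ext x
    change h (g.1 x) = g.1 (g.1 (h x))
    have e1 : pol Q v (h x) = pol Q v x := by
      conv_lhs => rw [← hhv']
      exact hpol v x
    have e2 : 2 * pol Q u (h x) = pol Q u x := by
      have := hpol u x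
      rw [hhu, map_smul, LinearMap.smul_apply, smul_eq_mul] at this
      exact this
    rw [hg x, hg (h x), hg]
    simp only [map_add, map_sub, map_smul, hhv', hhu, e1, smul_eq_mul, huv, pol_comm v u,
      pol_self, hu, hv, mul_zero, add_zero, sub_self]
    rw [← e2]
    module
  refine ⟨H, g, ?_⟩
  rw [commutatorElement_def, key]
  group

theorem longRoot_mem_commutator (h2 : (2 : F) ≠ 0) (hQ : (pol Q).Nondegenerate) {u v : V}
    (hu : Q u = 0) (hv : Q v = 0) (huv : pol Q u v = 0) {c : F} {g : O}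
    (hg : IsLongRoot Q u v c g) : g ∈ commutator O := by
  rw [commutator_eq_closure]
  exact Subgroup.subset_closure (longRoot_mem_commutatorSet h2 hQ hu hv huv hg)

theorem commutator_eq_closure_longRoot [Finite F] (h2 : (2 : F) ≠ 0) (hQ : (pol Q).Nondegenerate)
    (hn : 5 ≤ Module.finrank F V) :
    commutator O = Subgroup.closure {g : O | ∃ (u v : V) (c : F), Q u = 0 ∧ Q v = 0 ∧
      pol Q u v = 0 ∧ IsLongRoot Q u v c g} := by
  apply le_antisymm
  · apply commutator_le_of_siegel hQ hn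
    intro a x ha hax hx hpx
    have hna : a ∉ Submodule.span F {x} := by
      intro h
      obtain ⟨t, rfl⟩ := Submodule.mem_span_singleton.mp h
      rw [Q_smul, hx, mul_zero] at ha
      exact ha rfl
    obtain ⟨y, hy, hxy, hya⟩ : ∃ y, Q y = 0 ∧ pol Q x y = 0 ∧ pol Q y a ≠ 0 := by
      by_contra hcon
      push Not at hcon
      exact hna (mem_span_of_orth_singular hQ hn hcon)
    -- the decomposition `a / Q a = w₁ + w₂`
    obtain ⟨w₁, hQw₁, hxw₁, haw₁⟩ : ∃ w₁, Q w₁ = 0 ∧ pol Q x w₁ = 0 ∧ pol Q a w₁ = 1 :=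
      ⟨(pol Q y a)⁻¹ • y, by rw [Q_smul, hy, mul_zero], by rw [map_smul, hxy, smul_zero],
        by rw [map_smul, pol_comm a y, smul_eq_mul, inv_mul_cancel₀ hya]⟩
    obtain ⟨w₂, hw₂⟩ : ∃ w₂, w₂ = (Q a)⁻¹ • a - w₁ := ⟨_, rfl⟩
    have hQw₂ : Q w₂ = 0 := by
      rw [hw₂, Q_sub, Q_smul, hQw₁, map_smul, LinearMap.smul_apply, haw₁, smul_eq_mul]
      field_simp
      ring
    have hxw₂ : pol Q x w₂ = 0 := by
      rw [hw₂, map_sub, map_smul, pol_comm x a, hpx, hxw₁]; simp
    have hw₁w₂ : pol Q w₁ w₂ = (Q a)⁻¹ := by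
      rw [hw₂, map_sub, map_smul, pol_comm w₁ a, haw₁, pol_self, hQw₁]; simp
    obtain ⟨g₁, hg₁⟩ := exists_longRoot hQ hx hQw₁ hxw₁ 1
    obtain ⟨g₂, hg₂⟩ := exists_longRoot hQ hx hQw₂ hxw₂ 1
    have : Rf hQ a ha * Rf hQ (a + x) hax = g₁ * g₂ := by
      apply Subtype.ext
      ext v
      change (Rf hQ a ha * Rf hQ (a + x) hax).1 v = g₁.1 (g₂.1 v)
      rw [Rf_mul_Rf_add_apply hQ ha hax hx hpx, hg₂ v, hg₁]
      simp only [map_add, map_sub, map_smul, one_smul, smul_eq_mul, hxw₂, hw₁w₂, pol_self, hx,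
        pol_comm w₁ x, hxw₁, mul_zero, sub_zero, add_zero]
      have e1 : pol Q w₂ v = (Q a)⁻¹ * pol Q v a - pol Q w₁ v := by
        rw [hw₂, map_sub, LinearMap.sub_apply, map_smul, LinearMap.smul_apply, pol_comm a v,
          smul_eq_mul]
      have e2 : (Q a)⁻¹ • a = w₁ + w₂ := by rw [hw₂, add_sub_cancel]
      have e3 : (pol Q x v / Q a) • a = pol Q x v • (w₁ + w₂) := by
        rw [← e2, smul_smul, div_eq_mul_inv]
      rw [e1, pol_comm v x, e3, div_eq_mul_inv]
      module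
    rw [this]
    exact mul_mem (Subgroup.subset_closure ⟨x, w₁, 1, hx, hQw₁, hxw₁, hg₁⟩)
      (Subgroup.subset_closure ⟨x, w₂, 1, hx, hQw₂, hxw₂, hg₂⟩)
  · rw [Subgroup.closure_le]
    rintro g ⟨u, v, c, hu, hv, huv, hg⟩
    exact longRoot_mem_commutator h2 hQ hu hv huv hg

end Cfsg.Agent.H6.Quad
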