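import Mathlib
import Cfsg.Prelude.Def_Classical

set_option autoImplicit false

namespace Cfsg.Agent.H6.M2

variable {F : Type*} [Field F]

/-- left multiplication by `g` on `M = [[x₀,x₁],[-y₁,y₀]]`, coordinates `(x₀,x₁,y₀,y₁)` -/
def Lm (g : Matrix (Fin 2) (Fin 2) F) : Matrix (Fin 4) (Fin 4) F :=
  !![g 0 0, 0, 0, -g 0 1;
     0, g 0 0, g 0 1, 0;
     0, g 1 0, g 1 1, 0;
     -g 1 0, 0, 0, g 1 1]

/-- right multiplication by `h⁻¹` -/
def Rm (h : Matrix (Fin 2) (Fin 2) F) : Matrix (Fin 4) (Fin 4) F :=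
  (h.det)⁻¹ • !![h 1 1, -h 1 0, 0, 0;
     -h 0 1, h 0 0, 0, 0;
     0, 0, h 0 0, h 0 1;
     0, 0, h 1 0, h 1 1]

theorem Lm_one : Lm (1 : Matrix (Fin 2) (Fin 2) F) = 1 := by
  ext i j
  fin_cases i <;> fin_cases j <;> simp [Lm]

theorem Rm_one : Rm (1 : Matrix (Fin 2) (Fin 2) F) = 1 := by
  ext i j
  fin_cases i <;> fin_cases j <;> simp [Rm]

theorem Lm_mul (g h : Matrix (Fin 2) (Fin 2) F) : Lm (g * h) = Lm g * Lm h := by
  ext i j
  fin_cases i <;> fin_cases j <;>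
    simp [Lm, Matrix.mul_apply, Fin.sum_univ_two, Fin.sum_univ_four] <;> ring

theorem Rm_mul (g h : Matrix (Fin 2) (Fin 2) F) (hg : g.det ≠ 0) (hh : h.det ≠ 0) :
    Rm (g * h) = Rm g * Rm h := by
  have hg' := hg
  have hh' := hh
  rw [Matrix.det_fin_two] at hg' hh'
  ext i j
  fin_cases i <;> fin_cases j <;>
    simp [Rm, Matrix.mul_apply, Fin.sum_univ_two, Fin.sum_univ_four, Matrix.det_fin_two] <;>
    field_simp <;> ring

theorem Lm_Rm_comm (g h : Matrix (Fin 2) (Fin 2) F) : Lm g * Rm h = Rm h * Lm g := by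
  ext i j
  fin_cases i <;> fin_cases j <;>
    simp [Lm, Rm, Matrix.mul_apply, Fin.sum_univ_four] <;> ring

theorem det_ne_zero'' (g : GL (Fin 2) F) : (g : Matrix (Fin 2) (Fin 2) F).det ≠ 0 :=
  ((Matrix.isUnit_iff_isUnit_det _).mp g.isUnit).ne_zero

noncomputable def lam1 : GL (Fin 2) F →* GL (Fin 4) F :=
  MonoidHom.toHomUnits
    { toFun := fun g => Lm (g : Matrix (Fin 2) (Fin 2) F)
      map_one' := Lm_one
      map_mul' := fun g h => Lm_mul _ _ }

noncomputable def lam2 : GL (Fin 2) F →* GL (Fin 4) F :=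
  MonoidHom.toHomUnits
    { toFun := fun g => Rm (g : Matrix (Fin 2) (Fin 2) F)
      map_one' := Rm_one
      map_mul' := fun g h => Rm_mul _ _ (det_ne_zero'' g) (det_ne_zero'' h) }

theorem lam1_val (g : GL (Fin 2) F) :
    ((lam1 g : GL (Fin 4) F) : Matrix (Fin 4) (Fin 4) F) = Lm (g : Matrix (Fin 2) (Fin 2) F) := rfl

theorem lam2_val (g : GL (Fin 2) F) :
    ((lam2 g : GL (Fin 4) F) : Matrix (Fin 4) (Fin 4) F) = Rm (g : Matrix (Fin 2) (Fin 2) F) := rfl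

noncomputable def Lam : GL (Fin 2) F × GL (Fin 2) F →* GL (Fin 4) F :=
  MonoidHom.noncommCoprod lam1 lam2 (fun g h => Units.ext (Lm_Rm_comm _ _))

theorem Lam_apply (g h : GL (Fin 2) F) : Lam (g, h) = lam1 g * lam2 h := rfl

/-- the quadratic form in `Fin 4` coordinates -/
def Q4 (v : Fin 4 → F) : F := v 0 * v 2 + v 1 * v 3

theorem Q4_Lm (g : Matrix (Fin 2) (Fin 2) F) (v : Fin 4 → F) :
    Q4 ((Lm g).mulVec v) = g.det * Q4 v := by
  simp [Q4, Lm, Matrix.mulVec, dotProduct, Fin.sum_univ_four, Matrix.det_fin_two]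
  ring

theorem Q4_Rm (h : Matrix (Fin 2) (Fin 2) F) (hh : h.det ≠ 0) (v : Fin 4 → F) :
    Q4 ((Rm h).mulVec v) = (h.det)⁻¹ * Q4 v := by
  rw [Matrix.det_fin_two] at hh
  simp [Q4, Rm, Matrix.mulVec, dotProduct, Fin.sum_univ_four, Matrix.det_fin_two]
  field_simp
  ring

/-- index bijection -/
def e4 : (Fin 2 ⊕ Fin 2) ≃ Fin 4 where
  toFun := fun i => match i with
    | .inl 0 => 0
    | .inl 1 => 1
    | .inr 0 => 2
    | .inr 1 => 3
  invFun := fun i => match i with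
    | 0 => .inl 0
    | 1 => .inl 1
    | 2 => .inr 0
    | 3 => .inr 1
  left_inv := by
    rintro (i | i) <;> fin_cases i <;> rfl
  right_inv := by
    intro i
    fin_cases i <;> rfl

noncomputable def tr4 : GL (Fin 4) F →* GL (Fin 2 ⊕ Fin 2) F :=
  Units.map ((Matrix.reindexAlgEquiv F F e4.symm).toMulEquiv.toMonoidHom)

theorem tr4_val (M : GL (Fin 4) F) :
    ((tr4 M : GL (Fin 2 ⊕ Fin 2) F) : Matrix (Fin 2 ⊕ Fin 2) (Fin 2 ⊕ Fin 2) F) =
      (M : Matrix (Fin 4) (Fin 4) F).submatrix e4 e4 := rfl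

theorem tr4_injective : Function.Injective (tr4 (F := F)) := by
  intro M N h
  apply Units.ext
  have h1 := congrArg Units.val h
  rw [tr4_val, tr4_val] at h1
  ext i j
  have := congrFun (congrFun h1 (e4.symm i)) (e4.symm j)
  simpa using this

theorem quadFormPlus_two (v : Fin 2 ⊕ Fin 2 → F) :
    Cfsg.quadFormPlus 2 F v = Q4 (v ∘ e4.symm) := by
  simp [Cfsg.quadFormPlus, Q4, Fin.sum_univ_two]
  rfl

theorem tr4_mem (M : GL (Fin 4) F)
    (hM : ∀ v, Q4 ((M : Matrix (Fin 4) (Fin 4) F).mulVec v) = Q4 v) :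
    tr4 M ∈ Cfsg.isometryGroup F (Cfsg.quadFormPlus 2 F) := by
  intro u _
  show Cfsg.quadFormPlus 2 F (((tr4 M : GL _ F) : Matrix _ _ F).mulVec u) = Cfsg.quadFormPlus 2 F u
  rw [quadFormPlus_two, quadFormPlus_two, tr4_val, Matrix.submatrix_mulVec_equiv]
  have : (((M : Matrix (Fin 4) (Fin 4) F).mulVec (u ∘ e4.symm)) ∘ e4) ∘ e4.symm =
      (M : Matrix (Fin 4) (Fin 4) F).mulVec (u ∘ e4.symm) := by
    ext i
    simp
  rw [this, hM]

theorem Lam_mem (g h : GL (Fin 2) F)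
    (hdet : (g : Matrix (Fin 2) (Fin 2) F).det = (h : Matrix (Fin 2) (Fin 2) F).det) :
    tr4 (Lam (g, h)) ∈ Cfsg.isometryGroup F (Cfsg.quadFormPlus 2 F) := by
  apply tr4_mem
  intro v
  rw [Lam_apply, Units.val_mul, lam1_val, lam2_val, ← Matrix.mulVec_mulVec, Q4_Lm,
    Q4_Rm _ (det_ne_zero'' h), hdet, ← mul_assoc, mul_inv_cancel₀ (det_ne_zero'' h), one_mul]

theorem map_commutator_le {G H : Type*} [Group G] [Group H] (f : G →* H) :
    (commutator G).map f ≤ commutator H := by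
  rw [commutator_def, commutator_def, Subgroup.map_commutator]
  exact Subgroup.commutator_mono le_top le_top

end Cfsg.Agent.H6.M2
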