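import Cfsg.Agent.Lib_helper6_AltMax
import Cfsg.Agent.Lib_helper6_SympIsom
import Cfsg.Prelude.Def_GeometricClasses

/-! Transfer of maximality statements between matrix groups and groups of linear automorphisms. -/

set_option autoImplicit false

namespace Cfsg.Agent.H6

theorem isMaximalIn_comap {G G' : Type*} [Group G] [Group G'] (e : G ≃* G') (K' H' : Subgroup G')
    (h : H' < K' ∧ ∀ M : Subgroup G', H' ≤ M → M ≤ K' → M = H' ∨ M = K') :
    Cfsg.Geo.IsMaximalIn (K'.comap e.toMonoidHom) (H'.comap e.toMonoidHom) := by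
  set o := e.comapSubgroup with ho
  change o H' < o K' ∧ ∀ M, o H' ≤ M → M ≤ o K' → M = o H' ∨ M = o K'
  refine ⟨o.lt_iff_lt.mpr h.1, fun M h1 h2 => ?_⟩
  obtain ⟨M', rfl⟩ := o.surjective M
  rcases h.2 M' (o.le_iff_le.mp h1) (o.le_iff_le.mp h2) with h3 | h3
  · left; rw [h3]
  · right; rw [h3]

variable {F : Type*} [Field F] {m : ℕ}

theorem spGL_eq_comap : Cfsg.spGL m F =
    (Alt.Isom (sympB m F)).comap (glEquivLin (Fin m ⊕ Fin m) F).toMonoidHom := by
  ext g
  constructor
  · intro hg u v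
    rw [sympB_apply, sympB_apply]
    exact hg u v
  · intro hg u v
    have := hg u v
    rw [sympB_apply, sympB_apply] at this
    exact this

theorem stab_spGL_eq_comap (W : Submodule F (Fin m ⊕ Fin m → F)) :
    Cfsg.Geo.subspaceStabilizer W ⊓ Cfsg.spGL m F =
    (Alt.Stab (sympB m F) W).comap (glEquivLin (Fin m ⊕ Fin m) F).toMonoidHom := by
  rw [spGL_eq_comap]
  ext g
  constructor
  · rintro ⟨h1, h2⟩
    exact ⟨h2, h1⟩
  · rintro ⟨h1, h2⟩
    exact ⟨h2, h1⟩

end Cfsg.Agent.H6
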