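import Cfsg.Agent.Lib_helper6_QuadMat
import Cfsg.Agent.Lib_helper6_QuadStd

/-! Block-diagonal embeddings of orthogonal groups. -/

set_option autoImplicit false

namespace Cfsg.Agent.H6

open scoped commutatorElement

theorem map_mem_commutator {G G' : Type*} [Group G] [Group G'] (f : G →* G') {g : G}
    (hg : g ∈ commutator G) : f g ∈ commutator G' := by
  have : (commutator G).map f ≤ commutator G' := by
    rw [commutator_def, Subgroup.map_commutator, commutator_def]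
    exact Subgroup.commutator_mono le_top le_top
  exact this ⟨g, hg, rfl⟩

/-- The subgroup of elements whose square is a product of commutators. -/
noncomputable def sqKer (G : Type*) [Group G] : Subgroup G :=
  ((powMonoidHom 2 : Abelianization G →* Abelianization G).comp Abelianization.of).ker

theorem mem_sqKer {G : Type*} [Group G] {a : G} : a ∈ sqKer G ↔ a * a ∈ commutator G := by
  rw [sqKer, MonoidHom.mem_ker, MonoidHom.comp_apply, powMonoidHom_apply, ← map_pow, pow_two,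
    ← MonoidHom.mem_ker, Abelianization.ker_of]

theorem mul_conj_mem_commutator {G : Type*} [Group G] {a : G} (ha : a * a ∈ commutator G) (s : G) :
    a * (s * a * s⁻¹) ∈ commutator G := by
  have h1 : a * (s * a * s⁻¹) = (a * a) * ⁅a⁻¹, s⁆ := by
    rw [commutatorElement_def]; group
  rw [h1]
  apply mul_mem ha
  rw [commutator_def]
  exact Subgroup.commutator_mem_commutator (Subgroup.mem_top _) (Subgroup.mem_top _)

namespace Quad

variable {F : Type*} [Field F] {κ μ : Type} [Fintype κ] [DecidableEq κ] [Fintype μ] [DecidableEq μ]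

/-- The orthogonal direct sum in coordinates. -/
noncomputable def qSum (Q₁ : QuadraticForm F (κ → F)) (Q₂ : QuadraticForm F (μ → F)) :
    QuadraticForm F (κ ⊕ μ → F) :=
  Q₁.comp (LinearMap.funLeft F F Sum.inl) + Q₂.comp (LinearMap.funLeft F F Sum.inr)

theorem qSum_apply (Q₁ : QuadraticForm F (κ → F)) (Q₂ : QuadraticForm F (μ → F)) (v : κ ⊕ μ → F) :
    qSum Q₁ Q₂ v = Q₁ (v ∘ Sum.inl) + Q₂ (v ∘ Sum.inr) := rfl

theorem pol_qSum (Q₁ : QuadraticForm F (κ → F)) (Q₂ : QuadraticForm F (μ → F)) (v w : κ ⊕ μ → F) :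
    pol (qSum Q₁ Q₂) v w = pol Q₁ (v ∘ Sum.inl) (w ∘ Sum.inl) + pol Q₂ (v ∘ Sum.inr) (w ∘ Sum.inr) := by
  simp only [pol, QuadraticMap.polarBilin_apply_apply, QuadraticMap.polar, qSum_apply]
  have e1 : (v + w) ∘ Sum.inl = v ∘ (Sum.inl : κ → κ ⊕ μ) + w ∘ Sum.inl := rfl
  have e2 : (v + w) ∘ Sum.inr = v ∘ (Sum.inr : μ → κ ⊕ μ) + w ∘ Sum.inr := rfl
  rw [e1, e2]
  ring

theorem nondeg_qSum {Q₁ : QuadraticForm F (κ → F)} {Q₂ : QuadraticForm F (μ → F)}
    (h₁ : (pol Q₁).Nondegenerate) (h₂ : (pol Q₂).Nondegenerate) :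
    (pol (qSum Q₁ Q₂)).Nondegenerate := by
  apply nondeg_of_left
  intro v hv
  have a1 : v ∘ Sum.inl = 0 := by
    apply h₁.1
    intro y
    have := hv (Sum.elim y 0)
    rw [pol_qSum] at this
    simpa using this
  have a2 : v ∘ Sum.inr = 0 := by
    apply h₂.1
    intro y
    have := hv (Sum.elim 0 y)
    rw [pol_qSum] at this
    simpa using this
  funext i
  rcases i with i | i
  · exact congrFun a1 i
  · exact congrFun a2 i

/-- Block-diagonal matrices. -/
def blockGL : Matrix.GeneralLinearGroup κ F × Matrix.GeneralLinearGroup μ F →*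
    Matrix.GeneralLinearGroup (κ ⊕ μ) F where
  toFun g := ⟨Matrix.fromBlocks g.1.1 0 0 g.2.1, Matrix.fromBlocks g.1.2 0 0 g.2.2, by
      rw [Matrix.fromBlocks_multiply]; simp, by
      rw [Matrix.fromBlocks_multiply]; simp⟩
  map_one' := by
    apply Units.ext
    simp
  map_mul' a b := by
    apply Units.ext
    simp [Matrix.fromBlocks_multiply]

theorem blockGL_val (g : Matrix.GeneralLinearGroup κ F × Matrix.GeneralLinearGroup μ F) :
    ((blockGL g : Matrix.GeneralLinearGroup (κ ⊕ μ) F) : Matrix (κ ⊕ μ) (κ ⊕ μ) F) =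
      Matrix.fromBlocks g.1.1 0 0 g.2.1 := rfl

/-- Block-diagonal isometries. -/
def blockO (Q₁ : (κ → F) → F) (Q₂ : (μ → F) → F) :
    Cfsg.isometryGroup F Q₁ × Cfsg.isometryGroup F Q₂ →*
      Cfsg.isometryGroup F (fun v : κ ⊕ μ → F => Q₁ (v ∘ Sum.inl) + Q₂ (v ∘ Sum.inr)) where
  toFun g := ⟨blockGL (g.1.1, g.2.1), fun u _ => by
    change Q₁ ((Matrix.fromBlocks g.1.1.1 0 0 g.2.1.1).mulVec u ∘ Sum.inl) +
      Q₂ ((Matrix.fromBlocks g.1.1.1 0 0 g.2.1.1).mulVec u ∘ Sum.inr) = _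
    rw [Matrix.fromBlocks_mulVec]
    simp only [Matrix.zero_mulVec, add_zero, zero_add, Sum.elim_comp_inl, Sum.elim_comp_inr]
    have e1 := g.1.2 (u ∘ Sum.inl) 0
    have e2 := g.2.2 (u ∘ Sum.inr) 0
    exact congrArg₂ (· + ·) e1 e2⟩
  map_one' := by
    apply Subtype.ext
    exact map_one blockGL
  map_mul' a b := by
    apply Subtype.ext
    exact map_mul blockGL (a.1.1, a.2.1) (b.1.1, b.2.1)

theorem blockO_val (Q₁ : (κ → F) → F) (Q₂ : (μ → F) → F)
    (g : Cfsg.isometryGroup F Q₁ × Cfsg.isometryGroup F Q₂) :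
    ((blockO Q₁ Q₂ g : Matrix.GeneralLinearGroup (κ ⊕ μ) F) : Matrix (κ ⊕ μ) (κ ⊕ μ) F) =
      Matrix.fromBlocks g.1.1.1 0 0 g.2.1.1 := rfl

theorem blockO_mem_Omega (Q₁ : (κ → F) → F) (Q₂ : (μ → F) → F)
    (g : Cfsg.isometryGroup F Q₁ × Cfsg.isometryGroup F Q₂)
    (h₁ : g.1 ∈ Cfsg.Omega F Q₁) (h₂ : g.2 ∈ Cfsg.Omega F Q₂) :
    blockO Q₁ Q₂ g ∈ Cfsg.Omega F (fun v : κ ⊕ μ → F => Q₁ (v ∘ Sum.inl) + Q₂ (v ∘ Sum.inr)) := by
  have e : g = (g.1, 1) * (1, g.2) := by simp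
  rw [e, map_mul]
  exact mul_mem (map_mem_commutator ((blockO Q₁ Q₂).comp (MonoidHom.inl _ _)) h₁)
    (map_mem_commutator ((blockO Q₁ Q₂).comp (MonoidHom.inr _ _)) h₂)

/-- The swap of the two summands. -/
def swapO (Q : (κ → F) → F) :
    Cfsg.isometryGroup F (fun v : κ ⊕ κ → F => Q (v ∘ Sum.inl) + Q (v ∘ Sum.inr)) :=
  ⟨⟨Matrix.fromBlocks 0 1 1 0, Matrix.fromBlocks 0 1 1 0, by
      rw [Matrix.fromBlocks_multiply]; simp, by
      rw [Matrix.fromBlocks_multiply]; simp⟩, fun u _ => by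
    change Q ((Matrix.fromBlocks 0 1 1 0 : Matrix (κ ⊕ κ) (κ ⊕ κ) F).mulVec u ∘ Sum.inl) +
      Q ((Matrix.fromBlocks 0 1 1 0 : Matrix (κ ⊕ κ) (κ ⊕ κ) F).mulVec u ∘ Sum.inr) = _
    rw [Matrix.fromBlocks_mulVec]
    simp only [Matrix.zero_mulVec, add_zero, zero_add, Sum.elim_comp_inl, Sum.elim_comp_inr,
      Matrix.one_mulVec]
    exact add_comm _ _⟩

theorem swapO_conj (Q : (κ → F) → F) (g : Cfsg.isometryGroup F Q) :
    swapO Q * blockO Q Q (g, 1) * (swapO Q)⁻¹ = blockO Q Q (1, g) := by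
  rw [mul_inv_eq_iff_eq_mul]
  apply Subtype.ext
  apply Units.ext
  change (Matrix.fromBlocks 0 1 1 0 : Matrix (κ ⊕ κ) (κ ⊕ κ) F) * Matrix.fromBlocks g.1.1 0 0 1 =
    Matrix.fromBlocks 1 0 0 g.1.1 * Matrix.fromBlocks 0 1 1 0
  rw [Matrix.fromBlocks_multiply, Matrix.fromBlocks_multiply]
  simp

/-- Squares of isometries lie in `Ω`. -/
theorem sq_mem_Omega [Finite F] {ι : Type} [Fintype ι] [DecidableEq ι] (Q : QuadraticForm F (ι → F))
    (hQ : (pol Q).Nondegenerate) (hex : Nat.card F ≠ 2 ∨ Fintype.card ι ≠ 4)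
    (Qf : (ι → F) → F) (hQf : ∀ v, Q v = Qf v) (a : Cfsg.isometryGroup F Qf) :
    a * a ∈ Cfsg.Omega F Qf := by
  obtain rfl : Qf = ⇑Q := by funext v; rw [hQf]
  rw [← mem_sqKer]
  apply mem_of_ReflGrp
  · intro v hv
    rw [mem_sqKer]
    have : reflElt Q v hv * reflElt Q v hv = 1 := by
      apply Subtype.ext
      apply Units.ext
      change Cfsg.reflectionMatrix ⇑Q v * Cfsg.reflectionMatrix ⇑Q v = 1
      apply Matrix.ext_iff_mulVec.mpr
      intro x
      rw [← Matrix.mulVec_mulVec, reflectionMatrix_mulVec, reflectionMatrix_mulVec, Matrix.one_mulVec]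
      simp only [map_sub, map_smul, LinearMap.sub_apply, LinearMap.smul_apply, pol_self, smul_eq_mul]
      rw [sub_sub, ← add_smul]
      have : (pol Q) x v / Q v + ((pol Q) x v - (pol Q) x v / Q v * (2 * Q v)) / Q v = 0 := by
        field_simp
        ring
      rw [this, zero_smul, sub_zero]
    rw [this]
    exact one_mem _
  · rw [ReflGrp_eq hQ (by simpa using hex)]
    exact Subtype.property _

end Quad

end Cfsg.Agent.H6
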