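import Cfsg.Agent.Lib_helper6_QuadIso
import Cfsg.Agent.Lib_helper6_MaxBridge

/-! In characteristic two the orthogonal group is a maximal subgroup of the symplectic group. -/

set_option autoImplicit false

namespace Cfsg.Agent.H6.Quad

variable {F V : Type*} [Field F] [AddCommGroup V] [Module F V] {Q : QuadraticForm F V}

/-- Singular vectors are not contained in a hyperplane. -/
theorem exists_singular_nonorth [Finite F] [FiniteDimensional F V] (hQ : (pol Q).Nondegenerate)
    (hd : 3 ≤ Module.finrank F V) {a : V} (ha : a ≠ 0) : ∃ v, Q v = 0 ∧ pol Q v a ≠ 0 := by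
  obtain ⟨e, he, hQe⟩ := exists_singular (Q := Q) hd
  obtain ⟨f, hQf, hef⟩ := exists_hyp_partner hQ he hQe
  by_cases h1 : pol Q e a = 0
  swap
  · exact ⟨e, hQe, h1⟩
  by_cases h2 : pol Q f a = 0
  swap
  · exact ⟨f, hQf, h2⟩
  obtain ⟨d, hd'⟩ : ∃ d, pol Q d a ≠ 0 := by
    by_contra hcon
    push Not at hcon
    exact ha (hQ.2 a hcon)
  have hfe : pol Q f e = 1 := by rw [pol_comm, hef]
  have hee : pol Q e e = 0 := by rw [pol_self, hQe, mul_zero]
  have hff : pol Q f f = 0 := by rw [pol_self, hQf, mul_zero]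
  set d' := d - pol Q d f • e - pol Q d e • f with hd'def
  have hde : pol Q d' e = 0 := by
    simp only [hd'def, map_sub, map_smul, LinearMap.sub_apply, LinearMap.smul_apply, smul_eq_mul,
      hee, hfe]
    ring
  have hdf : pol Q d' f = 0 := by
    simp only [hd'def, map_sub, map_smul, LinearMap.sub_apply, LinearMap.smul_apply, smul_eq_mul,
      hff, hef]
    ring
  have hda : pol Q d' a = pol Q d a := by
    simp only [hd'def, map_sub, map_smul, LinearMap.sub_apply, LinearMap.smul_apply, smul_eq_mul,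
      h1, h2]
    ring
  refine ⟨d' + ((-Q d') • e + f), ?_, ?_⟩
  · rw [Q_add, Q_add, Q_smul, hQe, hQf]
    simp only [map_add, map_smul, LinearMap.smul_apply, smul_eq_mul, hde, hdf, hef]
    ring
  · simp only [map_add, map_smul, LinearMap.add_apply, LinearMap.smul_apply, smul_eq_mul, h1, h2,
      hda]
    simpa using hd'

theorem IsomOf_le_Isom : IsomOf (F := F) (bet Q) ≤ Alt.Isom (pol Q) := fun g hg u v =>
  pol_map (T := g.toLinearMap) (mem_IsomOf_iff.mp hg) u v

variable [CharP F 2]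

theorem pol_isAlt (Q : QuadraticForm F V) : (pol Q).IsAlt := fun x => by rw [pol_self, CharTwo.two_eq_zero, zero_mul]

theorem Q_transv (v : V) (c : F) (x : V) :
    Q (Alt.transv (pol_isAlt Q) v c x) = Q x + c * pol Q x v ^ 2 * (1 + c * Q v) := by
  rw [Alt.transv_apply, Q_add, Q_smul, map_smul, smul_eq_mul]
  ring

theorem transv_mem_IsomOf {v : V} (hv : Q v ≠ 0) :
    Alt.transv (pol_isAlt Q) v (Q v)⁻¹ ∈ IsomOf (F := F) (bet Q) := by
  rw [mem_IsomOf_iff]
  intro x
  rw [Q_transv, inv_mul_cancel₀ hv, CharTwo.add_self_eq_zero, mul_zero, add_zero]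

theorem transv_smul (v : V) (a c : F) :
    Alt.transv (pol_isAlt Q) (a • v) c = Alt.transv (pol_isAlt Q) v (a ^ 2 * c) := by
  ext x
  rw [Alt.transv_apply, Alt.transv_apply, map_smul, smul_smul, smul_eq_mul]
  congr 2
  ring

variable [Finite F] [FiniteDimensional F V]

/-- A subgroup of the symplectic group properly containing the orthogonal group is everything. -/
theorem all_transv_mem (hQ : (pol Q).Nondegenerate) (hd : 3 ≤ Module.finrank F V)
    (K : Subgroup (V ≃ₗ[F] V)) (hK : IsomOf (F := F) (bet Q) ≤ K) {g : V ≃ₗ[F] V} (hgK : g ∈ K)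
    (hgS : g ∈ Alt.Isom (pol Q)) (hg : g ∉ IsomOf (F := F) (bet Q)) (x : V) (c : F) :
    Alt.transv (pol_isAlt Q) x c ∈ K := by
  have := Fintype.ofFinite F
  have e1 : ∀ x, g (g⁻¹ x) = x := fun x => by
    rw [← LinearEquiv.mul_apply, mul_inv_cancel]; rfl
  have hgS' : ∀ u v, pol Q (g⁻¹ u) (g⁻¹ v) = pol Q u v := inv_mem hgS
  have hsplit : ∀ x : V, Q x ≠ 0 → ∃ (e : V) (μ : F), Q e = 0 ∧ Q (x + μ • e) = 0 ∧ pol Q x e ≠ 0 := by
    intro x hx
    have hx0 : x ≠ 0 := by
      rintro rfl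
      simp at hx
    obtain ⟨e, hQe, hex⟩ := exists_singular_nonorth hQ hd hx0
    have hxe : pol Q x e ≠ 0 := by rw [pol_comm]; exact hex
    refine ⟨e, Q x / pol Q x e, hQe, ?_, hxe⟩
    rw [Q_add, Q_smul, hQe, map_smul, smul_eq_mul, div_mul_cancel₀ _ hxe, mul_zero, add_zero,
      CharTwo.add_self_eq_zero]
  -- Step 1
  obtain ⟨v, hQv, hQgv⟩ : ∃ v, Q v = 0 ∧ Q (g⁻¹ v) ≠ 0 := by
    by_contra hcon
    push Not at hcon
    apply hg
    have : g⁻¹ ∈ IsomOf (F := F) (bet Q) := by
      rw [mem_IsomOf_iff]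
      intro x
      by_cases hx : Q x = 0
      · rw [hcon x hx, hx]
      · obtain ⟨e, μ, hQe, hs, -⟩ := hsplit x hx
        have h1 : x = (x + μ • e) + μ • e := by
          rw [add_assoc, ← add_smul, CharTwo.add_self_eq_zero, zero_smul, add_zero]
        have h2 : Q (g⁻¹ x) = Q (g⁻¹ (x + μ • e)) + Q (g⁻¹ (μ • e)) +
            pol Q (x + μ • e) (μ • e) := by
          conv_lhs => rw [h1, map_add, Q_add, hgS']
        have h3 : Q x = Q (x + μ • e) + Q (μ • e) + pol Q (x + μ • e) (μ • e) := by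
          conv_lhs => rw [h1, Q_add]
        have h4 : Q (μ • e) = 0 := by rw [Q_smul, hQe, mul_zero]
        rw [h2, h3, hcon _ hs, hcon _ h4, hs, h4]
    simpa using inv_mem this
  have hv0 : v ≠ 0 := by
    rintro rfl
    simp at hQgv
  have s1 : Alt.transv (pol_isAlt Q) v (Q (g⁻¹ v))⁻¹ ∈ K := by
    have := Alt.conj_transv (pol_isAlt Q) hgS (g⁻¹ v) (Q (g⁻¹ v))⁻¹
    rw [e1] at this
    rw [← this]
    exact mul_mem (mul_mem hgK (hK (transv_mem_IsomOf hQgv))) (inv_mem hgK)
  set c0 := (Q (g⁻¹ v))⁻¹ with hc0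
  have hc00 : c0 ≠ 0 := inv_ne_zero hQgv
  -- Step 2 and 3
  have s3 : ∀ v' : V, v' ≠ 0 → Q v' = 0 → ∀ c', Alt.transv (pol_isAlt Q) v' c' ∈ K := by
    intro v' hv' hQv' c'
    by_cases hc' : c' = 0
    · subst hc'
      have : Alt.transv (pol_isAlt Q) v' 0 = 1 := by
        ext x
        rw [Alt.transv_apply]; simp
      rw [this]; exact one_mem _
    obtain ⟨l, hl⟩ := FiniteField.isSquare_of_char_two (ringChar.eq F 2) (c' / c0)
    have hl0 : l ≠ 0 := by
      rintro rfl
      rw [mul_zero] at hl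
      exact (div_ne_zero hc' hc00) hl
    obtain ⟨k, hk, -, hkv⟩ := exists_fix_map hQ ⊥ (x := l • v') (y := v)
      (by simpa using ⟨hl0, hv'⟩) (by simpa using hv0) (by
        intro y hy
        rw [(Submodule.mem_bot F).mp hy]; simp) (by rw [Q_smul, hQv', hQv, mul_zero])
    have := Alt.conj_transv (pol_isAlt Q) (IsomOf_le_Isom hk) v c0
    rw [hkv, transv_smul] at this
    have e : l ^ 2 * c0 = c' := by
      rw [pow_two, ← hl, div_mul_cancel₀ _ hc00]
    rw [e] at this
    rw [← this]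
    exact mul_mem (mul_mem (hK hk) s1) (inv_mem (hK hk))
  -- Step 4
  by_cases hx0 : x = 0
  · subst hx0
    have : Alt.transv (pol_isAlt Q) 0 c = 1 := by
      ext x
      rw [Alt.transv_apply]; simp
    rw [this]; exact one_mem _
  by_cases hx : Q x = 0
  · exact s3 x hx0 hx c
  obtain ⟨e, μ, hQe, hs, hxe⟩ := hsplit x hx
  have he0 : e ≠ 0 := by
    rintro rfl
    simp at hxe
  have hs0 : x + μ • e ≠ 0 := by
    intro h
    have : pol Q (x + μ • e) e = pol Q x e := by
      rw [map_add, LinearMap.add_apply, map_smul, LinearMap.smul_apply, pol_self, hQe]; simp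
    rw [h] at this
    simp at this
    exact hxe this.symm
  have hse : pol Q (x + μ • e) e = pol Q x e := by
    rw [map_add, LinearMap.add_apply, map_smul, LinearMap.smul_apply, pol_self, hQe]; simp
  have hte : Alt.transv (pol_isAlt Q) e (μ / pol Q x e) (x + μ • e) = x := by
    rw [Alt.transv_apply, hse, div_mul_cancel₀ _ hxe, add_assoc, ← add_smul,
      CharTwo.add_self_eq_zero, zero_smul, add_zero]
  have := Alt.conj_transv (pol_isAlt Q) (Alt.transv_mem (pol_isAlt Q) e (μ / pol Q x e)) (x + μ • e) c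
  rw [hte] at this
  rw [← this]
  exact mul_mem (mul_mem (s3 e he0 hQe _) (s3 _ hs0 hs c)) (inv_mem (s3 e he0 hQe _))

theorem O_Sp_maximal (hQ : (pol Q).Nondegenerate) (hd : 3 ≤ Module.finrank F V) :
    IsomOf (F := F) (bet Q) < Alt.Isom (pol Q) ∧
    ∀ M : Subgroup (V ≃ₗ[F] V), IsomOf (F := F) (bet Q) ≤ M → M ≤ Alt.Isom (pol Q) →
      M = IsomOf (F := F) (bet Q) ∨ M = Alt.Isom (pol Q) := by
  constructor
  · refine lt_of_le_of_ne IsomOf_le_Isom fun heq => ?_
    obtain ⟨e, he, hQe⟩ := exists_singular (Q := Q) hd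
    obtain ⟨f, hQf, hef⟩ := exists_hyp_partner hQ he hQe
    have : Alt.transv (pol_isAlt Q) e 1 ∈ IsomOf (F := F) (bet Q) := by
      rw [heq]; exact Alt.transv_mem _ _ _
    have := mem_IsomOf_iff.mp this f
    rw [Q_transv, hQe, hQf, pol_comm, hef] at this
    simp at this
  · intro M h1 h2
    by_cases hM : M ≤ IsomOf (F := F) (bet Q)
    · left; exact le_antisymm hM h1
    · right
      obtain ⟨g, hgM, hg⟩ := SetLike.not_le_iff_exists.mp hM
      exact le_antisymm h2 (Alt.le_of_transv hQ (pol_isAlt Q) M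
        (all_transv_mem hQ hd M h1 hgM (h2 hgM) hg))

end Cfsg.Agent.H6.Quad
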