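import Cfsg.Agent.Lib_helper6_SiegelOmega
import Cfsg.Prelude.Def_GeometricClasses

/-! Bridge between `Cfsg.Geo.omegaGL` and the abstract `Ω`. -/

set_option autoImplicit false

namespace Cfsg.Agent.H6.Quad

open Matrix

variable {F : Type*} [Field F] {ι : Type} [Fintype ι] [DecidableEq ι]

/-- The quadratic form attached to the predicate of the geometric classes. -/
def mkQF (Q : (ι → F) → F) (hQ : Cfsg.Geo.IsNondegenerateQuadraticForm Q) :
    QuadraticForm F (ι → F) where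
  toFun := Q
  toFun_smul := fun a x => by rw [hQ.smul, smul_eq_mul, pow_two]
  exists_companion' := ⟨LinearMap.mk₂ F (QuadraticMap.polar Q)
    hQ.polar_bilinear.add_left hQ.polar_bilinear.smul_left hQ.polar_bilinear.add_right
    hQ.polar_bilinear.smul_right, fun x y => by
      change Q (x + y) = Q x + Q y + QuadraticMap.polar Q x y
      rw [QuadraticMap.polar]; ring⟩

theorem mkQF_apply (Q : (ι → F) → F) (hQ : Cfsg.Geo.IsNondegenerateQuadraticForm Q) (v : ι → F) :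
    mkQF Q hQ v = Q v := rfl

theorem pol_mkQF (Q : (ι → F) → F) (hQ : Cfsg.Geo.IsNondegenerateQuadraticForm Q) (u v : ι → F) :
    pol (mkQF Q hQ) u v = QuadraticMap.polar Q u v := rfl

theorem nondeg_mkQF (Q : (ι → F) → F) (hQ : Cfsg.Geo.IsNondegenerateQuadraticForm Q) :
    (pol (mkQF Q hQ)).Nondegenerate := by
  apply nondeg_of_left
  intro v hv
  by_contra hv0
  obtain ⟨x, hx⟩ := (hQ.nondegenerate v hv0).2
  exact hx (hv x)

theorem mem_omegaGL_iff (Q : QuadraticForm F (ι → F)) (Qf : (ι → F) → F) (hQf : ∀ v, Q v = Qf v)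
    (g : GL ι F) : g ∈ Cfsg.Geo.omegaGL Qf ↔
      ∃ ω ∈ commutator (IsomOf (F := F) (bet Q)), ∀ v, ω.1 v = (g : Matrix ι ι F) *ᵥ v := by
  set e := isometryGroupEquiv Q Qf hQf with he
  constructor
  · rintro ⟨x, hx, rfl⟩
    exact ⟨e x, (mem_commutator_equiv e x).mp hx, fun v => rfl⟩
  · rintro ⟨ω, hω, hv⟩
    refine ⟨e.symm ω, ?_, ?_⟩
    · rw [SetLike.mem_coe, mem_commutator_equiv e, MulEquiv.apply_symm_apply]; exact hω
    · change (glEquivLin ι F).symm ω.1 = g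
      rw [MulEquiv.symm_apply_eq]
      ext1 v
      rw [hv, glEquivLin_apply]

theorem exists_omegaGL_of (Q : QuadraticForm F (ι → F)) (Qf : (ι → F) → F)
    (hQf : ∀ v, Q v = Qf v) (ω : IsomOf (F := F) (bet Q))
    (hω : ω ∈ commutator (IsomOf (F := F) (bet Q))) :
    ∃ g ∈ Cfsg.Geo.omegaGL Qf, ∀ v, (g : Matrix ι ι F) *ᵥ v = ω.1 v := by
  refine ⟨(glEquivLin ι F).symm ω.1, ?_, fun v => ?_⟩
  · rw [mem_omegaGL_iff Q Qf hQf]
    refine ⟨ω, hω, fun v => ?_⟩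
    rw [← glEquivLin_apply, MulEquiv.apply_symm_apply]
  · rw [← glEquivLin_apply, MulEquiv.apply_symm_apply]

theorem mem_subspaceStabilizer_iff (g : GL ι F) (W : Submodule F (ι → F)) :
    g ∈ Cfsg.Geo.subspaceStabilizer W ↔ ∀ v, v ∈ W ↔ (g : Matrix ι ι F) *ᵥ v ∈ W := Iff.rfl

theorem mem_subspaceStabilizer_iff_map (g : GL ι F) (φ : (ι → F) ≃ₗ[F] (ι → F))
    (hφ : ∀ v, φ v = (g : Matrix ι ι F) *ᵥ v) (W : Submodule F (ι → F)) :
    g ∈ Cfsg.Geo.subspaceStabilizer W ↔ W.map (φ : (ι → F) →ₗ[F] (ι → F)) = W := by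
  rw [mem_subspaceStabilizer_iff]
  simp only [← hφ]
  constructor
  · intro h
    apply le_antisymm
    · rintro _ ⟨v, hv, rfl⟩
      exact (h v).mp hv
    · intro w hw
      refine ⟨φ.symm w, (h _).mpr (by rw [LinearEquiv.apply_symm_apply]; exact hw), ?_⟩
      exact φ.apply_symm_apply w
  · intro h v
    constructor
    · intro hv
      rw [← h]
      exact ⟨v, hv, rfl⟩
    · intro hv
      rw [← h] at hv
      obtain ⟨u, hu, huv⟩ := hv
      have : u = v := φ.injective huv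
      rwa [← this]

theorem exists_between {G : Type*} [Group G] (Ωs S S' : Subgroup G) (h1 : S ⊓ Ωs ≤ S')
    (h2 : ∃ g ∈ Ωs, g ∈ S' ∧ g ∉ S) (h3 : ∃ g ∈ Ωs, g ∉ S') :
    ∃ K : Subgroup G, S ⊓ Ωs < K ∧ K < Ωs := by
  refine ⟨S' ⊓ Ωs, ?_, ?_⟩
  · rw [lt_iff_le_not_ge]
    refine ⟨le_inf h1 inf_le_right, fun h => ?_⟩
    obtain ⟨g, hg, hg1, hg2⟩ := h2
    exact hg2 (h ⟨hg1, hg⟩).1
  · rw [lt_iff_le_not_ge]
    refine ⟨inf_le_right, fun h => ?_⟩
    obtain ⟨g, hg, hg1⟩ := h3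
    exact hg1 (h hg).1

/-- Non-maximality of a subspace stabiliser in `Ω` from abstract data. -/
theorem exists_between_stab (Q : QuadraticForm F (ι → F)) (Qf : (ι → F) → F)
    (hQf : ∀ v, Q v = Qf v) (W W' : Submodule F (ι → F))
    (h1 : ∀ ω ∈ commutator (IsomOf (F := F) (bet Q)),
      W.map (ω.1 : (ι → F) →ₗ[F] (ι → F)) = W → W'.map (ω.1 : (ι → F) →ₗ[F] (ι → F)) = W')
    (h2 : ∃ ω ∈ commutator (IsomOf (F := F) (bet Q)),
      W'.map (ω.1 : (ι → F) →ₗ[F] (ι → F)) = W' ∧ W.map (ω.1 : (ι → F) →ₗ[F] (ι → F)) ≠ W)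
    (h3 : ∃ ω ∈ commutator (IsomOf (F := F) (bet Q)),
      W'.map (ω.1 : (ι → F) →ₗ[F] (ι → F)) ≠ W') :
    ∃ K : Subgroup (GL ι F), Cfsg.Geo.subspaceStabilizer W ⊓ Cfsg.Geo.omegaGL Qf < K ∧
      K < Cfsg.Geo.omegaGL Qf := by
  apply exists_between _ _ (Cfsg.Geo.subspaceStabilizer W')
  · rintro g ⟨hg1, hg2⟩
    obtain ⟨ω, hω, hv⟩ := (mem_omegaGL_iff Q Qf hQf g).mp hg2
    rw [mem_subspaceStabilizer_iff_map g ω.1 hv]
    exact h1 ω hω ((mem_subspaceStabilizer_iff_map g ω.1 hv W).mp hg1)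
  · obtain ⟨ω, hω, hw1, hw2⟩ := h2
    obtain ⟨g, hg, hv⟩ := exists_omegaGL_of Q Qf hQf ω hω
    refine ⟨g, hg, ?_, ?_⟩
    · rw [mem_subspaceStabilizer_iff_map g ω.1 (fun v => (hv v).symm)]; exact hw1
    · rw [mem_subspaceStabilizer_iff_map g ω.1 (fun v => (hv v).symm)]; exact hw2
  · obtain ⟨ω, hω, hw1⟩ := h3
    obtain ⟨g, hg, hv⟩ := exists_omegaGL_of Q Qf hQf ω hω
    refine ⟨g, hg, ?_⟩
    rw [mem_subspaceStabilizer_iff_map g ω.1 (fun v => (hv v).symm)]; exact hw1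

end Cfsg.Agent.H6.Quad
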