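import Cfsg.Agent.Lib_helper6_QuadOrder

/-! Existence of singular vectors in dimension at least three; similarity in odd dimension. -/

set_option autoImplicit false

namespace Cfsg.Agent.H6.Quad

universe u v

variable {F : Type u} {V : Type v} [Field F] [AddCommGroup V] [Module F V] {Q : QuadraticForm F V}

theorem exists_singular_char_two [Finite F] [FiniteDimensional F V] (h2 : (2 : F) = 0)
    (hd : 3 ≤ Module.finrank F V) : ∃ v : V, v ≠ 0 ∧ Q v = 0 := by
  have := Fintype.ofFinite F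
  have hchar : ringChar F = 2 := by
    have : CharP F 2 := CharTwo.of_one_ne_zero_of_two_eq_zero one_ne_zero h2
    exact ringChar.eq F 2
  have : Nontrivial V := Module.nontrivial_of_finrank_pos (R := F) (by omega)
  obtain ⟨x, hx⟩ := exists_ne (0 : V)
  by_cases hQx : Q x = 0
  · exact ⟨x, hx, hQx⟩
  have hle : Submodule.span F {x} ≤ LinearMap.ker (pol Q x) := by
    rw [Submodule.span_singleton_le_iff_mem, LinearMap.mem_ker, pol_self, h2, zero_mul]
  have hfr : 2 ≤ Module.finrank F (LinearMap.ker (pol Q x)) := by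
    have h1 := LinearMap.finrank_range_add_finrank_ker (pol Q x)
    have h3 := Submodule.finrank_le (LinearMap.range (pol Q x))
    rw [Module.finrank_self] at h3
    omega
  have hlt : Submodule.span F {x} < LinearMap.ker (pol Q x) := by
    refine lt_of_le_of_ne hle fun h => ?_
    rw [← h, finrank_span_singleton hx] at hfr
    omega
  obtain ⟨y, hy, hyx⟩ := SetLike.exists_of_lt hlt
  rw [LinearMap.mem_ker] at hy
  obtain ⟨s, hs⟩ := FiniteField.isSquare_of_char_two hchar (Q y / Q x)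
  refine ⟨s • x + y, fun h => hyx ?_, ?_⟩
  · rw [eq_neg_of_add_eq_zero_right h]
    exact Submodule.neg_mem _ (Submodule.smul_mem _ _ (Submodule.mem_span_singleton_self x))
  · rw [Q_add, Q_smul, ← hs, div_mul_cancel₀ _ hQx, map_smul, LinearMap.smul_apply, hy]
    simp only [smul_eq_mul, mul_zero, add_zero]
    linear_combination Q y * h2

theorem exists_singular [Finite F] [FiniteDimensional F V]
    (hd : 3 ≤ Module.finrank F V) : ∃ v : V, v ≠ 0 ∧ Q v = 0 := by
  classical
  by_cases h2 : (2 : F) = 0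
  · exact exists_singular_char_two h2 hd
  have := Fintype.ofFinite F
  have : Nontrivial V := Module.nontrivial_of_finrank_pos (R := F) (by omega)
  obtain ⟨x, hx⟩ := exists_ne (0 : V)
  by_cases hQx : Q x = 0
  · exact ⟨x, hx, hQx⟩
  have hker : LinearMap.ker (pol Q x) ≠ ⊥ := by
    apply LinearMap.ker_ne_bot_of_finrank_lt
    rw [Module.finrank_self]; omega
  obtain ⟨u, hu, hu0⟩ := (Submodule.ne_bot_iff _).mp hker
  rw [LinearMap.mem_ker] at hu
  by_cases hQu : Q u = 0
  · exact ⟨u, hu0, hQu⟩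
  have hker2 : LinearMap.ker ((pol Q x).prod (pol Q u)) ≠ ⊥ := by
    apply LinearMap.ker_ne_bot_of_finrank_lt
    rw [Module.finrank_prod, Module.finrank_self]; omega
  obtain ⟨w, hw, hw0⟩ := (Submodule.ne_bot_iff _).mp hker2
  rw [LinearMap.mem_ker] at hw
  have hxw : pol Q x w = 0 := congrArg Prod.fst hw
  have huw : pol Q u w = 0 := congrArg Prod.snd hw
  by_cases hQw : Q w = 0
  · exact ⟨w, hw0, hQw⟩
  have hodd : Fintype.card F % 2 = 1 := by
    apply FiniteField.odd_card_of_char_ne_two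
    intro hchar
    apply h2
    have := ringChar.Nat.cast_ringChar (R := F)
    rw [hchar] at this
    exact_mod_cast this
  obtain ⟨a, b, hab⟩ := FiniteField.exists_root_sum_quadratic
    (f := Polynomial.C (Q u) * Polynomial.X ^ 2)
    (g := Polynomial.C (Q w) * Polynomial.X ^ 2 - Polynomial.C (-Q x))
    (Polynomial.degree_C_mul_X_pow 2 hQu)
    (by
      rw [Polynomial.degree_sub_C (by rw [Polynomial.degree_C_mul_X_pow 2 hQw]; norm_num),
        Polynomial.degree_C_mul_X_pow 2 hQw]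
      rfl) hodd
  simp only [Polynomial.eval_mul, Polynomial.eval_C, Polynomial.eval_pow, Polynomial.eval_X,
    Polynomial.eval_sub] at hab
  refine ⟨x + (a • u + b • w), fun h => ?_, ?_⟩
  · have h3 : pol Q x (x + (a • u + b • w)) = 0 := by rw [h, map_zero]
    rw [map_add, map_add, map_smul, map_smul, hu, hxw, pol_self] at h3
    simp only [smul_eq_mul, mul_zero, add_zero, mul_eq_zero] at h3
    rcases h3 with h3 | h3
    · exact h2 h3
    · exact hQx h3
  · rw [Q_add, Q_add, Q_smul, Q_smul]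
    simp only [map_add, map_smul, LinearMap.smul_apply, hu, hxw, huw, smul_eq_mul, mul_zero,
      add_zero]
    linear_combination hab

theorem similar_odd [Finite F] : ∀ (k : ℕ) (V₁ V₂ : Type v)
    [AddCommGroup V₁] [Module F V₁] [FiniteDimensional F V₁]
    [AddCommGroup V₂] [Module F V₂] [FiniteDimensional F V₂]
    (Q₁ : QuadraticForm F V₁) (Q₂ : QuadraticForm F V₂), (pol Q₁).Nondegenerate →
    (pol Q₂).Nondegenerate → Module.finrank F V₁ = 2 * k + 1 → Module.finrank F V₂ = 2 * k + 1 →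
    ∃ (g : V₁ ≃ₗ[F] V₂) (c : F), c ≠ 0 ∧ ∀ v, Q₂ (g v) = c * Q₁ v := by
  intro k
  induction k with
  | zero =>
    intro V₁ V₂ _ _ _ _ _ _ Q₁ Q₂ h₁ h₂ hd₁ hd₂
    have g := LinearEquiv.ofFinrankEq V₁ V₂ (by rw [hd₁, hd₂])
    obtain ⟨x, hx, hspan⟩ := finrank_eq_one_iff'.mp (show Module.finrank F V₁ = 1 by omega)
    have key : ∀ (W : Type v) [AddCommGroup W] [Module F W] (R : QuadraticForm F W),
        (pol R).Nondegenerate → ∀ y : W, y ≠ 0 → (∀ w, ∃ c : F, c • y = w) → R y ≠ 0 := by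
      intro W _ _ R hR y hy hsp h0
      apply hy
      apply hR.1
      intro w
      obtain ⟨c, rfl⟩ := hsp w
      rw [map_smul, pol_self, h0]; simp
    have hq1 := key V₁ Q₁ h₁ x hx hspan
    have hq2 := key V₂ Q₂ h₂ (g x) (by simpa using hx) (fun w => by
      obtain ⟨c, hc⟩ := hspan (g.symm w)
      exact ⟨c, by rw [← map_smul, hc, LinearEquiv.apply_symm_apply]⟩)
    refine ⟨g, Q₂ (g x) / Q₁ x, div_ne_zero hq2 hq1, fun v => ?_⟩
    obtain ⟨c, rfl⟩ := hspan v
    rw [map_smul, Q_smul, Q_smul]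
    field_simp
  | succ k ih =>
    intro V₁ V₂ _ _ _ _ _ _ Q₁ Q₂ h₁ h₂ hd₁ hd₂
    obtain ⟨e₁, he₁, hQe₁⟩ := exists_singular (Q := Q₁) (by omega)
    obtain ⟨e₂, he₂, hQe₂⟩ := exists_singular (Q := Q₂) (by omega)
    obtain ⟨f₁, hQf₁, hef₁⟩ := exists_hyp_partner h₁ he₁ hQe₁
    obtain ⟨f₂, hQf₂, hef₂⟩ := exists_hyp_partner h₂ he₂ hQe₂
    have H₁ : HypPair Q₁ e₁ f₁ := ⟨hQe₁, hQf₁, hef₁⟩
    have H₂ : HypPair Q₂ e₂ f₂ := ⟨hQe₂, hQf₂, hef₂⟩
    obtain ⟨g, c, hc, hg⟩ := ih (compl Q₁ e₁ f₁) (compl Q₂ e₂ f₂) (resQ Q₁ _) (resQ Q₂ _)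
      (H₁.nondeg_compl h₁) (H₂.nondeg_compl h₂) (by have := H₁.finrank_eq; omega)
      (by have := H₂.finrank_eq; omega)
    refine ⟨(H₁.split.trans ((LinearEquiv.refl F F).prodCongr
      ((LinearEquiv.smulOfNeZero F F c hc).prodCongr g))).trans H₂.split.symm, c, hc, fun v => ?_⟩
    change Q₂ (H₂.split.symm ((H₁.split v).1, c • (H₁.split v).2.1, g (H₁.split v).2.2)) = _
    rw [H₂.Q_split_symm]
    conv_rhs => rw [← H₁.split.symm_apply_apply v, H₁.Q_split_symm]
    simp only [hg, smul_eq_mul]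
    ring

end Cfsg.Agent.H6.Quad
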