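import Cfsg.Agent.Lib_helper6_OmegaTrans
import Cfsg.Agent.Lib_helper6_QuadIso

/-! The centraliser of `Ω` consists of scalars. -/

set_option autoImplicit false

namespace Cfsg.Agent.H6.Quad

variable {F V : Type*} [Field F] [AddCommGroup V] [Module F V] {Q : QuadraticForm F V}
variable [FiniteDimensional F V]

theorem Rf_mul_Rf_mem [Finite F] (hQ : (pol Q).Nondegenerate) (u w : V) (hu : Q u ≠ 0)
    (hw : Q w ≠ 0) (h : Q u = Q w) :
    Rf hQ u hu * Rf hQ w hw ∈ commutator (IsomOf (F := F) (bet Q)) := by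
  rw [← Abelianization.ker_of, MonoidHom.mem_ker, map_mul,
    ← of_Rf_eq hQ u w hu hw (s := 1) (by rw [h]; ring), ← map_mul, Rf_mul_self, map_one]

theorem Rf_mul_Rf_add_apply (hQ : (pol Q).Nondegenerate) {u x : V} (hu : Q u ≠ 0)
    (hw : Q (u + x) ≠ 0) (hx : Q x = 0) (hux : pol Q u x = 0) (v : V) :
    (Rf hQ u hu * Rf hQ (u + x) hw).1 v =
      v + (pol Q v x / Q u) • u - ((pol Q v u + pol Q v x) / Q u) • x := by
  have hQw : Q (u + x) = Q u := by rw [Q_add, hx, hux]; ring
  change (Rf hQ u hu).1 ((Rf hQ (u + x) hw).1 v) = _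
  rw [Rf_apply, Rf_apply, hQw]
  have hxu : pol Q x u = 0 := by rw [pol_comm, hux]
  simp only [map_add, map_sub, map_smul, LinearMap.add_apply, LinearMap.sub_apply,
    LinearMap.smul_apply, smul_eq_mul, pol_self, hxu]
  match_scalars <;> field_simp <;> ring

variable [Finite F]

/-- An isometry centralising `Ω` stabilises every singular line. -/
theorem exists_smul_of_centralizes (hQ : (pol Q).Nondegenerate) (hn : 3 ≤ Module.finrank F V)
    (z : IsomOf (F := F) (bet Q))
    (hz : ∀ g ∈ commutator (IsomOf (F := F) (bet Q)), g * z = z * g) {x : V} (hx0 : x ≠ 0)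
    (hx : Q x = 0) : ∃ b : F, z.1 x = b • x := by
  have hex : ∃ u ∈ (pol Q).orthogonal (Submodule.span F {x}), Q u ≠ 0 := by
    by_contra hcon
    push Not at hcon
    have h1 := two_mul_finrank_le hQ _ hcon
    rw [LinearMap.BilinForm.finrank_orthogonal hQ, finrank_span_singleton hx0] at h1
    omega
  obtain ⟨u, hux', hu⟩ := hex
  have hxu : pol Q x u = 0 :=
    LinearMap.BilinForm.mem_orthogonal_iff.mp hux' x (Submodule.mem_span_singleton_self x)
  have hux : pol Q u x = 0 := by rw [pol_comm, hxu]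
  have hQw : Q (u + x) = Q u := by rw [Q_add, hx, hux]; ring
  have hw : Q (u + x) ≠ 0 := by rw [hQw]; exact hu
  have hu_not : u ∉ Submodule.span F {x} := by
    intro h
    obtain ⟨t, rfl⟩ := Submodule.mem_span_singleton.mp h
    rw [Q_smul, hx, mul_zero] at hu
    exact hu rfl
  obtain ⟨v₀, hv₀x, hv₀u⟩ := exists_orth_nonorth hQ _ hu_not
  have hxv : pol Q v₀ x = 0 := by
    rw [pol_comm]; exact hv₀x x (Submodule.mem_span_singleton_self x)
  have hvu : pol Q v₀ u ≠ 0 := by rw [pol_comm]; exact hv₀u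
  have hcomm := hz _ (Rf_mul_Rf_mem hQ u (u + x) hu hw hQw.symm)
  have h1 : (Rf hQ u hu * Rf hQ (u + x) hw).1 (z.1 v₀) =
      z.1 ((Rf hQ u hu * Rf hQ (u + x) hw).1 v₀) := by
    have := congrArg (fun g : IsomOf (F := F) (bet Q) => g.1 v₀) hcomm
    exact this
  rw [Rf_mul_Rf_add_apply hQ hu hw hx hux, Rf_mul_Rf_add_apply hQ hu hw hx hux, hxv] at h1
  simp only [zero_div, zero_smul, add_zero, map_sub, map_smul] at h1
  -- `z x` is a combination of `u` and `x`
  set c := pol Q v₀ u / Q u with hc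
  have hc0 : c ≠ 0 := div_ne_zero hvu hu
  set a := pol Q (z.1 v₀) x / Q u with ha
  set b := (pol Q (z.1 v₀) u + pol Q (z.1 v₀) x) / Q u with hb
  have h2 : z.1 x = (-(a / c)) • u + (b / c) • x := by
    have h3 : c • z.1 x = (-a) • u + b • x := by
      have : z.1 v₀ + a • u - b • x = z.1 v₀ - c • z.1 x := h1
      have h4 : c • z.1 x = z.1 v₀ - (z.1 v₀ + a • u - b • x) := by rw [this]; abel
      rw [h4]; module
    have : z.1 x = c⁻¹ • (c • z.1 x) := by rw [smul_smul, inv_mul_cancel₀ hc0, one_smul]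
    rw [this, h3, smul_add, smul_smul, smul_smul]
    congr 1 <;> congr 1 <;> field_simp
  have h5 : Q (z.1 x) = 0 := by rw [mem_IsomOf_iff.mp z.2, hx]
  rw [h2, Q_add, Q_smul, Q_smul, hx] at h5
  simp only [map_smul, LinearMap.smul_apply, hux, mul_zero, smul_zero, add_zero] at h5
  have h6 : -(a / c) = 0 := by
    rcases mul_eq_zero.mp h5 with h | h
    · exact mul_self_eq_zero.mp h
    · exact absurd h hu
  rw [h6, zero_smul, zero_add] at h2
  exact ⟨_, h2⟩

theorem eq_of_orthogonal_singular (z : V →ₗ[F] V) (hs : ∀ x, x ≠ 0 → Q x = 0 → ∃ b : F, z x = b • x)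
    {x y : V} (hx0 : x ≠ 0) (hy0 : y ≠ 0) (hx : Q x = 0) (hy : Q y = 0) (hxy : pol Q x y = 0)
    {a b : F} (ha : z x = a • x) (hb : z y = b • y) : a = b := by
  by_cases hsum : x + y = 0
  · have : y = -x := (neg_eq_of_add_eq_zero_right hsum).symm
    rw [this, map_neg, ha, smul_neg] at hb
    have h1 : (a - b) • x = 0 := by
      rw [sub_smul, sub_eq_zero]
      exact neg_injective hb
    rcases smul_eq_zero.mp h1 with h | h
    · exact sub_eq_zero.mp h
    · exact absurd h hx0
  · obtain ⟨c, hc⟩ := hs (x + y) hsum (by rw [Q_add, hx, hy, hxy]; ring)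
    rw [map_add, ha, hb, smul_add] at hc
    have h1 : (a - c) • x = (c - b) • y := by
      rw [sub_smul, sub_smul, sub_eq_sub_iff_add_eq_add, hc, add_comm]
    by_cases hac : a = c
    · rw [hac, sub_self, zero_smul] at h1
      rcases smul_eq_zero.mp h1.symm with h | h
      · rw [hac]; exact sub_eq_zero.mp h
      · exact absurd h hy0
    · have hac' : a - c ≠ 0 := sub_ne_zero.mpr hac
      have h2 : x = ((a - c)⁻¹ * (c - b)) • y := by
        rw [mul_smul, ← h1, smul_smul, inv_mul_cancel₀ hac', one_smul]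
      have h3 : z x = b • x := by
        rw [h2, map_smul, hb, smul_comm]
      rw [ha] at h3
      have h4 : (a - b) • x = 0 := by rw [sub_smul, h3, sub_self]
      rcases smul_eq_zero.mp h4 with h | h
      · exact sub_eq_zero.mp h
      · exact absurd h hx0

/-- An isometry centralising `Ω` is `±1`. -/
theorem eq_one_or_neg_of_centralizes (hQ : (pol Q).Nondegenerate) (hn : 5 ≤ Module.finrank F V)
    (z : IsomOf (F := F) (bet Q))
    (hz : ∀ g ∈ commutator (IsomOf (F := F) (bet Q)), g * z = z * g) : z = 1 ∨ z = negO Q := by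
  have hs : ∀ x, x ≠ 0 → Q x = 0 → ∃ b : F, (z.1 : V →ₗ[F] V) x = b • x := fun x hx0 hx =>
    exists_smul_of_centralizes hQ (by omega) z hz hx0 hx
  obtain ⟨e, he0, hQe⟩ := exists_singular (Q := Q) (by omega)
  obtain ⟨f, hQf, hef⟩ := exists_hyp_partner hQ he0 hQe
  have H : HypPair Q e f := ⟨hQe, hQf, hef⟩
  obtain ⟨l, hl⟩ := hs e he0 hQe
  have hall : ∀ y, Q y = 0 → (z.1 : V →ₗ[F] V) y = l • y := by
    intro y hy
    by_cases hy0 : y = 0
    · rw [hy0]; simp
    obtain ⟨b, hb⟩ := hs y hy0 hy
    by_cases hey : pol Q e y = 0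
    · rw [hb, eq_of_orthogonal_singular _ hs he0 hy0 hQe hy hey hl hb]
    · set P := (pol Q).orthogonal (Submodule.span F {e, y}) with hP
      have hPd : 3 ≤ Module.finrank F P := by
        rw [hP, LinearMap.BilinForm.finrank_orthogonal hQ]
        classical
        have : Module.finrank F (Submodule.span F (({e, y} : Finset V) : Set V)) ≤
            ({e, y} : Finset V).card := finrank_span_finset_le_card (R := F) ({e, y} : Finset V)
        have h2 : ({e, y} : Finset V).card ≤ 2 := Finset.card_le_two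
        have h3 : Submodule.span F ({e, y} : Set V) = Submodule.span F (({e, y} : Finset V) : Set V) := by
          simp
        rw [h3]
        omega
      obtain ⟨p, hp0, hQp⟩ := exists_singular (Q := resQ Q P) hPd
      rw [resQ_apply] at hQp
      have hp0' : (p : V) ≠ 0 := fun h => hp0 (Subtype.ext h)
      have hpm := LinearMap.BilinForm.mem_orthogonal_iff.mp p.2
      have hep : pol Q e p = 0 := hpm e (Submodule.subset_span (by simp))
      have hyp : pol Q y p = 0 := hpm y (Submodule.subset_span (by simp))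
      obtain ⟨c, hc⟩ := hs p hp0' hQp
      rw [hb, eq_of_orthogonal_singular _ hs hy0 hp0' hy hQp hyp hb hc,
        ← eq_of_orthogonal_singular _ hs he0 hp0' hQe hQp hep hl hc]
  have hscal : ∀ v, z.1 v = l • v := by
    intro v
    set p := ((H.split v).2.2 : V) with hp
    have hpm : p ∈ compl Q e f := (H.split v).2.2.2
    have hdec := H.decomp v
    have hsing : Q (p + e - Q p • f) = 0 := by
      have := H.Q_decomp 1 (-(Q p)) hpm
      have e1 : (1 : F) • e + (-(Q p)) • f + p = p + e - Q p • f := by module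
      rw [e1] at this
      rw [this]; ring
    have hzp : (z.1 : V →ₗ[F] V) p = l • p := by
      have e2 : p = (p + e - Q p • f) - e + Q p • f := by abel
      conv_lhs => rw [e2]
      rw [map_add, map_sub, map_smul, hall _ hsing, hall _ hQe, hall _ hQf]
      module
    change (z.1 : V →ₗ[F] V) v = _
    conv_lhs => rw [hdec]
    rw [map_add, map_add, map_smul, map_smul, hall _ hQe, hall _ hQf, ← hp, hzp]
    conv_rhs => rw [hdec]
    rw [← hp]
    module
  have hl2 : l * l = 1 := by
    have h1 : pol Q (z.1 e) (z.1 f) = pol Q e f := by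
      apply pol_map (T := (z.1 : V →ₗ[F] V)) (mem_IsomOf_iff.mp z.2)
    rw [hscal, hscal] at h1
    simp only [map_smul, LinearMap.smul_apply, hef, smul_eq_mul, mul_one] at h1
    exact h1
  rcases mul_self_eq_one_iff.mp hl2 with rfl | rfl
  · left
    apply Subtype.ext
    ext v
    rw [hscal, one_smul]; rfl
  · right
    apply Subtype.ext
    ext v
    rw [hscal, negO_apply, neg_smul, one_smul]

end Cfsg.Agent.H6.Quad

namespace Cfsg.Agent.H6.Quad

variable {F : Type*} [Field F] [Finite F] {ι : Type} [Fintype ι] [DecidableEq ι]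

theorem val_of_mem_center (Q : QuadraticForm F (ι → F)) (hQ : (pol Q).Nondegenerate)
    (hn : 5 ≤ Fintype.card ι) (Qf : (ι → F) → F) (hQf : ∀ v, Q v = Qf v)
    (z : Cfsg.Omega F Qf) (hz : z ∈ Subgroup.center (Cfsg.Omega F Qf)) :
    ((z.1 : Matrix.GeneralLinearGroup ι F) : Matrix ι ι F) = 1 ∨
      ((z.1 : Matrix.GeneralLinearGroup ι F) : Matrix ι ι F) = -1 := by
  set e := isometryGroupEquiv Q Qf hQf with he
  have h := eq_one_or_neg_of_centralizes hQ (by simpa using hn) (e z.1) (by
    intro g' hg'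
    have hg : e.symm g' ∈ Cfsg.Omega F Qf := by
      rw [mem_commutator_equiv e, MulEquiv.apply_symm_apply]; exact hg'
    have h1 := Subgroup.mem_center_iff.mp hz ⟨e.symm g', hg⟩
    have h2 := congrArg (fun x : Cfsg.Omega F Qf => e x.1) h1
    simp only [Subgroup.coe_mul, map_mul, MulEquiv.apply_symm_apply] at h2
    exact h2)
  rcases h with h | h
  · left
    have : z.1 = 1 := e.injective (by rw [h, map_one])
    rw [this]; rfl
  · right
    apply Matrix.ext_iff_mulVec.mpr
    intro x
    rw [← isometryGroupEquiv_apply Q Qf hQf, ← he, h, negO_apply, Matrix.neg_mulVec,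
      Matrix.one_mulVec]

theorem card_center_Omega_of_mem (h2 : (2 : F) ≠ 0) [Nonempty ι] (Q : QuadraticForm F (ι → F))
    (hQ : (pol Q).Nondegenerate)
    (hn : 5 ≤ Fintype.card ι) (Qf : (ι → F) → F) (hQf : ∀ v, Q v = Qf v)
    (h : ∃ g : Cfsg.isometryGroup F Qf, g ∈ Cfsg.Omega F Qf ∧
      ((g : Matrix.GeneralLinearGroup ι F) : Matrix ι ι F) = -1) :
    Nat.card (Subgroup.center (Cfsg.Omega F Qf)) = 2 := by
  obtain ⟨g, hg, hgv⟩ := h
  have hgc : (⟨g, hg⟩ : Cfsg.Omega F Qf) ∈ Subgroup.center (Cfsg.Omega F Qf) := by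
    rw [Subgroup.mem_center_iff]
    intro x
    apply Subtype.ext
    apply Subtype.ext
    apply Units.ext
    change x.1.1.1 * g.1.1 = g.1.1 * x.1.1.1
    rw [hgv]; simp
  rw [Nat.card_eq_two_iff]
  refine ⟨1, ⟨⟨g, hg⟩, hgc⟩, ?_, ?_⟩
  · intro h1
    have h3 : (1 : Matrix ι ι F) = -1 := by
      rw [← hgv]
      have := congrArg (fun x : Subgroup.center (Cfsg.Omega F Qf) => x.1.1.1.1) h1
      exact this
    obtain ⟨i⟩ := ‹Nonempty ι›
    have h4 := congrFun (congrFun h3 i) i
    simp only [Matrix.one_apply_eq, Matrix.neg_apply] at h4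
    apply h2
    linear_combination h4
  · rw [Set.eq_univ_iff_forall]
    intro z
    rcases val_of_mem_center Q hQ hn Qf hQf z.1 z.2 with h1 | h1
    · left
      apply Subtype.ext
      apply Subtype.ext
      apply Subtype.ext
      apply Units.ext
      exact h1
    · right
      apply Subtype.ext
      apply Subtype.ext
      apply Subtype.ext
      apply Units.ext
      exact h1.trans hgv.symm

theorem card_center_Omega_of_not_mem (Q : QuadraticForm F (ι → F))
    (hQ : (pol Q).Nondegenerate)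
    (hn : 5 ≤ Fintype.card ι) (Qf : (ι → F) → F) (hQf : ∀ v, Q v = Qf v)
    (h : (2 : F) = 0 ∨ ¬ ∃ g : Cfsg.isometryGroup F Qf, g ∈ Cfsg.Omega F Qf ∧
      ((g : Matrix.GeneralLinearGroup ι F) : Matrix ι ι F) = -1) :
    Nat.card (Subgroup.center (Cfsg.Omega F Qf)) = 1 := by
  have : Subgroup.center (Cfsg.Omega F Qf) = ⊥ := by
    rw [eq_bot_iff]
    intro z hz
    rw [Subgroup.mem_bot]
    have h1 : ((z.1 : Matrix.GeneralLinearGroup ι F) : Matrix ι ι F) = 1 := by
      rcases val_of_mem_center Q hQ hn Qf hQf z hz with h1 | h1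
      · exact h1
      · rcases h with h | h
        · rw [h1]
          have : (-1 : F) = 1 := by linear_combination -h
          ext i j
          by_cases hij : i = j
          · subst hij; simp [this]
          · simp [hij]
        · exact absurd ⟨z.1, z.2, h1⟩ h
    apply Subtype.ext
    apply Subtype.ext
    apply Units.ext
    exact h1
  rw [this]
  exact Subgroup.card_bot

theorem card_POmega_mul (Qf : (ι → F) → F) :
    Nat.card (Cfsg.POmega F Qf) * Nat.card (Subgroup.center (Cfsg.Omega F Qf)) *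
      (Cfsg.Omega F Qf).index = Nat.card (Cfsg.isometryGroup F Qf) := by
  rw [← Subgroup.card_eq_card_quotient_mul_card_subgroup, Subgroup.card_mul_index]

theorem index_Omega_odd (h2 : (2 : F) ≠ 0) (Q : QuadraticForm F (ι → F))
    (hQ : (pol Q).Nondegenerate) (hd : 2 ≤ Fintype.card ι) (Qf : (ι → F) → F)
    (hQf : ∀ v, Q v = Qf v) : (Cfsg.Omega F Qf).index = 4 := by
  rw [index_commutator_equiv (isometryGroupEquiv Q Qf hQf)]
  exact index_commutator h2 hQ (by simpa using hd)

end Cfsg.Agent.H6.Quad
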