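import Cfsg.Agent.Lib_helper6_DicksonMat
import Cfsg.Agent.Lib_helper6_OBlock

/-! Reflection-preserving homomorphisms between orthogonal groups reflect membership in `Ω`. -/

set_option autoImplicit false

namespace Cfsg.Agent.H6.Quad

variable {F V₁ V : Type*} [Field F] [AddCommGroup V₁] [Module F V₁] [FiniteDimensional F V₁]
  [AddCommGroup V] [Module F V] [FiniteDimensional F V]
  {Q₁ : QuadraticForm F V₁} {Q : QuadraticForm F V}

theorem mem_commutator_iff_of_Rf_hom [Finite F] (hQ₁ : (pol Q₁).Nondegenerate)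
    (hQ : (pol Q).Nondegenerate) (hex₁ : Nat.card F ≠ 2 ∨ Module.finrank F V₁ ≠ 4)
    (hex : Nat.card F ≠ 2 ∨ Module.finrank F V ≠ 4)
    (hle : Module.finrank F V₁ ≤ Module.finrank F V)
    (φ : IsomOf (F := F) (bet Q₁) →* IsomOf (F := F) (bet Q)) (j : V₁ → V)
    (hj : ∀ u, Q (j u) = Q₁ u)
    (hφ : ∀ u hu hu', φ (Rf hQ₁ u hu) = Rf hQ (j u) hu') (g : IsomOf (F := F) (bet Q₁)) :
    φ g ∈ commutator (IsomOf (F := F) (bet Q)) ↔ g ∈ commutator (IsomOf (F := F) (bet Q₁)) := by
  classical
  have hj' : ∀ u, Q₁ u ≠ 0 → Q (j u) ≠ 0 := fun u hu => by rw [hj]; exact hu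
  have hdick : (dick hQ).comp φ = dick hQ₁ := by
    apply hom_ext_of_Rf hQ₁ hex₁
    intro u hu
    rw [MonoidHom.comp_apply, hφ u hu (hj' u hu), dick_Rf, dick_Rf]
  by_cases h2 : (2 : F) = 0
  · rw [mem_commutator_iff_dick h2 hQ hex, mem_commutator_iff_dick h2 hQ₁ hex₁, ← hdick]
    rfl
  by_cases hd : 2 ≤ Module.finrank F V₁
  · have := Fintype.ofFinite F
    obtain ⟨α, hα⟩ := FiniteField.exists_nonsquare (F := F) (by
      intro hchar
      apply h2
      have := ringChar.Nat.cast_ringChar (R := F)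
      rw [hchar] at this
      exact_mod_cast this)
    have hchi : ∀ e : F, (e = 1 ∨ e = α) → (chi Q e).comp φ = chi Q₁ e := by
      intro e he
      apply hom_ext_of_Rf hQ₁ hex₁
      intro u hu
      rw [MonoidHom.comp_apply, hφ u hu (hj' u hu)]
      by_cases hs : IsSquare (Q₁ u)
      · obtain ⟨a1, a2⟩ := chi_Rf_of_sq h2 hQ₁ hα u hu hs
        obtain ⟨b1, b2⟩ := chi_Rf_of_sq h2 hQ hα (j u) (hj' u hu) (by rw [hj]; exact hs)
        rcases he with rfl | rfl
        · rw [a1, b1]
        · rw [a2, b2]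
      · obtain ⟨a1, a2⟩ := chi_Rf_of_not_sq h2 hQ₁ hα u hu hs
        obtain ⟨b1, b2⟩ := chi_Rf_of_not_sq h2 hQ hα (j u) (hj' u hu) (by rw [hj]; exact hs)
        rcases he with rfl | rfl
        · rw [a1, b1]
        · rw [a2, b2]
    rw [mem_commutator_iff h2 hQ (hd.trans hle) hα, mem_commutator_iff h2 hQ₁ hd hα,
      ← hchi 1 (Or.inl rfl), ← hchi α (Or.inr rfl)]
    rfl
  · constructor
    · intro h
      have h1 : dick hQ₁ g = 1 := by
        rw [← hdick]
        exact Abelianization.commutator_subset_ker (dick hQ) h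
      rw [dick_apply, neg_one_pow_eq_one_iff_even (by decide)] at h1
      have h3 := Submodule.finrank_le (LinearMap.range ((g.1 : V₁ →ₗ[F] V₁) - LinearMap.id))
      have h4 : Module.finrank F (LinearMap.range ((g.1 : V₁ →ₗ[F] V₁) - LinearMap.id)) = 0 := by
        obtain ⟨k, hk⟩ := h1
        omega
      rw [Submodule.finrank_eq_zero, LinearMap.range_eq_bot] at h4
      have : g = 1 := by
        apply Subtype.ext
        ext v
        have := LinearMap.congr_fun h4 v
        exact sub_eq_zero.mp this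
      rw [this]
      exact one_mem _
    · intro h
      exact map_mem_commutator φ h

end Cfsg.Agent.H6.Quad
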