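import Cfsg.Agent.Lib_helper6_OmegaCenter

/-! Generation of `Ω` by Siegel elements `R_a R_{a+x}`; adjusting isometries into `Ω`. -/

set_option autoImplicit false

namespace Cfsg.Agent.H6.Quad

variable {F V : Type*} [Field F] [AddCommGroup V] [Module F V] {Q : QuadraticForm F V}
variable [FiniteDimensional F V]

omit [FiniteDimensional F V] in
theorem finrank_span_pair_le (a b : V) : Module.finrank F (Submodule.span F ({a, b} : Set V)) ≤ 2 := by
  classical
  have h1 : Module.finrank F (Submodule.span F (({a, b} : Finset V) : Set V)) ≤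
      ({a, b} : Finset V).card := finrank_span_finset_le_card (R := F) ({a, b} : Finset V)
  have h2 : ({a, b} : Finset V).card ≤ 2 := Finset.card_le_two
  have h3 : Submodule.span F ({a, b} : Set V) = Submodule.span F (({a, b} : Finset V) : Set V) := by
    simp
  rw [h3]
  omega

/-- A hyperbolic pair orthogonal to a small subspace. -/
theorem exists_hyp_in_orth [Finite F] (hQ : (pol Q).Nondegenerate) (S : Submodule F V)
    (hS : 2 * Module.finrank F S + 3 ≤ Module.finrank F V) :
    ∃ e f, HypPair Q e f ∧ (∀ s ∈ S, pol Q s e = 0) ∧ (∀ s ∈ S, pol Q s f = 0) := by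
  obtain ⟨C', hC'⟩ := Submodule.exists_isCompl S
  set P := (pol Q).orthogonal S with hP
  have hPd : Module.finrank F P = Module.finrank F V - Module.finrank F S :=
    LinearMap.BilinForm.finrank_orthogonal hQ S
  have hCd : Module.finrank F S + Module.finrank F C' = Module.finrank F V :=
    Submodule.finrank_add_eq_of_isCompl hC'
  have h1 := Submodule.finrank_sup_add_finrank_inf_eq C' P
  have h2 : Module.finrank F ↥(C' ⊔ P) ≤ Module.finrank F V := Submodule.finrank_le _
  have h3 : 3 ≤ Module.finrank F ↥(C' ⊓ P) := by omega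
  obtain ⟨p, hp0, hQp⟩ := exists_singular (Q := resQ Q (C' ⊓ P)) h3
  rw [resQ_apply] at hQp
  have hp0' : (p : V) ≠ 0 := fun h => hp0 (Subtype.ext h)
  have hpC : (p : V) ∈ C' := p.2.1
  have hpP : (p : V) ∈ P := p.2.2
  have hpS : (p : V) ∉ S := by
    intro h
    apply hp0'
    have : (p : V) ∈ S ⊓ C' := ⟨h, hpC⟩
    rwa [hC'.inf_eq_bot, Submodule.mem_bot] at this
  obtain ⟨w, hwS, hpw⟩ := exists_orth_nonorth hQ S hpS
  have hSp : ∀ s ∈ S, pol Q s p = 0 := fun s hs => LinearMap.BilinForm.mem_orthogonal_iff.mp hpP s hs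
  obtain ⟨w', hw'S, hpw'⟩ : ∃ w', (∀ s ∈ S, pol Q s w' = 0) ∧ pol Q p w' = 1 :=
    ⟨(pol Q p w)⁻¹ • w, fun s hs => by rw [map_smul, hwS s hs, smul_zero],
      by rw [map_smul, smul_eq_mul, inv_mul_cancel₀ hpw]⟩
  refine ⟨p, w' - Q w' • (p : V), ⟨hQp, ?_, ?_⟩, hSp, fun s hs => ?_⟩
  · rw [Q_sub, Q_smul, hQp, map_smul, pol_comm, hpw']; simp
  · rw [map_sub, map_smul, hpw', pol_self, hQp]; simp
  · rw [map_sub, map_smul, hSp s hs, hw'S s hs]; simp

/-- `Ω` lies in every subgroup containing the products of two reflections of equal norm. -/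
theorem commutator_le_of_pairs [Finite F] (hQ : (pol Q).Nondegenerate)
    (hex : Nat.card F ≠ 2 ∨ Module.finrank F V ≠ 4) (T : Subgroup (IsomOf (F := F) (bet Q)))
    (hT : ∀ (u u' : V) (hu : Q u ≠ 0) (hu' : Q u' ≠ 0), Q u = Q u' → Rf hQ u hu * Rf hQ u' hu' ∈ T) :
    commutator (IsomOf (F := F) (bet Q)) ≤ T := by
  set S₀ : Set (IsomOf (F := F) (bet Q)) :=
    {g | ∃ (u u' : V) (hu : Q u ≠ 0) (hu' : Q u' ≠ 0), Q u = Q u' ∧ g = Rf hQ u hu * Rf hQ u' hu'}
    with hS₀
  set N := Subgroup.normalClosure S₀ with hN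
  have hNT : N ≤ T := by
    rw [hN, Subgroup.normalClosure, Subgroup.closure_le]
    intro g hg
    obtain ⟨b, ⟨u, u', hu, hu', huu, rfl⟩, hb⟩ := Group.mem_conjugatesOfSet_iff.mp hg
    obtain ⟨k, hk⟩ := isConj_iff.mp hb
    have hku : Q (k.1 u) ≠ 0 := by rw [mem_IsomOf_iff.mp k.2]; exact hu
    have hku' : Q (k.1 u') ≠ 0 := by rw [mem_IsomOf_iff.mp k.2]; exact hu'
    have : g = Rf hQ (k.1 u) hku * Rf hQ (k.1 u') hku' := by
      rw [← hk, ← conj_Rf hQ u hu k hku, ← conj_Rf hQ u' hu' k hku']; group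
    rw [this]
    exact hT _ _ _ _ (by rw [mem_IsomOf_iff.mp k.2, mem_IsomOf_iff.mp k.2, huu])
  refine le_trans ?_ hNT
  set π := QuotientGroup.mk' N with hπ
  have hbase : ∀ (u w : V) (hu : Q u ≠ 0) (hw : Q w ≠ 0),
      Commute (π (Rf hQ u hu)) (π (Rf hQ w hw)) := by
    intro u w hu hw
    have hk : Q ((Rf hQ w hw).1 u) ≠ 0 := by rw [mem_IsomOf_iff.mp (Rf hQ w hw).2]; exact hu
    have h1 : Rf hQ u hu * Rf hQ ((Rf hQ w hw).1 u) hk ∈ N :=
      Subgroup.subset_normalClosure ⟨u, _, hu, hk, by rw [mem_IsomOf_iff.mp (Rf hQ w hw).2], rfl⟩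
    rw [← conj_Rf hQ u hu (Rf hQ w hw) hk] at h1
    have hwi : (Rf hQ w hw)⁻¹ = Rf hQ w hw := inv_eq_of_mul_eq_one_left (Rf_mul_self hQ w hw)
    have hui : (Rf hQ u hu)⁻¹ = Rf hQ u hu := inv_eq_of_mul_eq_one_left (Rf_mul_self hQ u hu)
    rw [hwi] at h1
    have h2 : π (Rf hQ u hu * (Rf hQ w hw * Rf hQ u hu * Rf hQ w hw)) = 1 :=
      (QuotientGroup.eq_one_iff _).mpr h1
    have h3 : π (Rf hQ u hu) * π (Rf hQ u hu) = 1 := by rw [← map_mul, Rf_mul_self, map_one]
    have h4 : π (Rf hQ w hw) * π (Rf hQ w hw) = 1 := by rw [← map_mul, Rf_mul_self, map_one]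
    simp only [map_mul] at h2
    change π (Rf hQ u hu) * π (Rf hQ w hw) = π (Rf hQ w hw) * π (Rf hQ u hu)
    set a := π (Rf hQ u hu)
    set b := π (Rf hQ w hw)
    calc a * b = a * b * (a * (b * a * b))⁻¹ := by rw [h2]; simp
      _ = a * b * (b⁻¹ * a⁻¹ * b⁻¹ * a⁻¹) := by group
      _ = b⁻¹ * a⁻¹ := by group
      _ = b * a := by
        rw [inv_eq_of_mul_eq_one_left h3, inv_eq_of_mul_eq_one_left h4]
  have hmem : ∀ g : IsomOf (F := F) (bet Q),
      g ∈ Subgroup.closure {g : IsomOf (F := F) (bet Q) | ∃ u hu, g = Rf hQ u hu} := by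
    intro g; rw [closure_Rf hQ hex]; trivial
  have h1 : ∀ (w : V) (hw : Q w ≠ 0) (g : IsomOf (F := F) (bet Q)),
      Commute (π g) (π (Rf hQ w hw)) := by
    intro w hw g
    induction hmem g using Subgroup.closure_induction with
    | mem x hx =>
      obtain ⟨u, hu, rfl⟩ := hx
      exact hbase u w hu hw
    | one => rw [map_one]; exact Commute.one_left _
    | mul x y _ _ hx hy => rw [map_mul]; exact hx.mul_left hy
    | inv x _ hx => rw [map_inv]; exact hx.inv_left
  have h2 : ∀ g h : IsomOf (F := F) (bet Q), Commute (π g) (π h) := by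
    intro g h
    induction hmem h using Subgroup.closure_induction with
    | mem x hx =>
      obtain ⟨u, hu, rfl⟩ := hx
      exact h1 u hu g
    | one => rw [map_one]; exact Commute.one_right _
    | mul x y _ _ hx hy => rw [map_mul]; exact hx.mul_right hy
    | inv x _ hx => rw [map_inv]; exact hx.inv_right
  rw [commutator_def, Subgroup.commutator_le]
  intro g _ h _
  rw [← QuotientGroup.eq_one_iff, ← QuotientGroup.mk'_apply, ← hπ, map_commutatorElement]
  exact commutatorElement_eq_one_iff_commute.mpr (h2 g h)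

/-- A vector orthogonal to all singular vectors of `u^⊥` is a multiple of `u`. -/
theorem mem_span_of_orth_singular [Finite F] (hQ : (pol Q).Nondegenerate)
    (hn : 5 ≤ Module.finrank F V) {u u' : V}
    (h : ∀ y, Q y = 0 → pol Q u y = 0 → pol Q y u' = 0) : u' ∈ Submodule.span F {u} := by
  by_contra hcon
  obtain ⟨w, hw1, hw2⟩ := exists_orth_nonorth hQ _ hcon
  have huw : pol Q u w = 0 := hw1 u (Submodule.mem_span_singleton_self u)
  obtain ⟨e, f, H, he, hf⟩ := exists_hyp_in_orth hQ (Submodule.span F {u}) (by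
    have := finrank_span_le_card (R := F) ({u} : Set V)
    simp only [Set.toFinset_singleton, Finset.card_singleton] at this
    omega)
  have hue : pol Q u e = 0 := he u (Submodule.mem_span_singleton_self u)
  have huf : pol Q u f = 0 := hf u (Submodule.mem_span_singleton_self u)
  apply hw2
  set p := ((H.split w).2.2 : V) with hp
  have hpm : p ∈ compl Q e f := (H.split w).2.2.2
  have hdec := H.decomp w
  rw [← hp] at hdec
  have hup : pol Q u p = 0 := by
    have : p = w - pol Q f w • e - pol Q e w • f := by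
      generalize pol Q f w = a at hdec ⊢
      generalize pol Q e w = b at hdec ⊢
      rw [hdec]
      abel
    rw [this, map_sub, map_sub, map_smul, map_smul, huw, hue, huf]; simp
  have hsing : Q (p + e - Q p • f) = 0 := by
    have := H.Q_decomp 1 (-(Q p)) hpm
    have e1 : (1 : F) • e + (-(Q p)) • f + p = p + e - Q p • f := by module
    rw [e1] at this
    rw [this]; ring
  have h1 := h _ hsing (by rw [map_sub, map_add, map_smul, hup, hue, huf]; simp)
  have h2 := h e H.e0 hue
  have h3 := h f H.f0 huf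
  simp only [map_sub, map_add, map_smul, LinearMap.sub_apply, LinearMap.add_apply,
    LinearMap.smul_apply, h2, h3] at h1
  rw [pol_comm, hdec]
  simp only [map_add, map_smul, LinearMap.add_apply, LinearMap.smul_apply, h2, h3]
  simpa using h1

/-- Connectivity: a product of two reflections of equal norm is a product of Siegel elements. -/
theorem pairs_mem_of_siegel [Finite F] (hQ : (pol Q).Nondegenerate)
    (hn : 5 ≤ Module.finrank F V) (T : Subgroup (IsomOf (F := F) (bet Q)))
    (hT : ∀ (a x : V) (ha : Q a ≠ 0) (hax : Q (a + x) ≠ 0), Q x = 0 → pol Q a x = 0 →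
      Rf hQ a ha * Rf hQ (a + x) hax ∈ T)
    (u u' : V) (hu : Q u ≠ 0) (hu' : Q u' ≠ 0) (huu : Q u = Q u') :
    Rf hQ u hu * Rf hQ u' hu' ∈ T := by
  -- the basic step
  have step : ∀ (a b : V) (ha : Q a ≠ 0) (hb : Q b ≠ 0), Q a = Q b → Q (b - a) = 0 →
      Rf hQ a ha * Rf hQ b hb ∈ T := by
    intro a b ha hb hab h0
    have e1 : a + (b - a) = b := by abel
    have h1 : pol Q a (b - a) = 0 := by
      have := Q_add (Q := Q) a (b - a)
      rw [e1, h0, hab] at this
      linear_combination -this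
    have := hT a (b - a) ha (by rw [e1]; exact hb) h0 h1
    simpa only [e1] using this
  by_cases hk : Q (u' - u) = 0
  · exact step u u' hu hu' huu hk
  by_cases hy : ∃ y, Q y = 0 ∧ pol Q u y = 0 ∧ pol Q y u' ≠ 0
  · obtain ⟨y, hy0, huy, hyu'⟩ := hy
    set d := (Q (u' - u) / pol Q y u') • y with hd
    have hQd : Q d = 0 := by rw [hd, Q_smul, hy0, mul_zero]
    have hud : pol Q u d = 0 := by rw [hd, map_smul, huy, smul_zero]
    have hu'd : pol Q u' d = Q (u' - u) := by
      rw [hd, map_smul, pol_comm u' y, smul_eq_mul, div_mul_cancel₀ _ hyu']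
    have hQw : Q (u + d) = Q u := by rw [Q_add, hQd, hud]; ring
    have hw : Q (u + d) ≠ 0 := by rw [hQw]; exact hu
    have s1 := step u (u + d) hu hw hQw.symm (by rw [add_sub_cancel_left, hQd])
    have s2 := step (u + d) u' hw hu' (by rw [hQw, huu]) (by
      have : u' - (u + d) = (u' - u) - d := by abel
      rw [this, Q_sub (u' - u) d, hQd, (pol Q).map_sub, LinearMap.sub_apply, hu'd, hud]; ring)
    have := T.mul_mem s1 s2
    have e : Rf hQ u hu * Rf hQ (u + d) hw * (Rf hQ (u + d) hw * Rf hQ u' hu') =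
        Rf hQ u hu * Rf hQ u' hu' := by
      rw [mul_assoc, ← mul_assoc (Rf hQ (u + d) hw), Rf_mul_self, one_mul]
    rwa [e] at this
  · push Not at hy
    have hmem := mem_span_of_orth_singular hQ hn (u := u) (u' := u') hy
    obtain ⟨t, rfl⟩ := Submodule.mem_span_singleton.mp hmem
    have ht : t ≠ 0 := by
      rintro rfl
      rw [zero_smul, map_zero] at hu'
      exact hu' rfl
    rw [Rf_smul hQ u hu ht hu', Rf_mul_self]
    exact one_mem _

/-- `Ω` lies in every subgroup containing the Siegel elements `R_a R_{a+x}`. -/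
theorem commutator_le_of_siegel [Finite F] (hQ : (pol Q).Nondegenerate)
    (hn : 5 ≤ Module.finrank F V) (T : Subgroup (IsomOf (F := F) (bet Q)))
    (hT : ∀ (a x : V) (ha : Q a ≠ 0) (hax : Q (a + x) ≠ 0), Q x = 0 → pol Q a x = 0 →
      Rf hQ a ha * Rf hQ (a + x) hax ∈ T) :
    commutator (IsomOf (F := F) (bet Q)) ≤ T :=
  commutator_le_of_pairs hQ (Or.inr (by omega)) T (pairs_mem_of_siegel hQ hn T hT)

/-- The pointwise stabiliser of a subspace. -/
def fixO (Q : QuadraticForm F V) (S : Submodule F V) : Subgroup (IsomOf (F := F) (bet Q)) where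
  carrier := {g | ∀ s ∈ S, g.1 s = s}
  one_mem' := fun s _ => rfl
  mul_mem' {a b} ha hb := fun s hs => by
    change a.1 (b.1 s) = s
    rw [hb s hs, ha s hs]
  inv_mem' {a} ha := fun s hs => by
    have : (a⁻¹).1 (a.1 s) = s := by
      change (a⁻¹ * a).1 s = s
      rw [inv_mul_cancel]; rfl
    rwa [ha s hs] at this

theorem mem_fixO {S : Submodule F V} {g : IsomOf (F := F) (bet Q)} :
    g ∈ fixO Q S ↔ ∀ s ∈ S, g.1 s = s := Iff.rfl

/-- If `S^⊥` represents every scalar then every isometry can be moved into `Ω` by an isometry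
fixing `S` pointwise. -/
theorem exists_fix_mul_mem [Finite F] (hQ : (pol Q).Nondegenerate)
    (hex : Nat.card F ≠ 2 ∨ Module.finrank F V ≠ 4) (S : Submodule F V)
    (hS : ∀ c : F, ∃ a, Q a = c ∧ ∀ s ∈ S, pol Q s a = 0) (g : IsomOf (F := F) (bet Q)) :
    ∃ h ∈ fixO Q S, h * g ∈ commutator (IsomOf (F := F) (bet Q)) := by
  have htop : fixO Q S ⊔ commutator (IsomOf (F := F) (bet Q)) = ⊤ := by
    rw [eq_top_iff, ← closure_Rf hQ hex, Subgroup.closure_le]
    rintro _ ⟨u, hu, rfl⟩
    obtain ⟨a, ha, haS⟩ := hS (Q u)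
    have ha0 : Q a ≠ 0 := by rw [ha]; exact hu
    have h1 : Rf hQ a ha0 ∈ fixO Q S := fun s hs => by
      rw [Rf_apply, haS s hs]; simp
    have h2 := Rf_mul_Rf_mem hQ a u ha0 hu ha
    have : Rf hQ u hu = Rf hQ a ha0 * (Rf hQ a ha0 * Rf hQ u hu) := by
      rw [← mul_assoc, Rf_mul_self, one_mul]
    rw [this]
    exact mul_mem (Subgroup.mem_sup_left h1) (Subgroup.mem_sup_right h2)
  have hg : g ∈ fixO Q S ⊔ commutator (IsomOf (F := F) (bet Q)) := by rw [htop]; trivial
  rw [← SetLike.mem_coe, Subgroup.mul_normal] at hg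
  obtain ⟨h, hh, k, hk, rfl⟩ := Set.mem_mul.mp hg
  exact ⟨h⁻¹, inv_mem hh, by rw [inv_mul_cancel_left]; exact hk⟩

/-- Universality of `S^⊥` for small `S`. -/
theorem exists_orth_of_small [Finite F] (hQ : (pol Q).Nondegenerate) (S : Submodule F V)
    (hS : 2 * Module.finrank F S + 3 ≤ Module.finrank F V) (c : F) :
    ∃ a, Q a = c ∧ ∀ s ∈ S, pol Q s a = 0 := by
  obtain ⟨e, f, H, he, hf⟩ := exists_hyp_in_orth hQ S hS
  refine ⟨e + c • f, ?_, fun s hs => ?_⟩
  · rw [Q_add, Q_smul, H.e0, H.f0, map_smul, H.ef]; simp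
  · rw [map_add, map_smul, he s hs, hf s hs]; simp

/-- The moving lemma inside `Ω`. -/
theorem exists_fix_map_Omega [Finite F] (hQ : (pol Q).Nondegenerate) (W : Submodule F V)
    (hW : 2 * Module.finrank F W + 5 ≤ Module.finrank F V) {x y : V}
    (hx : x ∉ W) (hy : y ∉ W) (hxy : ∀ z ∈ W, pol Q z y = pol Q z x) (hn : Q y = Q x) :
    ∃ g ∈ commutator (IsomOf (F := F) (bet Q)), (∀ z ∈ W, g.1 z = z) ∧ g.1 y = x := by
  obtain ⟨g, hg, hgW, hgy⟩ := exists_fix_map hQ W hx hy hxy hn
  have hd : Module.finrank F ↥(W ⊔ Submodule.span F {x}) ≤ Module.finrank F W + 1 := by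
    have h1 := Submodule.finrank_add_le_finrank_add_finrank W (Submodule.span F {x})
    have h2 := finrank_span_le_card (R := F) ({x} : Set V)
    simp only [Set.toFinset_singleton, Finset.card_singleton] at h2
    omega
  obtain ⟨h, hh, hhg⟩ := exists_fix_mul_mem hQ (Or.inr (by omega)) (W ⊔ Submodule.span F {x})
    (exists_orth_of_small hQ _ (by omega)) ⟨g, hg⟩
  refine ⟨_, hhg, fun z hz => ?_, ?_⟩
  · change h.1 (g z) = z
    rw [hgW z hz]
    exact hh z (Submodule.mem_sup_left hz)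
  · change h.1 (g y) = x
    rw [hgy]
    exact hh x (Submodule.mem_sup_right (Submodule.mem_span_singleton_self x))

end Cfsg.Agent.H6.Quad
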