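import Cfsg.Agent.Lib_helper6_OmegaBridge

/-! Non-maximal subspace stabilisers in `Ω`. -/

set_option autoImplicit false

namespace Cfsg.Agent.H6.Quad

variable {F V : Type*} [Field F] [AddCommGroup V] [Module F V] {Q : QuadraticForm F V}

local notation "O" => IsomOf (F := F) (bet Q)
local notation "Ω" => commutator (IsomOf (F := F) (bet Q))

theorem map_span_singleton (ω : O) (x : V) :
    (Submodule.span F {x}).map (ω.1 : V →ₗ[F] V) = Submodule.span F {ω.1 x} := by
  rw [Submodule.map_span, Set.image_singleton]; rfl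

theorem HypPair.finrank_span {e f : V} (H : HypPair Q e f) :
    Module.finrank F (Submodule.span F ({e, f} : Set V)) = 2 := by
  have hli : LinearIndependent F ![e, f] := by
    rw [LinearIndependent.pair_iff]
    intro s t hst
    have h1 := congrArg (pol Q e) hst
    have h2 := congrArg (pol Q f) hst
    simp only [map_add, map_smul, H.ee, H.ef, H.fe, H.ff, map_zero, smul_eq_mul, mul_zero, mul_one,
      zero_add, add_zero] at h1 h2
    exact ⟨h2, h1⟩
  have := finrank_span_eq_card hli
  have hr : Set.range ![e, f] = {e, f} := by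
    ext z
    simp only [Set.mem_range, Set.mem_insert_iff, Set.mem_singleton_iff]
    constructor
    · rintro ⟨i, rfl⟩
      fin_cases i
      · left; rfl
      · right; rfl
    · rintro (rfl | rfl)
      · exact ⟨0, rfl⟩
      · exact ⟨1, rfl⟩
  rw [hr] at this
  simpa using this

/-- A plane of plus type is spanned by a hyperbolic pair. -/
theorem exists_hypPair_of_plane [FiniteDimensional F V] (W : Submodule F V)
    (hdim : Module.finrank F W = 2)
    (hnd : ∀ w ∈ W, w ≠ 0 → ∃ x ∈ W, pol Q x w ≠ 0)
    (hp : ∃ U : Submodule F V, U ≤ W ∧ (∀ u ∈ U, Q u = 0) ∧ 2 * Module.finrank F U = 2) :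
    ∃ e f, HypPair Q e f ∧ W = Submodule.span F {e, f} := by
  obtain ⟨U, hUW, hU, hUd⟩ := hp
  have hUne : U ≠ ⊥ := by
    rintro rfl
    rw [finrank_bot] at hUd
    omega
  obtain ⟨e, heU, he0⟩ := Submodule.exists_mem_ne_zero_of_ne_bot hUne
  obtain ⟨x, hxW, hxe⟩ := hnd e (hUW heU) he0
  have hQe := hU e heU
  obtain ⟨w', hw'W, hew'⟩ : ∃ w' ∈ W, pol Q e w' = 1 :=
    ⟨(pol Q x e)⁻¹ • x, W.smul_mem _ hxW,
      by rw [map_smul, pol_comm e x, smul_eq_mul, inv_mul_cancel₀ hxe]⟩
  have H : HypPair Q e (w' - Q w' • e) := by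
    refine ⟨hQe, ?_, ?_⟩
    · rw [Q_sub, Q_smul, hQe, map_smul, pol_comm, hew']; simp
    · rw [map_sub, map_smul, hew', pol_self, hQe]; simp
  refine ⟨e, _, H, ?_⟩
  symm
  apply Submodule.eq_of_le_of_finrank_eq
  · rw [Submodule.span_le]
    rintro z (rfl | rfl)
    · exact hUW heU
    · exact W.sub_mem hw'W (W.smul_mem _ (hUW heU))
  · rw [H.finrank_span, hdim]

variable [FiniteDimensional F V] [Finite F]

theorem mul_self_eq_one_of_card_le (hq : Nat.card F ≤ 3) {a : F} (ha : a ≠ 0) : a * a = 1 := by
  have := Fintype.ofFinite F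
  have h1 := FiniteField.pow_card_sub_one_eq_one a ha
  rw [← Nat.card_eq_fintype_card] at h1
  have h2 : 2 ≤ Nat.card F := by
    rw [Nat.card_eq_fintype_card]; exact Fintype.one_lt_card
  interval_cases h : Nat.card F
  · simp at h1
    rw [h1, mul_one]
  · simpa [sq] using h1

/-- The data showing that the stabiliser of a hyperbolic plane is not maximal for `q ≤ 3`. -/
theorem hyp_plane_data (hQ : (pol Q).Nondegenerate) (hn : 7 ≤ Module.finrank F V)
    (hq : Nat.card F ≤ 3) {e f : V} (H : HypPair Q e f) :
    (∀ ω ∈ Ω, (Submodule.span F {e, f}).map (ω.1 : V →ₗ[F] V) = Submodule.span F {e, f} →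
      (Submodule.span F {e + f}).map (ω.1 : V →ₗ[F] V) = Submodule.span F {e + f}) ∧
    (∃ ω ∈ Ω, (Submodule.span F {e + f}).map (ω.1 : V →ₗ[F] V) = Submodule.span F {e + f} ∧
      (Submodule.span F {e, f}).map (ω.1 : V →ₗ[F] V) ≠ Submodule.span F {e, f}) ∧
    (∃ ω ∈ Ω, (Submodule.span F {e + f}).map (ω.1 : V →ₗ[F] V) ≠ Submodule.span F {e + f}) := by
  have hQef : Q (e + f) = 1 := by rw [Q_add, H.e0, H.f0, H.ef]; ring
  obtain ⟨p, p', H', hp, hp'⟩ := exists_hyp_in_orth hQ (Submodule.span F {e, f}) (by
    have := finrank_span_pair_le (F := F) e f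
    omega)
  have hep : pol Q e p = 0 := hp e (Submodule.subset_span (by simp))
  have hfp : pol Q f p = 0 := hp f (Submodule.subset_span (by simp))
  have hep' : pol Q e p' = 0 := hp' e (Submodule.subset_span (by simp))
  have hfp' : pol Q f p' = 0 := hp' f (Submodule.subset_span (by simp))
  refine ⟨fun ω _ hω => ?_, ?_, ?_⟩
  · have h1 : ω.1 (e + f) ∈ Submodule.span F {e, f} := by
      rw [← hω]
      exact ⟨e + f, add_mem (Submodule.subset_span (by simp)) (Submodule.subset_span (by simp)), rfl⟩
    obtain ⟨a, b, hab⟩ := Submodule.mem_span_pair.mp h1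
    have h2 : Q (ω.1 (e + f)) = 1 := by rw [mem_IsomOf_iff.mp ω.2, hQef]
    rw [← hab, Q_add, Q_smul, Q_smul, H.e0, H.f0] at h2
    simp only [map_smul, LinearMap.smul_apply, H.ef, mul_zero, zero_add, smul_eq_mul, mul_one] at h2
    have ha : a ≠ 0 := by
      rintro rfl
      simp at h2
    have h3 := mul_self_eq_one_of_card_le hq ha
    have h4 : b = a := by
      have : a * b = a * a := by rw [h3]; linear_combination h2
      exact mul_left_cancel₀ ha this
    rw [map_span_singleton, ← hab, h4, ← smul_add]
    exact Submodule.span_singleton_smul_eq (IsUnit.mk0 a ha) _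
  · obtain ⟨ω, hω, hωW, hωe⟩ := exists_fix_map_Omega hQ (Submodule.span F {e + f})
      (by have := finrank_span_singleton_le (F := F) (e + f); omega) (x := e + p) (y := e)
      (by
        intro h
        obtain ⟨t, ht⟩ := Submodule.mem_span_singleton.mp h
        have h1 := congrArg (pol Q e) ht
        have h2 := congrArg (pol Q f) ht
        simp only [map_add, map_smul, H.ee, H.ef, H.fe, H.ff, hep, hfp, smul_eq_mul, mul_one,
          zero_add, add_zero] at h1 h2
        rw [h1] at h2
        exact zero_ne_one h2)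
      (by
        intro h
        obtain ⟨t, ht⟩ := Submodule.mem_span_singleton.mp h
        have h1 := congrArg (pol Q e) ht
        have h2 := congrArg (pol Q f) ht
        simp only [map_add, map_smul, H.ee, H.ef, H.fe, H.ff, smul_eq_mul, mul_one,
          zero_add, add_zero] at h1 h2
        rw [h1] at h2
        exact zero_ne_one h2)
      (by
        intro z hz
        obtain ⟨t, rfl⟩ := Submodule.mem_span_singleton.mp hz
        simp only [map_add, map_smul, LinearMap.add_apply, LinearMap.smul_apply, hep, hfp, add_zero,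
          smul_zero])
      (by rw [Q_add, H.e0, H'.e0, hep]; ring)
    refine ⟨ω, hω, ?_, fun h => ?_⟩
    · rw [map_span_singleton, hωW _ (Submodule.mem_span_singleton_self _)]
    · have h1 : ω.1 e ∈ Submodule.span F {e, f} := by
        rw [← h]
        exact ⟨e, Submodule.subset_span (by simp), rfl⟩
      rw [hωe] at h1
      obtain ⟨a, b, hab⟩ := Submodule.mem_span_pair.mp h1
      have h2 := congrArg (fun z => pol Q z p') hab
      simp only [map_add, map_smul, LinearMap.add_apply, LinearMap.smul_apply, hep', hfp', H'.ef,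
        smul_zero, add_zero, zero_add] at h2
      exact zero_ne_one h2
  · have hne : e + f ≠ 0 := by
      intro h
      rw [h, map_zero] at hQef
      exact zero_ne_one hQef
    have hQ2 : Q (e + f + p) = 1 := by
      rw [Q_add, hQef, H'.e0, map_add, LinearMap.add_apply, hep, hfp]; ring
    have hne2 : e + f + p ≠ 0 := by
      intro h
      rw [h, map_zero] at hQ2
      exact zero_ne_one hQ2
    obtain ⟨ω, hω, -, hωe⟩ := exists_fix_map_Omega hQ (⊥ : Submodule F V)
      (by rw [finrank_bot]; omega) (x := e + f + p) (y := e + f) (by simpa using hne2)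
      (by simpa using hne)
      (by
        intro z hz
        rw [(Submodule.mem_bot F).mp hz]; simp)
      (by rw [hQef, hQ2])
    refine ⟨ω, hω, fun h => ?_⟩
    rw [map_span_singleton, hωe] at h
    have h1 : e + f + p ∈ Submodule.span F {e + f} := by
      rw [← h]; exact Submodule.mem_span_singleton_self _
    obtain ⟨t, ht⟩ := Submodule.mem_span_singleton.mp h1
    have h2 := congrArg (fun z => pol Q z p') ht
    simp only [map_add, map_smul, LinearMap.add_apply, LinearMap.smul_apply, hep', hfp', H'.ef,
      smul_zero, add_zero, zero_add] at h2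
    exact zero_ne_one h2

end Cfsg.Agent.H6.Quad
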