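import Cfsg.Agent.Lib_helper6_OmegaNonMax

/-! Non-maximal stabilisers in `Ω` related to maximal totally singular subspaces. -/

set_option autoImplicit false

namespace Cfsg.Agent.H6.Quad

variable {F V : Type*} [Field F] [AddCommGroup V] [Module F V] {Q : QuadraticForm F V}
variable [FiniteDimensional F V]

local notation "O" => IsomOf (F := F) (bet Q)
local notation "Ω" => commutator (IsomOf (F := F) (bet Q))

theorem even_lag_of_mem (hQ : (pol Q).Nondegenerate) {m : ℕ} (hV : Module.finrank F V = 2 * m)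
    (U : Submodule F V) (hUm : Module.finrank F U = m) (hU : ∀ u ∈ U, Q u = 0) {ω : O}
    (hω : ω ∈ Ω) : Even (m - Module.finrank F ↥(U ⊓ U.map (ω.1 : V →ₗ[F] V))) := by
  have h1 : lagHom hQ hV U hUm hU ω = 1 := Abelianization.commutator_subset_ker _ hω
  rwa [lagHom_apply, neg_one_pow_eq_one_iff_even (by decide)] at h1

/-- A hyperplane of a non-zero subspace. -/
theorem exists_hyperplane (hQ : (pol Q).Nondegenerate) (L : Submodule F V) {m : ℕ}
    (hL : Module.finrank F L = m + 1) : ∃ W₀ ≤ L, Module.finrank F W₀ = m := by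
  have hLne : L ≠ ⊥ := by
    rintro rfl
    rw [finrank_bot] at hL
    omega
  obtain ⟨l, hlL, hl0⟩ := Submodule.exists_mem_ne_zero_of_ne_bot hLne
  obtain ⟨l', hl'⟩ : ∃ l', pol Q l' l ≠ 0 := by
    by_contra hcon
    push Not at hcon
    exact hl0 (hQ.1 l (fun y => by rw [pol_comm]; exact hcon y))
  refine ⟨L ⊓ LinearMap.ker (pol Q l'), inf_le_left, ?_⟩
  have h1 := Submodule.finrank_sup_add_finrank_inf_eq L (LinearMap.ker (pol Q l'))
  have h2 : Module.finrank F ↥(L ⊔ LinearMap.ker (pol Q l')) ≤ Module.finrank F V :=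
    Submodule.finrank_le _
  have h3 := LinearMap.finrank_range_add_finrank_ker (pol Q l')
  have h4 : Module.finrank F (LinearMap.range (pol Q l')) ≤ 1 := by
    have := Submodule.finrank_le (LinearMap.range (pol Q l'))
    rwa [Module.finrank_self] at this
  have h5 : L ⊓ LinearMap.ker (pol Q l') < L := by
    rw [lt_iff_le_not_ge]
    exact ⟨inf_le_left, fun h => hl' (h hlL).2⟩
  have h6 := Submodule.finrank_lt_finrank_of_lt h5
  omega

/-- Every totally singular subspace of dimension `m - 1` of a plus type space lies in a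
maximal one. -/
theorem exists_lagrangian_ge (hQ : (pol Q).Nondegenerate) {m : ℕ}
    (L₀ : Submodule F V) (hL₀m : Module.finrank F L₀ = m + 1) (hL₀ : ∀ u ∈ L₀, Q u = 0)
    (W : Submodule F V) (hWm : Module.finrank F W = m) (hW : ∀ u ∈ W, Q u = 0) :
    ∃ L : Submodule F V, W ≤ L ∧ Module.finrank F L = m + 1 ∧ ∀ u ∈ L, Q u = 0 := by
  obtain ⟨W₀, hW₀L, hW₀m⟩ := exists_hyperplane hQ L₀ hL₀m
  obtain ⟨g, hg⟩ := witt_map hQ W₀ W (LinearEquiv.ofFinrankEq _ _ (by rw [hW₀m, hWm]))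
    (fun u => by rw [hW _ (Subtype.mem _), hL₀ _ (hW₀L u.2)])
  refine ⟨L₀.map (g.1 : V →ₗ[F] V), ?_, ?_, singular_map g.2 hL₀⟩
  · rw [← hg]
    exact Submodule.map_mono hW₀L
  · rw [finrank_map_isom, hL₀m]

theorem map_eq_of_le (ω : O) (U : Submodule F V) (h : ∀ x ∈ U, ω.1 x ∈ U) :
    U.map (ω.1 : V →ₗ[F] V) = U := mem_stabO.mp (mem_stabO_of_le h)

variable [Finite F]

theorem exists_not_stab_of_singular (hQ : (pol Q).Nondegenerate) (hn : 5 ≤ Module.finrank F V)
    (L : Submodule F V) (hL : ∀ u ∈ L, Q u = 0) (hL0 : L ≠ ⊥) :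
    ∃ ω ∈ Ω, L.map (ω.1 : V →ₗ[F] V) ≠ L := by
  obtain ⟨x, hxL, hx0⟩ := Submodule.exists_mem_ne_zero_of_ne_bot hL0
  obtain ⟨y, hQy, hxy⟩ := exists_hyp_partner hQ hx0 (hL x hxL)
  have hy0 : y ≠ 0 := by
    rintro rfl
    rw [map_zero] at hxy
    exact zero_ne_one hxy
  obtain ⟨ω, hω, hωx⟩ := exists_Omega_map_sing hQ hn (x := x) (y := y) ⟨hx0, hL x hxL⟩ ⟨hy0, hQy⟩
  refine ⟨ω, hω, fun h => ?_⟩
  have hyL : y ∈ L := by
    rw [← h, ← hωx]
    exact ⟨x, hxL, rfl⟩
  rw [pol_eq_zero_of_singular hL hxL hyL] at hxy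
  exact zero_ne_one hxy

/-- Data for the non-maximality of the stabiliser of a totally singular subspace of
dimension `m - 1` in plus type. -/
theorem sub_lagrangian_data (hQ : (pol Q).Nondegenerate) (hn : 7 ≤ Module.finrank F V) {m : ℕ}
    (hV : Module.finrank F V = 2 * (m + 1)) (L W : Submodule F V) (hWL : W ≤ L)
    (hLm : Module.finrank F L = m + 1) (hL : ∀ u ∈ L, Q u = 0) (hWm : Module.finrank F W = m) :
    (∀ ω ∈ Ω, W.map (ω.1 : V →ₗ[F] V) = W → L.map (ω.1 : V →ₗ[F] V) = L) ∧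
    (∃ ω ∈ Ω, L.map (ω.1 : V →ₗ[F] V) = L ∧ W.map (ω.1 : V →ₗ[F] V) ≠ W) ∧
    (∃ ω ∈ Ω, L.map (ω.1 : V →ₗ[F] V) ≠ L) := by
  have hLne : L ≠ ⊥ := by
    rintro rfl
    rw [finrank_bot] at hLm
    omega
  refine ⟨fun ω hω hW => ?_, ?_, exists_not_stab_of_singular hQ (by omega) L hL hLne⟩
  · have h1 := even_lag_of_mem hQ hV L hLm hL hω
    have h2 : W ≤ L ⊓ L.map (ω.1 : V →ₗ[F] V) := by
      refine le_inf hWL ?_
      rw [← hW]
      exact Submodule.map_mono hWL
    have h3 := Submodule.finrank_mono h2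
    have h4 : Module.finrank F ↥(L ⊓ L.map (ω.1 : V →ₗ[F] V)) ≤ Module.finrank F L :=
      Submodule.finrank_mono inf_le_left
    have h5 : Module.finrank F ↥(L ⊓ L.map (ω.1 : V →ₗ[F] V)) = m + 1 := by
      rw [hWm] at h3
      rw [hLm] at h4
      by_contra hne
      have : Module.finrank F ↥(L ⊓ L.map (ω.1 : V →ₗ[F] V)) = m := by omega
      rw [this] at h1
      simp at h1
    have h6 : L ⊓ L.map (ω.1 : V →ₗ[F] V) = L :=
      Submodule.eq_of_le_of_finrank_eq inf_le_left (by rw [h5, hLm])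
    have h7 : L ≤ L.map (ω.1 : V →ₗ[F] V) := by
      intro x hx
      rw [← h6] at hx
      exact hx.2
    exact (Submodule.eq_of_le_of_finrank_eq h7 (by rw [finrank_map_isom])).symm
  · have hWne : W ≠ ⊥ := by
      rintro rfl
      rw [finrank_bot] at hWm
      omega
    obtain ⟨w, hwW, hw0⟩ := Submodule.exists_mem_ne_zero_of_ne_bot hWne
    have hlt : W < L := by
      rw [lt_iff_le_and_ne]
      refine ⟨hWL, ?_⟩
      rintro rfl
      omega
    obtain ⟨x, hxL, hxW⟩ := SetLike.exists_of_lt hlt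
    have hwx : w ∉ Submodule.span F {x} := by
      intro h
      obtain ⟨t, rfl⟩ := Submodule.mem_span_singleton.mp h
      have ht : t ≠ 0 := by
        rintro rfl
        exact hw0 (zero_smul _ _)
      apply hxW
      have := W.smul_mem t⁻¹ hwW
      rwa [smul_smul, inv_mul_cancel₀ ht, one_smul] at this
    obtain ⟨z₀, hz₀x, hwz₀⟩ := exists_orth_nonorth hQ _ hwx
    obtain ⟨z, hxz, hwz⟩ : ∃ z, pol Q x z = 0 ∧ pol Q w z = 1 :=
      ⟨(pol Q w z₀)⁻¹ • z₀,
        by rw [map_smul, hz₀x x (Submodule.mem_span_singleton_self x), smul_zero],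
        by rw [map_smul, smul_eq_mul, inv_mul_cancel₀ hwz₀]⟩
    have hxw : pol Q x w = 0 := pol_eq_zero_of_singular hL hxL (hWL hwW)
    have hQw : Q w = 0 := hL w (hWL hwW)
    have hQa : Q (z - Q z • w) = 0 := by
      rw [Q_sub, Q_smul, hQw, map_smul, pol_comm, hwz]; simp
    have hxa : pol Q x (z - Q z • w) = 0 := by
      rw [map_sub, map_smul, hxz, hxw]; simp
    have hwa : pol Q w (z - Q z • w) = 1 := by
      rw [map_sub, map_smul, hwz, pol_self, hQw]; simp
    obtain ⟨ρ, hρ⟩ := exists_isSiegel hQ (hL x hxL) hxa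
    refine ⟨ρ, isSiegel_mem hQ hn (hL x hxL) hxa hρ, ?_, fun h => ?_⟩
    · apply map_eq_of_le
      intro u hu
      rw [hρ u, pol_eq_zero_of_singular hL hu hxL]
      simp only [zero_smul, mul_zero, sub_zero]
      exact L.add_mem hu (L.smul_mem _ hxL)
    · have h1 : ρ.1 w ∈ W := by
        rw [← h]; exact ⟨w, hwW, rfl⟩
      rw [hρ w, hwa, pol_comm w x, hxw] at h1
      simp only [one_smul, zero_smul, mul_zero, sub_zero] at h1
      exact hxW ((W.add_mem_iff_right hwW).mp h1)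

/-- Data for the non-maximality of the stabiliser of a pair of complementary maximal totally
singular subspaces of odd dimension. -/
theorem lagrangian_pair_data (hQ : (pol Q).Nondegenerate) (hn : 7 ≤ Module.finrank F V) {k : ℕ}
    (hV : Module.finrank F V = 2 * k) (hk : Odd k) (U₁ U₂ : Submodule F V)
    (h₁m : Module.finrank F U₁ = k) (h₁ : ∀ u ∈ U₁, Q u = 0)
    (hinf : U₁ ⊓ U₂ = ⊥) (hsup : U₁ ⊔ U₂ = ⊤) :
    (∀ ω ∈ Ω, U₁.map (ω.1 : V →ₗ[F] V) ≠ U₂) ∧
    (∃ ω ∈ Ω, U₁.map (ω.1 : V →ₗ[F] V) = U₁ ∧ U₂.map (ω.1 : V →ₗ[F] V) ≠ U₂) ∧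
    (∃ ω ∈ Ω, U₁.map (ω.1 : V →ₗ[F] V) ≠ U₁) := by
  have hne : U₁ ≠ ⊥ := by
    rintro rfl
    rw [finrank_bot] at h₁m
    omega
  refine ⟨fun ω hω h => ?_, ?_, exists_not_stab_of_singular hQ (by omega) U₁ h₁ hne⟩
  · have h1 := even_lag_of_mem hQ hV U₁ h₁m h₁ hω
    rw [h, hinf, finrank_bot, Nat.sub_zero] at h1
    exact (Nat.not_even_iff_odd.mpr hk) h1
  · obtain ⟨x, hxU, hx0⟩ := Submodule.exists_mem_ne_zero_of_ne_bot hne
    have hlt : Submodule.span F {x} < U₁ := by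
      rw [lt_iff_le_and_ne]
      refine ⟨by rwa [Submodule.span_singleton_le_iff_mem], fun h => ?_⟩
      have := finrank_span_singleton_le (F := F) x
      rw [h, h₁m] at this
      omega
    obtain ⟨a, haU, hax⟩ := SetLike.exists_of_lt hlt
    have hxa : pol Q x a = 0 := pol_eq_zero_of_singular h₁ hxU haU
    obtain ⟨y, hyU, hyx⟩ : ∃ y ∈ U₂, pol Q y x ≠ 0 := by
      by_contra hcon
      push Not at hcon
      apply hx0
      apply hQ.1
      intro v
      have hv : v ∈ U₁ ⊔ U₂ := by rw [hsup]; trivial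
      obtain ⟨u₁, hu₁, u₂, hu₂, rfl⟩ := Submodule.mem_sup.mp hv
      rw [map_add, pol_eq_zero_of_singular h₁ hxU hu₁, pol_comm x u₂, hcon u₂ hu₂, add_zero]
    obtain ⟨ρ, hρ⟩ := exists_isSiegel hQ (h₁ x hxU) hxa
    refine ⟨ρ, isSiegel_mem hQ hn (h₁ x hxU) hxa hρ, ?_, fun h => ?_⟩
    · apply map_eq_of_le
      intro u hu
      rw [hρ u, pol_eq_zero_of_singular h₁ hu hxU, pol_eq_zero_of_singular h₁ hu haU]
      simpa using hu
    · have h1 : ρ.1 y ∈ U₂ := by
        rw [← h]; exact ⟨y, hyU, rfl⟩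
      have h2 : ρ.1 y - y ∈ U₁ ⊓ U₂ := by
        refine ⟨?_, U₂.sub_mem h1 hyU⟩
        rw [hρ y, h₁ a haU]
        simp only [zero_mul, zero_smul, sub_zero]
        have : y + pol Q y a • x - pol Q y x • a - y = pol Q y a • x - pol Q y x • a := by abel
        rw [this]
        exact U₁.sub_mem (U₁.smul_mem _ hxU) (U₁.smul_mem _ haU)
      rw [hinf, Submodule.mem_bot, hρ y, h₁ a haU] at h2
      simp only [zero_mul, zero_smul, sub_zero] at h2
      apply hax
      rw [Submodule.mem_span_singleton]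
      refine ⟨pol Q y a / pol Q y x, ?_⟩
      have h3 : pol Q y x • a = pol Q y a • x := by
        have : y + pol Q y a • x - pol Q y x • a - y = pol Q y a • x - pol Q y x • a := by abel
        rw [this, sub_eq_zero] at h2
        exact h2.symm
      rw [div_eq_inv_mul, mul_smul, ← h3, smul_smul, inv_mul_cancel₀ hyx, one_smul]

end Cfsg.Agent.H6.Quad
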