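import Cfsg.Agent.Lib_helper6_OmegaBridge
import Cfsg.Agent.Lib_helper6_MaxBridge

/-! In characteristic two the stabiliser in `Ω` of a non-singular point is maximal. -/

set_option autoImplicit false

namespace Cfsg.Agent.H6.Quad

variable {F V : Type*} [Field F] [AddCommGroup V] [Module F V] {Q : QuadraticForm F V}

local notation "O" => IsomOf (F := F) (bet Q)
local notation "Ω" => commutator (IsomOf (F := F) (bet Q))

/-- `Ω` as a group of linear automorphisms. -/
def OmL (Q : QuadraticForm F V) : Subgroup (V ≃ₗ[F] V) :=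
  (commutator (IsomOf (F := F) (bet Q))).map (IsomOf (F := F) (bet Q)).subtype

theorem mem_OmL {g : V ≃ₗ[F] V} : g ∈ OmL Q ↔ ∃ ω ∈ Ω, ω.1 = g := Iff.rfl

/-- The stabiliser of a subspace in the general linear group. -/
def stabL (W : Submodule F V) : Subgroup (V ≃ₗ[F] V) where
  carrier := {g | W.map (g : V →ₗ[F] V) = W}
  one_mem' := Submodule.map_id W
  mul_mem' {a b} ha hb := by
    change W.map ((a : V →ₗ[F] V) ∘ₗ (b : V →ₗ[F] V)) = W
    rw [Submodule.map_comp, hb, ha]
  inv_mem' {a} ha := by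
    change W.map ((a⁻¹ : V ≃ₗ[F] V) : V →ₗ[F] V) = W
    conv_lhs => rw [← (show W.map (a : V →ₗ[F] V) = W from ha), ← Submodule.map_comp]
    have : ((a⁻¹ : V ≃ₗ[F] V) : V →ₗ[F] V) ∘ₗ (a : V →ₗ[F] V) = LinearMap.id := by
      ext v
      change (a⁻¹ * a) v = v
      rw [inv_mul_cancel]; rfl
    rw [this, Submodule.map_id]

theorem mem_stabL {W : Submodule F V} {g : V ≃ₗ[F] V} :
    g ∈ stabL W ↔ W.map (g : V →ₗ[F] V) = W := Iff.rfl

theorem finrank_span_triple_le (a b c : V) :
    Module.finrank F (Submodule.span F ({a, b, c} : Set V)) ≤ 3 := by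
  classical
  have h1 : Module.finrank F (Submodule.span F (({a, b, c} : Finset V) : Set V)) ≤
      ({a, b, c} : Finset V).card := finrank_span_finset_le_card (R := F) ({a, b, c} : Finset V)
  have h2 : ({a, b, c} : Finset V).card ≤ 3 := Finset.card_le_three
  have h3 : Submodule.span F ({a, b, c} : Set V) =
      Submodule.span F (({a, b, c} : Finset V) : Set V) := by
    simp
  rw [h3]
  omega

variable [FiniteDimensional F V] [Finite F]

/-- Two vectors of norm one have a common neighbour at every "distance". -/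
theorem exists_common_nbr (hQ : (pol Q).Nondegenerate) (hn : 9 ≤ Module.finrank F V) {u w : V}
    (huw : w ∉ Submodule.span F {u}) (hwu : u ∉ Submodule.span F {w}) (l : F) :
    ∃ z, Q z = 1 ∧ pol Q u z = l ∧ pol Q w z = l ∧ z ≠ u ∧ z ≠ w := by
  obtain ⟨a, ha1, ha2⟩ := exists_orth_nonorth hQ _ huw
  obtain ⟨b, hb1, hb2⟩ := exists_orth_nonorth hQ _ hwu
  have hua : pol Q u a = 0 := ha1 u (Submodule.mem_span_singleton_self u)
  have hwb : pol Q w b = 0 := hb1 w (Submodule.mem_span_singleton_self w)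
  obtain ⟨z₀, hz1, hz2⟩ : ∃ z₀, pol Q u z₀ = l ∧ pol Q w z₀ = l :=
    ⟨(l / pol Q w a) • a + (l / pol Q u b) • b,
      by rw [map_add, map_smul, map_smul, hua, smul_eq_mul, smul_eq_mul,
        div_mul_cancel₀ _ hb2]; simp,
      by rw [map_add, map_smul, map_smul, hwb, smul_eq_mul, smul_eq_mul,
        div_mul_cancel₀ _ ha2]; simp⟩
  obtain ⟨e, f, H, he, hf⟩ := exists_hyp_in_orth hQ (Submodule.span F {u, w, z₀}) (by
    have := finrank_span_triple_le (F := F) u w z₀
    omega)
  have hue : pol Q u e = 0 := he u (Submodule.subset_span (by simp))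
  have hwe : pol Q w e = 0 := he w (Submodule.subset_span (by simp))
  have hze : pol Q z₀ e = 0 := he z₀ (Submodule.subset_span (by simp))
  have huf : pol Q u f = 0 := hf u (Submodule.subset_span (by simp))
  have hwf : pol Q w f = 0 := hf w (Submodule.subset_span (by simp))
  have hzf : pol Q z₀ f = 0 := hf z₀ (Submodule.subset_span (by simp))
  have hzz : pol Q (z₀ + (e + (1 - Q z₀) • f)) f = 1 := by
    simp only [map_add, map_smul, LinearMap.add_apply, LinearMap.smul_apply, hzf, H.ef, H.ff]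
    simp
  refine ⟨z₀ + (e + (1 - Q z₀) • f), ?_, ?_, ?_, ?_, ?_⟩
  · rw [Q_add, Q_add, Q_smul, H.e0, H.f0]
    simp only [map_add, map_smul, hze, hzf, H.ef, smul_eq_mul]
    ring
  · simp only [map_add, map_smul, hz1, hue, huf]; simp
  · simp only [map_add, map_smul, hz2, hwe, hwf]; simp
  · intro h
    rw [h, huf] at hzz
    exact zero_ne_one hzz
  · intro h
    rw [h, hwf] at hzz
    exact zero_ne_one hzz

/-- Maximality of the stabiliser of a non-singular point in characteristic two. -/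
theorem nonsingular_point_maximal (h2 : (2 : F) = 0) (hQ : (pol Q).Nondegenerate)
    (hn : 9 ≤ Module.finrank F V) {u : V} (hu : Q u = 1) :
    stabL (Submodule.span F {u}) ⊓ OmL Q < OmL Q ∧
      ∀ M : Subgroup (V ≃ₗ[F] V), stabL (Submodule.span F {u}) ⊓ OmL Q ≤ M → M ≤ OmL Q →
        M = stabL (Submodule.span F {u}) ⊓ OmL Q ∨ M = OmL Q := by
  have hone : ∀ t : F, t * t = 1 → t = 1 := by
    intro t ht
    have : (t - 1) * (t - 1) = 0 := by linear_combination ht - t * h2 + h2
    exact sub_eq_zero.mp (mul_self_eq_zero.mp this)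
  -- vectors of norm one on the same line are equal
  have hline : ∀ a b : V, Q a = 1 → Q b = 1 → b ∈ Submodule.span F {a} → b = a := by
    intro a b ha hb hab
    obtain ⟨t, rfl⟩ := Submodule.mem_span_singleton.mp hab
    rw [Q_smul, ha, mul_one] at hb
    rw [hone t hb, one_smul]
  have hstab : ∀ g : V ≃ₗ[F] V, g ∈ OmL Q → (g ∈ stabL (Submodule.span F {u}) ↔ g u = u) := by
    rintro _ ⟨ω, hω, rfl⟩
    change (Submodule.span F {u}).map (ω.1 : V →ₗ[F] V) = _ ↔ ω.1 u = u
    rw [Submodule.map_span, Set.image_singleton]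
    constructor
    · intro h
      apply hline u _ hu (by rw [mem_IsomOf_iff.mp ω.2, hu])
      rw [← h]
      exact Submodule.mem_span_singleton_self _
    · intro h
      change Submodule.span F {ω.1 u} = _
      rw [h]
  have hu0 : u ≠ 0 := by
    rintro rfl
    rw [map_zero] at hu
    exact zero_ne_one hu
  -- transitivity of `Ω` on vectors of norm one
  have htrans : ∀ w, Q w = 1 → ∃ ω ∈ Ω, ω.1 u = w := by
    intro w hw
    have hw0 : w ≠ 0 := by
      rintro rfl
      rw [map_zero] at hw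
      exact zero_ne_one hw
    obtain ⟨ω, hω, -, h⟩ := exists_fix_map_Omega hQ (⊥ : Submodule F V)
      (by rw [finrank_bot]; omega) (x := w) (y := u) (by simpa using hw0) (by simpa using hu0)
      (by
        intro z hz
        rw [(Submodule.mem_bot F).mp hz]; simp)
      (by rw [hu, hw])
    exact ⟨ω, hω, h⟩
  have key : ∀ M : Subgroup (V ≃ₗ[F] V), stabL (Submodule.span F {u}) ⊓ OmL Q ≤ M → M ≤ OmL Q →
      (∃ g ∈ M, g u ≠ u) → OmL Q ≤ M := by
    intro M hHM hMΩ ⟨g, hgM, hgu⟩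
    have hQM : ∀ m ∈ M, ∀ x, Q (m x) = Q x := by
      intro m hm x
      obtain ⟨ω, -, rfl⟩ := hMΩ hm
      exact mem_IsomOf_iff.mp ω.2 x
    have hBM : ∀ m ∈ M, ∀ x y, pol Q (m x) (m y) = pol Q x y := by
      intro m hm x y
      obtain ⟨ω, -, rfl⟩ := hMΩ hm
      exact pol_isom ω x y
    set l := pol Q u (g u) with hl
    -- closure under `l`-neighbours
    have hnbr : ∀ m ∈ M, ∀ z, Q z = 1 → z ≠ m u → pol Q (m u) z = l → ∃ m' ∈ M, m' u = z := by
      intro m hm z hz hzm hmz
      set z' := (m⁻¹ : V ≃ₗ[F] V) z with hz'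
      have hmz' : m z' = z := by
        change (m * m⁻¹) z = z
        rw [mul_inv_cancel]; rfl
      have hQz' : Q z' = 1 := by rw [← hQM m hm, hmz', hz]
      have hz'u : z' ≠ u := by
        intro h
        apply hzm
        rw [← hmz', h]
      have hBz' : pol Q u z' = l := by rw [← hBM m hm, hmz', hmz]
      obtain ⟨h, hh, hhW, hhg⟩ := exists_fix_map_Omega hQ (Submodule.span F {u})
        (by have := finrank_span_singleton_le (F := F) u; omega) (x := z') (y := g u)
        (fun hc => hz'u (hline u z' hu hQz' hc))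
        (fun hc => hgu (hline u (g u) hu (by rw [hQM g hgM, hu]) hc))
        (by
          intro y hy
          obtain ⟨t, rfl⟩ := Submodule.mem_span_singleton.mp hy
          rw [(pol Q).map_smul, LinearMap.smul_apply, LinearMap.smul_apply, hBz', hl])
        (by rw [hQM g hgM, hu, hQz'])
      have hhM : h.1 ∈ M := by
        apply hHM
        have h5 : h.1 ∈ OmL Q := ⟨h, hh, rfl⟩
        exact ⟨(hstab _ h5).mpr (hhW u (Submodule.mem_span_singleton_self u)), h5⟩
      refine ⟨m * h.1 * g, mul_mem (mul_mem hm hhM) hgM, ?_⟩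
      change m (h.1 (g u)) = z
      rw [hhg, hmz']
    rintro _ ⟨ω, hω, rfl⟩
    -- `ω u` is in the orbit
    obtain ⟨m, hm, hmu⟩ : ∃ m ∈ M, m u = ω.1 u := by
      by_cases hwu : ω.1 u = u
      · exact ⟨1, one_mem _, hwu.symm⟩
      have hQw : Q (ω.1 u) = 1 := by rw [mem_IsomOf_iff.mp ω.2, hu]
      obtain ⟨z, hz, huz, hwz, hzu, hzw⟩ := exists_common_nbr hQ hn (u := u) (w := ω.1 u)
        (fun hc => hwu (hline u _ hu hQw hc))
        (fun hc => hwu (hline _ u hQw hu hc).symm) l
      obtain ⟨m₁, hm₁, hm₁u⟩ := hnbr 1 (one_mem _) z hz hzu huz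
      exact hnbr m₁ hm₁ (ω.1 u) hQw (by rw [hm₁u]; exact hzw.symm)
        (by rw [hm₁u, pol_comm]; exact hwz)
    have h3 : (m⁻¹ * ω.1 : V ≃ₗ[F] V) ∈ M := by
      apply hHM
      have h4 : (m⁻¹ * ω.1 : V ≃ₗ[F] V) ∈ OmL Q := mul_mem (inv_mem (hMΩ hm)) ⟨ω, hω, rfl⟩
      refine ⟨(hstab _ h4).mpr ?_, h4⟩
      change (m⁻¹ : V ≃ₗ[F] V) (ω.1 u) = u
      rw [← hmu]
      change (m⁻¹ * m) u = u
      rw [inv_mul_cancel]; rfl
    have : (ω.1 : V ≃ₗ[F] V) = m * (m⁻¹ * ω.1) := by group
    change ω.1 ∈ M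
    rw [this]
    exact mul_mem hm h3
  -- a vector of norm one different from `u`
  obtain ⟨e, f, H, he, hf⟩ := exists_hyp_in_orth hQ (Submodule.span F {u}) (by
    have := finrank_span_singleton_le (F := F) u
    omega)
  have hue : pol Q u e = 0 := he u (Submodule.mem_span_singleton_self u)
  obtain ⟨ω₀, hω₀, hω₀u⟩ := htrans (u + e) (by rw [Q_add, hu, H.e0, hue]; ring)
  have hω₀ne : ω₀.1 u ≠ u := by
    rw [hω₀u]
    intro h
    exact H.e_ne_zero (by simpa using h)
  refine ⟨?_, fun M hHM hMΩ => ?_⟩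
  · rw [lt_iff_le_not_ge]
    refine ⟨inf_le_right, fun h => ?_⟩
    have h1 : ω₀.1 ∈ OmL Q := ⟨ω₀, hω₀, rfl⟩
    exact hω₀ne ((hstab _ h1).mp (h h1).1)
  · by_cases hex : ∃ g ∈ M, g u ≠ u
    · right
      exact le_antisymm hMΩ (key M hHM hMΩ hex)
    · left
      push Not at hex
      apply le_antisymm _ hHM
      intro g hg
      exact ⟨(hstab g (hMΩ hg)).mpr (hex g hg), hMΩ hg⟩

end Cfsg.Agent.H6.Quad

namespace Cfsg.Agent.H6.Quad

variable {F : Type*} [Field F] {ι : Type} [Fintype ι] [DecidableEq ι]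

theorem omegaGL_eq_comap (Q : QuadraticForm F (ι → F)) (Qf : (ι → F) → F) (hQf : ∀ v, Q v = Qf v) :
    Cfsg.Geo.omegaGL Qf = (OmL Q).comap (glEquivLin ι F).toMonoidHom := by
  ext g
  rw [mem_omegaGL_iff Q Qf hQf, Subgroup.mem_comap, mem_OmL]
  constructor
  · rintro ⟨ω, hω, hv⟩
    refine ⟨ω, hω, ?_⟩
    ext1 v
    rw [hv]; rfl
  · rintro ⟨ω, hω, hv⟩
    refine ⟨ω, hω, fun v => ?_⟩
    rw [hv]; rfl

theorem subspaceStabilizer_eq_comap (W : Submodule F (ι → F)) :
    Cfsg.Geo.subspaceStabilizer W = (stabL W).comap (glEquivLin ι F).toMonoidHom := by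
  ext g
  rw [mem_subspaceStabilizer_iff_map g (glEquivLin ι F g) (fun v => rfl), Subgroup.mem_comap,
    mem_stabL]
  rfl

end Cfsg.Agent.H6.Quad
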