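import Cfsg.Agent.Lib_helper6_OmegaNsMax
import Cfsg.Agent.Lib_helper6_OmegaNonMax2

/-! The stabiliser in `Ω` of a totally singular subspace is maximal. -/

set_option autoImplicit false

namespace Cfsg.Agent.H6.Quad

variable {F V : Type*} [Field F] [AddCommGroup V] [Module F V] {Q : QuadraticForm F V}
variable [FiniteDimensional F V]

local notation "O" => IsomOf (F := F) (bet Q)
local notation "Ω" => commutator (IsomOf (F := F) (bet Q))

theorem IsSiegel.conj {y a : V} {g : O} (h : IsSiegel Q y a g) (m : O) :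
    IsSiegel Q (m.1 y) (m.1 a) (m * g * m⁻¹) := by
  intro v
  change m.1 (g.1 ((m⁻¹).1 v)) = _
  have e1 : ∀ b, pol Q ((m⁻¹).1 v) b = pol Q v (m.1 b) := by
    intro b
    rw [← pol_isom m, apply_inv_apply]
  rw [h, e1, e1, mem_IsomOf_iff.mp m.2]
  simp only [map_add, map_sub, map_smul, apply_inv_apply]

theorem IsSiegel.of_smul {y a : V} {c : F} {g : O} (h : IsSiegel Q (c • y) a g) :
    IsSiegel Q y (c • a) g := by
  intro v
  rw [h v, Q_smul]
  simp only [map_smul, smul_eq_mul]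
  module

/-- The singular vectors whose full Siegel group lies in `M`. -/
def InDelta (M : Subgroup (IsomOf (F := F) (bet Q))) (y : V) : Prop :=
  IsSing Q y ∧ ∀ (a : V) (g : IsomOf (F := F) (bet Q)), pol Q y a = 0 → IsSiegel Q y a g → g ∈ M

variable {M : Subgroup (IsomOf (F := F) (bet Q))}

theorem InDelta.map (hQ : (pol Q).Nondegenerate) {y : V} (h : InDelta M y) {m : O} (hm : m ∈ M) :
    InDelta M (m.1 y) := by
  refine ⟨h.1.map m, fun a' g' ha' hg' => ?_⟩
  have ha : pol Q y ((m⁻¹).1 a') = 0 := by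
    rw [← pol_isom m, apply_inv_apply]; exact ha'
  obtain ⟨g, hg⟩ := exists_isSiegel hQ h.1.2 ha
  have h1 := hg.conj m
  rw [apply_inv_apply] at h1
  rw [hg'.ext h1]
  exact mul_mem (mul_mem hm (h.2 _ g ha hg)) (inv_mem hm)

theorem InDelta.smul {y : V} (h : InDelta M y) {c : F} (hc : c ≠ 0) : InDelta M (c • y) := by
  refine ⟨h.1.smul hc, fun a g ha hg => ?_⟩
  refine h.2 (c • a) g ?_ hg.of_smul
  rw [map_smul, LinearMap.smul_apply, smul_eq_mul] at ha
  rw [map_smul, smul_eq_mul]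
  exact ha

theorem InDelta.add (hQ : (pol Q).Nondegenerate) {y z : V} (hy : InDelta M y) (hz : InDelta M z)
    (hyz : pol Q y z = 0) (hne : y + z ≠ 0) : InDelta M (y + z) := by
  by_cases hmem : z ∈ Submodule.span F {y}
  · obtain ⟨t, rfl⟩ := Submodule.mem_span_singleton.mp hmem
    have e : y + t • y = (1 + t) • y := by module
    rw [e] at hne ⊢
    exact hy.smul (fun h => hne (by rw [h, zero_smul]))
  · obtain ⟨a₀, ha₀, hza₀⟩ := exists_orth_nonorth hQ _ hmem
    obtain ⟨a, hya, hza⟩ : ∃ a, pol Q y a = 0 ∧ pol Q z a = 1 :=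
      ⟨(pol Q z a₀)⁻¹ • a₀,
        by rw [map_smul, ha₀ y (Submodule.mem_span_singleton_self y), smul_zero],
        by rw [map_smul, smul_eq_mul, inv_mul_cancel₀ hza₀]⟩
    obtain ⟨g, hg⟩ := exists_isSiegel hQ hy.1.2 hya
    have h1 := hz.map hQ (hy.2 a g hya hg)
    rw [hg z, hza, pol_comm z y, hyz] at h1
    simp only [one_smul, zero_smul, mul_zero, sub_zero] at h1
    rwa [add_comm]

theorem InDelta.of_nonorth (hQ : (pol Q).Nondegenerate) {y z v : V} (hy : InDelta M y)
    (hz : InDelta M z) (hyz : pol Q y z ≠ 0) (hv : IsSing Q v) (hyv : pol Q y v ≠ 0) :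
    InDelta M v := by
  -- first the normalised case
  have main : ∀ v', IsSing Q v' → pol Q y v' = pol Q y z → InDelta M v' := by
    intro v' hv' hyv'
    set β := pol Q y z with hβ
    have hya : pol Q y (β⁻¹ • (z - v')) = 0 := by
      rw [map_smul, map_sub, hyv', ← hβ, sub_self, smul_zero]
    obtain ⟨g, hg⟩ := exists_isSiegel hQ hy.1.2 hya
    have h1 := hz.map hQ (hy.2 _ g hya hg)
    have e : g.1 z = v' := by
      rw [hg z, Q_smul, Q_sub, hz.1.2, hv'.2, pol_comm z y, ← hβ]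
      simp only [map_smul, map_sub, pol_self, hz.1.2, smul_eq_mul, mul_zero, zero_sub, zero_add]
      match_scalars <;> field_simp <;> ring
    rwa [e] at h1
  have hc : pol Q y z / pol Q y v ≠ 0 := div_ne_zero hyz hyv
  have h2 := main ((pol Q y z / pol Q y v) • v) (hv.smul hc) (by
    rw [map_smul, smul_eq_mul, div_mul_cancel₀ _ hyv])
  have h3 := h2.smul (inv_ne_zero hc)
  rwa [smul_smul, inv_mul_cancel₀ hc, one_smul] at h3

theorem InDelta.all (hQ : (pol Q).Nondegenerate) {y z : V} (hy : InDelta M y)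
    (hz : InDelta M z) (hyz : pol Q y z ≠ 0) {v : V} (hv : IsSing Q v) : InDelta M v := by
  by_cases hyv : pol Q y v = 0
  · by_cases hvy : v ∈ Submodule.span F {y}
    · obtain ⟨t, rfl⟩ := Submodule.mem_span_singleton.mp hvy
      exact hy.smul (fun h => hv.1 (by rw [h, zero_smul]))
    · have hyv' : y ∉ Submodule.span F {v} := by
        intro h
        obtain ⟨t, rfl⟩ := Submodule.mem_span_singleton.mp h
        apply hvy
        have ht : t ≠ 0 := by
          rintro rfl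
          exact hy.1.1 (zero_smul _ _)
        rw [Submodule.mem_span_singleton]
        exact ⟨t⁻¹, by rw [smul_smul, inv_mul_cancel₀ ht, one_smul]⟩
      obtain ⟨a, ha1, ha2⟩ := exists_orth_nonorth hQ _ hvy
      obtain ⟨b, hb1, hb2⟩ := exists_orth_nonorth hQ _ hyv'
      have hya : pol Q y a = 0 := ha1 y (Submodule.mem_span_singleton_self y)
      have hvb : pol Q v b = 0 := hb1 v (Submodule.mem_span_singleton_self v)
      obtain ⟨z₀, hz1, hz2⟩ : ∃ z₀, pol Q y z₀ = 1 ∧ pol Q v z₀ = 1 :=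
        ⟨(pol Q v a)⁻¹ • a + (pol Q y b)⁻¹ • b,
          by rw [map_add, map_smul, map_smul, hya, smul_eq_mul, smul_eq_mul,
            inv_mul_cancel₀ hb2]; simp,
          by rw [map_add, map_smul, map_smul, hvb, smul_eq_mul, smul_eq_mul,
            inv_mul_cancel₀ ha2]; simp⟩
      have hyw : pol Q y (z₀ - Q z₀ • y) = 1 := by
        rw [map_sub, map_smul, hz1, pol_self, hy.1.2]; simp
      have hvw : pol Q v (z₀ - Q z₀ • y) = 1 := by
        rw [map_sub, map_smul, hz2, pol_comm v y, hyv]; simp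
      have hw : IsSing Q (z₀ - Q z₀ • y) := by
        refine ⟨fun h => ?_, ?_⟩
        · rw [h, map_zero] at hyw; exact zero_ne_one hyw
        · rw [Q_sub, Q_smul, hy.1.2, map_smul, pol_comm, hz1]; simp
      have hwD := InDelta.of_nonorth hQ hy hz hyz hw (by rw [hyw]; exact one_ne_zero)
      exact InDelta.of_nonorth hQ hwD hy (by rw [pol_comm, hyw]; exact one_ne_zero) hv
        (by rw [pol_comm, hvw]; exact one_ne_zero)
  · exact InDelta.of_nonorth hQ hy hz hyz hv hyv

theorem isSiegel_Rf_mul_Rf (hQ : (pol Q).Nondegenerate) {a x : V} (ha : Q a ≠ 0)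
    (hax : Q (a + x) ≠ 0) (hx : Q x = 0) (hpx : pol Q a x = 0) :
    IsSiegel Q x ((-(Q a)⁻¹) • a) (Rf hQ a ha * Rf hQ (a + x) hax) := by
  intro v
  rw [Rf_mul_Rf_add_apply hQ ha hax hx hpx, Q_smul]
  simp only [map_smul, smul_eq_mul, smul_smul]
  match_scalars <;> field_simp
  ring

variable [Finite F]

theorem commutator_le_of_all (hQ : (pol Q).Nondegenerate) (hn : 5 ≤ Module.finrank F V)
    (h : ∀ v, IsSing Q v → InDelta M v) : Ω ≤ M := by
  apply commutator_le_of_siegel hQ hn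
  intro a x ha hax hx hpx
  by_cases hx0 : x = 0
  · have : Rf hQ (a + x) hax = Rf hQ a ha := Rf_congr hQ (by rw [hx0, add_zero]) _ _
    rw [this, Rf_mul_self]
    exact one_mem _
  · exact (h x ⟨hx0, hx⟩).2 _ _ (by rw [map_smul, pol_comm, hpx, smul_zero])
      (isSiegel_Rf_mul_Rf hQ ha hax hx hpx)

theorem singular_stab_maximal_O (hQ : (pol Q).Nondegenerate) (hn : 7 ≤ Module.finrank F V)
    (W : Submodule F V) (hW : ∀ u ∈ W, Q u = 0)
    (hexc : ∀ L : Submodule F V, (∀ u ∈ L, Q u = 0) → 2 * Module.finrank F L = Module.finrank F V →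
      Module.finrank F L ≠ Module.finrank F W + 1)
    (M : Subgroup (IsomOf (F := F) (bet Q))) (hPM : stabO Q W ⊓ Ω ≤ M) (hMΩ : M ≤ Ω) :
    M = stabO Q W ⊓ Ω ∨ M = Ω := by
  have hWD : ∀ x ∈ W, x ≠ 0 → InDelta M x := by
    intro x hx hx0
    refine ⟨⟨hx0, hW x hx⟩, fun a g ha hg => hPM ⟨?_, isSiegel_mem hQ hn (hW x hx) ha hg⟩⟩
    apply mem_stabO_of_le
    intro w hw
    rw [hg w, pol_eq_zero_of_singular hW hw hx]
    simp only [zero_smul, mul_zero, sub_zero]
    exact W.add_mem hw (W.smul_mem _ hx)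
  by_cases hAB : ∃ y z, InDelta M y ∧ InDelta M z ∧ pol Q y z ≠ 0
  · obtain ⟨y, z, hy, hz, hyz⟩ := hAB
    right
    exact le_antisymm hMΩ (commutator_le_of_all hQ (by omega)
      (fun v hv => InDelta.all hQ hy hz hyz hv))
  · push Not at hAB
    left
    refine le_antisymm (fun m hm => ⟨?_, hMΩ hm⟩) hPM
    apply mem_stabO_of_le
    intro x₀ hx₀
    by_contra hd
    have hx₀0 : x₀ ≠ 0 := by
      rintro rfl
      rw [map_zero] at hd
      exact hd W.zero_mem
    have hdD : InDelta M (m.1 x₀) := (hWD x₀ hx₀ hx₀0).map hQ hm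
    obtain ⟨d, hdef⟩ : ∃ d, d = m.1 x₀ := ⟨_, rfl⟩
    rw [← hdef] at hd hdD
    have hWd : ∀ z ∈ W, pol Q z d = 0 := by
      intro z hz
      by_cases hz0 : z = 0
      · rw [hz0, map_zero, LinearMap.zero_apply]
      · exact hAB z d (hWD z hz hz0) hdD
    obtain ⟨x₁, hx₁W, hx₁d⟩ := exists_orth_nonorth hQ W hd
    obtain ⟨x₂, hx₂W, hx₂d⟩ : ∃ x₂, (∀ z ∈ W, pol Q z x₂ = 0) ∧ pol Q d x₂ = 1 :=
      ⟨(pol Q d x₁)⁻¹ • x₁, fun z hz => by rw [map_smul, hx₁W z hz, smul_zero],
        by rw [map_smul, smul_eq_mul, inv_mul_cancel₀ hx₁d]⟩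
    obtain ⟨x, hxW, hxd, hQx⟩ : ∃ x, (∀ z ∈ W, pol Q z x = 0) ∧ pol Q d x = 1 ∧ Q x = 0 := by
      refine ⟨x₂ - Q x₂ • d, fun z hz => ?_, ?_, ?_⟩
      · rw [map_sub, map_smul, hx₂W z hz, hWd z hz]; simp
      · rw [map_sub, map_smul, hx₂d, pol_self, hdD.1.2]; simp
      · rw [Q_sub, Q_smul, hdD.1.2, map_smul, pol_comm x₂ d, hx₂d]; simp
    have hxnot : x ∉ W := by
      intro h
      have := hWd x h
      rw [pol_comm, hxd] at this
      exact one_ne_zero this
    have hW' : ∀ u ∈ W ⊔ Submodule.span F {x}, Q u = 0 := by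
      intro u hu
      obtain ⟨w, hw, y, hy, rfl⟩ := Submodule.mem_sup.mp hu
      obtain ⟨t, rfl⟩ := Submodule.mem_span_singleton.mp hy
      rw [Q_add, hW w hw, Q_smul, hQx, map_smul, hxW w hw]; simp
    have hfr : Module.finrank F ↥(W ⊔ Submodule.span F {x}) = Module.finrank F W + 1 :=
      Submodule.finrank_sup_span_singleton hxnot
    obtain ⟨a, haW', hQa⟩ : ∃ a ∈ LinearMap.BilinForm.orthogonal (pol Q)
        (W ⊔ Submodule.span F {x}), Q a ≠ 0 := by
      by_contra hcon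
      push Not at hcon
      have h1 := two_mul_finrank_le hQ _ hcon
      have h2 := two_mul_finrank_le hQ _ hW'
      have h3 := LinearMap.BilinForm.finrank_orthogonal hQ (W ⊔ Submodule.span F {x})
      exact hexc _ hW' (by omega) hfr
    rw [LinearMap.BilinForm.mem_orthogonal_iff] at haW'
    have haW : ∀ z ∈ W, pol Q z a = 0 := fun z hz => haW' z (Submodule.mem_sup_left hz)
    have hxa : pol Q x a = 0 :=
      haW' x (Submodule.mem_sup_right (Submodule.mem_span_singleton_self x))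
    obtain ⟨ρ, hρ⟩ := exists_isSiegel hQ hQx hxa
    have hρP : ρ ∈ M := by
      refine hPM ⟨?_, isSiegel_mem hQ hn hQx hxa hρ⟩
      apply mem_stabO_of_le
      intro w hw
      rw [hρ w, haW w hw, hxW w hw]
      simpa using hw
    have h4 := hAB d _ hdD (hdD.map hQ hρP)
    rw [hρ d, hxd] at h4
    simp only [map_add, map_sub, map_smul, pol_self, hdD.1.2, hxd, smul_eq_mul, mul_one,
      mul_zero, zero_add, one_smul] at h4
    apply hQa
    linear_combination -h4

theorem maximal_of_subgroupOf {G : Type*} [Group G] (S H K : Subgroup G) (hK : K ≤ S) (hH : H ≤ K)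
    (h1 : H.subgroupOf S ≠ K.subgroupOf S)
    (h : ∀ M' : Subgroup S, H.subgroupOf S ≤ M' → M' ≤ K.subgroupOf S →
      M' = H.subgroupOf S ∨ M' = K.subgroupOf S) :
    H < K ∧ ∀ M, H ≤ M → M ≤ K → M = H ∨ M = K := by
  refine ⟨lt_of_le_of_ne hH (fun e => h1 (by rw [e])), fun M hHM hMK => ?_⟩
  rcases h (M.subgroupOf S) (Subgroup.subgroupOf_mono S hHM) (Subgroup.subgroupOf_mono S hMK)
    with e | e
  · left
    rw [Subgroup.subgroupOf_inj, inf_eq_left.mpr (hMK.trans hK),
      inf_eq_left.mpr (hH.trans hK)] at e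
    exact e
  · right
    rw [Subgroup.subgroupOf_inj, inf_eq_left.mpr (hMK.trans hK), inf_eq_left.mpr hK] at e
    exact e

theorem OmL_subgroupOf : (OmL Q).subgroupOf (IsomOf (F := F) (bet Q)) = Ω := by
  ext g
  rw [Subgroup.mem_subgroupOf, mem_OmL]
  constructor
  · rintro ⟨ω, hω, h⟩
    rwa [← Subtype.ext h]
  · intro h
    exact ⟨g, h, rfl⟩

theorem OmL_le : OmL Q ≤ IsomOf (F := F) (bet Q) := by
  rintro _ ⟨ω, -, rfl⟩
  exact ω.2

theorem singular_stab_maximal (hQ : (pol Q).Nondegenerate) (hn : 7 ≤ Module.finrank F V)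
    (W : Submodule F V) (hW : ∀ u ∈ W, Q u = 0) (hW0 : W ≠ ⊥)
    (hexc : ∀ L : Submodule F V, (∀ u ∈ L, Q u = 0) → 2 * Module.finrank F L = Module.finrank F V →
      Module.finrank F L ≠ Module.finrank F W + 1) :
    stabL W ⊓ OmL Q < OmL Q ∧
      ∀ M : Subgroup (V ≃ₗ[F] V), stabL W ⊓ OmL Q ≤ M → M ≤ OmL Q →
        M = stabL W ⊓ OmL Q ∨ M = OmL Q := by
  have e1 : (stabL W ⊓ OmL Q).subgroupOf (IsomOf (F := F) (bet Q)) = stabO Q W ⊓ Ω := by
    rw [← OmL_subgroupOf]
    rfl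
  apply maximal_of_subgroupOf (IsomOf (F := F) (bet Q)) _ _ OmL_le inf_le_right
  · rw [e1, OmL_subgroupOf]
    intro h
    obtain ⟨ω, hω, hne⟩ := exists_not_stab_of_singular hQ (by omega) W hW hW0
    rw [← h] at hω
    exact hne hω.1
  · rw [e1, OmL_subgroupOf]
    exact singular_stab_maximal_O hQ hn W hW hexc

end Cfsg.Agent.H6.Quad
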