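import Cfsg.Agent.Lib_helper6_OmegaGen

/-! Perfectness of `Ω`. -/

set_option autoImplicit false

namespace Cfsg.Agent.H6.Quad

open scoped commutatorElement

variable {F V : Type*} [Field F] [AddCommGroup V] [Module F V] {Q : QuadraticForm F V}
variable [FiniteDimensional F V]

theorem Rf_congr (hQ : (pol Q).Nondegenerate) {u u' : V} (h : u = u') (hu : Q u ≠ 0)
    (hu' : Q u' ≠ 0) : Rf hQ u hu = Rf hQ u' hu' := by
  subst h; rfl

theorem Rf_inv (hQ : (pol Q).Nondegenerate) (u : V) (hu : Q u ≠ 0) :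
    (Rf hQ u hu)⁻¹ = Rf hQ u hu := inv_eq_of_mul_eq_one_left (Rf_mul_self hQ u hu)

/-- The data needed to write a Siegel element as a commutator in `Ω`. -/
def PerfData (Q : QuadraticForm F V) : Prop :=
  ∀ u d : V, Q u ≠ 0 → Q d = 0 → pol Q u d = 0 →
    ∃ a w, Q a ≠ 0 ∧ pol Q a d = 0 ∧ pol Q u a = -Q a ∧ Q w = Q u ∧ pol Q w a = 0 ∧ pol Q w d = 0

theorem siegel_mem_derived [Finite F] (hQ : (pol Q).Nondegenerate) {u d a w : V} (hu : Q u ≠ 0)
    (hud' : Q (u + d) ≠ 0) (hd : Q d = 0) (hud : pol Q u d = 0) (ha : Q a ≠ 0)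
    (had : pol Q a d = 0) (hua : pol Q u a = -Q a) (hw : Q w = Q u) (hwa : pol Q w a = 0)
    (hwd : pol Q w d = 0) :
    Rf hQ u hu * Rf hQ (u + d) hud' ∈
      ⁅commutator (IsomOf (F := F) (bet Q)), commutator (IsomOf (F := F) (bet Q))⁆ := by
  have hw0 : Q w ≠ 0 := by rw [hw]; exact hu
  have hQad : Q (a + d) = Q a := by rw [Q_add, hd, had]; ring
  have had0 : Q (a + d) ≠ 0 := by rw [hQad]; exact ha
  set s := Rf hQ u hu * Rf hQ w hw0 with hs
  set g := Rf hQ a ha * Rf hQ (a + d) had0 with hg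
  have hsm : s ∈ commutator (IsomOf (F := F) (bet Q)) := Rf_mul_Rf_mem hQ u w hu hw0 hw.symm
  have hgm : g ∈ commutator (IsomOf (F := F) (bet Q)) := Rf_mul_Rf_mem hQ a (a + d) ha had0 hQad.symm
  have hgw : g.1 w = w := by
    rw [hg, Rf_mul_Rf_add_apply hQ ha had0 hd had, hwd, hwa]; simp
  have hgu : g.1 u = u + d := by
    rw [hg, Rf_mul_Rf_add_apply hQ ha had0 hd had, hud, hua]
    simp only [zero_div, zero_smul, add_zero, neg_div, div_self ha]
    module
  have hgw0 : Q (g.1 w) ≠ 0 := by rw [hgw]; exact hw0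
  have hgu0 : Q (g.1 u) ≠ 0 := by rw [hgu]; exact hud'
  have key : ⁅s, g⁆ = Rf hQ u hu * Rf hQ (u + d) hud' := by
    have e1 : g * Rf hQ w hw0 * g⁻¹ = Rf hQ w hw0 := by
      rw [conj_Rf hQ w hw0 g hgw0]; exact Rf_congr hQ hgw _ _
    have e2 : g * Rf hQ u hu * g⁻¹ = Rf hQ (u + d) hud' := by
      rw [conj_Rf hQ u hu g hgu0]; exact Rf_congr hQ hgu _ _
    have e3 : s⁻¹ = Rf hQ w hw0 * Rf hQ u hu := by
      rw [hs, mul_inv_rev, Rf_inv, Rf_inv]
    calc ⁅s, g⁆ = s * (g * s⁻¹ * g⁻¹) := by rw [commutatorElement_def]; group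
      _ = s * ((g * Rf hQ w hw0 * g⁻¹) * (g * Rf hQ u hu * g⁻¹)) := by rw [e3]; group
      _ = Rf hQ u hu * (Rf hQ w hw0 * Rf hQ w hw0) * Rf hQ (u + d) hud' := by
        rw [e1, e2, hs]; group
      _ = _ := by rw [Rf_mul_self, mul_one]
  rw [← key]
  exact Subgroup.commutator_mem_commutator hsm hgm

theorem derived_eq [Finite F] (hQ : (pol Q).Nondegenerate) (hn : 5 ≤ Module.finrank F V)
    (hP : PerfData Q) :
    commutator (IsomOf (F := F) (bet Q)) ≤
      ⁅commutator (IsomOf (F := F) (bet Q)), commutator (IsomOf (F := F) (bet Q))⁆ := by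
  apply commutator_le_of_siegel hQ hn
  intro u d hu hud' hd hud
  obtain ⟨a, w, ha, had, hua, hw, hwa, hwd⟩ := hP u d hu hd hud
  exact siegel_mem_derived hQ hu hud' hd hud ha had hua hw hwa hwd

theorem commutator_Omega_eq_top [Finite F] (hQ : (pol Q).Nondegenerate)
    (hn : 5 ≤ Module.finrank F V) (hP : PerfData Q) :
    commutator ↥(commutator (IsomOf (F := F) (bet Q))) = ⊤ := by
  have h1 := Subgroup.map_subtype_commutator (commutator (IsomOf (F := F) (bet Q)))
  rw [eq_top_iff]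
  intro x _
  have h2 : x.1 ∈ ⁅commutator (IsomOf (F := F) (bet Q)), commutator (IsomOf (F := F) (bet Q))⁆ :=
    derived_eq hQ hn hP x.2
  rw [← h1] at h2
  obtain ⟨y, hy, hyx⟩ := h2
  have : y = x := Subtype.ext hyx
  rwa [← this]

/-- The data exist in dimension at least seven. -/
theorem perfData_of_seven [Finite F] (hQ : (pol Q).Nondegenerate) (hn : 7 ≤ Module.finrank F V) :
    PerfData Q := by
  intro u d hu hd hud
  have hund : u ∉ Submodule.span F {d} := by
    intro h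
    obtain ⟨t, rfl⟩ := Submodule.mem_span_singleton.mp h
    rw [Q_smul, hd, mul_zero] at hu
    exact hu rfl
  obtain ⟨z, hzd, huz⟩ := exists_orth_nonorth hQ _ hund
  have hdz : pol Q d z = 0 := hzd d (Submodule.mem_span_singleton_self d)
  obtain ⟨e, f, H, he, hf⟩ := exists_hyp_in_orth hQ (Submodule.span F {u, d}) (by
    have := finrank_span_pair_le (F := F) u d
    omega)
  have hue : pol Q u e = 0 := he u (Submodule.subset_span (by simp))
  have hde : pol Q d e = 0 := he d (Submodule.subset_span (by simp))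
  have huf : pol Q u f = 0 := hf u (Submodule.subset_span (by simp))
  have hdf : pol Q d f = 0 := hf d (Submodule.subset_span (by simp))
  -- a non-singular vector in `d^⊥` not orthogonal to `u`
  obtain ⟨a₀, ha₀, hda₀, hua₀⟩ : ∃ a₀, Q a₀ ≠ 0 ∧ pol Q d a₀ = 0 ∧ pol Q u a₀ ≠ 0 := by
    by_cases h0 : Q z = 0
    · by_cases h1 : pol Q z e = 0
      · by_cases h2 : pol Q z f = 0
        · refine ⟨z + (e + f), ?_, ?_, ?_⟩
          · rw [Q_add, Q_add, h0, H.e0, H.f0, H.ef, map_add, h1, h2]; simp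
          · rw [map_add, map_add, hdz, hde, hdf]; simp
          · rw [map_add, map_add, hue, huf]; simpa using huz
        · refine ⟨z + f, ?_, ?_, ?_⟩
          · rw [Q_add, h0, H.f0]; simpa using h2
          · rw [map_add, hdz, hdf]; simp
          · rw [map_add, huf]; simpa using huz
      · refine ⟨z + e, ?_, ?_, ?_⟩
        · rw [Q_add, h0, H.e0]; simpa using h1
        · rw [map_add, hdz, hde]; simp
        · rw [map_add, hue]; simpa using huz
    · exact ⟨z, h0, hdz, huz⟩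
  set t := -(pol Q u a₀) / Q a₀ with ht
  have ht0 : t ≠ 0 := div_ne_zero (neg_ne_zero.mpr hua₀) ha₀
  obtain ⟨w, hw, hwS⟩ := exists_orth_of_small hQ (Submodule.span F {t • a₀, d}) (by
    have := finrank_span_pair_le (F := F) (t • a₀) d
    omega) (Q u)
  refine ⟨t • a₀, w, ?_, ?_, ?_, hw, ?_, ?_⟩
  · rw [Q_smul]; exact mul_ne_zero (mul_ne_zero ht0 ht0) ha₀
  · rw [map_smul, LinearMap.smul_apply, pol_comm, hda₀, smul_zero]
  · rw [map_smul, Q_smul, smul_eq_mul, ht]; field_simp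
  · rw [pol_comm]; exact hwS _ (Submodule.subset_span (by simp))
  · rw [pol_comm]; exact hwS _ (Submodule.subset_span (by simp))

end Cfsg.Agent.H6.Quad
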