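import Mathlib

set_option autoImplicit false

namespace Cfsg.Agent.H6

open Matrix Matrix.SpecialLinearGroup
open scoped commutatorElement

variable {F : Type*} [Field F] {ι : Type*} [DecidableEq ι] [Fintype ι]

theorem transvection_smul_apply {i j : ι} (hij : i ≠ j) (b : F) (v : ι → F) (k : ι) :
    (transvection hij b • v) k = if k = i then v i + b * v j else v k := by
  rw [Matrix.SpecialLinearGroup.smul_def, transvection_coe]
  change (((1 : Matrix ι ι F) + single i j b) *ᵥ v) k = _
  rw [add_mulVec, one_mulVec, Pi.add_apply, single_mulVec_eq]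
  split_ifs with h
  · subst h; simp
  · simp [Ne.symm h, Pi.single_apply, h]

theorem diag2n_smul_apply {i j : ι} (hij : i ≠ j) (a : F) (ha : a ≠ 0) (v : ι → F) (k : ι) :
    (diag2n hij a ha • v) k = if k = i then a * v i else if k = j then a⁻¹ * v j else v k := by
  rw [Matrix.SpecialLinearGroup.smul_def, diag2n_coe]
  change ((diagonal _ : Matrix ι ι F) *ᵥ v) k = _
  rw [mulVec_diagonal]
  split_ifs with h1 h2
  · subst h1; rfl
  · subst h2; rfl
  · simp

theorem SL_ext_smul {A B : SpecialLinearGroup ι F} (h : ∀ v : ι → F, A • v = B • v) : A = B :=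
  Subtype.ext <| ext_iff_smul.2 h

theorem diag2n_decompose {i j : ι} (hij : i ≠ j) (a : F) (ha : a ≠ 0) :
    diag2n hij a ha = transvection hij a * transvection hij.symm (-a⁻¹) * transvection hij a *
      transvection hij (-1) * transvection hij.symm 1 * transvection hij (-1) := by
  apply SL_ext_smul
  intro v
  funext k
  simp only [mul_smul, transvection_smul_apply, diag2n_smul_apply]
  by_cases h1 : k = i
  · subst h1
    simp [hij, hij.symm]
    field_simp
    ring
  · by_cases h2 : k = j
    · subst h2
      simp [hij, hij.symm]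
      field_simp
      ring
    · simp [h1, h2]

theorem transvection_induction [Nontrivial ι] (P : SpecialLinearGroup ι F → Prop)
    (htransvec : ∀ (i j : ι) (h : i ≠ j) c, P (transvection h c))
    (hmul : ∀ A B, P A → P B → P (A * B)) (A : SpecialLinearGroup ι F) : P A := by
  refine diagonal_transvection_induction' P _ (fun i j hij c hc ↦ ?_) htransvec hmul
  rw [diag2n_decompose hij c hc]
  refine hmul _ _ (hmul _ _ (hmul _ _ (hmul _ _ (hmul _ _ ?_ ?_) ?_) ?_) ?_) ?_
  all_goals exact htransvec _ _ _ _

theorem commutator_transvection_transvection {i j k : ι} (hij : i ≠ j) (hik : i ≠ k) (hkj : k ≠ j)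
    (c : F) : ⁅transvection hik c, transvection hkj (1 : F)⁆ = transvection hij c := by
  rw [commutatorElement_def, transvection_inv, transvection_inv]
  apply SL_ext_smul
  intro v
  funext l
  simp only [mul_smul, transvection_smul_apply]
  by_cases h1 : l = i
  · subst h1
    simp [hij, hik, hkj, hik.symm, hkj.symm, hij.symm]
    ring
  · by_cases h2 : l = k
    · subst h2
      simp [hij, hik, hkj, hik.symm, hkj.symm, hij.symm]
    · simp [h1, h2]

theorem commutator_diag2n_transvection {i j : ι} (hij : i ≠ j) (a : F) (ha : a ≠ 0) (b : F) :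
    ⁅diag2n hij a ha, transvection hij b⁆ = transvection hij (b * (a ^ 2 - 1)) := by
  have hinv : (diag2n hij a ha)⁻¹ = diag2n hij a⁻¹ (inv_ne_zero ha) := by
    apply inv_eq_of_mul_eq_one_right
    apply SL_ext_smul
    intro v
    funext l
    simp only [mul_smul, diag2n_smul_apply, one_smul]
    by_cases h1 : l = i
    · subst h1; simp [ha]
    · by_cases h2 : l = j
      · subst h2; simp [hij.symm, ha]
      · simp [h1, h2]
  rw [commutatorElement_def, transvection_inv, hinv]
  apply SL_ext_smul
  intro v
  funext l
  simp only [mul_smul, transvection_smul_apply, diag2n_smul_apply]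
  by_cases h1 : l = i
  · subst h1
    simp [hij, hij.symm]
    field_simp
    ring
  · by_cases h2 : l = j
    · subst h2
      simp [hij, hij.symm, ha]
    · simp [h1, h2]

theorem exists_third {i j : ι} (h3 : 3 ≤ Fintype.card ι) : ∃ k : ι, i ≠ k ∧ k ≠ j := by
  by_contra hcon
  push Not at hcon
  have : (Finset.univ : Finset ι) ⊆ {i, j} := by
    intro k _
    by_cases hk : i = k
    · simp [hk]
    · simp [hcon k hk]
  have h := Finset.card_le_card this
  have h2 : ({i, j} : Finset ι).card ≤ 2 := Finset.card_le_two
  rw [Finset.card_univ] at h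
  omega

theorem transvection_mem_commutatorSet_of_three_le (h3 : 3 ≤ Fintype.card ι) {i j : ι}
    (hij : i ≠ j) (c : F) : transvection hij c ∈ commutatorSet (SpecialLinearGroup ι F) := by
  obtain ⟨k, hik, hkj⟩ := exists_third (i := i) (j := j) h3
  exact ⟨_, _, commutator_transvection_transvection hij hik hkj c⟩

theorem transvection_mem_commutatorSet_of_sq_ne_one {x : F} (hx : x ≠ 0) (hx2 : x ^ 2 ≠ 1)
    {i j : ι} (hij : i ≠ j) (c : F) :
    transvection hij c ∈ commutatorSet (SpecialLinearGroup ι F) := by
  refine ⟨diag2n hij x hx, transvection hij (c / (x ^ 2 - 1)), ?_⟩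
  rw [commutator_diag2n_transvection, div_mul_cancel₀ c (sub_ne_zero_of_ne hx2)]

theorem commutator_SL_eq_top_of_three_le (h3 : 3 ≤ Fintype.card ι) :
    commutator (SpecialLinearGroup ι F) = ⊤ := by
  have : Nontrivial ι := Fintype.one_lt_card_iff_nontrivial.mp (by omega)
  refine le_antisymm le_top (fun A _ ↦ transvection_induction _ (fun i j hij c ↦ ?_)
    (fun _ _ ↦ mul_mem) A)
  rw [commutator_eq_closure]
  exact Subgroup.subset_closure (transvection_mem_commutatorSet_of_three_le h3 hij c)

end Cfsg.Agent.H6
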