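import Cfsg.Agent.Lib_helper6_OmegaFunct
import Cfsg.Agent.Lib_helper6_SLn

/-! The Levi subgroup `GL_m` of `O⁺_{2m}` and its intersection with `Ω`. -/

set_option autoImplicit false

namespace Cfsg.Agent.H6.Quad

section abstract

variable {F V : Type*} [Field F] [AddCommGroup V] [Module F V] {Q : QuadraticForm F V}
variable [FiniteDimensional F V]

theorem hypTorus [Finite F] (h2 : (2 : F) ≠ 0) (hQ : (pol Q).Nondegenerate)
    (hd : 2 ≤ Module.finrank F V) {e f : V} (he : Q e = 0) (hf : Q f = 0) (hef : pol Q e f = 1)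
    {δ : F} (hδ : δ ≠ 0) :
    ∃ H : IsomOf (F := F) (bet Q),
      (∀ x, H.1 x = x + ((δ - 1) * pol Q x f) • e + ((δ⁻¹ - 1) * pol Q x e) • f) ∧
      dick hQ H = 1 ∧
      (H ∈ commutator (IsomOf (F := F) (bet Q)) ↔ IsSquare δ) := by
  have hfe : pol Q f e = 1 := by rw [pol_comm, hef]
  have hee : pol Q e e = 0 := by rw [pol_self, he, mul_zero]
  have hff : pol Q f f = 0 := by rw [pol_self, hf, mul_zero]
  have h1 : Q (e - δ • f) = -δ := by
    rw [Q_sub, Q_smul, he, hf, map_smul, hef]; simp
  have h3 : Q (e - f) = -1 := by rw [Q_sub, he, hf, hef]; ring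
  have h1' : Q (e - δ • f) ≠ 0 := by rw [h1]; exact neg_ne_zero.mpr hδ
  have h3' : Q (e - f) ≠ 0 := by rw [h3]; exact neg_ne_zero.mpr one_ne_zero
  refine ⟨Rf hQ (e - f) h3' * Rf hQ (e - δ • f) h1', fun x => ?_, by
    rw [map_mul, dick_Rf, dick_Rf]; rfl, ?_⟩
  · change (Rf hQ (e - f) h3').1 ((Rf hQ (e - δ • f) h1').1 x) = _
    rw [Rf_apply, Rf_apply, h1, h3]
    simp only [map_add, map_sub, map_smul, LinearMap.add_apply, LinearMap.sub_apply,
      LinearMap.smul_apply, smul_eq_mul, hee, hff, hef, hfe]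
    match_scalars <;> field_simp <;> ring
  · have := prod_mem_commutator_iff h2 hQ hd [e - f, e - δ • f] (by
      intro v hv
      simp only [List.mem_cons, List.not_mem_nil, or_false] at hv
      rcases hv with rfl | rfl
      · exact h3'
      · exact h1')
    simp only [List.map_cons, List.map_nil, List.prod_cons, List.prod_nil, mul_one,
      List.length_cons, List.length_nil, Rf'_eq hQ _ h3', Rf'_eq hQ _ h1', h1, h3] at this
    rw [this]
    have e1 : (-1 : F) * -δ = δ := by ring
    rw [e1]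
    constructor
    · exact fun h => h.2
    · exact fun h => ⟨by decide, h⟩

end abstract

variable {F : Type*} [Field F]

theorem quadFormPlus_eq_dotProduct (m : ℕ) (v : Fin m ⊕ Fin m → F) :
    Cfsg.quadFormPlus m F v = (v ∘ Sum.inl) ⬝ᵥ (v ∘ Sum.inr) := rfl

/-- The Levi embedding `A ↦ diag(A, A⁻ᵀ)`. -/
def levi (m : ℕ) (F : Type*) [Field F] :
    Matrix.GeneralLinearGroup (Fin m) F →* Cfsg.isometryGroup F (Cfsg.quadFormPlus m F) where
  toFun A := ⟨blockGL (A, ⟨(A⁻¹).1.transpose, A.1.transpose, by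
      rw [← Matrix.transpose_mul]; simp, by
      rw [← Matrix.transpose_mul]; simp⟩), fun u _ => by
    change Cfsg.quadFormPlus m F ((Matrix.fromBlocks A.1 0 0 (A⁻¹).1.transpose).mulVec u) =
      Cfsg.quadFormPlus m F u
    rw [quadFormPlus_eq_dotProduct, quadFormPlus_eq_dotProduct, Matrix.fromBlocks_mulVec]
    simp only [Matrix.zero_mulVec, add_zero, zero_add, Sum.elim_comp_inl, Sum.elim_comp_inr]
    rw [Matrix.dotProduct_mulVec, Matrix.vecMul_transpose, Matrix.mulVec_mulVec]
    simp⟩
  map_one' := by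
    apply Subtype.ext
    apply Units.ext
    change Matrix.fromBlocks _ 0 0 _ = _
    simp
  map_mul' A B := by
    apply Subtype.ext
    apply Units.ext
    change Matrix.fromBlocks _ 0 0 _ = Matrix.fromBlocks _ 0 0 _ * Matrix.fromBlocks _ 0 0 _
    rw [Matrix.fromBlocks_multiply]
    simp [Matrix.transpose_mul]

theorem levi_val (m : ℕ) (A : Matrix.GeneralLinearGroup (Fin m) F) :
    ((levi m F A : Matrix.GeneralLinearGroup (Fin m ⊕ Fin m) F) :
      Matrix (Fin m ⊕ Fin m) (Fin m ⊕ Fin m) F) =
      Matrix.fromBlocks (A : Matrix (Fin m) (Fin m) F) 0 0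
        ((A : Matrix (Fin m) (Fin m) F)⁻¹).transpose := by
  change Matrix.fromBlocks A.1 0 0 (A⁻¹).1.transpose = _
  rw [Matrix.coe_units_inv]

/-- `diag(δ, 1, …, 1)`. -/
def diagOne {m : ℕ} (i₀ : Fin m) (δ : F) (hδ : δ ≠ 0) : Matrix.GeneralLinearGroup (Fin m) F :=
  ⟨Matrix.diagonal (Function.update 1 i₀ δ), Matrix.diagonal (Function.update 1 i₀ δ⁻¹), by
    rw [Matrix.diagonal_mul_diagonal, ← Matrix.diagonal_one]
    congr 1
    funext i
    by_cases h : i = i₀
    · subst h; simp [hδ]
    · simp [h], by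
    rw [Matrix.diagonal_mul_diagonal, ← Matrix.diagonal_one]
    congr 1
    funext i
    by_cases h : i = i₀
    · subst h; simp [hδ]
    · simp [h]⟩

theorem det_diagOne {m : ℕ} (i₀ : Fin m) (δ : F) (hδ : δ ≠ 0) :
    (diagOne i₀ δ hδ : Matrix (Fin m) (Fin m) F).det = δ := by
  change (Matrix.diagonal (Function.update 1 i₀ δ)).det = δ
  rw [Matrix.det_diagonal, Finset.prod_update_of_mem (Finset.mem_univ _)]
  simp

theorem levi_SL_mem [Finite F] (h2 : (2 : F) ≠ 0) (m : ℕ) (S : Matrix.SpecialLinearGroup (Fin m) F) :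
    levi m F (Matrix.SpecialLinearGroup.toGL S) ∈ Cfsg.Omega F (Cfsg.quadFormPlus m F) := by
  by_cases hm : 2 ≤ m
  · have : Nontrivial (Fin m) := Fin.nontrivial_iff_two_le.mpr hm
    induction S using transvection_induction with
    | htransvec i j h c =>
      have : Matrix.SpecialLinearGroup.transvection h c =
          Matrix.SpecialLinearGroup.transvection h (c / 2) *
            Matrix.SpecialLinearGroup.transvection h (c / 2) := by
        apply Subtype.ext
        rw [Matrix.SpecialLinearGroup.coe_mul, Matrix.SpecialLinearGroup.transvection_coe,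
          Matrix.SpecialLinearGroup.transvection_coe]
        have := Matrix.transvection_mul_transvection_same i j h (c / 2) (c / 2)
        rw [Matrix.transvection, Matrix.transvection] at this
        rw [this]
        congr 2
        field_simp
        ring
      rw [this, map_mul, map_mul]
      exact sq_mem_Omega (qPlus m F) (nondeg_qPlus m) (Or.inl (card_ne_two h2)) _ (qPlus_apply m) _
    | hmul A B hA hB =>
      rw [map_mul, map_mul]
      exact mul_mem hA hB
  · have : S = 1 := by
      have hm' : m = 0 ∨ m = 1 := by omega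
      rcases hm' with rfl | rfl
      · apply Subtype.ext
        ext i
        exact i.elim0
      · apply Subtype.ext
        ext i j
        have h1 := S.2
        rw [Matrix.det_fin_one] at h1
        fin_cases i
        fin_cases j
        simpa using h1
    rw [this, map_one, map_one]
    exact one_mem _

theorem levi_diagOne_mem_iff [Finite F] (h2 : (2 : F) ≠ 0) {m : ℕ} (i₀ : Fin m) (δ : F)
    (hδ : δ ≠ 0) :
    levi m F (diagOne i₀ δ hδ) ∈ Cfsg.Omega F (Cfsg.quadFormPlus m F) ↔ IsSquare δ := by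
  classical
  have hm : 1 ≤ m := by have := i₀.2; omega
  obtain ⟨H, hH, -, hHmem⟩ := hypTorus h2 (nondeg_qPlus (F := F) m) (by simp; omega)
    (e := Pi.single (Sum.inl i₀) 1) (f := Pi.single (Sum.inr i₀) 1)
    (by rw [qPlus_apply]; simp [Cfsg.quadFormPlus])
    (by rw [qPlus_apply]; simp [Cfsg.quadFormPlus])
    (by rw [pol_qPlus]; simp [Pi.single_apply]) hδ
  rw [← hHmem, mem_commutator_equiv (isometryGroupEquiv (qPlus m F) _ (qPlus_apply m))]
  have : isometryGroupEquiv (qPlus m F) _ (qPlus_apply m) (levi m F (diagOne i₀ δ hδ)) = H := by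
    apply Subtype.ext
    ext1 x
    rw [isometryGroupEquiv_apply, hH, pol_qPlus, pol_qPlus]
    change (Matrix.fromBlocks (Matrix.diagonal (Function.update 1 i₀ δ)) 0 0
      (Matrix.diagonal (Function.update 1 i₀ δ⁻¹)).transpose).mulVec x = _
    rw [Matrix.fromBlocks_mulVec, Matrix.diagonal_transpose]
    funext k
    rcases k with k | k
    · simp only [Matrix.zero_mulVec, add_zero, Sum.elim_inl, Matrix.mulVec_diagonal,
        Function.comp_apply]
      by_cases hk : k = i₀
      · subst hk
        simp [Pi.single_apply]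
        ring
      · simp [Pi.single_apply, hk]
    · simp only [Matrix.zero_mulVec, zero_add, Sum.elim_inr, Matrix.mulVec_diagonal,
        Function.comp_apply]
      by_cases hk : k = i₀
      · subst hk
        simp [Pi.single_apply]
        ring
      · simp [Pi.single_apply, hk]
  rw [this]

theorem levi_mem_iff [Finite F] (h2 : (2 : F) ≠ 0) {m : ℕ} (hm : 1 ≤ m)
    (A : Matrix.GeneralLinearGroup (Fin m) F) :
    levi m F A ∈ Cfsg.Omega F (Cfsg.quadFormPlus m F) ↔
      IsSquare (A : Matrix (Fin m) (Fin m) F).det := by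
  have hdet : (A : Matrix (Fin m) (Fin m) F).det ≠ 0 := by
    have := (Matrix.isUnit_iff_isUnit_det _).mp A.isUnit
    exact this.ne_zero
  set D := diagOne (⟨0, hm⟩ : Fin m) _ hdet with hD
  have hS : ((D⁻¹ * A : Matrix.GeneralLinearGroup (Fin m) F) : Matrix (Fin m) (Fin m) F).det = 1 := by
    rw [Matrix.GeneralLinearGroup.coe_mul, Matrix.det_mul, Matrix.coe_units_inv,
      Matrix.det_nonsing_inv, hD, det_diagOne]
    simp [hdet]
  have hA : A = D * Matrix.SpecialLinearGroup.toGL ⟨_, hS⟩ := by
    apply Units.ext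
    change A.1 = D.1 * (D⁻¹ * A).1
    simp
  rw [← levi_diagOne_mem_iff h2 (⟨0, hm⟩ : Fin m) _ hdet, ← hD]
  conv_lhs => rw [hA, map_mul]
  exact Subgroup.mul_mem_cancel_right _ (levi_SL_mem h2 m _)

end Cfsg.Agent.H6.Quad
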