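import Cfsg.Agent.Lib_helper6_OmegaGen

/-! Primitivity of `Ω` on singular points. -/

set_option autoImplicit false

namespace Cfsg.Agent.H6.Quad

open scoped Pointwise

variable {F V : Type*} [Field F] [AddCommGroup V] [Module F V] {Q : QuadraticForm F V}

/-- Non-zero singular vectors. -/
def IsSing (Q : QuadraticForm F V) (x : V) : Prop := x ≠ 0 ∧ Q x = 0

theorem IsSing.smul {x : V} (h : IsSing Q x) {c : F} (hc : c ≠ 0) : IsSing Q (c • x) :=
  ⟨smul_ne_zero hc h.1, by rw [Q_smul, h.2, mul_zero]⟩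

theorem IsSing.map {x : V} (h : IsSing Q x) (g : IsomOf (F := F) (bet Q)) : IsSing Q (g.1 x) :=
  ⟨fun h0 => h.1 (by simpa using h0), by rw [mem_IsomOf_iff.mp g.2, h.2]⟩

/-- Singular points. -/
def SingPt (Q : QuadraticForm F V) : Type _ :=
  {L : Submodule F V // ∃ x, IsSing Q x ∧ L = Submodule.span F {x}}

/-- The point spanned by a singular vector. -/
def SingPt.mk (x : V) (h : IsSing Q x) : SingPt Q := ⟨Submodule.span F {x}, x, h, rfl⟩

theorem SingPt.ind {P : SingPt Q → Prop} (h : ∀ x hx, P (SingPt.mk x hx)) (p : SingPt Q) : P p := by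
  obtain ⟨L, x, hx, rfl⟩ := p
  exact h x hx

theorem SingPt.mk_smul {x : V} (h : IsSing Q x) {c : F} (hc : c ≠ 0) :
    SingPt.mk (c • x) (h.smul hc) = SingPt.mk x h :=
  Subtype.ext (Submodule.span_singleton_smul_eq (IsUnit.mk0 c hc) x)

theorem SingPt.mk_congr {x y : V} (hxy : x = y) (h : IsSing Q x) (h' : IsSing Q y) :
    SingPt.mk x h = SingPt.mk y h' := by
  subst hxy; rfl

/-- The action of the isometry group on singular points. -/
instance singPtAction : MulAction (IsomOf (F := F) (bet Q)) (SingPt Q) where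
  smul g p := ⟨p.1.map (g.1 : V →ₗ[F] V), by
    obtain ⟨L, x, hx, rfl⟩ := p
    exact ⟨g.1 x, hx.map g, by rw [Submodule.map_span, Set.image_singleton]; rfl⟩⟩
  one_smul p := Subtype.ext (Submodule.map_id p.1)
  mul_smul g h p := Subtype.ext (Submodule.map_comp (h.1 : V →ₗ[F] V) (g.1 : V →ₗ[F] V) p.1)

theorem smul_val (g : IsomOf (F := F) (bet Q)) (p : SingPt Q) :
    (g • p).1 = p.1.map (g.1 : V →ₗ[F] V) := rfl

theorem smul_mk (g : IsomOf (F := F) (bet Q)) {x : V} (h : IsSing Q x) :
    g • SingPt.mk x h = SingPt.mk (g.1 x) (h.map g) :=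
  Subtype.ext (by
    rw [smul_val]
    change (Submodule.span F {x}).map (g.1 : V →ₗ[F] V) = Submodule.span F {g.1 x}
    rw [Submodule.map_span, Set.image_singleton]; rfl)

theorem smul_mk' (g : commutator (IsomOf (F := F) (bet Q))) {x : V} (h : IsSing Q x) :
    g • SingPt.mk x h = SingPt.mk (g.1.1 x) (h.map g.1) := smul_mk g.1 h

local notation "Ω" => commutator (IsomOf (F := F) (bet Q))

theorem block_step {B : Set (SingPt Q)} (hB : MulAction.IsBlock ↥Ω B) {x y z : V}
    (hx : IsSing Q x) (hy : IsSing Q y) (hz : IsSing Q z) (hxB : SingPt.mk x hx ∈ B)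
    (hyB : SingPt.mk y hy ∈ B) (g : IsomOf (F := F) (bet Q)) (hg : g ∈ Ω) (hgx : g.1 x = x)
    (hgy : g.1 y = z) : SingPt.mk z hz ∈ B := by
  have h1 : (⟨g, hg⟩ : ↥Ω) • SingPt.mk x hx = SingPt.mk x hx := by
    rw [smul_mk']; exact SingPt.mk_congr hgx _ _
  have h2 : (⟨g, hg⟩ : ↥Ω) • SingPt.mk y hy = SingPt.mk z hz := by
    rw [smul_mk']; exact SingPt.mk_congr hgy _ _
  have h3 : (⟨g, hg⟩ : ↥Ω) • B = B := hB.smul_eq_of_mem hxB (by rw [h1]; exact hxB)
  rw [← h3, ← h2]
  exact Set.smul_mem_smul_set hyB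

variable [FiniteDimensional F V] [Finite F]

omit [FiniteDimensional F V] [Finite F] in
theorem finrank_span_singleton_le (x : V) : Module.finrank F (Submodule.span F {x}) ≤ 1 := by
  have h2 := finrank_span_le_card (R := F) ({x} : Set V)
  simpa only [Set.toFinset_singleton, Finset.card_singleton] using h2

theorem block_nonorth (hQ : (pol Q).Nondegenerate) (hn : 7 ≤ Module.finrank F V)
    {B : Set (SingPt Q)} (hB : MulAction.IsBlock ↥Ω B) {x y z : V}
    (hx : IsSing Q x) (hy : IsSing Q y) (hz : IsSing Q z) (hxB : SingPt.mk x hx ∈ B)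
    (hyB : SingPt.mk y hy ∈ B) (hxy : pol Q x y ≠ 0) (hxz : pol Q x z ≠ 0) :
    SingPt.mk z hz ∈ B := by
  have hnot : ∀ w : V, pol Q x w ≠ 0 → w ∉ Submodule.span F {x} := by
    intro w hw h
    obtain ⟨t, rfl⟩ := Submodule.mem_span_singleton.mp h
    rw [map_smul, pol_self, hx.2] at hw
    simp at hw
  have hy1 : pol Q x ((pol Q x y)⁻¹ • y) = 1 := by rw [map_smul, smul_eq_mul, inv_mul_cancel₀ hxy]
  have hz1 : pol Q x ((pol Q x z)⁻¹ • z) = 1 := by rw [map_smul, smul_eq_mul, inv_mul_cancel₀ hxz]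
  obtain ⟨g, hg, hgW, hgy⟩ := exists_fix_map_Omega hQ (Submodule.span F {x})
    (by have := finrank_span_singleton_le (F := F) x; omega)
    (x := (pol Q x z)⁻¹ • z) (y := (pol Q x y)⁻¹ • y)
    (hnot _ (by rw [hz1]; exact one_ne_zero)) (hnot _ (by rw [hy1]; exact one_ne_zero))
    (by
      intro w hw
      obtain ⟨t, rfl⟩ := Submodule.mem_span_singleton.mp hw
      rw [(pol Q).map_smul, LinearMap.smul_apply, LinearMap.smul_apply, hy1, hz1])
    (by rw [Q_smul, Q_smul, hy.2, hz.2, mul_zero, mul_zero])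
  have := block_step hB hx (hy.smul (inv_ne_zero hxy)) (hz.smul (inv_ne_zero hxz)) hxB
    (by rw [SingPt.mk_smul hy (inv_ne_zero hxy)]; exact hyB) g hg
    (hgW x (Submodule.mem_span_singleton_self x)) hgy
  rwa [SingPt.mk_smul hz (inv_ne_zero hxz)] at this

theorem block_orth (hQ : (pol Q).Nondegenerate) (hn : 7 ≤ Module.finrank F V)
    {B : Set (SingPt Q)} (hB : MulAction.IsBlock ↥Ω B) {x y z : V}
    (hx : IsSing Q x) (hy : IsSing Q y) (hz : IsSing Q z) (hxB : SingPt.mk x hx ∈ B)
    (hyB : SingPt.mk y hy ∈ B) (hxy : pol Q x y = 0) (hxz : pol Q x z = 0)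
    (hy' : y ∉ Submodule.span F {x}) (hz' : z ∉ Submodule.span F {x}) :
    SingPt.mk z hz ∈ B := by
  obtain ⟨g, hg, hgW, hgy⟩ := exists_fix_map_Omega hQ (Submodule.span F {x})
    (by have := finrank_span_singleton_le (F := F) x; omega) hz' hy'
    (by
      intro w hw
      obtain ⟨t, rfl⟩ := Submodule.mem_span_singleton.mp hw
      rw [(pol Q).map_smul, LinearMap.smul_apply, LinearMap.smul_apply, hxy, hxz])
    (by rw [hy.2, hz.2])
  exact block_step hB hx hy hz hxB hyB g hg (hgW x (Submodule.mem_span_singleton_self x)) hgy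

theorem block_eq_univ_of_nonorth (hQ : (pol Q).Nondegenerate) (hn : 7 ≤ Module.finrank F V)
    {B : Set (SingPt Q)} (hB : MulAction.IsBlock ↥Ω B) {x y : V}
    (hx : IsSing Q x) (hy : IsSing Q y) (hxB : SingPt.mk x hx ∈ B)
    (hyB : SingPt.mk y hy ∈ B) (hxy : pol Q x y ≠ 0) : B = Set.univ := by
  rw [Set.eq_univ_iff_forall]
  intro p
  induction p using SingPt.ind with
  | h w hw =>
    by_cases hxw : pol Q x w = 0
    · by_cases hwx : w ∈ Submodule.span F {x}
      · obtain ⟨t, rfl⟩ := Submodule.mem_span_singleton.mp hwx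
        have ht : t ≠ 0 := by
          rintro rfl
          exact hw.1 (zero_smul _ _)
        rw [SingPt.mk_smul hx ht]; exact hxB
      · have hxw' : x ∉ Submodule.span F {w} := by
          intro h
          obtain ⟨t, rfl⟩ := Submodule.mem_span_singleton.mp h
          apply hwx
          have ht : t ≠ 0 := by
            rintro rfl
            exact hx.1 (zero_smul _ _)
          rw [Submodule.mem_span_singleton]
          exact ⟨t⁻¹, by rw [smul_smul, inv_mul_cancel₀ ht, one_smul]⟩
        obtain ⟨a, ha1, ha2⟩ := exists_orth_nonorth hQ _ hwx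
        obtain ⟨b, hb1, hb2⟩ := exists_orth_nonorth hQ _ hxw'
        have hxa : pol Q x a = 0 := ha1 x (Submodule.mem_span_singleton_self x)
        have hwb : pol Q w b = 0 := hb1 w (Submodule.mem_span_singleton_self w)
        obtain ⟨z₀, hz1, hz2⟩ : ∃ z₀, pol Q x z₀ = 1 ∧ pol Q w z₀ = 1 :=
          ⟨(pol Q w a)⁻¹ • a + (pol Q x b)⁻¹ • b,
            by rw [map_add, map_smul, map_smul, hxa, smul_eq_mul, smul_eq_mul,
              inv_mul_cancel₀ hb2]; simp,
            by rw [map_add, map_smul, map_smul, hwb, smul_eq_mul, smul_eq_mul,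
              inv_mul_cancel₀ ha2]; simp⟩
        have hxz : pol Q x (z₀ - Q z₀ • x) = 1 := by
          rw [map_sub, map_smul, hz1, pol_self, hx.2]; simp
        have hwz : pol Q w (z₀ - Q z₀ • x) = 1 := by
          rw [map_sub, map_smul, hz2, pol_comm w x, hxw]; simp
        have hz : IsSing Q (z₀ - Q z₀ • x) := by
          refine ⟨fun h => ?_, ?_⟩
          · rw [h, map_zero] at hxz; exact zero_ne_one hxz
          · rw [Q_sub, Q_smul, hx.2, map_smul, pol_comm, hz1]; simp
        have hzB := block_nonorth hQ hn hB hx hy hz hxB hyB hxy (by rw [hxz]; exact one_ne_zero)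
        exact block_nonorth hQ hn hB hz hx hw hzB hxB (by rw [pol_comm, hxz]; exact one_ne_zero)
          (by rw [pol_comm, hwz]; exact one_ne_zero)
    · exact block_nonorth hQ hn hB hx hy hw hxB hyB hxy hxw

theorem exists_Omega_map_sing (hQ : (pol Q).Nondegenerate) (hn : 5 ≤ Module.finrank F V)
    {x y : V} (hx : IsSing Q x) (hy : IsSing Q y) : ∃ g ∈ Ω, g.1 x = y := by
  obtain ⟨g, hg, -, hgy⟩ := exists_fix_map_Omega hQ (⊥ : Submodule F V)
    (by rw [finrank_bot]; omega) (x := y) (y := x) (by simpa using hy.1) (by simpa using hx.1)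
    (by
      intro z hz
      rw [(Submodule.mem_bot F).mp hz]; simp)
    (by rw [hx.2, hy.2])
  exact ⟨g, hg, hgy⟩

theorem isPreprimitive_Omega (hQ : (pol Q).Nondegenerate) (hn : 7 ≤ Module.finrank F V) :
    MulAction.IsPreprimitive ↥Ω (SingPt Q) := by
  have htrans : MulAction.IsPretransitive ↥Ω (SingPt Q) := by
    constructor
    intro p q
    induction p using SingPt.ind with
    | h v hv =>
      induction q using SingPt.ind with
      | h w hw =>
        obtain ⟨g, hg, hgv⟩ := exists_Omega_map_sing hQ (by omega) hv hw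
        refine ⟨⟨g, hg⟩, ?_⟩
        rw [smul_mk']
        exact SingPt.mk_congr hgv _ _
  refine ⟨?_⟩
  intro B hB
  by_cases hsub : B.Subsingleton
  · exact Or.inl hsub
  right
  rw [Set.not_subsingleton_iff] at hsub
  obtain ⟨p, hp, q, hq, hpq⟩ := hsub
  induction p using SingPt.ind with
  | h x hx =>
    induction q using SingPt.ind with
    | h y hy =>
      by_cases hxy : pol Q x y = 0
      · have hy' : y ∉ Submodule.span F {x} := by
          intro h
          obtain ⟨c, rfl⟩ := Submodule.mem_span_singleton.mp h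
          apply hpq
          have hc : c ≠ 0 := by
            rintro rfl
            exact hy.1 (zero_smul _ _)
          rw [SingPt.mk_smul hx hc]
        obtain ⟨z₀, hz1, hz2⟩ := exists_orth_nonorth hQ _ hy'
        have hxz₀ : pol Q x z₀ = 0 := hz1 x (Submodule.mem_span_singleton_self x)
        have hyz : pol Q y (z₀ - (Q z₀ / pol Q y z₀) • y) = pol Q y z₀ := by
          rw [map_sub, map_smul, pol_self, hy.2]; simp
        have hxz : pol Q x (z₀ - (Q z₀ / pol Q y z₀) • y) = 0 := by
          rw [map_sub, map_smul, hxz₀, hxy]; simp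
        have hz : IsSing Q (z₀ - (Q z₀ / pol Q y z₀) • y) := by
          refine ⟨fun h => ?_, ?_⟩
          · rw [h, map_zero] at hyz; exact hz2 hyz.symm
          · rw [Q_sub, Q_smul, hy.2, map_smul, pol_comm z₀ y, smul_eq_mul, div_mul_cancel₀ _ hz2]
            simp
        have hz' : z₀ - (Q z₀ / pol Q y z₀) • y ∉ Submodule.span F {x} := by
          intro h
          obtain ⟨c, hc⟩ := Submodule.mem_span_singleton.mp h
          rw [← hc, map_smul, pol_comm, hxy, smul_zero] at hyz
          exact hz2 hyz.symm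
        have hzB := block_orth hQ hn hB hx hy hz hp hq hxy hxz hy' hz'
        exact block_eq_univ_of_nonorth hQ hn hB hy hz hq hzB (by rw [hyz]; exact hz2)
      · exact block_eq_univ_of_nonorth hQ hn hB hx hy hp hq hxy

end Cfsg.Agent.H6.Quad
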