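import Cfsg.Agent.Lib_helper6_OmegaPrim
import Cfsg.Agent.Lib_helper6_OmegaPerfect

/-! Simplicity of `PΩ` through Iwasawa's criterion. -/

set_option autoImplicit false

namespace Cfsg.Agent.H6.Quad

open scoped Pointwise

variable {F V : Type*} [Field F] [AddCommGroup V] [Module F V] {Q : QuadraticForm F V}
variable [FiniteDimensional F V]

local notation "O" => IsomOf (F := F) (bet Q)
local notation "Ω" => commutator (IsomOf (F := F) (bet Q))

theorem inv_apply_apply (g : O) (v : V) : (g⁻¹).1 (g.1 v) = v := by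
  change (g⁻¹ * g).1 v = v
  rw [inv_mul_cancel]; rfl

theorem apply_inv_apply (g : O) (v : V) : g.1 ((g⁻¹).1 v) = v := by
  change (g * g⁻¹).1 v = v
  rw [mul_inv_cancel]; rfl

theorem pol_isom (g : O) (v w : V) : pol Q (g.1 v) (g.1 w) = pol Q v w :=
  pol_map (T := (g.1 : V →ₗ[F] V)) (mem_IsomOf_iff.mp g.2) v w

/-- An isometry fixing `x^⊥` pointwise, `x` singular, is the identity. -/
theorem eq_one_of_fix_orth (hQ : (pol Q).Nondegenerate) (k : O) {x : V} (hx : IsSing Q x)
    (h : ∀ v, pol Q x v = 0 → k.1 v = v) : k = 1 := by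
  apply Subtype.ext
  ext v
  change k.1 v = v
  by_cases hxv : pol Q x v = 0
  · exact h v hxv
  have hmem : k.1 v - v ∈ Submodule.span F {x} := by
    by_contra hcon
    obtain ⟨w, hw1, hw2⟩ := exists_orth_nonorth hQ _ hcon
    apply hw2
    have hxw : pol Q x w = 0 := hw1 x (Submodule.mem_span_singleton_self x)
    have h1 := pol_isom k v w
    rw [h w hxw] at h1
    rw [map_sub, LinearMap.sub_apply, h1, sub_self]
  obtain ⟨t, ht⟩ := Submodule.mem_span_singleton.mp hmem
  have hkv : k.1 v = v + t • x := by rw [ht]; abel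
  have h2 : Q (k.1 v) = Q v := mem_IsomOf_iff.mp k.2 v
  rw [hkv, Q_add, Q_smul, hx.2, map_smul, pol_comm, smul_eq_mul] at h2
  have h3 : t * pol Q x v = 0 := by linear_combination h2
  rcases mul_eq_zero.mp h3 with h4 | h4
  · rw [hkv, h4, zero_smul, add_zero]
  · exact absurd h4 hxv

/-- The unipotent radical (inside `Ω`) of the stabiliser of a singular point. -/
def radSub (p : SingPt Q) : Subgroup ↥Ω where
  carrier := {g | (∀ v ∈ p.1, g.1.1 v = v) ∧
    ∀ v, (∀ s ∈ p.1, pol Q s v = 0) → g.1.1 v - v ∈ p.1}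
  one_mem' := ⟨fun v _ => rfl, fun v _ => by
    change v - v ∈ p.1
    rw [sub_self]; exact zero_mem _⟩
  mul_mem' {a b} ha hb := ⟨fun v hv => by
      change a.1.1 (b.1.1 v) = v
      rw [hb.1 v hv, ha.1 v hv], fun v hv => by
      change a.1.1 (b.1.1 v) - v ∈ p.1
      have h1 := hb.2 v hv
      have h2 := ha.2 v hv
      have h3 := ha.1 _ h1
      have : a.1.1 (b.1.1 v) - v = (b.1.1 v - v) + (a.1.1 v - v) := by
        rw [← h3, map_sub]; abel
      rw [this]
      exact add_mem h1 h2⟩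
  inv_mem' {a} ha := by
    have hfix : ∀ v ∈ p.1, (a.1⁻¹).1 v = v := fun v hv => by
      have := inv_apply_apply a.1 v
      rwa [ha.1 v hv] at this
    refine ⟨hfix, fun v hv => ?_⟩
    change (a.1⁻¹).1 v - v ∈ p.1
    have h2 := ha.2 v hv
    have h3 := hfix _ h2
    rw [map_sub, inv_apply_apply] at h3
    have : (a.1⁻¹).1 v - v = -(a.1.1 v - v) := by
      rw [← h3]; abel
    rw [this]
    exact neg_mem h2

theorem mem_radSub {p : SingPt Q} {g : ↥Ω} : g ∈ radSub p ↔ (∀ v ∈ p.1, g.1.1 v = v) ∧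
    ∀ v, (∀ s ∈ p.1, pol Q s v = 0) → g.1.1 v - v ∈ p.1 := Iff.rfl

theorem radSub_comm (hQ : (pol Q).Nondegenerate) (p : SingPt Q) {a b : ↥Ω} (ha : a ∈ radSub p)
    (hb : b ∈ radSub p) : a * b = b * a := by
  obtain ⟨L, x, hx, rfl⟩ := p
  have key : (b.1 * a.1)⁻¹ * (a.1 * b.1) = 1 := by
    apply eq_one_of_fix_orth hQ _ hx
    intro v hv
    have hv' : ∀ s ∈ Submodule.span F {x}, pol Q s v = 0 := by
      intro s hs
      obtain ⟨t, rfl⟩ := Submodule.mem_span_singleton.mp hs
      rw [map_smul, LinearMap.smul_apply, hv, smul_zero]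
    have h1 : a.1.1 (b.1.1 v) = b.1.1 (a.1.1 v) := by
      have e1 := ha.1 _ (hb.2 v hv')
      have e2 := hb.1 _ (ha.2 v hv')
      rw [map_sub] at e1 e2
      have e3 : a.1.1 (b.1.1 v) = b.1.1 v - v + a.1.1 v := by rw [← e1]; abel
      have e4 : b.1.1 (a.1.1 v) = a.1.1 v - v + b.1.1 v := by rw [← e2]; abel
      rw [e3, e4]; abel
    change ((b.1 * a.1)⁻¹).1 (a.1.1 (b.1.1 v)) = v
    rw [h1]
    exact inv_apply_apply (b.1 * a.1) v
  apply Subtype.ext
  change a.1 * b.1 = b.1 * a.1
  exact (inv_mul_eq_one.mp key).symm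

theorem conj_mem_radSub (g : ↥Ω) (p : SingPt Q) {k : ↥Ω} (hk : k ∈ radSub p) :
    g * k * g⁻¹ ∈ radSub (g • p) := by
  have hmem : ∀ v, v ∈ (g • p).1 ↔ (g.1⁻¹).1 v ∈ p.1 := by
    intro v
    change v ∈ p.1.map (g.1.1 : V →ₗ[F] V) ↔ _
    constructor
    · rintro ⟨w, hw, rfl⟩
      change (g.1⁻¹).1 (g.1.1 w) ∈ p.1
      rw [inv_apply_apply]; exact hw
    · intro h
      exact ⟨_, h, apply_inv_apply g.1 v⟩
  refine ⟨fun v hv => ?_, fun v hv => ?_⟩
  · change g.1.1 (k.1.1 ((g.1⁻¹).1 v)) = v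
    rw [hk.1 _ ((hmem v).mp hv), apply_inv_apply]
  · change g.1.1 (k.1.1 ((g.1⁻¹).1 v)) - v ∈ (g • p).1
    rw [hmem, map_sub, inv_apply_apply]
    apply hk.2
    intro s hs
    have h1 := hv (g.1.1 s) ((hmem _).mpr (by rw [inv_apply_apply]; exact hs))
    rw [← pol_isom g.1, apply_inv_apply]
    exact h1

theorem radSub_conj (g : ↥Ω) (p : SingPt Q) : radSub (g • p) = MulAut.conj g • radSub p := by
  ext k
  rw [Subgroup.mem_pointwise_smul_iff_inv_smul_mem]
  have e : (MulAut.conj g)⁻¹ • k = g⁻¹ * k * g := by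
    simp [MulAut.smul_def]
  rw [e]
  constructor
  · intro hk
    have := conj_mem_radSub g⁻¹ (g • p) hk
    rwa [inv_smul_smul, inv_inv] at this
  · intro hk
    have := conj_mem_radSub g p hk
    have e2 : g * (g⁻¹ * k * g) * g⁻¹ = k := by group
    rwa [e2] at this

variable [Finite F]

theorem siegel_mem_radSub (hQ : (pol Q).Nondegenerate) {a x : V} (ha : Q a ≠ 0)
    (hax : Q (a + x) ≠ 0) (hx : IsSing Q x) (hpx : pol Q a x = 0)
    (hm : Rf hQ a ha * Rf hQ (a + x) hax ∈ Ω) :
    (⟨Rf hQ a ha * Rf hQ (a + x) hax, hm⟩ : ↥Ω) ∈ radSub (SingPt.mk x hx) := by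
  refine ⟨fun v hv => ?_, fun v hv => ?_⟩
  · obtain ⟨t, rfl⟩ := Submodule.mem_span_singleton.mp hv
    change (Rf hQ a ha * Rf hQ (a + x) hax).1 (t • x) = t • x
    rw [Rf_mul_Rf_add_apply hQ ha hax hx.2 hpx]
    simp only [map_smul, LinearMap.smul_apply, pol_self, hx.2, pol_comm x a, hpx]
    simp
  · change (Rf hQ a ha * Rf hQ (a + x) hax).1 v - v ∈ Submodule.span F {x}
    have hxv : pol Q v x = 0 := by
      rw [pol_comm]; exact hv x (Submodule.mem_span_singleton_self x)
    rw [Rf_mul_Rf_add_apply hQ ha hax hx.2 hpx, hxv]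
    simp only [zero_div, zero_smul, add_zero, sub_sub_cancel_left]
    exact neg_mem (Submodule.smul_mem _ _ (Submodule.mem_span_singleton_self x))

/-- The Iwasawa structure of `Ω` on singular points. -/
noncomputable def omegaIwasawa (hQ : (pol Q).Nondegenerate) (hn : 5 ≤ Module.finrank F V) :
    MulAction.IwasawaStructure ↥Ω (SingPt Q) where
  T p := radSub p
  is_comm p := ⟨⟨by
    rintro ⟨a, ha⟩ ⟨b, hb⟩
    exact Subtype.ext (radSub_comm hQ p ha hb)⟩⟩
  is_conj g p := radSub_conj g p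
  is_generator := by
    rw [eq_top_iff]
    intro g _
    have h1 : Ω ≤ (⨆ p : SingPt Q, radSub p).map (Subgroup.subtype Ω) := by
      apply commutator_le_of_siegel hQ hn
      intro a x ha hax hx hpx
      by_cases hx0 : x = 0
      · have : Rf hQ (a + x) hax = Rf hQ a ha := Rf_congr hQ (by rw [hx0, add_zero]) _ _
        rw [this, Rf_mul_self]
        exact one_mem _
      · have hQax : Q a = Q (a + x) := by rw [Q_add, hx, hpx]; ring
        have hm := Rf_mul_Rf_mem hQ a (a + x) ha hax hQax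
        exact ⟨⟨_, hm⟩, Subgroup.mem_iSup_of_mem (SingPt.mk x ⟨hx0, hx⟩)
          (siegel_mem_radSub hQ ha hax ⟨hx0, hx⟩ hpx hm), rfl⟩
    obtain ⟨y, hy, hyg⟩ := h1 g.2
    have : y = g := Subtype.ext hyg
    rwa [← this]

/-- A linear map stabilising every singular line is a scalar. -/
theorem exists_scalar_of_singular_lines (hQ : (pol Q).Nondegenerate)
    (hn : 5 ≤ Module.finrank F V) (z : V →ₗ[F] V)
    (hs : ∀ x, x ≠ 0 → Q x = 0 → ∃ b : F, z x = b • x) : ∃ l : F, ∀ v, z v = l • v := by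
  obtain ⟨e, he0, hQe⟩ := exists_singular (Q := Q) (by omega)
  obtain ⟨f, hQf, hef⟩ := exists_hyp_partner hQ he0 hQe
  have H : HypPair Q e f := ⟨hQe, hQf, hef⟩
  obtain ⟨l, hl⟩ := hs e he0 hQe
  have hall : ∀ y, Q y = 0 → z y = l • y := by
    intro y hy
    by_cases hy0 : y = 0
    · rw [hy0]; simp
    obtain ⟨b, hb⟩ := hs y hy0 hy
    by_cases hey : pol Q e y = 0
    · rw [hb, eq_of_orthogonal_singular _ hs he0 hy0 hQe hy hey hl hb]
    · set P := (pol Q).orthogonal (Submodule.span F {e, y}) with hP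
      have hPd : 3 ≤ Module.finrank F P := by
        rw [hP, LinearMap.BilinForm.finrank_orthogonal hQ]
        have := finrank_span_pair_le (F := F) e y
        omega
      obtain ⟨p, hp0, hQp⟩ := exists_singular (Q := resQ Q P) hPd
      rw [resQ_apply] at hQp
      have hp0' : (p : V) ≠ 0 := fun h => hp0 (Subtype.ext h)
      have hpm := LinearMap.BilinForm.mem_orthogonal_iff.mp p.2
      have hep : pol Q e p = 0 := hpm e (Submodule.subset_span (by simp))
      have hyp : pol Q y p = 0 := hpm y (Submodule.subset_span (by simp))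
      obtain ⟨c, hc⟩ := hs p hp0' hQp
      rw [hb, eq_of_orthogonal_singular _ hs hy0 hp0' hy hQp hyp hb hc,
        ← eq_of_orthogonal_singular _ hs he0 hp0' hQe hQp hep hl hc]
  refine ⟨l, fun v => ?_⟩
  set p := ((H.split v).2.2 : V) with hp
  have hpm : p ∈ compl Q e f := (H.split v).2.2.2
  have hdec := H.decomp v
  have hsing : Q (p + e - Q p • f) = 0 := by
    have := H.Q_decomp 1 (-(Q p)) hpm
    have e1 : (1 : F) • e + (-(Q p)) • f + p = p + e - Q p • f := by module
    rw [e1] at this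
    rw [this]; ring
  have hzp : z p = l • p := by
    have e2 : p = (p + e - Q p • f) - e + Q p • f := by abel
    conv_lhs => rw [e2]
    rw [map_add, map_sub, map_smul, hall _ hsing, hall _ hQe, hall _ hQf]
    module
  conv_lhs => rw [hdec]
  rw [map_add, map_add, map_smul, map_smul, hall _ hQe, hall _ hQf, ← hp, hzp]
  conv_rhs => rw [hdec]
  rw [← hp]
  module

theorem normal_le_center_or_eq_top (hQ : (pol Q).Nondegenerate) (hn : 7 ≤ Module.finrank F V)
    (N : Subgroup ↥Ω) [N.Normal] : N ≤ Subgroup.center ↥Ω ∨ N = ⊤ := by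
  have : MulAction.IsPreprimitive ↥Ω (SingPt Q) := isPreprimitive_Omega hQ hn
  have : MulAction.IsQuasiPreprimitive ↥Ω (SingPt Q) :=
    MulAction.IsPreprimitive.isQuasiPreprimitive
  by_cases h : MulAction.fixedPoints N (SingPt Q) = Set.univ
  · left
    intro A hA
    obtain ⟨l, hl⟩ := exists_scalar_of_singular_lines hQ (by omega) (A.1.1 : V →ₗ[F] V) (by
      intro x hx0 hx
      have hxs : IsSing Q x := ⟨hx0, hx⟩
      have h1 : SingPt.mk x hxs ∈ MulAction.fixedPoints N (SingPt Q) := by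
        rw [h]; trivial
      have h2 : A • SingPt.mk x hxs = SingPt.mk x hxs := h1 ⟨A, hA⟩
      rw [smul_mk'] at h2
      have h3 : A.1.1 x ∈ Submodule.span F {x} := by
        have := congrArg Subtype.val h2
        change Submodule.span F {A.1.1 x} = Submodule.span F {x} at this
        rw [← this]
        exact Submodule.mem_span_singleton_self _
      obtain ⟨b, hb⟩ := Submodule.mem_span_singleton.mp h3
      exact ⟨b, hb.symm⟩)
    rw [Subgroup.mem_center_iff]
    intro g
    apply Subtype.ext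
    apply Subtype.ext
    ext v
    change g.1.1 (A.1.1 v) = A.1.1 (g.1.1 v)
    have h1 : A.1.1 v = l • v := hl v
    have h2 : A.1.1 (g.1.1 v) = l • g.1.1 v := hl _
    rw [h1, h2, map_smul]
  · right
    rw [eq_top_iff, ← commutator_Omega_eq_top hQ (by omega) (perfData_of_seven hQ hn)]
    exact (omegaIwasawa hQ (by omega)).commutator_le N h

theorem exists_not_mem_center (hQ : (pol Q).Nondegenerate) (hn : 5 ≤ Module.finrank F V) :
    ∃ A : ↥Ω, A ∉ Subgroup.center ↥Ω := by
  obtain ⟨e, he0, hQe⟩ := exists_singular (Q := Q) (by omega)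
  obtain ⟨f, hQf, hef⟩ := exists_hyp_partner hQ he0 hQe
  have hf0 : f ≠ 0 := by
    rintro rfl
    rw [map_zero] at hef
    exact zero_ne_one hef
  obtain ⟨g, hg, hge⟩ := exists_Omega_map_sing hQ hn (x := e) (y := f) ⟨he0, hQe⟩ ⟨hf0, hQf⟩
  refine ⟨⟨g, hg⟩, fun hc => ?_⟩
  have h1 := eq_one_or_neg_of_centralizes hQ hn g (by
    intro k hk
    have := Subgroup.mem_center_iff.mp hc ⟨k, hk⟩
    exact congrArg Subtype.val this)
  have hee : pol Q e e = 0 := by rw [pol_self, hQe, mul_zero]
  rcases h1 with rfl | rfl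
  · have : e = f := hge
    rw [← this, hee] at hef
    exact zero_ne_one hef
  · have : -e = f := hge
    rw [← this, map_neg, hee, neg_zero] at hef
    exact zero_ne_one hef

/-- `PΩ` is simple in dimension at least seven. -/
theorem isSimpleGroup_quot_center (hQ : (pol Q).Nondegenerate) (hn : 7 ≤ Module.finrank F V) :
    IsSimpleGroup (↥Ω ⧸ Subgroup.center ↥Ω) := by
  have : Nontrivial (↥Ω ⧸ Subgroup.center ↥Ω) := by
    obtain ⟨A, hA⟩ := exists_not_mem_center hQ (by omega : 5 ≤ Module.finrank F V)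
    refine ⟨⟨(A : ↥Ω ⧸ Subgroup.center ↥Ω), 1, fun h => hA ?_⟩⟩
    exact (QuotientGroup.eq_one_iff A).mp h
  refine ⟨fun H hH => ?_⟩
  have : (H.comap (QuotientGroup.mk' (Subgroup.center ↥Ω))).Normal := hH.comap _
  rcases normal_le_center_or_eq_top hQ hn (H.comap (QuotientGroup.mk' (Subgroup.center ↥Ω)))
    with h | h
  · left
    rw [eq_bot_iff]
    intro x hx
    obtain ⟨a, rfl⟩ := QuotientGroup.mk'_surjective _ x
    rw [Subgroup.mem_bot]
    exact (QuotientGroup.eq_one_iff a).mpr (h hx)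
  · right
    rw [eq_top_iff]
    intro x _
    obtain ⟨a, rfl⟩ := QuotientGroup.mk'_surjective _ x
    have : a ∈ H.comap (QuotientGroup.mk' (Subgroup.center ↥Ω)) := by rw [h]; trivial
    exact this

end Cfsg.Agent.H6.Quad

namespace Cfsg.Agent.H6

/-- Transport of simplicity of `G'/Z(G')` along an isomorphism. -/
theorem isSimpleGroup_commutator_quot_center_equiv {G G' : Type*} [Group G] [Group G']
    (e : G ≃* G') (h : IsSimpleGroup (↥(commutator G') ⧸ Subgroup.center ↥(commutator G'))) :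
    IsSimpleGroup (↥(commutator G) ⧸ Subgroup.center ↥(commutator G)) := by
  let e' : ↥(commutator G) ≃* ↥(commutator G') :=
    (e.subgroupMap (commutator G)).trans (MulEquiv.subgroupCongr (map_commutator_equiv e))
  have hc : (Subgroup.center ↥(commutator G)).map e'.toMonoidHom =
      Subgroup.center ↥(commutator G') := by
    ext x
    constructor
    · rintro ⟨y, hy, rfl⟩
      rw [Subgroup.mem_center_iff]
      intro g
      obtain ⟨g', rfl⟩ := e'.surjective g
      have := Subgroup.mem_center_iff.mp hy g'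
      change e' g' * e' y = e' y * e' g'
      rw [← map_mul, ← map_mul, this]
    · intro hx
      refine ⟨e'.symm x, ?_, by simp⟩
      rw [SetLike.mem_coe, Subgroup.mem_center_iff]
      intro g
      apply e'.injective
      rw [map_mul, map_mul, MulEquiv.apply_symm_apply]
      exact Subgroup.mem_center_iff.mp hx (e' g)
  have e'' := QuotientGroup.congr (Subgroup.center ↥(commutator G))
    (Subgroup.center ↥(commutator G')) e' hc
  exact e''.isSimpleGroup

end Cfsg.Agent.H6

namespace Cfsg.Agent.H6.Quad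

variable {F : Type*} [Field F] [Finite F] {ι : Type} [Fintype ι] [DecidableEq ι]

theorem isSimpleGroup_POmega (Q : QuadraticForm F (ι → F)) (hQ : (pol Q).Nondegenerate)
    (hn : 7 ≤ Fintype.card ι) (Qf : (ι → F) → F) (hQf : ∀ v, Q v = Qf v) :
    IsSimpleGroup (Cfsg.POmega F Qf) :=
  isSimpleGroup_commutator_quot_center_equiv (isometryGroupEquiv Q Qf hQf)
    (isSimpleGroup_quot_center hQ (by simpa using hn))

end Cfsg.Agent.H6.Quad
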