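import Cfsg.Agent.Lib_helper6_OmegaPlus

/-! Transitivity properties of `Ω`. -/

set_option autoImplicit false

namespace Cfsg.Agent.H6.Quad

variable {F V : Type*} [Field F] [AddCommGroup V] [Module F V] {Q : QuadraticForm F V}
variable [FiniteDimensional F V]

theorem dick_eq_chi_mul [Finite F] (h2 : (2 : F) ≠ 0) (hQ : (pol Q).Nondegenerate) {α : F}
    (hα : ¬ IsSquare α) (g : IsomOf (F := F) (bet Q)) : dick hQ g = chi Q 1 g * chi Q α g := by
  have : dick hQ = chi Q 1 * chi Q α := by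
    apply hom_ext_of_Rf hQ (Or.inl (card_ne_two h2))
    intro u hu
    rw [dick_Rf, MonoidHom.mul_apply]
    by_cases hs : IsSquare (Q u)
    · obtain ⟨a1, a2⟩ := chi_Rf_of_sq h2 hQ hα u hu hs
      rw [a1, a2]; rfl
    · obtain ⟨a1, a2⟩ := chi_Rf_of_not_sq h2 hQ hα u hu hs
      rw [a1, a2]; rfl
  rw [this, MonoidHom.mul_apply]

theorem units_aux : ∀ (a b c d : ℤˣ), a * b = 1 → c * d = 1 → ¬ (a = 1 ∧ b = 1) →
    ¬ (c = 1 ∧ d = 1) → a * c = 1 ∧ b * d = 1 := by
  decide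

/-- Adjusting an isometry of Dickson invariant one into `Ω`. -/
theorem exists_adjust_of_dick [Finite F] (hQ : (pol Q).Nondegenerate)
    (hex : Nat.card F ≠ 2 ∨ Module.finrank F V ≠ 4) (hd : (2 : F) ≠ 0 → 2 ≤ Module.finrank F V)
    (S : Subgroup (IsomOf (F := F) (bet Q)))
    (h2' : (2 : F) ≠ 0 → ∃ s ∈ S, dick hQ s = 1 ∧ s ∉ commutator (IsomOf (F := F) (bet Q)))
    (g : IsomOf (F := F) (bet Q)) (hg : dick hQ g = 1) :
    ∃ t ∈ S, g * t ∈ commutator (IsomOf (F := F) (bet Q)) := by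
  classical
  by_cases h2 : (2 : F) = 0
  · exact ⟨1, one_mem _, by rw [mul_one, mem_commutator_iff_dick h2 hQ hex, hg]⟩
  by_cases hgm : g ∈ commutator (IsomOf (F := F) (bet Q))
  · exact ⟨1, one_mem _, by rwa [mul_one]⟩
  obtain ⟨s, hsS, hs1, hs2⟩ := h2' h2
  have := Fintype.ofFinite F
  obtain ⟨α, hα⟩ := FiniteField.exists_nonsquare (F := F) (by
    intro hchar
    apply h2
    have := ringChar.Nat.cast_ringChar (R := F)
    rw [hchar] at this
    exact_mod_cast this)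
  refine ⟨s, hsS, ?_⟩
  rw [mem_commutator_iff h2 hQ (hd h2) hα] at hgm hs2 ⊢
  rw [dick_eq_chi_mul h2 hQ hα] at hg hs1
  rw [map_mul, map_mul]
  exact units_aux _ _ _ _ hg hs1 hgm hs2

theorem exists_adjust [Finite F] (hQ : (pol Q).Nondegenerate)
    (hex : Nat.card F ≠ 2 ∨ Module.finrank F V ≠ 4) (hd : (2 : F) ≠ 0 → 2 ≤ Module.finrank F V)
    (S : Subgroup (IsomOf (F := F) (bet Q))) (h1 : ∃ s ∈ S, dick hQ s = -1)
    (h2' : (2 : F) ≠ 0 → ∃ s ∈ S, dick hQ s = 1 ∧ s ∉ commutator (IsomOf (F := F) (bet Q)))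
    (g : IsomOf (F := F) (bet Q)) :
    ∃ t ∈ S, g * t ∈ commutator (IsomOf (F := F) (bet Q)) := by
  rcases Int.units_eq_one_or (dick hQ g) with hg | hg
  · exact exists_adjust_of_dick hQ hex hd S h2' g hg
  · obtain ⟨s, hs, hs1⟩ := h1
    obtain ⟨t, ht, hgt⟩ := exists_adjust_of_dick hQ hex hd S h2' (g * s) (by
      rw [map_mul, hg, hs1]; rfl)
    exact ⟨s * t, mul_mem hs ht, by rwa [← mul_assoc]⟩

/-- The stabiliser of a subspace. -/
def stabO (Q : QuadraticForm F V) (U : Submodule F V) : Subgroup (IsomOf (F := F) (bet Q)) where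
  carrier := {g | U.map (g.1 : V →ₗ[F] V) = U}
  one_mem' := by
    change U.map LinearMap.id = U
    exact Submodule.map_id U
  mul_mem' {a b} ha hb := by
    change U.map ((a.1 : V →ₗ[F] V) ∘ₗ (b.1 : V →ₗ[F] V)) = U
    rw [Submodule.map_comp, hb, ha]
  inv_mem' {a} ha := by
    change U.map ((a⁻¹).1 : V →ₗ[F] V) = U
    conv_lhs => rw [← (show U.map (a.1 : V →ₗ[F] V) = U from ha), ← Submodule.map_comp]
    have : ((a⁻¹).1 : V →ₗ[F] V) ∘ₗ (a.1 : V →ₗ[F] V) = LinearMap.id := by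
      ext v
      change (a⁻¹ * a).1 v = v
      rw [inv_mul_cancel]; rfl
    rw [this, Submodule.map_id]

theorem mem_stabO {U : Submodule F V} {g : IsomOf (F := F) (bet Q)} :
    g ∈ stabO Q U ↔ U.map (g.1 : V →ₗ[F] V) = U := Iff.rfl

theorem mem_stabO_of_le {U : Submodule F V} {g : IsomOf (F := F) (bet Q)}
    (h : ∀ x ∈ U, g.1 x ∈ U) : g ∈ stabO Q U := by
  rw [mem_stabO]
  apply Submodule.eq_of_le_of_finrank_eq
  · rintro _ ⟨x, hx, rfl⟩
    exact h x hx
  · exact finrank_map_isom g.1 U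

/-- Witt's theorem for subspaces. -/
theorem witt_map (hQ : (pol Q).Nondegenerate) (U W : Submodule F V) (e : U ≃ₗ[F] W)
    (he : ∀ u : U, Q (e u : V) = Q (u : V)) :
    ∃ g : IsomOf (F := F) (bet Q), U.map (g.1 : V →ₗ[F] V) = W := by
  obtain ⟨g, hg, hgx⟩ := witt_of_moving (moving hQ) U (W.subtype ∘ₗ e.toLinearMap)
    (by
      intro a b hab
      exact e.injective (Subtype.ext hab))
    (by
      intro x x'
      change Q ((e x : V) + (e x' : V)) = Q ((x : V) + (x' : V))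
      have := he (x + x')
      rwa [map_add] at this)
  refine ⟨⟨g, hg⟩, ?_⟩
  apply le_antisymm
  · rintro _ ⟨x, hx, rfl⟩
    change g x ∈ W
    rw [hgx ⟨x, hx⟩]
    exact (e ⟨x, hx⟩).2
  · intro w hw
    refine ⟨(e.symm ⟨w, hw⟩ : V), (e.symm ⟨w, hw⟩).2, ?_⟩
    change g (e.symm ⟨w, hw⟩ : V) = w
    rw [hgx]
    simp

theorem exists_mem_commutator_map [Finite F] (hQ : (pol Q).Nondegenerate)
    (hex : Nat.card F ≠ 2 ∨ Module.finrank F V ≠ 4) (hd : (2 : F) ≠ 0 → 2 ≤ Module.finrank F V)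
    (U W : Submodule F V) (e : U ≃ₗ[F] W) (he : ∀ u : U, Q (e u : V) = Q (u : V))
    (h1 : ∃ s ∈ stabO Q U, dick hQ s = -1)
    (h2' : (2 : F) ≠ 0 → ∃ s ∈ stabO Q U, dick hQ s = 1 ∧
      s ∉ commutator (IsomOf (F := F) (bet Q))) :
    ∃ g ∈ commutator (IsomOf (F := F) (bet Q)), U.map (g.1 : V →ₗ[F] V) = W := by
  obtain ⟨g, hg⟩ := witt_map hQ U W e he
  obtain ⟨t, ht, hgt⟩ := exists_adjust hQ hex hd (stabO Q U) h1 h2' g
  refine ⟨g * t, hgt, ?_⟩
  change U.map ((g.1 : V →ₗ[F] V) ∘ₗ (t.1 : V →ₗ[F] V)) = W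
  rw [Submodule.map_comp, mem_stabO.mp ht, hg]

theorem Rf_mem_stabO_of_orth (hQ : (pol Q).Nondegenerate) {U : Submodule F V} {a : V}
    (ha : Q a ≠ 0) (h : ∀ x ∈ U, pol Q x a = 0) : Rf hQ a ha ∈ stabO Q U := by
  apply mem_stabO_of_le
  intro x hx
  rw [Rf_apply, h x hx]
  simpa using hx

theorem Rf_mem_stabO_of_mem (hQ : (pol Q).Nondegenerate) {U : Submodule F V} {a : V}
    (ha : Q a ≠ 0) (h : a ∈ U) : Rf hQ a ha ∈ stabO Q U := by
  apply mem_stabO_of_le
  intro x hx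
  rw [Rf_apply]
  exact U.sub_mem hx (U.smul_mem _ h)

/-- The torus element attached to a singular vector of a totally singular subspace. -/
theorem exists_torus_stab [Finite F] (h2 : (2 : F) ≠ 0) (hQ : (pol Q).Nondegenerate)
    (hd : 2 ≤ Module.finrank F V) {U : Submodule F V} (hU : ∀ u ∈ U, Q u = 0) (hU0 : U ≠ ⊥) :
    ∃ s ∈ stabO Q U, dick hQ s = 1 ∧ s ∉ commutator (IsomOf (F := F) (bet Q)) := by
  classical
  obtain ⟨e, heU, he0⟩ := Submodule.exists_mem_ne_zero_of_ne_bot hU0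
  obtain ⟨f, hf, hef⟩ := exists_hyp_partner hQ he0 (hU e heU)
  have := Fintype.ofFinite F
  obtain ⟨α, hα⟩ := FiniteField.exists_nonsquare (F := F) (by
    intro hchar
    apply h2
    have := ringChar.Nat.cast_ringChar (R := F)
    rw [hchar] at this
    exact_mod_cast this)
  have hα0 : α ≠ 0 := fun h => hα (h ▸ IsSquare.zero)
  obtain ⟨H, hH, hHd, hHm⟩ := hypTorus h2 hQ hd (hU e heU) hf hef hα0
  refine ⟨H, ?_, hHd, fun h => hα (hHm.mp h)⟩
  apply mem_stabO_of_le
  intro x hx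
  rw [hH, pol_eq_zero_of_singular hU hx heU]
  simp only [mul_zero, zero_smul, add_zero]
  exact U.add_mem hx (U.smul_mem _ heU)

/-- `Ω` is transitive on totally singular subspaces of a given dimension below the middle. -/
theorem omega_trans_singular [Finite F] (hQ : (pol Q).Nondegenerate)
    (hex : Nat.card F ≠ 2 ∨ Module.finrank F V ≠ 4) (U W : Submodule F V) {k : ℕ}
    (hk : 2 * k < Module.finrank F V) (hU : Module.finrank F U = k) (hW : Module.finrank F W = k)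
    (hU0 : ∀ u ∈ U, Q u = 0) (hW0 : ∀ u ∈ W, Q u = 0) :
    ∃ g ∈ commutator (IsomOf (F := F) (bet Q)), U.map (g.1 : V →ₗ[F] V) = W := by
  by_cases hk0 : k = 0
  · subst hk0
    rw [Submodule.finrank_eq_zero] at hU hW
    exact ⟨1, one_mem _, by rw [hU, hW, Submodule.map_bot]⟩
  have hd : 2 ≤ Module.finrank F V := by omega
  apply exists_mem_commutator_map hQ hex (fun _ => hd) U W
    (LinearEquiv.ofFinrankEq U W (by rw [hU, hW]))
    (fun u => by rw [hU0 _ u.2, hW0 _ (Subtype.property _)])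
  · have : ∃ a ∈ (pol Q).orthogonal U, Q a ≠ 0 := by
      by_contra hcon
      push Not at hcon
      have h1 := two_mul_finrank_le hQ _ hcon
      rw [LinearMap.BilinForm.finrank_orthogonal hQ, hU] at h1
      omega
    obtain ⟨a, haU, ha⟩ := this
    exact ⟨Rf hQ a ha, Rf_mem_stabO_of_orth hQ ha
      (fun x hx => LinearMap.BilinForm.mem_orthogonal_iff.mp haU x hx), dick_Rf hQ a ha⟩
  · intro h2
    apply exists_torus_stab h2 hQ hd hU0
    intro h
    rw [h, finrank_bot] at hU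
    exact hk0 hU.symm

theorem nondeg_resQ (P : Submodule F V) (hP : P ⊓ (pol Q).orthogonal P = ⊥) :
    (pol (resQ Q P)).Nondegenerate := by
  apply nondeg_of_left
  intro p hp
  have : (p : V) ∈ P ⊓ (pol Q).orthogonal P := by
    refine ⟨p.2, ?_⟩
    rw [SetLike.mem_coe, LinearMap.BilinForm.mem_orthogonal_iff]
    intro x hx
    have := hp ⟨x, hx⟩
    rw [pol_resQ] at this
    rw [pol_comm]
    exact this
  rw [hP, Submodule.mem_bot] at this
  exact Subtype.ext this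

/-- Adjusters coming from a non-degenerate subspace of dimension at least two all of whose
reflections lie in `S`. -/
theorem exists_adjusters [Finite F] (hQ : (pol Q).Nondegenerate) (hd : 2 ≤ Module.finrank F V)
    (S : Subgroup (IsomOf (F := F) (bet Q))) (P : Submodule F V)
    (hP : P ⊓ (pol Q).orthogonal P = ⊥) (hP2 : 2 ≤ Module.finrank F P)
    (hS : ∀ a ∈ P, ∀ ha : Q a ≠ 0, Rf hQ a ha ∈ S) :
    (∃ s ∈ S, dick hQ s = -1) ∧ ((2 : F) ≠ 0 → ∃ s ∈ S, dick hQ s = 1 ∧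
      s ∉ commutator (IsomOf (F := F) (bet Q))) := by
  classical
  have hnd := nondeg_resQ P hP
  obtain ⟨a, ha⟩ := universal hnd hP2 1
  rw [resQ_apply] at ha
  have ha0 : Q (a : V) ≠ 0 := by rw [ha]; exact one_ne_zero
  refine ⟨⟨_, hS a a.2 ha0, dick_Rf hQ _ ha0⟩, fun h2 => ?_⟩
  have := Fintype.ofFinite F
  obtain ⟨α, hα⟩ := FiniteField.exists_nonsquare (F := F) (by
    intro hchar
    apply h2
    have := ringChar.Nat.cast_ringChar (R := F)
    rw [hchar] at this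
    exact_mod_cast this)
  have hα0 : α ≠ 0 := fun h => hα (h ▸ IsSquare.zero)
  obtain ⟨b, hb⟩ := universal hnd hP2 α
  rw [resQ_apply] at hb
  have hb0 : Q (b : V) ≠ 0 := by rw [hb]; exact hα0
  refine ⟨Rf hQ a ha0 * Rf hQ b hb0, mul_mem (hS a a.2 ha0) (hS b b.2 hb0), by
    rw [map_mul, dick_Rf, dick_Rf]; rfl, ?_⟩
  rw [mem_commutator_iff h2 hQ hd hα, map_mul, map_mul]
  obtain ⟨a1, a2⟩ := chi_Rf_of_sq h2 hQ hα a ha0 (by rw [ha]; exact IsSquare.one)
  obtain ⟨b1, b2⟩ := chi_Rf_of_not_sq h2 hQ hα b hb0 (by rw [hb]; exact hα)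
  rw [a1, a2, b1, b2]
  decide

/-- `Ω` is transitive on non-degenerate subspaces of a given isometry type. -/
theorem omega_trans_nondeg [Finite F] (hQ : (pol Q).Nondegenerate)
    (hex : Nat.card F ≠ 2 ∨ Module.finrank F V ≠ 4) (hn : 3 ≤ Module.finrank F V)
    (U W : Submodule F V) (hU : U ⊓ (pol Q).orthogonal U = ⊥) (e : U ≃ₗ[F] W)
    (he : ∀ u : U, Q (e u : V) = Q (u : V)) :
    ∃ g ∈ commutator (IsomOf (F := F) (bet Q)), U.map (g.1 : V →ₗ[F] V) = W := by
  have hd : 2 ≤ Module.finrank F V := by omega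
  have key : (∃ s ∈ stabO Q U, dick hQ s = -1) ∧ ((2 : F) ≠ 0 → ∃ s ∈ stabO Q U, dick hQ s = 1 ∧
      s ∉ commutator (IsomOf (F := F) (bet Q))) := by
    by_cases hU2 : 2 ≤ Module.finrank F U
    · exact exists_adjusters hQ hd _ U hU hU2 fun a ha ha0 => Rf_mem_stabO_of_mem hQ ha0 ha
    · apply exists_adjusters hQ hd _ ((pol Q).orthogonal U)
      · rw [LinearMap.BilinForm.orthogonal_orthogonal hQ pol_isRefl, inf_comm]
        exact hU
      · rw [LinearMap.BilinForm.finrank_orthogonal hQ]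
        omega
      · intro a ha ha0
        exact Rf_mem_stabO_of_orth hQ ha0
          (fun x hx => LinearMap.BilinForm.mem_orthogonal_iff.mp ha x hx)
  exact exists_mem_commutator_map hQ hex (fun _ => hd) U W e he key.1 key.2

/-- `Ω` is transitive on each class of maximal totally singular subspaces. -/
theorem omega_trans_lagrangian [Finite F] (hQ : (pol Q).Nondegenerate)
    (hex : Nat.card F ≠ 2 ∨ Module.finrank F V ≠ 4) {m : ℕ} (hm : 1 ≤ m)
    (hV : Module.finrank F V = 2 * m) (U W : Submodule F V)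
    (hUm : Module.finrank F U = m) (hWm : Module.finrank F W = m)
    (hU : ∀ u ∈ U, Q u = 0) (hW : ∀ u ∈ W, Q u = 0)
    (he : Even (m - Module.finrank F ↥(U ⊓ W))) :
    ∃ g ∈ commutator (IsomOf (F := F) (bet Q)), U.map (g.1 : V →ₗ[F] V) = W := by
  have hd : 2 ≤ Module.finrank F V := by omega
  obtain ⟨g, hg⟩ := witt_map hQ U W (LinearEquiv.ofFinrankEq U W (by rw [hUm, hWm]))
    (fun u => by rw [hU _ u.2, hW _ (Subtype.property _)])
  have hdg : dick hQ g = 1 := by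
    rw [← lagHom_eq_dick hQ hex hV U hUm hU, lagHom_apply, hg]
    exact he.neg_one_pow
  obtain ⟨t, ht, hgt⟩ := exists_adjust_of_dick hQ hex (fun _ => hd) (stabO Q U)
    (fun h2 => exists_torus_stab h2 hQ hd hU (by
      intro h
      rw [h, finrank_bot] at hUm
      omega)) g hdg
  refine ⟨g * t, hgt, ?_⟩
  change U.map ((g.1 : V →ₗ[F] V) ∘ₗ (t.1 : V →ₗ[F] V)) = W
  rw [Submodule.map_comp, mem_stabO.mp ht, hg]

/-- In characteristic two `Ω` is transitive on non-singular lines. -/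
theorem omega_trans_line [Finite F] (h2 : (2 : F) = 0) (hQ : (pol Q).Nondegenerate)
    (hex : Nat.card F ≠ 2 ∨ Module.finrank F V ≠ 4) (u v : V) (hu : Q u ≠ 0) (hv : Q v ≠ 0) :
    ∃ g ∈ commutator (IsomOf (F := F) (bet Q)),
      (Submodule.span F {u}).map (g.1 : V →ₗ[F] V) = Submodule.span F {v} := by
  have : CharP F 2 := CharTwo.of_one_ne_zero_of_two_eq_zero one_ne_zero h2
  obtain ⟨c, hc⟩ := FiniteField.isSquare_of_char_two (F := F) (ringChar.eq F 2) (Q u / Q v)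
  have hc0 : c ≠ 0 := by
    rintro rfl
    rw [mul_zero] at hc
    exact (div_ne_zero hu hv) hc
  have hu0 : u ≠ 0 := by
    rintro rfl
    simp at hu
  have hv0 : v ≠ 0 := by
    rintro rfl
    simp at hv
  have hv'0 : c • v ≠ 0 := smul_ne_zero hc0 hv0
  have hQv' : Q (c • v) = Q u := by
    rw [Q_smul, ← hc]; field_simp
  have hspan : Submodule.span F {c • v} = Submodule.span F {v} :=
    Submodule.span_singleton_smul_eq (IsUnit.mk0 c hc0) v
  rw [← hspan]
  set e : Submodule.span F {u} ≃ₗ[F] Submodule.span F {c • v} :=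
    (LinearEquiv.toSpanNonzeroSingleton F V u hu0).symm.trans
      (LinearEquiv.toSpanNonzeroSingleton F V (c • v) hv'0) with he
  apply exists_mem_commutator_map hQ hex (fun h => absurd h2 h) _ _ e
  · intro x
    set a := (LinearEquiv.toSpanNonzeroSingleton F V u hu0).symm x with ha
    have hx : (x : V) = a • u := by
      have := (LinearEquiv.toSpanNonzeroSingleton F V u hu0).apply_symm_apply x
      rw [← this]
      rfl
    have hex' : (e x : V) = a • (c • v) := rfl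
    rw [hx, hex', Q_smul a (c • v), Q_smul a u, hQv']
  · exact ⟨Rf hQ u hu, Rf_mem_stabO_of_mem hQ hu (Submodule.mem_span_singleton_self u),
      dick_Rf hQ u hu⟩
  · intro h; exact absurd h2 h

end Cfsg.Agent.H6.Quad

namespace Cfsg.Agent.H6.Quad

variable {F : Type*} [Field F] {ι : Type} [Fintype ι] [DecidableEq ι]

/-- Transfer to matrices. -/
theorem exists_Omega_of_abstract (Q : QuadraticForm F (ι → F)) (Qf : (ι → F) → F)
    (hQf : ∀ v, Q v = Qf v) (P : ((ι → F) →ₗ[F] (ι → F)) → Prop)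
    (h : ∃ g ∈ commutator (IsomOf (F := F) (bet Q)), P (g.1 : (ι → F) →ₗ[F] (ι → F))) :
    ∃ g : Cfsg.isometryGroup F Qf, g ∈ Cfsg.Omega F Qf ∧
      P (Matrix.mulVecLin ((g : Matrix.GeneralLinearGroup ι F) : Matrix ι ι F)) := by
  obtain ⟨g, hg, hP⟩ := h
  refine ⟨(isometryGroupEquiv Q Qf hQf).symm g, ?_, ?_⟩
  · rw [mem_commutator_equiv (isometryGroupEquiv Q Qf hQf), MulEquiv.apply_symm_apply]
    exact hg
  · rw [← equiv_toLin Q Qf hQf, MulEquiv.apply_symm_apply]
    exact hP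

end Cfsg.Agent.H6.Quad
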