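import Mathlib
import Cfsg.Agent.Lib_helper6_SLCard

set_option autoImplicit false

namespace Cfsg.Agent.H6

open Matrix
open scoped LinearAlgebra.Projectivization

theorem card_projLine {F : Type*} [Field F] [Fintype F] :
    Nat.card (ℙ F (Fin 2 → F)) = Fintype.card F + 1 := by
  rw [Projectivization.card_of_finrank_two F (Fin 2 → F) (by simp), Nat.card_eq_fintype_card]

theorem exists_injective_PSL2_to_perm {F : Type*} [Field F] [Fintype F] :
    ∃ f : ProjectiveSpecialLinearGroup (Fin 2) F →* Equiv.Perm (Fin (Fintype.card F + 1)),
      Function.Injective f := by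
  have : Finite (ℙ F (Fin 2 → F)) := Nat.finite_of_card_ne_zero (by rw [card_projLine]; omega)
  let e : ℙ F (Fin 2 → F) ≃ Fin (Fintype.card F + 1) := Finite.equivFinOfCardEq card_projLine
  refine ⟨(e.permCongrHom.toMonoidHom).comp Projectivization.PSLAction.toPermHom, ?_⟩
  exact (e.permCongrHom.injective).comp ProjectiveSpecialLinearGroup.toPermHom_injective

theorem exists_injective_PSL2_to_perm' {F : Type*} [Field F] [Fintype F] {q : ℕ}
    (hF : Fintype.card F = q) :
    ∃ f : ProjectiveSpecialLinearGroup (Fin 2) F →* Equiv.Perm (Fin (q + 1)),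
      Function.Injective f := by
  subst hF
  exact exists_injective_PSL2_to_perm

/-- An injective hom to `Perm (Fin n)` from a group of order `n!`. -/
theorem nonempty_mulEquiv_perm_of_injective {G : Type*} [Group G] {n : ℕ}
    (f : G →* Equiv.Perm (Fin n)) (hf : Function.Injective f) (hG : Nat.card G = n.factorial) :
    Nonempty (G ≃* Equiv.Perm (Fin n)) := by
  have : Finite G := Nat.finite_of_card_ne_zero (by rw [hG]; exact Nat.factorial_ne_zero n)
  have hb : Function.Bijective f := by
    rw [Nat.bijective_iff_injective_and_card]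
    refine ⟨hf, ?_⟩
    rw [hG, Nat.card_eq_fintype_card, Fintype.card_perm, Fintype.card_fin]
  exact ⟨MulEquiv.ofBijective f hb⟩

/-- An injective hom to `Perm (Fin n)` from a group of order `n!/2`. -/
theorem nonempty_mulEquiv_alternating_of_injective {G : Type*} [Group G] {n : ℕ}
    (f : G →* Equiv.Perm (Fin n)) (hf : Function.Injective f)
    (hG : 2 * Nat.card G = n.factorial) :
    Nonempty (G ≃* alternatingGroup (Fin n)) := by
  have hr : Nat.card f.range = Nat.card G :=
    (Nat.card_congr (MonoidHom.ofInjective hf).toEquiv).symm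
  have hidx : f.range.index = 2 := by
    have h := f.range.card_mul_index
    rw [hr, Nat.card_eq_fintype_card (α := Equiv.Perm (Fin n)), Fintype.card_perm,
      Fintype.card_fin, ← hG] at h
    have hpos : 0 < Nat.card G := by
      rcases Nat.eq_zero_or_pos (Nat.card G) with h0 | h0
      · rw [h0] at hG
        exact absurd hG.symm (Nat.factorial_ne_zero n)
      · exact h0
    nlinarith
  have := Equiv.Perm.eq_alternatingGroup_of_index_eq_two hidx
  exact ⟨(MonoidHom.ofInjective hf).trans (MulEquiv.subgroupCongr this)⟩

end Cfsg.Agent.H6
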