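import Cfsg.Agent.Lib_helper6_QuadOrder
import Cfsg.Agent.Lib_helper6_QuadIso
import Cfsg.Agent.Lib_helper6_OmegaTrans

/-! Witt decomposition and standard bases of quadratic spaces over finite fields. -/

set_option autoImplicit false

namespace Cfsg.Agent.H6.Quad

universe u v

variable {F : Type u} [Field F]

/-- A family of `k` pairwise orthogonal hyperbolic pairs. -/
structure QHyp {V : Type v} [AddCommGroup V] [Module F V] (Q : QuadraticForm F V) (k : ℕ)
    (e f : Fin k → V) : Prop where
  e0 : ∀ i, Q (e i) = 0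
  f0 : ∀ i, Q (f i) = 0
  ef : ∀ i j, pol Q (e i) (f j) = if i = j then 1 else 0
  ee : ∀ i j, pol Q (e i) (e j) = 0
  ff : ∀ i j, pol Q (f i) (f j) = 0

theorem witt_decomp [Finite F] (n : ℕ) : ∀ (V : Type v) [AddCommGroup V] [Module F V]
    [FiniteDimensional F V] (Q : QuadraticForm F V), (pol Q).Nondegenerate →
    Module.finrank F V = n →
    ∃ (k : ℕ) (e f : Fin k → V) (A : Submodule F V), QHyp Q k e f ∧
      (∀ a ∈ A, ∀ i, pol Q (e i) a = 0 ∧ pol Q (f i) a = 0) ∧
      (∀ a ∈ A, Q a = 0 → a = 0) ∧ (∀ a ∈ A, (∀ a' ∈ A, pol Q a a' = 0) → a = 0) ∧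
      Module.finrank F A + 2 * k = n := by
  induction n using Nat.strong_induction_on with
  | _ n ih =>
    intro V _ _ _ Q hQ hn
    by_cases hs : ∃ e₀ : V, e₀ ≠ 0 ∧ Q e₀ = 0
    · obtain ⟨e₀, he₀, hQe₀⟩ := hs
      obtain ⟨f₀, hQf₀, hef₀⟩ := exists_hyp_partner hQ he₀ hQe₀
      have H : HypPair Q e₀ f₀ := ⟨hQe₀, hQf₀, hef₀⟩
      have hfr := H.finrank_eq
      obtain ⟨k, e', f', A', hH, hA1, hA2, hA3, hA4⟩ := ih (n - 2) (by omega) (compl Q e₀ f₀)
        (resQ Q (compl Q e₀ f₀)) (H.nondeg_compl hQ) (by omega)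
      have hc : ∀ p : compl Q e₀ f₀, pol Q e₀ (p : V) = 0 ∧ pol Q f₀ (p : V) = 0 :=
        fun p => mem_compl.mp p.2
      refine ⟨k + 1, Fin.cons e₀ (fun i => (e' i : V)), Fin.cons f₀ (fun i => (f' i : V)),
        A'.map (compl Q e₀ f₀).subtype, ⟨?_, ?_, ?_, ?_, ?_⟩, ?_, ?_, ?_, ?_⟩
      · intro i
        refine Fin.cases ?_ (fun i => ?_) i
        · simpa using hQe₀
        · simp only [Fin.cons_succ]; exact hH.e0 i
      · intro i
        refine Fin.cases ?_ (fun i => ?_) i
        · simpa using hQf₀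
        · simp only [Fin.cons_succ]; exact hH.f0 i
      · intro i j
        refine Fin.cases ?_ (fun i => ?_) i <;> refine Fin.cases ?_ (fun j => ?_) j
        · simpa using hef₀
        · simp only [Fin.cons_zero, Fin.cons_succ, (Fin.succ_ne_zero j).symm, if_false]
          exact (hc _).1
        · simp only [Fin.cons_zero, Fin.cons_succ, Fin.succ_ne_zero i, if_false]
          rw [pol_comm]; exact (hc _).2
        · simp only [Fin.cons_succ, Fin.succ_inj]
          rw [← pol_resQ]; exact hH.ef i j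
      · intro i j
        refine Fin.cases ?_ (fun i => ?_) i <;> refine Fin.cases ?_ (fun j => ?_) j
        · simpa using H.ee
        · simp only [Fin.cons_zero, Fin.cons_succ]
          exact (hc _).1
        · simp only [Fin.cons_zero, Fin.cons_succ]
          rw [pol_comm]; exact (hc _).1
        · simp only [Fin.cons_succ]
          rw [← pol_resQ]; exact hH.ee i j
      · intro i j
        refine Fin.cases ?_ (fun i => ?_) i <;> refine Fin.cases ?_ (fun j => ?_) j
        · simpa using H.ff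
        · simp only [Fin.cons_zero, Fin.cons_succ]
          exact (hc _).2
        · simp only [Fin.cons_zero, Fin.cons_succ]
          rw [pol_comm]; exact (hc _).2
        · simp only [Fin.cons_succ]
          rw [← pol_resQ]; exact hH.ff i j
      · rintro _ ⟨a, ha, rfl⟩ i
        refine Fin.cases ?_ (fun i => ?_) i
        · simpa using hc a
        · simp only [Fin.cons_succ]
          have := hA1 a ha i
          rw [pol_resQ, pol_resQ] at this
          exact this
      · rintro _ ⟨a, ha, rfl⟩ h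
        have := hA2 a ha h
        rw [this]; rfl
      · rintro _ ⟨a, ha, rfl⟩ h
        have := hA3 a ha (fun a' ha' => by
          rw [pol_resQ]
          exact h _ ⟨a', ha', rfl⟩)
        rw [this]; rfl
      · rw [LinearEquiv.finrank_eq (Submodule.equivMapOfInjective _
          (compl Q e₀ f₀).injective_subtype A').symm]
        omega
    · push Not at hs
      refine ⟨0, Fin.elim0, Fin.elim0, ⊤, ⟨fun i => i.elim0, fun i => i.elim0, fun i => i.elim0,
        fun i => i.elim0, fun i => i.elim0⟩, fun _ _ i => i.elim0, fun a _ h => ?_,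
        fun a _ h => ?_, by rw [finrank_top]; omega⟩
      · by_contra h0
        exact hs a h0 h
      · exact hQ.1 a (fun a' => h a' trivial)

theorem li_of_dual {V : Type v} [AddCommGroup V] [Module F V] {ι : Type*} [Fintype ι]
    [DecidableEq ι] (B : LinearMap.BilinForm F V) (b w : ι → V)
    (h : ∀ i j, B (b i) (w j) = if i = j then 1 else 0) : LinearIndependent F b := by
  rw [Fintype.linearIndependent_iff]
  intro g hg j
  have := congrArg (fun x => B x (w j)) hg
  simp only [map_sum, map_smul, LinearMap.sum_apply, LinearMap.smul_apply, h, smul_eq_mul,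
    mul_ite, mul_one, mul_zero, Finset.sum_ite_eq', Finset.mem_univ, if_true, map_zero,
    LinearMap.zero_apply] at this
  exact this

theorem finrank_aniso_le [Finite F] {V : Type v} [AddCommGroup V] [Module F V]
    [FiniteDimensional F V] {Q : QuadraticForm F V} (A : Submodule F V)
    (hA : ∀ a ∈ A, Q a = 0 → a = 0) : Module.finrank F A ≤ 2 := by
  by_contra h
  obtain ⟨p, hp0, hp⟩ := exists_singular (Q := resQ Q A) (by omega)
  exact hp0 (Subtype.ext (hA p.1 p.2 hp))

theorem exists_basis_odd [Finite F] {V : Type v} [AddCommGroup V] [Module F V]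
    [FiniteDimensional F V] {m : ℕ} (hV : Module.finrank F V = 2 * m + 1) (Q : QuadraticForm F V)
    (hQ : (pol Q).Nondegenerate) :
    ∃ b : Module.Basis (Unit ⊕ (Fin m ⊕ Fin m)) F V, Q (b (Sum.inl ())) ≠ 0 ∧
      (∀ i, pol Q (b (Sum.inl ())) (b (Sum.inr (Sum.inl i))) = 0 ∧
        pol Q (b (Sum.inl ())) (b (Sum.inr (Sum.inr i))) = 0) ∧
      QHyp Q m (fun i => b (Sum.inr (Sum.inl i))) (fun i => b (Sum.inr (Sum.inr i))) := by
  obtain ⟨k, e, f, A, hH, hA1, hA2, hA3, hA4⟩ := witt_decomp (2 * m + 1) V Q hQ hV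
  have hle := finrank_aniso_le A hA2
  obtain rfl : k = m := by omega
  have h1 : Module.finrank F A = 1 := by omega
  obtain ⟨⟨x, hxA⟩, hx0, hspan⟩ := finrank_eq_one_iff'.mp h1
  have hx0' : x ≠ 0 := fun h => hx0 (Subtype.ext h)
  have hQx : Q x ≠ 0 := fun h => hx0' (hA2 x hxA h)
  have hxx : pol Q x x ≠ 0 := by
    intro h
    apply hx0'
    apply hA3 x hxA
    intro a' ha'
    obtain ⟨c, hc⟩ := hspan ⟨a', ha'⟩
    have : a' = c • x := (congrArg Subtype.val hc).symm
    rw [this, map_smul, h, smul_zero]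
  have hex : ∀ i, pol Q (e i) x = 0 := fun i => (hA1 x hxA i).1
  have hfx : ∀ i, pol Q (f i) x = 0 := fun i => (hA1 x hxA i).2
  have hxe : ∀ i, pol Q x (e i) = 0 := fun i => by rw [pol_comm, hex]
  have hxf : ∀ i, pol Q x (f i) = 0 := fun i => by rw [pol_comm, hfx]
  have hfe : ∀ i j, pol Q (f i) (e j) = if i = j then 1 else 0 := fun i j => by
    rw [pol_comm, hH.ef]; simp only [eq_comm]
  have hli : LinearIndependent F (Sum.elim (fun _ : Unit => x) (Sum.elim e f)) := by
    apply li_of_dual (pol Q) _ (Sum.elim (fun _ : Unit => (pol Q x x)⁻¹ • x) (Sum.elim f e))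
    rintro (_ | i | i) (_ | j | j)
    · simp only [Sum.elim_inl, map_smul, smul_eq_mul, if_true]
      exact inv_mul_cancel₀ hxx
    all_goals simp [hex, hfx, hxe, hxf, hfe, hH.ef, hH.ee, hH.ff]
  refine ⟨basisOfLinearIndependentOfCardEqFinrank hli (by simp [hV]; omega), ?_⟩
  simp only [coe_basisOfLinearIndependentOfCardEqFinrank, Sum.elim_inl, Sum.elim_inr]
  exact ⟨hQx, fun i => ⟨hxe i, hxf i⟩, hH⟩

theorem li_hyp_tail {V : Type v} [AddCommGroup V] [Module F V] {Q : QuadraticForm F V} {k : ℕ}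
    {e f : Fin k → V} (hH : QHyp Q k e f) (A : Submodule F V)
    (hA1 : ∀ a ∈ A, ∀ i, pol Q (e i) a = 0 ∧ pol Q (f i) a = 0) {τ : Type*} [Fintype τ]
    [DecidableEq τ] (t t' : τ → V) (ht : ∀ i, t i ∈ A) (ht' : ∀ i, t' i ∈ A)
    (h : ∀ i j, pol Q (t i) (t' j) = if i = j then 1 else 0) :
    LinearIndependent F (Sum.elim (Sum.elim e f) t) := by
  have hfe : ∀ i j, pol Q (f i) (e j) = if i = j then 1 else 0 := fun i j => by
    rw [pol_comm, hH.ef]; simp only [eq_comm]
  have h1 : ∀ i j, pol Q (e i) (t' j) = 0 := fun i j => (hA1 _ (ht' j) i).1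
  have h2 : ∀ i j, pol Q (f i) (t' j) = 0 := fun i j => (hA1 _ (ht' j) i).2
  have h3 : ∀ i j, pol Q (t i) (e j) = 0 := fun i j => by rw [pol_comm]; exact (hA1 _ (ht i) j).1
  have h4 : ∀ i j, pol Q (t i) (f j) = 0 := fun i j => by rw [pol_comm]; exact (hA1 _ (ht i) j).2
  apply li_of_dual (pol Q) _ (Sum.elim (Sum.elim f e) t')
  rintro ((i | i) | i) ((j | j) | j) <;> simp [h, h1, h2, h3, h4, hfe, hH.ef, hH.ee, hH.ff]

theorem exists_basis_even [Finite F] {V : Type v} [AddCommGroup V] [Module F V]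
    [FiniteDimensional F V] {m : ℕ} (hm : 1 ≤ m) (hV : Module.finrank F V = 2 * m)
    (Q : QuadraticForm F V) (hQ : (pol Q).Nondegenerate) :
    (∃ b : Module.Basis (Fin m ⊕ Fin m) F V,
      QHyp Q m (fun i => b (Sum.inl i)) (fun i => b (Sum.inr i))) ∨
    (∃ (b : Module.Basis ((Fin (m - 1) ⊕ Fin (m - 1)) ⊕ Fin 2) F V) (ζ : F),
      (∀ t : F, t ^ 2 + t + ζ ≠ 0) ∧
      QHyp Q (m - 1) (fun i => b (Sum.inl (Sum.inl i))) (fun i => b (Sum.inl (Sum.inr i))) ∧
      (∀ i (k : Fin 2), pol Q (b (Sum.inl (Sum.inl i))) (b (Sum.inr k)) = 0 ∧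
        pol Q (b (Sum.inl (Sum.inr i))) (b (Sum.inr k)) = 0) ∧
      Q (b (Sum.inr 0)) = 1 ∧ pol Q (b (Sum.inr 0)) (b (Sum.inr 1)) = 1 ∧
      Q (b (Sum.inr 1)) = ζ) := by
  obtain ⟨k, e, f, A, hH, hA1, hA2, hA3, hA4⟩ := witt_decomp (2 * m) V Q hQ hV
  have hle := finrank_aniso_le A hA2
  have hcases : Module.finrank F A = 0 ∨ Module.finrank F A = 2 := by omega
  rcases hcases with h0 | h2A
  · left
    obtain rfl : k = m := by omega
    have hfe : ∀ i j, pol Q (f i) (e j) = if i = j then 1 else 0 := fun i j => by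
      rw [pol_comm, hH.ef]; simp only [eq_comm]
    have hli : LinearIndependent F (Sum.elim e f) := by
      apply li_of_dual (pol Q) _ (Sum.elim f e)
      rintro (i | i) (j | j) <;> simp [hfe, hH.ef, hH.ee, hH.ff]
    have : Nonempty (Fin k ⊕ Fin k) := ⟨Sum.inl ⟨0, hm⟩⟩
    refine ⟨basisOfLinearIndependentOfCardEqFinrank hli (by simp [hV]; omega), ?_⟩
    simp only [coe_basisOfLinearIndependentOfCardEqFinrank, Sum.elim_inl, Sum.elim_inr]
    exact hH
  · right
    obtain rfl : k = m - 1 := by omega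
    have hnd : (pol (resQ Q A)).Nondegenerate := by
      apply nondeg_resQ
      rw [eq_bot_iff]
      rintro x ⟨hx1, hx2⟩
      rw [SetLike.mem_coe, LinearMap.BilinForm.mem_orthogonal_iff] at hx2
      exact hA3 x hx1 (fun a' ha' => by rw [pol_comm]; exact hx2 a' ha')
    obtain ⟨⟨x, hxA⟩, hx⟩ := universal hnd (by omega) 1
    change Q x = 1 at hx
    have hx0 : x ≠ 0 := by
      rintro rfl
      rw [map_zero] at hx
      exact zero_ne_one hx
    have hxx : pol Q x x = 2 := by rw [pol_self, hx, mul_one]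
    obtain ⟨y, hyA, hxy, hynot⟩ : ∃ y ∈ A, pol Q x y = 1 ∧ y ∉ Submodule.span F {x} := by
      by_cases h2 : (2 : F) = 0
      · obtain ⟨y₀, hy₀A, hy₀⟩ : ∃ y₀ ∈ A, pol Q x y₀ ≠ 0 := by
          by_contra hcon
          push Not at hcon
          exact hx0 (hA3 x hxA hcon)
        refine ⟨(pol Q x y₀)⁻¹ • y₀, A.smul_mem _ hy₀A, by
          rw [map_smul, smul_eq_mul, inv_mul_cancel₀ hy₀], fun h => ?_⟩
        obtain ⟨s, hs⟩ := Submodule.mem_span_singleton.mp h
        have h1 : pol Q x ((pol Q x y₀)⁻¹ • y₀) = 1 := by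
          rw [map_smul, smul_eq_mul, inv_mul_cancel₀ hy₀]
        rw [← hs, map_smul, hxx, h2, smul_zero] at h1
        exact zero_ne_one h1
      · have hlt : Submodule.span F {x} < A := by
          refine lt_of_le_of_ne ((Submodule.span_singleton_le_iff_mem x A).mpr hxA) (fun h => ?_)
          have := finrank_span_singleton (K := F) hx0
          rw [h] at this
          omega
        obtain ⟨w, hwA, hw⟩ := SetLike.exists_of_lt hlt
        refine ⟨w - ((pol Q x w - 1) / 2) • x, A.sub_mem hwA (A.smul_mem _ hxA), ?_, fun h => ?_⟩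
        · rw [map_sub, map_smul, hxx, smul_eq_mul]
          field_simp
          ring
        · apply hw
          have := Submodule.add_mem _ h (Submodule.smul_mem _ ((pol Q x w - 1) / 2)
            (Submodule.mem_span_singleton_self x))
          rwa [sub_add_cancel] at this
    have hyx : pol Q y x = 1 := by rw [pol_comm, hxy]
    have hyy : pol Q y y = 2 * Q y := pol_self y
    have hirr : ∀ t : F, t ^ 2 + t + Q y ≠ 0 := by
      intro t ht
      have h1 : Q (t • x + y) = 0 := by
        rw [Q_add, Q_smul, hx, map_smul, LinearMap.smul_apply, hxy, smul_eq_mul]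
        linear_combination ht
      have h2 := hA2 _ (A.add_mem (A.smul_mem t hxA) hyA) h1
      apply hynot
      rw [Submodule.mem_span_singleton]
      exact ⟨-t, by rw [neg_smul]; exact (eq_neg_of_add_eq_zero_right h2).symm⟩
    have hD : 4 * Q y - 1 ≠ 0 := by
      intro h
      have h2 : (2 : F) ≠ 0 := by
        intro h2
        have : (4 : F) = 0 := by linear_combination 2 * h2
        rw [this] at h
        simp at h
      apply hirr (-1 / 2)
      field_simp
      linear_combination h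
    have hli := li_hyp_tail hH A hA1 ![x, y]
      ![(4 * Q y - 1)⁻¹ • ((2 * Q y) • x - y), (4 * Q y - 1)⁻¹ • ((2 : F) • y - x)]
      (by intro i; fin_cases i <;> simp [hxA, hyA])
      (by
        intro i
        fin_cases i
        · exact A.smul_mem _ (A.sub_mem (A.smul_mem _ hxA) hyA)
        · exact A.smul_mem _ (A.sub_mem (A.smul_mem _ hyA) hxA))
      (by
        intro i j
        fin_cases i <;> fin_cases j <;>
          simp only [Fin.zero_eta, Fin.mk_one, Matrix.cons_val_zero, Matrix.cons_val_one,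
            Matrix.cons_val_fin_one, map_smul, map_sub, hxx, hxy, hyx, hyy, smul_eq_mul,
            if_true, Fin.isValue, zero_ne_one, one_ne_zero, if_false] <;>
          field_simp <;> ring)
    refine ⟨basisOfLinearIndependentOfCardEqFinrank hli (by simp [hV]; omega), Q y, hirr, ?_⟩
    simp only [coe_basisOfLinearIndependentOfCardEqFinrank, Sum.elim_inl, Sum.elim_inr]
    refine ⟨hH, fun i k => ?_, hx, hxy, rfl⟩
    fin_cases k
    · exact hA1 x hxA i
    · exact hA1 y hyA i

end Cfsg.Agent.H6.Quad
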