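import Cfsg.Agent.Lib_helper6_QuadBasis
import Cfsg.Agent.Lib_helper6_QuadStd

/-! Classification of even-dimensional quadratic spaces over finite fields. -/

set_option autoImplicit false

namespace Cfsg.Agent.H6.Quad

variable {F V : Type*} [Field F] [AddCommGroup V] [Module F V]

theorem ext_of_basis {ι : Type*} (b : Module.Basis ι F V) (Q Q' : QuadraticForm F V)
    (h1 : ∀ i j, pol Q (b i) (b j) = pol Q' (b i) (b j)) (h2 : ∀ i, Q (b i) = Q' (b i)) :
    Q = Q' := by
  have hp : pol Q = pol Q' := LinearMap.BilinForm.ext_basis b h1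
  ext v
  have hv : v ∈ Submodule.span F (Set.range b) := by rw [b.span_eq]; trivial
  induction hv using Submodule.span_induction with
  | mem x hx => obtain ⟨i, rfl⟩ := hx; exact h2 i
  | zero => simp
  | add x y _ _ hx hy => rw [Q_add, Q_add, hx, hy, hp]
  | smul c x _ hx => rw [Q_smul, Q_smul, hx]

theorem pol_comp {W : Type*} [AddCommGroup W] [Module F W] (Q : QuadraticForm F W)
    (g : V →ₗ[F] W) (x y : V) : pol (Q.comp g) x y = pol Q (g x) (g y) := by
  simp only [QuadraticMap.polarBilin_apply_apply, QuadraticMap.polar, QuadraticMap.comp_apply,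
    map_add]

theorem eq_qPlus_of_basis {Q : QuadraticForm F V} {m : ℕ} (b : Module.Basis (Fin m ⊕ Fin m) F V)
    (hH : QHyp Q m (fun i => b (Sum.inl i)) (fun i => b (Sum.inr i))) (v : V) :
    Q v = qPlus m F (b.equivFun v) := by
  classical
  have hfe : ∀ i j, pol Q (b (Sum.inr i)) (b (Sum.inl j)) = if i = j then 1 else 0 := fun i j => by
    rw [pol_comm, hH.ef]; simp only [eq_comm]
  have : Q = (qPlus m F).comp (b.equivFun : V →ₗ[F] (Fin m ⊕ Fin m → F)) := by
    apply ext_of_basis b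
    · intro i j
      rw [pol_comp, pol_qPlus]
      simp only [LinearEquiv.coe_coe, Module.Basis.equivFun_self]
      rcases i with i | i <;> rcases j with j | j
      · rw [hH.ee]; simp
      · rw [hH.ef]; simp [Pi.single_apply, eq_comm]
      · rw [hfe]; simp [Pi.single_apply, eq_comm]
      · rw [hH.ff]; simp
    · intro i
      rw [QuadraticMap.comp_apply, qPlus_apply]
      simp only [LinearEquiv.coe_coe, Module.Basis.equivFun_self, Cfsg.quadFormPlus]
      rcases i with i | i
      · rw [hH.e0]; simp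
      · rw [hH.f0]; simp
  rw [this]; rfl

theorem eq_qMinus_of_basis {Q : QuadraticForm F V} {k : ℕ} {ζ : F}
    (b : Module.Basis ((Fin k ⊕ Fin k) ⊕ Fin 2) F V)
    (hH : QHyp Q k (fun i => b (Sum.inl (Sum.inl i))) (fun i => b (Sum.inl (Sum.inr i))))
    (h1 : ∀ i (l : Fin 2), pol Q (b (Sum.inl (Sum.inl i))) (b (Sum.inr l)) = 0 ∧
        pol Q (b (Sum.inl (Sum.inr i))) (b (Sum.inr l)) = 0)
    (hx : Q (b (Sum.inr 0)) = 1) (hxy : pol Q (b (Sum.inr 0)) (b (Sum.inr 1)) = 1)
    (hy : Q (b (Sum.inr 1)) = ζ) (v : V) :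
    Q v = qMinus k F 1 ζ (b.equivFun v) := by
  classical
  have hfe : ∀ i j, pol Q (b (Sum.inl (Sum.inr i))) (b (Sum.inl (Sum.inl j))) =
      if i = j then 1 else 0 := fun i j => by
    rw [pol_comm, hH.ef]; simp only [eq_comm]
  have : Q = (qMinus k F 1 ζ).comp (b.equivFun : V →ₗ[F] ((Fin k ⊕ Fin k) ⊕ Fin 2 → F)) := by
    apply ext_of_basis b
    · intro i j
      rw [pol_comp, pol_qMinus]
      simp only [LinearEquiv.coe_coe, Module.Basis.equivFun_self]
      rcases i with (i | i) | i <;> rcases j with (j | j) | j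
      · rw [hH.ee]; simp
      · rw [hH.ef]; simp [Pi.single_apply, eq_comm]
      · rw [(h1 i j).1]; simp
      · rw [hfe]; simp [Pi.single_apply, eq_comm]
      · rw [hH.ff]; simp
      · rw [(h1 i j).2]; simp
      · rw [pol_comm, (h1 j i).1]; simp
      · rw [pol_comm, (h1 j i).2]; simp
      · fin_cases i <;> fin_cases j
        · simp [pol_self, hx]
        · simp [hxy]
        · simp [pol_comm (b (Sum.inr 1)), hxy]
        · simp [pol_self, hy]
    · intro i
      rw [QuadraticMap.comp_apply, qMinus_apply]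
      simp only [LinearEquiv.coe_coe, Module.Basis.equivFun_self, Cfsg.quadFormMinus]
      rcases i with (i | i) | i
      · rw [hH.e0]; simp
      · rw [hH.f0]; simp
      · fin_cases i
        · simp [hx]
        · simp [hy]
  rw [this]; rfl

/-- Classification of non-degenerate quadratic forms in even dimension. -/
theorem classify_even [Finite F] [FiniteDimensional F V] {m : ℕ} (hm : 1 ≤ m)
    (hV : Module.finrank F V = 2 * m) (Q : QuadraticForm F V) (hQ : (pol Q).Nondegenerate) :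
    (∃ g : V ≃ₗ[F] (Fin m ⊕ Fin m → F), ∀ v, Q v = qPlus m F (g v)) ∨
    (∃ (ζ : F) (g : V ≃ₗ[F] ((Fin (m - 1) ⊕ Fin (m - 1)) ⊕ Fin 2 → F)),
      (∀ t : F, t ^ 2 + t + ζ ≠ 0) ∧ ∀ v, Q v = qMinus (m - 1) F 1 ζ (g v)) := by
  rcases exists_basis_even hm hV Q hQ with ⟨b, hH⟩ | ⟨b, ζ, hirr, hH, h1, h2, h3, h4⟩
  · exact Or.inl ⟨b.equivFun, eq_qPlus_of_basis b hH⟩
  · exact Or.inr ⟨ζ, b.equivFun, hirr, eq_qMinus_of_basis b hH h1 h2 h3 h4⟩

end Cfsg.Agent.H6.Quad
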