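import Cfsg.Agent.Lib_helper6_QuadClass

/-! Quadratic forms over the field with two elements polarising to the standard alternating form. -/

set_option autoImplicit false

namespace Cfsg.Agent.H6.Quad

/-- `q` polarises to the polar form of the hyperbolic form. -/
def Pol2 (m : ℕ) (q : (Fin m ⊕ Fin m → ZMod 2) → ZMod 2) : Prop :=
  ∀ u v : (Fin m ⊕ Fin m → ZMod 2), q (u + v) = q u + q v +
    (Cfsg.quadFormPlus m (ZMod 2) (u + v) - Cfsg.quadFormPlus m (ZMod 2) u -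
      Cfsg.quadFormPlus m (ZMod 2) v)

theorem pol_qPlus_eq {F : Type*} [Field F] (m : ℕ) (u v : Fin m ⊕ Fin m → F) :
    pol (qPlus m F) u v = Cfsg.quadFormPlus m F (u + v) - Cfsg.quadFormPlus m F u -
      Cfsg.quadFormPlus m F v := by
  rw [QuadraticMap.polarBilin_apply_apply, QuadraticMap.polar, qPlus_apply, qPlus_apply,
    qPlus_apply]

variable {m : ℕ} {q : (Fin m ⊕ Fin m → ZMod 2) → ZMod 2}

theorem Pol2.add (hq : Pol2 m q) (u v : Fin m ⊕ Fin m → ZMod 2) :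
    q (u + v) = q u + q v + pol (qPlus m (ZMod 2)) u v := by
  rw [pol_qPlus_eq]; exact hq u v

theorem Pol2.zero (hq : Pol2 m q) : q 0 = 0 := by
  have := hq.add 0 0
  simp only [add_zero, map_zero] at this
  linear_combination -this

theorem pol2_iff : Pol2 m q ↔ ∀ u v, q (u + v) = q u + q v + pol (qPlus m (ZMod 2)) u v :=
  ⟨fun h => h.add, fun h u v => by rw [← pol_qPlus_eq]; exact h u v⟩

/-- The quadratic form attached to `q`. -/
noncomputable def mkQ2 (hq : Pol2 m q) : QuadraticForm (ZMod 2) (Fin m ⊕ Fin m → ZMod 2) where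
  toFun := q
  toFun_smul := by
    intro a x
    have ha : ∀ a : ZMod 2, a = 0 ∨ a = 1 := by decide
    rcases ha a with rfl | rfl
    · simp [hq.zero]
    · simp
  exists_companion' := ⟨pol (qPlus m (ZMod 2)), fun x y => hq.add x y⟩

theorem mkQ2_apply (hq : Pol2 m q) (v : Fin m ⊕ Fin m → ZMod 2) : mkQ2 hq v = q v := rfl

theorem pol_mkQ2 (hq : Pol2 m q) : pol (mkQ2 hq) = pol (qPlus m (ZMod 2)) := by
  refine LinearMap.ext₂ fun u v => ?_
  rw [QuadraticMap.polarBilin_apply_apply, QuadraticMap.polar, mkQ2_apply, mkQ2_apply, mkQ2_apply,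
    hq.add]
  ring

theorem aniso11 : ∀ z₁ z₂ : ZMod 2, z₁ ^ 2 + 1 * z₁ * z₂ + 1 * z₂ ^ 2 = 0 → z₁ = 0 ∧ z₂ = 0 := by
  decide

theorem classify2 (hm : 1 ≤ m) (hq : Pol2 m q) :
    (∃ g : (Fin m ⊕ Fin m → ZMod 2) ≃ₗ[ZMod 2] (Fin m ⊕ Fin m → ZMod 2),
      ∀ v, q v = Cfsg.quadFormPlus m (ZMod 2) (g v)) ∨
    (∃ g : (Fin m ⊕ Fin m → ZMod 2) ≃ₗ[ZMod 2] ((Fin (m - 1) ⊕ Fin (m - 1)) ⊕ Fin 2 → ZMod 2),
      ∀ v, q v = Cfsg.quadFormMinus (m - 1) (ZMod 2) 1 1 (g v)) := by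
  have hnd : (pol (mkQ2 hq)).Nondegenerate := by rw [pol_mkQ2]; exact nondeg_qPlus m
  rcases classify_even hm (by simp; omega) (mkQ2 hq) hnd with ⟨g, hg⟩ | ⟨ζ, g, hirr, hg⟩
  · left
    exact ⟨g, fun v => by rw [← qPlus_apply, ← hg]; rfl⟩
  · right
    have hζ : ζ = 1 := by
      have ha : ∀ a : ZMod 2, a = 0 ∨ a = 1 := by decide
      rcases ha ζ with rfl | rfl
      · exact absurd (by simp) (hirr 0)
      · rfl
    subst hζ
    exact ⟨g, fun v => by rw [← qMinus_apply, ← hg]; rfl⟩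

theorem zc_two_plus (hm : 1 ≤ m) : zc 2 m 0 = 2 ^ (2 * m - 1) + 2 ^ (m - 1) := by
  obtain ⟨k, rfl⟩ : ∃ k, m = k + 1 := ⟨m - 1, by omega⟩
  have e1 : 2 * (k + 1) - 1 = k + k + 1 := by omega
  rw [zc, e1]
  simp only [add_zero, Nat.add_sub_cancel, pow_succ, pow_add]
  obtain ⟨Y, hY⟩ : ∃ Y, 2 ^ k = Y + 1 := ⟨2 ^ k - 1, by have := Nat.one_le_two_pow (n := k); omega⟩
  rw [hY]
  have : (Y + 1) * 2 - 1 = 2 * Y + 1 := by omega
  rw [this]; ring

theorem zc_two_minus (hm : 1 ≤ m) : zc 2 (m - 1) 2 = 2 ^ (2 * m - 1) - 2 ^ (m - 1) := by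
  obtain ⟨k, rfl⟩ : ∃ k, m = k + 1 := ⟨m - 1, by omega⟩
  have e1 : 2 * (k + 1) - 1 = k + k + 1 := by omega
  have e2 : k + 2 - 1 = k + 1 := by omega
  rw [zc, e1, Nat.add_sub_cancel, e2]
  simp only [pow_succ, pow_add]
  obtain ⟨Y, hY⟩ : ∃ Y, 2 ^ k = Y + 1 := ⟨2 ^ k - 1, by have := Nat.one_le_two_pow (n := k); omega⟩
  rw [hY, Nat.add_sub_cancel]
  symm
  apply Nat.sub_eq_of_eq_add
  ring

theorem card_zeros_of_plus
    (h : ∃ g : (Fin m ⊕ Fin m → ZMod 2) ≃ₗ[ZMod 2] (Fin m ⊕ Fin m → ZMod 2),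
      ∀ v, q v = Cfsg.quadFormPlus m (ZMod 2) (g v)) :
    Nat.card {v // q v = 0} = zc 2 m 0 := by
  obtain ⟨g, hg⟩ := h
  have := card_zeros_plus (F := ZMod 2) m
  rw [Nat.card_zmod] at this
  rw [← this]
  exact Nat.card_congr (g.toEquiv.subtypeEquiv (fun v => by
    rw [hg, qPlus_apply]; rfl))

theorem card_zeros_of_minus
    (h : ∃ g : (Fin m ⊕ Fin m → ZMod 2) ≃ₗ[ZMod 2] ((Fin (m - 1) ⊕ Fin (m - 1)) ⊕ Fin 2 → ZMod 2),
      ∀ v, q v = Cfsg.quadFormMinus (m - 1) (ZMod 2) 1 1 (g v)) :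
    Nat.card {v // q v = 0} = zc 2 (m - 1) 2 := by
  obtain ⟨g, hg⟩ := h
  have := card_zeros_minus (F := ZMod 2) (m - 1) 1 1 aniso11
  rw [Nat.card_zmod] at this
  rw [← this]
  exact Nat.card_congr (g.toEquiv.subtypeEquiv (fun v => by
    rw [hg, qMinus_apply]; rfl))

theorem pow_lt_aux (hm : 1 ≤ m) : 2 ^ (m - 1) < 2 ^ (2 * m - 1) :=
  Nat.pow_lt_pow_right (by norm_num) (by omega)

theorem not_plus_and_minus (hm : 1 ≤ m)
    (h : ∃ g : (Fin m ⊕ Fin m → ZMod 2) ≃ₗ[ZMod 2] (Fin m ⊕ Fin m → ZMod 2),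
      ∀ v, q v = Cfsg.quadFormPlus m (ZMod 2) (g v))
    (h' : ∃ g : (Fin m ⊕ Fin m → ZMod 2) ≃ₗ[ZMod 2]
      ((Fin (m - 1) ⊕ Fin (m - 1)) ⊕ Fin 2 → ZMod 2),
      ∀ v, q v = Cfsg.quadFormMinus (m - 1) (ZMod 2) 1 1 (g v)) : False := by
  have h1 := card_zeros_of_plus h
  rw [card_zeros_of_minus h', zc_two_plus hm, zc_two_minus hm] at h1
  have := Nat.one_le_two_pow (n := m - 1)
  generalize 2 ^ (2 * m - 1) = a at *
  generalize 2 ^ (m - 1) = b at *
  omega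

theorem two_mul_card_zeros_ne (hm : 1 ≤ m) (hq : Pol2 m q) :
    2 * Nat.card {v // q v = 0} ≠ 2 ^ (2 * m) := by
  have e : 2 ^ (2 * m) = 2 * 2 ^ (2 * m - 1) := by
    rw [← pow_succ']; congr 1; omega
  have h1 := Nat.one_le_two_pow (n := m - 1)
  have h2 := pow_lt_aux hm
  rcases classify2 hm hq with h | h
  · rw [card_zeros_of_plus h, zc_two_plus hm, e]
    generalize 2 ^ (2 * m - 1) = a at *
    generalize 2 ^ (m - 1) = b at *
    omega
  · rw [card_zeros_of_minus h, zc_two_minus hm, e]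
    generalize 2 ^ (2 * m - 1) = a at *
    generalize 2 ^ (m - 1) = b at *
    omega

theorem Pol2.shift (hq : Pol2 m q) (w : Fin m ⊕ Fin m → ZMod 2) :
    Pol2 m (fun v => q v + pol (qPlus m (ZMod 2)) v w) := by
  rw [pol2_iff]
  intro u v
  simp only [hq.add, map_add, LinearMap.add_apply]
  ring

theorem zmod2_mul_self (c : ZMod 2) : c * c = c := by
  revert c; decide

theorem zmod2_add_self (c : ZMod 2) : c + c = 0 := by
  revert c; decide

theorem zmod2_ne_zero_iff (c : ZMod 2) : c ≠ 0 ↔ c = 1 := by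
  revert c; decide

theorem equiv_shift_iff (hm : 1 ≤ m) (hq : Pol2 m q) (w : Fin m ⊕ Fin m → ZMod 2) :
    (∃ g : (Fin m ⊕ Fin m → ZMod 2) ≃ₗ[ZMod 2] (Fin m ⊕ Fin m → ZMod 2),
      ∀ v, q v + pol (qPlus m (ZMod 2)) v w = q (g v)) ↔ q w = 0 := by
  constructor
  · rintro ⟨g, hg⟩
    by_contra hw
    rw [← ne_eq, zmod2_ne_zero_iff] at hw
    apply two_mul_card_zeros_ne hm hq
    have e1 : Nat.card {v // q v = 0} = Nat.card {v // q (g v) = 0} :=
      (Nat.card_congr (g.toEquiv.subtypeEquiv (fun v => Iff.rfl))).symm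
    have e2 : Nat.card {v // q (g v) = 0} = Nat.card {v // ¬ q v = 0} := by
      refine Nat.card_congr ((Equiv.addRight w).subtypeEquiv (fun v => ?_))
      change _ ↔ ¬ q (v + w) = 0
      rw [← hg, hq.add, hw, ← ne_eq, zmod2_ne_zero_iff]
      constructor
      · intro h
        linear_combination h
      · intro h
        linear_combination h
    have e3 : Nat.card {v // ¬ q v = 0} =
        Nat.card (Fin m ⊕ Fin m → ZMod 2) - Nat.card {v // q v = 0} := by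
      classical
      simp only [Nat.card_eq_fintype_card]
      exact Fintype.card_subtype_compl _
    have e4 : Nat.card (Fin m ⊕ Fin m → ZMod 2) = 2 ^ (2 * m) := by
      rw [Nat.card_eq_fintype_card]
      simp [two_mul]
    have e5 : Nat.card {v // q v = 0} ≤ Nat.card (Fin m ⊕ Fin m → ZMod 2) :=
      Nat.card_le_card_of_injective _ Subtype.val_injective
    rw [e4] at e3 e5
    omega
  · intro hw
    have hww : pol (qPlus m (ZMod 2)) w w = 0 := by
      rw [pol_self]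
      have : (2 : ZMod 2) = 0 := by decide
      rw [this, zero_mul]
    obtain ⟨f, hf⟩ : ∃ f : (Fin m ⊕ Fin m → ZMod 2) →ₗ[ZMod 2] (Fin m ⊕ Fin m → ZMod 2),
        ∀ v, f v = v + pol (qPlus m (ZMod 2)) v w • w :=
      ⟨LinearMap.id + ((pol (qPlus m (ZMod 2))).flip w).smulRight w, fun v => rfl⟩
    have hinv : Function.Involutive f := by
      intro v
      rw [hf, hf, map_add, LinearMap.add_apply, map_smul, LinearMap.smul_apply, hww, smul_zero,
        add_zero, add_assoc, ← add_smul, zmod2_add_self, zero_smul, add_zero]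
    refine ⟨LinearEquiv.ofInvolutive f hinv, fun v => ?_⟩
    change _ = q (f v)
    have h1 : q (pol (qPlus m (ZMod 2)) v w • w) = 0 := by
      rw [← mkQ2_apply hq, Q_smul, mkQ2_apply, hw, mul_zero]
    rw [hf, hq.add, h1, map_smul, smul_eq_mul, zmod2_mul_self, add_zero]

theorem pol2_qPlus (m : ℕ) : Pol2 m (Cfsg.quadFormPlus m (ZMod 2)) := fun u v => by ring

/-- The forms polarising to the standard alternating form are parametrised by vectors. -/
noncomputable def paramEquiv (m : ℕ) : (Fin m ⊕ Fin m → ZMod 2) ≃ {q // Pol2 m q} :=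
  Equiv.ofBijective (fun w => ⟨fun v => Cfsg.quadFormPlus m (ZMod 2) v +
    pol (qPlus m (ZMod 2)) v w, (pol2_qPlus m).shift w⟩) (by
  constructor
  · intro w w' h
    have h1 : ∀ v, pol (qPlus m (ZMod 2)) v w = pol (qPlus m (ZMod 2)) v w' := by
      intro v
      have := congrFun (congrArg Subtype.val h) v
      exact add_left_cancel this
    have h2 := (nondeg_qPlus (F := ZMod 2) m).1 (w - w') (fun v => by
      rw [pol_comm, map_sub, h1, sub_self])
    exact sub_eq_zero.mp h2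
  · rintro ⟨q, hq⟩
    have hadd : ∀ u v, (q (u + v) - Cfsg.quadFormPlus m (ZMod 2) (u + v)) =
        (q u - Cfsg.quadFormPlus m (ZMod 2) u) + (q v - Cfsg.quadFormPlus m (ZMod 2) v) := by
      intro u v
      rw [hq u v]; ring
    obtain ⟨ℓ, hℓ⟩ : ∃ ℓ : Module.Dual (ZMod 2) (Fin m ⊕ Fin m → ZMod 2),
        ∀ v, ℓ v = q v - Cfsg.quadFormPlus m (ZMod 2) v :=
      ⟨(AddMonoidHom.mk' (fun v => q v - Cfsg.quadFormPlus m (ZMod 2) v) hadd).toZModLinearMap 2,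
        fun v => rfl⟩
    refine ⟨((pol (qPlus m (ZMod 2))).toDual (nondeg_qPlus m)).symm ℓ, ?_⟩
    apply Subtype.ext
    funext v
    change Cfsg.quadFormPlus m (ZMod 2) v + pol (qPlus m (ZMod 2)) v _ = q v
    rw [pol_comm, LinearMap.BilinForm.apply_toDual_symm_apply, hℓ]
    ring)

theorem paramEquiv_apply (m : ℕ) (w v : Fin m ⊕ Fin m → ZMod 2) :
    (paramEquiv m w).1 v = Cfsg.quadFormPlus m (ZMod 2) v + pol (qPlus m (ZMod 2)) v w := rfl

theorem card_pol2 (m : ℕ) : Nat.card {q // Pol2 m q} = 2 ^ (2 * m) := by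
  rw [← Nat.card_congr (paramEquiv m), Nat.card_eq_fintype_card]
  simp [two_mul]

theorem card_pol2_plus (hm : 1 ≤ m) :
    Nat.card {q // Pol2 m q ∧
      ∃ g : (Fin m ⊕ Fin m → ZMod 2) ≃ₗ[ZMod 2] (Fin m ⊕ Fin m → ZMod 2),
        ∀ v, q v = Cfsg.quadFormPlus m (ZMod 2) (g v)} = 2 ^ (2 * m - 1) + 2 ^ (m - 1) := by
  rw [← zc_two_plus hm, ← card_zeros_of_plus (q := Cfsg.quadFormPlus m (ZMod 2))
    ⟨LinearEquiv.refl _ _, fun v => rfl⟩]
  refine Nat.card_congr (Equiv.trans (Equiv.subtypeSubtypeEquivSubtypeInter _ _).symm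
    (Equiv.subtypeEquiv (paramEquiv m).symm (fun q => ?_)))
  obtain ⟨w, rfl⟩ := (paramEquiv m).surjective q
  rw [Equiv.symm_apply_apply, ← equiv_shift_iff hm (pol2_qPlus m) w]
  rfl

theorem card_pol2_minus (hm : 1 ≤ m) :
    Nat.card {q // Pol2 m q ∧
      ∃ g : (Fin m ⊕ Fin m → ZMod 2) ≃ₗ[ZMod 2] ((Fin (m - 1) ⊕ Fin (m - 1)) ⊕ Fin 2 → ZMod 2),
        ∀ v, q v = Cfsg.quadFormMinus (m - 1) (ZMod 2) 1 1 (g v)} =
      2 ^ (2 * m - 1) - 2 ^ (m - 1) := by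
  classical
  have h1 : Nat.card {q // Pol2 m q ∧
      ∃ g : (Fin m ⊕ Fin m → ZMod 2) ≃ₗ[ZMod 2] ((Fin (m - 1) ⊕ Fin (m - 1)) ⊕ Fin 2 → ZMod 2),
        ∀ v, q v = Cfsg.quadFormMinus (m - 1) (ZMod 2) 1 1 (g v)} =
      Nat.card {w : Fin m ⊕ Fin m → ZMod 2 // ¬ Cfsg.quadFormPlus m (ZMod 2) w = 0} := by
    refine Nat.card_congr (Equiv.trans (Equiv.subtypeSubtypeEquivSubtypeInter _ _).symm
      (Equiv.subtypeEquiv (paramEquiv m).symm (fun q => ?_)))
    obtain ⟨w, rfl⟩ := (paramEquiv m).surjective q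
    rw [Equiv.symm_apply_apply, ← equiv_shift_iff hm (pol2_qPlus m) w]
    constructor
    · intro h h'
      exact not_plus_and_minus hm (q := (paramEquiv m w).1) h' h
    · intro h
      rcases classify2 hm (paramEquiv m w).2 with h' | h'
      · exact absurd h' h
      · exact h'
  have h2 : Nat.card {w : Fin m ⊕ Fin m → ZMod 2 // ¬ Cfsg.quadFormPlus m (ZMod 2) w = 0} =
      Nat.card (Fin m ⊕ Fin m → ZMod 2) -
        Nat.card {w : Fin m ⊕ Fin m → ZMod 2 // Cfsg.quadFormPlus m (ZMod 2) w = 0} := by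
    simp only [Nat.card_eq_fintype_card]
    exact Fintype.card_subtype_compl _
  have h3 : Nat.card (Fin m ⊕ Fin m → ZMod 2) = 2 ^ (2 * m) := by
    rw [Nat.card_eq_fintype_card]
    simp [two_mul]
  have e : 2 ^ (2 * m) = 2 * 2 ^ (2 * m - 1) := by
    rw [← pow_succ']; congr 1; omega
  rw [h1, h2, h3, card_zeros_of_plus (q := Cfsg.quadFormPlus m (ZMod 2))
    ⟨LinearEquiv.refl _ _, fun v => rfl⟩, zc_two_plus hm, e]
  generalize 2 ^ (2 * m - 1) = a at *
  generalize 2 ^ (m - 1) = b at *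
  omega

end Cfsg.Agent.H6.Quad
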