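import Cfsg.Agent.Lib_helper6_OmegaGen
import Cfsg.Agent.Lib_helper6_OmegaPerfect
import Cfsg.Agent.Lib_helper6_Spinor2

/-! Reflections of a fixed norm over the field with three elements. -/

set_option autoImplicit false

namespace Cfsg.Agent.H6.Quad

variable {F V : Type*} [Field F] [AddCommGroup V] [Module F V] {Q : QuadraticForm F V}
variable [FiniteDimensional F V]

local notation "O" => IsomOf (F := F) (bet Q)
local notation "Ω" => commutator (IsomOf (F := F) (bet Q))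

/-- Vectors of any prescribed norm orthogonal to a subspace with small radical. -/
theorem exists_orth_value [Finite F] (hQ : (pol Q).Nondegenerate) (S : Submodule F V)
    (hS : Module.finrank F S + Module.finrank F ↥(S ⊓ (pol Q).orthogonal S) + 2 ≤
      Module.finrank F V) (c : F) : ∃ z, Q z = c ∧ ∀ s ∈ S, pol Q s z = 0 := by
  obtain ⟨C, hC⟩ := Submodule.exists_isCompl (S ⊓ (pol Q).orthogonal S)
  obtain ⟨P, hP⟩ : ∃ P, P = (pol Q).orthogonal S := ⟨_, rfl⟩
  rw [← hP] at hS hC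
  have hPd : Module.finrank F P = Module.finrank F V - Module.finrank F S := by
    rw [hP]; exact LinearMap.BilinForm.finrank_orthogonal hQ S
  have hsup : (P ⊓ C) ⊔ (S ⊓ P) = P := by
    rw [sup_comm, inf_comm P C, ← sup_inf_assoc_of_le C (inf_le_right : S ⊓ P ≤ P),
      hC.sup_eq_top, top_inf_eq]
  have hinf : (P ⊓ C) ⊓ (S ⊓ P) = ⊥ := by
    rw [eq_bot_iff]
    calc (P ⊓ C) ⊓ (S ⊓ P) ≤ (S ⊓ P) ⊓ C := by
          rw [inf_comm]; exact inf_le_inf_left _ inf_le_right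
      _ = ⊥ := hC.inf_eq_bot
  have hd := Submodule.finrank_sup_add_finrank_inf_eq (P ⊓ C) (S ⊓ P)
  rw [hsup, hinf, finrank_bot] at hd
  have hSle := Submodule.finrank_le S
  have hnd : (P ⊓ C) ⊓ (pol Q).orthogonal (P ⊓ C) = ⊥ := by
    rw [eq_bot_iff]
    rintro x ⟨hx1, hx2⟩
    rw [SetLike.mem_coe, LinearMap.BilinForm.mem_orthogonal_iff] at hx2
    have hxP : x ∈ P := hx1.1
    have hxS : x ∈ S := by
      rw [← LinearMap.BilinForm.orthogonal_orthogonal hQ pol_isRefl S, ← hP,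
        LinearMap.BilinForm.mem_orthogonal_iff]
      intro y hy
      rw [← hsup] at hy
      obtain ⟨y₁, hy₁, y₂, hy₂, rfl⟩ := Submodule.mem_sup.mp hy
      change pol Q (y₁ + y₂) x = 0
      rw [map_add, LinearMap.add_apply]
      have e1 : pol Q y₁ x = 0 := hx2 y₁ hy₁
      have e2 : pol Q y₂ x = 0 := by
        rw [hP] at hxP
        exact LinearMap.BilinForm.mem_orthogonal_iff.mp hxP y₂ hy₂.1
      rw [e1, e2, add_zero]
    have : x ∈ (P ⊓ C) ⊓ (S ⊓ P) := ⟨hx1, hxS, hxP⟩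
    rwa [hinf] at this
  obtain ⟨z, hz⟩ := universal (nondeg_resQ _ hnd) (by omega) c
  refine ⟨z.1, hz, fun s hs => ?_⟩
  have h' : (z : V) ∈ (pol Q).orthogonal S := by rw [← hP]; exact z.2.1
  exact LinearMap.BilinForm.mem_orthogonal_iff.mp h' s hs

theorem finrank_rad_pair_le (h2 : (2 : F) ≠ 0) {a b : V} (ha : Q a ≠ 0) :
    Module.finrank F ↥(Submodule.span F {a, b}) +
      Module.finrank F ↥(Submodule.span F {a, b} ⊓ (pol Q).orthogonal (Submodule.span F {a, b}))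
        ≤ 3 := by
  have h1 := finrank_span_pair_le (F := F) a b
  have hlt : Submodule.span F {a, b} ⊓ (pol Q).orthogonal (Submodule.span F {a, b}) <
      Submodule.span F {a, b} := by
    refine lt_of_le_of_ne inf_le_left (fun h => ?_)
    have ha' : a ∈ Submodule.span F {a, b} := Submodule.subset_span (by simp)
    have h3 := ha'
    rw [← h] at h3
    have := LinearMap.BilinForm.mem_orthogonal_iff.mp h3.2 a ha'
    change pol Q a a = 0 at this
    rw [pol_self] at this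
    exact (mul_ne_zero h2 ha) this
  have := Submodule.finrank_lt_finrank_of_lt hlt
  omega

theorem Rf_conj_self (hQ : (pol Q).Nondegenerate) (u v : V) (hu : Q u ≠ 0) (hv : Q v ≠ 0)
    (hw : Q ((Rf hQ u hu).1 v) ≠ 0) :
    Rf hQ u hu * Rf hQ v hv * Rf hQ u hu = Rf hQ ((Rf hQ u hu).1 v) hw := by
  rw [← conj_Rf hQ v hv (Rf hQ u hu) hw]
  congr 1
  exact eq_inv_of_mul_eq_one_left (Rf_mul_self hQ u hu)

theorem Rf_comm_of_orth (hQ : (pol Q).Nondegenerate) {u v : V} (hu : Q u ≠ 0) (hv : Q v ≠ 0)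
    (huv : pol Q u v = 0) : Rf hQ u hu * Rf hQ v hv * Rf hQ u hu = Rf hQ v hv := by
  have e : (Rf hQ u hu).1 v = v := by
    rw [Rf_apply, pol_comm, huv]; simp
  rw [Rf_conj_self hQ u v hu hv (by rw [e]; exact hv)]
  exact Rf_congr hQ e _ _

theorem Rf_ne_one (h2 : (2 : F) ≠ 0) (hQ : (pol Q).Nondegenerate) (u : V) (hu : Q u ≠ 0) :
    Rf hQ u hu ≠ 1 := by
  intro h
  have h1 : (Rf hQ u hu).1 u = u := by rw [h]; rfl
  rw [Rf_apply, pol_self] at h1
  have hu0 : u ≠ 0 := by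
    rintro rfl
    exact hu (map_zero _)
  have e : (2 * Q u / Q u) = 2 := by field_simp
  rw [e, sub_eq_self] at h1
  exact (smul_ne_zero h2 hu0) h1

/-- Commuting reflections. -/
theorem Rf_commute_iff (h2 : (2 : F) ≠ 0) (hQ : (pol Q).Nondegenerate) {u v : V} (hu : Q u ≠ 0)
    (hv : Q v ≠ 0) (hnot : v ∉ Submodule.span F {u}) :
    Rf hQ u hu * Rf hQ v hv = Rf hQ v hv * Rf hQ u hu ↔ pol Q u v = 0 := by
  constructor
  · intro h
    by_contra hne
    have h1 : (Rf hQ u hu).1 ((Rf hQ v hv).1 u) = (Rf hQ v hv).1 ((Rf hQ u hu).1 u) := by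
      change (Rf hQ u hu * Rf hQ v hv).1 u = (Rf hQ v hv * Rf hQ u hu).1 u
      rw [h]
    have e : (Rf hQ u hu).1 u = -u := by
      rw [Rf_apply, pol_self]
      have e : (2 * Q u / Q u) = 2 := by field_simp
      rw [e]; module
    rw [e, map_neg, Rf_apply hQ u hu, Rf_apply hQ v hv] at h1
    simp only [map_sub, map_smul, LinearMap.sub_apply, LinearMap.smul_apply, pol_self,
      smul_eq_mul] at h1
    apply hnot
    rw [Submodule.mem_span_singleton]
    have hk : (2 * (pol Q u v / Q v)) ≠ 0 := mul_ne_zero h2 (div_ne_zero hne hv)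
    refine ⟨(2 * (pol Q u v / Q v))⁻¹ *
      (2 - (2 * Q u - pol Q u v / Q v * pol Q v u) / Q u), ?_⟩
    have h3 : (2 * (pol Q u v / Q v)) • v =
        (2 - (2 * Q u - pol Q u v / Q v * pol Q v u) / Q u) • u := by
      linear_combination (norm := module) (-1 : F) • h1
    rw [mul_smul, ← h3, smul_smul, inv_mul_cancel₀ hk, one_smul]
  · intro h
    have := Rf_comm_of_orth hQ hu hv h
    calc Rf hQ u hu * Rf hQ v hv = Rf hQ u hu * Rf hQ v hv * (Rf hQ u hu * Rf hQ u hu) := by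
          rw [Rf_mul_self, mul_one]
      _ = (Rf hQ u hu * Rf hQ v hv * Rf hQ u hu) * Rf hQ u hu := by group
      _ = _ := by rw [this]

/-- `R_a R_z = R_{a+z} R_{a-z}` for orthogonal vectors of the same norm. -/
theorem Rf_mul_Rf_orth (h2 : (2 : F) ≠ 0) (hQ : (pol Q).Nondegenerate) {a z : V} (ha : Q a ≠ 0)
    (hz : Q z ≠ 0) (haz : pol Q a z = 0) (hn : Q a = Q z) (h1 : Q (a + z) ≠ 0)
    (h2' : Q (a - z) ≠ 0) :
    Rf hQ a ha * Rf hQ z hz = Rf hQ (a + z) h1 * Rf hQ (a - z) h2' := by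
  apply Subtype.ext
  ext v
  change (Rf hQ a ha).1 ((Rf hQ z hz).1 v) = (Rf hQ (a + z) h1).1 ((Rf hQ (a - z) h2').1 v)
  have hza : pol Q z a = 0 := by rw [pol_comm, haz]
  rw [Rf_apply hQ a, Rf_apply hQ z, Rf_apply hQ (a + z), Rf_apply hQ (a - z), Q_add, Q_sub, haz,
    ← hn]
  have e2 : Q a + Q a = 2 * Q a := by ring
  simp only [map_sub, map_add, map_smul, LinearMap.sub_apply,
    LinearMap.smul_apply, smul_eq_mul, pol_self, haz, hza, ← hn, mul_zero, sub_zero, add_zero,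
    zero_sub, e2]
  match_scalars <;> field_simp <;> ring

theorem braid3 (hF : ∀ t : F, t ≠ 0 → t * t = 1) (hQ : (pol Q).Nondegenerate) {u v : V}
    (hu : Q u ≠ 0) (hv : Q v ≠ 0) (hn : Q u = Q v) (huv : pol Q u v ≠ 0) :
    Rf hQ u hu * Rf hQ v hv * Rf hQ u hu = Rf hQ v hv * Rf hQ u hu * Rf hQ v hv := by
  have h1 : Q ((Rf hQ u hu).1 v) ≠ 0 := by rw [mem_IsomOf_iff.mp (Rf hQ u hu).2]; exact hv
  have h2 : Q ((Rf hQ v hv).1 u) ≠ 0 := by rw [mem_IsomOf_iff.mp (Rf hQ v hv).2]; exact hu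
  rw [Rf_conj_self hQ u v hu hv h1, Rf_conj_self hQ v u hv hu h2]
  have ht : pol Q u v / Q v ≠ 0 := div_ne_zero huv hv
  have e : (Rf hQ v hv).1 u = (-(pol Q u v / Q v)) • (Rf hQ u hu).1 v := by
    rw [Rf_apply, Rf_apply, pol_comm v u, hn, smul_sub, smul_smul, neg_mul, hF _ ht]
    module
  have h3 : Q ((-(pol Q u v / Q v)) • (Rf hQ u hu).1 v) ≠ 0 := by rw [← e]; exact h2
  rw [← Rf_smul hQ _ h1 (neg_ne_zero.mpr ht) h3]
  exact Rf_congr hQ e.symm _ _

theorem three_transp (hF : ∀ t : F, t ≠ 0 → t * t = 1) (hQ : (pol Q).Nondegenerate) {u v : V}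
    (hu : Q u ≠ 0) (hv : Q v ≠ 0) (hn : Q u = Q v) :
    (Rf hQ u hu * Rf hQ v hv) ^ 2 = 1 ∨ (Rf hQ u hu * Rf hQ v hv) ^ 3 = 1 := by
  by_cases huv : pol Q u v = 0
  · left
    have := Rf_comm_of_orth hQ hu hv huv
    rw [sq, ← mul_assoc, this, Rf_mul_self]
  · right
    have := braid3 hF hQ hu hv hn huv
    calc (Rf hQ u hu * Rf hQ v hv) ^ 3
        = (Rf hQ u hu * Rf hQ v hv * Rf hQ u hu) * (Rf hQ v hv * Rf hQ u hu * Rf hQ v hv) := by
          simp only [pow_succ, pow_zero, one_mul, mul_assoc]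
      _ = Rf hQ v hv * Rf hQ u hu * (Rf hQ v hv * Rf hQ v hv) * Rf hQ u hu * Rf hQ v hv := by
          rw [this]; group
      _ = 1 := by
          rw [Rf_mul_self, mul_one, mul_assoc (Rf hQ v hv), Rf_mul_self, mul_one, Rf_mul_self]

theorem exists_conj3_of_nonorth (hF : ∀ t : F, t ≠ 0 → t * t = 1) (hQ : (pol Q).Nondegenerate)
    {u v : V} (hu : Q u ≠ 0) (hv : Q v ≠ 0) (hn : Q u = Q v) (huv : pol Q u v ≠ 0)
    (T : Subgroup (IsomOf (F := F) (bet Q))) (hTu : Rf hQ u hu ∈ T) (hTv : Rf hQ v hv ∈ T) :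
    ∃ h ∈ T, h * Rf hQ u hu * h⁻¹ = Rf hQ v hv := by
  refine ⟨Rf hQ u hu * Rf hQ v hv, mul_mem hTu hTv, ?_⟩
  rw [braid3 hF hQ hu hv hn huv, mul_assoc (Rf hQ v hv), mul_assoc, mul_inv_cancel, mul_one]

theorem exists_conj3 [Finite F] (h2 : (2 : F) ≠ 0)
    (hF : ∀ t : F, t ≠ 0 → t * t = 1) (hQ : (pol Q).Nondegenerate)
    (hd : 5 ≤ Module.finrank F V) {c : F}
    (T : Subgroup (IsomOf (F := F) (bet Q))) (hT : ∀ w hw, Q w = c → Rf hQ w hw ∈ T)
    {u v : V} (hu : Q u ≠ 0) (hv : Q v ≠ 0) (huc : Q u = c) (hvc : Q v = c) :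
    ∃ h ∈ T, h * Rf hQ u hu * h⁻¹ = Rf hQ v hv := by
  by_cases huv : pol Q u v = 0
  · obtain ⟨z, hz, hzS⟩ := exists_orth_value hQ (Submodule.span F {u, v}) (by
      have := finrank_rad_pair_le (Q := Q) h2 (b := v) hu
      omega) (-c)
    have huz : pol Q u z = 0 := hzS u (Submodule.subset_span (by simp))
    have hvz : pol Q v z = 0 := hzS v (Submodule.subset_span (by simp))
    have hw : Q (u + v + z) = c := by
      rw [Q_add, Q_add, map_add, LinearMap.add_apply, huc, hvc, hz, huv, huz, hvz]; ring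
    have hc : c ≠ 0 := huc ▸ hu
    have hw0 : Q (u + v + z) ≠ 0 := by rw [hw]; exact hc
    have huw : pol Q u (u + v + z) ≠ 0 := by
      rw [map_add, map_add, pol_self, huv, huz, huc]
      simpa using ⟨h2, hc⟩
    have hwv : pol Q (u + v + z) v ≠ 0 := by
      rw [pol_comm, map_add, map_add, pol_self, pol_comm v u, huv, hvz, hvc]
      simpa using ⟨h2, hc⟩
    obtain ⟨h₁, hh₁, e₁⟩ := exists_conj3_of_nonorth hF hQ hu hw0 (by rw [huc, hw]) huw T
      (hT _ _ huc) (hT _ _ hw)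
    obtain ⟨h₂, hh₂, e₂⟩ := exists_conj3_of_nonorth hF hQ hw0 hv (by rw [hvc, hw]) hwv T
      (hT _ _ hw) (hT _ _ hvc)
    refine ⟨h₂ * h₁, mul_mem hh₂ hh₁, ?_⟩
    rw [← e₂, ← e₁]
    group
  · exact exists_conj3_of_nonorth hF hQ hu hv (by rw [huc, hvc]) huv T (hT _ _ huc) (hT _ _ hvc)

theorem Rf_mul_Rf_mem_of_orth_neg (h2 : (2 : F) ≠ 0) (h3 : (3 : F) = 0)
    (hQ : (pol Q).Nondegenerate) {c : F} (hc : c ≠ 0)
    (T : Subgroup (IsomOf (F := F) (bet Q))) (hT : ∀ w hw, Q w = c → Rf hQ w hw ∈ T)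
    {a z : V} (ha : Q a ≠ 0) (hz : Q z ≠ 0) (hac : Q a = -c) (hzc : Q z = -c)
    (haz : pol Q a z = 0) : Rf hQ a ha * Rf hQ z hz ∈ T := by
  have e1 : Q (a + z) = c := by
    rw [Q_add, hac, hzc, haz]; linear_combination (-c) * h3
  have e2 : Q (a - z) = c := by
    rw [Q_sub, hac, hzc, haz]; linear_combination (-c) * h3
  rw [Rf_mul_Rf_orth h2 hQ ha hz haz (by rw [hac, hzc]) (by rw [e1]; exact hc)
    (by rw [e2]; exact hc)]
  exact mul_mem (hT _ _ e1) (hT _ _ e2)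

theorem Rf_mul_Rf_mem_of_neg [Finite F] (h2 : (2 : F) ≠ 0) (h3 : (3 : F) = 0)
    (hQ : (pol Q).Nondegenerate) (hd : 5 ≤ Module.finrank F V) {c : F} (hc : c ≠ 0)
    (T : Subgroup (IsomOf (F := F) (bet Q))) (hT : ∀ w hw, Q w = c → Rf hQ w hw ∈ T)
    {a b : V} (ha : Q a ≠ 0) (hb : Q b ≠ 0) (hac : Q a = -c) (hbc : Q b = -c) :
    Rf hQ a ha * Rf hQ b hb ∈ T := by
  obtain ⟨z, hz, hzS⟩ := exists_orth_value hQ (Submodule.span F {a, b}) (by
    have := finrank_rad_pair_le (Q := Q) h2 (b := b) ha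
    omega) (-c)
  have haz : pol Q a z = 0 := hzS a (Submodule.subset_span (by simp))
  have hbz : pol Q b z = 0 := hzS b (Submodule.subset_span (by simp))
  have hz0 : Q z ≠ 0 := by rw [hz]; exact neg_ne_zero.mpr hc
  have e : Rf hQ a ha * Rf hQ b hb = (Rf hQ a ha * Rf hQ z hz0) * (Rf hQ z hz0 * Rf hQ b hb) := by
    rw [mul_assoc, ← mul_assoc (Rf hQ z hz0), Rf_mul_self, one_mul]
  rw [e]
  exact mul_mem (Rf_mul_Rf_mem_of_orth_neg h2 h3 hQ hc T hT ha hz0 hac hz haz)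
    (Rf_mul_Rf_mem_of_orth_neg h2 h3 hQ hc T hT hz0 hb hz hbc (by rw [pol_comm, hbz]))

theorem index_closure_norm [Finite F] (h2 : (2 : F) ≠ 0) (h3 : (3 : F) = 0)
    (hF : ∀ t : F, t ≠ 0 → t * t = 1) (hQ : (pol Q).Nondegenerate)
    (hd : 5 ≤ Module.finrank F V) {c : F} (hc : c ≠ 0) :
    (Subgroup.closure {g : IsomOf (F := F) (bet Q) | ∃ u hu, Q u = c ∧ g = Rf hQ u hu}).index
      = 2 := by
  set T := Subgroup.closure {g : IsomOf (F := F) (bet Q) | ∃ u hu, Q u = c ∧ g = Rf hQ u hu}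
    with hTdef
  have hT : ∀ w hw, Q w = c → Rf hQ w hw ∈ T := fun w hw h =>
    Subgroup.subset_closure ⟨w, hw, h, rfl⟩
  have hα : ¬ IsSquare (-1 : F) := by
    rintro ⟨s, hs⟩
    have hs0 : s ≠ 0 := by
      rintro rfl
      simp at hs
    rw [hF s hs0] at hs
    apply h2
    linear_combination -hs
  have hpm : ∀ t : F, t ≠ 0 → t = 1 ∨ t = -1 := by
    intro t ht
    have : (t - 1) * (t + 1) = 0 := by linear_combination hF t ht
    rcases mul_eq_zero.mp this with h | h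
    · left; linear_combination h
    · right; linear_combination h
  -- the two characters
  obtain ⟨χ, χ', hχ, hχbad, hχ'⟩ : ∃ χ χ' : IsomOf (F := F) (bet Q) →* ℤˣ,
      (∀ u hu, Q u = c → χ (Rf hQ u hu) = 1) ∧ (∀ u hu, Q u = -c → χ (Rf hQ u hu) = -1) ∧
      (∀ u hu, Q u = c → χ' (Rf hQ u hu) = -1) := by
    rcases hpm c hc with rfl | rfl
    · refine ⟨chi Q (-1), chi Q 1, fun u hu h => ?_, fun u hu h => ?_, fun u hu h => ?_⟩
      · exact (chi_Rf_of_sq h2 hQ hα u hu (by rw [h]; exact IsSquare.one)).2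
      · exact (chi_Rf_of_not_sq h2 hQ hα u hu (by rw [h]; exact hα)).2
      · exact (chi_Rf_of_sq h2 hQ hα u hu (by rw [h]; exact IsSquare.one)).1
    · refine ⟨chi Q 1, chi Q (-1), fun u hu h => ?_, fun u hu h => ?_, fun u hu h => ?_⟩
      · exact (chi_Rf_of_not_sq h2 hQ hα u hu (by rw [h]; exact hα)).1
      · exact (chi_Rf_of_sq h2 hQ hα u hu (by rw [h, neg_neg]; exact IsSquare.one)).1
      · exact (chi_Rf_of_not_sq h2 hQ hα u hu (by rw [h]; exact hα)).2
  have hΩT : Ω ≤ T := by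
    apply commutator_le_of_pairs hQ (Or.inl (card_ne_two h2))
    intro u u' hu hu' huu'
    rcases hpm (Q u / c) (div_ne_zero hu hc) with h | h
    · have e : Q u = c := by field_simp at h; exact h
      exact mul_mem (hT _ _ e) (hT _ _ (by rw [← huu', e]))
    · have e : Q u = -c := by field_simp at h; linear_combination h
      exact Rf_mul_Rf_mem_of_neg h2 h3 hQ hd hc T hT hu hu' e (by rw [← huu', e])
  have hTχ : T ≤ χ.ker := by
    rw [hTdef, Subgroup.closure_le]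
    rintro _ ⟨u, hu, h, rfl⟩
    exact hχ u hu h
  obtain ⟨a, ha⟩ := universal hQ (by omega) (-c)
  obtain ⟨u, hu⟩ := universal hQ (by omega) c
  have ha0 : Q a ≠ 0 := by rw [ha]; exact neg_ne_zero.mpr hc
  have hu0 : Q u ≠ 0 := by rw [hu]; exact hc
  have hker : χ.ker.index = 2 := by
    rw [Subgroup.index_ker, MonoidHom.range_eq_top.mpr]
    · simp [Nat.card_eq_fintype_card]
    · intro x
      rcases Int.units_eq_one_or x with rfl | rfl
      · exact ⟨1, map_one _⟩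
      · exact ⟨_, hχbad a ha0 ha⟩
  have h4 : (Ω : Subgroup (IsomOf (F := F) (bet Q))).index = 4 :=
    index_commutator h2 hQ (by omega)
  have d1 : T.index ∣ 4 := h4 ▸ Subgroup.index_dvd_of_le hΩT
  have d2 : 2 ∣ T.index := hker ▸ Subgroup.index_dvd_of_le hTχ
  have h5 := Subgroup.relIndex_mul_index hΩT
  rw [h4] at h5
  have hne : T.index ≠ 4 := by
    intro h
    rw [h] at h5
    have h6 : (Ω : Subgroup (IsomOf (F := F) (bet Q))).relIndex T = 1 := by omega
    rw [Subgroup.relIndex_eq_one] at h6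
    have h7 := Abelianization.commutator_subset_ker χ' (h6 (hT u hu0 hu))
    rw [MonoidHom.mem_ker, hχ' u hu0 hu] at h7
    exact absurd h7 (by decide)
  have hle : T.index ≤ 4 := Nat.le_of_dvd (by norm_num) d1
  interval_cases h : T.index <;> omega

end Cfsg.Agent.H6.Quad
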