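import Cfsg.Agent.Lib_helper6_Refl3
import Cfsg.Agent.Lib_helper6_DicksonMat
import Cfsg.Prelude.Def_FischerSpaces

/-! Matrix versions of the facts on reflections of a fixed norm. -/

set_option autoImplicit false

namespace Cfsg.Agent.H6.Quad

variable {F : Type*} [Field F] {ι : Type} [Fintype ι] [DecidableEq ι]

theorem eq_reflElt (Q : QuadraticForm F (ι → F)) {g : Cfsg.isometryGroup F ⇑Q} {v : ι → F}
    (hv : Q v ≠ 0)
    (hg : ((g : Matrix.GeneralLinearGroup ι F) : Matrix ι ι F) = Cfsg.reflectionMatrix ⇑Q v) :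
    g = reflElt Q v hv := by
  apply Subtype.ext
  apply Units.ext
  rw [hg]
  rfl

theorem image_reflectionsOfNorm (Q : QuadraticForm F (ι → F)) (hQ : (pol Q).Nondegenerate)
    {c : F} (hc : c ≠ 0) :
    (isometryGroupEquiv Q ⇑Q (fun _ => rfl)) '' Cfsg.reflectionsOfNorm ⇑Q c =
      {g | ∃ u hu, Q u = c ∧ g = Rf hQ u hu} := by
  ext g
  constructor
  · rintro ⟨x, ⟨v, hv, hx⟩, rfl⟩
    have hv0 : Q v ≠ 0 := by rw [hv]; exact hc
    refine ⟨v, hv0, hv, ?_⟩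
    rw [eq_reflElt Q hv0 hx, equiv_reflElt Q hQ]
  · rintro ⟨u, hu, huc, rfl⟩
    exact ⟨reflElt Q u hu, ⟨u, huc, rfl⟩, equiv_reflElt Q hQ u hu⟩

theorem map_reflectionSubgroup (Q : QuadraticForm F (ι → F)) (hQ : (pol Q).Nondegenerate)
    {c : F} (hc : c ≠ 0) :
    (Cfsg.reflectionSubgroup ⇑Q c).map (isometryGroupEquiv Q ⇑Q (fun _ => rfl)).toMonoidHom =
      Subgroup.closure {g | ∃ u hu, Q u = c ∧ g = Rf hQ u hu} := by
  rw [Cfsg.reflectionSubgroup, MonoidHom.map_closure, ← image_reflectionsOfNorm Q hQ hc]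
  rfl

end Cfsg.Agent.H6.Quad
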