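import Cfsg.Agent.Lib_helper6_Spinor2

/-! Products of reflections in pairwise orthogonal vectors. -/

set_option autoImplicit false

namespace Cfsg.Agent.H6.Quad

variable {F V : Type*} [Field F] [AddCommGroup V] [Module F V] {Q : QuadraticForm F V}
variable [FiniteDimensional F V]

theorem prod_Rf'_apply (hQ : (pol Q).Nondegenerate) (vs : List V) (hvs : ∀ v ∈ vs, Q v ≠ 0)
    (hp : vs.Pairwise (fun v w => pol Q v w = 0)) (x : V) :
    ((vs.map (Rf' hQ)).prod).1 x = x - (vs.map (fun v => (pol Q x v / Q v) • v)).sum := by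
  induction vs with
  | nil => simp
  | cons v vs ih =>
    have hv : Q v ≠ 0 := hvs v List.mem_cons_self
    rw [List.pairwise_cons] at hp
    have ih' := ih (fun w hw => hvs w (List.mem_cons_of_mem _ hw)) hp.2
    rw [List.map_cons, List.prod_cons, List.map_cons, List.sum_cons, Rf'_eq hQ v hv]
    change (Rf hQ v hv).1 (((vs.map (Rf' hQ)).prod).1 x) = _
    rw [Rf_apply, ih']
    have h0 : pol Q (vs.map (fun v => (pol Q x v / Q v) • v)).sum v = 0 := by
      have : ∀ (l : List V), (∀ w ∈ l, pol Q v w = 0) →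
          pol Q (l.map (fun v => (pol Q x v / Q v) • v)).sum v = 0 := by
        intro l
        induction l with
        | nil => simp
        | cons w l ihl =>
          intro hl
          rw [List.map_cons, List.sum_cons, map_add, LinearMap.add_apply, map_smul,
            LinearMap.smul_apply, pol_comm w v, hl w List.mem_cons_self,
            ihl fun z hz => hl z (List.mem_cons_of_mem _ hz)]
          simp
      exact this vs hp.1
    rw [map_sub, LinearMap.sub_apply, h0, sub_zero]
    abel

/-- The same for a family indexed by `Fin n`. -/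
theorem prod_ofFn_Rf'_apply (hQ : (pol Q).Nondegenerate) {n : ℕ} (u : Fin n → V)
    (hu : ∀ i, Q (u i) ≠ 0) (hp : ∀ i j, i ≠ j → pol Q (u i) (u j) = 0) (x : V) :
    (((List.ofFn u).map (Rf' hQ)).prod).1 x = x - ∑ i, (pol Q x (u i) / Q (u i)) • u i := by
  rw [prod_Rf'_apply hQ _ (by
    intro v hv
    obtain ⟨i, rfl⟩ := (List.mem_ofFn' _ _).mp hv
    exact hu i) (by
    rw [List.pairwise_ofFn]
    intro i j hij
    exact hp i j hij.ne)]
  rw [List.map_ofFn, List.sum_ofFn]
  rfl

theorem prod_ofFn_mem_commutator_iff [Finite F] (h2 : (2 : F) ≠ 0) (hQ : (pol Q).Nondegenerate)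
    (hd : 2 ≤ Module.finrank F V) {n : ℕ} (u : Fin n → V) (hu : ∀ i, Q (u i) ≠ 0) :
    ((List.ofFn u).map (Rf' hQ)).prod ∈ commutator (IsomOf (F := F) (bet Q)) ↔
      Even n ∧ IsSquare (∏ i, Q (u i)) := by
  rw [prod_mem_commutator_iff h2 hQ hd _ (by
    intro v hv
    obtain ⟨i, rfl⟩ := (List.mem_ofFn' _ _).mp hv
    exact hu i), List.length_ofFn, List.map_ofFn, List.prod_ofFn]
  rfl

end Cfsg.Agent.H6.Quad
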