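import Mathlib
import Cfsg.Agent.Lib_helper6_RegUnip

/-! Centraliser of a regular nilpotent endomorphism. -/

set_option autoImplicit false

namespace Cfsg.Agent.H6

variable {F V : Type*} [Field F] [AddCommGroup V] [Module F V] [FiniteDimensional F V]

theorem exists_cyclic_vec (N : Module.End F V) {n : ℕ} (hn : 1 ≤ n)
    (hV : Module.finrank F V = n) (hreg : Module.finrank F (LinearMap.ker N) ≤ 1) :
    ∃ e, (N ^ (n - 1)) e ≠ 0 := by
  by_contra h
  push Not at h
  have h1 : LinearMap.ker (N ^ (n - 1)) = ⊤ := by
    rw [eq_top_iff]; intro x _; exact h x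
  have h2 := finrank_ker_pow_le N (n - 1)
  rw [h1, finrank_top, hV] at h2
  have h3 : (n - 1) * Module.finrank F (LinearMap.ker N) ≤ (n - 1) * 1 :=
    Nat.mul_le_mul_left _ hreg
  omega

theorem eq_top_of_invariant_of_mem (N : Module.End F V) {n : ℕ} (hN : N ^ n = 0)
    (hV : Module.finrank F V = n) {e : V} (he : (N ^ (n - 1)) e ≠ 0)
    (W : Submodule F V) (hW : ∀ v ∈ W, N v ∈ W) (heW : e ∈ W) : W = ⊤ := by
  apply Submodule.eq_top_of_finrank_eq
  rw [hV]
  have h1 := pow_finrank_apply_eq_zero N hN W hW heW
  by_contra hne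
  have hle : Module.finrank F W ≤ n := hV ▸ Submodule.finrank_le W
  have hlt : Module.finrank F W ≤ n - 1 := by omega
  obtain ⟨d, hd⟩ := Nat.exists_eq_add_of_le hlt
  apply he
  rw [hd, add_comm, pow_add, Module.End.mul_apply, h1, map_zero]

theorem eq_zero_of_commute_of_apply (N : Module.End F V) {n : ℕ} (hN : N ^ n = 0)
    (hV : Module.finrank F V = n) {e : V} (he : (N ^ (n - 1)) e ≠ 0)
    (g : Module.End F V) (hg : g * N = N * g) (hge : g e = 0) : g = 0 := by
  have h := eq_top_of_invariant_of_mem N hN hV he (LinearMap.ker g) (by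
    intro v hv
    rw [LinearMap.mem_ker] at hv ⊢
    have := congrArg (fun f : Module.End F V => f v) hg
    simp only [Module.End.mul_apply] at this
    rw [this, hv, map_zero]) hge
  exact LinearMap.ker_eq_top.mp h

theorem exists_commute_apply (N : Module.End F V) {n : ℕ} (hN : N ^ n = 0)
    (hV : Module.finrank F V = n) {e : V} (he : (N ^ (n - 1)) e ≠ 0) (v : V) :
    ∃ g : Module.End F V, g * N = N * g ∧ g e = v := by
  set Φ : Polynomial F →ₗ[F] V :=
    (LinearMap.applyₗ e) ∘ₗ (Polynomial.aeval N).toLinearMap with hΦ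
  have hΦa : ∀ p, Φ p = (Polynomial.aeval N p) e := fun p => rfl
  have h := eq_top_of_invariant_of_mem N hN hV he (LinearMap.range Φ) (by
    rintro _ ⟨p, rfl⟩
    refine ⟨Polynomial.X * p, ?_⟩
    rw [hΦa, hΦa, map_mul, Polynomial.aeval_X, Module.End.mul_apply]) ⟨1, by
      rw [hΦa, map_one, Module.End.one_apply]⟩
  have hv : v ∈ LinearMap.range Φ := h ▸ Submodule.mem_top
  obtain ⟨p, rfl⟩ := hv
  refine ⟨Polynomial.aeval N p, ?_, rfl⟩
  have h1 : Polynomial.aeval N (p * Polynomial.X) = Polynomial.aeval N (Polynomial.X * p) := by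
    rw [mul_comm]
  rwa [map_mul, map_mul, Polynomial.aeval_X] at h1

theorem commute_pow_apply (N g : Module.End F V) (hg : g * N = N * g) (k : ℕ) (v : V) :
    g ((N ^ k) v) = (N ^ k) (g v) := by
  have h : Commute g (N ^ k) := Commute.pow_right hg k
  have := congrArg (fun f : Module.End F V => f v) h.eq
  simpa only [Module.End.mul_apply] using this

theorem injective_iff_of_commute (N : Module.End F V) {n : ℕ} (hn : 1 ≤ n) (hN : N ^ n = 0)
    (hreg : Module.finrank F (LinearMap.ker N) ≤ 1) {e : V} (he : (N ^ (n - 1)) e ≠ 0)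
    (g : Module.End F V) (hg : g * N = N * g) :
    Function.Injective g ↔ (N ^ (n - 1)) (g e) ≠ 0 := by
  constructor
  · intro hinj h0
    rw [← commute_pow_apply N g hg] at h0
    exact he (hinj (by rw [h0, map_zero]))
  · intro h0
    rw [← LinearMap.ker_eq_bot]
    by_contra hne
    apply h0
    rw [← commute_pow_apply N g hg]
    have hinv : ∀ v ∈ LinearMap.ker g, N v ∈ LinearMap.ker g := by
      intro v hv
      rw [LinearMap.mem_ker] at hv ⊢
      have := congrArg (fun f : Module.End F V => f v) hg
      simp only [Module.End.mul_apply] at this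
      rw [this, hv, map_zero]
    have hle : LinearMap.ker N ≤ LinearMap.ker g := by
      apply le_of_invariant_of_finrank_le N hN hreg _ _ _ hinv
      · have : 0 < Module.finrank F (LinearMap.ker g) := by
          rw [Nat.pos_iff_ne_zero]
          intro h
          exact hne (Submodule.finrank_eq_zero.mp h)
        omega
      · intro v hv
        rw [LinearMap.mem_ker] at hv ⊢
        rw [hv, map_zero]
    apply hle
    rw [LinearMap.mem_ker, ← Module.End.mul_apply, ← pow_succ']
    have : n - 1 + 1 = n := by omega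
    rw [this, hN]; rfl

theorem finrank_ker_pow_pred (N : Module.End F V) {n : ℕ} (hn : 1 ≤ n) (hN : N ^ n = 0)
    (hV : Module.finrank F V = n) (hreg : Module.finrank F (LinearMap.ker N) ≤ 1) :
    Module.finrank F (LinearMap.ker (N ^ (n - 1))) = n - 1 := by
  apply le_antisymm
  · have h2 := finrank_ker_pow_le N (n - 1)
    have h3 : (n - 1) * Module.finrank F (LinearMap.ker N) ≤ (n - 1) * 1 :=
      Nat.mul_le_mul_left _ hreg
    omega
  · have h1 := LinearMap.finrank_range_add_finrank_ker (N ^ (n - 1))
    have h2 : Module.finrank F (LinearMap.range (N ^ (n - 1))) ≤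
        Module.finrank F (LinearMap.ker N) := by
      apply Submodule.finrank_mono
      rintro _ ⟨x, rfl⟩
      rw [LinearMap.mem_ker, ← Module.End.mul_apply, ← pow_succ']
      have : n - 1 + 1 = n := by omega
      rw [this, hN]; rfl
    omega

theorem card_centralizer_regular_nilpotent [Fintype F] (N : Module.End F V) {n : ℕ} (hn : 1 ≤ n)
    (hN : N ^ n = 0) (hV : Module.finrank F V = n)
    (hreg : Module.finrank F (LinearMap.ker N) ≤ 1) :
    Nat.card {g : (Module.End F V)ˣ // (g : Module.End F V) * N = N * g} =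
      (Fintype.card F - 1) * Fintype.card F ^ (n - 1) := by
  obtain ⟨e, he⟩ := exists_cyclic_vec N hn hV hreg
  have hbij : Function.Bijective
      (fun g : {g : (Module.End F V)ˣ // (g : Module.End F V) * N = N * g} =>
        (⟨(g.1 : Module.End F V) e, by
          have hinj : Function.Injective (g.1 : Module.End F V) := by
            intro x y hxy
            have := congrArg (fun z => ((g.1⁻¹ : (Module.End F V)ˣ) : Module.End F V) z) hxy
            simpa [← Module.End.mul_apply] using this
          exact (injective_iff_of_commute N hn hN hreg he _ g.2).mp hinj⟩ :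
          {v : V // (N ^ (n - 1)) v ≠ 0})) := by
    constructor
    · intro g g' h
      have h1 : (g.1 : Module.End F V) e = (g'.1 : Module.End F V) e := congrArg Subtype.val h
      have h2 := eq_zero_of_commute_of_apply N hN hV he
        ((g.1 : Module.End F V) - (g'.1 : Module.End F V)) (by
          rw [sub_mul, mul_sub, g.2, g'.2]) (by
          rw [LinearMap.sub_apply, h1, sub_self])
      apply Subtype.ext
      apply Units.ext
      exact sub_eq_zero.mp h2
    · rintro ⟨v, hv⟩
      obtain ⟨g, hg, rfl⟩ := exists_commute_apply N hN hV he v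
      have hinj := (injective_iff_of_commute N hn hN hreg he g hg).mpr hv
      have hu : IsUnit g := by
        rw [Module.End.isUnit_iff]
        exact ⟨hinj, LinearMap.injective_iff_surjective.mp hinj⟩
      obtain ⟨u, rfl⟩ := hu
      exact ⟨⟨u, hg⟩, rfl⟩
  rw [Nat.card_congr (Equiv.ofBijective _ hbij)]
  have hfin : Finite V := Module.finite_of_finite F
  classical
  have h1 := Nat.card_congr (Equiv.sumCompl (fun v : V => v ∈ LinearMap.ker (N ^ (n - 1))))
  rw [Nat.card_sum, Module.natCard_eq_pow_finrank (K := F) (V := V), hV] at h1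
  have h2 : Nat.card {v : V // v ∈ LinearMap.ker (N ^ (n - 1))} = Nat.card F ^ (n - 1) := by
    have := Module.natCard_eq_pow_finrank (K := F) (V := LinearMap.ker (N ^ (n - 1)))
    rw [finrank_ker_pow_pred N hn hN hV hreg] at this
    exact this
  rw [h2, Nat.card_eq_fintype_card (α := F)] at h1
  have h3 : Nat.card {v : V // (N ^ (n - 1)) v ≠ 0} =
      Nat.card {v : V // ¬ v ∈ LinearMap.ker (N ^ (n - 1))} := rfl
  rw [h3]
  have h4 : Fintype.card F ^ n = Fintype.card F * Fintype.card F ^ (n - 1) := by
    rw [← pow_succ']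
    congr 1
    omega
  rw [Nat.sub_mul, one_mul, ← h4, ← h1]
  omega

end Cfsg.Agent.H6
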