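import Mathlib
import Cfsg.Agent.Lib_helper6_RegUnipCent

/-! Conjugacy of regular nilpotent endomorphisms; determinants in the centraliser. -/

set_option autoImplicit false

namespace Cfsg.Agent.H6

variable {F V : Type*} [Field F] [AddCommGroup V] [Module F V] [FiniteDimensional F V]

theorem det_smul_one_add_nilpotent (a : F) (h : Module.End F V) (hh : IsNilpotent h) :
    LinearMap.det (a • (1 : Module.End F V) + h) = a ^ Module.finrank F V := by
  have h1 : IsNilpotent (-h) := hh.neg
  have h2 := LinearMap.eval_charpoly (-h) a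
  rw [h1.charpoly_eq_X_pow_finrank, Polynomial.eval_pow, Polynomial.eval_X, sub_neg_eq_add,
    Algebra.algebraMap_eq_smul_one] at h2
  exact h2.symm

theorem ker_le_ker_of_commute (N : Module.End F V) {n : ℕ} (hN : N ^ n = 0)
    (hreg : Module.finrank F (LinearMap.ker N) ≤ 1)
    (g : Module.End F V) (hg : g * N = N * g) (hne : LinearMap.ker g ≠ ⊥) :
    LinearMap.ker N ≤ LinearMap.ker g := by
  have hinv : ∀ v ∈ LinearMap.ker g, N v ∈ LinearMap.ker g := by
    intro v hv
    rw [LinearMap.mem_ker] at hv ⊢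
    have := congrArg (fun f : Module.End F V => f v) hg
    simp only [Module.End.mul_apply] at this
    rw [this, hv, map_zero]
  apply le_of_invariant_of_finrank_le N hN hreg _ _ _ hinv
  · have : 0 < Module.finrank F (LinearMap.ker g) := by
      rw [Nat.pos_iff_ne_zero]
      intro h
      exact hne (Submodule.finrank_eq_zero.mp h)
    omega
  · intro v hv
    rw [LinearMap.mem_ker] at hv ⊢
    rw [hv, map_zero]

theorem pow_eq_zero_of_commute (N : Module.End F V) {n : ℕ} (hN : N ^ n = 0)
    (h : Module.End F V) (hh : h * N = N * h) (hker : LinearMap.ker N ≤ LinearMap.ker h) :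
    h ^ n = 0 := by
  have key : ∀ (k : ℕ) (v : V), (N ^ k) v = 0 → (h ^ k) v = 0 := by
    intro k
    induction k with
    | zero => intro v hv; simpa using hv
    | succ k ih =>
      intro v hv
      rw [pow_succ', Module.End.mul_apply] at hv
      have h1 : h ((N ^ k) v) = 0 := hker hv
      rw [commute_pow_apply N h hh] at h1
      rw [pow_succ, Module.End.mul_apply]
      exact ih _ h1
  apply LinearMap.ext
  intro v
  exact key n v (by rw [hN]; rfl)

theorem det_of_commute_regular (N : Module.End F V) {n : ℕ} (hn : 1 ≤ n) (hN : N ^ n = 0)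
    (hV : Module.finrank F V = n) (hreg : Module.finrank F (LinearMap.ker N) ≤ 1)
    (g : Module.End F V) (hg : g * N = N * g) : ∃ a : F, LinearMap.det g = a ^ n := by
  obtain ⟨e, he⟩ := exists_cyclic_vec N hn hV hreg
  have hwK : (N ^ (n - 1)) e ∈ LinearMap.ker N := by
    rw [LinearMap.mem_ker, ← Module.End.mul_apply, ← pow_succ']
    have : n - 1 + 1 = n := by omega
    rw [this, hN]; rfl
  have hgwK : g ((N ^ (n - 1)) e) ∈ LinearMap.ker N := by
    rw [LinearMap.mem_ker]
    have := congrArg (fun f : Module.End F V => f ((N ^ (n - 1)) e)) hg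
    simp only [Module.End.mul_apply] at this
    rw [← this, LinearMap.mem_ker.mp hwK, map_zero]
  obtain ⟨a, ha⟩ : ∃ a : F, g ((N ^ (n - 1)) e) = a • (N ^ (n - 1)) e := by
    obtain ⟨v, hv⟩ := finrank_le_one_iff.mp hreg
    obtain ⟨c, hc⟩ := hv ⟨_, hwK⟩
    obtain ⟨d, hd⟩ := hv ⟨_, hgwK⟩
    have hc' : c • (v : V) = (N ^ (n - 1)) e := congrArg Subtype.val hc
    have hd' : d • (v : V) = g ((N ^ (n - 1)) e) := congrArg Subtype.val hd
    have hc0 : c ≠ 0 := by
      rintro rfl
      rw [zero_smul] at hc'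
      exact he hc'.symm
    refine ⟨d / c, ?_⟩
    rw [← hd', ← hc', smul_smul, div_mul_cancel₀ _ hc0]
  have hcomm : (g - a • (1 : Module.End F V)) * N = N * (g - a • (1 : Module.End F V)) := by
    rw [sub_mul, mul_sub, hg, smul_mul_assoc, mul_smul_comm, one_mul, mul_one]
  have hne : LinearMap.ker (g - a • (1 : Module.End F V)) ≠ ⊥ := by
    intro h
    have : (N ^ (n - 1)) e ∈ LinearMap.ker (g - a • (1 : Module.End F V)) := by
      rw [LinearMap.mem_ker, LinearMap.sub_apply, ha]
      simp
    rw [h, Submodule.mem_bot] at this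
    exact he this
  have hnil : IsNilpotent (g - a • (1 : Module.End F V)) :=
    ⟨n, pow_eq_zero_of_commute N hN _ hcomm (ker_le_ker_of_commute N hN hreg _ hcomm hne)⟩
  refine ⟨a, ?_⟩
  have := det_smul_one_add_nilpotent a _ hnil
  rw [add_sub_cancel, hV] at this
  exact this

theorem exists_cyclic_basis (N : Module.End F V) {n : ℕ} (hn : 1 ≤ n) (hN : N ^ n = 0)
    (hV : Module.finrank F V = n) (hreg : Module.finrank F (LinearMap.ker N) ≤ 1) :
    ∃ (b : Module.Basis (Fin n) F V) (e : V), ∀ k : Fin n, b k = (N ^ (k : ℕ)) e := by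
  obtain ⟨e, he⟩ := exists_cyclic_vec N hn hV hreg
  have htop : Submodule.span F (Set.range fun k : Fin n => (N ^ (k : ℕ)) e) = ⊤ := by
    apply eq_top_of_invariant_of_mem N hN hV he
    · intro v hv
      induction hv using Submodule.span_induction with
      | mem x hx =>
        obtain ⟨k, rfl⟩ := hx
        change N ((N ^ (k : ℕ)) e) ∈ _
        rw [← Module.End.mul_apply, ← pow_succ']
        by_cases hk : (k : ℕ) + 1 < n
        · exact Submodule.subset_span ⟨⟨k + 1, hk⟩, rfl⟩
        · have : (k : ℕ) + 1 = n := by omega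
          rw [this, hN]
          exact Submodule.zero_mem _
      | zero => rw [map_zero]; exact Submodule.zero_mem _
      | add x y _ _ hx hy => rw [map_add]; exact Submodule.add_mem _ hx hy
      | smul c x _ hx => rw [map_smul]; exact Submodule.smul_mem _ _ hx
    · exact Submodule.subset_span ⟨⟨0, hn⟩, by simp⟩
  refine ⟨basisOfTopLeSpanOfCardEqFinrank (fun k : Fin n => (N ^ (k : ℕ)) e) htop.ge
    (by rw [Fintype.card_fin, hV]), e, fun k => ?_⟩
  rw [coe_basisOfTopLeSpanOfCardEqFinrank]

theorem regular_conj (N N' : Module.End F V) {n : ℕ} (hn : 1 ≤ n) (hN : N ^ n = 0)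
    (hN' : N' ^ n = 0) (hV : Module.finrank F V = n)
    (hreg : Module.finrank F (LinearMap.ker N) ≤ 1)
    (hreg' : Module.finrank F (LinearMap.ker N') ≤ 1) :
    ∃ g : V ≃ₗ[F] V, ∀ v, g (N v) = N' (g v) := by
  obtain ⟨b, e, hb⟩ := exists_cyclic_basis N hn hN hV hreg
  obtain ⟨b', e', hb'⟩ := exists_cyclic_basis N' hn hN' hV hreg'
  refine ⟨b.equiv b' (Equiv.refl _), ?_⟩
  have hg : ∀ k, b.equiv b' (Equiv.refl _) (b k) = b' k := fun k => by simp
  have : (b.equiv b' (Equiv.refl _)).toLinearMap ∘ₗ N =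
      N' ∘ₗ (b.equiv b' (Equiv.refl _)).toLinearMap := by
    apply b.ext
    intro k
    simp only [LinearMap.comp_apply, LinearEquiv.coe_coe]
    rw [hg, hb', hb, ← Module.End.mul_apply, ← Module.End.mul_apply, ← pow_succ', ← pow_succ']
    by_cases hk : (k : ℕ) + 1 < n
    · have h1 := hb ⟨k + 1, hk⟩
      have h2 := hb' ⟨k + 1, hk⟩
      simp only at h1 h2
      rw [← h1, ← h2, hg]
    · have : (k : ℕ) + 1 = n := by omega
      rw [this, hN, hN']
      simp
  intro v
  exact LinearMap.congr_fun this v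

open Matrix in
/-- The nilpotent shift matrix. -/
def shiftMat (F : Type*) [Field F] (n : ℕ) : Matrix (Fin n) (Fin n) F :=
  Matrix.of fun i j => if (i : ℕ) + 1 = (j : ℕ) then 1 else 0

open Matrix in
theorem shiftMat_mulVec {n : ℕ} (v : Fin n → F) (j : Fin n) :
    (shiftMat F n *ᵥ v) j = if h : (j : ℕ) + 1 < n then v ⟨j + 1, h⟩ else 0 := by
  simp only [Matrix.mulVec, dotProduct, shiftMat, Matrix.of_apply]
  split_ifs with h
  · rw [Finset.sum_eq_single ⟨j + 1, h⟩]
    · simp
    · intro l _ hl
      rw [if_neg, zero_mul]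
      intro h'
      apply hl
      ext
      exact h'.symm
    · simp
  · apply Finset.sum_eq_zero
    intro l _
    rw [if_neg, zero_mul]
    intro h'
    exact h (h' ▸ l.2)

open Matrix in
theorem shiftMat_pow_mulVec {n : ℕ} (k : ℕ) : ∀ (v : Fin n → F) (i : Fin n),
    ((shiftMat F n) ^ k *ᵥ v) i = if h : (i : ℕ) + k < n then v ⟨i + k, h⟩ else 0 := by
  induction k with
  | zero =>
    intro v i
    rw [pow_zero, Matrix.one_mulVec, dif_pos (by simp)]
    rfl
  | succ k ih =>
    intro v i
    rw [pow_succ, ← Matrix.mulVec_mulVec, ih]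
    by_cases h1 : (i : ℕ) + k < n
    · rw [dif_pos h1, shiftMat_mulVec]
      by_cases h2 : (i : ℕ) + (k + 1) < n
      · rw [dif_pos h2, dif_pos (by simpa [add_assoc] using h2)]
        rfl
      · rw [dif_neg h2, dif_neg (by simpa [add_assoc] using h2)]
    · rw [dif_neg h1, dif_neg (by omega)]

theorem shiftMat_pow_self (n : ℕ) : (shiftMat F n) ^ n = 0 := by
  apply Matrix.toLin'.injective
  apply LinearMap.ext
  intro v
  funext i
  rw [Matrix.toLin'_apply, shiftMat_pow_mulVec, dif_neg (by omega)]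
  simp

theorem finrank_ker_shiftMat {n : ℕ} (hn : 1 ≤ n) :
    Module.finrank F (LinearMap.ker (Matrix.toLin' (shiftMat F n))) = 1 := by
  apply le_antisymm
  · have hmem : (Pi.single ⟨0, hn⟩ 1 : Fin n → F) ∈ LinearMap.ker (Matrix.toLin' (shiftMat F n)) := by
      rw [LinearMap.mem_ker, Matrix.toLin'_apply]
      funext j
      rw [shiftMat_mulVec]
      split_ifs with h
      · rw [Pi.single_eq_of_ne]
        · rfl
        · intro h'
          have := congrArg Fin.val h'
          simp at this
      · rfl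
    apply finrank_le_one (⟨_, hmem⟩ : LinearMap.ker (Matrix.toLin' (shiftMat F n)))
    rintro ⟨w, hw⟩
    refine ⟨w ⟨0, hn⟩, ?_⟩
    apply Subtype.ext
    funext j
    change w ⟨0, hn⟩ • (Pi.single ⟨0, hn⟩ 1 : Fin n → F) j = w j
    by_cases hj : j = ⟨0, hn⟩
    · rw [hj]; simp
    · rw [Pi.single_eq_of_ne hj, smul_zero]
      rw [LinearMap.mem_ker, Matrix.toLin'_apply] at hw
      have hj0 : (j : ℕ) ≠ 0 := fun h => hj (Fin.ext h)
      have h1 := congrFun hw ⟨j - 1, by omega⟩
      rw [shiftMat_mulVec, dif_pos (by simp only; omega)] at h1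
      have h2 : (⟨(j : ℕ) - 1 + 1, by omega⟩ : Fin n) = j := Fin.ext (by simp only; omega)
      rw [h2] at h1
      exact h1.symm
  · have h1 := finrank_ker_pow_le (Matrix.toLin' (shiftMat F n)) n
    rw [← Matrix.toLin'_pow, shiftMat_pow_self, map_zero, LinearMap.ker_zero, finrank_top,
      Module.finrank_fin_fun] at h1
    by_contra h
    have h0 : Module.finrank F (LinearMap.ker (Matrix.toLin' (shiftMat F n))) = 0 := by omega
    rw [h0, mul_zero] at h1
    omega

theorem rank_shiftMat {n : ℕ} (hn : 1 ≤ n) : (shiftMat F n).rank = n - 1 := by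
  have h1 := LinearMap.finrank_range_add_finrank_ker (Matrix.toLin' (shiftMat F n))
  rw [finrank_ker_shiftMat hn, Module.finrank_fin_fun, Matrix.toLin'_apply'] at h1
  rw [Matrix.rank]
  omega

theorem det_one_add_shiftMat (n : ℕ) : (1 + shiftMat F n).det = 1 := by
  have h := det_smul_one_add_nilpotent (1 : F) (Matrix.toLin' (shiftMat F n))
    ⟨n, by rw [← Matrix.toLin'_pow, shiftMat_pow_self, map_zero]⟩
  rw [one_smul, one_pow] at h
  rw [← LinearMap.det_toLin', map_add, Matrix.toLin'_one]
  exact h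

end Cfsg.Agent.H6
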