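import Cfsg.Agent.Lib_helper6_GLStab
import Cfsg.Agent.Lib_helper6_SLn
import Cfsg.Agent.Lib_helper6_MaxBridge

/-! Maximality of subspace stabilisers in the special linear group. -/

set_option autoImplicit false

namespace Cfsg.Agent.H6.GLin

variable {F V : Type*} [Field F] [AddCommGroup V] [Module F V]

/-- The automorphisms of determinant one. -/
noncomputable def SLin (F V : Type*) [Field F] [AddCommGroup V] [Module F V] : Subgroup (V ≃ₗ[F] V) :=
  (LinearEquiv.det : (V ≃ₗ[F] V) →* Fˣ).ker

theorem transvection_mem_SLin {φ : Module.Dual F V} {z : V} (h : φ z = 0) :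
    LinearEquiv.transvection h ∈ SLin F V :=
  MonoidHom.mem_ker.mpr (LinearEquiv.transvection.det_eq_one h)

theorem conj_transvection (g : V ≃ₗ[F] V) {φ : Module.Dual F V} {z : V} (h : φ (g z) = 0) :
    LinearEquiv.transvection h =
      g * LinearEquiv.transvection (f := φ ∘ₗ g.toLinearMap) (v := z) h * g⁻¹ := by
  ext v
  have e1 : g (g⁻¹ v) = v := by
    rw [← LinearEquiv.mul_apply, mul_inv_cancel]; rfl
  rw [LinearEquiv.mul_apply, LinearEquiv.mul_apply, LinearEquiv.transvection.apply,
    LinearEquiv.transvection.apply, map_add, map_smul, e1]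
  simp

variable [FiniteDimensional F V]

theorem transvection_mem_Stab_of_mem {W : Submodule F V} {φ : Module.Dual F V} {z : V}
    (h : φ z = 0) (hz : z ∈ W) : LinearEquiv.transvection h ∈ StabOf (triv V) W ⊓ SLin F V :=
  ⟨mem_StabOf_of_forall' fun v hv => by
    rw [LinearEquiv.transvection.apply]
    exact W.add_mem hv (W.smul_mem _ hz), transvection_mem_SLin h⟩

theorem transvection_mem_Stab_of_ker {W : Submodule F V} {φ : Module.Dual F V} {z : V}
    (h : φ z = 0) (hφ : ∀ w ∈ W, φ w = 0) :
    LinearEquiv.transvection h ∈ StabOf (triv V) W ⊓ SLin F V :=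
  ⟨mem_StabOf_of_forall' fun v hv => by
    rw [LinearEquiv.transvection.apply, hφ v hv, zero_smul, add_zero]
    exact hv, transvection_mem_SLin h⟩

omit [FiniteDimensional F V] in
/-- A functional vanishing on `U` with prescribed value one at a vector outside. -/
theorem exists_functional_one (U : Submodule F V) {y : V} (hy : y ∉ U) :
    ∃ φ : Module.Dual F V, (∀ u ∈ U, φ u = 0) ∧ φ y = 1 := by
  obtain ⟨f, hfy, hfU⟩ := Submodule.exists_le_ker_of_notMem hy
  exact ⟨(f y)⁻¹ • f, fun u hu => by
    have e1 : f u = 0 := hfU hu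
    simp [e1], by simp [hfy]⟩

/-- If `M` contains the determinant-one stabiliser of `W` and an element not stabilising `W`, then
`M` contains every transvection. -/
theorem all_transvections_mem (W : Submodule F V) (M : Subgroup (V ≃ₗ[F] V))
    (hSM : StabOf (triv V) W ⊓ SLin F V ≤ M) {g : V ≃ₗ[F] V} (hgM : g ∈ M)
    (hgS : g ∉ StabOf (triv V) W) (φ : Module.Dual F V) (z : V) (h : φ z = 0) :
    LinearEquiv.transvection h ∈ M := by
  obtain ⟨w0, hw0W, hgw0⟩ : ∃ w0 ∈ W, g w0 ∉ W := by
    by_contra hcon
    push Not at hcon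
    exact hgS (mem_StabOf_of_forall' hcon)
  set x0 := g w0 with hx0
  -- invariance
  have hinv : ∀ (k : V ≃ₗ[F] V), k ∈ M → ∀ x : V,
      (∀ (ψ : Module.Dual F V) (hψ : ψ x = 0), LinearEquiv.transvection hψ ∈ M) →
      ∀ (ψ : Module.Dual F V) (hψ : ψ (k x) = 0), LinearEquiv.transvection hψ ∈ M := by
    intro k hk x hx ψ hψ
    rw [conj_transvection k hψ]
    exact mul_mem (mul_mem hk (hx _ _)) (inv_mem hk)
  have hX0 : ∀ (ψ : Module.Dual F V) (hψ : ψ x0 = 0), LinearEquiv.transvection hψ ∈ M :=
    hinv g hgM w0 fun ψ hψ => hSM (transvection_mem_Stab_of_mem hψ hw0W)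
  have hscal : ∀ (a : F), a ≠ 0 → ∀ (ψ : Module.Dual F V) (hψ : ψ (a • x0) = 0),
      LinearEquiv.transvection hψ ∈ M := by
    intro a ha ψ hψ
    have h1 : (a • ψ) x0 = 0 := by
      rw [map_smul] at hψ
      exact hψ
    have : LinearEquiv.transvection hψ = LinearEquiv.transvection h1 := by
      ext v
      rw [LinearEquiv.transvection.apply, LinearEquiv.transvection.apply]
      simp only [LinearMap.smul_apply, smul_eq_mul]
      module
    rw [this]
    exact hX0 _ _
  by_cases hz : z ∈ W
  · exact hSM (transvection_mem_Stab_of_mem h hz)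
  by_cases hzx : z ∈ W ⊔ Submodule.span F {x0}
  · obtain ⟨w, hw, y, hy, hwy⟩ := Submodule.mem_sup.mp hzx
    obtain ⟨a, rfl⟩ := Submodule.mem_span_singleton.mp hy
    have ha : a ≠ 0 := by
      rintro rfl
      apply hz
      rw [← hwy]; simpa using hw
    have hax : a • x0 ∉ W := fun hh => hgw0 ((W.smul_mem_iff ha).mp hh)
    obtain ⟨ψ, hψW, hψx⟩ := exists_functional_one W hax
    have hψw : ψ w = 0 := hψW w hw
    have hk : LinearEquiv.transvection hψw ∈ M := hSM (transvection_mem_Stab_of_mem hψw hw)
    have hkz : LinearEquiv.transvection hψw (a • x0) = z := by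
      rw [LinearEquiv.transvection.apply, hψx, one_smul, ← hwy, add_comm]
    have := hinv _ hk (a • x0) (hscal a ha)
    rw [hkz] at this
    exact this φ h
  · -- independent modulo `W`
    obtain ⟨ψ1, hψ1, hψ1z⟩ := exists_functional_one _ hzx
    have hx0' : x0 ∉ W ⊔ Submodule.span F {z} := by
      intro hh
      obtain ⟨w, hw, y, hy, hwy⟩ := Submodule.mem_sup.mp hh
      obtain ⟨a, rfl⟩ := Submodule.mem_span_singleton.mp hy
      by_cases ha : a = 0
      · apply hgw0
        rw [← hwy, ha]; simpa using hw
      · apply hzx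
        have : z = a⁻¹ • (x0 - w) := by
          rw [← hwy]; simp [ha]
        rw [this]
        exact Submodule.smul_mem _ _ (Submodule.sub_mem _
          (Submodule.mem_sup_right (Submodule.mem_span_singleton_self x0))
          (Submodule.mem_sup_left hw))
    obtain ⟨ψ2, hψ2, hψ2x⟩ := exists_functional_one _ hx0'
    have e1 : ψ1 x0 = 0 := hψ1 _ (Submodule.mem_sup_right (Submodule.mem_span_singleton_self x0))
    have e2 : ψ2 z = 0 := hψ2 _ (Submodule.mem_sup_right (Submodule.mem_span_singleton_self z))
    have hψ : (ψ1 + ψ2) (z - x0) = 0 := by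
      simp [e1, e2, hψ1z, hψ2x]
    have hk : LinearEquiv.transvection hψ ∈ M := hSM (transvection_mem_Stab_of_ker hψ fun w hw => by
      rw [LinearMap.add_apply, hψ1 w (Submodule.mem_sup_left hw),
        hψ2 w (Submodule.mem_sup_left hw), add_zero])
    have hkz : LinearEquiv.transvection hψ x0 = z := by
      rw [LinearEquiv.transvection.apply, LinearMap.add_apply, e1, hψ2x]; simp
    have := hinv _ hk x0 hX0
    rw [hkz] at this
    exact this φ h

omit [FiniteDimensional F V] in
/-- A transvection not stabilising a proper non-zero subspace. -/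
theorem exists_transvection_not_mem (W : Submodule F V) (h0 : W ≠ ⊥) (h1 : W ≠ ⊤) :
    ∃ (φ : Module.Dual F V) (z : V) (h : φ z = 0),
      LinearEquiv.transvection h ∉ StabOf (triv V) W := by
  obtain ⟨w, hw, hw0⟩ := (Submodule.ne_bot_iff _).mp h0
  obtain ⟨x, -, hx⟩ := SetLike.exists_of_lt (lt_top_iff_ne_top.mpr h1)
  have hwx : w ∉ Submodule.span F {x} := by
    intro h
    obtain ⟨a, rfl⟩ := Submodule.mem_span_singleton.mp h
    have ha : a ≠ 0 := by
      rintro rfl
      simp at hw0
    exact hx ((W.smul_mem_iff ha).mp hw)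
  obtain ⟨φ, hφ, hφw⟩ := exists_functional_one _ hwx
  refine ⟨φ, x, hφ x (Submodule.mem_span_singleton_self x), fun hmem => ?_⟩
  have := (hmem.2 w).mp hw
  rw [LinearEquiv.transvection.apply, hφw, one_smul] at this
  exact hx (by simpa using W.sub_mem this hw)

end Cfsg.Agent.H6.GLin

namespace Cfsg.Agent.H6

open Matrix

variable {F : Type*} [Field F] {ι : Type} [Fintype ι] [DecidableEq ι]

theorem det_glEquivLin (g : Matrix.GeneralLinearGroup ι F) :
    LinearEquiv.det (glEquivLin ι F g) = Matrix.GeneralLinearGroup.det g := by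
  apply Units.ext
  rw [LinearEquiv.coe_det]
  change LinearMap.det (Matrix.toLin' (g : Matrix ι ι F)) = _
  rw [LinearMap.det_toLin']
  rfl

theorem specialLinear_eq_comap : Cfsg.Geo.specialLinear ι F =
    (GLin.SLin F (ι → F)).comap (glEquivLin ι F).toMonoidHom := by
  ext g
  change Matrix.GeneralLinearGroup.det g = 1 ↔ LinearEquiv.det (glEquivLin ι F g) = 1
  rw [det_glEquivLin]

theorem subspaceStabilizer_eq_comap (W : Submodule F (ι → F)) : Cfsg.Geo.subspaceStabilizer W =
    (StabOf (GLin.triv (ι → F)) W).comap (glEquivLin ι F).toMonoidHom := by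
  ext g
  constructor
  · intro hg
    exact ⟨fun _ _ => rfl, hg⟩
  · intro hg
    exact hg.2

/-- A subgroup containing all transvections contains `SL`. -/
theorem SLin_le_of_transvections [Nontrivial ι] (M : Subgroup ((ι → F) ≃ₗ[F] (ι → F)))
    (hM : ∀ (φ : Module.Dual F (ι → F)) (z : ι → F) (h : φ z = 0),
      LinearEquiv.transvection h ∈ M) : GLin.SLin F (ι → F) ≤ M := by
  intro h hh
  set g := (glEquivLin ι F).symm h with hg
  have hge : glEquivLin ι F g = h := MulEquiv.apply_symm_apply _ _
  have hdet : (g : Matrix ι ι F).det = 1 := by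
    have h1 : LinearEquiv.det h = 1 := hh
    rw [← hge, det_glEquivLin] at h1
    exact congrArg Units.val h1
  have key : ∀ A : Matrix.SpecialLinearGroup ι F,
      glEquivLin ι F (Matrix.SpecialLinearGroup.toGL A) ∈ M := by
    intro A
    induction A using transvection_induction with
    | htransvec i j hij c =>
      have h0 : (c • (LinearMap.proj j : (ι → F) →ₗ[F] F)) (Pi.single i 1) = 0 := by
        simp [hij.symm]
      have : glEquivLin ι F (Matrix.SpecialLinearGroup.toGL
          (Matrix.SpecialLinearGroup.transvection hij c)) = LinearEquiv.transvection h0 := by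
        ext v k
        rw [LinearEquiv.transvection.apply]
        have := transvection_smul_apply hij c v k
        rw [Matrix.SpecialLinearGroup.smul_def] at this
        change ((Matrix.SpecialLinearGroup.transvection hij c : Matrix ι ι F) *ᵥ v) k = _
        refine Eq.trans this ?_
        by_cases hk : k = i
        · subst hk; simp
        · simp [hk]
      rw [this]
      exact hM _ _ _
    | hmul A B hA hB =>
      rw [map_mul, map_mul]
      exact mul_mem hA hB
  have := key ⟨(g : Matrix ι ι F), hdet⟩
  have e : Matrix.SpecialLinearGroup.toGL ⟨(g : Matrix ι ι F), hdet⟩ = g := Units.ext rfl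
  rw [e, hge] at this
  exact this

/-- The determinant-one stabiliser of a proper non-zero subspace is maximal in `SL`. -/
theorem stab_SL_maximal (W : Submodule F (ι → F)) (h0 : W ≠ ⊥) (h1 : W ≠ ⊤) :
    StabOf (GLin.triv (ι → F)) W ⊓ GLin.SLin F (ι → F) < GLin.SLin F (ι → F) ∧
    ∀ M : Subgroup ((ι → F) ≃ₗ[F] (ι → F)), StabOf (GLin.triv (ι → F)) W ⊓ GLin.SLin F (ι → F) ≤ M →
      M ≤ GLin.SLin F (ι → F) →
      M = StabOf (GLin.triv (ι → F)) W ⊓ GLin.SLin F (ι → F) ∨ M = GLin.SLin F (ι → F) := by
  have hnt : Nontrivial ι := by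
    by_contra hcon
    rw [not_nontrivial_iff_subsingleton] at hcon
    have hfr : Module.finrank F (ι → F) ≤ 1 := by
      rw [Module.finrank_fintype_fun_eq_card]
      exact Fintype.card_le_one_iff_subsingleton.mpr hcon
    have h2 : 0 < Module.finrank F W := Module.finrank_pos_iff.mpr
      (Submodule.nontrivial_iff_ne_bot.mpr h0)
    have h3 : Module.finrank F W < Module.finrank F (ι → F) :=
      Submodule.finrank_lt h1
    omega
  constructor
  · refine lt_of_le_of_ne inf_le_right fun heq => ?_
    obtain ⟨φ, z, h, hn⟩ := GLin.exists_transvection_not_mem W h0 h1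
    have : LinearEquiv.transvection h ∈ StabOf (GLin.triv (ι → F)) W ⊓ GLin.SLin F (ι → F) := by
      rw [heq]; exact GLin.transvection_mem_SLin h
    exact hn this.1
  · intro M hSM hMS
    by_cases hM : M ≤ StabOf (GLin.triv (ι → F)) W
    · left
      exact le_antisymm (le_inf hM hMS) hSM
    · right
      obtain ⟨g, hgM, hgS⟩ := SetLike.not_le_iff_exists.mp hM
      exact le_antisymm hMS (SLin_le_of_transvections M
        (GLin.all_transvections_mem W M hSM hgM hgS))

end Cfsg.Agent.H6
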