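import Cfsg.Agent.Lib_helper6_GU

/-! `SU_n(q)` inside `GU_n(q)`: determinants. -/

set_option autoImplicit false

namespace Cfsg.Agent.H6

open Matrix

variable {F : Type*} [Field F] [Fintype F] {q : ℕ}

/-- A matrix preserves the Hermitian form iff `Aᵀ * A^(q) = 1`. -/
theorem herm_preserving_iff (hF : Fintype.card F = q ^ 2) {n : ℕ} (A : Matrix (Fin n) (Fin n) F) :
    (∀ u v, Cfsg.hermForm n F q (A *ᵥ u) (A *ᵥ v) = Cfsg.hermForm n F q u v) ↔
      Aᵀ * A.map (frobQ hF) = 1 := by
  classical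
  have hq : q ≠ 0 := by have := two_le_of_card_sq hF; omega
  have key : ∀ u v : Fin n → F, Cfsg.hermForm n F q (A *ᵥ u) (A *ᵥ v) =
      u ⬝ᵥ ((Aᵀ * A.map (frobQ hF)) *ᵥ (fun i => v i ^ q)) := by
    intro u v
    rw [← mulVec_mulVec, dotProduct_mulVec, vecMul_transpose]
    unfold Cfsg.hermForm dotProduct
    refine Finset.sum_congr rfl fun i _ => ?_
    congr 1
    change frobQ hF ((A *ᵥ v) i) = _
    simp only [mulVec, dotProduct, map_sum, map_mul, Matrix.map_apply]
    rfl
  constructor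
  · intro h
    ext i j
    have h1 := h (Pi.single i 1) (Pi.single j 1)
    rw [key] at h1
    have h2 : (fun k => (Pi.single j (1 : F) : Fin n → F) k ^ q) = Pi.single j 1 := by
      ext k
      by_cases hk : k = j
      · subst hk; simp
      · simp [Pi.single_apply, hk, hq]
    rw [h2, single_one_dotProduct, mulVec_single_one] at h1
    simp only [col_apply] at h1
    rw [h1, Cfsg.hermForm, Matrix.one_apply]
    simp only [Pi.single_apply, ite_pow, one_pow, zero_pow hq, mul_ite, mul_one, mul_zero,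
      Finset.sum_ite_eq', Finset.mem_univ, if_true]
    simp [eq_comm]
  · intro h u v
    rw [key, h, one_mulVec]
    rfl

theorem det_pow_of_herm_preserving (hF : Fintype.card F = q ^ 2) {n : ℕ}
    (A : Matrix (Fin n) (Fin n) F)
    (h : ∀ u v, Cfsg.hermForm n F q (A *ᵥ u) (A *ᵥ v) = Cfsg.hermForm n F q u v) :
    A.det ^ (q + 1) = 1 := by
  have h1 := congrArg Matrix.det ((herm_preserving_iff hF A).mp h)
  rw [det_mul, det_transpose, det_one] at h1
  have h2 : (A.map (frobQ hF)).det = A.det ^ q := by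
    have := RingHom.map_det (frobQ hF) A
    rw [frobQ_apply] at this
    rw [this]; rfl
  rw [h2, ← pow_succ'] at h1
  exact h1

/-- The determinant from `GU` to the norm-one group. -/
noncomputable def guDet (hF : Fintype.card F = q ^ 2) (n : ℕ) :
    Cfsg.GU n F q →* (powMonoidHom (q + 1) : Fˣ →* Fˣ).ker :=
  (Matrix.GeneralLinearGroup.det.comp (Cfsg.GU n F q).subtype).codRestrict _ (fun g => by
    rw [MonoidHom.mem_ker, powMonoidHom_apply]
    ext
    simp only [MonoidHom.coe_comp, Subgroup.coe_subtype, Function.comp_apply,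
      Units.val_pow_eq_pow_val, Matrix.GeneralLinearGroup.val_det_apply, Units.val_one]
    exact det_pow_of_herm_preserving hF _ g.2)

theorem guDet_apply (hF : Fintype.card F = q ^ 2) (n : ℕ) (g : Cfsg.GU n F q) :
    (((guDet hF n g : (powMonoidHom (q + 1) : Fˣ →* Fˣ).ker) : Fˣ) : F) =
      ((g : Matrix.GeneralLinearGroup (Fin n) F) : Matrix (Fin n) (Fin n) F).det := rfl

/-- Diagonal unitary matrices. -/
theorem diagonal_herm_preserving {n : ℕ} (d : Fin n → F) (hd : ∀ i, d i ^ (q + 1) = 1)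
    (u v : Fin n → F) :
    Cfsg.hermForm n F q (Matrix.diagonal d *ᵥ u) (Matrix.diagonal d *ᵥ v) =
      Cfsg.hermForm n F q u v := by
  unfold Cfsg.hermForm
  refine Finset.sum_congr rfl fun i _ => ?_
  rw [mulVec_diagonal, mulVec_diagonal, mul_pow]
  have : d i * u i * (d i ^ q * v i ^ q) = d i ^ (q + 1) * (u i * v i ^ q) := by ring
  rw [this, hd, one_mul]

theorem guDet_surjective (hF : Fintype.card F = q ^ 2) {n : ℕ} (hn : 1 ≤ n) :
    Function.Surjective (guDet hF n) := by
  classical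
  intro l
  have hl : ((l : Fˣ) : F) ^ (q + 1) = 1 := by
    have := MonoidHom.mem_ker.mp l.2
    rw [powMonoidHom_apply] at this
    have h2 := congrArg Units.val this
    simpa using h2
  set d : Fin n → F := fun i => if i = ⟨0, hn⟩ then ((l : Fˣ) : F) else 1 with hd
  have hdet : (Matrix.diagonal d).det = ((l : Fˣ) : F) := by
    rw [det_diagonal, hd, Finset.prod_ite_eq' Finset.univ (⟨0, hn⟩ : Fin n)]
    simp
  have hd1 : ∀ i, d i ^ (q + 1) = 1 := by
    intro i
    rw [hd]
    dsimp only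
    split_ifs
    · exact hl
    · exact one_pow _
  refine ⟨⟨Matrix.GeneralLinearGroup.mkOfDetNeZero (Matrix.diagonal d)
    (by rw [hdet]; exact (l : Fˣ).ne_zero), fun u v => diagonal_herm_preserving d hd1 u v⟩, ?_⟩
  apply Subtype.ext
  ext
  rw [guDet_apply]
  exact hdet

theorem card_ker_guDet (hF : Fintype.card F = q ^ 2) (n : ℕ) :
    Nat.card (guDet hF n).ker = Nat.card (Cfsg.SU n F q) := by
  refine Nat.card_congr ⟨fun g => ⟨⟨g.1.1.1, ?_⟩, fun u v => g.1.2 u v⟩,
    fun g => ⟨⟨Matrix.SpecialLinearGroup.toGL g.1, fun u v => g.2 u v⟩, ?_⟩,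
    fun g => ?_, fun g => ?_⟩
  · have := MonoidHom.mem_ker.mp g.2
    have h2 := congrArg (fun x : (powMonoidHom (q + 1) : Fˣ →* Fˣ).ker => ((x : Fˣ) : F)) this
    exact h2
  · rw [MonoidHom.mem_ker]
    apply Subtype.ext
    ext
    rw [guDet_apply]
    exact g.1.2
  · apply Subtype.ext
    apply Subtype.ext
    ext
    rfl
  · apply Subtype.ext
    apply Subtype.ext
    rfl

theorem card_SU (hF : Fintype.card F = q ^ 2) {n : ℕ} (hn : 1 ≤ n) :
    (q + 1) * Nat.card (Cfsg.SU n F q) = Nat.card (Cfsg.GU n F q) := by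
  rw [card_eq_card_mul_card_ker _ (guDet_surjective hF hn), card_ker_guDet, card_ker_norm hF]

end Cfsg.Agent.H6
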