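import Cfsg.Agent.Lib_helper6_SU

/-! The centre of `SU_n(q)`, `n ≥ 2`. -/

set_option autoImplicit false

namespace Cfsg.Agent.H6

open Matrix

variable {F : Type*} [Field F] [Fintype F] {q : ℕ} {n : ℕ}

/-- Constructor for elements of `SU`. -/
def mkSU (A : Matrix (Fin n) (Fin n) F) (hdet : A.det = 1)
    (h : ∀ u v, Cfsg.hermForm n F q (A *ᵥ u) (A *ᵥ v) = Cfsg.hermForm n F q u v) :
    Cfsg.SU n F q := ⟨⟨A, hdet⟩, h⟩

/-- The matrix of an element of `SU`. -/
def suMat (g : Cfsg.SU n F q) : Matrix (Fin n) (Fin n) F := g.1.1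

theorem suMat_mkSU (A : Matrix (Fin n) (Fin n) F) (hdet : A.det = 1)
    (h : ∀ u v, Cfsg.hermForm n F q (A *ᵥ u) (A *ᵥ v) = Cfsg.hermForm n F q u v) :
    suMat (mkSU A hdet h) = A := rfl

theorem suMat_mul (a b : Cfsg.SU n F q) : suMat (a * b) = suMat a * suMat b := rfl

theorem suMat_injective : Function.Injective (suMat : Cfsg.SU n F q → _) :=
  fun _ _ h => Subtype.ext (Subtype.ext h)

theorem suMat_det (g : Cfsg.SU n F q) : (suMat g).det = 1 := g.1.2

theorem suMat_preserves (g : Cfsg.SU n F q) (u v : Fin n → F) :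
    Cfsg.hermForm n F q (suMat g *ᵥ u) (suMat g *ᵥ v) = Cfsg.hermForm n F q u v := g.2 u v

/-- The diagonal element `diag(a at k, a⁻¹ at l)`. -/
theorem exists_diag_SU {a : F} (ha : a ^ (q + 1) = 1) {k l : Fin n} (hkl : k ≠ l) :
    ∃ (g : Cfsg.SU n F q) (d : Fin n → F), suMat g = Matrix.diagonal d ∧ d k = a ∧ d l = a⁻¹ := by
  classical
  have ha0 : a ≠ 0 := by
    rintro rfl
    rw [zero_pow (Nat.succ_ne_zero q)] at ha
    exact zero_ne_one ha
  set d : Fin n → F := fun i => if i = k then a else if i = l then a⁻¹ else 1 with hd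
  have hdet : (Matrix.diagonal d).det = 1 := by
    rw [det_diagonal]
    have h1 : ∀ i, d i = (if i = k then a else 1) * (if i = l then a⁻¹ else 1) := by
      intro i
      rw [hd]
      dsimp only
      by_cases h1 : i = k
      · subst h1; simp [hkl]
      · simp [h1]
    simp only [h1, Finset.prod_mul_distrib, Finset.prod_ite_eq', Finset.mem_univ, if_true]
    exact mul_inv_cancel₀ ha0
  refine ⟨mkSU (Matrix.diagonal d) hdet (diagonal_herm_preserving d ?_), d, rfl, by simp [hd],
    by simp [hd, hkl.symm]⟩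
  intro i
  rw [hd]
  dsimp only
  split_ifs
  · exact ha
  · rw [inv_pow, ha, inv_one]
  · exact one_pow _

/-- A signed transposition in `SU`. -/
theorem exists_swap_SU (hneg : (-1 : F) ^ (q + 1) = 1) {k l : Fin n} (hkl : k ≠ l) :
    ∃ g : Cfsg.SU n F q, suMat g k l ≠ 0 := by
  classical
  set d : Fin n → F := fun i => if i = k then -1 else 1 with hd
  set P : Matrix (Fin n) (Fin n) F := Equiv.Perm.permMatrix F (Equiv.swap k l) with hP
  have hdet : (P * Matrix.diagonal d).det = 1 := by
    rw [det_mul, hP, det_permutation, Equiv.Perm.sign_swap hkl, det_diagonal, hd,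
      Finset.prod_ite_eq' Finset.univ k]
    simp
  have hPpres : ∀ u v : Fin n → F,
      Cfsg.hermForm n F q (P *ᵥ u) (P *ᵥ v) = Cfsg.hermForm n F q u v := by
    intro u v
    rw [hP, permMatrix_mulVec, permMatrix_mulVec]
    unfold Cfsg.hermForm
    exact Equiv.sum_comp (Equiv.swap k l) (fun i => u i * v i ^ q)
  refine ⟨mkSU (P * Matrix.diagonal d) hdet ?_, ?_⟩
  · intro u v
    rw [← mulVec_mulVec, ← mulVec_mulVec, hPpres, diagonal_herm_preserving]
    intro i
    rw [hd]
    dsimp only
    split_ifs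
    · exact hneg
    · exact one_pow _
  · rw [suMat_mkSU, mul_diagonal, hP, Equiv.Perm.permMatrix, PEquiv.toMatrix_apply]
    simp [hd, hkl.symm]

theorem center_SU_scalar {a : F} (ha : a ^ (q + 1) = 1) (ha2 : a ^ 2 ≠ 1)
    (hneg : (-1 : F) ^ (q + 1) = 1) (z : Cfsg.SU n F q)
    (hz : z ∈ Subgroup.center (Cfsg.SU n F q)) (k0 : Fin n) :
    suMat z = Matrix.diagonal (fun _ => suMat z k0 k0) := by
  classical
  rw [Subgroup.mem_center_iff] at hz
  have ha0 : a ≠ 0 := by
    rintro rfl
    rw [zero_pow (Nat.succ_ne_zero q)] at ha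
    exact zero_ne_one ha
  have hoff : ∀ k l, k ≠ l → suMat z k l = 0 := by
    intro k l hkl
    obtain ⟨g, d, hg, hdk, hdl⟩ := exists_diag_SU (n := n) ha hkl
    have h1 := congrArg (fun x => suMat x k l) (hz g)
    simp only [suMat_mul, hg, mul_diagonal, diagonal_mul, hdk, hdl] at h1
    have h2 : (a - a⁻¹) * suMat z k l = 0 := by linear_combination h1
    rcases mul_eq_zero.mp h2 with h | h
    · exfalso
      apply ha2
      have : a = a⁻¹ := sub_eq_zero.mp h
      rw [sq]
      nth_rewrite 2 [this]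
      exact mul_inv_cancel₀ ha0
    · exact h
  have hdiag : ∀ k l, k ≠ l → suMat z k k = suMat z l l := by
    intro k l hkl
    obtain ⟨g, hg⟩ := exists_swap_SU (n := n) hneg hkl
    have h1 := congrArg (fun x => suMat x k l) (hz g)
    simp only [suMat_mul, Matrix.mul_apply] at h1
    rw [Finset.sum_eq_single l (fun j _ hj => by rw [hoff j l hj, mul_zero]) (by simp),
      Finset.sum_eq_single k (fun j _ hj => by rw [hoff k j (Ne.symm hj), zero_mul]) (by simp)] at h1
    have h2 : suMat g k l * (suMat z l l - suMat z k k) = 0 := by linear_combination h1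
    rcases mul_eq_zero.mp h2 with h | h
    · exact absurd h hg
    · exact (sub_eq_zero.mp h).symm
  ext i j
  rw [Matrix.diagonal_apply]
  split_ifs with hij
  · subst hij
    by_cases hi : i = k0
    · rw [hi]
    · exact hdiag i k0 hi
  · exact hoff i j hij

theorem neg_one_pow_q_add_one (hF : Fintype.card F = q ^ 2) : (-1 : F) ^ (q + 1) = 1 := by
  have h : (-1 : F) ^ q = -1 := by
    have := map_neg (frobQ hF) 1
    rw [map_one, frobQ_apply] at this
    exact this
  rw [pow_succ, h]; ring

theorem exists_norm_one_sq_ne_one (hF : Fintype.card F = q ^ 2) :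
    ∃ a : F, a ^ (q + 1) = 1 ∧ a ^ 2 ≠ 1 := by
  have hq := two_le_of_card_sq hF
  obtain ⟨x, hx⟩ : IsCyclic (powMonoidHom (q + 1) : Fˣ →* Fˣ).ker := by infer_instance
  have h1 : orderOf x = q + 1 := by
    rw [orderOf_eq_card_of_forall_mem_zpowers hx, card_ker_norm hF]
  have hx1 : ((x : Fˣ) : F) ^ (q + 1) = 1 := by
    have := MonoidHom.mem_ker.mp x.2
    rw [powMonoidHom_apply] at this
    have h2 := congrArg Units.val this
    simpa using h2
  refine ⟨((x : Fˣ) : F), hx1, fun h => ?_⟩
  have h2 : orderOf x ≤ 2 := orderOf_le_of_pow_eq_one zero_lt_two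
    (Subtype.ext (Units.ext (by simpa using h)))
  omega

theorem const_diagonal_herm (l : F) (u v : Fin n → F) :
    Cfsg.hermForm n F q (Matrix.diagonal (fun _ => l) *ᵥ u) (Matrix.diagonal (fun _ => l) *ᵥ v) =
      l ^ (q + 1) * Cfsg.hermForm n F q u v := by
  unfold Cfsg.hermForm
  rw [Finset.mul_sum]
  refine Finset.sum_congr rfl fun i _ => ?_
  rw [mulVec_diagonal, mulVec_diagonal, mul_pow]
  ring

theorem card_center_SU (hF : Fintype.card F = q ^ 2) (hn : 2 ≤ n) :
    Nat.card (Subgroup.center (Cfsg.SU n F q)) = Nat.gcd n (q + 1) := by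
  classical
  obtain ⟨a, ha, ha2⟩ := exists_norm_one_sq_ne_one hF
  have hneg := neg_one_pow_q_add_one hF
  have hq0 : q ≠ 0 := by have := two_le_of_card_sq hF; omega
  set k0 : Fin n := ⟨0, by omega⟩ with hk0
  have hcard : Nat.card (powMonoidHom (Nat.gcd n (q + 1)) : Fˣ →* Fˣ).ker = Nat.gcd n (q + 1) := by
    rw [IsCyclic.card_powMonoidHom_ker, card_units_sq hF]
    exact Nat.gcd_eq_right ((Nat.gcd_dvd_right n (q + 1)).trans (Dvd.intro_left _ rfl))
  rw [← hcard]
  have hscal := fun (z : Cfsg.SU n F q) (hz : z ∈ Subgroup.center (Cfsg.SU n F q)) =>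
    center_SU_scalar ha ha2 hneg z hz k0
  have hpow : ∀ (z : Cfsg.SU n F q), z ∈ Subgroup.center (Cfsg.SU n F q) →
      suMat z k0 k0 ^ n = 1 ∧ suMat z k0 k0 ^ (q + 1) = 1 := by
    intro z hz
    constructor
    · have := suMat_det z
      rw [hscal z hz, det_diagonal, Finset.prod_const, Finset.card_univ, Fintype.card_fin] at this
      exact this
    · have := suMat_preserves z (Pi.single k0 1) (Pi.single k0 1)
      rw [hscal z hz, const_diagonal_herm] at this
      have h1 : Cfsg.hermForm n F q (Pi.single k0 1) (Pi.single k0 1) = 1 := by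
        unfold Cfsg.hermForm
        simp [Pi.single_apply, hq0]
      rw [h1, mul_one] at this
      exact this
  refine Nat.card_congr ⟨fun z => ⟨Units.mk0 (suMat z.1 k0 k0) (fun h => ?_), ?_⟩,
    fun l => ⟨mkSU (Matrix.diagonal fun _ => ((l : Fˣ) : F)) ?_ (diagonal_herm_preserving _ ?_), ?_⟩,
    fun z => ?_, fun l => ?_⟩
  · have := (hpow z.1 z.2).2
    rw [h, zero_pow (Nat.succ_ne_zero q)] at this
    exact zero_ne_one this
  · rw [MonoidHom.mem_ker, powMonoidHom_apply, pow_gcd_eq_one]
    constructor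
    · ext; simpa using (hpow z.1 z.2).1
    · ext; simpa using (hpow z.1 z.2).2
  · have := MonoidHom.mem_ker.mp l.2
    rw [powMonoidHom_apply, pow_gcd_eq_one] at this
    rw [det_diagonal, Finset.prod_const, Finset.card_univ, Fintype.card_fin]
    have h2 := congrArg Units.val this.1
    simpa using h2
  · intro _
    have := MonoidHom.mem_ker.mp l.2
    rw [powMonoidHom_apply, pow_gcd_eq_one] at this
    have h2 := congrArg Units.val this.2
    simpa using h2
  · rw [Subgroup.mem_center_iff]
    intro g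
    apply suMat_injective
    rw [suMat_mul, suMat_mul, suMat_mkSU]
    ext i j
    rw [mul_diagonal, diagonal_mul, mul_comm]
  · apply Subtype.ext
    apply suMat_injective
    rw [suMat_mkSU]
    exact (hscal z.1 z.2).symm
  · apply Subtype.ext
    ext
    simp [suMat_mkSU]

end Cfsg.Agent.H6
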