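import Cfsg.Agent.Lib_helper6_OmegaSimple

/-! Siegel transformations lie in `Ω` (all characteristics). -/

set_option autoImplicit false

namespace Cfsg.Agent.H6.Quad

variable {F V : Type*} [Field F] [AddCommGroup V] [Module F V] {Q : QuadraticForm F V}
variable [FiniteDimensional F V]

local notation "O" => IsomOf (F := F) (bet Q)
local notation "Ω" => commutator (IsomOf (F := F) (bet Q))

/-- `g` is the Siegel transformation `ρ_{x,a}`. -/
def IsSiegel (Q : QuadraticForm F V) (x a : V) (g : IsomOf (F := F) (bet Q)) : Prop :=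
  ∀ v, g.1 v = v + pol Q v a • x - pol Q v x • a - (Q a * pol Q v x) • x

theorem exists_isSiegel (hQ : (pol Q).Nondegenerate) {x a : V} (hx : Q x = 0)
    (hxa : pol Q x a = 0) : ∃ g : O, IsSiegel Q x a g := by
  obtain ⟨g, hg, hgv⟩ := exists_siegel hQ x a hx hxa
  exact ⟨⟨g, hg⟩, hgv⟩

theorem IsSiegel.ext {x a : V} {g g' : O} (h : IsSiegel Q x a g) (h' : IsSiegel Q x a g') :
    g = g' := by
  apply Subtype.ext
  ext v
  rw [h v, h' v]

theorem IsSiegel.mul {x a b : V} (hx : Q x = 0) (hxa : pol Q x a = 0) (hxb : pol Q x b = 0)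
    {g g' : O} (h : IsSiegel Q x a g) (h' : IsSiegel Q x b g') : IsSiegel Q x (a + b) (g * g') := by
  intro v
  change g.1 (g'.1 v) = _
  rw [h' v, h]
  have hax : pol Q a x = 0 := by rw [pol_comm, hxa]
  have hbx : pol Q b x = 0 := by rw [pol_comm, hxb]
  simp only [map_add, map_sub, map_smul, LinearMap.add_apply, LinearMap.sub_apply,
    LinearMap.smul_apply, smul_eq_mul, pol_self, hx, hxa, hbx, mul_zero, sub_zero, add_zero, Q_add,
    pol_comm b a]
  module

theorem isSiegel_mem_of_ne [Finite F] (hQ : (pol Q).Nondegenerate) {x a : V} (hx : Q x = 0)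
    (hxa : pol Q x a = 0) (ha : Q a ≠ 0) {g : O} (hg : IsSiegel Q x a g) : g ∈ Ω := by
  set b := (-(Q a)⁻¹) • a with hb
  have hQb : Q b = (Q a)⁻¹ := by
    rw [hb, Q_smul]; field_simp
  have hb0 : Q b ≠ 0 := by rw [hQb]; exact inv_ne_zero ha
  have hbx : pol Q b x = 0 := by
    rw [hb, map_smul, LinearMap.smul_apply, pol_comm, hxa, smul_zero]
  have hQbx : Q (b + x) = Q b := by rw [Q_add, hx, hbx]; ring
  have hbx0 : Q (b + x) ≠ 0 := by rw [hQbx]; exact hb0
  have : g = Rf hQ b hb0 * Rf hQ (b + x) hbx0 := by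
    apply Subtype.ext
    ext v
    rw [hg v, Rf_mul_Rf_add_apply hQ hb0 hbx0 hx hbx, hQb, hb]
    simp only [map_smul, smul_eq_mul, div_inv_eq_mul, smul_smul]
    match_scalars <;> field_simp
    ring
  rw [this]
  exact Rf_mul_Rf_mem hQ _ _ hb0 hbx0 hQbx.symm

theorem isSiegel_mem [Finite F] (hQ : (pol Q).Nondegenerate) (hn : 7 ≤ Module.finrank F V)
    {x a : V} (hx : Q x = 0) (hxa : pol Q x a = 0) {g : O} (hg : IsSiegel Q x a g) : g ∈ Ω := by
  by_cases ha : Q a = 0
  · obtain ⟨c, hc, hcS⟩ := exists_orth_of_small hQ (Submodule.span F {x, a}) (by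
      have := finrank_span_pair_le (F := F) x a
      omega) 1
    have hxc : pol Q x c = 0 := hcS x (Submodule.subset_span (by simp))
    have hac : pol Q a c = 0 := hcS a (Submodule.subset_span (by simp))
    have h1 : Q (a - c) = 1 := by rw [Q_sub, ha, hc, hac]; ring
    have hx1 : pol Q x (a - c) = 0 := by rw [map_sub, hxa, hxc, sub_zero]
    obtain ⟨g₁, hg₁⟩ := exists_isSiegel hQ hx hxc
    obtain ⟨g₂, hg₂⟩ := exists_isSiegel hQ hx hx1
    have h2 := IsSiegel.mul hx hxc hx1 hg₁ hg₂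
    rw [add_sub_cancel] at h2
    rw [hg.ext h2]
    exact mul_mem (isSiegel_mem_of_ne hQ hx hxc (by rw [hc]; exact one_ne_zero) hg₁)
      (isSiegel_mem_of_ne hQ hx hx1 (by rw [h1]; exact one_ne_zero) hg₂)
  · exact isSiegel_mem_of_ne hQ hx hxa ha hg

end Cfsg.Agent.H6.Quad
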