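import Cfsg.Agent.Lib_helper6_SLMax

/-! The group of symplectic similarities of determinant one is maximal in `SL`. -/

set_option autoImplicit false

namespace Cfsg.Agent.H6.Alt

variable {F V : Type*} [Field F] [AddCommGroup V] [Module F V] {B : LinearMap.BilinForm F V}

/-- The similarities of a bilinear form. -/
def Sim (B : LinearMap.BilinForm F V) : Subgroup (V ≃ₗ[F] V) where
  carrier := {g | ∃ c : Fˣ, ∀ u v, B (g u) (g v) = (c : F) * B u v}
  mul_mem' {a b} ha hb := by
    obtain ⟨c, hc⟩ := ha
    obtain ⟨d, hd⟩ := hb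
    refine ⟨c * d, fun u v => ?_⟩
    rw [LinearEquiv.mul_apply, LinearEquiv.mul_apply, hc, hd, Units.val_mul, mul_assoc]
  one_mem' := ⟨1, fun u v => by simp⟩
  inv_mem' {a} ha := by
    obtain ⟨c, hc⟩ := ha
    refine ⟨c⁻¹, fun u v => ?_⟩
    have h := hc (a⁻¹ u) (a⁻¹ v)
    have e1 : ∀ x, a (a⁻¹ x) = x := fun x => by
      rw [← LinearEquiv.mul_apply, mul_inv_cancel]; rfl
    rw [e1, e1] at h
    rw [h, ← mul_assoc, Units.val_inv_eq_inv_val, inv_mul_cancel₀ c.ne_zero, one_mul]

theorem Isom_le_Sim : Isom B ≤ Sim B := fun g hg => ⟨1, fun u v => by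
  rw [Units.val_one, one_mul]; exact hg u v⟩

variable [FiniteDimensional F V]

theorem Isom_le_SLin (hB : B.Nondegenerate) (hA : B.IsAlt) : Isom B ≤ GLin.SLin F V :=
  le_of_transv hB hA _ fun _ _ => GLin.transvection_mem_SLin _

/-- The transvection `x ↦ x + B(w, x) u`. -/
noncomputable def gtr (B : LinearMap.BilinForm F V) {u w : V} (h : B w u = 0) : V ≃ₗ[F] V :=
  LinearEquiv.transvection (f := B w) (v := u) h

omit [FiniteDimensional F V] in
theorem gtr_apply {u w : V} (h : B w u = 0) (x : V) : gtr B h x = x + B w x • u := by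
  rw [gtr, LinearEquiv.transvection.apply]

/-- A subgroup containing the isometries and a non-similarity contains all transvections. -/
theorem all_transvections_of_not_sim (hB : B.Nondegenerate) (hA : B.IsAlt)
    (K : Subgroup (V ≃ₗ[F] V)) (hK : Isom B ≤ K) {g : V ≃ₗ[F] V} (hgK : g ∈ K)
    (hg : g ∉ Sim B) (φ : Module.Dual F V) (z : V) (h : φ z = 0) :
    LinearEquiv.transvection h ∈ K := by
  have e1 : ∀ x, g (g⁻¹ x) = x := fun x => by
    rw [← LinearEquiv.mul_apply, mul_inv_cancel]; rfl
  have e2 : ∀ x, g⁻¹ (g x) = x := fun x => by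
    rw [← LinearEquiv.mul_apply, inv_mul_cancel]; rfl
  -- the transported form
  set B' : LinearMap.BilinForm F V := B.comp (g⁻¹ : V ≃ₗ[F] V).toLinearMap
    (g⁻¹ : V ≃ₗ[F] V).toLinearMap with hB'
  have hB'a : ∀ x y, B' x y = B (g⁻¹ x) (g⁻¹ y) := fun x y => rfl
  set A : V →ₗ[F] V := LinearMap.BilinForm.symmCompOfNondegenerate B' B hB with hAdef
  have hAa : ∀ v w, B (A w) v = B' w v := fun v w =>
    LinearMap.BilinForm.symmCompOfNondegenerate_left_apply B' hB v w
  obtain ⟨u, hu⟩ : ∃ u, LinearIndependent F ![u, A u] := by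
    by_contra hcon
    push Not at hcon
    obtain ⟨a, ha⟩ := LinearMap.exists_eq_smul_id_of_forall_notLinearIndependent hcon
    have h1 : ∀ x y, B (g⁻¹ x) (g⁻¹ y) = a * B x y := by
      intro x y
      rw [← hB'a, ← hAa, ha]
      simp
    have ha0 : a ≠ 0 := by
      rintro rfl
      apply hg
      have hV : ∀ x : V, x = 0 := by
        intro x
        apply hB.1
        intro y
        have := h1 (g x) (g y)
        rw [e2, e2, zero_mul] at this
        exact this
      exact ⟨1, fun u v => by rw [hV u]; simp⟩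
    apply hg
    have : g⁻¹ ∈ Sim B := ⟨Units.mk0 a ha0, h1⟩
    simpa using inv_mem this
  have hu0 : u ≠ 0 := by
    have := hu.ne_zero 0
    simpa using this
  set w := A u with hw
  have hwu : ∀ a : F, a • u ≠ w := (LinearIndependent.pair_iff' hu0).mp hu
  have hwu0 : B w u = 0 := by
    rw [hw, hAa, hB'a]; exact hA _
  -- Step 1
  have s1 : ∀ c : F, ∀ hc : B (c • w) u = 0, gtr B hc ∈ K := by
    intro c hc
    have : gtr B hc = g * transv hA (g⁻¹ u) (-c) * g⁻¹ := by
      ext x
      rw [LinearEquiv.mul_apply, LinearEquiv.mul_apply, transv_apply, gtr_apply, map_add g,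
        map_smul g, e1, e1, map_smul, LinearMap.smul_apply, hw, hAa, hB'a,
        swap hA (g⁻¹ u) (g⁻¹ x)]
      simp
    rw [this]
    exact mul_mem (mul_mem hgK (hK (transv_mem hA _ _))) (inv_mem hgK)
  -- Step 2
  have hnot : ∀ y : V, (∀ a : F, a • u ≠ y) → y ∉ Submodule.span F {u} := by
    intro y hy hmem
    obtain ⟨a, ha⟩ := Submodule.mem_span_singleton.mp hmem
    exact hy a ha
  have s2 : ∀ w' : V, ∀ hc : B w' u = 0, gtr B hc ∈ K := by
    intro w' hc
    by_cases hw' : w' ∈ Submodule.span F {u}
    · obtain ⟨a, rfl⟩ := Submodule.mem_span_singleton.mp hw'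
      have : gtr B hc = transv hA u (-a) := by
        ext x
        rw [gtr_apply, transv_apply, map_smul, LinearMap.smul_apply, swap hA u x]
        simp
      rw [this]
      exact hK (transv_mem hA _ _)
    · obtain ⟨k, hk, hku, hkw⟩ := exists_fix_map hB hA (Submodule.span F {u}) hw' (hnot w hwu) (by
        intro z hz
        obtain ⟨a, rfl⟩ := Submodule.mem_span_singleton.mp hz
        rw [map_smul, LinearMap.smul_apply, LinearMap.smul_apply, swap hA u w,
          swap hA u w', hwu0, hc])
      have hku' : k u = u := hku u (Submodule.mem_span_singleton_self u)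
      have k1 : ∀ x, k (k⁻¹ x) = x := fun x => by
        rw [← LinearEquiv.mul_apply, mul_inv_cancel]; rfl
      have hc1 : B ((1 : F) • w) u = 0 := by rw [one_smul]; exact hwu0
      have : gtr B hc = k * gtr B hc1 * k⁻¹ := by
        ext x
        rw [LinearEquiv.mul_apply, LinearEquiv.mul_apply, gtr_apply, gtr_apply, map_add, map_smul,
          k1, hku', one_smul]
        congr 2
        have := hk w (k⁻¹ x)
        rw [k1, hkw] at this
        exact this
      rw [this]
      exact mul_mem (mul_mem (hK hk) (s1 1 hc1)) (inv_mem (hK hk))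
  -- Step 3
  have s3 : ∀ (ψ : Module.Dual F V) (hψ : ψ u = 0), LinearEquiv.transvection hψ ∈ K := by
    intro ψ hψ
    obtain ⟨w', hw'⟩ : ∃ w', B w' = ψ := ⟨(B.toDual hB).symm ψ, by
      have := (B.toDual hB).apply_symm_apply ψ
      ext x
      rw [← LinearMap.BilinForm.toDual_def (b := hB), this]⟩
    subst hw'
    exact s2 w' hψ
  by_cases hz : z = 0
  · subst hz
    have : LinearEquiv.transvection h = 1 := by
      ext x
      rw [LinearEquiv.transvection.apply]; simp
    rw [this]; exact one_mem _
  obtain ⟨k, hk, -, hkz⟩ := exists_fix_map hB hA ⊥ (x := z) (y := u) (by simpa using hz)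
    (by simpa using hu0) (by
      intro y hy
      rw [(Submodule.mem_bot F).mp hy]; simp)
  subst hkz
  rw [GLin.conj_transvection k h]
  exact mul_mem (mul_mem (hK hk) (s3 _ _)) (inv_mem (hK hk))

/-- There is a transvection that is not a similarity. -/
theorem exists_transvection_not_sim (hB : B.Nondegenerate) (hA : B.IsAlt)
    (hd : 3 ≤ Module.finrank F V) : ∃ (φ : Module.Dual F V) (z : V) (h : φ z = 0),
      LinearEquiv.transvection h ∉ Sim B := by
  have : Nontrivial V := Module.nontrivial_of_finrank_pos (R := F) (by omega)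
  obtain ⟨u, hu⟩ := exists_ne (0 : V)
  obtain ⟨w, hw, hwu⟩ : ∃ w ∈ B.orthogonal (Submodule.span F {u}), w ∉ Submodule.span F {u} := by
    apply SetLike.not_le_iff_exists.mp
    intro hle
    have h1 := Submodule.finrank_mono hle
    have h2 := LinearMap.BilinForm.finrank_orthogonal hB (Submodule.span F {u})
    rw [finrank_span_singleton hu] at h1 h2
    omega
  have huw : B u w = 0 := by
    rw [LinearMap.BilinForm.mem_orthogonal_iff] at hw
    exact hw u (Submodule.mem_span_singleton_self u)
  have hwu0 : B w u = 0 := by rw [swap hA, huw, neg_zero]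
  refine ⟨B w, u, hwu0, ?_⟩
  rintro ⟨c, hc⟩
  have hc' : ∀ x y, B x y + B w y * B x u + B w x * B u y = (c : F) * B x y := by
    intro x y
    have := hc x y
    simp only [LinearEquiv.transvection.apply, map_add, map_smul, LinearMap.add_apply,
      LinearMap.smul_apply, smul_eq_mul, hA u, mul_zero, add_zero] at this
    linear_combination this
  have hc1 : (c : F) = 1 := by
    obtain ⟨y, hy⟩ : ∃ y, B u y ≠ 0 := by
      by_contra hcon
      push Not at hcon
      exact hu (hB.1 u hcon)
    have := hc' u y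
    rw [hA u, hwu0] at this
    have h3 : ((c : F) - 1) * B u y = 0 := by linear_combination -this
    rcases mul_eq_zero.mp h3 with h4 | h4
    · exact sub_eq_zero.mp h4
    · exact absurd h4 hy
  have h5 : ∀ y, B w y • u - B u y • w = 0 := by
    intro y
    apply hB.2
    intro x
    have := hc' x y
    rw [hc1, one_mul] at this
    rw [map_sub, map_smul, map_smul, smul_eq_mul, smul_eq_mul, swap hA x w]
    linear_combination this
  obtain ⟨y, hy⟩ : ∃ y, B u y ≠ 0 := by
    by_contra hcon
    push Not at hcon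
    exact hu (hB.1 u hcon)
  apply hwu
  rw [Submodule.mem_span_singleton]
  refine ⟨(B u y)⁻¹ * B w y, ?_⟩
  have := h5 y
  rw [sub_eq_zero] at this
  rw [mul_smul, this, smul_smul, inv_mul_cancel₀ hy, one_smul]

end Cfsg.Agent.H6.Alt

namespace Cfsg.Agent.H6

variable {F : Type*} [Field F] {ι : Type} [Fintype ι] [DecidableEq ι]

/-- Symplectic similarities of determinant one form a maximal subgroup of `SL`. -/
theorem sim_SL_maximal {B : LinearMap.BilinForm F (ι → F)} (hB : B.Nondegenerate) (hA : B.IsAlt)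
    (hd : 3 ≤ Fintype.card ι) :
    Alt.Sim B ⊓ GLin.SLin F (ι → F) < GLin.SLin F (ι → F) ∧
    ∀ M : Subgroup ((ι → F) ≃ₗ[F] (ι → F)), Alt.Sim B ⊓ GLin.SLin F (ι → F) ≤ M →
      M ≤ GLin.SLin F (ι → F) →
      M = Alt.Sim B ⊓ GLin.SLin F (ι → F) ∨ M = GLin.SLin F (ι → F) := by
  have hnt : Nontrivial ι := Fintype.one_lt_card_iff_nontrivial.mp (by omega)
  constructor
  · refine lt_of_le_of_ne inf_le_right fun heq => ?_
    obtain ⟨φ, z, h, hn⟩ := Alt.exists_transvection_not_sim hB hA (by
      rw [Module.finrank_fintype_fun_eq_card]; exact hd)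
    have : LinearEquiv.transvection h ∈ Alt.Sim B ⊓ GLin.SLin F (ι → F) := by
      rw [heq]; exact GLin.transvection_mem_SLin h
    exact hn this.1
  · intro M hSM hMS
    by_cases hM : M ≤ Alt.Sim B
    · left
      exact le_antisymm (le_inf hM hMS) hSM
    · right
      obtain ⟨g, hgM, hgS⟩ := SetLike.not_le_iff_exists.mp hM
      exact le_antisymm hMS (SLin_le_of_transvections M
        (Alt.all_transvections_of_not_sim hB hA M
          (le_trans (le_inf Alt.Isom_le_Sim (Alt.Isom_le_SLin hB hA)) hSM) hgM hgS))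

end Cfsg.Agent.H6
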