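import Mathlib

/-! Every endomorphism of a finite-dimensional space is self-adjoint for a nondegenerate form;
every square matrix is similar to its transpose. -/

set_option autoImplicit false

namespace Cfsg.Agent.H6

open Polynomial

theorem exists_mul_eq_pow_pred {F : Type*} [Field F] (p : F[X]) (hp : Irreducible p) (e : ℕ)
    (g : F[X]) (hg : ¬ p ^ e ∣ g) : ∃ b c, g * b = p ^ (e - 1) + p ^ e * c := by
  classical
  have hd : EuclideanDomain.gcd g (p ^ e) ∣ p ^ e := EuclideanDomain.gcd_dvd_right _ _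
  obtain ⟨i, hi, hass⟩ := (dvd_prime_pow hp.prime e).mp hd
  have hne : i ≠ e := by
    rintro rfl
    exact hg (hass.symm.dvd.trans (EuclideanDomain.gcd_dvd_left _ _))
  obtain ⟨u, hu⟩ := hass
  have hb := EuclideanDomain.gcd_eq_gcd_ab g (p ^ e)
  refine ⟨EuclideanDomain.gcdA g (p ^ e) * u * p ^ (e - 1 - i),
    - (EuclideanDomain.gcdB g (p ^ e) * u * p ^ (e - 1 - i)), ?_⟩
  have h1 : p ^ (e - 1) = p ^ i * p ^ (e - 1 - i) := by
    rw [← pow_add]; congr 1; omega
  rw [h1, ← hu, hb]
  ring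

theorem exists_frobenius {F : Type*} [Field F] (p : F[X]) (hp : Irreducible p) (e : ℕ) :
    ∃ lam : (F[X] ⧸ Ideal.span {p ^ e}) →ₗ[F] F,
      ∀ a : F[X] ⧸ Ideal.span {p ^ e}, a ≠ 0 → ∃ b, lam (a * b) ≠ 0 := by
  by_cases hs : (Ideal.Quotient.mk (Ideal.span {p ^ e}) (p ^ (e - 1))) = 0
  · refine ⟨0, fun a ha => ?_⟩
    exfalso
    rw [Ideal.Quotient.eq_zero_iff_mem, Ideal.mem_span_singleton,
      pow_dvd_pow_iff hp.ne_zero hp.not_isUnit] at hs
    have he : e = 0 := by omega
    subst he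
    obtain ⟨g, rfl⟩ := Ideal.Quotient.mk_surjective a
    apply ha
    rw [Ideal.Quotient.eq_zero_iff_mem, Ideal.mem_span_singleton, pow_zero]
    exact one_dvd _
  · have h1 := (Module.forall_dual_apply_eq_zero_iff F
      (Ideal.Quotient.mk (Ideal.span {p ^ e}) (p ^ (e - 1)))).not.mpr hs
    push Not at h1
    obtain ⟨lam, hlam⟩ := h1
    refine ⟨lam, fun a ha => ?_⟩
    obtain ⟨g, rfl⟩ := Ideal.Quotient.mk_surjective a
    rw [Ne, Ideal.Quotient.eq_zero_iff_mem, Ideal.mem_span_singleton] at ha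
    obtain ⟨b, c, hbc⟩ := exists_mul_eq_pow_pred p hp e g ha
    refine ⟨Ideal.Quotient.mk _ b, ?_⟩
    rw [← map_mul, hbc, map_add, map_mul]
    have : Ideal.Quotient.mk (Ideal.span {p ^ e}) (p ^ e) = 0 := by
      rw [Ideal.Quotient.eq_zero_iff_mem]
      exact Ideal.mem_span_singleton_self _
    rw [this, zero_mul, add_zero]
    exact hlam

open DirectSum in
theorem exists_selfadjoint_form {F V : Type*} [Field F] [AddCommGroup V] [Module F V]
    [FiniteDimensional F V] (A : Module.End F V) :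
    ∃ B : V →ₗ[F] V →ₗ[F] F, (∀ x y, B (A x) y = B x (A y)) ∧
      (∀ x, (∀ y, B x y = 0) → x = 0) := by
  classical
  obtain ⟨ι, _, p, hp, e, ⟨φ⟩⟩ := Module.equiv_directSum_of_isTorsion
    (Module.AEval.isTorsion_of_finiteDimensional F V A)
  choose lam hlam using fun i => exists_frobenius (p i) (hp i) (e i)
  let φ' : V ≃ₗ[F] ⨁ i, F[X] ⧸ Ideal.span {p i ^ e i} :=
    (Module.AEval'.of A).trans (φ.restrictScalars F)
  let c : ∀ i, V →ₗ[F] (F[X] ⧸ Ideal.span {p i ^ e i}) := fun i =>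
    (DirectSum.component F ι (fun i => F[X] ⧸ Ideal.span {p i ^ e i}) i) ∘ₗ φ'.toLinearMap
  let B : V →ₗ[F] V →ₗ[F] F :=
    ∑ i, ((LinearMap.mul F (F[X] ⧸ Ideal.span {p i ^ e i})).compr₂ (lam i)).compl₁₂ (c i) (c i)
  have hB : ∀ x y, B x y = ∑ i, lam i (c i x * c i y) := by
    intro x y
    simp only [B, LinearMap.sum_apply, LinearMap.compl₁₂_apply, LinearMap.compr₂_apply,
      LinearMap.mul_apply']
  have hcA : ∀ i x, c i (A x) = Ideal.Quotient.mk _ X * c i x := by
    intro i x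
    have h1 : Module.AEval'.of A (A x) = (X : F[X]) • Module.AEval'.of A x :=
      (Module.AEval'.X_smul_of A x).symm
    change (φ (Module.AEval'.of A (A x))) i = Ideal.Quotient.mk _ X * (φ (Module.AEval'.of A x)) i
    rw [h1, map_smul, DirectSum.smul_apply]
    obtain ⟨g, hg⟩ := Ideal.Quotient.mk_surjective ((φ (Module.AEval'.of A x)) i)
    rw [← hg]
    rfl
  refine ⟨B, ?_, ?_⟩
  · intro x y
    rw [hB, hB]
    apply Finset.sum_congr rfl
    intro i _
    rw [hcA, hcA]
    congr 1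
    ring
  · intro x hx
    by_contra hne
    have h1 : φ' x ≠ 0 := by
      intro h
      exact hne (φ'.map_eq_zero_iff.mp h)
    obtain ⟨i, hi⟩ : ∃ i, c i x ≠ 0 := by
      by_contra hall
      push Not at hall
      apply h1
      ext i
      exact hall i
    obtain ⟨b, hb⟩ := hlam i _ hi
    apply hb
    have h2 := hx (φ'.symm (DirectSum.lof F ι (fun i => F[X] ⧸ Ideal.span {p i ^ e i}) i b))
    rw [hB, Finset.sum_eq_single i] at h2
    · rw [← h2]
      congr 2
      simp only [c, LinearMap.comp_apply, LinearEquiv.coe_coe, LinearEquiv.apply_symm_apply,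
        DirectSum.component.lof_self]
    · intro j _ hj
      have : c j (φ'.symm (DirectSum.lof F ι (fun i => F[X] ⧸ Ideal.span {p i ^ e i}) i b)) = 0 := by
        simp only [c, LinearMap.comp_apply, LinearEquiv.coe_coe, LinearEquiv.apply_symm_apply]
        rw [DirectSum.component.of]
        rw [dif_neg (Ne.symm hj)]
      rw [this, mul_zero, map_zero]
    · intro h; exact absurd (Finset.mem_univ i) h

theorem isConj_transpose {ι F : Type*} [Fintype ι] [DecidableEq ι] [Field F]
    (A : Matrix ι ι F) : IsConj A A.transpose := by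
  obtain ⟨B, hadj, hnd⟩ := exists_selfadjoint_form (Matrix.toLin' A)
  have hsep : B.SeparatingLeft := hnd
  have hdet : (LinearMap.toMatrix₂' F B).det ≠ 0 := by
    have h1 := (LinearMap.separatingLeft_toMatrix₂'_iff (R := F) (B := B)).mpr hsep
    exact Matrix.separatingLeft_iff_det_ne_zero.mp h1
  have hcomm : B.comp (Matrix.toLin' A) = B.compl₂ (Matrix.toLin' A) := by
    apply LinearMap.ext₂
    intro x y
    exact hadj x y
  have h2 := congrArg (LinearMap.toMatrix₂' F) hcomm
  rw [LinearMap.toMatrix₂'_comp, LinearMap.toMatrix₂'_compl₂, LinearMap.toMatrix'_toLin'] at h2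
  have hu : IsUnit (LinearMap.toMatrix₂' F B) := by
    rw [Matrix.isUnit_iff_isUnit_det]
    exact isUnit_iff_ne_zero.mpr hdet
  obtain ⟨u, hu⟩ := hu
  refine ⟨u, ?_⟩
  rw [SemiconjBy, hu]
  exact h2.symm

end Cfsg.Agent.H6
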