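import Mathlib
import Cfsg.Agent.Lib_helper6_SympGen
import Cfsg.Agent.Lib_helper6_Field

set_option autoImplicit false

namespace Cfsg.Agent.H6

open Matrix

variable {m : ℕ} {F : Type*} [Field F]

local notation "V" => (Fin m ⊕ Fin m → F)
local notation "M" => Matrix (Fin m ⊕ Fin m) (Fin m ⊕ Fin m) F

/-- If a matrix maps each vector into its span, it is scalar. -/
theorem exists_scalar_of_forall_mem_span (A : M)
    (h : ∀ v : V, ∃ c : F, A *ᵥ v = c • v) : ∃ a : F, ∀ v : V, A *ᵥ v = a • v := by
  obtain ⟨a, ha⟩ := LinearMap.exists_eq_smul_id_of_forall_notLinearIndependent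
    (f := Matrix.toLin' A) (fun v hv => by
      obtain ⟨c, hc⟩ := h v
      rw [LinearIndependent.pair_iff] at hv
      have := hv c (-1) (by simp [hc])
      simp at this)
  refine ⟨a, fun v => ?_⟩
  have := congrArg (fun f : V →ₗ[F] V => f v) ha
  simpa using this

theorem conj_fix_line_of_commute (A : symplecticGroup (Fin m) F)
    (h : ∀ v : V, A * sympT v 1 = sympT v 1 * A) :
    ∃ a : F, ∀ v : V, (A : M) *ᵥ v = a • v := by
  apply exists_scalar_of_forall_mem_span
  intro v
  by_cases hv : v = 0
  · exact ⟨0, by simp [hv]⟩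
  obtain ⟨x, hx⟩ := sympForm_nondeg hv
  have hx' : Cfsg.sympForm m F x v ≠ 0 := by rw [sympForm_swap]; exact neg_ne_zero.mpr hx
  have h1 : ((A : M) * Cfsg.sympTransvection m v 1) *ᵥ x =
      (Cfsg.sympTransvection m v 1 * (A : M)) *ᵥ x := by
    have := congrArg (fun B : symplecticGroup (Fin m) F => (B : M) *ᵥ x) (h v)
    exact this
  rw [← mulVec_mulVec, ← mulVec_mulVec, sympTransvection_mulVec, sympTransvection_mulVec,
    mulVec_add, mulVec_smul, one_mul, one_mul] at h1
  have h2 := add_left_cancel h1
  refine ⟨(Cfsg.sympForm m F x v)⁻¹ * Cfsg.sympForm m F ((A : M) *ᵥ x) v, ?_⟩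
  rw [mul_smul, ← h2, smul_smul, inv_mul_cancel₀ hx', one_smul]

theorem scalar_sq_eq_one (hm : 1 ≤ m) (A : symplecticGroup (Fin m) F) {a : F}
    (ha : ∀ v : V, (A : M) *ᵥ v = a • v) : a = 1 ∨ a = -1 := by
  have h := symp_preserves A (Pi.single (Sum.inr ⟨0, hm⟩) 1) (Pi.single (Sum.inl ⟨0, hm⟩) 1)
  rw [ha, ha, sympForm_smul_left, sympForm_smul_right, sympForm_single_inl] at h
  simp at h
  have : (a - 1) * (a + 1) = 0 := by linear_combination h
  rcases mul_eq_zero.mp this with h | h
  · left; linear_combination h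
  · right; linear_combination h

/-- `-1` as an element of the symplectic group. -/
def sympNegOne (m : ℕ) (F : Type*) [Field F] : symplecticGroup (Fin m) F :=
  ⟨-1, SymplecticGroup.neg_mem (one_mem _)⟩

theorem sympNegOne_mem_center : sympNegOne m F ∈ Subgroup.center (symplecticGroup (Fin m) F) := by
  rw [Subgroup.mem_center_iff]
  intro g
  apply Subtype.ext
  change (g : M) * (-1) = (-1) * (g : M)
  simp

theorem eq_one_or_negOne_of_mem_center (hm : 1 ≤ m) (A : symplecticGroup (Fin m) F)
    (hA : A ∈ Subgroup.center (symplecticGroup (Fin m) F)) : A = 1 ∨ A = sympNegOne m F := by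
  rw [Subgroup.mem_center_iff] at hA
  obtain ⟨a, ha⟩ := conj_fix_line_of_commute A (fun v => (hA _).symm)
  rcases scalar_sq_eq_one hm A ha with rfl | rfl
  · left
    apply Subtype.ext
    rw [Matrix.ext_iff_mulVec]
    intro v
    rw [ha]; simp
  · right
    apply Subtype.ext
    rw [Matrix.ext_iff_mulVec]
    intro v
    rw [ha]
    change _ = (-1 : M) *ᵥ v
    simp [neg_mulVec]

theorem card_center_symp [Fintype F] (hm : 1 ≤ m) :
    Nat.card (Subgroup.center (symplecticGroup (Fin m) F)) = Nat.gcd 2 (Fintype.card F - 1) := by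
  have hq : 1 ≤ Fintype.card F := Fintype.card_pos
  rcases Nat.even_or_odd (Fintype.card F) with he | ho
  · have h2 : (2 : F) = 0 := by
      have : ringChar F = 2 := by
        rw [FiniteField.even_card_iff_char_two]; exact Nat.even_iff.mp he
      have := CharP.cast_eq_zero F (ringChar F)
      rw [‹ringChar F = 2›] at this
      exact_mod_cast this
    have hneg : sympNegOne m F = 1 := by
      apply Subtype.ext
      change (-1 : M) = 1
      have : (-1 : F) = 1 := by linear_combination (-1 : F) * h2
      ext i j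
      by_cases hij : i = j
      · subst hij; simp [this]
      · simp [hij]
    have hbot : Subgroup.center (symplecticGroup (Fin m) F) = ⊥ := by
      rw [eq_bot_iff]
      intro A hA
      rcases eq_one_or_negOne_of_mem_center hm A hA with h | h
      · exact h
      · rw [h, hneg]; exact one_mem _
    rw [hbot, Subgroup.card_bot]
    obtain ⟨k, hk⟩ := he
    have : Nat.Coprime 2 (Fintype.card F - 1) := by
      rw [Nat.coprime_two_left]
      exact ⟨k - 1, by omega⟩
    exact (Nat.Coprime.gcd_eq_one this).symm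
  · have h2 := two_ne_zero_of_odd_card ho
    have hne : (1 : symplecticGroup (Fin m) F) ≠ sympNegOne m F := by
      intro h
      have h1 := congrArg (fun B : symplecticGroup (Fin m) F =>
        (B : M) (Sum.inl ⟨0, hm⟩) (Sum.inl ⟨0, hm⟩)) h
      change (1 : M) _ _ = (-1 : M) _ _ at h1
      simp at h1
      apply h2
      linear_combination h1
    have : Nat.card (Subgroup.center (symplecticGroup (Fin m) F)) = 2 := by
      rw [Nat.card_eq_two_iff]
      refine ⟨⟨1, one_mem _⟩, ⟨sympNegOne m F, sympNegOne_mem_center⟩, ?_, ?_⟩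
      · intro h; exact hne (congrArg Subtype.val h)
      · ext ⟨A, hA⟩
        simp only [Set.mem_insert_iff, Set.mem_singleton_iff, Set.mem_univ, iff_true,
          Subtype.mk.injEq]
        exact eq_one_or_negOne_of_mem_center hm A hA
    rw [this]
    obtain ⟨k, hk⟩ := ho
    have : 2 ∣ Fintype.card F - 1 := ⟨k, by omega⟩
    exact (Nat.gcd_eq_left this).symm

end Cfsg.Agent.H6
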