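import Cfsg.Agent.Lib_helper6_SympGen

/-! Primitivity of the symplectic group on projective points. -/

set_option autoImplicit false

namespace Cfsg.Agent.H6

open Matrix
open scoped LinearAlgebra.Projectivization Pointwise

variable {F : Type*} [Field F] {m : ℕ}

theorem symp_mulVec_ne_zero (A : symplecticGroup (Fin m) F) {v : Fin m ⊕ Fin m → F} (hv : v ≠ 0) :
    (A : Matrix (Fin m ⊕ Fin m) (Fin m ⊕ Fin m) F) *ᵥ v ≠ 0 := by
  intro h
  apply hv
  apply symp_mulVec_injective A
  rw [h, mulVec_zero]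

/-- `G` acts on the projective space through (at least) all symplectic matrices. -/
def CoversSp (G : Type*) [Group G] [MulAction G (ℙ F (Fin m ⊕ Fin m → F))] : Prop :=
  ∀ A : symplecticGroup (Fin m) F, ∃ g : G, ∀ (v : Fin m ⊕ Fin m → F) (hv : v ≠ 0),
    g • Projectivization.mk F v hv =
      Projectivization.mk F ((A : Matrix (Fin m ⊕ Fin m) (Fin m ⊕ Fin m) F) *ᵥ v)
        (symp_mulVec_ne_zero A hv)

section
variable {G : Type*} [Group G] [MulAction G (ℙ F (Fin m ⊕ Fin m → F))]

theorem block_step (hG : CoversSp (F := F) (m := m) G) {B : Set (ℙ F (Fin m ⊕ Fin m → F))}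
    (hB : MulAction.IsBlock G B) {x y z : Fin m ⊕ Fin m → F} (hx : x ≠ 0) (hy : y ≠ 0) (hz : z ≠ 0)
    (hxB : Projectivization.mk F x hx ∈ B) (hyB : Projectivization.mk F y hy ∈ B)
    (A : symplecticGroup (Fin m) F) (a b : F)
    (hAx : (A : Matrix (Fin m ⊕ Fin m) (Fin m ⊕ Fin m) F) *ᵥ x = a • x)
    (hAy : (A : Matrix (Fin m ⊕ Fin m) (Fin m ⊕ Fin m) F) *ᵥ y = b • z) :
    Projectivization.mk F z hz ∈ B := by
  obtain ⟨g, hg⟩ := hG A
  have h1 : g • Projectivization.mk F x hx = Projectivization.mk F x hx := by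
    rw [hg, Projectivization.mk_eq_mk_iff']
    exact ⟨a, hAx.symm⟩
  have h2 : g • Projectivization.mk F y hy = Projectivization.mk F z hz := by
    rw [hg, Projectivization.mk_eq_mk_iff']
    exact ⟨b, hAy.symm⟩
  have h3 : g • B = B := hB.smul_eq_of_mem hxB (by rw [h1]; exact hxB)
  rw [← h3, ← h2]
  exact Set.smul_mem_smul_set hyB

theorem block_nonorth (hG : CoversSp (F := F) (m := m) G) {B : Set (ℙ F (Fin m ⊕ Fin m → F))}
    (hB : MulAction.IsBlock G B) {x y z : Fin m ⊕ Fin m → F} (hx : x ≠ 0) (hy : y ≠ 0) (hz : z ≠ 0)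
    (hxB : Projectivization.mk F x hx ∈ B) (hyB : Projectivization.mk F y hy ∈ B)
    (hxy : Cfsg.sympForm m F x y ≠ 0) (hxz : Cfsg.sympForm m F x z ≠ 0) :
    Projectivization.mk F z hz ∈ B := by
  obtain ⟨A, -, hA1, hA2⟩ := exists_TS_map_fix (u := x) (v := (Cfsg.sympForm m F x y)⁻¹ • y)
    (v' := (Cfsg.sympForm m F x z)⁻¹ • z)
    (by rw [sympForm_smul_right, inv_mul_cancel₀ hxy])
    (by rw [sympForm_smul_right, inv_mul_cancel₀ hxz])
  refine block_step hG hB hx hy hz hxB hyB A 1
    (Cfsg.sympForm m F x y * (Cfsg.sympForm m F x z)⁻¹) (by rw [hA1, one_smul]) ?_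
  rw [mulVec_smul] at hA2
  have := congrArg (fun w => Cfsg.sympForm m F x y • w) hA2
  simp only [smul_smul, mul_inv_cancel₀ hxy, one_smul] at this
  exact this

theorem block_orth (hG : CoversSp (F := F) (m := m) G) {B : Set (ℙ F (Fin m ⊕ Fin m → F))}
    (hB : MulAction.IsBlock G B) {x y z : Fin m ⊕ Fin m → F} (hx : x ≠ 0) (hy : y ≠ 0) (hz : z ≠ 0)
    (hxB : Projectivization.mk F x hx ∈ B) (hyB : Projectivization.mk F y hy ∈ B)
    (hxy : Cfsg.sympForm m F x y = 0) (hxz : Cfsg.sympForm m F x z = 0)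
    (hy' : y ∉ Submodule.span F {x}) (hz' : z ∉ Submodule.span F {x}) :
    Projectivization.mk F z hz ∈ B := by
  obtain ⟨A, -, hA1, hA2⟩ := exists_TS_fix_map (Submodule.span F {x}) hz' hy' (by
    intro w hw
    obtain ⟨c, rfl⟩ := Submodule.mem_span_singleton.mp hw
    rw [sympForm_smul_left, sympForm_smul_left, hxy, hxz])
  exact block_step hG hB hx hy hz hxB hyB A 1 1
    (by rw [hA1 x (Submodule.mem_span_singleton_self x), one_smul]) (by rw [hA2, one_smul])

theorem block_eq_univ_of_nonorth (hG : CoversSp (F := F) (m := m) G)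
    {B : Set (ℙ F (Fin m ⊕ Fin m → F))}
    (hB : MulAction.IsBlock G B) {x y : Fin m ⊕ Fin m → F} (hx : x ≠ 0) (hy : y ≠ 0)
    (hxB : Projectivization.mk F x hx ∈ B) (hyB : Projectivization.mk F y hy ∈ B)
    (hxy : Cfsg.sympForm m F x y ≠ 0) : B = Set.univ := by
  rw [Set.eq_univ_iff_forall]
  intro p
  induction p using Projectivization.ind with
  | h w hw =>
    obtain ⟨z, hz1, hz2⟩ := exists_common_nonorth hx hw
    have hz : z ≠ 0 := by
      rintro rfl; exact hz1 (sympForm_zero_right _)
    have hzB := block_nonorth hG hB hx hy hz hxB hyB hxy hz1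
    refine block_nonorth hG hB hz hx hw hzB hxB ?_ ?_
    · rw [sympForm_swap]; exact neg_ne_zero.mpr hz1
    · rw [sympForm_swap]; exact neg_ne_zero.mpr hz2

theorem isPreprimitive_of_coversSp (hG : CoversSp (F := F) (m := m) G) :
    MulAction.IsPreprimitive G (ℙ F (Fin m ⊕ Fin m → F)) := by
  have htrans : MulAction.IsPretransitive G (ℙ F (Fin m ⊕ Fin m → F)) := by
    constructor
    intro p q
    induction p using Projectivization.ind with
    | h v hv =>
      induction q using Projectivization.ind with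
      | h w hw =>
        obtain ⟨A, -, hA⟩ := exists_TS_map hv hw
        obtain ⟨g, hg⟩ := hG A
        refine ⟨g, ?_⟩
        rw [hg]
        simp only [hA]
  refine ⟨?_⟩
  intro B hB
  by_cases hsub : B.Subsingleton
  · exact Or.inl hsub
  right
  rw [Set.not_subsingleton_iff] at hsub
  obtain ⟨p, hp, q, hq, hpq⟩ := hsub
  induction p using Projectivization.ind with
  | h x hx =>
    induction q using Projectivization.ind with
    | h y hy =>
      by_cases hxy : Cfsg.sympForm m F x y = 0
      · have hy' : y ∉ Submodule.span F {x} := by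
          intro h
          obtain ⟨c, hc⟩ := Submodule.mem_span_singleton.mp h
          apply hpq
          symm
          rw [Projectivization.mk_eq_mk_iff']
          exact ⟨c, hc⟩
        obtain ⟨z, hz1, hz2⟩ := exists_orth_nonorth (Submodule.span F {x}) hy'
        have hz : z ≠ 0 := by
          rintro rfl; exact hz2 (sympForm_zero_right _)
        have hxz : Cfsg.sympForm m F x z = 0 := hz1 x (Submodule.mem_span_singleton_self x)
        have hz' : z ∉ Submodule.span F {x} := by
          intro h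
          obtain ⟨c, rfl⟩ := Submodule.mem_span_singleton.mp h
          apply hz2
          rw [sympForm_smul_right, sympForm_swap, hxy]; simp
        have hzB := block_orth hG hB hx hy hz hp hq hxy hxz hy' hz'
        exact block_eq_univ_of_nonorth hG hB hy hz hq hzB hz2
      · exact block_eq_univ_of_nonorth hG hB hx hy hp hq hxy

end

end Cfsg.Agent.H6
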