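import Cfsg.Agent.Lib_helper6_SympPrim
import Cfsg.Agent.Lib_helper6_SympCenter
import Cfsg.Agent.Lib_helper6_SympPerfect

/-! Simplicity of `PSp` from perfectness, through Iwasawa's criterion. -/

set_option autoImplicit false

namespace Cfsg.Agent.H6

open Matrix
open scoped LinearAlgebra.Projectivization Pointwise

variable {F : Type*} [Field F] {m : ℕ}

local notation "V" => (Fin m ⊕ Fin m → F)
local notation "M" => Matrix (Fin m ⊕ Fin m) (Fin m ⊕ Fin m) F
local notation "Sp" => symplecticGroup (Fin m) F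

theorem symp_smul_mk (A : Sp) (v : V) (hv : v ≠ 0) :
    A • Projectivization.mk F v hv =
      Projectivization.mk F ((A : M) *ᵥ v) (symp_mulVec_ne_zero A hv) := rfl

theorem coversSp_symp : CoversSp (F := F) (m := m) Sp :=
  fun A => ⟨A, fun v hv => symp_smul_mk A v hv⟩

theorem sympT_zero_scalar (v : V) : sympT v (0 : F) = 1 := by
  apply symp_ext
  intro x
  rw [sympT_apply]
  change _ = (1 : M) *ᵥ x
  simp

/-- The root subgroup of a vector. -/
def rootSub (v : V) : Subgroup Sp where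
  carrier := {A | ∃ c, A = sympT v c}
  mul_mem' := by
    rintro _ _ ⟨c, rfl⟩ ⟨d, rfl⟩
    exact ⟨c + d, sympT_mul v c d⟩
  one_mem' := ⟨0, (sympT_zero_scalar v).symm⟩
  inv_mem' := by
    rintro _ ⟨c, rfl⟩
    exact ⟨-c, sympT_inv v c⟩

theorem mem_rootSub {v : V} {A : Sp} : A ∈ rootSub v ↔ ∃ c, A = sympT v c := Iff.rfl

theorem rootSub_smul {a : F} (ha : a ≠ 0) (v : V) : rootSub (a • v) = rootSub v := by
  ext A
  rw [mem_rootSub, mem_rootSub]
  constructor
  · rintro ⟨c, rfl⟩
    exact ⟨a ^ 2 * c, sympT_smul a v c⟩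
  · rintro ⟨c, rfl⟩
    refine ⟨(a ^ 2)⁻¹ * c, ?_⟩
    rw [sympT_smul, ← mul_assoc, mul_inv_cancel₀ (pow_ne_zero 2 ha), one_mul]

theorem rootSub_conj (A : Sp) (v : V) :
    rootSub ((A : M) *ᵥ v) = MulAut.conj A • rootSub v := by
  ext B
  rw [Subgroup.mem_pointwise_smul_iff_inv_smul_mem, mem_rootSub, mem_rootSub]
  constructor
  · rintro ⟨c, rfl⟩
    refine ⟨c, ?_⟩
    rw [← conj_sympT]
    simp [MulAut.smul_def, mul_assoc]
  · rintro ⟨c, hc⟩
    refine ⟨c, ?_⟩
    rw [← conj_sympT, ← hc]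
    simp [MulAut.smul_def, mul_assoc]

theorem rootSub_rep (v : V) (hv : v ≠ 0) : rootSub (Projectivization.mk F v hv).rep = rootSub v := by
  obtain ⟨a, ha⟩ := Projectivization.exists_smul_eq_mk_rep F v hv
  rw [← ha]
  exact rootSub_smul a.ne_zero v

/-- The Iwasawa structure of the symplectic group on points. -/
noncomputable def sympIwasawa : MulAction.IwasawaStructure Sp (ℙ F V) where
  T p := rootSub p.rep
  is_comm p := ⟨⟨by
    rintro ⟨_, c, rfl⟩ ⟨_, d, rfl⟩
    apply Subtype.ext
    change sympT _ c * sympT _ d = sympT _ d * sympT _ c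
    rw [sympT_mul, sympT_mul, add_comm]⟩⟩
  is_conj g p := by
    induction p using Projectivization.ind with
    | h v hv =>
      rw [symp_smul_mk, rootSub_rep, rootSub_rep, rootSub_conj]
  is_generator := by
    rw [eq_top_iff, ← TS_eq_top, TS, Subgroup.closure_le]
    rintro A ⟨w, c, hA⟩
    have hA' : A = sympT w c := Subtype.ext hA
    by_cases hw : w = 0
    · rw [hA', hw, sympT_zero_vec]; exact one_mem _
    · apply Subgroup.mem_iSup_of_mem (Projectivization.mk F w hw)
      rw [rootSub_rep]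
      exact ⟨c, hA'⟩

theorem normal_le_center_or_eq_top (hperf : commutator Sp = ⊤) (N : Subgroup Sp) [N.Normal] :
    N ≤ Subgroup.center Sp ∨ N = ⊤ := by
  have : MulAction.IsPreprimitive Sp (ℙ F V) := isPreprimitive_of_coversSp coversSp_symp
  have : MulAction.IsQuasiPreprimitive Sp (ℙ F V) := MulAction.IsPreprimitive.isQuasiPreprimitive
  by_cases h : MulAction.fixedPoints N (ℙ F V) = Set.univ
  · left
    intro A hA
    obtain ⟨a, ha⟩ := exists_scalar_of_forall_mem_span (A : M) (by
      intro v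
      by_cases hv : v = 0
      · exact ⟨0, by simp [hv]⟩
      have h1 : Projectivization.mk F v hv ∈ MulAction.fixedPoints N (ℙ F V) := by
        rw [h]; trivial
      have h2 : A • Projectivization.mk F v hv = Projectivization.mk F v hv := h1 ⟨A, hA⟩
      rw [symp_smul_mk, Projectivization.mk_eq_mk_iff'] at h2
      obtain ⟨c, hc⟩ := h2
      exact ⟨c, hc.symm⟩)
    rw [Subgroup.mem_center_iff]
    intro g
    apply symp_ext
    intro x
    rw [symp_mul_apply, symp_mul_apply, ha, ha, mulVec_smul]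
  · right
    rw [eq_top_iff, ← hperf]
    exact sympIwasawa.commutator_le N h

theorem sympT_not_mem_center (hm : 1 ≤ m) : ∃ A : Sp, A ∉ Subgroup.center Sp := by
  refine ⟨sympT (Pi.single (Sum.inl ⟨0, hm⟩) 1) 1, fun h => ?_⟩
  have key : ∀ A : Sp, (A = 1 ∨ A = sympNegOne m F) →
      ((A : M) *ᵥ (Pi.single (Sum.inr (⟨0, hm⟩ : Fin m)) (1 : F) : V)) (Sum.inl (⟨0, hm⟩ : Fin m)) = 0 := by
    rintro A (rfl | rfl)
    · change ((1 : M) *ᵥ _) _ = 0
      simp
    · change ((-1 : M) *ᵥ _) _ = 0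
      simp
  have := key _ (eq_one_or_negOne_of_mem_center hm _ h)
  rw [sympT_apply, sympForm_single_inl] at this
  simp at this

theorem isSimpleGroup_quot_center (hm : 1 ≤ m) (hperf : commutator Sp = ⊤) :
    IsSimpleGroup (Sp ⧸ Subgroup.center Sp) := by
  have : Nontrivial (Sp ⧸ Subgroup.center Sp) := by
    obtain ⟨A, hA⟩ := sympT_not_mem_center (F := F) hm
    refine ⟨⟨(A : Sp ⧸ Subgroup.center Sp), 1, fun h => hA ?_⟩⟩
    exact (QuotientGroup.eq_one_iff A).mp h
  refine ⟨fun H hH => ?_⟩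
  have : (H.comap (QuotientGroup.mk' (Subgroup.center Sp))).Normal := hH.comap _
  rcases normal_le_center_or_eq_top hperf (H.comap (QuotientGroup.mk' (Subgroup.center Sp)))
    with h | h
  · left
    rw [eq_bot_iff]
    intro x hx
    obtain ⟨a, rfl⟩ := QuotientGroup.mk'_surjective _ x
    rw [Subgroup.mem_bot]
    exact (QuotientGroup.eq_one_iff a).mpr (h hx)
  · right
    rw [eq_top_iff]
    intro x _
    obtain ⟨a, rfl⟩ := QuotientGroup.mk'_surjective _ x
    have : a ∈ H.comap (QuotientGroup.mk' (Subgroup.center Sp)) := by rw [h]; trivial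
    exact this

end Cfsg.Agent.H6
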