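import Cfsg.Agent.Lib_helper6_AltTransv
import Cfsg.Prelude.Def_SporadicB

/-! Classes of 3-transpositions consisting of transvections over the field with two elements. -/

set_option autoImplicit false

namespace Cfsg.Agent.H6

theorem isThreeTranspositionClass_of_equiv {G G' : Type*} [Group G] [Group G'] (e : G ≃* G')
    (D : Set G) (D' : Set G') (hD : ∀ g, g ∈ D ↔ e g ∈ D')
    (h : Cfsg.IsThreeTranspositionClass D') : Cfsg.IsThreeTranspositionClass D := by
  obtain ⟨⟨h1, h2⟩, ⟨d', hd', hconj⟩, hgen⟩ := h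
  refine ⟨⟨fun d hd => ?_, fun d hd f hf => ?_⟩, ⟨e.symm d', ?_, ?_⟩, ?_⟩
  · rw [← h1 (e d) ((hD d).mp hd)]
    exact (MulEquiv.orderOf_eq e d).symm
  · rcases h2 (e d) ((hD d).mp hd) (e f) ((hD f).mp hf) with h | h
    · left
      apply e.injective
      rw [map_pow, map_mul, h, map_one]
    · right
      apply e.injective
      rw [map_pow, map_mul, h, map_one]
  · rw [hD, MulEquiv.apply_symm_apply]; exact hd'
  · ext g
    rw [hD, hconj]
    change IsConj d' (e g) ↔ IsConj (e.symm d') g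
    rw [isConj_iff, isConj_iff]
    constructor
    · rintro ⟨c, hc⟩
      refine ⟨e.symm c, ?_⟩
      apply e.injective
      simp [hc]
    · rintro ⟨c, hc⟩
      refine ⟨e c, ?_⟩
      rw [← hc]
      simp
  · have : D = e ⁻¹' D' := by
      ext g
      exact hD g
    rw [eq_top_iff]
    intro g _
    have hg : e g ∈ Subgroup.closure D' := by rw [hgen]; trivial
    have key : ∀ x ∈ Subgroup.closure D', e.symm x ∈ Subgroup.closure D := by
      intro x hx
      induction hx using Subgroup.closure_induction with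
      | mem x hx => exact Subgroup.subset_closure ((hD _).mpr (by simpa using hx))
      | one => simp
      | mul x y _ _ hx hy => rw [map_mul]; exact mul_mem hx hy
      | inv x _ hx => rw [map_inv]; exact inv_mem hx
    simpa using key _ hg

namespace Alt

variable {F V : Type*} [Field F] [AddCommGroup V] [Module F V] {B : LinearMap.BilinForm F V}

theorem threeTransp [CharP F 2] (hF : ∀ c : F, c = 0 ∨ c = 1) (hB : B.Nondegenerate)
    (hA : B.IsAlt) (G : Subgroup (V ≃ₗ[F] V)) (hG : G ≤ Isom B) (X : Set V) (hX0 : X.Nonempty)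
    (hX : ∀ v, v ≠ 0 → (transv hA v 1 ∈ G ↔ v ∈ X)) (hX' : ∀ v ∈ X, v ≠ 0)
    (htr : ∀ u ∈ X, ∀ v ∈ X, ∃ g ∈ G, g u = v)
    (hgen : G ≤ Subgroup.closure {g | ∃ v ∈ X, g = transv hA v 1}) :
    Cfsg.IsThreeTranspositionClass {g : G |
      Module.finrank F (LinearMap.range ((g : V ≃ₗ[F] V).toLinearMap - LinearMap.id)) = 1} := by
  have hD : ∀ g : G, Module.finrank F
      (LinearMap.range ((g : V ≃ₗ[F] V).toLinearMap - LinearMap.id)) = 1 ↔
      ∃ v ∈ X, (g : V ≃ₗ[F] V) = transv hA v 1 := by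
    intro g
    constructor
    · intro h
      obtain ⟨v, c, hv, hc, hg⟩ := eq_transv_of_rank_one hB hA (hG g.2) h
      have hc1 : c = 1 := (hF c).resolve_left hc
      subst hc1
      exact ⟨v, (hX v hv).mp (hg ▸ g.2), hg⟩
    · rintro ⟨v, hv, hg⟩
      rw [hg]
      exact rank_transv hB hA (hX' v hv) one_ne_zero
  have hsq : ∀ v, transv hA v 1 * transv hA v 1 = 1 := by
    intro v
    rw [transv_mul_transv, CharTwo.add_self_eq_zero, transv_zero]
  have hinv : ∀ v, (transv hA v 1)⁻¹ = transv hA v 1 := fun v => inv_eq_of_mul_eq_one_left (hsq v)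
  refine ⟨⟨fun d hd => ?_, fun d hd f hf => ?_⟩, ?_, ?_⟩
  · obtain ⟨v, hv, hg⟩ := (hD d).mp hd
    apply orderOf_eq_prime
    · apply Subtype.ext
      rw [pow_two]
      change (d : V ≃ₗ[F] V) * d = 1
      rw [hg, hsq]
    · intro h
      apply transv_ne_one hB hA (hX' v hv) one_ne_zero
      rw [← hg, h]; rfl
  · obtain ⟨u, hu, hd'⟩ := (hD d).mp hd
    obtain ⟨v, hv, hf'⟩ := (hD f).mp hf
    have c1 := conj_transv hA (transv_mem hA u 1) v 1
    have c2 := conj_transv hA (transv_mem hA v 1) u 1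
    rw [hinv, transv_apply] at c1 c2
    rcases hF (B v u) with h | h
    · left
      apply Subtype.ext
      change ((d : V ≃ₗ[F] V) * f) ^ 2 = 1
      rw [hd', hf', pow_two]
      rw [h, mul_zero, zero_smul, add_zero] at c1
      calc transv hA u 1 * transv hA v 1 * (transv hA u 1 * transv hA v 1)
          = (transv hA u 1 * transv hA v 1 * transv hA u 1) * transv hA v 1 := by group
        _ = 1 := by rw [c1, hsq]
    · right
      apply Subtype.ext
      change ((d : V ≃ₗ[F] V) * f) ^ 3 = 1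
      rw [hd', hf']
      have h' : B u v = 1 := by
        rw [swap hA, h]
        exact CharTwo.neg_eq _
      rw [h, mul_one, one_smul] at c1
      rw [h', mul_one, one_smul, add_comm] at c2
      calc (transv hA u 1 * transv hA v 1) ^ 3
          = (transv hA u 1 * transv hA v 1 * transv hA u 1) *
            (transv hA v 1 * transv hA u 1 * transv hA v 1) := by
              rw [pow_succ, pow_two]; simp only [mul_assoc]
        _ = 1 := by rw [c1, c2, hsq]
  · obtain ⟨v0, hv0⟩ := hX0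
    refine ⟨⟨transv hA v0 1, (hX v0 (hX' v0 hv0)).mpr hv0⟩, (hD _).mpr ⟨v0, hv0, rfl⟩, ?_⟩
    ext g
    change _ ↔ IsConj _ g
    rw [isConj_iff, Set.mem_ofPred_eq, hD]
    constructor
    · rintro ⟨v, hv, hg⟩
      obtain ⟨k, hk, hkv⟩ := htr v0 hv0 v hv
      refine ⟨⟨k, hk⟩, ?_⟩
      apply Subtype.ext
      change k * transv hA v0 1 * k⁻¹ = g
      rw [conj_transv hA (hG hk), hkv, hg]
    · rintro ⟨k, hk⟩
      have h1 : (k : V ≃ₗ[F] V) * transv hA v0 1 * (k : V ≃ₗ[F] V)⁻¹ = g :=
        congrArg Subtype.val hk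
      rw [conj_transv hA (hG k.2)] at h1
      have h0 : (k : V ≃ₗ[F] V) v0 ≠ 0 := by
        intro h
        exact hX' v0 hv0 ((LinearEquiv.map_eq_zero_iff _).mp h)
      exact ⟨_, (hX _ h0).mp (h1 ▸ g.2), h1.symm⟩
  · rw [eq_top_iff]
    intro g _
    have key : ∀ x ∈ Subgroup.closure {g | ∃ v ∈ X, g = transv hA v 1},
        ∃ hx : x ∈ G, (⟨x, hx⟩ : G) ∈ Subgroup.closure {g : G | Module.finrank F
          (LinearMap.range ((g : V ≃ₗ[F] V).toLinearMap - LinearMap.id)) = 1} := by
      intro x hx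
      induction hx using Subgroup.closure_induction with
      | mem x hx =>
        obtain ⟨v, hv, rfl⟩ := hx
        exact ⟨(hX v (hX' v hv)).mpr hv, Subgroup.subset_closure ((hD _).mpr ⟨v, hv, rfl⟩)⟩
      | one => exact ⟨one_mem _, one_mem _⟩
      | mul x y _ _ hx hy =>
        obtain ⟨hx1, hx2⟩ := hx
        obtain ⟨hy1, hy2⟩ := hy
        exact ⟨mul_mem hx1 hy1, mul_mem hx2 hy2⟩
      | inv x _ hx =>
        obtain ⟨hx1, hx2⟩ := hx
        exact ⟨inv_mem hx1, inv_mem hx2⟩
    obtain ⟨_, h⟩ := key g.1 (hgen g.2)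
    exact h

end Alt

end Cfsg.Agent.H6
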