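import Cfsg.Agent.Lib_helper6_ThreeTransp
import Cfsg.Agent.Lib_helper6_OSpMax
import Cfsg.Agent.Lib_helper6_QuadRefl
import Cfsg.Agent.Lib_helper6_QuadStd

/-! Orthogonal transvections over the field with two elements form a class of 3-transpositions. -/

set_option autoImplicit false

namespace Cfsg.Agent.H6.Quad

variable {F V : Type*} [Field F] [AddCommGroup V] [Module F V] {Q : QuadraticForm F V}

theorem threeTransp [CharP F 2] [Finite F] [FiniteDimensional F V] (hF : ∀ c : F, c = 0 ∨ c = 1)
    (hQ : (pol Q).Nondegenerate) (hd : 5 ≤ Module.finrank F V) :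
    Cfsg.IsThreeTranspositionClass {g : IsomOf (F := F) (bet Q) |
      Module.finrank F (LinearMap.range ((g : V ≃ₗ[F] V).toLinearMap - LinearMap.id)) = 1} := by
  apply Alt.threeTransp hF hQ (pol_isAlt Q) (IsomOf (F := F) (bet Q)) IsomOf_le_Isom {v | Q v = 1}
  · exact universal hQ (by omega) 1
  · intro v hv
    rw [mem_IsomOf_iff]
    constructor
    · intro h
      obtain ⟨x, hx⟩ : ∃ x, pol Q x v ≠ 0 := by
        by_contra hcon
        push Not at hcon
        exact hv (hQ.2 v hcon)
      have := h x
      rw [Q_transv, (hF _).resolve_left hx] at this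
      have h1 : 1 + Q v = 0 := by simpa using this
      exact (CharTwo.add_eq_zero.mp h1).symm
    · intro h x
      have h' : Q v = 1 := h
      rw [Q_transv, h', mul_one, CharTwo.add_self_eq_zero, mul_zero, add_zero]
  · intro v hv h0
    have h' : Q v = 1 := hv
    rw [h0, map_zero] at h'
    exact zero_ne_one h'
  · intro u hu v hv
    have hu' : Q u = 1 := hu
    have hv' : Q v = 1 := hv
    have hu0 : u ≠ 0 := by
      rintro rfl
      rw [map_zero] at hu'
      exact zero_ne_one hu'
    have hv0 : v ≠ 0 := by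
      rintro rfl
      rw [map_zero] at hv'
      exact zero_ne_one hv'
    obtain ⟨k, hk, -, hkv⟩ := exists_fix_map hQ ⊥ (x := v) (y := u) (by simpa using hv0)
      (by simpa using hu0) (by
        intro y hy
        rw [(Submodule.mem_bot _).mp hy]; simp) (by rw [hu', hv'])
    exact ⟨k, hk, hkv⟩
  · rw [← ReflGrp_eq hQ (Or.inr (by omega)), ReflGrp]
    apply Subgroup.closure_mono
    rintro g ⟨u, hu, hg⟩
    have hu1 : Q u = 1 := (hF _).resolve_left hu
    refine ⟨u, hu1, ?_⟩
    ext x
    rw [hg, Alt.transv_apply, hu1, div_one, one_mul, sub_eq_add_neg, ← neg_smul, CharTwo.neg_eq]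

end Cfsg.Agent.H6.Quad
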