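import Cfsg.Agent.Lib_helper6_GLStab

/-! The centraliser of a transvection in the general linear group. -/

set_option autoImplicit false

namespace Cfsg.Agent.H6.TC

variable {F V : Type*} [Field F] [AddCommGroup V] [Module F V]

/-- The invariant whose isometries are the maps fixing the functional `φ`. -/
def bet (φ : Module.Dual F V) : V → V → F := fun _ y => φ y

theorem mem_IsomOf_bet {φ : Module.Dual F V} {g : V ≃ₗ[F] V} :
    g ∈ IsomOf (F := F) (bet φ) ↔ ∀ v, φ (g v) = φ v :=
  ⟨fun h v => h 0 v, fun h _ v => h v⟩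

variable [FiniteDimensional F V]

theorem moving (φ : Module.Dual F V) : Moving F (bet φ) := by
  intro W x y hx hy _ _ hxy
  have hxy' : φ y = φ x := hxy
  obtain ⟨ψ, hψU, hψy, hψx⟩ := GLin.exists_functional W hx hy
  refine ⟨GLin.dil ψ (x - y) (by rw [map_sub, hψy]; simpa using hψx), ?_, ?_, ?_⟩
  · rw [mem_IsomOf_bet]
    intro v
    rw [GLin.dil_apply, map_add, map_smul, map_sub, hxy']
    simp
  · intro u hu
    rw [GLin.dil_apply, hψU u hu]; simp
  · rw [GLin.dil_apply, hψy]; simp

theorem finrank_ker_add_one {φ : Module.Dual F V} (hφ : φ ≠ 0) :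
    Module.finrank F (LinearMap.ker φ) + 1 = Module.finrank F V := by
  have h1 := LinearMap.finrank_range_add_finrank_ker φ
  have h2 : LinearMap.range φ = ⊤ := LinearMap.range_eq_top.mpr (by
    obtain ⟨v, hv⟩ : ∃ v, φ v ≠ 0 := by
      by_contra h
      push Not at h
      exact hφ (LinearMap.ext h)
    intro c
    exact ⟨(c / φ v) • v, by rw [map_smul, smul_eq_mul, div_mul_cancel₀ _ hv]⟩)
  rw [h2, finrank_top, Module.finrank_self] at h1
  omega

theorem card_PS [Finite F] (φ : Module.Dual F V) (hφ : φ ≠ 0) : ∀ (e : ℕ) (W : Submodule F V),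
    W ≤ LinearMap.ker φ → Module.finrank F W + e + 1 = Module.finrank F V →
    Nat.card (PSOf (bet φ) W) = Nat.card F ^ (Module.finrank F V - 1) *
      ∏ i ∈ Finset.range e,
        (Nat.card F ^ (Module.finrank F V - 1) - Nat.card F ^ (Module.finrank F W + i)) := by
  have : Finite V := Module.finite_of_finite F
  have hker := finrank_ker_add_one hφ
  have hcK : Nat.card (LinearMap.ker φ) = Nat.card F ^ (Module.finrank F V - 1) := by
    rw [Module.natCard_eq_pow_finrank (K := F) (V := LinearMap.ker φ)]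
    congr 1
    omega
  intro e
  induction e with
  | zero =>
    intro W hW hdim
    have hWK : W = LinearMap.ker φ := Submodule.eq_of_le_of_finrank_eq hW (by omega)
    obtain ⟨x, hx⟩ : ∃ v, φ v ≠ 0 := by
      by_contra h
      push Not at h
      exact hφ (LinearMap.ext h)
    have hxW : x ∉ W := by rw [hWK]; exact hx
    have hfr := Submodule.finrank_sup_span_singleton hxW
    have htop : W ⊔ Submodule.span F {x} = ⊤ := Submodule.eq_top_of_finrank_eq (by omega)
    rw [card_PSOf_step (moving φ) W hxW, htop, PSOf_top, Subgroup.card_bot, Finset.range_zero,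
      Finset.prod_empty, ← hcK]
    congr 1
    refine Nat.card_congr ⟨fun y => ⟨y.1 - x, ?_⟩, fun k => ⟨k.1 + x, ?_⟩, ?_, ?_⟩
    · have : φ y.1 = φ x := y.2.2.2.2
      rw [LinearMap.mem_ker, map_sub, this, sub_self]
    · have hk : φ k.1 = 0 := k.2
      have h1 : φ (k.1 + x) = φ x := by rw [map_add, hk, zero_add]
      refine ⟨?_, fun z _ => h1, fun z _ => rfl, h1⟩
      rw [hWK, LinearMap.mem_ker, h1]
      exact hx
    · intro y; apply Subtype.ext; simp
    · intro k; apply Subtype.ext; simp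
  | succ e ih =>
    intro W hW hdim
    have hlt : W < LinearMap.ker φ := by
      refine lt_of_le_of_ne hW ?_
      intro h
      rw [h] at hdim
      omega
    obtain ⟨x, hxK, hxW⟩ := SetLike.exists_of_lt hlt
    have hfr := Submodule.finrank_sup_span_singleton hxW
    have hx0 : φ x = 0 := hxK
    rw [card_PSOf_step (moving φ) W hxW, ih (W ⊔ Submodule.span F {x})
      (sup_le hW (by rw [Submodule.span_singleton_le_iff_mem]; exact hxK)) (by omega), hfr,
      Finset.prod_range_succ', mul_left_comm, mul_comm (∏ _ ∈ _, _)]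
    congr 2
    · have e1 : {y : V | y ∉ W ∧ (∀ z ∈ W, bet φ z y = bet φ z x) ∧
          (∀ z ∈ W, bet φ y z = bet φ x z) ∧ bet φ y y = bet φ x x} =
          (LinearMap.ker φ : Set V) \ (W : Set V) := by
        ext y
        simp only [bet, Set.mem_ofPred_eq, Set.mem_sdiff, SetLike.mem_coe, LinearMap.mem_ker, hx0]
        constructor
        · rintro ⟨h1, -, -, h2⟩
          exact ⟨h2, h1⟩
        · rintro ⟨h1, h2⟩
          exact ⟨h2, fun _ _ => h1, fun _ _ => trivial, h1⟩
      rw [e1, Nat.card_coe_set_eq, Set.ncard_sdiff (by exact hW), ← Nat.card_coe_set_eq,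
        ← Nat.card_coe_set_eq, add_zero]
      congr 1
      exact Module.natCard_eq_pow_finrank (K := F) (V := W)
    · refine Finset.prod_congr rfl fun i _ => ?_
      rw [show Module.finrank F W + 1 + i = Module.finrank F W + (i + 1) by omega]

theorem card_centralizer_aux [Finite F] (a : V) (ha : a ≠ 0) (φ : Module.Dual F V) (hφ : φ ≠ 0) :
    Nat.card {g : V ≃ₗ[F] V // ∀ v, g (φ v • a) = φ (g v) • a} =
      (Nat.card F - 1) * Nat.card (PSOf (bet φ) (Submodule.span F {a})) := by
  rw [← Nat.card_units, ← Nat.card_prod]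
  symm
  have hmem : ∀ (c : Fˣ) (g : PSOf (bet φ) (Submodule.span F {a})) (v : V),
      (LinearEquiv.smulOfUnit c * g.1 : V ≃ₗ[F] V) (φ v • a) =
        φ ((LinearEquiv.smulOfUnit c * g.1 : V ≃ₗ[F] V) v) • a := by
    intro c g v
    have h1 : g.1 a = a := g.2.2 a (Submodule.mem_span_singleton_self a)
    have h2 : φ (g.1 v) = φ v := mem_IsomOf_bet.mp g.2.1 v
    rw [LinearEquiv.mul_apply, LinearEquiv.mul_apply, map_smul, h1]
    change c • (φ v • a) = φ (c • g.1 v) • a
    rw [Units.smul_def, Units.smul_def, map_smul, h2, smul_smul, smul_eq_mul]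
  refine Nat.card_congr (Equiv.ofBijective
    (fun x : Fˣ × PSOf (bet φ) (Submodule.span F {a}) =>
      (⟨LinearEquiv.smulOfUnit x.1 * x.2.1, hmem x.1 x.2⟩ :
        {g : V ≃ₗ[F] V // ∀ v, g (φ v • a) = φ (g v) • a})) ⟨?_, ?_⟩)
  · rintro ⟨c, g⟩ ⟨c', g'⟩ h
    have h0 : (LinearEquiv.smulOfUnit c * g.1 : V ≃ₗ[F] V) =
        LinearEquiv.smulOfUnit c' * g'.1 := congrArg Subtype.val h
    have h1 : g.1 a = a := g.2.2 a (Submodule.mem_span_singleton_self a)
    have h1' : g'.1 a = a := g'.2.2 a (Submodule.mem_span_singleton_self a)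
    have h2 := congrArg (fun f : V ≃ₗ[F] V => f a) h0
    simp only [LinearEquiv.mul_apply, h1, h1'] at h2
    have h3 : (c : F) • a = (c' : F) • a := h2
    have h4 : c = c' := Units.ext (smul_left_injective F ha h3)
    subst h4
    have h5 : g.1 = g'.1 := mul_left_cancel h0
    exact Prod.ext rfl (Subtype.ext h5)
  · rintro ⟨g, hg⟩
    obtain ⟨e, he⟩ : ∃ v, φ v = 1 := by
      obtain ⟨v, hv⟩ : ∃ v, φ v ≠ 0 := by
        by_contra h
        push Not at h
        exact hφ (LinearMap.ext h)
      exact ⟨(φ v)⁻¹ • v, by rw [map_smul, smul_eq_mul, inv_mul_cancel₀ hv]⟩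
    have h1 : g a = φ (g e) • a := by
      have := hg e
      rwa [he, one_smul] at this
    have hl : φ (g e) ≠ 0 := by
      intro h
      rw [h, zero_smul] at h1
      exact ha (g.map_eq_zero_iff.mp h1)
    have h2 : ∀ v, φ (g v) = φ (g e) * φ v := by
      intro v
      have := hg v
      rw [map_smul, h1, smul_smul] at this
      have h3 := smul_left_injective F ha this
      rw [← h3, mul_comm]
    obtain ⟨l, hldef⟩ : ∃ l, φ (g e) = l := ⟨_, rfl⟩
    rw [hldef] at h1 hl
    simp only [hldef] at h2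
    refine ⟨⟨Units.mk0 _ hl, ⟨LinearEquiv.smulOfUnit (Units.mk0 _ hl)⁻¹ * g, ?_, ?_⟩⟩, ?_⟩
    · rw [mem_IsomOf_bet]
      intro v
      rw [LinearEquiv.mul_apply]
      change φ ((Units.mk0 _ hl)⁻¹ • g v) = φ v
      rw [Units.smul_def, map_smul, h2, smul_eq_mul, Units.val_inv_eq_inv_val, Units.val_mk0,
        inv_mul_cancel_left₀ hl]
    · intro z hz
      obtain ⟨c, rfl⟩ := Submodule.mem_span_singleton.mp hz
      rw [LinearEquiv.mul_apply]
      change (Units.mk0 _ hl)⁻¹ • g (c • a) = c • a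
      rw [Units.smul_def, map_smul, h1, Units.val_inv_eq_inv_val, Units.val_mk0, smul_comm,
        smul_smul l⁻¹, inv_mul_cancel₀ hl, one_smul]
    · apply Subtype.ext
      ext v
      change (Units.mk0 _ hl) • ((Units.mk0 _ hl)⁻¹ • g v) = g v
      rw [smul_inv_smul]

theorem exists_rank_one_form (N : Module.End F V)
    (hr : Module.finrank F (LinearMap.range N) = 1) (hN : N * N = 0) :
    ∃ (a : V) (φ : Module.Dual F V), a ≠ 0 ∧ φ ≠ 0 ∧ φ a = 0 ∧ ∀ v, N v = φ v • a := by
  obtain ⟨⟨a, haR⟩, ha0, hspan⟩ := finrank_eq_one_iff'.mp hr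
  have ha : a ≠ 0 := fun h => ha0 (Subtype.ext h)
  have haB : a ∉ (⊥ : Submodule F V) := by rwa [Submodule.mem_bot]
  obtain ⟨ψ, -, hψ, -⟩ := GLin.exists_functional ⊥ haB haB
  have hform : ∀ v, N v = (ψ ∘ₗ N) v • a := by
    intro v
    obtain ⟨c, hc⟩ := hspan ⟨N v, LinearMap.mem_range_self N v⟩
    have hc' : c • a = N v := congrArg Subtype.val hc
    rw [LinearMap.comp_apply, ← hc', map_smul, hψ, smul_eq_mul, mul_one]
  refine ⟨a, ψ ∘ₗ N, ha, ?_, ?_, hform⟩
  · intro h
    obtain ⟨b, hb⟩ := haR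
    have := hform b
    rw [h, LinearMap.zero_apply, zero_smul, hb] at this
    exact ha this
  · obtain ⟨b, hb⟩ := haR
    have h1 : N a = 0 := by
      rw [← hb, ← Module.End.mul_apply, hN]; rfl
    rw [LinearMap.comp_apply, h1, map_zero]

theorem card_centralizer [Finite F] (N : Module.End F V)
    (hr : Module.finrank F (LinearMap.range N) = 1) (hN : N * N = 0) {n : ℕ} (hn : 2 ≤ n)
    (hV : Module.finrank F V = n) :
    Nat.card {g : V ≃ₗ[F] V // ∀ v, g (N v) = N (g v)} =
      Nat.card F ^ (2 * n - 3) * (Nat.card F - 1) *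
        ∏ i : Fin (n - 2), (Nat.card F ^ (n - 2) - Nat.card F ^ (i : ℕ)) := by
  obtain ⟨a, φ, ha, hφ, hφa, hform⟩ := exists_rank_one_form N hr hN
  have h1 : Nat.card {g : V ≃ₗ[F] V // ∀ v, g (N v) = N (g v)} =
      Nat.card {g : V ≃ₗ[F] V // ∀ v, g (φ v • a) = φ (g v) • a} := by
    apply Nat.card_congr
    apply Equiv.subtypeEquivRight
    intro g
    simp only [hform]
  rw [h1, card_centralizer_aux a ha φ hφ, card_PS φ hφ (n - 2) (Submodule.span F {a})
    (by rw [Submodule.span_singleton_le_iff_mem]; exact hφa)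
    (by rw [finrank_span_singleton ha, hV]; omega), finrank_span_singleton ha, hV,
    ← Finset.prod_range (fun i => Nat.card F ^ (n - 2) - Nat.card F ^ i)]
  have h2 : ∀ i ∈ Finset.range (n - 2), Nat.card F ^ (n - 1) - Nat.card F ^ (1 + i) =
      Nat.card F * (Nat.card F ^ (n - 2) - Nat.card F ^ i) := by
    intro i _
    rw [Nat.mul_sub, ← pow_succ', ← pow_succ', add_comm 1 i]
    congr 2
    omega
  rw [Finset.prod_congr rfl h2, Finset.prod_mul_distrib, Finset.prod_const, Finset.card_range]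
  have h3 : Nat.card F ^ (2 * n - 3) = Nat.card F ^ (n - 1) * Nat.card F ^ (n - 2) := by
    rw [← pow_add]; congr 1; omega
  rw [h3]
  ring

open Matrix in
theorem card_centralizer_GL [Fintype F] {n : ℕ} (hn : 2 ≤ n) (t : GL (Fin n) F)
    (hr : ((t : Matrix (Fin n) (Fin n) F) - 1).rank = 1)
    (hsq : ((t : Matrix (Fin n) (Fin n) F) - 1) * ((t : Matrix (Fin n) (Fin n) F) - 1) = 0) :
    Nat.card ↥(Subgroup.centralizer ({t} : Set (GL (Fin n) F))) =
      Fintype.card F ^ (2 * n - 3) * (Fintype.card F - 1) *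
        ∏ i : Fin (n - 2), (Fintype.card F ^ (n - 2) - Fintype.card F ^ (i : ℕ)) := by
  have h := card_centralizer (Matrix.toLin' ((t : Matrix (Fin n) (Fin n) F) - 1))
    (by rw [Matrix.toLin'_apply']; exact hr)
    (by rw [Module.End.mul_eq_comp, ← Matrix.toLin'_mul, hsq, map_zero]) hn
    (Module.finrank_fin_fun F)
  rw [Nat.card_eq_fintype_card (α := F)] at h
  rw [← h]
  apply Nat.card_congr
  refine Equiv.subtypeEquiv (glEquivLin (Fin n) F).toEquiv ?_
  intro g
  rw [Subgroup.mem_centralizer_singleton_iff]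
  constructor
  · intro hg v
    have h1 : (g : Matrix (Fin n) (Fin n) F) * t = t * g := by
      have := congrArg (fun x : GL (Fin n) F => (x : Matrix (Fin n) (Fin n) F)) hg
      simpa using this
    change (g : Matrix (Fin n) (Fin n) F) *ᵥ (((t : Matrix (Fin n) (Fin n) F) - 1) *ᵥ v) =
      ((t : Matrix (Fin n) (Fin n) F) - 1) *ᵥ ((g : Matrix (Fin n) (Fin n) F) *ᵥ v)
    rw [Matrix.mulVec_mulVec, Matrix.mulVec_mulVec, mul_sub, sub_mul, h1, mul_one, one_mul]
  · intro hg
    have h1 : (g : Matrix (Fin n) (Fin n) F) * ((t : Matrix (Fin n) (Fin n) F) - 1) =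
        ((t : Matrix (Fin n) (Fin n) F) - 1) * (g : Matrix (Fin n) (Fin n) F) := by
      apply Matrix.toLin'.injective
      apply LinearMap.ext
      intro v
      rw [Matrix.toLin'_apply, Matrix.toLin'_apply, ← Matrix.mulVec_mulVec, ← Matrix.mulVec_mulVec]
      exact hg v
    rw [mul_sub, sub_mul, mul_one, one_mul] at h1
    apply Units.ext
    simpa using h1

end Cfsg.Agent.H6.TC
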