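import Cfsg.Agent.Lib_helper6_GU
import Cfsg.Prelude.Def_ClassicalGeometry

/-! Unitary transvection matrices. -/

set_option autoImplicit false

namespace Cfsg.Agent.H6

open Matrix

namespace Herm

variable {F V : Type*} [Field F] [AddCommGroup V] [Module F V]
variable {σ : F →+* F} {B : V →ₛₗ[σ] V →ₗ[F] F}

theorem tauLin_form (hS : B.IsSymm) (u : V) (c : F) (v w : V) :
    B (tauLin B u c v) (tauLin B u c w) =
      B v w + (B u w * B v u) * (c + σ c + σ c * c * B u u) := by
  simp only [tauLin_apply, map_add, LinearMap.map_smulₛₗ, map_smul, LinearMap.add_apply,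
    LinearMap.smul_apply, smul_eq_mul, map_mul, hS.eq]
  ring

end Herm

variable {F : Type*} [Field F] {q : ℕ} {n : ℕ}

theorem unitaryTransvection_mulVec (v : Fin n → F) (c : F) (x : Fin n → F) :
    Cfsg.unitaryTransvection n q v c *ᵥ x = x + (c * Cfsg.hermForm n F q x v) • v := by
  simp only [Cfsg.unitaryTransvection, add_mulVec, one_mulVec, smul_mulVec, vecMulVec_mulVec,
    Cfsg.hermForm, dotProduct]
  ext i
  simp only [Pi.add_apply, Pi.smul_apply, smul_eq_mul, MulOpposite.smul_eq_mul_unop,
    MulOpposite.unop_op]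
  congr 1
  rw [mul_assoc, mul_comm (v i)]
  congr 2
  exact Finset.sum_congr rfl fun j _ => mul_comm _ _

theorem unitaryTransvection_mulVec' [Fintype F] (hF : Fintype.card F = q ^ 2) (v : Fin n → F)
    (c : F) (x : Fin n → F) :
    Cfsg.unitaryTransvection n q v c *ᵥ x = Herm.tauLin (hermB hF n) v c x := by
  rw [unitaryTransvection_mulVec, Herm.tauLin_apply, hermB_apply]

theorem unitaryTransvection_form [Fintype F] (hF : Fintype.card F = q ^ 2) (v : Fin n → F)
    (c : F) (x y : Fin n → F) :
    Cfsg.hermForm n F q (Cfsg.unitaryTransvection n q v c *ᵥ x)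
        (Cfsg.unitaryTransvection n q v c *ᵥ y) =
      Cfsg.hermForm n F q x y + (Cfsg.hermForm n F q x v * Cfsg.hermForm n F q v y) *
        (c + c ^ q + c ^ q * c * Cfsg.hermForm n F q v v) := by
  rw [unitaryTransvection_mulVec' hF, unitaryTransvection_mulVec' hF, ← hermB_apply hF,
    Herm.tauLin_form (hermB_isSymm hF n)]
  rfl

end Cfsg.Agent.H6
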