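import Cfsg.Agent.S3969
import Mathlib

set_option autoImplicit false

namespace Cfsg.Agent.H7

open Subgroup
open scoped commutatorElement

/-- For an abelian Sylow `p`-subgroup `P`: if `N_G(P)` centralizes `Ω₁(P)` then `N_G(P) = C_G(P)`. -/
theorem normalizer_le_centralizer_of_omega {G : Type*} [Group G] [Finite G] {p : ℕ} [Fact p.Prime]
    (P : Sylow p G) (hab : IsMulCommutative (P : Subgroup G))
    (h : ∀ g ∈ normalizer ((P : Subgroup G) : Set G), ∀ x ∈ (P : Subgroup G), x ^ p = 1 → g * x = x * g) :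
    normalizer ((P : Subgroup G) : Set G) ≤ centralizer ((P : Subgroup G) : Set G) := by
  have hpp : p.Prime := Fact.out
  have hPC : (P : Subgroup G) ≤ centralizer ((P : Subgroup G) : Set G) :=
    Cfsg.Agent.H1.abelian_le_centralizer _
  set N := normalizer ((P : Subgroup G) : Set G) with hNdef
  let S : ∀ r : Nat.Primes, Sylow (r : ℕ) N := fun _ => default
  have h7 : N = (⨆ r, (S r : Subgroup N)).map N.subtype := by
    rw [Cfsg.Agent.H1.iSup_sylow_eq_top S, ← MonoidHom.range_eq_map, range_subtype]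
  rw [h7, Subgroup.map_iSup]
  apply iSup_le
  intro r
  have hrf : Fact (r : ℕ).Prime := ⟨r.2⟩
  set R := (S r : Subgroup N).map N.subtype with hRdef
  have hR : IsPGroup r R := (S r).2.map _
  have hRN : R ≤ N := map_subtype_le _
  by_cases hrp : (r : ℕ) = p
  · have hR' : IsPGroup p R := hrp ▸ hR
    have h1 := hR'.inf_normalizer_sylow P
    have h2 : R ≤ (P : Subgroup G) := by
      have : R ⊓ N = R := inf_eq_left.mpr hRN
      rw [← this]
      exact (le_of_eq h1).trans inf_le_right
    exact h2.trans hPC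
  · obtain ⟨b, hb⟩ := hR.exists_card_eq
    obtain ⟨a, ha⟩ := P.2.exists_card_eq
    have hcop' : Nat.Coprime (Nat.card (P : Subgroup G))
        ((P : Subgroup G).relIndex ((P : Subgroup G) ⊔ R)) := by
      apply Nat.Coprime.coprime_dvd_right (Cfsg.Agent.S3969.relIndex_sup_dvd (P : Subgroup G) R hRN).1
      rw [ha, hb]
      exact Nat.Coprime.pow a b ((Nat.coprime_primes hpp r.2).mpr (Ne.symm hrp))
    have hdec := Cfsg.Agent.H1.abelian_decomp_inf (P : Subgroup G) ((P : Subgroup G) ⊔ R) le_sup_left hcop'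
    have hXP : ⁅(P : Subgroup G), R⁆ ≤ (P : Subgroup G) := Cfsg.Agent.H1.commutator_le_of_le_normalizer hRN
    by_cases hX : ⁅(P : Subgroup G), R⁆ = ⊥
    · rw [commutator_comm] at hX
      exact commutator_eq_bot_iff_le_centralizer.mp hX
    · exfalso
      have hXp : IsPGroup p (⁅(P : Subgroup G), R⁆ : Subgroup G) := P.2.to_le hXP
      obtain ⟨k, hk⟩ := hXp.exists_card_eq
      have hk0 : k ≠ 0 := by
        rintro rfl
        rw [pow_zero, card_eq_one] at hk
        exact hX hk
      obtain ⟨z, hz⟩ := exists_prime_orderOf_dvd_card' (G := ↥(⁅(P : Subgroup G), R⁆ : Subgroup G)) p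
        (by rw [hk]; exact dvd_pow_self p hk0)
      have hzp : (z : G) ^ p = 1 := by
        have := pow_orderOf_eq_one z
        rw [hz] at this
        exact congrArg Subtype.val this
      have hzL : (P : Subgroup G) ⊔ R ≤ centralizer {(z : G)} := by
        apply sup_le
        · intro y hy
          rw [mem_centralizer_singleton_iff]
          exact (mem_centralizer_iff.mp (hPC hy) z (hXP z.2)).symm
        · intro y hy
          rw [mem_centralizer_singleton_iff]
          exact h y (hRN hy) z (hXP z.2) hzp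
      have hzmem : (z : G) ∈ ((P : Subgroup G) ⊓
          centralizer (((P : Subgroup G) ⊔ R : Subgroup G) : Set G)) ⊓
          ⁅(P : Subgroup G), (P : Subgroup G) ⊔ R⁆ := by
        refine mem_inf.mpr ⟨mem_inf.mpr ⟨hXP z.2, ?_⟩, commutator_mono le_rfl le_sup_right z.2⟩
        rw [mem_centralizer_iff]
        intro y hy
        exact mem_centralizer_singleton_iff.mp (hzL hy)
      rw [hdec, mem_bot] at hzmem
      have : z = 1 := Subtype.ext hzmem
      rw [this, orderOf_one] at hz
      exact hpp.one_lt.ne hz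

/-- the odd part trick: if `g²` and `g^m` (`m` odd) lie in `K`, so does `g`. -/
theorem mem_of_sq_mem_of_odd_pow_mem {G : Type*} [Group G] {K : Subgroup G} {g : G} {m : ℕ}
    (hm : Odd m) (h2 : g * g ∈ K) (hgm : g ^ m ∈ K) : g ∈ K := by
  obtain ⟨j, hj⟩ := hm
  have h1 : g = ((g * g) ^ j)⁻¹ * g ^ m := by
    rw [hj, ← pow_two, ← pow_mul, pow_succ]
    group
  rw [h1]
  exact mul_mem (inv_mem (pow_mem h2 j)) hgm

/-- an element of `N_G(S)` has an odd power in `S` (`S` a Sylow 2-subgroup). -/
theorem exists_odd_pow_mem_sylow {G : Type*} [Group G] [Finite G] (S : Sylow 2 G) {g : G}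
    (hg : g ∈ normalizer ((S : Subgroup G) : Set G)) : ∃ m : ℕ, Odd m ∧ g ^ m ∈ (S : Subgroup G) := by
  obtain ⟨a, m, hm, hgm⟩ := Nat.exists_eq_pow_mul_and_not_dvd (orderOf_pos g).ne' 2 (by norm_num)
  refine ⟨m, Nat.not_even_iff_odd.mp (fun h => hm (even_iff_two_dvd.mp h)), ?_⟩
  have h1 : IsPGroup 2 (zpowers (g ^ m)) := by
    apply IsPGroup.of_card (n := a)
    rw [Nat.card_zpowers, orderOf_pow, hgm, Nat.gcd_eq_right (Dvd.intro_left _ rfl),
      Nat.mul_div_cancel _ (Nat.pos_of_ne_zero (fun h0 : m = 0 => hm (by rw [h0]; exact dvd_zero 2)))]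
  have h2 := h1.inf_normalizer_sylow S
  have h3 : zpowers (g ^ m) ≤ normalizer ((S : Subgroup G) : Set G) := zpowers_le.mpr (pow_mem hg m)
  have h4 : zpowers (g ^ m) ⊓ normalizer ((S : Subgroup G) : Set G) = zpowers (g ^ m) :=
    inf_eq_left.mpr h3
  have h5 : zpowers (g ^ m) ≤ (S : Subgroup G) := by
    rw [← h4]
    exact (le_of_eq h2).trans inf_le_right
  exact h5 (mem_zpowers _)

end Cfsg.Agent.H7
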