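import Mathlib
import Cfsg.Prelude.Def_ChevStructure
import Cfsg.Prelude.Def_LieTypes
import Cfsg.Prelude.Def_ChevB2

set_option autoImplicit false
set_option linter.unusedSectionVars false

namespace Cfsg.Agent.H7

open Cfsg

/-- table facts on the positive roots -/
theorem chev_tfacts (D : Cfsg.Lie.ChevalleyDatum) (hD : D ∈ [Cfsg.Lie.chevG2, Cfsg.Lie.chevB2, Cfsg.Lie.chevD4, Cfsg.Lie.chevF4, Cfsg.Lie.chevE6, Cfsg.Lie.chevE7, Cfsg.Lie.chevE8]) :
    1 ≤ D.rank ∧ ∀ r < D.nroots, D.IsPosRoot r → (D.negIdx.getD r 0 < D.nroots / 2 ∧ D.nroots / 2 ≤ r ∧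
      ∀ e ∈ (D.chain.getD r #[]).toList, ∀ q ∈ e.2.toList, e.1 < q.1) := by
  simp only [List.mem_cons, List.not_mem_nil, or_false] at hD
  rcases hD with rfl | rfl | rfl | rfl | rfl | rfl | rfl
  all_goals decide +kernel

section Filt

variable {n F : Type*} [Fintype n] [DecidableEq n] [Field F]

/-- `M` raises the level `ρ` by at least `k`. -/
def QF (ρ : n → ℕ) (k : ℕ) (M : Matrix n n F) : Prop :=
  ∀ row col, ρ row < ρ col + k → M row col = 0

theorem QF.mono {ρ : n → ℕ} {k l : ℕ} {M : Matrix n n F} (h : QF ρ k M) (hl : l ≤ k) : QF ρ l M :=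
  fun row col hlt => h row col (by omega)

theorem QF.add {ρ : n → ℕ} {k : ℕ} {M M' : Matrix n n F} (h : QF ρ k M) (h' : QF ρ k M') :
    QF ρ k (M + M') := fun row col hlt => by
  rw [Matrix.add_apply, h row col hlt, h' row col hlt, add_zero]

theorem QF.mul {ρ : n → ℕ} {a b : ℕ} {M M' : Matrix n n F} (h : QF ρ a M) (h' : QF ρ b M') :
    QF ρ (a + b) (M * M') := fun row col hlt => by
  rw [Matrix.mul_apply]
  apply Finset.sum_eq_zero
  intro j _
  by_cases hj : ρ row < ρ j + a
  · rw [h row j hj, zero_mul]
  · rw [h' j col (by omega), mul_zero]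

theorem QF.one (ρ : n → ℕ) : QF ρ 0 (1 : Matrix n n F) := fun row col hlt => by
  rw [Matrix.one_apply, if_neg]
  rintro rfl
  omega

theorem QF.zero (ρ : n → ℕ) (k : ℕ) : QF ρ k (0 : Matrix n n F) := fun _ _ _ => rfl

theorem QF.pow {ρ : n → ℕ} {M : Matrix n n F} (h : QF ρ 1 M) (k : ℕ) : QF ρ k (M ^ k) := by
  induction k with
  | zero => rw [pow_zero]; exact QF.one ρ
  | succ k ih => rw [pow_succ]; exact ih.mul h

theorem QF.eq_zero {ρ : n → ℕ} {k : ℕ} {M : Matrix n n F} (h : QF ρ k M) (hk : ∀ i, ρ i < k) :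
    M = 0 := by
  ext row col
  exact h row col (by have := hk row; omega)

theorem QF.of_inv {ρ : n → ℕ} {N X : Matrix n n F} (hN : QF ρ 1 N) (h : X = -(N * X) - N) :
    QF ρ 1 X := by
  have key : ∀ k : ℕ, ∀ row, ρ row = k → ∀ col, ρ row < ρ col + 1 → X row col = 0 := by
    intro k
    induction k using Nat.strong_induction_on with
    | _ k ih =>
      intro row hk col hlt
      have h1 := congrFun (congrFun h row) col
      rw [h1, Matrix.sub_apply, Matrix.neg_apply, Matrix.mul_apply, hN row col hlt,
        Finset.sum_eq_zero]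
      · simp
      · intro j _
        by_cases hj : ρ row < ρ j + 1
        · rw [hN row j hj, zero_mul]
        · rw [ih (ρ j) (by omega) j rfl col (by omega), mul_zero]
  exact fun row col hlt => key _ row rfl col hlt

/-- the unitriangular matrices for `ρ` are closed under the group operations -/
theorem QF.closure {ρ : n → ℕ} {S : Set (GL n F)}
    (hS : ∀ g ∈ S, QF ρ 1 ((g : Matrix n n F) - 1)) :
    ∀ g ∈ Subgroup.closure S, QF ρ 1 ((g : Matrix n n F) - 1) := by
  intro g hg
  induction hg using Subgroup.closure_induction with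
  | mem x hx => exact hS x hx
  | one => simpa using QF.zero ρ 1
  | mul x y _ _ hx hy =>
    have : ((x * y : GL n F) : Matrix n n F) - 1
        = ((x : Matrix n n F) - 1) * ((y : Matrix n n F) - 1) + ((x : Matrix n n F) - 1)
          + ((y : Matrix n n F) - 1) := by
      rw [Units.val_mul]; noncomm_ring
    rw [this]
    exact (((hx.mul hy).mono (by omega)).add hx).add hy
  | inv x _ hx =>
    apply QF.of_inv hx
    have h1 : (x : Matrix n n F) * ((x⁻¹ : GL n F) : Matrix n n F) = 1 := by
      rw [← Units.val_mul, mul_inv_cancel]; rfl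
    have h2 : ((x : Matrix n n F) - 1) * (((x⁻¹ : GL n F) : Matrix n n F) - 1)
        = 1 - (x : Matrix n n F) - ((x⁻¹ : GL n F) : Matrix n n F) + 1 := by
      rw [sub_mul, mul_sub, h1]; noncomm_ring
    rw [h2]; noncomm_ring

end Filt

/-- the level function on the coordinates: negative roots, then the Cartan part, then positive roots -/
def chevRho (D : Cfsg.Lie.ChevalleyDatum) : D.Idx → ℕ :=
  Sum.elim (fun _ => D.nroots / 2) (fun s => if s.val < D.nroots / 2 then s.val else s.val + 1)

theorem chevRho_lt (D : Cfsg.Lie.ChevalleyDatum) (i : D.Idx) : chevRho D i < D.nroots + 1 := by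
  rcases i with i | s
  · show D.nroots / 2 < D.nroots + 1
    omega
  · show (if s.val < D.nroots / 2 then s.val else s.val + 1) < D.nroots + 1
    have := s.2
    split_ifs <;> omega

theorem chainCoeff_lt (D : Cfsg.Lie.ChevalleyDatum) (r s u : ℕ)
    (h : ∀ e ∈ (D.chain.getD r #[]).toList, ∀ q ∈ e.2.toList, e.1 < q.1) :
    ∀ km ∈ D.chainCoeff r s u, s < u := by
  intro km hkm
  unfold Cfsg.Lie.ChevalleyDatum.chainCoeff at hkm
  rw [List.mem_flatMap] at hkm
  obtain ⟨e, he, hq⟩ := hkm
  rw [List.mem_filter] at he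
  rw [List.mem_map] at hq
  obtain ⟨q, hq, -⟩ := hq
  rw [List.mem_filter] at hq
  have h1 : e.1 = s := by simpa using he.2
  have h2 : q.1.1 = u := by simpa using hq.2
  have h3 : q.1 ∈ e.2.toList := by
    rw [(List.mem_zipIdx' hq.1).2]
    exact List.getElem_mem _
  rw [← h1, ← h2]
  exact h e he.1 q.1 h3

theorem xMat_QF {F : Type*} [Field F] (D : Cfsg.Lie.ChevalleyDatum) (r : Fin D.nroots) (t : F)
    (h1 : D.negIdx.getD r 0 < D.nroots / 2) (h2 : D.nroots / 2 ≤ r)
    (h3 : ∀ e ∈ (D.chain.getD r #[]).toList, ∀ q ∈ e.2.toList, e.1 < q.1) :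
    QF (chevRho D) 1 (D.xMat F r t - 1) := by
  intro row col hlt
  rw [Matrix.sub_apply, sub_eq_zero]
  simp only [Cfsg.Lie.ChevalleyDatum.xMat, Matrix.of_apply, Matrix.one_apply]
  rcases col with i | s
  · rcases row with i' | u
    · simp only [Sum.inl.injEq]
    · have hur : u ≠ r := by
        rintro rfl
        have : (if u.val < D.nroots / 2 then u.val else u.val + 1) < D.nroots / 2 + 1 := hlt
        split_ifs at this <;> omega
      simp [hur]
  · by_cases hs1 : s = r
    · simp only [if_pos hs1]
      rcases row with i' | u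
      · simp
      · simp only [Sum.inr.injEq, hs1]
    · simp only [if_neg hs1]
      by_cases hs2 : s.val = D.negIdx.getD r.val 0
      · simp only [if_pos hs2]
        rcases row with i' | u
        · exfalso
          have : D.nroots / 2 < (if s.val < D.nroots / 2 then s.val else s.val + 1) + 1 := hlt
          split_ifs at this <;> omega
        · simp only [Sum.inr.injEq]
          by_cases hu : u = s
          · simp [hu]
          · have hur : u ≠ r := by
              rintro rfl
              have : (if u.val < D.nroots / 2 then u.val else u.val + 1)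
                  < (if s.val < D.nroots / 2 then s.val else s.val + 1) + 1 := hlt
              split_ifs at this <;> omega
            simp [hu, hur]
      · simp only [if_neg hs2]
        rcases row with i' | u
        · simp
        · simp only [Sum.inr.injEq]
          have hnil : D.chainCoeff r.val s.val u.val = [] := by
            rw [List.eq_nil_iff_forall_not_mem]
            intro km hkm
            have hsu := chainCoeff_lt D _ _ _ h3 km hkm
            have : (if u.val < D.nroots / 2 then u.val else u.val + 1)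
                < (if s.val < D.nroots / 2 then s.val else s.val + 1) + 1 := hlt
            split_ifs at this <;> omega
          rw [hnil]
          simp

/-- every element of `U` is unitriangular for the level function -/
theorem posUnipotent_QF {F : Type*} [Field F] (D : Cfsg.Lie.ChevalleyDatum) (hD : D ∈ [Cfsg.Lie.chevG2, Cfsg.Lie.chevB2, Cfsg.Lie.chevD4, Cfsg.Lie.chevF4, Cfsg.Lie.chevE6, Cfsg.Lie.chevE7, Cfsg.Lie.chevE8])
    (g : GL D.Idx F) (hg : g ∈ D.posUnipotent F) :
    QF (chevRho D) 1 ((g : Matrix D.Idx D.Idx F) - 1) := by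
  refine QF.closure ?_ g hg
  rintro x ⟨r, t, hr, hx⟩
  obtain ⟨h1, h2, h3⟩ := (chev_tfacts D hD).2 r hr.1 hr
  rw [hx, Cfsg.Lie.ChevalleyDatum.x, dif_pos hr.1]
  exact xMat_QF D ⟨r, hr.1⟩ t h1 h2 h3

end Cfsg.Agent.H7
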