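import Mathlib
import Cfsg.Agent.Lib_helper7_MaxClass6

set_option autoImplicit false

namespace Cfsg.Agent.H7

open Subgroup

section nn

variable {P : Type*} [Group P] [Finite P] {a : P} {m : ℕ}

omit [Finite P] in
theorem mem_zpowers_of_commute (hCU : centralizer (zpowers a : Set P) = zpowers a) {x : P}
    (h : x * a = a * x) : x ∈ zpowers a := by
  rw [← hCU, mem_centralizer_iff]
  rintro _ ⟨i, rfl⟩
  exact ((show Commute x a from h).zpow_right i).symm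

omit [Finite P] in
theorem conj_zpow_int {x : P} {r : ℤ} (h : x * a * x⁻¹ = a ^ r) (k : ℕ) :
    x ^ k * a * (x ^ k)⁻¹ = a ^ (r ^ k) := by
  induction k with
  | zero => simp
  | succ k ih =>
    calc x ^ (k + 1) * a * (x ^ (k + 1))⁻¹ = x * (x ^ k * a * (x ^ k)⁻¹) * x⁻¹ := by
          rw [pow_succ']; group
      _ = x * a ^ (r ^ k) * x⁻¹ := by rw [ih]
      _ = a ^ (r * r ^ k) := conj_zpow_of_conj h _
      _ = a ^ (r ^ (k + 1)) := by rw [pow_succ']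

omit [Finite P] in
theorem invol_mem_center (hUn : (zpowers a).Normal) (ha : orderOf a = 2 ^ m) (hm : 1 ≤ m) :
    orderOf (a ^ (2 ^ (m - 1))) = 2 ∧ a ^ (2 ^ (m - 1)) ∈ center P := by
  have e2n : 2 ^ m = 2 ^ (m - 1) * 2 := by rw [← pow_succ]; congr 1; omega
  have hw2 : (a ^ (2 ^ (m - 1))) ^ 2 = 1 := by
    rw [← pow_mul, ← e2n, ← ha, pow_orderOf_eq_one]
  have hw1 : a ^ (2 ^ (m - 1)) ≠ 1 := by
    apply pow_ne_one_of_lt_orderOf (by positivity)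
    rw [ha]
    exact Nat.pow_lt_pow_right (by norm_num) (by omega)
  have ho : orderOf (a ^ (2 ^ (m - 1))) = 2 := orderOf_eq_prime hw2 hw1
  have hn : (zpowers (a ^ (2 ^ (m - 1)))).Normal := by
    constructor
    rintro _ ⟨k, rfl⟩ g
    show g * (a ^ (2 ^ (m - 1))) ^ k * g⁻¹ ∈ _
    rw [← conj_zpow]
    apply zpow_mem
    obtain ⟨s, hs⟩ := hUn.conj_mem a (mem_zpowers a) g
    have hs' : a ^ s = g * a * g⁻¹ := hs
    refine ⟨s, ?_⟩
    show (a ^ (2 ^ (m - 1))) ^ s = g * a ^ (2 ^ (m - 1)) * g⁻¹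
    rw [← conj_pow, ← hs', ← zpow_natCast, ← zpow_natCast, ← zpow_mul, ← zpow_mul, mul_comm]
  exact ⟨ho, le_center_of_normal_of_card_two hn (by rw [Nat.card_zpowers, ho]) (mem_zpowers _)⟩

omit [Finite P] in
theorem conj_action_eq (hUn : (zpowers a).Normal) {y : P} {r : ℤ} (hr : y * a * y⁻¹ = a ^ r)
    (g : P) : (g * y * g⁻¹) * a * (g * y * g⁻¹)⁻¹ = a ^ r := by
  obtain ⟨s, hs⟩ := hUn.conj_mem a (mem_zpowers a) g⁻¹
  have hs' : a ^ s = g⁻¹ * a * g := by simpa using hs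
  calc (g * y * g⁻¹) * a * (g * y * g⁻¹)⁻¹ = g * (y * (g⁻¹ * a * g) * y⁻¹) * g⁻¹ := by group
    _ = g * (y * a ^ s * y⁻¹) * g⁻¹ := by rw [hs']
    _ = g * (a ^ (r * s)) * g⁻¹ := by rw [conj_zpow_of_conj hr]
    _ = g * (a ^ s) ^ r * g⁻¹ := by rw [← zpow_mul, mul_comm]
    _ = (g * a ^ s * g⁻¹) ^ r := by rw [conj_zpow]
    _ = a ^ r := by rw [hs']; congr 1; group

theorem klein_contra (hn : ∀ A : Subgroup P, A.Normal → IsMulCommutative A → IsCyclic A) {y w : P}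
    (hy : orderOf y = 2) (hw : orderOf w = 2) (hwc : w ∈ center P) (hne : y ∉ zpowers w)
    (hE : (zpowers y ⊔ zpowers w).Normal) : False := by
  haveI : Fact (Nat.Prime 2) := ⟨Nat.prime_two⟩
  obtain ⟨hcard, hmem⟩ := sup_zpowers_central hy hw hwc hne
  have hy2 : y ^ 2 = 1 := by rw [← hy, pow_orderOf_eq_one]
  have hw2 : w ^ 2 = 1 := by rw [← hw, pow_orderOf_eq_one]
  have hwcomm : ∀ x : P, Commute w x := fun x => (mem_center_iff.1 hwc x).symm
  have hcomm : IsMulCommutative ↥(zpowers y ⊔ zpowers w) := by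
    refine ⟨⟨?_⟩⟩
    rintro ⟨u, hu⟩ ⟨v, hv⟩
    apply Subtype.ext
    obtain ⟨i, j, rfl⟩ := hmem u hu
    obtain ⟨k, l, rfl⟩ := hmem v hv
    exact Commute.mul_left (Commute.mul_right ((Commute.refl y).zpow_zpow i k)
      ((hwcomm _).zpow_left l).symm) ((hwcomm _).zpow_left j)
  have hc := hn _ hE hcomm
  obtain ⟨g, hg⟩ := hc.exists_ofOrder_eq_natCard
  obtain ⟨i, j, hij⟩ := hmem g g.2
  have hg2 : (g : P) ^ 2 = 1 := by
    rw [hij, ((hwcomm _).zpow_left j).symm.mul_pow, ← zpow_natCast, ← zpow_mul, mul_comm,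
      zpow_mul, zpow_natCast, hy2, one_zpow, one_mul, ← zpow_natCast, ← zpow_mul, mul_comm,
      zpow_mul, zpow_natCast, hw2, one_zpow]
  rw [← Subgroup.orderOf_coe, hcard] at hg
  rw [← orderOf_dvd_iff_pow_eq_one, hg] at hg2
  norm_num at hg2

theorem no_modular (hn : ∀ A : Subgroup P, A.Normal → IsMulCommutative A → IsCyclic A)
    (hUn : (zpowers a).Normal) (hCU : centralizer (zpowers a : Set P) = zpowers a)
    (ha : orderOf a = 2 ^ m) (hm3 : 3 ≤ m) {y : P} {r : ℤ} (hyU : y ∉ zpowers a)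
    (hy2 : y ^ 2 = 1) (hr : y * a * y⁻¹ = a ^ r) (hmod : (2 ^ m : ℤ) ∣ r - (1 + 2 ^ (m - 1))) :
    False := by
  haveI : Fact (Nat.Prime 2) := ⟨Nat.prime_two⟩
  have hN : (orderOf a : ℤ) = 2 ^ m := by rw [ha]; push_cast; rfl
  obtain ⟨how, hwc⟩ := invol_mem_center hUn ha (by omega)
  obtain ⟨w, hw⟩ : ∃ w, w = a ^ (2 ^ (m - 1)) := ⟨_, rfl⟩
  rw [← hw] at how hwc
  have hwU : zpowers w ≤ zpowers a := by
    rw [zpowers_le, hw]; exact pow_mem (mem_zpowers a) _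
  have hy1 : y ≠ 1 := fun h => hyU (h ▸ one_mem _)
  have hoy : orderOf y = 2 := orderOf_eq_prime hy2 hy1
  have hne : y ∉ zpowers w := fun h => hyU (hwU h)
  apply klein_contra hn hoy how hwc hne
  obtain ⟨-, hmem⟩ := sup_zpowers_central hoy how hwc hne
  have hyE : y ∈ zpowers y ⊔ zpowers w := le_sup_left (b := zpowers w) (mem_zpowers y)
  have hwE : zpowers w ≤ zpowers y ⊔ zpowers w := le_sup_right
  have key : ∀ g : P, g * y * g⁻¹ ∈ zpowers y ⊔ zpowers w := by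
    intro g
    have h1 := conj_action_eq hUn hr g
    have h2 : y⁻¹ * (g * y * g⁻¹) ∈ zpowers a := by
      apply mem_zpowers_of_commute hCU
      have h3 : y⁻¹ * a ^ r * y = a := by rw [← hr]; group
      calc y⁻¹ * (g * y * g⁻¹) * a
          = y⁻¹ * ((g * y * g⁻¹) * a * (g * y * g⁻¹)⁻¹) * (g * y * g⁻¹) := by group
        _ = y⁻¹ * a ^ r * y * (y⁻¹ * (g * y * g⁻¹)) := by rw [h1]; group
        _ = a * (y⁻¹ * (g * y * g⁻¹)) := by rw [h3]
    obtain ⟨k, hk⟩ := h2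
    have hk' : g * y * g⁻¹ = y * a ^ k := by
      have : a ^ k = y⁻¹ * (g * y * g⁻¹) := hk
      rw [this]; group
    rw [hk']
    apply mul_mem hyE
    apply hwE
    have h4 : (y * a ^ k) ^ 2 = 1 := by rw [← hk', conj_pow, hy2]; group
    have e : (y * a ^ k) ^ 2 = (y * a ^ k * y⁻¹) * y ^ 2 * a ^ k := by
      rw [pow_two, pow_two]; group
    rw [e, conj_zpow_of_conj hr, hy2, mul_one, ← zpow_add] at h4
    have h5 := dvd_of_zpow_eq_zpow hN (h4.trans (zpow_zero a).symm)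
    obtain ⟨c, hc⟩ := hmod
    have e2 : (2 : ℤ) ^ m = 2 * 2 ^ (m - 1) := by rw [← pow_succ']; congr 1; omega
    have e3 : (2 : ℤ) ^ (m - 1) = 2 * 2 ^ (m - 2) := by rw [← pow_succ']; congr 1; omega
    have e4 : (2 : ℤ) ^ (m - 2) = 2 * 2 ^ (m - 3) := by rw [← pow_succ']; congr 1; omega
    have hr' : r = 2 ^ m * c + (1 + 2 ^ (m - 1)) := by linarith
    have e5 : r * k + k - 0 = 2 * ((1 + 2 * (2 ^ (m - 3) + 2 ^ (m - 2) * c)) * k) := by
      rw [hr', e2, e3, e4]; ring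
    rw [e5, e2] at h5
    have h6 : (2 : ℤ) ^ (m - 1) ∣ (1 + 2 * (2 ^ (m - 3) + 2 ^ (m - 2) * c)) * k :=
      Int.dvd_of_mul_dvd_mul_left (by norm_num) h5
    obtain ⟨t, ht⟩ := two_pow_dvd_of_odd_mul ⟨2 ^ (m - 3) + 2 ^ (m - 2) * c, by ring⟩ h6
    refine ⟨t, ?_⟩
    show w ^ t = a ^ k
    rw [hw, ht, ← zpow_natCast, ← zpow_mul]
    push_cast; rfl
  constructor
  intro e he g
  obtain ⟨i, j, rfl⟩ := hmem e he
  have e6 : g * (y ^ i * w ^ j) * g⁻¹ = (g * y * g⁻¹) ^ i * (g * w * g⁻¹) ^ j := by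
    rw [conj_zpow, conj_zpow]; group
  rw [e6, mem_center_iff.1 hwc g, mul_inv_cancel_right]
  exact mul_mem (zpow_mem (key g) i) (hwE (zpow_mem_zpowers w j))

theorem action_mod4 (hn : ∀ A : Subgroup P, A.Normal → IsMulCommutative A → IsCyclic A)
    (hUn : (zpowers a).Normal) (hCU : centralizer (zpowers a : Set P) = zpowers a)
    (ha : orderOf a = 2 ^ m) (hm2 : 2 ≤ m) {x : P} {r : ℤ} (hxU : x ∉ zpowers a)
    (hx2 : x ^ 2 ∈ zpowers a) (hr : x * a * x⁻¹ = a ^ r) : (4 : ℤ) ∣ r + 1 := by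
  obtain ⟨k, hk⟩ := hx2
  have hnc : x * a ≠ a * x := fun h => hxU (mem_zpowers_of_commute hCU h)
  obtain ⟨h1, h2, h3⟩ := idx2_dichotomy a x m ha r k hr hk.symm hnc
  have hN : (orderOf a : ℤ) = 2 ^ m := by rw [ha]; push_cast; rfl
  have h4m : (4 : ℤ) ∣ 2 ^ m := by
    obtain ⟨j, rfl⟩ : ∃ j, m = 2 + j := ⟨m - 2, by omega⟩
    rw [pow_add]; exact ⟨2 ^ j, by norm_num⟩
  rcases two_adic_class m r h1 h2 with h | ⟨hm3, h | h⟩
  · exact h4m.trans h
  · rcases h3 with ⟨t, ht⟩ | ⟨h5, -, -⟩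
    · exfalso
      apply no_modular hn hUn hCU ha hm3 (y := x * a ^ t) (r := r) ?_ ht ?_ h
      · intro hmem
        apply hxU
        have := mul_mem hmem (zpow_mem (mem_zpowers a) (-t))
        rwa [mul_assoc, ← zpow_add, add_neg_cancel, zpow_zero, mul_one] at this
      · calc x * a ^ t * a * (x * a ^ t)⁻¹ = x * a * x⁻¹ := by group
          _ = a ^ r := hr
    · apply h4m.trans
      have h6 : a ^ r = a ^ (-1 : ℤ) := by rw [← hr, h5, zpow_neg_one]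
      have := dvd_of_zpow_eq_zpow hN h6
      have e : r - -1 = r + 1 := by ring
      rwa [e] at this
  · obtain ⟨c, hc⟩ := h
    have e2 : (2 : ℤ) ^ m = 4 * 2 ^ (m - 2) := by
      have : (4 : ℤ) = 2 ^ 2 := by norm_num
      rw [this, ← pow_add]; congr 1; omega
    have e3 : (2 : ℤ) ^ (m - 1) = 4 * 2 ^ (m - 3) := by
      have : (4 : ℤ) = 2 ^ 2 := by norm_num
      rw [this, ← pow_add]; congr 1; omega
    refine ⟨2 ^ (m - 2) * c + 2 ^ (m - 3), ?_⟩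
    have : r + 1 = 2 ^ m * c + 2 ^ (m - 1) := by linarith
    rw [this, e2, e3]; ring

theorem sq_mem_of_noV4 (hP : IsPGroup 2 P)
    (hn : ∀ A : Subgroup P, A.Normal → IsMulCommutative A → IsCyclic A)
    (hUn : (zpowers a).Normal) (hCU : centralizer (zpowers a : Set P) = zpowers a)
    (ha : orderOf a = 2 ^ m) (hm2 : 2 ≤ m) (x : P) : x ^ 2 ∈ zpowers a := by
  classical
  by_contra hx2
  have hxU : x ∉ zpowers a := fun h => hx2 (pow_mem h 2)
  have hex : ∃ K : ℕ, x ^ (2 ^ K) ∈ zpowers a := by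
    obtain ⟨K0, hK0⟩ := hP x
    exact ⟨K0, hK0 ▸ one_mem _⟩
  obtain ⟨K, hK⟩ : ∃ K, K = Nat.find hex := ⟨_, rfl⟩
  have hKs : x ^ (2 ^ K) ∈ zpowers a := hK ▸ Nat.find_spec hex
  have hKm : ∀ j < K, x ^ (2 ^ j) ∉ zpowers a := fun j hj => Nat.find_min hex (hK ▸ hj)
  have hK0 : K ≠ 0 := by
    rintro rfl
    apply hxU; simpa using hKs
  have hK1 : K ≠ 1 := by
    rintro rfl
    apply hx2; simpa using hKs
  obtain ⟨j, rfl⟩ : ∃ j, K = j + 2 := ⟨K - 2, by omega⟩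
  obtain ⟨s, hs⟩ := hUn.conj_mem a (mem_zpowers a) (x ^ (2 ^ j))
  have hs' : x ^ (2 ^ j) * a * (x ^ (2 ^ j))⁻¹ = a ^ s := hs.symm
  have h1 := conj_zpow_int hs' 2
  have h2 : (x ^ (2 ^ j)) ^ 2 ∉ zpowers a := by
    rw [← pow_mul, ← pow_succ]; exact hKm (j + 1) (by omega)
  have h3 : ((x ^ (2 ^ j)) ^ 2) ^ 2 ∈ zpowers a := by
    rw [← pow_mul, ← pow_mul, ← pow_two, ← pow_add]; exact hKs
  obtain ⟨c, hc⟩ := action_mod4 hn hUn hCU ha hm2 h2 h3 h1
  rcases Int.even_or_odd' s with ⟨q, rfl | rfl⟩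
  · have : (2 * q) ^ 2 = 4 * (q * q) := by ring
    omega
  · have : (2 * q + 1) ^ 2 = 4 * (q * q) + 4 * q + 1 := by ring
    omega

theorem mul_mem_of_noV4 (hP : IsPGroup 2 P)
    (hn : ∀ A : Subgroup P, A.Normal → IsMulCommutative A → IsCyclic A)
    (hUn : (zpowers a).Normal) (hCU : centralizer (zpowers a : Set P) = zpowers a)
    (ha : orderOf a = 2 ^ m) (hm2 : 2 ≤ m) {x x' : P} (hx : x ∉ zpowers a)
    (hx' : x' ∉ zpowers a) : x * x' ∈ zpowers a := by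
  by_contra hxx
  obtain ⟨r, hr⟩ := hUn.conj_mem a (mem_zpowers a) x
  obtain ⟨r', hr'⟩ := hUn.conj_mem a (mem_zpowers a) x'
  have hr1 : x * a * x⁻¹ = a ^ r := hr.symm
  have hr2 : x' * a * x'⁻¹ = a ^ r' := hr'.symm
  have hr3 : (x * x') * a * (x * x')⁻¹ = a ^ (r * r') := by
    calc (x * x') * a * (x * x')⁻¹ = x * (x' * a * x'⁻¹) * x⁻¹ := by group
      _ = a ^ (r * r') := by rw [hr2, conj_zpow_of_conj hr1]
  obtain ⟨c, hc⟩ := action_mod4 hn hUn hCU ha hm2 hx (sq_mem_of_noV4 hP hn hUn hCU ha hm2 x) hr1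
  obtain ⟨c', hc'⟩ :=
    action_mod4 hn hUn hCU ha hm2 hx' (sq_mem_of_noV4 hP hn hUn hCU ha hm2 x') hr2
  obtain ⟨d, hd⟩ :=
    action_mod4 hn hUn hCU ha hm2 hxx (sq_mem_of_noV4 hP hn hUn hCU ha hm2 _) hr3
  have e1 : r = 4 * c - 1 := by linarith
  have e2 : r' = 4 * c' - 1 := by linarith
  rw [e1, e2] at hd
  have : (4 * c - 1) * (4 * c' - 1) = 16 * (c * c') - 4 * c - 4 * c' + 1 := by ring
  omega

theorem index_eq_two_of_noV4 (hP : IsPGroup 2 P)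
    (hn : ∀ A : Subgroup P, A.Normal → IsMulCommutative A → IsCyclic A)
    (hUn : (zpowers a).Normal) (hCU : centralizer (zpowers a : Set P) = zpowers a)
    (ha : orderOf a = 2 ^ m) (hm2 : 2 ≤ m) {x : P} (hx : x ∉ zpowers a) :
    (zpowers a).index = 2 := by
  rw [index_eq_two_iff]
  refine ⟨x, fun b => ?_⟩
  by_cases hb : b ∈ zpowers a
  · right
    refine ⟨hb, fun h => hx ?_⟩
    have := mul_mem (inv_mem hb) h
    rwa [inv_mul_cancel_left] at this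
  · left
    exact ⟨mul_mem_of_noV4 hP hn hUn hCU ha hm2 hb hx, hb⟩

end nn

end Cfsg.Agent.H7
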