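import Mathlib
import Cfsg.Agent.Lib_helper7_NoV4
import Cfsg.Agent.Lib_helper7_CycIdx2
import Cfsg.Agent.Lib_helper7_Quat2
import Cfsg.Agent.Lib_helper7_SD

set_option autoImplicit false

namespace Cfsg.Agent.H7

open Subgroup

/-- a non-cyclic `2`-group all of whose normal abelian subgroups are cyclic has a cyclic subgroup
of index `2`. -/
theorem exists_cyclic_index_two_of_noV4 {P : Type*} [Group P] [Finite P] (hP : IsPGroup 2 P)
    (hn : ∀ A : Subgroup P, A.Normal → IsMulCommutative A → IsCyclic A) (hPnc : ¬ IsCyclic P) :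
    ∃ a : P, (zpowers a).index = 2 := by
  haveI : Fact (Nat.Prime 2) := ⟨Nat.prime_two⟩
  obtain ⟨A, ⟨hAn, hAc⟩, hAmax⟩ := (Set.toFinite {B : Subgroup P | B.Normal ∧
    IsMulCommutative B}).exists_maximal ⟨⊥, inferInstance, inferInstance⟩
  have hAcyc := hn A hAn hAc
  obtain ⟨a, ha⟩ := exists_zpowers_eq_of_isCyclic A hAcyc
  have hAtop : A < ⊤ := by
    rw [lt_top_iff_ne_top]
    rintro rfl
    exact hPnc (isCyclic_of_surjective Subgroup.topEquiv.toMonoidHom Subgroup.topEquiv.surjective)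
  have hrel : ∀ {B D : Subgroup P}, B ≤ D → Nat.card D = Nat.card B * 2 → B.relIndex D = 2 := by
    intro B D hBD hcard
    have h1 := Cfsg.Agent.H1.relIndex_mul_card' hBD
    rw [hcard, mul_comm] at h1
    exact Nat.eq_of_mul_eq_mul_left Nat.card_pos h1
  have hle : A ≤ Subgroup.centralizer (A : Set P) := by
    intro u hu
    rw [Subgroup.mem_centralizer_iff]
    intro v hv
    have := hAc.is_comm.comm ⟨v, hv⟩ ⟨u, hu⟩
    simpa using congrArg Subtype.val this
  have hCA : Subgroup.centralizer (A : Set P) ≤ A := by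
    by_contra hcon
    have hlt : A < Subgroup.centralizer (A : Set P) := lt_of_le_not_ge hle hcon
    obtain ⟨D, hDn, hAD, hDC, hDc⟩ := exists_normal_cover hP hAn inferInstance hlt
    have hDcomm : IsMulCommutative D :=
      isMulCommutative_of_cover (p := 2) hAn (hrel hAD.le hDc) hDC
    exact not_le_of_gt hAD (hAmax ⟨hDn, hDcomm⟩ hAD.le)
  subst ha
  have hCU : Subgroup.centralizer (Subgroup.zpowers a : Set P) = Subgroup.zpowers a :=
    le_antisymm hCA hle
  obtain ⟨m, hm⟩ := (IsPGroup.iff_orderOf.1 hP) a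
  obtain ⟨x, -, hxU⟩ := SetLike.exists_of_lt hAtop
  have hm2 : 2 ≤ m := by
    by_contra hlt
    have hac : a ∈ Subgroup.center P := by
      rcases (by omega : m = 0 ∨ m = 1) with rfl | rfl
      · have : a = 1 := by rwa [pow_zero, orderOf_eq_one_iff] at hm
        rw [this]; exact one_mem _
      · exact le_center_of_normal_of_card_two hAn (by rw [Nat.card_zpowers, hm]; norm_num)
          (Subgroup.mem_zpowers a)
    apply hxU
    exact mem_zpowers_of_commute hCU (Subgroup.mem_center_iff.1 hac x)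
  exact ⟨a, index_eq_two_of_noV4 hP hn hAn hCU hm hm2 hxU⟩

/-- a subgroup of exponent `2` which is cyclic has order at most `2`. -/
theorem card_le_two_of_cyclic_of_sq {P : Type*} [Group P] [Finite P] (E : Subgroup P)
    (hc : IsCyclic E) (hE2 : ∀ e ∈ E, e ^ 2 = 1) : Nat.card E ≤ 2 := by
  obtain ⟨g, hg⟩ := hc.exists_ofOrder_eq_natCard
  have hg2 : (g : P) ^ 2 = 1 := hE2 g g.2
  rw [← hg, ← Subgroup.orderOf_coe]
  exact orderOf_le_of_pow_eq_one (by norm_num) hg2

/-- a `2`-group of rank at least `3` has a normal four-subgroup. -/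
theorem exists_normal_four {P : Type*} [Group P] [Finite P] (hP : IsPGroup 2 P)
    (E : Subgroup P) (hE : Nat.card E = 8) (hE2 : ∀ e ∈ E, e ^ 2 = 1) :
    ∃ (U : Subgroup P) (u z : P), U.Normal ∧ Nat.card U = 4 ∧ (∀ v ∈ U, v ^ 2 = 1) ∧
      z ∈ center P ∧ z ^ 2 = 1 ∧ u ∈ U ∧ (∀ v ∈ U, v = 1 ∨ v = z ∨ v = u ∨ v = u * z) ∧
      ∀ s : P, s * u * s⁻¹ = u ∨ s * u * s⁻¹ = u * z := by
  haveI : Fact (Nat.Prime 2) := ⟨Nat.prime_two⟩
  have hno : ∀ a : P, (zpowers a).index ≠ 2 := by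
    intro a ha
    haveI : (zpowers a).Normal := normal_of_index_eq_two ha
    have h2 : (zpowers a).relIndex E ∣ 2 := ha ▸ relIndex_dvd_index_of_normal (zpowers a) E
    have h3 := H1.relIndex_mul_card' (inf_le_left : E ⊓ zpowers a ≤ E)
    rw [inf_relIndex_left, hE] at h3
    have hc : IsCyclic ↥(E ⊓ zpowers a) :=
      Subgroup.isCyclic_of_le (H' := zpowers a) inf_le_right
    have h4 := card_le_two_of_cyclic_of_sq _ hc (fun e he => hE2 e he.1)
    have h5 := Nat.le_of_dvd (by norm_num) h2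
    nlinarith
  have hPnc : ¬ IsCyclic P := by
    intro h
    have := card_le_two_of_cyclic_of_sq E inferInstance hE2
    omega
  have hex : ∃ A : Subgroup P, A.Normal ∧ IsMulCommutative A ∧ ¬ IsCyclic A := by
    by_contra hcon
    push Not at hcon
    obtain ⟨a, ha⟩ := exists_cyclic_index_two_of_noV4 hP hcon hPnc
    exact hno a ha
  obtain ⟨A, hAn, hAc, hAnc⟩ := hex
  obtain ⟨Ω, hΩ, hΩc⟩ := exists_omega_of_comm (p := 2) (hP.to_subgroup A) hAc.is_comm.comm hAnc
  obtain ⟨N, hN⟩ : ∃ N : Subgroup P, N = Ω.map A.subtype := ⟨_, rfl⟩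
  have hNmem : ∀ x, x ∈ N ↔ x ∈ A ∧ x ^ 2 = 1 := by
    intro x
    rw [hN]
    constructor
    · rintro ⟨y, hy, rfl⟩
      refine ⟨y.2, ?_⟩
      have := (hΩ y).1 hy
      simpa using congrArg Subtype.val this
    · rintro ⟨hx, hx2⟩
      exact ⟨⟨x, hx⟩, (hΩ _).2 (Subtype.ext (by simpa using hx2)), rfl⟩
  have hNn : N.Normal := by
    constructor
    intro x hx g
    rw [hNmem] at hx ⊢
    exact ⟨hAn.conj_mem x hx.1 g, by rw [conj_pow, hx.2]; group⟩
  have hNcard : 2 ^ 2 ∣ Nat.card N := by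
    rw [hN, card_map_of_injective (subtype_injective A)]; exact hΩc
  have hbot : (⊥ : Subgroup P) < N := by
    rw [bot_lt_iff_ne_bot]
    intro h
    rw [h, card_bot] at hNcard
    norm_num at hNcard
  obtain ⟨D1, hD1n, -, hD1N, hD1c⟩ := exists_normal_cover hP inferInstance hNn hbot
  rw [card_bot, one_mul] at hD1c
  have hlt : D1 < N := by
    refine lt_of_le_of_ne hD1N ?_
    rintro rfl
    rw [hD1c] at hNcard
    norm_num at hNcard
  obtain ⟨D2, hD2n, hD12, hD2N, hD2c⟩ := exists_normal_cover hP hD1n hNn hlt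
  rw [hD1c] at hD2c
  obtain ⟨z', hz1, hzu⟩ := (Nat.card_eq_two_iff' (1 : D1)).1 hD1c
  obtain ⟨u, huD2, huD1⟩ := SetLike.exists_of_lt hD12
  have hD1el : ∀ d ∈ D1, d = 1 ∨ d = (z' : P) := by
    intro d hd
    by_cases h : d = 1
    · exact Or.inl h
    · right
      have := hzu ⟨d, hd⟩ (fun h' => h (congrArg Subtype.val h'))
      exact congrArg Subtype.val this
  have hidx : (D1.subgroupOf D2).index = 2 := by
    have h1 := H1.relIndex_mul_card' hD12.le
    rw [hD1c, hD2c] at h1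
    have : D1.relIndex D2 = 2 := by omega
    exact this
  have hD2el : ∀ v ∈ D2, v ∉ D1 → v = u ∨ v = u * (z' : P) := by
    intro v hv hv1
    have h1 : (⟨u⁻¹, inv_mem huD2⟩ : D2) * ⟨v, hv⟩ ∈ D1.subgroupOf D2 := by
      rw [Subgroup.mul_mem_iff_of_index_two hidx, mem_subgroupOf, mem_subgroupOf]
      exact iff_of_false (fun h => huD1 (by simpa using h)) hv1
    rw [mem_subgroupOf] at h1
    have h2 : u⁻¹ * v ∈ D1 := h1
    rcases hD1el _ h2 with h | h
    · left; exact (inv_mul_eq_one.1 h).symm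
    · right; rw [← h]; group
  refine ⟨D2, u, z', hD2n, by rw [hD2c], fun v hv => ((hNmem v).1 (hD2N hv)).2,
    le_center_of_normal_of_card_two hD1n hD1c z'.2, ((hNmem _).1 (hD1N z'.2)).2, huD2, ?_, ?_⟩
  · intro v hv
    by_cases hv1 : v ∈ D1
    · rcases hD1el v hv1 with h | h
      · exact Or.inl h
      · exact Or.inr (Or.inl h)
    · rcases hD2el v hv hv1 with h | h
      · exact Or.inr (Or.inr (Or.inl h))
      · exact Or.inr (Or.inr (Or.inr h))
  · intro s
    apply hD2el _ (hD2n.conj_mem u huD2 s)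
    intro h
    apply huD1
    have := hD1n.conj_mem _ h s⁻¹
    simpa [mul_assoc] using this

theorem relIndex_centralizer_eq_two {X : Type*} [Group X] (Y : Subgroup X) (u z : X)
    (hz : ∀ y ∈ Y, y * z = z * y) (hz2 : z ^ 2 = 1)
    (hu : ∀ y ∈ Y, y * u * y⁻¹ = u ∨ y * u * y⁻¹ = u * z)
    (y₀ : X) (hy₀ : y₀ ∈ Y) (hne : y₀ * u * y₀⁻¹ ≠ u) :
    (Y ⊓ centralizer {u}).relIndex Y = 2 := by
  rw [inf_relIndex_left]
  unfold relIndex
  rw [index_eq_two_iff]
  have hmem : ∀ b : Y, b ∈ (centralizer {u}).subgroupOf Y ↔ (b : X) * u * (b : X)⁻¹ = u := by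
    intro b
    rw [mem_subgroupOf, mem_centralizer_singleton_iff, mul_inv_eq_iff_eq_mul]
  have hy₀' : y₀ * u * y₀⁻¹ = u * z := (hu y₀ hy₀).resolve_left hne
  have hzne : u * z ≠ u := hy₀' ▸ hne
  have hconj : ∀ b : Y, ((b : X) * y₀) * u * ((b : X) * y₀)⁻¹ = (b : X) * u * (b : X)⁻¹ * z := by
    intro b
    calc ((b : X) * y₀) * u * ((b : X) * y₀)⁻¹ = (b : X) * (y₀ * u * y₀⁻¹) * (b : X)⁻¹ := by group
      _ = (b : X) * u * (z * (b : X)⁻¹) := by rw [hy₀']; group
      _ = (b : X) * u * ((b : X)⁻¹ * z) := by rw [hz _ (inv_mem b.2)]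
      _ = (b : X) * u * (b : X)⁻¹ * z := by group
  refine ⟨⟨y₀, hy₀⟩, fun b => ?_⟩
  rw [hmem, hmem]
  show Xor (((b : X) * y₀) * u * ((b : X) * y₀)⁻¹ = u) _
  rw [hconj]
  rcases hu b b.2 with h | h
  · right
    rw [h]
    exact ⟨rfl, hzne⟩
  · left
    rw [h]
    refine ⟨by rw [mul_assoc, ← pow_two, hz2, mul_one], hzne⟩

/-- in a `2`-group of rank at least `3`, the centralizer `M` of a suitable normal four-subgroup has
index at most `2`, and every involution of `M` centralizes an elementary abelian subgroup of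
order `8`. -/
theorem exists_index_two_rank_three {P : Type*} [Group P] [Finite P] (hP : IsPGroup 2 P)
    (E : Subgroup P) (hE : Nat.card E = 8) (hE2 : ∀ e ∈ E, e ^ 2 = 1) :
    ∃ M : Subgroup P, (M = ⊤ ∨ M.index = 2) ∧ ∀ t ∈ M, t ^ 2 = 1 →
      ∃ E' : Subgroup P, Nat.card E' = 8 ∧ (∀ e ∈ E', e ^ 2 = 1) ∧ ∀ e ∈ E', e * t = t * e := by
  obtain ⟨U, u, z, hUn, hU4, hU2, hzc, hz2, huU, hUel, hconj⟩ := exists_normal_four hP E hE hE2
  have hzc' : ∀ y : P, y * z = z * y := fun y => mem_center_iff.1 hzc y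
  have hcomU : ∀ g : P, g * u = u * g → ∀ v ∈ U, g * v = v * g := by
    intro g hg v hv
    rcases hUel v hv with rfl | rfl | rfl | rfl
    · simp
    · exact hzc' g
    · exact hg
    · rw [← mul_assoc, hg, mul_assoc, hzc' g, mul_assoc]
  have hEcomm : ∀ a ∈ E, ∀ b ∈ E, a * b = b * a := by
    intro a ha b hb
    have := comm_of_sq_eq_one (S := E) (fun x => Subtype.ext (by simpa using hE2 x x.2))
      ⟨a, ha⟩ ⟨b, hb⟩
    exact congrArg Subtype.val this
  -- an involution of `C(U)` outside `U`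
  have hg : ∃ g : P, g ^ 2 = 1 ∧ g ∉ U ∧ g * u = u * g := by
    by_contra hcon
    push Not at hcon
    have hle : E ⊓ centralizer {u} ≤ U := by
      rintro g ⟨hgE, hgc⟩
      by_contra hgU
      exact hcon g (hE2 g hgE) hgU (mem_centralizer_singleton_iff.1 hgc)
    by_cases hall : ∀ y ∈ E, y * u * y⁻¹ = u
    · have h1 : E ≤ U := by
        intro y hy
        apply hle
        exact ⟨hy, mem_centralizer_singleton_iff.2 (mul_inv_eq_iff_eq_mul.1 (hall y hy))⟩
      have := card_le_of_le h1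
      omega
    · push Not at hall
      obtain ⟨y₀, hy₀, hne⟩ := hall
      have h1 := relIndex_centralizer_eq_two E u z (fun y _ => hzc' y) hz2 (fun y _ => hconj y)
        y₀ hy₀ hne
      have h2 := H1.relIndex_mul_card' (inf_le_left : E ⊓ centralizer {u} ≤ E)
      rw [h1, hE] at h2
      have h3 : E ⊓ centralizer {u} = U := eq_of_le_of_card_ge hle (by omega)
      have huE : u ∈ E := (h3 ▸ huU : u ∈ E ⊓ centralizer {u}).1
      apply hne
      rw [hEcomm y₀ hy₀ u huE, mul_inv_cancel_right]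
  refine ⟨centralizer {u}, ?_, ?_⟩
  · by_cases hall : ∀ y : P, y * u * y⁻¹ = u
    · left
      rw [eq_top_iff]
      intro y _
      exact mem_centralizer_singleton_iff.2 (mul_inv_eq_iff_eq_mul.1 (hall y))
    · right
      push Not at hall
      obtain ⟨y₀, hne⟩ := hall
      have h1 := relIndex_centralizer_eq_two ⊤ u z (fun y _ => hzc' y) hz2 (fun y _ => hconj y)
        y₀ (mem_top _) hne
      rwa [top_inf_eq, relIndex_top_right] at h1
  · intro t ht ht2
    rw [mem_centralizer_singleton_iff] at ht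
    obtain ⟨g, hg2, hgU, hgu, hgt⟩ : ∃ g : P, g ^ 2 = 1 ∧ g ∉ U ∧ g * u = u * g ∧ g * t = t * g := by
      by_cases htU : t ∈ U
      · obtain ⟨g, hg2, hgU, hgu⟩ := hg
        exact ⟨g, hg2, hgU, hgu, hcomU g hgu t htU⟩
      · exact ⟨t, ht2, htU, ht, rfl⟩
    have hel : ∀ e ∈ zpowers g ⊔ U, ∃ k : ℤ, ∃ v ∈ U, e = g ^ k * v := by
      intro e he
      obtain ⟨a, ⟨k, rfl⟩, v, hv, rfl⟩ := mem_sup_of_normal_right.1 he
      exact ⟨k, v, hv, rfl⟩
    refine ⟨zpowers g ⊔ U, ?_, ?_, ?_⟩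
    · rw [card_sup_zpowers_of_sq_mem hgU (hg2 ▸ one_mem U), hU4]
    · intro e he
      obtain ⟨k, v, hv, rfl⟩ := hel e he
      have hc : Commute (g ^ k) v := (show Commute g v from hcomU g hgu v hv).zpow_left k
      rw [hc.mul_pow, hU2 v hv, mul_one, ← zpow_natCast, ← zpow_mul, mul_comm, zpow_mul,
        zpow_natCast, hg2, one_zpow]
    · intro e he
      obtain ⟨k, v, hv, rfl⟩ := hel e he
      have h1 : Commute (g ^ k) t := (show Commute g t from hgt).zpow_left k
      have h2 : Commute v t := (show Commute t v from hcomU t ht v hv).symm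
      exact (h1.mul_left h2).eq

end Cfsg.Agent.H7
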