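import Cfsg.Agent.Lib_helper7_LChain

set_option autoImplicit false

namespace Cfsg.Agent.H7

variable {G : Type*} [Group G]

/-- the allowed steps in `FamilyControlsStrongFusionIn` -/
def stepSet (𝓦 : Set (Subgroup G → Subgroup G)) (H T : Subgroup G) : Set G :=
  {s | ∃ W ∈ 𝓦, s ∈ H ⊓ Subgroup.normalizer ((W T : Subgroup G) : Set G)}

theorem stepSet_inv {𝓦 : Set (Subgroup G → Subgroup G)} {H T : Subgroup G} :
    ∀ s ∈ stepSet 𝓦 H T, s⁻¹ ∈ stepSet 𝓦 H T := by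
  rintro s ⟨W, hW, hs⟩
  exact ⟨W, hW, Subgroup.inv_mem _ hs⟩

/-- the fusion property of a fixed Sylow subgroup `T` of `H` -/
def FamProp (𝓦 : Set (Subgroup G → Subgroup G)) (H T : Subgroup G) : Prop :=
  ∀ (A : Set G) (h : G), h ∈ H → A ⊆ T → lcs h A ⊆ T →
    ∃ c, LChain (stepSet 𝓦 H T) T A c ∧ ∀ a ∈ A, c * a * c⁻¹ = h * a * h⁻¹

theorem family_iff {p : ℕ} {𝓦 : Set (Subgroup G → Subgroup G)} {H : Subgroup G} :
    Cfsg.FamilyControlsStrongFusionIn p 𝓦 H ↔ ∃ T : Subgroup G, IsSylowIn p T H ∧ FamProp 𝓦 H T := by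
  constructor
  · rintro ⟨T, h1, h2, h3, h4⟩
    refine ⟨T, ⟨h1, h2, h3⟩, ?_⟩
    intro A h hh hA hAh
    obtain ⟨n, c, hc0, hc1, hc2, hc3⟩ := h4 A h hh hA hAh
    exact ⟨c (Fin.last n), LChain.of_fin c hc0 hc1 hc2 _, hc3⟩
  · rintro ⟨T, ⟨h1, h2, h3⟩, h4⟩
    refine ⟨T, h1, h2, h3, ?_⟩
    intro A h hh hA hAh
    obtain ⟨c, hc, hca⟩ := h4 A h hh hA hAh
    obtain ⟨n, c', h0, h1, h2, h3⟩ := hc.exists_fin
    exact ⟨n, c', h0, h1, h2, by rw [h3]; exact hca⟩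

theorem FamProp.conj {p : ℕ} {𝓦 : Set (Subgroup G → Subgroup G)}
    (h𝓦 : ∀ W ∈ 𝓦, Cfsg.IsConjugacyFunctor p W) {H T : Subgroup G} (hT : IsPGroup p T)
    (h : FamProp 𝓦 H T) {k : G} (hk : k ∈ H) : FamProp 𝓦 H (T.map (MulAut.conj k).toMonoidHom) := by
  intro A x hx hA hAx
  rw [← lcs_subgroup] at hA hAx
  have hA0 : lcs k⁻¹ A ⊆ T := by
    have := lcs_mono k⁻¹ hA
    rwa [lcs_inv_lcs] at this
  have hA1 : lcs (k⁻¹ * x * k) (lcs k⁻¹ A) ⊆ T := by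
    have := lcs_mono k⁻¹ hAx
    rw [lcs_inv_lcs, ← lcs_mul] at this
    rw [← lcs_mul]
    simpa [mul_assoc] using this
  obtain ⟨c, hc, hca⟩ := h _ (k⁻¹ * x * k) (H.mul_mem (H.mul_mem (H.inv_mem hk) hx) hk) hA0 hA1
  refine ⟨k * c * k⁻¹, ?_, ?_⟩
  · have h1 := hc.conj k
    have e : lcs k (lcs k⁻¹ A) = A := by
      have := lcs_inv_lcs k⁻¹ A
      rwa [inv_inv] at this
    rw [e, lcs_subgroup] at h1
    refine h1.mono_X ?_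
    rintro _ ⟨s, ⟨W, hW, hs⟩, rfl⟩
    refine ⟨W, hW, H.mul_mem (H.mul_mem hk hs.1) (H.inv_mem hk), ?_⟩
    show k * s * k⁻¹ ∈ Subgroup.normalizer _
    rw [(h𝓦 W hW T hT).2.2 k, normalizer_map_conj]
    exact conj_mem_map_conj k hs.2
  · intro a ha
    have := hca (k⁻¹ * a * k) (by rw [mem_lcs]; simpa [mul_assoc] using ha)
    calc k * c * k⁻¹ * a * (k * c * k⁻¹)⁻¹ = k * (c * (k⁻¹ * a * k) * c⁻¹) * k⁻¹ := by group
      _ = k * ((k⁻¹ * x * k) * (k⁻¹ * a * k) * (k⁻¹ * x * k)⁻¹) * k⁻¹ := by rw [this]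
      _ = x * a * x⁻¹ := by group

theorem family_all [Finite G] {p : ℕ} [Fact p.Prime] {𝓦 : Set (Subgroup G → Subgroup G)}
    (h𝓦 : ∀ W ∈ 𝓦, Cfsg.IsConjugacyFunctor p W) {H : Subgroup G}
    (h : Cfsg.FamilyControlsStrongFusionIn p 𝓦 H) {T' : Subgroup G} (hT' : IsSylowIn p T' H) :
    FamProp 𝓦 H T' := by
  obtain ⟨T, hT, hprop⟩ := family_iff.1 h
  obtain ⟨k, hkH, hk⟩ := hT'.conj_eq hT
  rw [← hk]
  exact hprop.conj h𝓦 hT.2.1 hkH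

/-- decomposability of the conjugation by `g` on `Q` -/
def FamD (𝓦 : Set (Subgroup G → Subgroup G)) (S : Subgroup G) (Q : Subgroup G) (g : G) : Prop :=
  ∃ c, LChain (stepSet 𝓦 ⊤ S) S Q c ∧ ∀ a ∈ Q, c * a * c⁻¹ = g⁻¹ * a * g

variable {𝓦 : Set (Subgroup G → Subgroup G)} {S : Subgroup G}

theorem lcs_eq_coe_rc {c g : G} {Q : Subgroup G} (h : ∀ a ∈ Q, c * a * c⁻¹ = g⁻¹ * a * g) :
    lcs c (Q : Set G) = ((rc g Q : Subgroup G) : Set G) := by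
  have : lcs c (Q : Set G) = lcs g⁻¹ (Q : Set G) := lcs_congr (by simpa using h)
  rw [this, lcs_subgroup]; rfl

theorem FamD.mono {Q Q' : Subgroup G} {g : G} (hle : Q ≤ Q') (h : FamD 𝓦 S Q' g) : FamD 𝓦 S Q g := by
  obtain ⟨c, hc, hca⟩ := h
  exact ⟨c, hc.mono hle, fun a ha => hca a (hle ha)⟩

theorem FamD.trans {Q : Subgroup G} {g h : G} (h1 : FamD 𝓦 S Q g) (h2 : FamD 𝓦 S (rc g Q) h) :
    FamD 𝓦 S Q (g * h) := by
  obtain ⟨c1, hc1, hca1⟩ := h1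
  obtain ⟨c2, hc2, hca2⟩ := h2
  refine ⟨c2 * c1, hc1.trans (by rw [lcs_eq_coe_rc hca1]; exact hc2), ?_⟩
  intro a ha
  have e1 := hca1 a ha
  have e2 := hca2 (g⁻¹ * a * g) (by rw [mem_rc]; simpa [mul_assoc] using ha)
  calc c2 * c1 * a * (c2 * c1)⁻¹ = c2 * (c1 * a * c1⁻¹) * c2⁻¹ := by group
    _ = c2 * (g⁻¹ * a * g) * c2⁻¹ := by rw [e1]
    _ = h⁻¹ * (g⁻¹ * a * g) * h := e2
    _ = (g * h)⁻¹ * a * (g * h) := by group

theorem FamD.symm {Q : Subgroup G} {g : G} (h : FamD 𝓦 S Q g) : FamD 𝓦 S (rc g Q) g⁻¹ := by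
  obtain ⟨c, hc, hca⟩ := h
  refine ⟨c⁻¹, by rw [← lcs_eq_coe_rc hca]; exact hc.symm stepSet_inv, ?_⟩
  intro b hb
  rw [mem_rc] at hb
  have e := hca _ hb
  have e' : c * (g * b * g⁻¹) * c⁻¹ = b := by rw [e]; group
  calc c⁻¹ * b * c⁻¹⁻¹ = c⁻¹ * (c * (g * b * g⁻¹) * c⁻¹) * c := by rw [e']; group
    _ = g⁻¹⁻¹ * b * g⁻¹ := by group

theorem FamD.congr {Q : Subgroup G} {g g' : G} (h : FamD 𝓦 S Q g)
    (he : ∀ a ∈ Q, g⁻¹ * a * g = g'⁻¹ * a * g') : FamD 𝓦 S Q g' := by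
  obtain ⟨c, hc, hca⟩ := h
  exact ⟨c, hc, fun a ha => (hca a ha).trans (he a ha)⟩

theorem FamD.one {Q : Subgroup G} (h : Q ≤ S) : FamD 𝓦 S Q 1 :=
  ⟨1, LChain.nil h, fun a _ => by simp⟩

/-- from a chain inside `H` over `Y` to decomposability, given decomposability of the steps -/
theorem FamD.of_LChain {H Y : Subgroup G} (hYS : Y ≤ S)
    (EY : ∀ W ∈ 𝓦, ∀ y ∈ Subgroup.normalizer ((W Y : Subgroup G) : Set G), ∀ B : Subgroup G, B ≤ Y →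
      rc y B ≤ Y → FamD 𝓦 S B y) {B : Subgroup G} {c : G}
    (h : LChain (stepSet 𝓦 H Y) Y B c) : FamD 𝓦 S B c⁻¹ := by
  induction h with
  | nil h => simpa using FamD.one (𝓦 := 𝓦) (le_trans (show B ≤ Y from h) hYS)
  | step c s hc hs h ih =>
    obtain ⟨W, hW, hs⟩ := hs
    rw [mul_inv_rev]
    refine ih.trans (EY W hW s⁻¹ (Subgroup.inv_mem _ hs.2) _ ?_ ?_)
    · have := hc.subset_end
      rw [lcs_subgroup] at this
      rw [rc, inv_inv]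
      exact this
    · rw [← rc_mul]
      rw [lcs_subgroup] at h
      rw [rc, mul_inv_rev, inv_inv, inv_inv]
      exact h

end Cfsg.Agent.H7
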