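import Mathlib

set_option autoImplicit false

namespace Cfsg.Agent.H7.GL211

open Matrix

abbrev M2 := Matrix (Fin 2) (Fin 2) (ZMod 11)
abbrev T4 := ZMod 11 × ZMod 11 × ZMod 11 × ZMod 11

def toM (t : T4) : M2 := !![t.1, t.2.1; t.2.2.1, t.2.2.2]

def mulT (s t : T4) : T4 :=
  (s.1 * t.1 + s.2.1 * t.2.2.1, s.1 * t.2.1 + s.2.1 * t.2.2.2,
   s.2.2.1 * t.1 + s.2.2.2 * t.2.2.1, s.2.2.1 * t.2.1 + s.2.2.2 * t.2.2.2)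

theorem toM_mul (s t : T4) : toM (mulT s t) = toM s * toM t := by
  ext i j
  fin_cases i <;> fin_cases j <;> simp [toM, mulT, Matrix.mul_apply, Fin.sum_univ_two]

theorem toM_inj {s t : T4} (h : toM s = toM t) : s = t := by
  have h00 := congrFun (congrFun h 0) 0
  have h01 := congrFun (congrFun h 0) 1
  have h10 := congrFun (congrFun h 1) 0
  have h11 := congrFun (congrFun h 1) 1
  simp [toM] at h00 h01 h10 h11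
  exact Prod.ext h00 (Prod.ext h01 (Prod.ext h10 h11))

def PairsT : List (T4 × List (Fin 2)) :=
  [((1, 0, 0, 1), []),
   ((0, 10, 1, 0), [0]),
   ((2, 4, 1, 8), [1]),
   ((10, 0, 0, 10), [0, 0]),
   ((4, 9, 8, 10), [1, 0]),
   ((10, 3, 2, 4), [0, 1]),
   ((8, 7, 10, 2), [1, 1]),
   ((0, 1, 10, 0), [0, 0, 0]),
   ((9, 7, 10, 3), [1, 0, 0]),
   ((3, 1, 4, 9), [0, 1, 0]),
   ((7, 3, 2, 1), [1, 1, 0]),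
   ((6, 0, 4, 2), [1, 0, 1]),
   ((1, 9, 8, 7), [0, 1, 1]),
   ((7, 2, 3, 1), [1, 0, 0, 0]),
   ((1, 8, 9, 7), [0, 1, 0, 0]),
   ((3, 4, 1, 9), [1, 1, 0, 0]),
   ((0, 5, 2, 7), [1, 0, 1, 0]),
   ((9, 10, 7, 3), [0, 1, 1, 0]),
   ((7, 9, 6, 0), [0, 1, 0, 1]),
   ((6, 8, 5, 5), [1, 1, 0, 1]),
   ((1, 2, 10, 10), [1, 0, 1, 1]),
   ((8, 10, 7, 2), [0, 1, 0, 0, 0]),
   ((4, 8, 9, 10), [1, 1, 0, 0, 0]),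
   ((5, 0, 7, 9), [1, 0, 1, 0, 0]),
   ((10, 2, 3, 4), [0, 1, 1, 0, 0]),
   ((9, 4, 0, 5), [0, 1, 0, 1, 0]),
   ((8, 5, 5, 6), [1, 1, 0, 1, 0]),
   ((2, 10, 10, 1), [1, 0, 1, 1, 0]),
   ((5, 7, 0, 9), [1, 0, 1, 0, 1]),
   ((6, 6, 6, 8), [0, 1, 1, 0, 1]),
   ((1, 1, 1, 2), [0, 1, 0, 1, 1]),
   ((9, 0, 4, 5), [1, 1, 0, 1, 1]),
   ((0, 6, 9, 4), [1, 0, 1, 0, 0, 0]),
   ((2, 1, 4, 8), [0, 1, 1, 0, 0, 0]),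
   ((4, 2, 5, 0), [0, 1, 0, 1, 0, 0]),
   ((5, 3, 6, 6), [1, 1, 0, 1, 0, 0]),
   ((10, 9, 1, 1), [1, 0, 1, 1, 0, 0]),
   ((7, 6, 9, 0), [1, 0, 1, 0, 1, 0]),
   ((6, 5, 8, 5), [0, 1, 1, 0, 1, 0]),
   ((1, 10, 2, 10), [0, 1, 0, 1, 1, 0]),
   ((0, 2, 5, 7), [1, 1, 0, 1, 1, 0]),
   ((10, 6, 5, 2), [1, 1, 0, 1, 0, 1]),
   ((3, 0, 10, 4), [1, 0, 1, 1, 0, 1]),
   ((6, 10, 9, 6), [1, 0, 1, 0, 1, 1]),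
   ((2, 7, 0, 6), [0, 1, 0, 1, 0, 0, 0]),
   ((3, 6, 6, 5), [1, 1, 0, 1, 0, 0, 0]),
   ((9, 1, 1, 10), [1, 0, 1, 1, 0, 0, 0]),
   ((6, 4, 0, 2), [1, 0, 1, 0, 1, 0, 0]),
   ((5, 5, 5, 3), [0, 1, 1, 0, 1, 0, 0]),
   ((10, 10, 10, 9), [0, 1, 0, 1, 1, 0, 0]),
   ((2, 0, 7, 6), [1, 1, 0, 1, 1, 0, 0]),
   ((6, 1, 2, 6), [1, 1, 0, 1, 0, 1, 0]),
   ((0, 8, 4, 1), [1, 0, 1, 1, 0, 1, 0]),
   ((10, 5, 6, 2), [1, 0, 1, 0, 1, 1, 0]),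
   ((6, 9, 10, 6), [0, 1, 1, 0, 1, 0, 1]),
   ((1, 7, 3, 0), [0, 1, 0, 1, 1, 0, 1]),
   ((2, 5, 6, 10), [1, 1, 0, 1, 1, 0, 1]),
   ((4, 0, 1, 3), [1, 1, 0, 1, 0, 1, 1]),
   ((4, 5, 2, 0), [1, 0, 1, 0, 1, 0, 0, 0]),
   ((5, 6, 3, 6), [0, 1, 1, 0, 1, 0, 0, 0]),
   ((10, 1, 9, 1), [0, 1, 0, 1, 1, 0, 0, 0]),
   ((0, 9, 6, 4), [1, 1, 0, 1, 1, 0, 0, 0]),
   ((1, 5, 6, 9), [1, 1, 0, 1, 0, 1, 0, 0]),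
   ((8, 0, 1, 7), [1, 0, 1, 1, 0, 1, 0, 0]),
   ((5, 1, 2, 5), [1, 0, 1, 0, 1, 1, 0, 0]),
   ((9, 5, 6, 1), [0, 1, 1, 0, 1, 0, 1, 0]),
   ((7, 10, 0, 8), [0, 1, 0, 1, 1, 0, 1, 0]),
   ((5, 9, 10, 5), [1, 1, 0, 1, 1, 0, 1, 0]),
   ((0, 7, 3, 10), [1, 1, 0, 1, 0, 1, 1, 0]),
   ((8, 9, 9, 2), [1, 0, 1, 1, 0, 1, 0, 1]),
   ((3, 3, 3, 7), [1, 0, 1, 0, 1, 1, 0, 1]),
   ((10, 8, 4, 0), [0, 1, 1, 0, 1, 0, 1, 1]),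
   ((5, 10, 9, 5), [1, 1, 0, 1, 0, 1, 0, 0, 0]),
   ((0, 3, 7, 10), [1, 0, 1, 1, 0, 1, 0, 0, 0]),
   ((1, 6, 5, 9), [1, 0, 1, 0, 1, 1, 0, 0, 0]),
   ((5, 2, 1, 5), [0, 1, 1, 0, 1, 0, 1, 0, 0]),
   ((10, 4, 8, 0), [0, 1, 0, 1, 1, 0, 1, 0, 0]),
   ((9, 6, 5, 1), [1, 1, 0, 1, 1, 0, 1, 0, 0]),
   ((7, 0, 10, 8), [1, 1, 0, 1, 0, 1, 1, 0, 0]),
   ((9, 3, 2, 2), [1, 0, 1, 1, 0, 1, 0, 1, 0]),
   ((3, 8, 7, 8), [1, 0, 1, 0, 1, 1, 0, 1, 0]),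
   ((8, 1, 0, 7), [0, 1, 1, 0, 1, 0, 1, 1, 0]),
   ((2, 9, 8, 9), [0, 1, 0, 1, 1, 0, 1, 0, 1]),
   ((8, 4, 3, 3), [1, 1, 0, 1, 1, 0, 1, 0, 1]),
   ((7, 1, 5, 4), [1, 1, 0, 1, 0, 1, 1, 0, 1]),
   ((3, 5, 9, 8), [1, 0, 1, 1, 0, 1, 0, 1, 1]),
   ((2, 6, 5, 10), [0, 1, 1, 0, 1, 0, 1, 0, 0, 0]),
   ((4, 1, 0, 3), [0, 1, 0, 1, 1, 0, 1, 0, 0, 0]),
   ((6, 2, 1, 6), [1, 1, 0, 1, 1, 0, 1, 0, 0, 0]),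
   ((0, 4, 8, 1), [1, 1, 0, 1, 0, 1, 1, 0, 0, 0]),
   ((3, 2, 2, 9), [1, 0, 1, 1, 0, 1, 0, 1, 0, 0]),
   ((8, 8, 8, 4), [1, 0, 1, 0, 1, 1, 0, 1, 0, 0]),
   ((1, 3, 7, 0), [0, 1, 1, 0, 1, 0, 1, 1, 0, 0]),
   ((9, 9, 9, 3), [0, 1, 0, 1, 1, 0, 1, 0, 1, 0]),
   ((4, 3, 3, 8), [1, 1, 0, 1, 1, 0, 1, 0, 1, 0]),
   ((1, 4, 4, 6), [1, 1, 0, 1, 0, 1, 1, 0, 1, 0]),
   ((5, 8, 8, 2), [1, 0, 1, 1, 0, 1, 0, 1, 1, 0]),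
   ((3, 10, 0, 4), [1, 0, 1, 0, 1, 1, 0, 1, 0, 1]),
   ((6, 7, 7, 1), [0, 1, 1, 0, 1, 0, 1, 1, 0, 1]),
   ((2, 3, 3, 5), [0, 1, 0, 1, 1, 0, 1, 0, 1, 1]),
   ((2, 8, 9, 9), [1, 0, 1, 1, 0, 1, 0, 1, 0, 0, 0]),
   ((8, 3, 4, 3), [1, 0, 1, 0, 1, 1, 0, 1, 0, 0, 0]),
   ((9, 2, 3, 2), [0, 1, 0, 1, 1, 0, 1, 0, 1, 0, 0]),
   ((3, 7, 8, 8), [1, 1, 0, 1, 1, 0, 1, 0, 1, 0, 0]),
   ((4, 10, 6, 7), [1, 1, 0, 1, 0, 1, 1, 0, 1, 0, 0]),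
   ((8, 6, 2, 3), [1, 0, 1, 1, 0, 1, 0, 1, 1, 0, 0]),
   ((7, 5, 1, 4), [0, 1, 1, 0, 1, 0, 1, 1, 0, 1, 0]),
   ((3, 9, 5, 8), [0, 1, 0, 1, 1, 0, 1, 0, 1, 1, 0]),
   ((6, 3, 3, 9), [1, 1, 0, 1, 0, 1, 1, 0, 1, 0, 1]),
   ((7, 7, 7, 4), [1, 0, 1, 1, 0, 1, 0, 1, 1, 0, 1]),
   ((5, 4, 4, 10), [1, 0, 1, 0, 1, 1, 0, 1, 0, 1, 1]),
   ((2, 2, 2, 8), [0, 1, 0, 1, 1, 0, 1, 0, 1, 0, 0, 0]),
   ((7, 8, 8, 3), [1, 1, 0, 1, 1, 0, 1, 0, 1, 0, 0, 0]),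
   ((10, 7, 7, 5), [1, 1, 0, 1, 0, 1, 1, 0, 1, 0, 0, 0]),
   ((9, 8, 8, 6), [0, 1, 0, 1, 1, 0, 1, 0, 1, 1, 0, 0]),
   ((7, 4, 4, 4), [1, 0, 1, 1, 0, 1, 0, 1, 1, 0, 1, 0]),
   ((4, 6, 10, 7), [1, 0, 1, 0, 1, 1, 0, 1, 0, 1, 1, 0]),
   ((8, 2, 6, 3), [0, 1, 1, 0, 1, 0, 1, 1, 0, 1, 0, 1]),
   ((4, 7, 7, 7), [0, 1, 0, 1, 1, 0, 1, 0, 1, 1, 0, 1]),
   ((4, 4, 4, 7), [1, 1, 0, 1, 0, 1, 1, 0, 1, 0, 1, 1])]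

def LT : List T4 := PairsT.map Prod.fst

def gT : Fin 2 → T4 := ![(0, 10, 1, 0), (2, 4, 1, 8)]

def giT : Fin 2 → T4 := ![(0, 1, 10, 0), (8, 7, 10, 2)]

def wordT : List (Fin 2) → T4
  | [] => (1, 0, 0, 1)
  | i :: w => mulT (gT i) (wordT w)

theorem T_gm : ∀ i, ∀ x ∈ LT, mulT (gT i) x ∈ LT := by decide +kernel
theorem T_gi : ∀ i, ∀ x ∈ LT, mulT (giT i) x ∈ LT := by decide +kernel
theorem T_word : ∀ p ∈ PairsT, wordT p.2 = p.1 := by decide +kernel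
theorem T_nodup : LT.Nodup := by decide +kernel
theorem T_len : LT.length = 120 := by decide +kernel
theorem T_fix : (LT.map (fun x : T4 => (x.1, x.2.2.1))).Nodup := by decide +kernel
theorem T_trans : ∀ a c : ZMod 11, ¬(a = 0 ∧ c = 0) → ∃ x ∈ LT, x.1 = a ∧ x.2.2.1 = c := by
  decide +kernel
theorem T_gigm : ∀ i, mulT (giT i) (gT i) = (1, 0, 0, 1) := by decide +kernel
theorem T_one : ((1, 0, 0, 1) : T4) ∈ LT := by decide +kernel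

def Pairs : List (M2 × List (Fin 2)) := PairsT.map (fun p => (toM p.1, p.2))

def Lst : List M2 := Pairs.map Prod.fst

theorem Lst_eq : Lst = LT.map toM := by
  simp [Lst, Pairs, LT, List.map_map, Function.comp_def]

def gm : Fin 2 → M2 := ![!![0, -1; 1, 0], !![2, 4; 1, -3]]

def gi : Fin 2 → M2 := fun i => toM (giT i)

theorem gm_eq : ∀ i, gm i = toM (gT i) := by decide +kernel

theorem toM_one : toM (1, 0, 0, 1) = 1 := by decide +kernel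

def wordMat (w : List (Fin 2)) : M2 := (w.map gm).prod

theorem wordMat_eq (w : List (Fin 2)) : wordMat w = toM (wordT w) := by
  induction w with
  | nil => simp [wordMat, wordT, toM_one]
  | cons i w ih =>
    have h : wordMat (i :: w) = gm i * wordMat w := by simp [wordMat]
    rw [h, ih, gm_eq, ← toM_mul]
    rfl

def e1 : Fin 2 → ZMod 11 := ![1, 0]

theorem gi_gm (i : Fin 2) : gi i * gm i = 1 := by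
  rw [gm_eq, gi, ← toM_mul, T_gigm, toM_one]

theorem Lst_one : (1 : M2) ∈ Lst := by
  rw [Lst_eq, ← toM_one]
  exact List.mem_map_of_mem T_one

theorem Lst_gm : ∀ i, ∀ x ∈ Lst, gm i * x ∈ Lst := by
  intro i x hx
  rw [Lst_eq] at hx ⊢
  obtain ⟨t, ht, rfl⟩ := List.mem_map.mp hx
  rw [gm_eq, ← toM_mul]
  exact List.mem_map_of_mem (T_gm i t ht)

theorem Lst_gi : ∀ i, ∀ x ∈ Lst, gi i * x ∈ Lst := by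
  intro i x hx
  rw [Lst_eq] at hx ⊢
  obtain ⟨t, ht, rfl⟩ := List.mem_map.mp hx
  rw [gi, ← toM_mul]
  exact List.mem_map_of_mem (T_gi i t ht)

theorem Pairs_word : ∀ p ∈ Pairs, wordMat p.2 = p.1 := by
  intro p hp
  obtain ⟨q, hq, rfl⟩ := List.mem_map.mp hp
  rw [wordMat_eq, T_word q hq]

theorem Lst_card : Lst.toFinset.card = 120 := by
  have hnd : Lst.Nodup := by
    rw [Lst_eq]
    exact T_nodup.map (fun _ _ h => toM_inj h)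
  rw [List.toFinset_card_of_nodup hnd, Lst_eq, List.length_map, T_len]

theorem toM_e1 (t : T4) : toM t *ᵥ e1 = ![t.1, t.2.2.1] := by
  ext i
  fin_cases i <;> simp [toM, e1, Matrix.mulVec, dotProduct, Fin.sum_univ_two]

theorem Lst_fix : ∀ x ∈ Lst, x *ᵥ e1 = e1 → x = 1 := by
  intro x hx h
  rw [Lst_eq] at hx
  obtain ⟨t, ht, rfl⟩ := List.mem_map.mp hx
  rw [toM_e1] at h
  have h0 := congrFun h 0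
  have h1 := congrFun h 1
  simp [e1] at h0 h1
  rw [List.inj_on_of_nodup_map T_fix ht T_one (Prod.ext h0 h1), toM_one]

theorem Lst_trans : ∀ w : Fin 2 → ZMod 11, w ≠ 0 → ∃ x ∈ Lst, x *ᵥ e1 = w := by
  intro w hw
  obtain ⟨t, ht, h0, h1⟩ := T_trans (w 0) (w 1) (by
    rintro ⟨h0, h1⟩
    apply hw
    ext i
    fin_cases i
    · exact h0
    · exact h1)
  refine ⟨toM t, by rw [Lst_eq]; exact List.mem_map_of_mem ht, ?_⟩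
  rw [toM_e1, h0, h1]
  ext i
  fin_cases i <;> rfl

end Cfsg.Agent.H7.GL211
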