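import Mathlib

set_option autoImplicit false

namespace Cfsg.Agent.H7.GL25

open Matrix

abbrev M2 := Matrix (Fin 2) (Fin 2) (ZMod 5)

def Lst : List M2 :=
  [!![1, 0; 0, 1], !![2, 0; 0, 3], !![0, 4; 1, 0], !![1, 2; 1, 3], !![4, 0; 0, 4], !![0, 2; 2, 0], !![2, 1; 2, 4], !![0, 3; 3, 0], !![2, 4; 3, 4], !![4, 2; 1, 2], !![3, 3; 4, 1], !![3, 0; 0, 2], !![0, 1; 4, 0], !![4, 3; 4, 2], !![3, 1; 2, 1], !![1, 4; 3, 3], !![1, 3; 4, 3], !![3, 2; 1, 1], !![3, 4; 3, 1], !![1, 1; 2, 3], !![2, 2; 1, 4], !![2, 3; 4, 4], !![4, 4; 3, 2], !![4, 1; 2, 2]]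

def Wds : List (List (Fin 3)) :=
  [[], [0], [1], [2], [0, 0], [1, 0], [2, 0], [0, 1], [2, 1], [1, 2], [2, 2], [0, 0, 0], [1, 0, 0], [2, 0, 0], [1, 2, 0], [2, 2, 0], [2, 0, 1], [2, 2, 1], [0, 1, 2], [2, 1, 2], [2, 2, 0, 0], [2, 1, 2, 0], [2, 2, 0, 1], [2, 0, 1, 2]]

def gm : Fin 3 → M2 := ![!![2, 0; 0, -2], !![0, -1; 1, 0], !![1, 2; 1, -2]]

def wordMat (w : List (Fin 3)) : M2 := (w.map gm).prod

theorem Lst_mul : ∀ x ∈ Lst, ∀ y ∈ Lst, x * y ∈ Lst := by decide +kernel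
theorem Lst_one : (1 : M2) ∈ Lst := by decide +kernel
theorem Lst_inv : ∀ x ∈ Lst, ∃ y ∈ Lst, x * y = 1 ∧ y * x = 1 := by decide +kernel
theorem Lst_word : ∀ x ∈ Lst, ∃ w ∈ Wds, wordMat w = x := by decide +kernel
theorem Lst_gen : ∀ i, gm i ∈ Lst := by decide +kernel
theorem Lst_card : Lst.toFinset.card = 24 := by decide +kernel
theorem Lst_fpf : ∀ x ∈ Lst, ∀ v : Fin 2 → ZMod 5, v ≠ 0 → x *ᵥ v = v → x = 1 := by decide +kernel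
theorem Lst_trans : ∀ v w : Fin 2 → ZMod 5, v ≠ 0 → w ≠ 0 → ∃ x ∈ Lst, x *ᵥ v = w := by
  decide +kernel

end Cfsg.Agent.H7.GL25
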