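import Cfsg.Agent.Lib_helper7_AlperinAbs

set_option autoImplicit false

namespace Cfsg.Agent.H7

variable {G : Type*} [Group G]

/-- left conjugation of a set -/
def lcs (c : G) (A : Set G) : Set G := (fun a => c * a * c⁻¹) '' A

theorem mem_lcs {c a : G} {A : Set G} : a ∈ lcs c A ↔ c⁻¹ * a * c ∈ A := by
  constructor
  · rintro ⟨b, hb, rfl⟩
    simpa [mul_assoc] using hb
  · intro h
    exact ⟨_, h, by simp [mul_assoc]⟩

theorem lcs_one (A : Set G) : lcs 1 A = A := by
  ext a; simp [mem_lcs]

theorem lcs_mul (x y : G) (A : Set G) : lcs (x * y) A = lcs x (lcs y A) := by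
  ext a; simp [mem_lcs, mul_assoc]

theorem lcs_mono {A B : Set G} (x : G) (h : A ⊆ B) : lcs x A ⊆ lcs x B := Set.image_mono h

theorem lcs_inv_lcs (x : G) (A : Set G) : lcs x⁻¹ (lcs x A) = A := by
  rw [← lcs_mul]; simp [lcs_one]

theorem lcs_eq_rcs_inv (x : G) (A : Set G) : lcs x A = rcs x⁻¹ A := by
  ext a; simp [mem_lcs, mem_rcs]

theorem lcs_subgroup (x : G) (H : Subgroup G) :
    lcs x (H : Set G) = ((H.map (MulAut.conj x).toMonoidHom : Subgroup G) : Set G) := by
  ext a
  rw [mem_lcs, SetLike.mem_coe, SetLike.mem_coe, mem_map_conj]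

theorem lcs_congr {x y : G} {A : Set G} (h : ∀ a ∈ A, x * a * x⁻¹ = y * a * y⁻¹) : lcs x A = lcs y A :=
  Set.image_congr h

/-- `c` is reached from `1` by left multiplications by elements of `X`, all the conjugates of `A`
along the way staying in `T`. -/
inductive LChain (X : Set G) (T : Set G) (A : Set G) : G → Prop
  | nil : A ⊆ T → LChain X T A 1
  | step (c s : G) : LChain X T A c → s ∈ X → lcs (s * c) A ⊆ T → LChain X T A (s * c)

variable {X T A B : Set G}

theorem LChain.subset_start {c : G} (h : LChain X T A c) : A ⊆ T := by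
  induction h with
  | nil h => exact h
  | step _ _ _ _ _ ih => exact ih

theorem LChain.subset_end {c : G} (h : LChain X T A c) : lcs c A ⊆ T := by
  cases h with
  | nil h => rwa [lcs_one]
  | step _ _ _ _ h => exact h

theorem LChain.mono {c : G} (h : LChain X T A c) (hBA : B ⊆ A) : LChain X T B c := by
  induction h with
  | nil h => exact LChain.nil (hBA.trans h)
  | step c s _ hs h ih => exact LChain.step c s ih hs ((lcs_mono _ hBA).trans h)

theorem LChain.mono_X {X' : Set G} {c : G} (h : LChain X T A c) (hX : X ⊆ X') : LChain X' T A c := by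
  induction h with
  | nil h => exact LChain.nil h
  | step c s _ hs h ih => exact LChain.step c s ih (hX hs) h

theorem LChain.trans {c1 c2 : G} (h1 : LChain X T A c1) (h2 : LChain X T (lcs c1 A) c2) :
    LChain X T A (c2 * c1) := by
  induction h2 with
  | nil _ => simpa using h1
  | step c s _ hs h ih =>
    rw [mul_assoc]
    refine LChain.step _ s ih hs ?_
    rw [← mul_assoc, lcs_mul]; exact h

theorem LChain.symm (hX : ∀ s ∈ X, s⁻¹ ∈ X) {c : G} (h : LChain X T A c) :
    LChain X T (lcs c A) c⁻¹ := by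
  induction h with
  | nil h => simpa [lcs_one] using LChain.nil (X := X) h
  | step c s hc hs h ih =>
    rw [mul_inv_rev]
    have h1 : LChain X T (lcs (s * c) A) s⁻¹ := by
      have := LChain.step (X := X) (T := T) (A := lcs (s * c) A) 1 s⁻¹ (LChain.nil h) (hX s hs) (by
        rw [mul_one, lcs_mul s c, lcs_inv_lcs]; exact hc.subset_end)
      simpa using this
    refine h1.trans ?_
    rw [lcs_mul s c, lcs_inv_lcs]; exact ih

theorem LChain.conj (k : G) {c : G} (h : LChain X T A c) :
    LChain (lcs k X) (lcs k T) (lcs k A) (k * c * k⁻¹) := by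
  induction h with
  | nil h => simpa using LChain.nil (X := lcs k X) (lcs_mono k h)
  | step c s _ hs h ih =>
    have e : k * (s * c) * k⁻¹ = (k * s * k⁻¹) * (k * c * k⁻¹) := by group
    rw [e]
    refine LChain.step _ _ ih ⟨s, hs, rfl⟩ ?_
    rw [← e, ← lcs_mul]
    have e2 : k * (s * c) * k⁻¹ * k = k * (s * c) := by group
    rw [e2, lcs_mul]
    exact lcs_mono k h

theorem LChain.of_fin {n : ℕ} (c : Fin (n + 1) → G) (h0 : c 0 = 1)
    (hs : ∀ i : Fin n, c i.succ * (c i.castSucc)⁻¹ ∈ X) (hT : ∀ i, lcs (c i) A ⊆ T) :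
    ∀ i, LChain X T A (c i) := by
  intro i
  induction i using Fin.induction with
  | zero =>
    rw [h0]
    have := hT 0
    rw [h0, lcs_one] at this
    exact LChain.nil this
  | succ i ih =>
    have := LChain.step _ _ ih (hs i) (by simpa using hT i.succ)
    simpa using this

theorem LChain.exists_fin {c : G} (h : LChain X T A c) :
    ∃ (n : ℕ) (c' : Fin (n + 1) → G), c' 0 = 1 ∧ (∀ i : Fin n, c' i.succ * (c' i.castSucc)⁻¹ ∈ X) ∧
      (∀ i, lcs (c' i) A ⊆ T) ∧ c' (Fin.last n) = c := by
  induction h with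
  | nil h => exact ⟨0, fun _ => 1, rfl, fun i => i.elim0, fun _ => by rwa [lcs_one], rfl⟩
  | step c s _ hs h ih =>
    obtain ⟨n, c', h0, h1, h2, h3⟩ := ih
    refine ⟨n + 1, Fin.snoc c' (s * c), ?_, ?_, ?_, ?_⟩
    · have : (0 : Fin (n + 2)) = Fin.castSucc (0 : Fin (n + 1)) := rfl
      rw [this, Fin.snoc_castSucc]; exact h0
    · intro i
      induction i using Fin.lastCases with
      | last =>
        have e1 : (Fin.last n).succ = Fin.last (n + 1) := rfl
        rw [e1, Fin.snoc_last, Fin.snoc_castSucc, h3]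
        simpa using hs
      | cast j =>
        rw [← Fin.castSucc_succ, Fin.snoc_castSucc, Fin.snoc_castSucc]
        exact h1 j
    · intro i
      induction i using Fin.lastCases with
      | last => rw [Fin.snoc_last]; exact h
      | cast j => rw [Fin.snoc_castSucc]; exact h2 j
    · rw [Fin.snoc_last]

end Cfsg.Agent.H7
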