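import Cfsg.Agent.Lib_helper7_Cores
import Cfsg.Agent.Lib_helper7_Sylow
import Cfsg.Agent.Lib_helper1_Coprime
import Cfsg.Prelude.Def_Local
import Mathlib

set_option autoImplicit false

namespace Cfsg.Agent.H7

open Subgroup

universe u

variable {G : Type u} [Group G]

theorem upperPSeries_one (p : ℕ) : (Cfsg.upperPSeries p G 1).1 =
    (Cfsg.pPrimeCore p (G ⧸ (Cfsg.upperPSeries p G 0).1)).comap (QuotientGroup.mk' _) := by
  rw [Cfsg.upperPSeries]
  simp

theorem upperPSeries_two (p : ℕ) : (Cfsg.upperPSeries p G 2).1 =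
    (Cfsg.pCore p (G ⧸ (Cfsg.upperPSeries p G 1).1)).comap (QuotientGroup.mk' _) := by
  rw [Cfsg.upperPSeries]
  simp

theorem upperPSeries_three (p : ℕ) : (Cfsg.upperPSeries p G 3).1 =
    (Cfsg.pPrimeCore p (G ⧸ (Cfsg.upperPSeries p G 2).1)).comap (QuotientGroup.mk' _) := by
  rw [Cfsg.upperPSeries]
  simp

/-- The data of `p`-length one. -/
theorem plength_one_data [Finite G] {p : ℕ} [Fact p.Prime] (h : Cfsg.PLengthLE p 1 G) :
    ∃ K L : Subgroup G, K.Normal ∧ L.Normal ∧ K ≤ L ∧ (Nat.card K).Coprime p ∧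
      (∃ m : ℕ, K.relIndex L = p ^ m) ∧ (L.index).Coprime p := by
  refine ⟨(Cfsg.upperPSeries p G 1).1, (Cfsg.upperPSeries p G 2).1, inferInstance, inferInstance,
    ?_, ?_, ?_, ?_⟩
  · rw [upperPSeries_two]
    conv_lhs => rw [← QuotientGroup.ker_mk' (Cfsg.upperPSeries p G 1).1]
    exact ker_le_comap _ _
  · rw [upperPSeries_one, Cfsg.Agent.H1.card_comap_mk]
    have h0 : (Cfsg.upperPSeries p G 0).1 = ⊥ := rfl
    have h1 : Nat.card (Cfsg.upperPSeries p G 0).1 = 1 := by rw [h0]; exact card_bot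
    rw [h1, mul_one]
    exact pPrimeCore_coprime p
  · obtain ⟨m, hm⟩ := (pCore_isPGroup (G := G ⧸ (Cfsg.upperPSeries p G 1).1) p).exists_card_eq
    refine ⟨m, ?_⟩
    have hle : (Cfsg.upperPSeries p G 1).1 ≤ (Cfsg.upperPSeries p G 2).1 := by
      rw [upperPSeries_two]
      conv_lhs => rw [← QuotientGroup.ker_mk' (Cfsg.upperPSeries p G 1).1]
      exact ker_le_comap _ _
    have h1 := Cfsg.Agent.H1.relIndex_mul_card' hle
    have h2 : Nat.card (Cfsg.upperPSeries p G 2).1 = p ^ m * Nat.card (Cfsg.upperPSeries p G 1).1 := by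
      rw [upperPSeries_two, Cfsg.Agent.H1.card_comap_mk, hm]
    rw [h2] at h1
    exact Nat.eq_of_mul_eq_mul_right Nat.card_pos h1
  · have h3 : (Cfsg.upperPSeries p G 3).1 = ⊤ := h
    rw [upperPSeries_three] at h3
    have h4 : Cfsg.pPrimeCore p (G ⧸ (Cfsg.upperPSeries p G 2).1) = ⊤ := by
      have := congrArg (Subgroup.map (QuotientGroup.mk' (Cfsg.upperPSeries p G 2).1)) h3
      rw [map_comap_eq_self_of_surjective (QuotientGroup.mk'_surjective _),
        ← MonoidHom.range_eq_map, MonoidHom.range_eq_top.mpr (QuotientGroup.mk'_surjective _)] at this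
      exact this
    have h5 := pPrimeCore_coprime (G := G ⧸ (Cfsg.upperPSeries p G 2).1) p
    rw [h4, card_top] at h5
    exact h5

/-- `p`-length one: `G = K N_G(S)` for a normal `p'`-subgroup `K`. -/
theorem plength_one_frattini [Finite G] {p : ℕ} [Fact p.Prime] (h : Cfsg.PLengthLE p 1 G)
    (S : Sylow p G) : ∃ K : Subgroup G, K.Normal ∧ (Nat.card K).Coprime p ∧
      K ⊔ normalizer ((S : Subgroup G) : Set G) = ⊤ := by
  have hp : p.Prime := Fact.out
  obtain ⟨K, L, hKn, hLn, hKL, hK, ⟨m, hm⟩, hL⟩ := plength_one_data h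
  refine ⟨K, hKn, hK, ?_⟩
  have hSL : (S : Subgroup G) ≤ L := by
    intro x hx
    rw [← QuotientGroup.eq_one_iff, ← orderOf_eq_one_iff]
    obtain ⟨k, hk⟩ := (IsPGroup.iff_orderOf.mp S.2) ⟨x, hx⟩
    rw [Subgroup.orderOf_mk] at hk
    have h1 : orderOf (QuotientGroup.mk x : G ⧸ L) ∣ p ^ k := by
      rw [← hk]
      exact orderOf_map_dvd (QuotientGroup.mk' L) x
    have h2 : orderOf (QuotientGroup.mk x : G ⧸ L) ∣ L.index := _root_.orderOf_dvd_natCard _
    exact Nat.eq_one_of_dvd_coprimes (Nat.Coprime.pow_left k hL.symm) h1 h2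
  have hSrel : ¬ p ∣ (S : Subgroup G).relIndex L := by
    intro hd
    apply S.not_dvd_index
    rw [← relIndex_mul_index hSL]
    exact hd.mul_right _
  have hLKS : L ≤ K ⊔ (S : Subgroup G) := by
    rw [← relIndex_eq_one]
    have h1 : (K ⊔ (S : Subgroup G)).relIndex L ∣ p ^ m := by
      rw [← hm]; exact relIndex_dvd_of_le_left L le_sup_left
    have h2 : (K ⊔ (S : Subgroup G)).relIndex L ∣ (S : Subgroup G).relIndex L :=
      relIndex_dvd_of_le_left L le_sup_right
    exact Nat.eq_one_of_dvd_coprimes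
      (Nat.Coprime.pow_left m ((Nat.Prime.coprime_iff_not_dvd hp).mpr hSrel)) h1 h2
  obtain ⟨P, -, hP⟩ := Cfsg.Agent.H1.exists_sylow_of_relIndex hSL S.2 hSrel
  have hfr := Sylow.normalizer_sup_eq_top P
  rw [hP] at hfr
  rw [eq_top_iff, ← hfr]
  exact sup_le le_sup_right (hLKS.trans (sup_le le_sup_left (le_normalizer.trans le_sup_right)))

end Cfsg.Agent.H7
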