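import Cfsg.Agent.Lib_helper7_PSolv
import Cfsg.Agent.Lib_helper1_Hall
import Cfsg.Agent.Lib_helper1_PQ
import Mathlib

set_option autoImplicit false

namespace Cfsg.Agent.H7

open Subgroup Cfsg.Agent.H1
open scoped Pointwise

universe u

theorem psolv_hall_aux (N : ℕ) : ∀ (G : Type u) [Group G] [Finite G] (p : ℕ) [Fact p.Prime]
    (_ : Cfsg.IsPSolvable p G) (m n : ℕ),
    Nat.card G = N → Nat.card G = m * n → m.Coprime p → (∃ a : ℕ, n = p ^ a) →
    (∀ K : Subgroup G, (Nat.card K).Coprime p → ∃ H : Subgroup G, Nat.card H = m ∧ K ≤ H) ∧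
    (∀ H K : Subgroup G, Nat.card H = m → Nat.card K = m → ∃ g : G, MulAut.conj g • H = K) := by
  induction N using Nat.strong_induction_on with
  | _ N ih =>
  intro G _ _ p _ hsol m n hN hG hmp hn
  have hp : p.Prime := Fact.out
  obtain ⟨a, ha⟩ := hn
  have hmn : m.Coprime n := by rw [ha]; exact Nat.Coprime.pow_right a hmp
  rcases subsingleton_or_nontrivial G with hs | hnt
  · have h1 : Nat.card G = 1 := Nat.card_of_subsingleton 1
    have hm : m = 1 := Nat.eq_one_of_mul_eq_one_right (hG ▸ h1)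
    refine ⟨fun K _ => ⟨⊥, by rw [card_bot, hm], ?_⟩, fun H K _ _ => ⟨1, Subsingleton.elim _ _⟩⟩
    rw [Subsingleton.elim K ⊥]
  obtain ⟨M, hMn, hMlt, -, hPP⟩ := isPSolvable_exists_step hp hsol
    (inferInstance : (⊥ : Subgroup G).Normal) (inferInstance : (⊤ : Subgroup G).Normal) bot_lt_top
  rw [relIndex_bot_left] at hPP
  have hMne : M ≠ ⊥ := hMlt.ne'
  have hMdvd : Nat.card M ∣ m * n := hG ▸ card_subgroup_dvd_card M
  have hlt : Nat.card (G ⧸ M) < N := hN ▸ card_quotient_lt hMne
  have hQM := card_quotient_mul_card M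
  have hMpos : 0 < Nat.card M := Nat.card_pos
  have hsolQ : Cfsg.IsPSolvable p (G ⧸ M) := isPSolvable_quotient hp hsol M
  rcases hPP with ⟨k, hk⟩ | hMcop
  · -- case 2 : M is a p-group
    have hMp : IsPGroup p M := IsPGroup.of_card hk
    have hMsol : Group.IsSolvable M := isSolvable_of_isPGroup hMp
    have hcMm : (Nat.card M).Coprime m := by
      rw [hk]; exact Nat.Coprime.pow_left _ hmp.symm
    obtain ⟨n', hn'⟩ : Nat.card M ∣ n := hcMm.dvd_of_dvd_mul_left hMdvd
    have hn'p : ∃ a' : ℕ, n' = p ^ a' := by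
      have : n' ∣ p ^ a := by rw [← ha, hn']; exact Dvd.intro_left _ rfl
      obtain ⟨a', -, h⟩ := (Nat.dvd_prime_pow hp).mp this
      exact ⟨a', h⟩
    have hQ : Nat.card (G ⧸ M) = m * n' := by
      apply Nat.eq_of_mul_eq_mul_right hMpos
      rw [hQM, hG, hn']; ring
    obtain ⟨ihD, ihC⟩ := ih _ hlt (G ⧸ M) p hsolQ m n' rfl hQ hmp hn'p
    constructor
    · intro K hK
      have hKM : (Nat.card M).Coprime (Nat.card K) := by
        rw [hk]; exact Nat.Coprime.pow_left _ hK.symm
      obtain ⟨Lq, hLq, hKLq⟩ := ihD (K.map (QuotientGroup.mk' M))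
        (Nat.Coprime.coprime_dvd_left (card_map_dvd _ _) hK)
      set L := Lq.comap (QuotientGroup.mk' M) with hL
      have hLcard : Nat.card L = m * Nat.card M := by rw [hL, card_comap_mk, hLq]
      have hKL : K ≤ L := by rw [hL, ← map_le_iff_le_comap]; exact hKLq
      by_cases hLtop : L = ⊤
      · -- M is a normal Hall subgroup
        have hidx : M.index = m := by
          apply Nat.eq_of_mul_eq_mul_right hMpos
          rw [index_mul_card, ← hLcard, hLtop, card_top]
        obtain ⟨H₀, hH₀⟩ := exists_right_complement'_of_coprime (N := M) (hidx.symm ▸ hcMm)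
        have hH₀card : Nat.card H₀ = m := by rw [← hidx]; exact hH₀.symm.index_eq_card.symm
        set R := K ⊔ M with hR
        have hMR : M ≤ R := le_sup_right
        have c1 := card_inf_mul_card hMR hH₀.sup_eq_top (hH₀card.symm ▸ hcMm)
        have c2 := card_sup_mul_card_inf K M
        rw [(disjoint_of_coprime_natCard hKM.symm).eq_bot, card_bot, mul_one, ← hR, ← c1] at c2
        have c3 : Nat.card (H₀ ⊓ R : Subgroup G) = Nat.card K := Nat.eq_of_mul_eq_mul_right hMpos c2
        have hsup : M ⊔ (H₀ ⊓ R) = R := by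
          apply le_antisymm (sup_le hMR inf_le_right)
          intro x hx
          have hx' : x ∈ M ⊔ H₀ := by rw [hH₀.sup_eq_top]; trivial
          obtain ⟨a, ha, b, hb, rfl⟩ := mem_sup_of_normal_left.mp hx'
          have hbR : b ∈ R := by
            have := R.mul_mem (R.inv_mem (hMR ha)) hx
            simpa using this
          exact mul_mem (mem_sup_left ha) (mem_sup_right ⟨hb, hbR⟩)
        obtain ⟨d, -, hd⟩ := sz_conj_internal M (H₀ ⊓ R) K le_normalizer_of_normal
          (by rw [hsup]; exact le_sup_left) c3.symm (c3.symm ▸ hKM) (Or.inl hMsol)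
        refine ⟨MulAut.conj d • H₀, by rw [card_conj_smul, hH₀card], ?_⟩
        rw [← hd]
        exact pointwise_smul_le_pointwise_smul_iff.mpr inf_le_left
      · have hLlt : Nat.card L < N := hN ▸ card_lt_of_ne_top hLtop
        obtain ⟨ihD', -⟩ := ih _ hLlt L p (isPSolvable_subgroup hp hsol L) m (Nat.card M) rfl hLcard
          hmp ⟨k, hk⟩
        obtain ⟨H, hH, hKH⟩ := ihD' (K.subgroupOf L) (by rw [card_subgroupOf_of_le hKL]; exact hK)
        refine ⟨H.map L.subtype, by rw [card_map_of_injective L.subtype_injective, hH], ?_⟩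
        rw [← map_subgroupOf_eq_of_le hKL]
        exact map_mono hKH
    · intro H K hH hK
      have hq := ihC (H.map (QuotientGroup.mk' M)) (K.map (QuotientGroup.mk' M))
        (by rw [card_map_mk_of_coprime (hH.symm ▸ hcMm), hH])
        (by rw [card_map_mk_of_coprime (hK.symm ▸ hcMm), hK])
      obtain ⟨g, hg⟩ := conj_lift_quotient M H K hq
      obtain ⟨d, -, hd⟩ := sz_conj_internal M (MulAut.conj g • H) K le_normalizer_of_normal
        (by rw [sup_comm, hg]; exact le_sup_left) (by rw [card_conj_smul, hH, hK])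
        (by rw [card_conj_smul, hH]; exact hcMm) (Or.inl hMsol)
      exact ⟨d * g, by rw [map_mul, mul_smul, hd]⟩
  · -- case 1 : M is a p'-group
    have hcMn : (Nat.card M).Coprime n := by
      rw [ha]; exact Nat.Coprime.pow_right _ hMcop
    obtain ⟨m', hm'⟩ : Nat.card M ∣ m := hcMn.dvd_of_dvd_mul_right hMdvd
    have hQ : Nat.card (G ⧸ M) = m' * n := by
      apply Nat.eq_of_mul_eq_mul_right hMpos
      rw [hQM, hG, hm']; ring
    have hmp' : m'.Coprime p := Nat.Coprime.coprime_dvd_left ⟨_, by rw [hm', mul_comm]⟩ hmp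
    obtain ⟨ihD, ihC⟩ := ih _ hlt (G ⧸ M) p hsolQ m' n rfl hQ hmp' ⟨a, ha⟩
    constructor
    · intro K hK
      obtain ⟨Hq, hHq, hKHq⟩ := ihD (K.map (QuotientGroup.mk' M))
        (Nat.Coprime.coprime_dvd_left (card_map_dvd _ _) hK)
      refine ⟨Hq.comap (QuotientGroup.mk' M), by rw [card_comap_mk, hHq, hm', mul_comm], ?_⟩
      rw [← map_le_iff_le_comap]; exact hKHq
    · have hle : ∀ H : Subgroup G, Nat.card H = m → M ≤ H := by
        intro H hH
        have c1 := card_sup_mul_card_inf H M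
        have c2 : Nat.card (H ⊔ M : Subgroup G) ∣ m * n := hG ▸ card_subgroup_dvd_card _
        have c3 : (Nat.card (H ⊔ M : Subgroup G)).Coprime n := by
          apply Nat.Coprime.coprime_dvd_left (Dvd.intro _ c1)
          rw [hH]
          exact Nat.Coprime.mul_left hmn hcMn
        have c4 : Nat.card (H ⊔ M : Subgroup G) ∣ m := c3.dvd_of_dvd_mul_right c2
        have c5 : H = H ⊔ M := by
          apply eq_of_le_of_card_ge le_sup_left
          rw [hH]
          exact Nat.le_of_dvd (hH ▸ Nat.card_pos) c4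
        rw [c5]
        exact le_sup_right
      have hcard : ∀ H : Subgroup G, Nat.card H = m →
          Nat.card (H.map (QuotientGroup.mk' M)) = m' := by
        intro H hH
        apply Nat.eq_of_mul_eq_mul_right hMpos
        rw [card_map_mk_of_le (hle H hH), hH, hm', mul_comm]
      intro H K hH hK
      obtain ⟨g, hg⟩ := conj_lift_quotient M H K (ihC _ _ (hcard H hH) (hcard K hK))
      refine ⟨g, ?_⟩
      rwa [sup_eq_left.mpr (hle K hK),
        sup_eq_left.mpr (hle _ (by rw [card_conj_smul, hH]))] at hg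

/-- `p`-complements in `p`-solvable groups. -/
theorem psolv_hall {G : Type u} [Group G] [Finite G] {p : ℕ} [Fact p.Prime]
    (hsol : Cfsg.IsPSolvable p G) : ∃ m a : ℕ, Nat.card G = m * p ^ a ∧ m.Coprime p ∧
    (∀ K : Subgroup G, (Nat.card K).Coprime p → ∃ H : Subgroup G, Nat.card H = m ∧ K ≤ H) ∧
    (∀ H K : Subgroup G, Nat.card H = m → Nat.card K = m → ∃ g : G, MulAut.conj g • H = K) := by
  have hp : p.Prime := Fact.out
  obtain ⟨a, m, hm, hG⟩ := Nat.exists_eq_pow_mul_and_not_dvd (Nat.card_pos (α := G)).ne' p hp.ne_one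
  have hmp : m.Coprime p := ((Nat.Prime.coprime_iff_not_dvd hp).mpr hm).symm
  rw [mul_comm] at hG
  exact ⟨m, a, hG, hmp, psolv_hall_aux _ G p hsol m (p ^ a) rfl hG hmp ⟨a, rfl⟩⟩

end Cfsg.Agent.H7
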