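import Mathlib
import Cfsg.Agent.Lib_helper7_Quat2

set_option autoImplicit false

namespace Cfsg.Agent.H7

open Subgroup

/-- homomorphisms out of the (generalised) quaternion groups. -/
theorem quaternion_hom {G : Type*} [Group G] (n : ℕ) (α ξ : G)
    (h1 : α ^ (2 * n) = 1) (h2 : ξ * α * ξ⁻¹ = α⁻¹) (h3 : ξ ^ 2 = α ^ n) :
    ∃ f : QuaternionGroup n →* G, f (QuaternionGroup.a 1) = α ∧ f (QuaternionGroup.xa 0) = ξ := by
  let e : ZMod (2 * n) →+ Additive G :=
    ZMod.lift (2 * n) ⟨zmultiplesHom (Additive G) (Additive.ofMul α), by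
      show ((2 * n : ℕ) : ℤ) • Additive.ofMul α = 0
      rw [natCast_zsmul, ← ofMul_pow, h1]; rfl⟩
  let E : ZMod (2 * n) → G := fun i => Additive.toMul (e i)
  have hE : ∀ k : ℤ, E (k : ZMod (2 * n)) = α ^ k := by
    intro k
    show Additive.toMul (e (k : ZMod (2 * n))) = α ^ k
    rw [ZMod.lift_coe]
    rfl
  have hEadd : ∀ i j, E (i + j) = E i * E j := by
    intro i j
    show Additive.toMul (e (i + j)) = _
    rw [map_add]; rfl
  have hEneg : ∀ i, E (-i) = (E i)⁻¹ := by
    intro i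
    show Additive.toMul (e (-i)) = _
    rw [map_neg]; rfl
  have hEcomm : ∀ i j, E i * E j = E j * E i := by
    intro i j
    rw [← hEadd, ← hEadd, add_comm]
  have hconj : ∀ i, ξ * E i * ξ⁻¹ = (E i)⁻¹ := by
    intro i
    obtain ⟨k, rfl⟩ := ZMod.intCast_surjective i
    rw [hE, ← conj_zpow, h2, inv_zpow]
  have hEn : E (n : ZMod (2 * n)) = α ^ n := by
    have := hE (n : ℤ)
    simpa using this
  let f : QuaternionGroup n → G := fun q =>
    match q with
    | .a i => E i
    | .xa i => ξ * E i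
  have hf : ∀ p q, f (p * q) = f p * f q := by
    rintro (i | i) (j | j)
    · exact hEadd i j
    · show ξ * E (j - i) = E i * (ξ * E j)
      have h6 : E i * ξ = ξ * (E i)⁻¹ := by
        have := hconj (-i)
        rw [hEneg, inv_inv] at this
        calc E i * ξ = (ξ * (E i)⁻¹ * ξ⁻¹) * ξ := by rw [this]
          _ = ξ * (E i)⁻¹ := by group
      rw [← mul_assoc, h6, sub_eq_add_neg, hEadd, hEcomm j, hEneg, mul_assoc]
    · show ξ * E (i + j) = ξ * E i * E j
      rw [hEadd, mul_assoc]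
    · show E ((n : ZMod (2 * n)) + j - i) = ξ * E i * (ξ * E j)
      have h6 : ξ * E i * (ξ * E j) = (ξ * E i * ξ⁻¹) * ξ ^ 2 * E j := by
        rw [pow_two]; group
      rw [h6, hconj, h3, sub_eq_add_neg, hEadd, hEcomm, hEadd, hEneg, hEn, mul_assoc]
  refine ⟨MonoidHom.mk' f hf, ?_, ?_⟩
  · show E 1 = α
    have := hE 1
    simpa using this
  · show ξ * E 0 = ξ
    have := hE 0
    have h0 : E 0 = 1 := by simpa using this
    rw [h0, mul_one]

end Cfsg.Agent.H7
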