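import Mathlib

set_option autoImplicit false

/-! Regular normal subgroups of multiply primitive groups: blocks from equivariant involutions. -/

namespace Cfsg.Agent.H7

open MulAction SubMulAction
open scoped Pointwise

theorem block_of_invol {H Y : Type*} [Group H] [MulAction H Y] (ι : Y → Y) (hι : ∀ y, ι (ι y) = y)
    (heq : ∀ (h : H) (y : Y), h • ι y = ι (h • y)) (y : Y) : IsBlock H ({y, ι y} : Set Y) := by
  rw [isBlock_iff_smul_eq_of_nonempty]
  intro g hne
  have hg : g • ({y, ι y} : Set Y) = {g • y, ι (g • y)} := by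
    rw [Set.smul_set_insert, Set.smul_set_singleton, heq]
  rw [hg] at hne ⊢
  obtain ⟨z, hz1, hz2⟩ := hne
  simp only [Set.mem_insert_iff, Set.mem_singleton_iff] at hz1 hz2
  have hcases : g • y = y ∨ g • y = ι y := by
    rcases hz1 with rfl | rfl
    · exact hz2
    · rcases hz2 with h | h
      · right
        have := congrArg ι h
        rwa [hι] at this
      · left
        have := congrArg ι h
        rwa [hι, hι] at this
  rcases hcases with h | h
  · rw [h]
  · rw [h, hι, Set.pair_comm]

/-- in a primitive action an equivariant involution is trivial or the set has exactly two points. -/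
theorem invol_trivial_or_card {H Y : Type*} [Group H] [MulAction H Y] [IsPreprimitive H Y]
    (ι : Y → Y) (hι : ∀ y, ι (ι y) = y) (heq : ∀ (h : H) (y : Y), h • ι y = ι (h • y)) (y : Y) :
    ι y = y ∨ Nat.card Y = 2 := by
  by_cases hy : ι y = y
  · exact Or.inl hy
  right
  rcases IsPreprimitive.isTrivialBlock_of_isBlock (block_of_invol ι hι heq y) with h | h
  · exact absurd (h (Set.mem_insert_of_mem _ rfl) (Set.mem_insert _ _)) hy
  · rw [← Set.ncard_univ, ← h]
    exact Set.ncard_pair (Ne.symm hy)

theorem invol_fixing {G X : Type*} [Group G] [MulAction G X] (s : Set X)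
    (hprim : IsPreprimitive (fixingSubgroup G s) (ofFixingSubgroup G s))
    (ι : X → X) (hι : ∀ y, ι (ι y) = y) (hs : ∀ y, y ∉ s → ι y ∉ s)
    (heq : ∀ g ∈ fixingSubgroup G s, ∀ y, g • ι y = ι (g • y)) (y : X) (hy : y ∉ s) :
    ι y = y ∨ Nat.card (ofFixingSubgroup G s) = 2 := by
  let ι' : ofFixingSubgroup G s → ofFixingSubgroup G s := fun z => ⟨ι z.1, hs z.1 z.2⟩
  have h0 := invol_trivial_or_card (H := fixingSubgroup G s) ι' (fun z => Subtype.ext (hι z.1))
    (fun h z => Subtype.ext (heq h.1 h.2 z.1)) ⟨y, hy⟩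
  rcases h0 with h | h
  · left; exact congrArg Subtype.val h
  · right; exact h

theorem card_ofFixingSubgroup {G X : Type*} [Group G] [MulAction G X] [Finite X] (s : Set X) :
    s.ncard + Nat.card (ofFixingSubgroup G s) = Nat.card X := by
  rw [← Set.ncard_add_ncard_compl s]
  congr 1

/-- uniqueness for a regular subgroup -/
theorem regular_unique {G X : Type*} [Group G] [MulAction G X] (N : Subgroup G)
    (hreg : ∀ x : X, MulAction.stabilizer N x = ⊥) (x : X) {n n' : G} (hn : n ∈ N) (hn' : n' ∈ N)
    (h : n • x = n' • x) : n = n' := by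
  have h1 : (⟨n'⁻¹ * n, N.mul_mem (N.inv_mem hn') hn⟩ : N) ∈ MulAction.stabilizer N x := by
    rw [MulAction.mem_stabilizer_iff]
    show (n'⁻¹ * n) • x = x
    rw [mul_smul, h, inv_smul_smul]
  rw [hreg, Subgroup.mem_bot] at h1
  have h2 : n'⁻¹ * n = 1 := congrArg Subtype.val h1
  exact (inv_mul_eq_one.1 h2).symm

end Cfsg.Agent.H7
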