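import Mathlib.GroupTheory.Transfer
import Mathlib.GroupTheory.Focal
import Mathlib.GroupTheory.Abelianization.Defs
import Mathlib.Tactic

set_option autoImplicit false

namespace Cfsg.Agent.H7

variable {G : Type*} [Group G]

/-- Evaluation of the transfer on `g ∈ H` when conjugates of powers of `g` inside `H` have the same
image under `ϕ` as the powers themselves. -/
theorem transfer_eq_pow_of_forall [Finite G] {A : Type*} [CommGroup A] (H : Subgroup G)
    (ϕ : H →* A) (g : H)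
    (key : ∀ (k : ℕ) (a : G) (hk : a⁻¹ * (g : G) ^ k * a ∈ H),
      ϕ ⟨a⁻¹ * (g : G) ^ k * a, hk⟩ = ϕ g ^ k) :
    MonoidHom.transfer ϕ (g : G) = ϕ g ^ H.index := by
  have : Fintype (Quotient (MulAction.orbitRel (Subgroup.zpowers (g : G)) (G ⧸ H))) :=
    Fintype.ofFinite _
  rw [Subgroup.index_eq_sum_minimalPeriod H (g : G), ← Finset.prod_pow_eq_pow_sum,
    MonoidHom.transfer_eq_prod_quotient_orbitRel_zpowers_quot]
  apply Finset.prod_congr rfl
  intro q _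
  apply key

/-- a group structure with commuting elements gives a commutative group; quotient version. -/
theorem quotient_comm_of_commutators_mem (H K : Subgroup G) [(K.subgroupOf H).Normal]
    (hab : ∀ x ∈ H, ∀ y ∈ H, x * y * x⁻¹ * y⁻¹ ∈ K) (a b : H ⧸ K.subgroupOf H) :
    a * b = b * a := by
  induction a using QuotientGroup.induction_on with
  | H a =>
    induction b using QuotientGroup.induction_on with
    | H b =>
      rw [← QuotientGroup.mk_mul, ← QuotientGroup.mk_mul, QuotientGroup.eq,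
        Subgroup.mem_subgroupOf]
      have := hab _ (H.inv_mem b.2) _ (H.inv_mem a.2)
      simpa [mul_assoc] using this

/-- Transfer criterion: `g ∈ H`, `H/K` abelian, conjugates of powers of `g` in `H` congruent mod `K`;
if `g ∈ G'` then `g ^ [G:H] ∈ K`. -/
theorem pow_index_mem_of_mem_commutator [Finite G] (H K : Subgroup G)
    (hKn : (K.subgroupOf H).Normal) (hab : ∀ x ∈ H, ∀ y ∈ H, x * y * x⁻¹ * y⁻¹ ∈ K)
    (g : G) (hgH : g ∈ H)
    (hctrl : ∀ (m : ℕ) (a : G), a * g ^ m * a⁻¹ ∈ H → (a * g ^ m * a⁻¹) * (g ^ m)⁻¹ ∈ K)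
    (hg : g ∈ commutator G) : g ^ H.index ∈ K := by
  let _ : CommGroup (H ⧸ K.subgroupOf H) :=
    { (inferInstance : Group (H ⧸ K.subgroupOf H)) with
      mul_comm := quotient_comm_of_commutators_mem H K hab }
  let ϕ : H →* (H ⧸ K.subgroupOf H) := QuotientGroup.mk' (K.subgroupOf H)
  have h1 : MonoidHom.transfer ϕ ((⟨g, hgH⟩ : H) : G) = ϕ ⟨g, hgH⟩ ^ H.index := by
    apply transfer_eq_pow_of_forall
    intro k a hk
    rw [← map_pow]
    show QuotientGroup.mk _ = QuotientGroup.mk _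
    rw [eq_comm, QuotientGroup.eq, Subgroup.mem_subgroupOf]
    have h2 := hctrl k a⁻¹ (by simpa using hk)
    have h3 := K.inv_mem h2
    have h4 : ((a⁻¹ * g ^ k * a⁻¹⁻¹) * (g ^ k)⁻¹)⁻¹ = g ^ k * (a⁻¹ * g ^ k * a)⁻¹ := by group
    rw [h4] at h3
    -- conjugate by `g^k` inside `H`
    have h5 : (g ^ k)⁻¹ * (g ^ k * (a⁻¹ * g ^ k * a)⁻¹) * (g ^ k) ∈ K := by
      have hn := hKn.conj_mem ⟨g ^ k * (a⁻¹ * g ^ k * a)⁻¹, H.mul_mem (H.pow_mem hgH k) (H.inv_mem hk)⟩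
        (by rw [Subgroup.mem_subgroupOf]; exact h3) (⟨g ^ k, H.pow_mem hgH k⟩ : H)⁻¹
      rw [Subgroup.mem_subgroupOf] at hn
      simpa using hn
    have h6 : (g ^ k)⁻¹ * (g ^ k * (a⁻¹ * g ^ k * a)⁻¹) * (g ^ k) = (a⁻¹ * g ^ k * a)⁻¹ * g ^ k := by
      group
    rw [h6] at h5
    have h7 := K.inv_mem h5
    simpa [mul_assoc] using h7
  have h2 : MonoidHom.transfer ϕ g = 1 :=
    Abelianization.commutator_subset_ker (MonoidHom.transfer ϕ) hg
  have h3 : ϕ ⟨g, hgH⟩ ^ H.index = 1 := by rw [← h1]; exact h2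
  rw [← map_pow] at h3
  have h4 : (QuotientGroup.mk ((⟨g, hgH⟩ : H) ^ H.index) : H ⧸ K.subgroupOf H) = 1 := h3
  rw [QuotientGroup.eq_one_iff, Subgroup.mem_subgroupOf] at h4
  simpa using h4

/-- The kernel of the transfer into `H/K`, packaged without mentioning the transfer. -/
theorem exists_normal_transfer_ker [Finite G] (H K : Subgroup G)
    (hKn : (K.subgroupOf H).Normal) (hab : ∀ x ∈ H, ∀ y ∈ H, x * y * x⁻¹ * y⁻¹ ∈ K) :
    ∃ N : Subgroup G, N.Normal ∧ commutator G ≤ N ∧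
      (∀ y : G, (orderOf y).Coprime (K.relIndex H) → y ∈ N) ∧
      ∀ g ∈ H, (∀ (m : ℕ) (a : G), a * g ^ m * a⁻¹ ∈ H → (a * g ^ m * a⁻¹) * (g ^ m)⁻¹ ∈ K) →
        g ∈ N → g ^ H.index ∈ K := by
  let _ : CommGroup (H ⧸ K.subgroupOf H) :=
    { (inferInstance : Group (H ⧸ K.subgroupOf H)) with
      mul_comm := quotient_comm_of_commutators_mem H K hab }
  let ϕ : H →* (H ⧸ K.subgroupOf H) := QuotientGroup.mk' (K.subgroupOf H)
  refine ⟨(MonoidHom.transfer ϕ).ker, inferInstance,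
    Abelianization.commutator_subset_ker (MonoidHom.transfer ϕ), ?_, ?_⟩
  · intro y hy
    rw [MonoidHom.mem_ker]
    have h1 : orderOf (MonoidHom.transfer ϕ y) ∣ orderOf y := orderOf_map_dvd _ y
    have h2 : orderOf (MonoidHom.transfer ϕ y) ∣ K.relIndex H := orderOf_dvd_natCard _
    have h3 := Nat.eq_one_of_dvd_coprimes hy h1 h2
    rwa [orderOf_eq_one_iff] at h3
  intro g hgH hctrl hg
  have h1 : MonoidHom.transfer ϕ ((⟨g, hgH⟩ : H) : G) = ϕ ⟨g, hgH⟩ ^ H.index := by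
    apply transfer_eq_pow_of_forall
    intro k a hk
    rw [← map_pow]
    show QuotientGroup.mk _ = QuotientGroup.mk _
    rw [eq_comm, QuotientGroup.eq, Subgroup.mem_subgroupOf]
    have h2 := hctrl k a⁻¹ (by simpa using hk)
    have h3 := K.inv_mem h2
    have h4 : ((a⁻¹ * g ^ k * a⁻¹⁻¹) * (g ^ k)⁻¹)⁻¹ = g ^ k * (a⁻¹ * g ^ k * a)⁻¹ := by group
    rw [h4] at h3
    have h5 : (g ^ k)⁻¹ * (g ^ k * (a⁻¹ * g ^ k * a)⁻¹) * (g ^ k) ∈ K := by
      have hn := hKn.conj_mem ⟨g ^ k * (a⁻¹ * g ^ k * a)⁻¹, H.mul_mem (H.pow_mem hgH k) (H.inv_mem hk)⟩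
        (by rw [Subgroup.mem_subgroupOf]; exact h3) (⟨g ^ k, H.pow_mem hgH k⟩ : H)⁻¹
      rw [Subgroup.mem_subgroupOf] at hn
      simpa using hn
    have h6 : (g ^ k)⁻¹ * (g ^ k * (a⁻¹ * g ^ k * a)⁻¹) * (g ^ k) = (a⁻¹ * g ^ k * a)⁻¹ * g ^ k := by
      group
    rw [h6] at h5
    have h7 := K.inv_mem h5
    simpa [mul_assoc] using h7
  have h2 : MonoidHom.transfer ϕ g = 1 := hg
  have h3 : ϕ ⟨g, hgH⟩ ^ H.index = 1 := by rw [← h1]; exact h2
  rw [← map_pow] at h3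
  have h4 : (QuotientGroup.mk ((⟨g, hgH⟩ : H) ^ H.index) : H ⧸ K.subgroupOf H) = 1 := h3
  rw [QuotientGroup.eq_one_iff, Subgroup.mem_subgroupOf] at h4
  simpa using h4

/-- if `x ^ m` and `x ^ n` lie in `K` with `m`, `n` coprime then `x ∈ K`. -/
theorem mem_of_pow_mem_of_coprime {K : Subgroup G} {x : G} {m n : ℕ} (h : m.Coprime n)
    (hm : x ^ m ∈ K) (hn : x ^ n ∈ K) : x ∈ K := by
  have h1 := Nat.gcd_eq_gcd_ab m n
  rw [Nat.Coprime] at h
  rw [h] at h1
  have h2 : x = (x ^ m) ^ (m.gcdA n) * (x ^ n) ^ (m.gcdB n) := by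
    rw [← zpow_natCast x m, ← zpow_natCast x n, ← zpow_mul, ← zpow_mul, ← zpow_add, ← h1]
    simp
  rw [h2]
  exact K.mul_mem (K.zpow_mem hm _) (K.zpow_mem hn _)

end Cfsg.Agent.H7
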