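import Cfsg.Agent.Lib_helper1_Frattini
import Mathlib

set_option autoImplicit false

namespace Cfsg.Agent.H8
open Cfsg

section idxp
variable {X : Type*} [Group X] [Finite X] {p : ℕ} [Fact p.Prime]

/-- a nontrivial `p`-quotient gives a normal subgroup of index `p` -/
theorem exists_index_p_of_quot (H : Subgroup X) [H.Normal] (hp : IsPGroup p (X ⧸ H))
    (hne : H ≠ ⊤) : ∃ N : Subgroup X, N.Normal ∧ N.index = p := by
  have hnt : Nontrivial (X ⧸ H) := by
    rw [← Finite.one_lt_card_iff_nontrivial, ← Subgroup.index_eq_card]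
    have h1 : H.index ≠ 1 := fun h => hne (Subgroup.index_eq_one.1 h)
    have h0 : H.index ≠ 0 := Subgroup.index_ne_zero_of_finite
    omega
  obtain ⟨M, hM⟩ : ∃ M : Subgroup (X ⧸ H), IsCoatom M := by
    obtain h | ⟨M, hM, -⟩ := eq_top_or_exists_le_coatom (⊥ : Subgroup (X ⧸ H))
    · exact absurd h bot_ne_top
    · exact ⟨M, hM⟩
  obtain ⟨hn, hi⟩ := H1.coatom_of_pgroup hp hM
  refine ⟨M.comap (QuotientGroup.mk' H), hn.comap _, ?_⟩
  rw [Subgroup.index_comap_of_surjective _ (QuotientGroup.mk'_surjective H), hi]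

/-- a `p`-element outside the derived subgroup gives a normal subgroup of index `p` -/
theorem exists_index_p_of_not_mem_commutator {t : X} {k : ℕ} (ht : t ^ p ^ k = 1)
    (hn : t ∉ commutator X) : ∃ N : Subgroup X, N.Normal ∧ N.index = p := by
  set f : X →* Abelianization X := Abelianization.of with hf
  have hfs : Function.Surjective f := QuotientGroup.mk'_surjective (commutator X)
  set H : Subgroup X := (powMonoidHom p : Abelianization X →* Abelianization X).range.comap f with hH
  have hHn : H.Normal := Subgroup.Normal.comap inferInstance f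
  refine exists_index_p_of_quot H ?_ ?_
  · intro y
    obtain ⟨x, rfl⟩ := QuotientGroup.mk'_surjective H y
    refine ⟨1, ?_⟩
    rw [pow_one, ← map_pow]
    refine (QuotientGroup.eq_one_iff _).2 ?_
    rw [hH, Subgroup.mem_comap]
    exact ⟨f x, by simp⟩
  · intro htop
    have hsurj : Function.Surjective (powMonoidHom p : Abelianization X →* Abelianization X) := by
      intro a
      obtain ⟨x, rfl⟩ := hfs a
      have hx : x ∈ H := by rw [htop]; trivial
      exact hx
    have hinj : Function.Injective (powMonoidHom p : Abelianization X →* Abelianization X) :=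
      Finite.injective_iff_surjective.2 hsurj
    have hall : ∀ j : ℕ, ∀ a : Abelianization X, a ^ p ^ j = 1 → a = 1 := by
      intro j
      induction j with
      | zero => intro a ha; simpa using ha
      | succ j ih =>
        intro a ha
        apply ih
        apply hinj
        simp only [powMonoidHom_apply, one_pow]
        rw [← pow_mul, ← pow_succ]; exact ha
    have h1 : f t = 1 := hall k (f t) (by rw [← map_pow, ht, map_one])
    apply hn
    have : t ∈ f.ker := h1
    rwa [hf, Abelianization.ker_of] at this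

/-- lifting elements of order prime to `p` -/
theorem exists_coprime_lift {Y : Type*} [Group Y] (π : X →* Y) (hπ : Function.Surjective π)
    {y : Y} (hy : (orderOf y).Coprime p) : ∃ x : X, π x = y ∧ (orderOf x).Coprime p := by
  have hp := (Fact.out : p.Prime)
  obtain ⟨g, rfl⟩ := hπ y
  obtain ⟨a, m, hm, ho⟩ := Nat.exists_eq_pow_mul_and_not_dvd (orderOf_pos g).ne' p hp.ne_one
  obtain ⟨j, hj⟩ := exists_pow_eq_self_of_coprime (n := p ^ a) (x := π g)
    (Nat.Coprime.pow_left a hy.symm)
  refine ⟨(g ^ p ^ a) ^ j, by rw [map_pow, map_pow, hj], ?_⟩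
  have h1 : ((g ^ p ^ a) ^ j) ^ m = 1 := by
    rw [← pow_mul, ← pow_mul, mul_left_comm, ← ho, mul_comm, pow_mul, pow_orderOf_eq_one, one_pow]
  have h2 : orderOf ((g ^ p ^ a) ^ j) ∣ m := orderOf_dvd_of_pow_eq_one h1
  exact Nat.Coprime.coprime_dvd_left h2 ((Nat.Prime.coprime_iff_not_dvd hp).2 hm).symm

/-- normal Sylow subgroup centralized by all `p'`-elements -/
theorem exists_index_p_of_normal_sylow (V : Subgroup X) [V.Normal] (hV : IsPGroup p V)
    (hne : V ≠ ⊥) (hi : ¬ p ∣ V.index)
    (hc : ∀ g : X, (orderOf g).Coprime p → g ∈ Subgroup.centralizer (V : Set X)) :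
    ∃ N : Subgroup X, N.Normal ∧ N.index = p := by
  have hp := (Fact.out : p.Prime)
  obtain ⟨n, hn⟩ := IsPGroup.iff_card.1 hV
  have hcop : (Nat.card V).Coprime V.index := by
    rw [hn]; exact Nat.Coprime.pow_left n ((Nat.Prime.coprime_iff_not_dvd hp).2 hi)
  obtain ⟨H, hH⟩ := Subgroup.exists_right_complement'_of_coprime hcop
  have hHcard : Nat.card H = V.index := by
    have h1 := hH.card_mul_card
    have h2 := V.card_mul_index
    have h3 : 0 < Nat.card V := Nat.card_pos
    exact Nat.eq_of_mul_eq_mul_left h3 (h1.trans h2.symm)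
  have hHC : H ≤ Subgroup.centralizer (V : Set X) := by
    intro h hh
    apply hc
    have h1 : orderOf h ∣ Nat.card H := by
      have := orderOf_dvd_natCard (⟨h, hh⟩ : H)
      rwa [Subgroup.orderOf_mk] at this
    rw [hHcard] at h1
    exact Nat.Coprime.coprime_dvd_left h1 ((Nat.Prime.coprime_iff_not_dvd hp).2 hi).symm
  have hHn : H.Normal := by
    constructor
    intro h hh x
    obtain ⟨⟨⟨v, hv⟩, ⟨h', hh'⟩⟩, rfl⟩ := hH.2 x
    have h1 : h' * h * h'⁻¹ ∈ H := H.mul_mem (H.mul_mem hh' hh) (H.inv_mem hh')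
    have h2 := Subgroup.mem_centralizer_iff.1 (hHC h1) v hv
    have e : (v * h') * h * (v * h')⁻¹ = (v * (h' * h * h'⁻¹)) * v⁻¹ := by group
    show (v * h') * h * (v * h')⁻¹ ∈ H
    rw [e, h2, mul_inv_cancel_right]; exact h1
  refine exists_index_p_of_quot H ?_ ?_
  · rw [IsPGroup.iff_card]
    refine ⟨n, ?_⟩
    rw [← Subgroup.index_eq_card, ← hn]
    have h1 := hH.card_mul_card
    have h2 := H.card_mul_index
    have h3 : 0 < Nat.card H := Nat.card_pos
    apply Nat.eq_of_mul_eq_mul_left h3
    rw [h2, ← h1, mul_comm]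
  · intro htop
    apply hne
    have h1 := hH.card_mul_card
    rw [htop, Subgroup.card_top] at h1
    have h3 : 0 < Nat.card X := Nat.card_pos
    have h4 : Nat.card V = 1 := by
      have : Nat.card V * Nat.card X = 1 * Nat.card X := by rw [h1, one_mul]
      exact Nat.eq_of_mul_eq_mul_right h3 this
    exact Subgroup.card_eq_one.1 h4

end idxp

end Cfsg.Agent.H8
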