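import Mathlib
import Cfsg.Prelude.Def_LieExceptional

set_option autoImplicit false

/-! Basic theory of (B,N)-pairs, working with representatives inside `G`. -/

namespace Cfsg.Agent.LeadBN

variable {G : Type*} [Group G]

/-- same double coset of `B` -/
def R (P : Cfsg.BNPair G) (x y : G) : Prop := ∃ b ∈ P.B, ∃ b' ∈ P.B, x = b * y * b'

/-- same left coset of `B` -/
def E (P : Cfsg.BNPair G) (x y : G) : Prop := x⁻¹ * y ∈ P.B

variable {P : Cfsg.BNPair G}

theorem R_iff {x y : G} : R P x y ↔ x ∈ DoubleCoset.doubleCoset y (P.B : Set G) P.B :=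
  DoubleCoset.mem_doubleCoset.symm

theorem R.refl (x : G) : R P x x := ⟨1, P.B.one_mem, 1, P.B.one_mem, by simp⟩

theorem R.symm {x y : G} (h : R P x y) : R P y x := by
  obtain ⟨b, hb, b', hb', rfl⟩ := h
  exact ⟨b⁻¹, P.B.inv_mem hb, b'⁻¹, P.B.inv_mem hb', by group⟩

theorem R.trans {x y z : G} (h : R P x y) (h' : R P y z) : R P x z := by
  obtain ⟨b, hb, b', hb', rfl⟩ := h
  obtain ⟨c, hc, c', hc', rfl⟩ := h'
  exact ⟨b * c, P.B.mul_mem hb hc, c' * b', P.B.mul_mem hc' hb', by group⟩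

theorem R.mul_left {x y b : G} (hb : b ∈ P.B) (h : R P x y) : R P (b * x) y := by
  obtain ⟨c, hc, c', hc', rfl⟩ := h
  exact ⟨b * c, P.B.mul_mem hb hc, c', hc', by group⟩

theorem R.mul_right {x y b : G} (hb : b ∈ P.B) (h : R P x y) : R P (x * b) y := by
  obtain ⟨c, hc, c', hc', rfl⟩ := h
  exact ⟨c, hc, c' * b, P.B.mul_mem hc' hb, by group⟩

theorem R.inv {x y : G} (h : R P x y) : R P x⁻¹ y⁻¹ := by
  obtain ⟨c, hc, c', hc', rfl⟩ := h
  exact ⟨c'⁻¹, P.B.inv_mem hc', c⁻¹, P.B.inv_mem hc, by group⟩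

theorem R_of_E {x y : G} (h : E P x y) : R P x y :=
  ⟨1, P.B.one_mem, (x⁻¹ * y)⁻¹, P.B.inv_mem h, by group⟩

theorem coset_eq_iff {x y : G} :
    DoubleCoset.doubleCoset x (P.B : Set G) P.B = DoubleCoset.doubleCoset y (P.B : Set G) P.B ↔
      R P x y :=
  ⟨fun h => R_iff.2 (h ▸ DoubleCoset.mem_doubleCoset_self _ _ x),
    fun h => DoubleCoset.doubleCoset_eq_of_mem (R_iff.1 h)⟩

theorem R_mem_B {x y : G} (hy : y ∈ P.B) (h : R P x y) : x ∈ P.B := by
  obtain ⟨c, hc, c', hc', rfl⟩ := h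
  exact P.B.mul_mem (P.B.mul_mem hc hy) hc'

theorem R_of_mem_B {x y : G} (hx : x ∈ P.B) (hy : y ∈ P.B) : R P x y :=
  ⟨x, hx, y⁻¹, P.B.inv_mem hy, by group⟩

theorem E.refl (x : G) : E P x x := by simp [E, P.B.one_mem]

theorem E.symm {x y : G} (h : E P x y) : E P y x := by
  have := P.B.inv_mem h
  simpa [E] using this

theorem E.trans {x y z : G} (h : E P x y) (h' : E P y z) : E P x z := by
  have := P.B.mul_mem h h'
  have e : x⁻¹ * y * (y⁻¹ * z) = x⁻¹ * z := by group
  rwa [e] at this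

theorem E.mul_left {x y : G} (g : G) (h : E P x y) : E P (g * x) (g * y) := by
  have e : (g * x)⁻¹ * (g * y) = x⁻¹ * y := by group
  unfold E; rw [e]; exact h

theorem conj_mem' {n t : G} (hn : n ∈ P.N) (ht : t ∈ P.B) (htN : t ∈ P.N) : n⁻¹ * t * n ∈ P.B := by
  have := P.conj_mem n⁻¹ (P.N.inv_mem hn) t ⟨ht, htN⟩
  simpa using this

theorem E.mul_right {x y n : G} (hx : x ∈ P.N) (hy : y ∈ P.N) (hn : n ∈ P.N) (h : E P x y) :
    E P (x * n) (y * n) := by
  have e : (x * n)⁻¹ * (y * n) = n⁻¹ * (x⁻¹ * y) * n := by group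
  unfold E; rw [e]
  exact conj_mem' hn h (P.N.mul_mem (P.N.inv_mem hx) hy)

theorem E_sq {s n : G} (hs : s ∈ P.S) (hn : n ∈ P.N) : E P (s * (s * n)) n := by
  have e : (s * (s * n))⁻¹ * n = n⁻¹ * (s * s)⁻¹ * n := by group
  unfold E; rw [e]
  exact conj_mem' hn (P.B.inv_mem (P.sq_mem s hs))
    (P.N.inv_mem (P.N.mul_mem (P.subset hs) (P.subset hs)))

theorem E_inv {s : G} (hs : s ∈ P.S) : E P s⁻¹ s := by
  unfold E; rw [inv_inv]; exact P.sq_mem s hs

theorem T3 {s n b x : G} (hs : s ∈ P.S) (hn : n ∈ P.N) (hb : b ∈ P.B) (hx : R P x n) :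
    R P (s * b * x) (s * n) ∨ R P (s * b * x) n := by
  obtain ⟨c, hc, c', hc', rfl⟩ := hx
  have h1 : s * b * (c * n * c') = (s * (b * c) * n) * c' := by group
  rw [h1]
  rcases P.mul_mem_union s hs n hn (b * c) (P.B.mul_mem hb hc) with h | h
  · exact Or.inl ((R_iff.2 h).mul_right hc')
  · exact Or.inr ((R_iff.2 h).mul_right hc')

theorem T3inv {s n b x : G} (hs : s ∈ P.S) (hn : n ∈ P.N) (hb : b ∈ P.B) (hx : R P x n) :
    R P (s⁻¹ * b * x) (s * n) ∨ R P (s⁻¹ * b * x) n := by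
  have h1 : s⁻¹ * b * x = (s * s)⁻¹ * (s * b * x) := by group
  rw [h1]
  rcases T3 hs hn hb hx with h | h
  · exact Or.inl (h.mul_left (P.B.inv_mem (P.sq_mem s hs)))
  · exact Or.inr (h.mul_left (P.B.inv_mem (P.sq_mem s hs)))

theorem T3r {s n b x : G} (hs : s ∈ P.S) (hn : n ∈ P.N) (hb : b ∈ P.B) (hx : R P x n) :
    R P (x * b * s) (n * s) ∨ R P (x * b * s) n := by
  have e : x * b * s = (s⁻¹ * b⁻¹ * x⁻¹)⁻¹ := by group
  rcases T3inv hs (P.N.inv_mem hn) (P.B.inv_mem hb) hx.inv with h | h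
  · left
    rw [e]
    have h2 := h.inv
    have e2 : (s * n⁻¹)⁻¹ = n * s⁻¹ := by group
    rw [e2] at h2
    exact h2.trans (R_of_E ((E_inv hs).mul_left n))
  · right
    rw [e]
    have h2 := h.inv
    rwa [inv_inv] at h2

theorem exists_not_mem {s : G} (hs : s ∈ P.S) : ∃ b ∈ P.B, s * b * s ∉ P.B := by
  by_contra hcon
  push Not at hcon
  apply P.conj_ne s hs
  ext x
  constructor
  · rintro ⟨b, hb, rfl⟩
    exact hcon b hb
  · intro hx
    have hq := P.B.inv_mem (P.sq_mem s hs)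
    refine ⟨(s * s)⁻¹ * (s * x * s) * (s * s)⁻¹,
      P.B.mul_mem (P.B.mul_mem hq (hcon x hx)) hq, ?_⟩
    show s * ((s * s)⁻¹ * (s * x * s) * (s * s)⁻¹) * s = x
    group

theorem not_mem_B {s : G} (hs : s ∈ P.S) : s ∉ P.B := by
  intro h
  obtain ⟨b, hb, hn⟩ := exists_not_mem hs
  exact hn (P.B.mul_mem (P.B.mul_mem h hb) h)

theorem exists_R_self {s : G} (hs : s ∈ P.S) : ∃ b ∈ P.B, R P (s * b * s) s := by
  obtain ⟨b, hb, hn⟩ := exists_not_mem hs
  refine ⟨b, hb, ?_⟩
  rcases T3 hs (P.subset hs) hb (R.refl s) with h | h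
  · exact absurd (R_mem_B (P.sq_mem s hs) h) hn
  · exact h

theorem prod_mem_N {J : Set G} (hJ : J ⊆ P.S) {L : List G} (hL : ∀ x ∈ L, x ∈ J) :
    L.prod ∈ P.N :=
  P.N.list_prod_mem fun x hx => P.subset (hJ (hL x hx))

theorem exists_word {J : Set G} (hJ : J ⊆ P.S) {n : G}
    (hn : n ∈ Subgroup.closure (J ∪ ((P.B ⊓ P.N : Subgroup G) : Set G))) :
    ∃ L : List G, (∀ x ∈ L, x ∈ J) ∧ E P L.prod n := by
  induction hn using Subgroup.closure_induction_left with
  | one => exact ⟨[], by simp, by simp [E, P.B.one_mem]⟩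
  | mul_left x hx y hy ih =>
    obtain ⟨L, hL, hE⟩ := ih
    rcases hx with hx | hx
    · refine ⟨x :: L, ?_, ?_⟩
      · intro z hz
        rcases List.mem_cons.1 hz with rfl | hz
        · exact hx
        · exact hL z hz
      · rw [List.prod_cons]; exact hE.mul_left x
    · refine ⟨L, hL, ?_⟩
      have e : L.prod⁻¹ * (x * y) = (L.prod⁻¹ * x * L.prod) * (L.prod⁻¹ * y) := by group
      unfold E; rw [e]
      exact P.B.mul_mem (conj_mem' (prod_mem_N hJ hL) hx.1 hx.2) hE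
  | inv_mul_cancel x hx y hy ih =>
    obtain ⟨L, hL, hE⟩ := ih
    rcases hx with hx | hx
    · refine ⟨x :: L, ?_, ?_⟩
      · intro z hz
        rcases List.mem_cons.1 hz with rfl | hz
        · exact hx
        · exact hL z hz
      · rw [List.prod_cons]
        have e : (x * L.prod)⁻¹ * (x⁻¹ * y) = (L.prod⁻¹ * (x * x)⁻¹ * L.prod) * (L.prod⁻¹ * y) := by
          group
        unfold E; rw [e]
        have hxS := hJ hx
        exact P.B.mul_mem (conj_mem' (prod_mem_N hJ hL) (P.B.inv_mem (P.sq_mem x hxS))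
          (P.N.inv_mem (P.N.mul_mem (P.subset hxS) (P.subset hxS)))) hE
    · refine ⟨L, hL, ?_⟩
      have e : L.prod⁻¹ * (x⁻¹ * y) = (L.prod⁻¹ * x⁻¹ * L.prod) * (L.prod⁻¹ * y) := by group
      unfold E; rw [e]
      exact P.B.mul_mem (conj_mem' (prod_mem_N hJ hL) (P.B.inv_mem hx.1) (P.N.inv_mem hx.2)) hE

theorem exists_word_N {n : G} (hn : n ∈ P.N) :
    ∃ L : List G, (∀ x ∈ L, x ∈ P.S) ∧ E P L.prod n := by
  apply exists_word (le_refl _)
  rw [Subgroup.closure_union, Subgroup.closure_eq, P.closure_sup]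
  exact hn

theorem exists_word_closure {J : Set G} (hJ : J ⊆ P.S) {n : G} (hn : n ∈ Subgroup.closure J) :
    ∃ L : List G, (∀ x ∈ L, x ∈ J) ∧ E P L.prod n :=
  exists_word hJ (Subgroup.closure_mono Set.subset_union_left hn)

theorem exists_min_word {J : Set G} {n : G}
    (h : ∃ L : List G, (∀ x ∈ L, x ∈ J) ∧ E P L.prod n) :
    ∃ L : List G, (∀ x ∈ L, x ∈ J) ∧ E P L.prod n ∧
      ∀ L' : List G, (∀ x ∈ L', x ∈ J) → E P L'.prod n → L.length ≤ L'.length := by
  classical
  have h' : ∃ k : ℕ, ∃ L : List G, (∀ x ∈ L, x ∈ J) ∧ E P L.prod n ∧ L.length = k := by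
    obtain ⟨L, h1, h2⟩ := h
    exact ⟨L.length, L, h1, h2, rfl⟩
  obtain ⟨L, h1, h2, h3⟩ := Nat.find_spec h'
  refine ⟨L, h1, h2, fun L' h1' h2' => ?_⟩
  rw [h3]
  exact Nat.find_min' h' ⟨L', h1', h2', rfl⟩

theorem bruhat_aux : ∀ L : List G, (∀ x ∈ L, x ∈ P.S) → ∀ n' ∈ P.N,
    (∀ L' : List G, (∀ x ∈ L', x ∈ P.S) → E P L'.prod n' → L.length ≤ L'.length) →
    R P L.prod n' → E P L.prod n' := by
  intro L
  induction L with
  | nil =>
    intro _ n' _ _ hR
    have : n' ∈ P.B := R_mem_B (by simp) hR.symm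
    simpa [E] using this
  | cons s L ih =>
    intro hL n' hn' hmin hR
    have hs : s ∈ P.S := hL s (by simp)
    have hL2 : ∀ x ∈ L, x ∈ P.S := fun x hx => hL x (List.mem_cons_of_mem _ hx)
    rw [List.prod_cons] at hR ⊢
    have e : L.prod = s⁻¹ * 1 * (s * L.prod) := by group
    rcases T3inv hs hn' P.B.one_mem hR with h | h
    · rw [← e] at h
      have hmin2 : ∀ L' : List G, (∀ x ∈ L', x ∈ P.S) → E P L'.prod (s * n') →
          L.length ≤ L'.length := by
        intro L' hL' hE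
        have h1 : E P (s :: L').prod n' := by
          rw [List.prod_cons]
          exact (hE.mul_left s).trans (E_sq hs hn')
        have h2 := hmin (s :: L') (by
          intro z hz
          rcases List.mem_cons.1 hz with rfl | hz
          · exact hs
          · exact hL' z hz) h1
        simpa using h2
      have h3 := ih hL2 (s * n') (P.N.mul_mem (P.subset hs) hn') hmin2 h
      exact (h3.mul_left s).trans (E_sq hs hn')
    · rw [← e] at h
      have h3 := ih hL2 n' hn' (fun L' hL' hE => by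
        have := hmin L' hL' hE
        simp only [List.length_cons] at this
        omega) h
      have := hmin L hL2 h3
      simp only [List.length_cons] at this
      omega

/-- Bruhat uniqueness. -/
theorem bruhat {n n' : G} (hn : n ∈ P.N) (hn' : n' ∈ P.N) (h : R P n n') : E P n n' := by
  obtain ⟨L, h1, h2, h3⟩ := exists_min_word (exists_word_N hn)
  obtain ⟨L', h1', h2', h3'⟩ := exists_min_word (exists_word_N hn')
  rcases le_total L.length L'.length with hle | hle
  · have := bruhat_aux L h1 n' hn' (fun M hM hE => hle.trans (h3' M hM hE))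
      ((R_of_E h2).trans h)
    exact h2.symm.trans this
  · have := bruhat_aux L' h1' n hn (fun M hM hE => hle.trans (h3 M hM hE))
      ((R_of_E h2').trans h.symm)
    exact (h2'.symm.trans this).symm

/-- `C(s) C(n) = C(s n)` -/
def Ps (P : Cfsg.BNPair G) (s n : G) : Prop := ∀ b ∈ P.B, R P (s * b * n) (s * n)

theorem Ps_congr {s n n' : G} (h : E P n n') (hP : Ps P s n) : Ps P s n' := by
  intro b hb
  have e : s * b * n' = (s * b * n) * (n⁻¹ * n') := by group
  rw [e]
  exact ((hP b hb).mul_right h).trans (R_of_E (h.mul_left s))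

theorem Ps_ext {s n b x : G} (hP : Ps P s n) (hb : b ∈ P.B) (hx : R P x n) :
    R P (s * b * x) (s * n) := by
  obtain ⟨c, hc, c', hc', rfl⟩ := hx
  have e : s * b * (c * n * c') = (s * (b * c) * n) * c' := by group
  rw [e]
  exact (hP _ (P.B.mul_mem hb hc)).mul_right hc'

theorem Ps_one (s : G) : Ps P s 1 := fun b hb => ⟨1, P.B.one_mem, b, hb, by group⟩

theorem not_Ps_both {s n : G} (hs : s ∈ P.S) (hn : n ∈ P.N) (h1 : Ps P s n)
    (h2 : Ps P s (s * n)) : False := by
  obtain ⟨b0, hb0, c1, hc1, c2, hc2, h⟩ := exists_R_self hs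
  have h3 : R P (s * c2⁻¹ * n) (s * n) := h1 _ (P.B.inv_mem hc2)
  have h4 : R P (s * b0 * (s * c2⁻¹ * n)) (s * (s * n)) := Ps_ext h2 hb0 h3
  have h5 : s * b0 * (s * c2⁻¹ * n) = c1 * (s * n) := by
    calc s * b0 * (s * c2⁻¹ * n) = (s * b0 * s) * c2⁻¹ * n := by group
      _ = c1 * (s * n) := by rw [h]; group
  rw [h5] at h4
  have h6 : R P (s * n) n := by
    have h7 : R P (s * n) (c1 * (s * n)) := ((R.refl (s * n)).mul_left hc1).symm
    exact (h7.trans h4).trans (R_of_E (E_sq hs hn))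
  have h8 := bruhat (P.N.mul_mem (P.subset hs) hn) hn h6
  have h9 : (s * n)⁻¹ * n ∈ P.N := P.N.mul_mem (P.N.inv_mem (P.N.mul_mem (P.subset hs) hn)) hn
  have h10 := P.conj_mem n hn _ ⟨h8, h9⟩
  have e : n * ((s * n)⁻¹ * n) * n⁻¹ = s⁻¹ := by group
  rw [e] at h10
  exact not_mem_B hs (by simpa using P.B.inv_mem h10)

theorem Cprime {s s' n : G} (hs : s ∈ P.S) (hs' : s' ∈ P.S) (hn : n ∈ P.N) (h1 : Ps P s n)
    (h2 : ¬ Ps P s (n * s')) : E P (n * s') (s * n) := by
  unfold Ps at h2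
  push Not at h2
  obtain ⟨b, hb, hnR⟩ := h2
  have hns : n * s' ∈ P.N := P.N.mul_mem hn (P.subset hs')
  have hsn : s * n ∈ P.N := P.N.mul_mem (P.subset hs) hn
  have h3 : R P (s * b * (n * s')) (n * s') := by
    rcases T3 hs hns hb (R.refl _) with h | h
    · exact absurd h hnR
    · exact h
  have h4 : R P (s * b * (n * s')) (s * n) := by
    have e : s * b * (n * s') = (s * b * n) * 1 * s' := by group
    rcases T3r hs' hsn P.B.one_mem (h1 b hb) with h | h
    · rw [← e, mul_assoc s n s'] at h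
      exact absurd h hnR
    · rw [← e] at h
      exact h
  exact bruhat hns hsn (h3.symm.trans h4)

theorem exchange {s : G} (hs : s ∈ P.S) : ∀ L : List G, (∀ x ∈ L, x ∈ P.S) → ¬ Ps P s L.prod →
    ∃ L' : List G, (∀ x ∈ L', x ∈ L) ∧ L'.length + 1 = L.length ∧ E P (s * L.prod) L'.prod := by
  intro L
  induction L using List.reverseRecOn with
  | nil =>
    intro _ h
    exact absurd (by simpa using Ps_one s) h
  | append_singleton L s' ih =>
    intro hL h
    have hs' : s' ∈ P.S := hL s' (by simp)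
    have hL2 : ∀ x ∈ L, x ∈ P.S := fun x hx => hL x (by simp [hx])
    have hLN : L.prod ∈ P.N := prod_mem_N (le_refl _) hL2
    rw [List.prod_append, List.prod_singleton] at h ⊢
    by_cases hP : Ps P s L.prod
    · refine ⟨L, fun x hx => by simp [hx], by simp, ?_⟩
      exact ((Cprime hs hs' hLN hP h).mul_left s).trans (E_sq hs hLN)
    · obtain ⟨L', h1, h2, h3⟩ := ih hL2 hP
      refine ⟨L' ++ [s'], ?_, by simp [h2], ?_⟩
      · intro x hx
        rcases List.mem_append.1 hx with hx | hx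
        · exact List.mem_append_left _ (h1 x hx)
        · exact List.mem_append_right _ hx
      · rw [List.prod_append, List.prod_singleton, ← mul_assoc]
        exact h3.mul_right (P.N.mul_mem (P.subset hs) hLN)
          (prod_mem_N (le_refl _) fun x hx => hL2 x (h1 x hx)) (P.subset hs')

/-- `L` is a shortest `J`-word. -/
def Red (P : Cfsg.BNPair G) (J : Set G) (L : List G) : Prop :=
  ∀ L' : List G, (∀ x ∈ L', x ∈ J) → E P L'.prod L.prod → L.length ≤ L'.length

theorem head_not_Ps {J : Set G} (hJ : J ⊆ P.S) {s : G} {L : List G} (hL : ∀ x ∈ s :: L, x ∈ J)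
    (hred : Red P J (s :: L)) : ¬ Ps P s (s :: L).prod := by
  intro h
  have hs : s ∈ P.S := hJ (hL s (by simp))
  have hL2 : ∀ x ∈ L, x ∈ J := fun x hx => hL x (List.mem_cons_of_mem _ hx)
  have hLN : L.prod ∈ P.N := prod_mem_N hJ hL2
  rw [List.prod_cons] at h
  have h2 : ¬ Ps P s L.prod := by
    intro h3
    exact not_Ps_both hs hLN h3 h
  obtain ⟨L', h4, h5, h6⟩ := exchange hs L (fun x hx => hJ (hL2 x hx)) h2
  have := hred L' (fun x hx => hL2 x (h4 x hx)) (by rw [List.prod_cons]; exact h6.symm)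
  simp only [List.length_cons] at this
  omega

theorem Red_tail {J : Set G} {s : G} {L : List G} (hs : s ∈ J) (hred : Red P J (s :: L)) :
    Red P J L := by
  intro L' hL' hE
  have := hred (s :: L') (by
    intro z hz
    rcases List.mem_cons.1 hz with rfl | hz
    · exact hs
    · exact hL' z hz) (by rw [List.prod_cons, List.prod_cons]; exact hE.mul_left s)
  simpa using this

theorem letters_mem {J : Set G} (hJ : J ⊆ P.S) : ∀ L : List G, (∀ x ∈ L, x ∈ J) → Red P J L →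
    ∀ H : Subgroup G, P.B ≤ H → (∀ b ∈ P.B, L.prod * b * L.prod⁻¹ ∈ H) → ∀ x ∈ L, x ∈ H := by
  intro L
  induction L with
  | nil => intro _ _ _ _ _ x hx; simp at hx
  | cons s L ih =>
    intro hL hred H hBH hc
    have hsJ : s ∈ J := hL s (by simp)
    have hs : s ∈ P.S := hJ hsJ
    have hL2 : ∀ x ∈ L, x ∈ J := fun x hx => hL x (List.mem_cons_of_mem _ hx)
    have hsH : s ∈ H := by
      have h1 := head_not_Ps hJ hL hred
      unfold Ps at h1
      push Not at h1
      obtain ⟨b, hb, hnR⟩ := h1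
      rcases T3 hs (prod_mem_N hJ hL) hb (R.refl _) with h | h
      · exact absurd h hnR
      · obtain ⟨c, hc1, c', hc', h⟩ := h
        have e : s = c * ((s :: L).prod * c' * (s :: L).prod⁻¹) * b⁻¹ := by
          calc s = (s * b * (s :: L).prod) * (s :: L).prod⁻¹ * b⁻¹ := by group
            _ = _ := by rw [h]; group
        rw [e]
        exact H.mul_mem (H.mul_mem (hBH hc1) (hc c' hc')) (H.inv_mem (hBH hb))
    have h2 := ih hL2 (Red_tail hsJ hred) H hBH (by
      intro b hb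
      have e : L.prod * b * L.prod⁻¹ = s⁻¹ * ((s :: L).prod * b * (s :: L).prod⁻¹) * s := by
        rw [List.prod_cons]; group
      rw [e]
      exact H.mul_mem (H.mul_mem (H.inv_mem hsH) (hc b hb)) hsH)
    intro x hx
    rcases List.mem_cons.1 hx with rfl | hx
    · exact hsH
    · exact h2 x hx

/-- If `n` has a `J`-word and `H ≥ B` contains `n B n⁻¹`, then `n` has a `J ∩ H`-word. -/
theorem word_in {J : Set G} (hJ : J ⊆ P.S) {n : G}
    (hw : ∃ L : List G, (∀ x ∈ L, x ∈ J) ∧ E P L.prod n) (H : Subgroup G) (hBH : P.B ≤ H)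
    (hc : ∀ b ∈ P.B, n * b * n⁻¹ ∈ H) :
    ∃ L : List G, (∀ x ∈ L, x ∈ J ∧ x ∈ H) ∧ E P L.prod n := by
  obtain ⟨L, h1, h2, h3⟩ := exists_min_word hw
  refine ⟨L, fun x hx => ⟨h1 x hx, ?_⟩, h2⟩
  refine letters_mem hJ L h1 (fun L' hL' hE => h3 L' hL' (hE.trans h2)) H hBH ?_ x hx
  intro b hb
  have e : L.prod * b * L.prod⁻¹ = n * ((L.prod⁻¹ * n)⁻¹ * b * (L.prod⁻¹ * n)) * n⁻¹ := by group
  rw [e]
  exact hc _ (P.B.mul_mem (P.B.mul_mem (P.B.inv_mem h2) hb) h2)

end Cfsg.Agent.LeadBN
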