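import Mathlib
import Cfsg.Prelude.Def_LieExceptional
import Cfsg.Agent.Lib_lead_BN1

set_option autoImplicit false

/-! Parabolic subgroups of (B,N)-pairs. -/

namespace Cfsg.Agent.LeadBN

variable {G : Type*} [Group G] {P : Cfsg.BNPair G}

theorem B_le_parabolic (J : Set G) : P.B ≤ P.parabolic J := le_sup_left

theorem closure_le_parabolic (J : Set G) : Subgroup.closure J ≤ P.parabolic J := le_sup_right

theorem subset_parabolic {J : Set G} {x : G} (hx : x ∈ J) : x ∈ P.parabolic J :=
  closure_le_parabolic J (Subgroup.subset_closure hx)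

theorem parabolic_le {J : Set G} {M : Subgroup G} (hB : P.B ≤ M) (hJ : ∀ x ∈ J, x ∈ M) :
    P.parabolic J ≤ M :=
  sup_le hB ((Subgroup.closure_le M).2 hJ)

theorem parabolic_mono {J K : Set G} (h : J ⊆ K) : P.parabolic J ≤ P.parabolic K :=
  parabolic_le (B_le_parabolic K) fun _ hx => subset_parabolic (h hx)

theorem closure_le_N {J : Set G} (hJ : J ⊆ P.S) : Subgroup.closure J ≤ P.N :=
  (Subgroup.closure_le _).2 fun _ hx => P.subset (hJ hx)

theorem mem_of_R {M : Subgroup G} (hB : P.B ≤ M) {x y : G} (h : R P x y) (hy : y ∈ M) : x ∈ M := by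
  obtain ⟨c, hc, c', hc', rfl⟩ := h
  exact M.mul_mem (M.mul_mem (hB hc) hy) (hB hc')

theorem mem_of_E {M : Subgroup G} (hB : P.B ≤ M) {x y : G} (h : E P x y) (hx : x ∈ M) : y ∈ M :=
  mem_of_R hB (R_of_E h).symm hx

theorem mem_parabolic_iff {J : Set G} (hJ : J ⊆ P.S) (g : G) :
    g ∈ P.parabolic J ↔ ∃ n ∈ Subgroup.closure J, R P g n := by
  constructor
  · intro hg
    have hg' : g ∈ Subgroup.closure ((P.B : Set G) ∪ J) := by
      rw [Subgroup.closure_union, Subgroup.closure_eq]; exact hg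
    induction hg' using Subgroup.closure_induction_left with
    | one => exact ⟨1, Subgroup.one_mem _, R.refl 1⟩
    | mul_left x hx y hy ih =>
      have hy' : y ∈ P.parabolic J := by
        have := hy
        rw [Subgroup.closure_union, Subgroup.closure_eq] at this; exact this
      obtain ⟨n, hn, hR⟩ := ih hy'
      rcases hx with hx | hx
      · exact ⟨n, hn, hR.mul_left hx⟩
      · have e : x * y = x * 1 * y := by group
        rcases T3 (hJ hx) (closure_le_N hJ hn) P.B.one_mem hR with h | h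
        · exact ⟨x * n, Subgroup.mul_mem _ (Subgroup.subset_closure hx) hn, e ▸ h⟩
        · exact ⟨n, hn, e ▸ h⟩
    | inv_mul_cancel x hx y hy ih =>
      have hy' : y ∈ P.parabolic J := by
        have := hy
        rw [Subgroup.closure_union, Subgroup.closure_eq] at this; exact this
      obtain ⟨n, hn, hR⟩ := ih hy'
      rcases hx with hx | hx
      · exact ⟨n, hn, hR.mul_left (P.B.inv_mem hx)⟩
      · have e : x⁻¹ * y = x⁻¹ * 1 * y := by group
        rcases T3inv (hJ hx) (closure_le_N hJ hn) P.B.one_mem hR with h | h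
        · exact ⟨x * n, Subgroup.mul_mem _ (Subgroup.subset_closure hx) hn, e ▸ h⟩
        · exact ⟨n, hn, e ▸ h⟩
  · rintro ⟨n, hn, hR⟩
    exact mem_of_R (B_le_parabolic J) hR (closure_le_parabolic J hn)

theorem parabolic_S : P.parabolic P.S = ⊤ := by
  rw [eq_top_iff, ← P.sup_eq_top, sup_le_iff]
  refine ⟨B_le_parabolic _, ?_⟩
  rw [← P.closure_sup, sup_le_iff]
  exact ⟨closure_le_parabolic _, inf_le_left.trans (B_le_parabolic _)⟩

theorem exists_R_N (g : G) : ∃ n ∈ P.N, R P g n := by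
  have : g ∈ P.parabolic P.S := by rw [parabolic_S]; trivial
  obtain ⟨n, hn, hR⟩ := (mem_parabolic_iff (le_refl _) g).1 this
  exact ⟨n, closure_le_N (le_refl _) hn, hR⟩

theorem mem_closure_singleton {s n : G} (hs : s ∈ P.S) (hn : n ∈ Subgroup.closure {s}) :
    n ∈ P.B ∨ E P s n := by
  induction hn using Subgroup.closure_induction_left with
  | one => exact Or.inl P.B.one_mem
  | mul_left x hx y hy ih =>
    rw [Set.mem_singleton_iff] at hx
    subst hx
    rcases ih with h | h
    · right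
      unfold E
      simpa using h
    · left
      have e : x * y = (x * x) * (x⁻¹ * y) := by group
      rw [e]
      exact P.B.mul_mem (P.sq_mem x hs) h
  | inv_mul_cancel x hx y hy ih =>
    rw [Set.mem_singleton_iff] at hx
    subst hx
    rcases ih with h | h
    · right
      have e : x⁻¹ * (x⁻¹ * y) = (x * x)⁻¹ * y := by group
      unfold E
      rw [e]
      exact P.B.mul_mem (P.B.inv_mem (P.sq_mem x hs)) h
    · left
      exact h

theorem mem_parabolic_singleton {s g : G} (hs : s ∈ P.S) :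
    g ∈ P.parabolic {s} ↔ g ∈ P.B ∨ R P g s := by
  constructor
  · intro hg
    obtain ⟨n, hn, hR⟩ := (mem_parabolic_iff (Set.singleton_subset_iff.2 hs) g).1 hg
    rcases mem_closure_singleton hs hn with h | h
    · exact Or.inl (R_mem_B h hR)
    · exact Or.inr (hR.trans (R_of_E h).symm)
  · rintro (h | h)
    · exact B_le_parabolic _ h
    · exact mem_of_R (B_le_parabolic _) h (subset_parabolic rfl)

/-- every element `n ∈ N` lies in any subgroup containing `B` and `n B n⁻¹` -/
theorem mem_of_conj {n : G} (hn : n ∈ P.N) (H : Subgroup G) (hBH : P.B ≤ H)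
    (hc : ∀ b ∈ P.B, n * b * n⁻¹ ∈ H) : n ∈ H := by
  obtain ⟨L, h1, h2⟩ := word_in (le_refl _) (exists_word_N hn) H hBH hc
  exact mem_of_E hBH h2 (H.list_prod_mem fun x hx => (h1 x hx).2)

/-- every subgroup containing `B` is parabolic -/
theorem eq_parabolic (M : Subgroup G) (hM : P.B ≤ M) : M = P.parabolic {s | s ∈ P.S ∧ s ∈ M} := by
  apply le_antisymm
  · intro g hg
    obtain ⟨n, hn, hR⟩ := exists_R_N (P := P) g
    have hnM : n ∈ M := mem_of_R hM hR.symm hg
    obtain ⟨L, h1, h2⟩ := word_in (le_refl _) (exists_word_N hn) M hM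
      (fun b hb => M.mul_mem (M.mul_mem hnM (hM hb)) (M.inv_mem hnM))
    have h3 : L.prod ∈ P.parabolic {s | s ∈ P.S ∧ s ∈ M} :=
      Subgroup.list_prod_mem _ fun x hx => subset_parabolic (h1 x hx)
    exact mem_of_R (B_le_parabolic _) hR (mem_of_E (B_le_parabolic _) h2 h3)
  · exact parabolic_le hM fun x hx => hx.2

/-- a distinguished generator in `P_K` lies in `K` -/
theorem mem_of_mem_parabolic {K : Set G} (hK : K ⊆ P.S) {s : G} (hs : s ∈ P.S)
    (h : s ∈ P.parabolic K) : s ∈ K := by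
  obtain ⟨n, hn, hR⟩ := (mem_parabolic_iff hK s).1 h
  have hE : E P s n := bruhat (P.subset hs) (closure_le_N hK hn) hR
  obtain ⟨L0, h1, h2⟩ := exists_word_closure hK hn
  have hsp : s ∈ P.parabolic {s} := subset_parabolic rfl
  obtain ⟨L, h3, h4⟩ := word_in hK ⟨L0, h1, h2.trans hE.symm⟩ (P.parabolic {s})
    (B_le_parabolic _) (fun b hb => Subgroup.mul_mem _ (Subgroup.mul_mem _ hsp
      (B_le_parabolic _ hb)) (Subgroup.inv_mem _ hsp))
  cases L with
  | nil =>
    exfalso
    apply not_mem_B hs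
    simpa [E] using h4
  | cons k L =>
    obtain ⟨hkK, hkp⟩ := h3 k (by simp)
    rcases (mem_parabolic_singleton hs).1 hkp with h5 | h5
    · exact absurd h5 (not_mem_B (hK hkK))
    · have h6 := bruhat (P.subset (hK hkK)) (P.subset hs) h5
      have := P.inj k (hK hkK) s hs h6
      exact this ▸ hkK

theorem parabolic_le_iff {J K : Set G} (hJ : J ⊆ P.S) (hK : K ⊆ P.S) :
    P.parabolic J ≤ P.parabolic K ↔ J ⊆ K :=
  ⟨fun h _ hx => mem_of_mem_parabolic hK (hJ hx) (h (subset_parabolic hx)), parabolic_mono⟩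

theorem parabolic_inj {J K : Set G} (hJ : J ⊆ P.S) (hK : K ⊆ P.S)
    (h : P.parabolic J = P.parabolic K) : J = K :=
  Set.Subset.antisymm ((parabolic_le_iff hJ hK).1 h.le) ((parabolic_le_iff hK hJ).1 h.ge)

/-- if `g B g⁻¹ ≤ M` and `B ≤ M` then `g ∈ M` -/
theorem mem_of_conj' (g : G) (M : Subgroup G) (hM : P.B ≤ M)
    (hc : ∀ b ∈ P.B, g * b * g⁻¹ ∈ M) : g ∈ M := by
  obtain ⟨n, hn, c, hc1, c', hc', rfl⟩ := exists_R_N (P := P) g
  have hnM : n ∈ M := by
    apply mem_of_conj hn M hM
    intro b hb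
    have e : n * b * n⁻¹ = c⁻¹ * ((c * n * c') * (c'⁻¹ * b * c') * (c * n * c')⁻¹) * c := by group
    rw [e]
    exact M.mul_mem (M.mul_mem (M.inv_mem (hM hc1))
      (hc _ (P.B.mul_mem (P.B.mul_mem (P.B.inv_mem hc') hb) hc'))) (hM hc1)
  exact M.mul_mem (M.mul_mem (hM hc1) hnM) (hM hc')

end Cfsg.Agent.LeadBN
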