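import Mathlib
import Cfsg.Prelude.Def_Characters
import Cfsg.Agent.Lib_lead_Br13

set_option autoImplicit false
set_option linter.style.haveILetI false

/-! Generalized characters of norm two; exceptional characters. -/

namespace Cfsg.Agent.LeadBr

open Cfsg Cfsg.Agent.H4 MulAction Subgroup
open scoped commutatorElement ComplexConjugate

universe u

variable {G : Type u} [Group G]

theorem int_sum_sq_eq_two {ι : Type*} [Fintype ι] [DecidableEq ι] (c : ι → ℤ)
    (h : ∑ i, c i * c i = 2) : ∃ i j, i ≠ j ∧ (c i = 1 ∨ c i = -1) ∧ (c j = 1 ∨ c j = -1) ∧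
      ∀ k, k ≠ i → k ≠ j → c k = 0 := by
  have hex : ∃ i, c i ≠ 0 := by
    by_contra hcon
    push Not at hcon
    simp [hcon] at h
  obtain ⟨i, hi⟩ := hex
  have h' := h
  rw [← Finset.add_sum_erase Finset.univ _ (Finset.mem_univ i)] at h
  have h2 : 0 ≤ ∑ j ∈ Finset.univ.erase i, c j * c j :=
    Finset.sum_nonneg (fun j _ => mul_self_nonneg _)
  have h1 : c i * c i = 1 := by
    have hpos : 0 < c i * c i := mul_self_pos.mpr hi
    have hle : c i * c i ≤ 2 := by omega
    have habs : |c i| ≤ 1 := by
      by_contra hcon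
      push Not at hcon
      have h3 : 2 ≤ |c i| := by omega
      have h4 : c i * c i = |c i| * |c i| := (abs_mul_abs_self (c i)).symm
      nlinarith
    have h5 : c i * c i = |c i| * |c i| := (abs_mul_abs_self (c i)).symm
    have h6 : 0 ≤ |c i| := abs_nonneg _
    have h7 : |c i| = 1 := by
      rcases Nat.lt_or_ge 0 1 with _ | _
      · by_contra hne
        have : |c i| = 0 := by omega
        rw [this] at h5
        omega
      · omega
    rw [h5, h7]; rfl
  have h3 : ∑ j ∈ Finset.univ.erase i, c j * c j = 1 := by omega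
  have h4 : ∑ j, (Function.update c i 0) j * (Function.update c i 0) j = 1 := by
    rw [← Finset.add_sum_erase Finset.univ _ (Finset.mem_univ i)]
    simp only [Function.update_self, mul_zero, zero_add]
    rw [← h3]
    apply Finset.sum_congr rfl
    intro j hj
    rw [Function.update_of_ne (Finset.mem_erase.mp hj).1]
  obtain ⟨j, hj, hoth⟩ := int_sum_sq_eq_one _ h4
  have hji : j ≠ i := by
    rintro rfl
    simp at hj
  rw [Function.update_of_ne hji] at hj
  refine ⟨i, j, hji.symm, mul_self_eq_one_iff.mp h1, hj, ?_⟩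
  intro k hki hkj
  have := hoth k hkj
  rwa [Function.update_of_ne hki] at this

theorem diff_of_norm_two [Fintype G] {τ : G → ℂ} (h : IsGeneralizedCharacter G τ)
    (h2 : classInner τ τ = 2) (h1 : τ 1 = 0) :
    ∃ a b : IrrCharacter G, a ≠ b ∧ τ = (a : G → ℂ) - (b : G → ℂ) := by
  classical
  haveI := Fintype.ofFinite (IrrCharacter G)
  obtain ⟨c, rfl⟩ := IsGeneralizedCharacter.exists_int_mult h
  rw [classInner_sum_sum] at h2
  have h3 : ∑ ψ : IrrCharacter G, c ψ * c ψ = 2 := by
    have : ((∑ ψ : IrrCharacter G, c ψ * c ψ : ℤ) : ℂ) = 2 := by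
      rw [← h2]
      push_cast
      apply Finset.sum_congr rfl
      intro ψ _
      rw [map_intCast]
    exact_mod_cast this
  obtain ⟨i, j, hij, hi, hj, hoth⟩ := int_sum_sq_eq_two c h3
  have h4 : ∑ φ : IrrCharacter G, (c φ : ℂ) • (φ : G → ℂ)
      = (c i : ℂ) • (i : G → ℂ) + (c j : ℂ) • (j : G → ℂ) := by
    rw [← Finset.add_sum_erase Finset.univ _ (Finset.mem_univ i),
      ← Finset.add_sum_erase (Finset.univ.erase i) _
        (Finset.mem_erase.mpr ⟨hij.symm, Finset.mem_univ j⟩)]
    rw [Finset.sum_eq_zero, add_zero]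
    intro k hk
    have hk1 := (Finset.mem_erase.mp hk).1
    have hk2 := (Finset.mem_erase.mp (Finset.mem_erase.mp hk).2).1
    rw [hoth k hk2 hk1]; simp
  rw [h4] at h1 ⊢
  obtain ⟨ni, hni, hi1⟩ := IsIrrCharacter.apply_one i.2
  obtain ⟨nj, hnj, hj1⟩ := IsIrrCharacter.apply_one j.2
  simp only [Pi.add_apply, Pi.smul_apply, smul_eq_mul, hi1, hj1] at h1
  have h5 : c i * ni + c j * nj = 0 := by exact_mod_cast h1
  rcases hi with hi | hi <;> rcases hj with hj | hj
  · rw [hi, hj] at h5; omega
  · exact ⟨i, j, hij, by rw [hi, hj]; simp [sub_eq_add_neg]⟩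
  · exact ⟨j, i, hij.symm, by rw [hi, hj]; simp [sub_eq_add_neg, add_comm]⟩
  · rw [hi, hj] at h5; omega

theorem gram_one [Fintype G] (a b c d : IrrCharacter G) (hab : a ≠ b) (hcd : c ≠ d)
    (h : classInner ((a : G → ℂ) - (b : G → ℂ)) ((c : G → ℂ) - (d : G → ℂ)) = 1) :
    (a = c ∧ b ≠ d) ∨ (b = d ∧ a ≠ c) := by
  classical
  rw [classInner_sub_left, classInner_sub_right, classInner_sub_right, irr_orthonormal,
    irr_orthonormal, irr_orthonormal, irr_orthonormal] at h
  by_cases h1 : a = c
  · by_cases h2 : b = d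
    · subst h1; subst h2
      rw [if_pos rfl, if_pos rfl, if_neg hab, if_neg hab.symm] at h
      norm_num at h
    · exact Or.inl ⟨h1, h2⟩
  · by_cases h2 : b = d
    · exact Or.inr ⟨h2, h1⟩
    · exfalso
      rw [if_neg h1, if_neg h2] at h
      by_cases h3 : a = d <;> by_cases h4 : b = c <;> simp [h3, h4] at h <;> norm_num at h

theorem exceptional [Fintype G] (n : ℕ) (i₀ : Fin n) (τ : Fin n → (G → ℂ)) (h0 : τ i₀ = 0)
    (hgen : ∀ i, IsGeneralizedCharacter G (τ i)) (hone : ∀ i, τ i 1 = 0)
    (hgram : ∀ i j, i ≠ i₀ → j ≠ i₀ → classInner (τ i) (τ j) = if i = j then 2 else 1) :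
    ∃ ε : ℂ, (ε = 1 ∨ ε = -1) ∧ ∃ μ : Fin n → (G → ℂ), (∀ i, IsIrrCharacter G (μ i)) ∧
      Function.Injective μ ∧ ∀ i, τ i = ε • (μ i - μ i₀) := by
  classical
  have htriv : IsIrrCharacter G (fun _ => (1 : ℂ)) := isIrrCharacter_of_linear IsCharacter.one rfl
  have hex : ∀ i, ∃ a b : IrrCharacter G, i ≠ i₀ → (a ≠ b ∧ τ i = (a : G → ℂ) - (b : G → ℂ)) := by
    intro i
    by_cases hi : i = i₀
    · exact ⟨⟨_, htriv⟩, ⟨_, htriv⟩, fun h => absurd hi h⟩
    · obtain ⟨a, b, hab, h⟩ := diff_of_norm_two (hgen i) (by rw [hgram i i hi hi, if_pos rfl]) (hone i)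
      exact ⟨a, b, fun _ => ⟨hab, h⟩⟩
  choose a b hab using hex
  have hdich : ∀ i j, i ≠ i₀ → j ≠ i₀ → i ≠ j →
      (a i = a j ∧ b i ≠ b j) ∨ (b i = b j ∧ a i ≠ a j) := by
    intro i j hi hj hij
    apply gram_one _ _ _ _ (hab i hi).1 (hab j hj).1
    rw [← (hab i hi).2, ← (hab j hj).2, hgram i j hi hj, if_neg hij]
  by_cases hI : ∃ k, k ≠ i₀
  · obtain ⟨k, hk⟩ := hI
    by_cases hall : ∀ i, i ≠ i₀ → a i = a k
    · refine ⟨-1, Or.inr rfl, fun i => if i = i₀ then (a k : G → ℂ) else (b i : G → ℂ), ?_, ?_, ?_⟩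
      · intro i
        by_cases hi : i = i₀
        · simp only [hi, if_true]; exact (a k).2
        · simp only [hi, if_false]; exact (b i).2
      · intro i j hij
        by_cases hi : i = i₀ <;> by_cases hj : j = i₀
        · rw [hi, hj]
        · exfalso
          simp only [hi, hj, if_true, if_false] at hij
          have h1 : a k = b j := Subtype.ext hij
          rw [← hall j hj] at h1
          exact (hab j hj).1 h1
        · exfalso
          simp only [hi, hj, if_true, if_false] at hij
          have h1 : b i = a k := Subtype.ext hij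
          rw [← hall i hi] at h1
          exact (hab i hi).1 h1.symm
        · by_contra hne
          simp only [hi, hj, if_false] at hij
          have h1 : b i = b j := Subtype.ext hij
          rcases hdich i j hi hj hne with ⟨_, h2⟩ | ⟨_, h2⟩
          · exact h2 h1
          · exact h2 (by rw [hall i hi, hall j hj])
      · intro i
        by_cases hi : i = i₀
        · simp [hi, h0]
        · simp only [hi, if_false, if_true]
          rw [(hab i hi).2, hall i hi]
          simp
    · push Not at hall
      obtain ⟨l, hl, hlk⟩ := hall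
      have hlk' : l ≠ k := fun h => hlk (by rw [h])
      have hbl : b l = b k := by
        rcases hdich l k hl hk hlk' with ⟨h1, _⟩ | ⟨h1, _⟩
        · exact absurd h1 hlk
        · exact h1
      have hallb : ∀ i, i ≠ i₀ → b i = b k := by
        intro i hi
        by_cases hik : i = k
        · rw [hik]
        by_cases hil : i = l
        · rw [hil, hbl]
        rcases hdich i k hi hk hik with ⟨h1, h2⟩ | ⟨h1, _⟩
        · rcases hdich i l hi hl hil with ⟨h3, _⟩ | ⟨h3, _⟩
          · exact absurd (h3.symm.trans h1) hlk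
          · exact absurd (h3.trans hbl) h2
        · exact h1
      refine ⟨1, Or.inl rfl, fun i => if i = i₀ then (b k : G → ℂ) else (a i : G → ℂ), ?_, ?_, ?_⟩
      · intro i
        by_cases hi : i = i₀
        · simp only [hi, if_true]; exact (b k).2
        · simp only [hi, if_false]; exact (a i).2
      · intro i j hij
        by_cases hi : i = i₀ <;> by_cases hj : j = i₀
        · rw [hi, hj]
        · exfalso
          simp only [hi, hj, if_true, if_false] at hij
          have h1 : b k = a j := Subtype.ext hij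
          rw [← hallb j hj] at h1
          exact (hab j hj).1 h1.symm
        · exfalso
          simp only [hi, hj, if_true, if_false] at hij
          have h1 : a i = b k := Subtype.ext hij
          rw [← hallb i hi] at h1
          exact (hab i hi).1 h1
        · by_contra hne
          simp only [hi, hj, if_false] at hij
          have h1 : a i = a j := Subtype.ext hij
          rcases hdich i j hi hj hne with ⟨_, h2⟩ | ⟨_, h2⟩
          · exact h2 (by rw [hallb i hi, hallb j hj])
          · exact h2 h1
      · intro i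
        by_cases hi : i = i₀
        · simp [hi, h0]
        · simp only [hi, if_false, if_true]
          rw [(hab i hi).2, hallb i hi]
          simp
  · push Not at hI
    refine ⟨1, Or.inl rfl, fun _ => fun _ => (1 : ℂ), fun _ => htriv, ?_, ?_⟩
    · intro i j _
      rw [hI i, hI j]
    · intro i
      rw [hI i, h0]; simp

end Cfsg.Agent.LeadBr
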