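import Mathlib
import Cfsg.Prelude.Def_Characters
import Cfsg.Agent.Lib_lead_Br18

set_option autoImplicit false
set_option linter.style.haveILetI false

/-! Invariant constituents (towards Dade's theorem, Isaacs 8.24). -/

namespace Cfsg.Agent.LeadBr

open Cfsg Cfsg.Agent.H4 MulAction Subgroup
open scoped commutatorElement ComplexConjugate

universe u

variable {G : Type u} [Group G]

/-- weighted orbit counting -/
theorem dvd_sum_of_fixed {E X : Type*} [Group E] [MulAction E X] [Fintype X] (p k : ℕ)
    (hp : p.Prime) (horb : ∀ x : X, Nat.card (MulAction.orbit E x) ∣ p ^ k) (w : X → ℕ)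
    (hw : ∀ (g : E) (x : X), w (g • x) = w x)
    (hfix : ∀ x, (∀ g : E, g • x = x) → p ∣ w x) : p ∣ ∑ x, w x := by
  classical
  rw [← Finset.sum_fiberwise Finset.univ
    (fun x => (Quotient.mk'' x : MulAction.orbitRel.Quotient E X)) w]
  apply Finset.dvd_sum
  intro ω _
  obtain ⟨x0, rfl⟩ := Quotient.exists_rep ω
  have hmem : ∀ x, (Quotient.mk'' x : MulAction.orbitRel.Quotient E X) = ⟦x0⟧ ↔
      x ∈ MulAction.orbit E x0 := by
    intro x
    exact Quotient.eq''
  have hconst : ∀ x ∈ Finset.univ.filter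
      (fun x => (Quotient.mk'' x : MulAction.orbitRel.Quotient E X) = ⟦x0⟧), w x = w x0 := by
    intro x hx
    obtain ⟨g, rfl⟩ := (hmem x).mp (Finset.mem_filter.mp hx).2
    exact hw g x0
  rw [Finset.sum_congr rfl hconst, Finset.sum_const, smul_eq_mul]
  have hcard : (Finset.univ.filter
      (fun x => (Quotient.mk'' x : MulAction.orbitRel.Quotient E X) = ⟦x0⟧)).card
      = Nat.card (MulAction.orbit E x0) := by
    rw [Nat.card_eq_fintype_card, ← Set.toFinset_card]
    congr 1
    ext x
    simp only [Finset.mem_filter, Finset.mem_univ, true_and, Set.mem_toFinset]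
    exact hmem x
  rw [hcard]
  obtain ⟨j, _, hj⟩ := (Nat.dvd_prime_pow hp).mp (horb x0)
  rcases Nat.eq_zero_or_pos j with rfl | hj0
  · apply Dvd.dvd.mul_left
    apply hfix
    intro g
    rw [pow_zero, Nat.card_eq_one_iff_unique] at hj
    have := hj.1.elim (⟨g • x0, MulAction.mem_orbit x0 g⟩ : MulAction.orbit E x0)
      ⟨x0, MulAction.mem_orbit_self x0⟩
    exact congrArg Subtype.val this
  · apply Dvd.dvd.mul_right
    rw [hj]; exact dvd_pow_self p hj0.ne'

/-- the conjugation action on the irreducible characters of a normal subgroup -/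
@[reducible] def irrAction {N : Subgroup G} (hN : N.Normal) : MulAction G (IrrCharacter N) where
  smul g θ := ⟨conjFun hN θ g⁻¹, conjFun_irr hN θ.2 g⁻¹⟩
  one_smul θ := by
    apply Subtype.ext
    show conjFun hN θ 1⁻¹ = θ
    rw [inv_one, conjFun_one]
  mul_smul g h θ := by
    apply Subtype.ext
    show conjFun hN θ (g * h)⁻¹ = conjFun hN (conjFun hN θ h⁻¹) g⁻¹
    rw [conjFun_mul, mul_inv_rev]

theorem card_irr_orbit_dvd_index [Finite G] {N : Subgroup G} (hN : N.Normal) (θ : IrrCharacter N) :
    letI := irrAction hN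
    Nat.card (MulAction.orbit G θ) ∣ N.index := by
  letI := irrAction hN
  have h1 : N ≤ MulAction.stabilizer G θ := by
    intro g hg
    rw [MulAction.mem_stabilizer_iff]
    apply Subtype.ext
    show conjFun hN θ g⁻¹ = θ
    exact (mem_inertia hN θ g⁻¹).mp (le_inertia hN
      (IsCharacter.isClassFunction (IsIrrCharacter.isCharacter θ.2)) (N.inv_mem hg))
  have h2 := MulAction.index_stabilizer G θ
  rw [← Nat.card_coe_set_eq] at h2
  rw [← h2]
  exact index_dvd_of_le h1

theorem classInner_conjFun_conjFun {N : Subgroup G} [Fintype N] (hN : N.Normal) (a b : N → ℂ)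
    (g : G) : classInner (conjFun hN a g) (conjFun hN b g) = classInner a b := by
  haveI := hN
  have := classInner_equiv (MulAut.conjNormal g : N ≃* N) a b
  rw [← this]
  rfl

theorem exists_invariant_constituent [Fintype G] (p : ℕ) (hp : p.Prime) (D : Subgroup G)
    (hD : D.Normal) [Fintype D] (k : ℕ) (hidx : D.index = p ^ k) (α β : D → ℂ)
    (hα : IsCharacter D α) (hβ : IsCharacter D β) (hαinv : ∀ g, conjFun hD α g = α)
    (hβinv : ∀ g, conjFun hD β g = β) (m : ℕ) (hm : classInner α β = m) (hpm : ¬ p ∣ m) :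
    ∃ φ : IrrCharacter D, (∀ g, conjFun hD φ g = φ) ∧
      ∃ b : ℕ, classInner β (φ : D → ℂ) = b ∧ ¬ p ∣ b := by
  classical
  haveI := Fintype.ofFinite (IrrCharacter D)
  letI := irrAction hD
  obtain ⟨a, ha⟩ := IsCharacter.exists_mult hα
  obtain ⟨b, hb⟩ := IsCharacter.exists_mult hβ
  have ha' : ∀ φ : IrrCharacter D, classInner α (φ : D → ℂ) = a φ := by
    intro φ; rw [ha]; exact classInner_sum_mult _ φ
  have hb' : ∀ φ : IrrCharacter D, classInner β (φ : D → ℂ) = b φ := by
    intro φ; rw [hb]; exact classInner_sum_mult _ φ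
  have hsum : m = ∑ φ : IrrCharacter D, a φ * b φ := by
    have : (m : ℂ) = ((∑ φ : IrrCharacter D, a φ * b φ : ℕ) : ℂ) := by
      rw [← hm, ha, hb, classInner_sum_sum]
      push_cast
      apply Finset.sum_congr rfl
      intro φ _
      rw [map_natCast]
    exact_mod_cast this
  by_contra hcon
  push Not at hcon
  apply hpm
  rw [hsum]
  apply dvd_sum_of_fixed (E := G) p k hp
  · intro φ
    rw [← hidx]
    exact card_irr_orbit_dvd_index hD φ
  · intro g φ
    have e1 : a (g • φ) = a φ := by
      have : (a (g • φ) : ℂ) = a φ := by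
        rw [← ha', ← ha']
        show classInner α (conjFun hD φ g⁻¹) = _
        conv_lhs => rw [← hαinv g⁻¹]
        exact classInner_conjFun_conjFun hD _ _ _
      exact_mod_cast this
    have e2 : b (g • φ) = b φ := by
      have : (b (g • φ) : ℂ) = b φ := by
        rw [← hb', ← hb']
        show classInner β (conjFun hD φ g⁻¹) = _
        conv_lhs => rw [← hβinv g⁻¹]
        exact classInner_conjFun_conjFun hD _ _ _
      exact_mod_cast this
    rw [e1, e2]
  · intro φ hφ
    apply Dvd.dvd.mul_left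
    apply hcon φ _ (b φ) (hb' φ)
    intro g
    have h9 : conjFun hD (φ : D → ℂ) g⁻¹⁻¹ = φ := congrArg Subtype.val (hφ g⁻¹)
    rwa [inv_inv] at h9

end Cfsg.Agent.LeadBr
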