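import Mathlib
import Cfsg.Prelude.Def_Characters
import Cfsg.Agent.Lib_lead_Br19

set_option autoImplicit false
set_option linter.style.haveILetI false

/-! Dade's theorem (Isaacs 8.24). -/

namespace Cfsg.Agent.LeadBr

open Cfsg Cfsg.Agent.H4 MulAction Subgroup
open scoped commutatorElement ComplexConjugate

universe u

variable {G : Type u} [Group G]

/-- `E ⊓ N` versus `N.subgroupOf E` -/
def infEquiv (E N : Subgroup G) : ↥(E ⊓ N) ≃* ↥(N.subgroupOf E) where
  toFun x := ⟨⟨x.1, x.2.1⟩, x.2.2⟩
  invFun d := ⟨d.1.1, ⟨d.1.2, d.2⟩⟩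
  left_inv _ := rfl
  right_inv _ := rfl
  map_mul' _ _ := rfl

/-- restriction of a function on `N` to `N.subgroupOf E` -/
def resSub (E N : Subgroup G) (ϑ : N → ℂ) : ↥(N.subgroupOf E) → ℂ := fun d => ϑ ⟨((d : E) : G), d.2⟩

theorem resSub_isCharacter (E N : Subgroup G) {ϑ : N → ℂ} (h : IsCharacter N ϑ) :
    IsCharacter (N.subgroupOf E) (resSub E N ϑ) :=
  IsCharacter.comp ((E.subtype).subgroupComap N) h

theorem dade_transport [Finite G] (p : ℕ) (E N : Subgroup G) [hN : N.Normal] (ϑ : N → ℂ)
    [Fintype (N.subgroupOf E)]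
    (φ' : IrrCharacter (N.subgroupOf E))
    (hinv' : ∀ g : E, conjFun (inferInstance : (N.subgroupOf E).Normal) (φ' : _ → ℂ) g = φ')
    (b : ℕ) (hb : classInner (resSub E N ϑ) (φ' : _ → ℂ) = b) (hpb : ¬ p ∣ b) :
    ∃ φ : ↥(E ⊓ N) → ℂ, IsIrrCharacter ↥(E ⊓ N) φ ∧
      (∀ (g : G) (hg : g ∈ E) (x : ↥(E ⊓ N)), φ ⟨g * x * g⁻¹,
        ⟨(E.mul_mem (E.mul_mem hg x.2.1) (E.inv_mem hg)), hN.conj_mem (x : G) x.2.2 g⟩⟩ = φ x) ∧
      ∃ m : ℕ, ¬ p ∣ m ∧ (Nat.card ↥(E ⊓ N) : ℂ)⁻¹ *
        ∑ᶠ x : ↥(E ⊓ N), ϑ ⟨(x : G), x.2.2⟩ * conj (φ x) = (m : ℂ) := by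
  haveI : Fintype ↥(E ⊓ N) := Fintype.ofFinite _
  refine ⟨fun x => (φ' : _ → ℂ) (infEquiv E N x),
    IsIrrCharacter.comp_surj (infEquiv E N).toMonoidHom (infEquiv E N).surjective φ'.2, ?_,
    b, hpb, ?_⟩
  · intro g hg x
    exact congrFun (hinv' ⟨g, hg⟩) (infEquiv E N x)
  · rw [finsum_eq_sum_of_fintype, ← hb, ← classInner_equiv (infEquiv E N)]
    rfl

theorem dade [Fintype G] (p : ℕ) (hp : p.Prime) (N : Subgroup G) [hN : N.Normal]
    (hind : ∃ k : ℕ, N.index = p ^ k) (ϑ : N → ℂ) (hϑ : IsIrrCharacter N ϑ)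
    (hinv : ∀ (g : G) (n : N), ϑ ⟨g * n * g⁻¹, hN.conj_mem (n : G) n.2 g⟩ = ϑ n) :
    ∃ (E : Subgroup G) (φ : ↥(E ⊓ N) → ℂ), IsElementary p E ∧ E ⊔ N = ⊤ ∧
      IsIrrCharacter ↥(E ⊓ N) φ ∧
      (∀ (g : G) (hg : g ∈ E) (x : ↥(E ⊓ N)), φ ⟨g * x * g⁻¹,
        ⟨(E.mul_mem (E.mul_mem hg x.2.1) (E.inv_mem hg)), hN.conj_mem (x : G) x.2.2 g⟩⟩ = φ x) ∧
      ∃ m : ℕ, ¬ p ∣ m ∧ (Nat.card ↥(E ⊓ N) : ℂ)⁻¹ *
        ∑ᶠ x : ↥(E ⊓ N), ϑ ⟨(x : G), x.2.2⟩ * conj (φ x) = (m : ℂ) := by
  classical
  obtain ⟨k, hk⟩ := hind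
  haveI : Fintype N := Fintype.ofFinite _
  have hϑc := IsIrrCharacter.isCharacter hϑ
  set η : N → ℂ := fun n => ϑ n * conj (ϑ n) with hη
  set Θ : G → ℂ := extendByZero N η with hΘ
  have hΘcl : IsClassFunction G Θ := by
    intro g h
    by_cases hg : g ∈ N
    · rw [hΘ, extendByZero_mem N η hg, extendByZero_mem N η (hN.conj_mem g hg h)]
      simp only [hη]
      rw [hinv h ⟨g, hg⟩]
    · rw [hΘ, extendByZero_not_mem N η hg, extendByZero_not_mem]
      intro h1
      apply hg
      have := hN.conj_mem _ h1 h⁻¹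
      simpa [mul_assoc] using this
  have hηconj : ∀ n, conj (η n) = η n := by
    intro n
    simp only [hη, map_mul, Complex.conj_conj]
    ring
  by_contra hcon
  have key : ∀ f ∈ RI (fun E : Subgroup G => IsElementary p E),
      ∃ z : ℤ, (N.index : ℂ) * classInner f Θ = (p : ℂ) * z := by
    intro f hf
    induction hf using AddSubgroup.closure_induction with
    | mem f hf =>
      obtain ⟨E, hE, ψ, hψ, rfl⟩ := hf
      haveI : Fintype E := Fintype.ofFinite _
      haveI : Fintype (N.subgroupOf E) := Fintype.ofFinite _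
      haveI := Fintype.ofFinite (IrrCharacter (N.subgroupOf E))
      have hD : (N.subgroupOf E).Normal := inferInstance
      set β := resSub E N ϑ with hβdef
      set α : ↥(N.subgroupOf E) → ℂ := (fun d : ↥(N.subgroupOf E) => ψ (d : E)) * β with hαdef
      have hβ : IsCharacter _ β := resSub_isCharacter E N hϑc
      have hα : IsCharacter _ α := IsCharacter.mul (IsCharacter.restrict _ hψ) hβ
      obtain ⟨kk, hkk⟩ := IsCharacter.classInner_nat hα hβ
      have hform : classInner (indFun E ψ) Θ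
          = (Nat.card E : ℂ)⁻¹ * ((Nat.card (N.subgroupOf E) : ℂ) * kk) := by
        rw [frobenius_reciprocity E ψ Θ hΘcl, ← hkk]
        unfold classInner
        congr 1
        have hne : (Nat.card (N.subgroupOf E) : ℂ) ≠ 0 := by exact_mod_cast Nat.card_pos.ne'
        rw [← mul_assoc, mul_inv_cancel₀ hne, one_mul]
        have h1 : ∀ e : E, ψ e * conj (Θ e)
            = extendByZero (N.subgroupOf E) (fun d => β d * conj (β d)) e * ψ e := by
          intro e
          rw [mul_comm]
          congr 1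
          by_cases he : (e : G) ∈ N
          · rw [hΘ, extendByZero_mem N η he, hηconj,
              extendByZero_mem (N.subgroupOf E) _ (mem_subgroupOf.mpr he)]
            rfl
          · rw [hΘ, extendByZero_not_mem N η he, map_zero,
              extendByZero_not_mem (N.subgroupOf E) _ (fun h => he (mem_subgroupOf.mp h))]
        simp only [h1]
        rw [sum_extendByZero_mul]
        apply Finset.sum_congr rfl
        intro d _
        simp only [hαdef, Pi.mul_apply]
        ring
      have hcD : Nat.card (N.subgroupOf E) = Nat.card ↥(N ⊓ E) := by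
        rw [← inf_subgroupOf_right]
        exact Nat.card_congr (subgroupOfEquivOfLe inf_le_right).toEquiv
      have hc1 := H1.card_sup_mul_card_inf' N E (by rw [normalizer_eq_top]; exact le_top)
      have hc2 := N.index_mul_card
      have hc3 := (N ⊔ E).index_mul_card
      have hc4 : N.index * Nat.card (N.subgroupOf E) = (N ⊔ E).index * Nat.card E := by
        have hpos : 0 < Nat.card N := Nat.card_pos
        apply Nat.eq_of_mul_eq_mul_right hpos
        calc N.index * Nat.card (N.subgroupOf E) * Nat.card N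
            = (N.index * Nat.card N) * Nat.card ↥(N ⊓ E) := by rw [hcD]; ring
          _ = ((N ⊔ E).index * Nat.card ↥(N ⊔ E)) * Nat.card ↥(N ⊓ E) := by rw [hc2, hc3]
          _ = (N ⊔ E).index * (Nat.card ↥(N ⊔ E) * Nat.card ↥(N ⊓ E)) := by ring
          _ = (N ⊔ E).index * Nat.card E * Nat.card N := by rw [hc1]; ring
      have hval : (N.index : ℂ) * classInner (indFun E ψ) Θ = (((N ⊔ E).index * kk : ℕ) : ℂ) := by
        rw [hform]
        have hne : (Nat.card E : ℂ) ≠ 0 := by exact_mod_cast Nat.card_pos.ne'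
        have hc4' : (N.index : ℂ) * Nat.card (N.subgroupOf E) = (N ⊔ E).index * Nat.card E := by
          exact_mod_cast hc4
        push_cast
        field_simp
        linear_combination (kk : ℂ) * hc4'
      rw [hval]
      have hdvd : p ∣ (N ⊔ E).index * kk := by
        by_cases htop : E ⊔ N = ⊤
        · apply Dvd.dvd.mul_left
          by_contra hpk
          have hidx : (N.subgroupOf E).index ∣ p ^ k := hk ▸ relIndex_dvd_index_of_normal N E
          obtain ⟨j, _, hj⟩ := (Nat.dvd_prime_pow hp).mp hidx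
          obtain ⟨φ', hφ', b, hb, hpb⟩ := exists_invariant_constituent p hp (N.subgroupOf E) hD j hj
            α β hα hβ (by
              intro g
              funext d
              simp only [conjFun_apply, hαdef, Pi.mul_apply, hβdef, resSub]
              congr 1
              · exact IsCharacter.isClassFunction hψ d g
              · exact hinv g ⟨d, d.2⟩) (by
              intro g
              funext d
              simp only [conjFun_apply, hβdef, resSub]
              exact hinv g ⟨d, d.2⟩) kk hkk hpk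
          obtain ⟨φ, h1, h2, h3⟩ := dade_transport p E N ϑ φ' hφ' b hb hpb
          exact hcon ⟨E, φ, hE, htop, h1, h2, h3⟩
        · apply Dvd.dvd.mul_right
          have h1 : (N ⊔ E).index ∣ p ^ k := hk ▸ index_dvd_of_le le_sup_left
          obtain ⟨j, _, hj⟩ := (Nat.dvd_prime_pow hp).mp h1
          rcases Nat.eq_zero_or_pos j with rfl | hj0
          · exfalso
            apply htop
            rw [sup_comm, ← index_eq_one, hj, pow_zero]
          · rw [hj]; exact dvd_pow_self p hj0.ne'
      obtain ⟨c, hc⟩ := hdvd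
      exact ⟨c, by rw [hc]; push_cast; rfl⟩
    | zero => exact ⟨0, by simp [classInner_zero_left]⟩
    | add x y _ _ hx hy =>
      obtain ⟨a, ha⟩ := hx
      obtain ⟨b, hb⟩ := hy
      exact ⟨a + b, by rw [classInner_add_left, mul_add, ha, hb]; push_cast; ring⟩
    | neg x _ hx =>
      obtain ⟨a, ha⟩ := hx
      refine ⟨-a, ?_⟩
      have : classInner (-x) Θ = - classInner x Θ := by
        have := classInner_smul_left (-1 : ℂ) x Θ
        simpa using this
      rw [this, mul_neg, ha]; push_cast; ring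
  obtain ⟨m, hm, hmR⟩ := brauer_local (G := G) p hp
  obtain ⟨z, hz⟩ := key _ hmR
  have hval : (N.index : ℂ) * classInner (fun _ : G => (m : ℂ)) Θ = m := by
    unfold classInner
    have h1 : ∀ g : G, (m : ℂ) * conj (Θ g) = extendByZero N η g * (m : ℂ) := by
      intro g
      rw [mul_comm, hΘ, extendByZero_conj]
      congr 2
      funext n
      exact hηconj n
    simp only [h1]
    rw [sum_extendByZero_mul, ← Finset.sum_mul]
    have h2 : ∑ n : N, η n = Nat.card N := by
      have := IsIrrCharacter.norm_one hϑ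
      unfold classInner at this
      have hne : (Nat.card N : ℂ) ≠ 0 := by exact_mod_cast Nat.card_pos.ne'
      field_simp at this
      exact this
    rw [h2]
    have h3 : (N.index : ℂ) * Nat.card N = Nat.card G := by exact_mod_cast N.index_mul_card
    have hne : (Nat.card G : ℂ) ≠ 0 := by exact_mod_cast Nat.card_pos.ne'
    field_simp
    linear_combination (m : ℂ) * h3
  rw [hval] at hz
  apply hm
  exact ⟨z, by exact_mod_cast hz⟩

end Cfsg.Agent.LeadBr
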