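import Mathlib
import Cfsg.Prelude.Def_Characters
import Cfsg.Agent.Lib_lead_Br20
import Cfsg.Agent.Lib_lead_Br15

set_option autoImplicit false
set_option linter.style.haveILetI false

/-! Power homomorphisms on nilpotent groups; ramification in `p`-group quotients. -/

namespace Cfsg.Agent.LeadBr

open Cfsg Cfsg.Agent.H4 MulAction Subgroup
open scoped commutatorElement ComplexConjugate

universe u

theorem pow_mul_of_nilpotent (E : Type*) [Group E] [Finite E] [Group.IsNilpotent E] (m n t : ℕ)
    (hcop : m.Coprime n) (hdvd : Nat.card E ∣ m * n) (ht0 : m ∣ t) (ht1 : t ≡ 1 [MOD n])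
    (x y : E) : (x * y) ^ t = x ^ t * y ^ t := by
  obtain ⟨A, B, _, _, hA, hB, _, hsplit, hcomm⟩ := nilpotent_split E m n hcop hdvd
  have key : ∀ a ∈ A, ∀ b ∈ B, (a * b) ^ t = b := by
    intro a ha b hb
    rw [(hcomm a ha b hb).mul_pow]
    have h1 : a ^ t = 1 := by
      have h2 : orderOf a ∣ Nat.card A := by
        have := orderOf_dvd_natCard (⟨a, ha⟩ : A)
        rwa [Subgroup.orderOf_mk] at this
      exact orderOf_dvd_iff_pow_eq_one.mp (h2.trans (hA.trans ht0))
    have h3 : b ^ t = b := by
      have h2 : orderOf b ∣ Nat.card B := by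
        have := orderOf_dvd_natCard (⟨b, hb⟩ : B)
        rwa [Subgroup.orderOf_mk] at this
      have h4 : t ≡ 1 [MOD orderOf b] := ht1.of_dvd (h2.trans hB)
      have := pow_eq_pow_iff_modEq.mpr h4
      rwa [pow_one] at this
    rw [h1, h3, one_mul]
  obtain ⟨a, ha, b, hb, rfl⟩ := hsplit x
  obtain ⟨a', ha', b', hb', rfl⟩ := hsplit y
  have e1 : a * b * (a' * b') = (a * a') * (b * b') := by
    rw [mul_assoc, ← mul_assoc b, ← (hcomm a' ha' b hb).eq, mul_assoc, mul_assoc]
  rw [e1, key _ (A.mul_mem ha ha') _ (B.mul_mem hb hb'), key a ha b hb, key a' ha' b' hb']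

/-- the power map `x ↦ x ^ t` as a homomorphism -/
def powHom (E : Type*) [Group E] [Finite E] [Group.IsNilpotent E] (m n t : ℕ)
    (hcop : m.Coprime n) (hdvd : Nat.card E ∣ m * n) (ht0 : m ∣ t) (ht1 : t ≡ 1 [MOD n]) :
    E →* E where
  toFun x := x ^ t
  map_one' := one_pow t
  map_mul' := pow_mul_of_nilpotent E m n t hcop hdvd ht0 ht1

theorem exists_normal_index_prime {G : Type*} [Group G] [Finite G] (p : ℕ) (hp : p.Prime)
    (N : Subgroup G) [N.Normal] (k : ℕ) (hk : N.index = p ^ (k + 1)) :
    ∃ M : Subgroup G, M.Normal ∧ N ≤ M ∧ M.index = p := by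
  haveI : Fact p.Prime := ⟨hp⟩
  have hc : Nat.card (G ⧸ N) = p ^ (k + 1) := hk
  obtain ⟨K, hK⟩ := Sylow.exists_subgroup_card_pow_prime (G := G ⧸ N) p (n := k)
    (by rw [hc]; exact pow_dvd_pow p (Nat.le_succ k))
  have hKi : K.index = p := by
    have := K.card_mul_index
    rw [hK, hc, pow_succ] at this
    exact Nat.eq_of_mul_eq_mul_left (pow_pos hp.pos k) this
  have hKn : K.Normal := by
    apply normal_of_index_eq_minFac_card
    rw [hKi, hc, hp.pow_minFac (Nat.succ_ne_zero k)]
  refine ⟨K.comap (QuotientGroup.mk' N), inferInstance, ?_, ?_⟩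
  · intro x hx
    rw [mem_comap]
    have : QuotientGroup.mk' N x = 1 := (QuotientGroup.eq_one_iff x).mpr hx
    rw [this]; exact K.one_mem
  · rw [index_comap_of_surjective _ (QuotientGroup.mk'_surjective N), hKi]

theorem ram_eq_one (p : ℕ) (hp : p.Prime) : ∀ (k : ℕ) (G : Type u) [Group G] [Fintype G]
    (N : Subgroup G) [hN : N.Normal] (_ : N.index = p ^ k) (ϑ : N → ℂ) (_ : IsIrrCharacter N ϑ)
    (_ : ∀ (g : G) (n : N), ϑ ⟨g * n * g⁻¹, hN.conj_mem (n : G) n.2 g⟩ = ϑ n)
    (χ : G → ℂ) (_ : IsIrrCharacter G χ) (e : ℕ) (_ : ∀ n : N, χ n = e * ϑ n) (_ : ¬ p ∣ e),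
    e = 1 := by
  classical
  intro k
  induction k with
  | zero =>
    intro G _ _ N hN hk ϑ hϑ hinv χ hχ e he hpe
    haveI : Fintype N := Fintype.ofFinite _
    have htop : N = ⊤ := index_eq_one.mp (by simpa using hk)
    have h1 : IsIrrCharacter N (fun n : N => χ n) :=
      IsIrrCharacter.comp_surj N.subtype (fun g => ⟨⟨g, htop ▸ mem_top g⟩, rfl⟩) hχ
    have h2 : (fun n : N => χ n) = (e : ℂ) • ϑ := by funext n; simp [he n]
    have h3 := IsIrrCharacter.norm_one h1
    rw [h2, classInner_smul_left, classInner_smul_right, IsIrrCharacter.norm_one hϑ] at h3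
    simp only [map_natCast, mul_one] at h3
    have h4 : e * e = 1 := by exact_mod_cast h3
    exact Nat.eq_one_of_mul_eq_one_right h4
  | succ k ih =>
    intro G _ _ N hN hk ϑ hϑ hinv χ hχ e he hpe
    obtain ⟨M, hM, hNM, hMi⟩ := exists_normal_index_prime p hp N k hk
    haveI : Fintype N := Fintype.ofFinite _
    haveI : Fintype M := Fintype.ofFinite _
    haveI : Fact p.Prime := ⟨hp⟩
    haveI := Fintype.ofFinite (IrrCharacter N)
    have hχc := IsIrrCharacter.isCharacter hχ
    have hϑc := IsIrrCharacter.isCharacter hϑ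
    obtain ⟨ψ, hψ⟩ := IsCharacter.exists_constituent (IsCharacter.restrict M hχc)
      (IsCharacter.ne_zero_of_apply_one (IsIrrCharacter.apply_one_ne_zero hχ))
    by_cases hψinv : ∀ g, conjFun hM (ψ : M → ℂ) g = ψ
    · have hcyc : IsCyclic (G ⧸ M) := isCyclic_of_prime_card (p := p) hMi
      have hc : ∀ a b : G ⧸ M, a * b = b * a :=
        fun a b => (IsCyclic.commGroup (α := G ⧸ M)).mul_comm a b
      have hab : ∀ x y : G, x * y * x⁻¹ * y⁻¹ ∈ M := by
        intro x y
        rw [← QuotientGroup.eq_one_iff]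
        simp only [QuotientGroup.mk_mul, QuotientGroup.mk_inv]
        rw [hc (x : G ⧸ M) y]
        group
      obtain ⟨e', C, he'pos, hcard, hind, hres, hmem⟩ :=
        ind_of_abelian_quotient M hab (ψ : M → ℂ) ψ.2 hψinv
      have he'1 : e' = 1 := by
        rw [hMi] at hcard
        have h1 : e' ∣ p := ⟨e' * C.card, by rw [← hcard]; ring⟩
        rcases (Nat.dvd_prime hp).mp h1 with h | h
        · exact h
        · exfalso
          rw [h] at hcard
          have h2 : p * (p * C.card) = p * 1 := by rw [mul_one]; nth_rewrite 3 [← hcard]; ring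
          have h3 := Nat.eq_of_mul_eq_mul_left hp.pos h2
          exact hp.one_lt.ne' (Nat.eq_one_of_mul_eq_one_right h3)
      have hχC : (⟨χ, hχ⟩ : IrrCharacter G) ∈ C := by
        rw [hmem]
        show classInner (indFun M (ψ : M → ℂ)) χ ≠ 0
        rw [frobenius_reciprocity M _ _ (IsCharacter.isClassFunction hχc), ← classInner_conj_symm]
        simpa using hψ
      have hχM : (fun m : M => χ m) = (ψ : M → ℂ) := by
        have := hres _ hχC
        rw [he'1] at this
        simpa using this
      have hirr : IsIrrCharacter M (fun m : M => χ m) := hχM ▸ ψ.2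
      have hidx : (N.subgroupOf M).index = p ^ k := by
        have := relIndex_mul_index hNM
        rw [hMi, hk, pow_succ] at this
        exact Nat.eq_of_mul_eq_mul_right hp.pos this
      exact ih M (N.subgroupOf M) hidx (resSub M N ϑ)
        (IsIrrCharacter.comp_surj (subgroupOfEquivOfLe hNM).toMonoidHom
          (subgroupOfEquivOfLe hNM).surjective hϑ)
        (fun g n => hinv g ⟨n, n.2⟩) (fun m : M => χ m) hirr e (fun n => he ⟨n, n.2⟩) hpe
    · exfalso
      set T := inertia hM (ψ : M → ℂ) with hT
      have hψcl := IsCharacter.isClassFunction (IsIrrCharacter.isCharacter ψ.2)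
      have hMT : M ≤ T := by
        intro g hg
        show conjFun hM (ψ : M → ℂ) g = ψ
        funext h
        exact hψcl h ⟨g, hg⟩
      have hTne : T ≠ ⊤ := by
        intro h
        apply hψinv
        intro g
        have : g ∈ T := h ▸ mem_top g
        exact this
      have hTi : T.index = p := by
        have h1 : T.index ∣ p := hMi ▸ index_dvd_of_le hMT
        rcases (Nat.dvd_prime hp).mp h1 with h | h
        · exact absurd (index_eq_one.mp h) hTne
        · exact h
      have hTM : T ≤ M := by
        have := relIndex_mul_index hMT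
        rw [hTi, hMi] at this
        have h1 : M.relIndex T = 1 := by
          have h2 : M.relIndex T * p = 1 * p := by rw [this, one_mul]
          exact Nat.eq_of_mul_eq_mul_right hp.pos h2
        exact relIndex_eq_one.mp h1
      have hTiff : ∀ g : G, g ∈ M ↔ ∀ h : M, (ψ : M → ℂ) ⟨g * h * g⁻¹, hM.conj_mem h h.2 g⟩
          = (ψ : M → ℂ) h := by
        intro g
        constructor
        · intro hg h
          exact congrFun (hMT hg : conjFun hM (ψ : M → ℂ) g = ψ) h
        · intro h
          apply hTM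
          show conjFun hM (ψ : M → ℂ) g = ψ
          funext x
          exact h x
      obtain ⟨ψ', hψ', hindψ', _⟩ := clifford_corr_surj M hM (ψ : M → ℂ) ψ.2 M hTiff le_rfl χ hχ hψ
      set ψN : N → ℂ := fun n => ψ' ⟨n, hNM n.2⟩ with hψN
      have hψNc : IsCharacter N ψN :=
        IsCharacter.comp (inclusion hNM) (IsIrrCharacter.isCharacter hψ')
      obtain ⟨b, hb⟩ := IsCharacter.classInner_nat hψNc hϑc
      have h1 : (fun n : N => χ n) = (Nat.card M : ℂ)⁻¹ • ∑ x : G, conjFun hN ψN x := by
        have := indFun_normal_restrict hM ψ'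
        rw [hindψ'] at this
        funext n
        have h2 := congrFun this ⟨n, hNM n.2⟩
        simp only [Pi.smul_apply, Finset.sum_apply, smul_eq_mul] at h2 ⊢
        exact h2
      have h2 : classInner (fun n : N => χ n) ϑ = e := by
        have : (fun n : N => χ n) = (e : ℂ) • ϑ := by funext n; simp [he n]
        rw [this, classInner_smul_left, IsIrrCharacter.norm_one hϑ, mul_one]
      have h3 : ∀ x : G, classInner (conjFun hN ψN x) ϑ = b := by
        intro x
        have h4 : conjFun hN ϑ x = ϑ := by funext n; exact hinv x n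
        rw [← hb, ← classInner_conjFun_conjFun hN ψN ϑ x, h4]
      rw [h1, classInner_smul_left, classInner_sum_left] at h2
      simp only [h3, Finset.sum_const, Finset.card_univ, nsmul_eq_mul] at h2
      have h5 : (Fintype.card G : ℂ) = p * Nat.card M := by
        have := M.index_mul_card
        rw [hMi, Nat.card_eq_fintype_card (α := G)] at this
        exact_mod_cast this.symm
      rw [h5] at h2
      have hne : (Nat.card M : ℂ) ≠ 0 := by exact_mod_cast Nat.card_pos.ne'
      have h6 : (e : ℂ) = ((p * b : ℕ) : ℂ) := by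
        rw [← h2]; push_cast; field_simp
      exact hpe ⟨b, by exact_mod_cast h6⟩

end Cfsg.Agent.LeadBr
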