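import Mathlib
import Cfsg.Prelude.Def_Characters
import Cfsg.Agent.Lib_lead_Br21

set_option autoImplicit false
set_option linter.style.haveILetI false

/-! Extension of invariant characters when `G/N` is a `p`-group (Isaacs 8.26). -/

namespace Cfsg.Agent.LeadBr

open Cfsg Cfsg.Agent.H4 MulAction Subgroup
open scoped commutatorElement ComplexConjugate

universe u

variable {G : Type u} [Group G]

theorem index_mul_classInner_extendByZero [Fintype G] (N : Subgroup G) [Fintype N] (F : G → ℂ)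
    (f : N → ℂ) :
    (N.index : ℂ) * classInner F (extendByZero N f) = classInner (fun n : N => F n) f := by
  unfold classInner
  have h1 : ∀ g : G, F g * conj (extendByZero N f g)
      = extendByZero N (fun n => conj (f n)) g * F g := by
    intro g
    rw [mul_comm, extendByZero_conj]
  simp only [h1]
  rw [sum_extendByZero_mul]
  have h3 : (N.index : ℂ) * Nat.card N = Nat.card G := by exact_mod_cast N.index_mul_card
  have hne : (Nat.card G : ℂ) ≠ 0 := by exact_mod_cast Nat.card_pos.ne'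
  have hne' : (Nat.card N : ℂ) ≠ 0 := by exact_mod_cast Nat.card_pos.ne'
  have h4 : ∑ h : N, conj (f h) * F h = ∑ g : N, F g * conj (f g) :=
    Finset.sum_congr rfl (fun _ _ => mul_comm _ _)
  have hne'' : (N.index : ℂ) ≠ 0 := by
    intro h; rw [h, zero_mul] at h3; exact hne h3.symm
  rw [h4, ← h3]
  field_simp

theorem classInner_ind_restrict [Fintype G] (E N : Subgroup G) [hN : N.Normal] [Fintype N]
    [Fintype E] [Fintype (N.subgroupOf E)] (htop : E ⊔ N = ⊤) (ψ : E → ℂ) (f : N → ℂ)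
    (hinv : ∀ (g : G) (n : N), f ⟨g * n * g⁻¹, hN.conj_mem (n : G) n.2 g⟩ = f n) :
    classInner (fun n : N => indFun E ψ n) f
      = classInner (fun d : N.subgroupOf E => ψ d) (resSub E N f) := by
  have hcl : IsClassFunction G (extendByZero N f) := by
    intro g h
    by_cases hg : g ∈ N
    · rw [extendByZero_mem N f hg, extendByZero_mem N f (hN.conj_mem g hg h)]
      exact hinv h ⟨g, hg⟩
    · rw [extendByZero_not_mem N f hg, extendByZero_not_mem]
      intro h1
      apply hg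
      have := hN.conj_mem _ h1 h⁻¹
      simpa [mul_assoc] using this
  rw [← index_mul_classInner_extendByZero N, ← index_mul_classInner_extendByZero (N.subgroupOf E),
    frobenius_reciprocity E ψ _ hcl]
  have hidx : (N.subgroupOf E).index = N.index := by
    have h1 : N.relIndex (E ⊔ N) = N.relIndex E := relIndex_sup_right E N
    rw [htop, relIndex_top_right] at h1
    exact h1.symm
  rw [hidx]
  congr 2
  funext e
  by_cases he : (e : G) ∈ N
  · rw [extendByZero_mem N f he, extendByZero_mem (N.subgroupOf E) _ (mem_subgroupOf.mpr he)]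
    rfl
  · rw [extendByZero_not_mem N f he,
      extendByZero_not_mem (N.subgroupOf E) _ (fun h => he (mem_subgroupOf.mp h))]

theorem extend_linear_comm {A : Type*} [Group A] [Finite A] (hA : ∀ a b : A, a * b = b * a)
    (B : Subgroup A) (lam : B → ℂ) (hlam : IsCharacter B lam) (h1 : lam 1 = 1) :
    ∃ μ : A → ℂ, IsCharacter A μ ∧ μ 1 = 1 ∧ ∀ b : B, μ b = lam b := by
  classical
  haveI := Fintype.ofFinite A
  haveI := Fintype.ofFinite B
  have hirr : IsIrrCharacter B lam := isIrrCharacter_of_linear hlam h1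
  obtain ⟨χ, hχ⟩ := IsCharacter.exists_constituent (IsCharacter.ind B hlam)
    (IsCharacter.ind_ne_zero B (by rw [h1]; exact one_ne_zero))
  have hχc := IsIrrCharacter.isCharacter χ.2
  have hχ1 : (χ : A → ℂ) 1 = 1 := irr_linear_of_comm hA χ.2
  rw [frobenius_reciprocity B _ _ (IsCharacter.isClassFunction hχc)] at hχ
  have hres : IsIrrCharacter B (fun b : B => (χ : A → ℂ) b) :=
    isIrrCharacter_of_linear (IsCharacter.restrict B hχc) hχ1
  have := irr_eq_of_classInner_ne_zero hirr hres hχ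
  exact ⟨χ, hχc, hχ1, fun b => (congrFun this b).symm⟩

/-- the hypothesis on the Sylow subgroup -/
def GoodSylow (N P : Subgroup G) : Prop :=
  (∀ x ∈ P ⊓ N, ∀ y ∈ P, x * y = y * x) ∧
  (∀ lam : ↥(P ⊓ N) → ℂ, IsCharacter ↥(P ⊓ N) lam → lam 1 = 1 →
    ∃ μ : ↥P → ℂ, IsCharacter ↥P μ ∧ μ 1 = 1 ∧ ∀ x : ↥(P ⊓ N), μ ⟨(x : G), x.2.1⟩ = lam x)

theorem GoodSylow.conj (N : Subgroup G) [hN : N.Normal] (P P' : Subgroup G) (g : G)
    (h : ∀ y, y ∈ P' ↔ g⁻¹ * y * g ∈ P) (hP : GoodSylow N P) : GoodSylow N P' := by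
  have hNc : ∀ x ∈ N, g⁻¹ * x * g ∈ N := by
    intro x hx
    have := hN.conj_mem x hx g⁻¹
    simpa using this
  constructor
  · intro x hx y hy
    have := hP.1 (g⁻¹ * x * g) ⟨(h x).mp hx.1, hNc x hx.2⟩ (g⁻¹ * y * g) ((h y).mp hy)
    calc x * y = g * ((g⁻¹ * x * g) * (g⁻¹ * y * g)) * g⁻¹ := by group
      _ = g * ((g⁻¹ * y * g) * (g⁻¹ * x * g)) * g⁻¹ := by rw [this]
      _ = y * x := by group
  · intro lam' hlam' hlam'1
    let c : ↥P' →* ↥P :=
      { toFun := fun y => ⟨g⁻¹ * y * g, (h y).mp y.2⟩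
        map_one' := by apply Subtype.ext; simp
        map_mul' := fun a b => by apply Subtype.ext; simp [mul_assoc] }
    let cN : ↥(P ⊓ N) →* ↥(P' ⊓ N) :=
      { toFun := fun x => ⟨g * x * g⁻¹, ⟨(h _).mpr (by
          have : g⁻¹ * (g * (x : G) * g⁻¹) * g = x := by group
          rw [this]; exact x.2.1), hN.conj_mem x x.2.2 g⟩⟩
        map_one' := by apply Subtype.ext; simp
        map_mul' := fun a b => by apply Subtype.ext; simp [mul_assoc] }
    obtain ⟨μ, hμc, hμ1, hμ⟩ := hP.2 (fun x => lam' (cN x)) (IsCharacter.comp cN hlam')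
      (by show lam' (cN 1) = 1; rw [map_one]; exact hlam'1)
    refine ⟨fun y => μ (c y), IsCharacter.comp c hμc, by show μ (c 1) = 1; rw [map_one]; exact hμ1, ?_⟩
    intro x
    have h1 := hμ ⟨g⁻¹ * x * g, ⟨(h x).mp x.2.1, hNc x x.2.2⟩⟩
    have h2 : cN ⟨g⁻¹ * x * g, ⟨(h x).mp x.2.1, hNc x x.2.2⟩⟩ = x := by
      apply Subtype.ext
      show g * (g⁻¹ * (x : G) * g) * g⁻¹ = x
      group
    rw [h2] at h1
    exact h1

theorem dade_extend [Fintype G] (p : ℕ) (hp : p.Prime) (N : Subgroup G) [hN : N.Normal]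
    (hind : ∃ k : ℕ, N.index = p ^ k) (hgood : ∀ P : Sylow p G, GoodSylow N (P : Subgroup G))
    (ϑ : N → ℂ) (hϑ : IsIrrCharacter N ϑ)
    (hinv : ∀ (g : G) (n : N), ϑ ⟨g * n * g⁻¹, hN.conj_mem (n : G) n.2 g⟩ = ϑ n) :
    ∃ χ : G → ℂ, IsIrrCharacter G χ ∧ ∀ n : N, χ n = ϑ n := by
  classical
  haveI : Fact p.Prime := ⟨hp⟩
  obtain ⟨E, φ, hE, htop, hφ, hφinv, m, hpm, hm⟩ := dade p hp N hind ϑ hϑ hinv
  obtain ⟨K, hK⟩ := hind
  haveI := isElementary_nilpotent hp hE
  haveI : Fintype N := Fintype.ofFinite _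
  haveI : Fintype E := Fintype.ofFinite _
  haveI : Fintype (N.subgroupOf E) := Fintype.ofFinite _
  haveI : Fintype ↥(E ⊓ N) := Fintype.ofFinite _
  haveI := Fintype.ofFinite (IrrCharacter G)
  haveI := Fintype.ofFinite (IrrCharacter N)
  obtain ⟨x0, hx0, hc, k, hk⟩ := hE
  set c := orderOf x0 with hcdef
  set n := p ^ (k + K) with hn
  have hcop : c.Coprime n := Nat.Coprime.pow_right _ hc
  have hcardE : Nat.card E = c * p ^ k := by
    rw [← (zpowers x0).card_mul_index, hk, Nat.card_zpowers]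
  have hcard : Nat.card E ∣ c * n := by
    rw [hcardE, hn, pow_add]
    exact ⟨p ^ K, by ring⟩
  obtain ⟨t, ht0, ht1⟩ := Nat.chineseRemainder hcop 0 1
  obtain ⟨s, hs1, hs0⟩ := Nat.chineseRemainder hcop 1 0
  have hct : c ∣ t := (Nat.modEq_zero_iff_dvd).mp ht0
  have hns : n ∣ s := (Nat.modEq_zero_iff_dvd).mp hs0
  have hmult : ∀ x y : E, (x * y) ^ t = x ^ t * y ^ t :=
    pow_mul_of_nilpotent E c n t hcop hcard hct ht1
  have hmuls : ∀ x y : E, (x * y) ^ s = x ^ s * y ^ s :=
    pow_mul_of_nilpotent E n c s hcop.symm (by rw [mul_comm]; exact hcard) hns hs1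
  have hst : ∀ e : E, e ^ s * e ^ t = e := by
    intro e
    have h1 : s + t ≡ 1 [MOD c] := by simpa using hs1.add ht0
    have h2 : s + t ≡ 1 [MOD n] := by simpa using hs0.add ht1
    have h3 : s + t ≡ 1 [MOD c * n] := (Nat.modEq_and_modEq_iff_modEq_mul hcop).mp ⟨h1, h2⟩
    have h4 : s + t ≡ 1 [MOD orderOf e] := h3.of_dvd ((orderOf_dvd_natCard e).trans hcard)
    have := pow_eq_pow_iff_modEq.mpr h4
    rwa [pow_one, pow_add] at this
  have hsN : ∀ e : E, ((e ^ s : E) : G) ∈ N := by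
    intro e
    have h1 : N.index ∣ s := by
      refine Dvd.dvd.trans ?_ hns
      rw [hK, hn, pow_add]; exact Dvd.intro_left _ rfl
    obtain ⟨r, hr⟩ := h1
    rw [Subgroup.coe_pow, hr, pow_mul]
    exact N.pow_mem (N.pow_index_mem _) r
  have hsC : ∀ e : E, e ^ s ∈ center E := by
    intro e
    have hCc : zpowers x0 ≤ center E := zpowers_le.mpr hx0
    haveI hCn : (zpowers x0).Normal := ⟨fun z hz g => by
      rw [mem_center_iff.mp (hCc hz) g, mul_inv_cancel_right]; exact hz⟩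
    have h1 : (zpowers x0).index ∣ s := by
      refine Dvd.dvd.trans ?_ hns
      rw [hk, hn, pow_add]; exact Dvd.intro _ rfl
    obtain ⟨r, hr⟩ := h1
    rw [hr, pow_mul]
    exact hCc ((zpowers x0).pow_mem ((zpowers x0).pow_index_mem _) r)
  let πt : E →* G :=
    { toFun := fun e => ((e ^ t : E) : G)
      map_one' := by simp
      map_mul' := fun a b => by rw [hmult]; rfl }
  have hQ : IsPGroup p πt.range := by
    rw [IsPGroup.iff_orderOf]
    rintro ⟨y, hy⟩
    obtain ⟨e, rfl⟩ := MonoidHom.mem_range.mp hy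
    have h1 : (πt e) ^ n = 1 := by
      show ((e ^ t : E) : G) ^ n = 1
      rw [← Subgroup.coe_pow, ← pow_mul]
      have : e ^ (t * n) = 1 := by
        apply orderOf_dvd_iff_pow_eq_one.mp
        exact (orderOf_dvd_natCard e).trans (hcard.trans (Nat.mul_dvd_mul_right hct n))
      rw [this]; rfl
    have h2 : orderOf (πt e) ∣ p ^ (k + K) := orderOf_dvd_of_pow_eq_one h1
    obtain ⟨j, _, hj⟩ := (Nat.dvd_prime_pow hp).mp h2
    exact ⟨j, by rw [Subgroup.orderOf_mk]; exact hj⟩
  obtain ⟨P', hP'⟩ := IsPGroup.exists_le_sylow hQ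
  have htP : ∀ e : E, ((e ^ t : E) : G) ∈ (P' : Subgroup G) := fun e => hP' ⟨e, rfl⟩
  obtain ⟨hcent, hlin⟩ := hgood P'
  have hEcomm : ∀ a b : E, (a : G) ∈ N → a * b = b * a := by
    intro a b ha
    have h1 : Commute (a ^ t) (b ^ t) := by
      apply Subtype.ext
      exact hcent _ ⟨htP a, by rw [Subgroup.coe_pow]; exact N.pow_mem ha t⟩ _ (htP b)
    have h2 : ∀ z : E, Commute (a ^ s) z := fun z => (mem_center_iff.mp (hsC a) z).symm
    have h3 : ∀ z : E, Commute z (b ^ s) := fun z => (mem_center_iff.mp (hsC b) z)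
    have h4 : Commute (a ^ s * a ^ t) (b ^ s * b ^ t) :=
      Commute.mul_left (h2 _) (Commute.mul_right (h3 _) h1)
    rw [hst, hst] at h4
    exact h4
  have hDcomm : ∀ a b : ↥(E ⊓ N), a * b = b * a := by
    intro a b
    apply Subtype.ext
    have := congrArg (Subtype.val : E → G) (hEcomm ⟨a, a.2.1⟩ ⟨b, b.2.1⟩ a.2.2)
    exact this
  have hφ1 : φ 1 = 1 := irr_linear_of_comm hDcomm hφ
  have hφc := IsIrrCharacter.isCharacter hφ
  have hφmul : ∀ a b, φ (a * b) = φ a * φ b := IsCharacter.linear_mul hφc hφ1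
  have hA : ∀ a b : ↥((P' : Subgroup G) ⊓ N), a * b = b * a := by
    intro a b
    apply Subtype.ext
    exact hcent a a.2 b b.2.1
  let ι : ↥(E.subgroupOf ((P' : Subgroup G) ⊓ N)) →* ↥(E ⊓ N) :=
    { toFun := fun b => ⟨((b : ↥((P' : Subgroup G) ⊓ N)) : G), ⟨b.2, b.1.2.2⟩⟩
      map_one' := rfl
      map_mul' := fun _ _ => rfl }
  obtain ⟨lam, hlamc, hlam1, hlamB⟩ := extend_linear_comm hA (E.subgroupOf ((P' : Subgroup G) ⊓ N))
    (fun b => φ (ι b)) (IsCharacter.comp ι hφc) (by show φ (ι 1) = 1; rw [map_one]; exact hφ1)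
  obtain ⟨μ, hμc, hμ1, hμ⟩ := hlin lam hlamc hlam1
  let πt' : E →* ↥(P' : Subgroup G) :=
    { toFun := fun e => ⟨((e ^ t : E) : G), htP e⟩
      map_one' := by apply Subtype.ext; simp
      map_mul' := fun a b => by apply Subtype.ext; show ((((a * b) ^ t : E)) : G) = _; rw [hmult]; rfl }
  let πs' : E →* ↥(E ⊓ N) :=
    { toFun := fun e => ⟨((e ^ s : E) : G), ⟨(e ^ s).2, hsN e⟩⟩
      map_one' := by apply Subtype.ext; simp
      map_mul' := fun a b => by apply Subtype.ext; show ((((a * b) ^ s : E)) : G) = _; rw [hmuls]; rfl }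
  set φh : E → ℂ := (fun e => φ (πs' e)) * (fun e => μ (πt' e)) with hφhdef
  have hφh : IsCharacter E φh := IsCharacter.mul (IsCharacter.comp πs' hφc) (IsCharacter.comp πt' hμc)
  have hφhD : ∀ d : ↥(N.subgroupOf E), φh d = φ ((infEquiv E N).symm d) := by
    intro d
    have hdN : (((d : E) ^ t : E) : G) ∈ N := by
      rw [Subgroup.coe_pow]; exact N.pow_mem d.2 t
    have h1 : μ (πt' d) = φ ⟨(((d : E) ^ t : E) : G), ⟨((d : E) ^ t).2, hdN⟩⟩ := by
      have e1 := hμ ⟨(((d : E) ^ t : E) : G), ⟨htP d, hdN⟩⟩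
      have e2 := hlamB ⟨⟨(((d : E) ^ t : E) : G), ⟨htP d, hdN⟩⟩, ((d : E) ^ t).2⟩
      exact e1.trans e2
    simp only [hφhdef, Pi.mul_apply]
    rw [h1, ← hφmul]
    congr 1
    apply Subtype.ext
    have := congrArg (Subtype.val : E → G) (hst (d : E))
    exact this
  set F := indFun E φh with hF
  have hFc : IsCharacter G F := IsCharacter.ind E hφh
  have hL := classInner_ind_restrict E N htop φh ϑ hinv
  have hm' : classInner (resSub E N ϑ) (fun d : ↥(N.subgroupOf E) => φh d) = m := by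
    rw [finsum_eq_sum_of_fintype] at hm
    rw [← hm, ← classInner_equiv (infEquiv E N)]
    unfold classInner
    congr 1
    apply Finset.sum_congr rfl
    intro x _
    show resSub E N ϑ ((infEquiv E N) x) * conj (φh ((infEquiv E N x : ↥(N.subgroupOf E)) : E)) = _
    rw [hφhD, MulEquiv.symm_apply_apply]
    rfl
  have hL' : classInner (fun n : N => F n) ϑ = m := by
    rw [hF, hL, ← classInner_conj_symm, hm', map_natCast]
  obtain ⟨mult, hmultF⟩ := IsCharacter.exists_mult hFc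
  have hϑc := IsIrrCharacter.isCharacter hϑ
  choose e he using fun χ : IrrCharacter G =>
    IsCharacter.classInner_nat (IsCharacter.restrict N (IsIrrCharacter.isCharacter χ.2)) hϑc
  have hsum : (m : ℂ) = ((∑ χ : IrrCharacter G, mult χ * e χ : ℕ) : ℂ) := by
    rw [← hL']
    have h1 : (fun n : N => F n) = ∑ χ : IrrCharacter G, (mult χ : ℂ) • (fun n : N => (χ : G → ℂ) n) := by
      funext n
      rw [hmultF]
      simp
    rw [h1, classInner_sum_left]
    push_cast
    apply Finset.sum_congr rfl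
    intro χ _
    rw [classInner_smul_left, he]
  have hsum' : m = ∑ χ : IrrCharacter G, mult χ * e χ := by exact_mod_cast hsum
  have hex : ∃ χ : IrrCharacter G, ¬ p ∣ e χ := by
    by_contra hcon
    push Not at hcon
    apply hpm
    rw [hsum']
    exact Finset.dvd_sum (fun χ _ => Dvd.dvd.mul_left (hcon χ) _)
  obtain ⟨χ, hχ⟩ := hex
  have hne : classInner (fun n : N => (χ : G → ℂ) n) ϑ ≠ 0 := by
    rw [he]
    intro h0
    have : e χ = 0 := by exact_mod_cast h0
    exact hχ (this ▸ dvd_zero p)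
  have hres := restrict_of_invariant N hN χ χ.2 ϑ hϑ hne (fun g => by funext n; exact hinv g n)
  rw [he] at hres
  have hres' : ∀ n : N, (χ : G → ℂ) n = e χ * ϑ n := fun n => congrFun hres n
  have h1 := ram_eq_one p hp K G N hK ϑ hϑ hinv χ χ.2 (e χ) hres' hχ
  exact ⟨χ, χ.2, fun n => by rw [hres', h1]; simp⟩

end Cfsg.Agent.LeadBr
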