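import Mathlib

set_option autoImplicit false
set_option linter.style.haveILetI false
set_option linter.unusedSectionVars false

/-! A finite `p`-group acting linearly in characteristic `p` fixes a nonzero vector of every
nonzero invariant subspace. -/

namespace Cfsg.Agent.LeadBr

open Polynomial

universe u v w

theorem end_sub_one_pow {F : Type w} [Field F] (p : ℕ) [Fact p.Prime] [CharP F p]
    {V : Type v} [AddCommGroup V] [Module F V] (T : Module.End F V) :
    (T - 1) ^ p = T ^ p - 1 := by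
  have h : ((X : F[X]) - 1) ^ p = X ^ p - 1 := by
    rw [sub_pow_char, one_pow]
  have h2 := congrArg (aeval T) h
  simpa using h2

theorem fixed_vector_aux {F : Type w} [Field F] (p : ℕ) [Fact p.Prime] [CharP F p] (n : ℕ) :
    ∀ (Q : Type u) [Group Q] [Finite Q], Nat.card Q = n → IsPGroup p Q →
    ∀ (V : Type v) [AddCommGroup V] [Module F V] (ρ : Q →* Module.End F V) (W : Submodule F V),
    W ≠ ⊥ → (∀ u w, w ∈ W → ρ u w ∈ W) → ∃ w ∈ W, w ≠ 0 ∧ ∀ u, ρ u w = w := by
  induction n using Nat.strong_induction_on with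
  | _ n ih =>
  intro Q _ _ hn hQ V _ _ ρ W hW hstab
  have hp : p.Prime := Fact.out
  by_cases hsub : Subsingleton Q
  · obtain ⟨w, hw, hw0⟩ := (Submodule.ne_bot_iff W).mp hW
    refine ⟨w, hw, hw0, fun u => ?_⟩
    rw [Subsingleton.elim u 1, map_one]; rfl
  rw [not_subsingleton_iff_nontrivial] at hsub
  obtain ⟨k, hk⟩ := hQ.exists_card_eq
  have hk0 : k ≠ 0 := by
    rintro rfl
    rw [pow_zero] at hk
    exact absurd (Finite.one_lt_card (α := Q)) (by omega)
  obtain ⟨M, hM⟩ := Sylow.exists_subgroup_card_pow_prime (G := Q) p (n := k - 1)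
    (by rw [hk]; exact pow_dvd_pow p (Nat.sub_le k 1))
  have hidx : M.index = p := by
    have h1 := M.index_mul_card
    rw [hM, hk] at h1
    apply Nat.eq_of_mul_eq_mul_right (pow_pos hp.pos (k - 1))
    rw [h1, ← pow_succ']
    congr 1; omega
  have hMn : M.Normal := Subgroup.normal_of_index_eq_minFac_card
    (by rw [hidx, hk, hp.pow_minFac hk0])
  have hlt : Nat.card M < n := by
    rw [← hn, hM, hk]
    exact Nat.pow_lt_pow_right hp.one_lt (by omega)
  let W₁ : Submodule F V :=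
    { carrier := {w | w ∈ W ∧ ∀ m ∈ M, ρ m w = w}
      add_mem' := by
        intro a b ha hb
        exact ⟨W.add_mem ha.1 hb.1, fun m hm => by rw [map_add, ha.2 m hm, hb.2 m hm]⟩
      zero_mem' := ⟨W.zero_mem, fun m _ => map_zero _⟩
      smul_mem' := by
        intro c a ha
        exact ⟨W.smul_mem c ha.1, fun m hm => by rw [map_smul, ha.2 m hm]⟩ }
  obtain ⟨w₀, hw₀W, hw₀0, hw₀M⟩ := ih _ hlt M rfl (hQ.to_subgroup M) V (ρ.comp M.subtype) W hW
    (fun u w hw => hstab u w hw)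
  have hw₀ : w₀ ∈ W₁ := ⟨hw₀W, fun m hm => hw₀M ⟨m, hm⟩⟩
  obtain ⟨c, hc⟩ : ∃ c : Q, c ∉ M := by
    by_contra hcon
    push Not at hcon
    have : M = ⊤ := (Subgroup.eq_top_iff' M).mpr hcon
    rw [this, Subgroup.index_top] at hidx
    exact hp.one_lt.ne hidx
  have hcp : c ^ p ∈ M := by
    have h1 : ((c : Q ⧸ M)) ^ Nat.card (Q ⧸ M) = 1 := pow_card_eq_one'
    have h2 : Nat.card (Q ⧸ M) = p := hidx
    rw [h2, ← QuotientGroup.mk_pow] at h1
    exact (QuotientGroup.eq_one_iff _).mp h1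
  have hcW : ∀ w ∈ W₁, ρ c w ∈ W₁ := by
    intro w hw
    refine ⟨hstab c w hw.1, fun m hm => ?_⟩
    have h1 : c⁻¹ * m * c ∈ M := by
      have := hMn.conj_mem m hm c⁻¹
      simpa using this
    have h2 : m * c = c * (c⁻¹ * m * c) := by group
    calc ρ m (ρ c w) = ρ (m * c) w := by rw [map_mul]; rfl
      _ = ρ c (ρ (c⁻¹ * m * c) w) := by rw [h2, map_mul]; rfl
      _ = ρ c w := by rw [hw.2 _ h1]
  have hDW : ∀ w ∈ W₁, (ρ c - 1) w ∈ W₁ := by
    intro w hw
    exact W₁.sub_mem (hcW w hw) hw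
  have hDkW : ∀ j : ℕ, ((ρ c - 1) ^ j) w₀ ∈ W₁ := by
    intro j
    induction j with
    | zero => simpa using hw₀
    | succ j ihj => rw [pow_succ']; exact hDW _ ihj
  have hDp : ((ρ c - 1) ^ p) w₀ = 0 := by
    rw [end_sub_one_pow p (ρ c), ← map_pow]
    show ρ (c ^ p) w₀ - w₀ = 0
    rw [hw₀.2 _ hcp, sub_self]
  classical
  have hex : ∃ j : ℕ, ((ρ c - 1) ^ j) w₀ = 0 := ⟨p, hDp⟩
  set j := Nat.find hex with hj
  have hj0 : ((ρ c - 1) ^ j) w₀ = 0 := Nat.find_spec hex
  have hjne : j ≠ 0 := by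
    intro h0
    rw [h0] at hj0
    exact hw₀0 (by simpa using hj0)
  have hjm : ((ρ c - 1) ^ (j - 1)) w₀ ≠ 0 := Nat.find_min hex (by omega)
  set w := ((ρ c - 1) ^ (j - 1)) w₀ with hw
  have hwW : w ∈ W₁ := hDkW _
  have hcw : ρ c w = w := by
    have h1 : (ρ c - 1) w = 0 := by
      rw [hw]
      have : (ρ c - 1) (((ρ c - 1) ^ (j - 1)) w₀) = ((ρ c - 1) ^ (j - 1 + 1)) w₀ := by
        rw [pow_succ']; rfl
      rw [this, Nat.sub_add_cancel (Nat.one_le_iff_ne_zero.mpr hjne)]
      exact hj0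
    exact sub_eq_zero.mp h1
  let S : Subgroup Q :=
    { carrier := {u | ρ u w = w}
      mul_mem' := by
        intro a b ha hb
        show ρ (a * b) w = w
        rw [map_mul]
        show ρ a (ρ b w) = w
        rw [(show ρ b w = w from hb), (show ρ a w = w from ha)]
      one_mem' := by show ρ 1 w = w; rw [map_one]; rfl
      inv_mem' := by
        intro a ha
        show ρ a⁻¹ w = w
        have h1 : ρ a⁻¹ (ρ a w) = w := by
          have : ρ a⁻¹ (ρ a w) = ρ (a⁻¹ * a) w := by rw [map_mul]; rfl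
          rw [this, inv_mul_cancel, map_one]; rfl
        rwa [(show ρ a w = w from ha)] at h1 }
  have hMS : M ≤ S := fun m hm => hwW.2 m hm
  have hcS : c ∈ S := hcw
  have hStop : S = ⊤ := by
    have h1 := Subgroup.index_dvd_of_le hMS
    rw [hidx] at h1
    rcases (Nat.dvd_prime hp).mp h1 with h2 | h2
    · exact Subgroup.index_eq_one.mp h2
    · exfalso
      have h3 : Nat.card S = Nat.card M := by
        have e1 := S.index_mul_card
        have e2 := M.index_mul_card
        rw [h2] at e1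
        rw [hidx] at e2
        exact Nat.eq_of_mul_eq_mul_left hp.pos (e1.trans e2.symm)
      have h4 : M = S := Subgroup.eq_of_le_of_card_ge hMS h3.le
      exact hc (h4 ▸ hcS)
  refine ⟨w, hwW.1, hjm, fun u => ?_⟩
  have : u ∈ S := hStop ▸ Subgroup.mem_top u
  exact this

theorem fixed_vector {F : Type w} [Field F] (p : ℕ) [Fact p.Prime] [CharP F p]
    {Q : Type u} [Group Q] [Finite Q] (hQ : IsPGroup p Q)
    {V : Type v} [AddCommGroup V] [Module F V] (ρ : Q →* Module.End F V) (W : Submodule F V)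
    (hW : W ≠ ⊥) (hstab : ∀ u w, w ∈ W → ρ u w ∈ W) : ∃ w ∈ W, w ≠ 0 ∧ ∀ u, ρ u w = w :=
  fixed_vector_aux p _ Q rfl hQ V ρ W hW hstab

end Cfsg.Agent.LeadBr
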