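import Mathlib
import Cfsg.Agent.Lib_lead_FixV

set_option autoImplicit false
set_option linter.style.haveILetI false
set_option linter.unusedSectionVars false

/-! Class sums of classes missing `C_G(Q)`, `Q` a normal `p`-subgroup, are nilpotent in
characteristic `p`. -/

namespace Cfsg.Agent.LeadBr

universe u w

section
variable {G : Type u} [Group G] [Finite G] {F : Type w} [Field F]

/-- sum of an invariant function over a set on which a `p`-group acts by conjugation without fixed
points -/
theorem sum_eq_zero_of_pgroup (p : ℕ) [Fact p.Prime] [CharP F p] (Q : Subgroup G) (hQ : IsPGroup p Q)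
    (K : Finset G) (hK : ∀ u ∈ Q, ∀ x ∈ K, u * x * u⁻¹ ∈ K)
    (hfix : ∀ x ∈ K, ∃ u ∈ Q, u * x * u⁻¹ ≠ x)
    {A : Type*} [AddCommGroup A] [Module F A] (φ : G → A)
    (hφ : ∀ u ∈ Q, ∀ x ∈ K, φ (u * x * u⁻¹) = φ x) : ∑ x ∈ K, φ x = 0 := by
  classical
  have h1 := Finset.sum_comp (s := K) (fun a : A => a) φ
  rw [h1]
  apply Finset.sum_eq_zero
  intro b _
  have hdvd : p ∣ (K.filter (fun a => φ a = b)).card := by
    let Ω := {x : G // x ∈ K ∧ φ x = b}
    letI act : MulAction Q Ω :=
      { smul := fun u x => ⟨(u : G) * x.1 * (u : G)⁻¹, hK u u.2 x.1 x.2.1, by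
          rw [hφ u u.2 x.1 x.2.1]; exact x.2.2⟩
        one_smul := by
          intro x
          apply Subtype.ext
          show ((1 : Q) : G) * x.1 * ((1 : Q) : G)⁻¹ = x.1
          simp
        mul_smul := by
          intro u v x
          apply Subtype.ext
          show ((u * v : Q) : G) * x.1 * ((u * v : Q) : G)⁻¹ =
            (u : G) * ((v : G) * x.1 * (v : G)⁻¹) * (u : G)⁻¹
          rw [Subgroup.coe_mul]; group }
    have h2 := hQ.card_modEq_card_fixedPoints Ω
    have h3 : IsEmpty (MulAction.fixedPoints Q Ω) := by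
      constructor
      rintro ⟨x, hx⟩
      obtain ⟨u, hu, hne⟩ := hfix x.1 x.2.1
      exact hne (congrArg Subtype.val (MulAction.mem_fixedPoints.mp hx ⟨u, hu⟩))
    have h0 : Nat.card (MulAction.fixedPoints Q Ω) = 0 := by
      haveI := h3
      exact Nat.card_of_isEmpty
    rw [h0] at h2
    have h4 : Nat.card Ω = (K.filter (fun a => φ a = b)).card := by
      have e : Ω ≃ {x // x ∈ K.filter (fun a => φ a = b)} :=
        Equiv.subtypeEquivRight (fun x => by simp)
      rw [Nat.card_congr e, Nat.card_eq_fintype_card, Fintype.card_coe]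
    rw [← h4]
    exact (Nat.modEq_zero_iff_dvd).mp h2
  rw [← Nat.cast_smul_eq_nsmul F, (CharP.cast_eq_zero_iff F p _).mpr hdvd, zero_smul]

theorem class_sum_nilpotent (p : ℕ) [Fact p.Prime] [CharP F p] (Q : Subgroup G) [hQn : Q.Normal]
    (hQ : IsPGroup p Q) (K : Finset G) (hK : ∀ u : G, ∀ x ∈ K, u * x * u⁻¹ ∈ K)
    (hfix : ∀ x ∈ K, x ∉ Subgroup.centralizer (Q : Set G)) :
    IsNilpotent (∑ x ∈ K, MonoidAlgebra.single x (1 : F) : MonoidAlgebra F G) := by
  classical
  set z : MonoidAlgebra F G := ∑ x ∈ K, MonoidAlgebra.single x (1 : F) with hz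
  have hzc : ∀ u : G, MonoidAlgebra.single u (1 : F) * z = z * MonoidAlgebra.single u (1 : F) := by
    intro u
    rw [hz, Finset.mul_sum, Finset.sum_mul]
    simp only [MonoidAlgebra.single_mul_single, mul_one]
    apply Finset.sum_bij (fun x _ => u * x * u⁻¹)
    · intro x hx; exact hK u x hx
    · intro x _ y _ h
      exact mul_left_cancel (mul_right_cancel h)
    · intro y hy
      refine ⟨u⁻¹ * y * u, ?_, by group⟩
      have := hK u⁻¹ y hy
      simpa using this
    · intro x _
      congr 1
      group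
  let ρ : G →* Module.End F (MonoidAlgebra F G) :=
    ((Algebra.lmul F (MonoidAlgebra F G)) : MonoidAlgebra F G →* Module.End F (MonoidAlgebra F G)).comp
      (MonoidAlgebra.of F G)
  have hρ : ∀ (u : G) (a : MonoidAlgebra F G), ρ u a = MonoidAlgebra.single u (1 : F) * a :=
    fun u a => rfl
  set f : Module.End F (MonoidAlgebra F G) := LinearMap.mulLeft F z with hf
  have hcomm : ∀ u : G, Commute (ρ u) f := by
    intro u
    apply LinearMap.ext
    intro a
    show ρ u (f a) = f (ρ u a)
    rw [hρ, hρ]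
    show MonoidAlgebra.single u (1 : F) * (z * a) = z * (MonoidAlgebra.single u (1 : F) * a)
    rw [← mul_assoc, hzc, mul_assoc]
  obtain ⟨n, hn1, hn⟩ := ((Filter.eventually_ge_atTop 1).and
    (LinearMap.eventually_isCompl_ker_pow_range_pow f)).exists
  have hW : (f ^ n).range = ⊥ := by
    by_contra hW
    obtain ⟨w, hwW, hw0, hwfix⟩ := fixed_vector p hQ (ρ.comp Q.subtype) (f ^ n).range hW (by
      rintro u _ ⟨a, rfl⟩
      refine ⟨ρ u a, ?_⟩
      have := (hcomm u).pow_right n
      exact (congrArg (fun T : Module.End F (MonoidAlgebra F G) => T a) this).symm)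
    have hwfix' : ∀ u ∈ Q, MonoidAlgebra.single u (1 : F) * w = w := fun u hu => hwfix ⟨u, hu⟩
    have hzw : z * w = 0 := by
      rw [hz, Finset.sum_mul]
      apply sum_eq_zero_of_pgroup (F := F) p Q hQ K (fun u _ x hx => hK u x hx)
      · intro x hx
        by_contra hcon
        push Not at hcon
        apply hfix x hx
        rw [Subgroup.mem_centralizer_iff]
        intro u hu
        calc u * x = (u * x * u⁻¹) * u := by group
          _ = x * u := by rw [hcon u hu]
      · intro u hu x _
        have e1 : MonoidAlgebra.single (u * x * u⁻¹) (1 : F) =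
            MonoidAlgebra.single x (1 : F) * MonoidAlgebra.single (x⁻¹ * u * x) (1 : F) *
              MonoidAlgebra.single u⁻¹ (1 : F) := by
          simp only [MonoidAlgebra.single_mul_single, mul_one]
          congr 1
          group
        have h1 : x⁻¹ * u * x ∈ Q := by
          have := hQn.conj_mem u hu x⁻¹
          simpa using this
        rw [e1, mul_assoc, hwfix' _ (Q.inv_mem hu), mul_assoc, hwfix' _ h1]
    have hker : w ∈ (f ^ n).ker := by
      rw [LinearMap.mem_ker]
      obtain ⟨m, rfl⟩ : ∃ m, n = m + 1 := ⟨n - 1, by omega⟩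
      rw [pow_succ]
      show (f ^ m) (f w) = 0
      rw [show f w = z * w from rfl, hzw, map_zero]
    have := hn.disjoint.le_bot (Submodule.mem_inf.mpr ⟨hker, hwW⟩)
    exact hw0 ((Submodule.mem_bot F).mp this)
  refine ⟨n, ?_⟩
  have h1 : (f ^ n) 1 ∈ (f ^ n).range := ⟨1, rfl⟩
  rw [hW, Submodule.mem_bot, hf, LinearMap.pow_mulLeft] at h1
  simpa using h1

end

end Cfsg.Agent.LeadBr
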