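import Mathlib
import Cfsg.Prelude.Def_Characters
import Cfsg.Prelude.Def_OddOrderChar
import Cfsg.Agent.Lib_lead_Coh2

set_option autoImplicit false
set_option linter.style.haveILetI false

/-! Feit's coherence criterion. -/

namespace Cfsg.Agent.LeadBr

open Cfsg Cfsg.Agent.H4
open scoped ComplexConjugate

universe u v

variable {L : Type u} [Group L] {G : Type v} [Group G]

theorem virt_inner_int [Fintype G] {a b : G → ℂ} (ha : IsGeneralizedCharacter G a)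
    (hb : IsGeneralizedCharacter G b) : ∃ z : ℤ, classInner a b = z := by
  obtain ⟨b1, b2, h1, h2, rfl⟩ := hb
  obtain ⟨z1, e1⟩ := IsGeneralizedCharacter.classInner_int ha h1
  obtain ⟨z2, e2⟩ := IsGeneralizedCharacter.classInner_int ha h2
  exact ⟨z1 - z2, by rw [classInner_sub_right, e1, e2]; simp⟩

theorem virt_norm [Fintype G] {a : G → ℂ} (ha : IsGeneralizedCharacter G a) :
    ∃ n : ℕ, classInner a a = n ∧ (n = 0 → a = 0) := by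
  classical
  haveI := Fintype.ofFinite (IrrCharacter G)
  obtain ⟨c, rfl⟩ := IsGeneralizedCharacter.exists_int_mult ha
  have hnn : 0 ≤ ∑ φ : IrrCharacter G, c φ * c φ := Finset.sum_nonneg (fun φ _ => mul_self_nonneg _)
  refine ⟨(∑ φ : IrrCharacter G, c φ * c φ).toNat, ?_, ?_⟩
  · rw [classInner_sum_sum]
    have : (((∑ φ : IrrCharacter G, c φ * c φ).toNat : ℤ) : ℂ)
        = ((∑ φ : IrrCharacter G, c φ * c φ : ℤ) : ℂ) := by rw [Int.toNat_of_nonneg hnn]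
    rw [Int.cast_natCast] at this
    rw [this]
    push_cast
    apply Finset.sum_congr rfl
    intro φ _
    rw [map_intCast]
  · intro h
    have h0 : ∑ φ : IrrCharacter G, c φ * c φ = 0 := by
      have := Int.toNat_of_nonneg hnn
      rw [h] at this
      exact this.symm
    apply Finset.sum_eq_zero
    intro φ _
    have := (Finset.sum_eq_zero_iff_of_nonneg (fun j _ => mul_self_nonneg (c j))).mp h0 φ
      (Finset.mem_univ φ)
    rw [mul_self_eq_zero.mp this]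
    simp

theorem comb_mem' {S : Set (L → ℂ)} {θ ξ : L → ℂ} (hθ : θ ∈ S) (hξ : ξ ∈ S)
    (m n : ℤ) (h : (m : ℂ) * θ 1 = n * ξ 1) :
    (m : ℂ) • θ - (n : ℂ) • ξ ∈ zspanOn S ({1}ᶜ : Set L) := by
  have e1 : (m : ℂ) • θ - (n : ℂ) • ξ = m • θ + (-n) • ξ := by
    funext x; simp; ring
  constructor
  · rw [e1]
    exact Submodule.add_mem _ (Submodule.smul_mem _ m (Submodule.subset_span hθ))
      (Submodule.smul_mem _ (-n) (Submodule.subset_span hξ))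
  · intro x hx
    have hx1 : x = 1 := by simpa using hx
    rw [hx1]
    simp only [Pi.sub_apply, Pi.smul_apply, smul_eq_mul, h]
    ring

/-- the arithmetic heart of Feit's criterion -/
theorem feit_arith (D A T x n : ℤ) (hD : 0 < D) (hA : 0 ≤ A) (hT : 2 * A * D ^ 2 < T) (hn : 0 ≤ n)
    (h1 : D ^ 2 * (1 - n) = x * (x * T - 2 * A * D ^ 2))
    (h2 : n = 0 → x * T = A * D ^ 2) : x = 0 ∧ n = 1 := by
  have hAD : 0 ≤ A * D ^ 2 := by positivity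
  have hD2 : 0 < D ^ 2 := by positivity
  have hx : x = 0 := by
    by_contra hx
    have hpos : 0 < x * (x * T - 2 * A * D ^ 2) := by
      rcases lt_or_gt_of_ne hx with h | h
      · have h3 : x ≤ -1 := by omega
        have h4 : x * T - 2 * A * D ^ 2 < 0 := by nlinarith
        exact mul_pos_of_neg_of_neg h h4
      · have h3 : 1 ≤ x := by omega
        have h4 : 0 < x * T - 2 * A * D ^ 2 := by nlinarith
        exact mul_pos h h4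
    rw [← h1] at hpos
    have h5 : 0 < 1 - n := by
      by_contra h
      have : 1 - n ≤ 0 := by omega
      nlinarith
    have hn0 : n = 0 := by omega
    have h6 := h2 hn0
    rcases lt_or_gt_of_ne hx with h | h
    · have h3 : x ≤ -1 := by omega
      nlinarith
    · have h3 : 1 ≤ x := by omega
      nlinarith
  refine ⟨hx, ?_⟩
  rw [hx] at h1
  simp only [zero_mul] at h1
  rcases mul_eq_zero.mp h1 with h | h
  · exact absurd h hD2.ne'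
  · omega

theorem feit_criterion [Fintype L] [Fintype G] (S₀ : Finset (L → ℂ)) (χ : L → ℂ)
    (hirr : ∀ ξ ∈ S₀, IsIrrCharacter L ξ) (hχ : IsIrrCharacter L χ) (hχS : χ ∉ S₀)
    (d : (L → ℂ) → ℕ) (hdχ : χ 1 = (d χ : ℂ)) (hd : ∀ ξ ∈ S₀, ξ 1 = (d ξ : ℂ))
    (τ : (L → ℂ) → (G → ℂ))
    (hτ : IsLinearIsometryOn (zspanOn (insert χ (↑S₀ : Set (L → ℂ))) ({1}ᶜ : Set L)) τ)
    (hτ1 : ∀ α ∈ zspanOn (insert χ (↑S₀ : Set (L → ℂ))) ({1}ᶜ : Set L), τ α 1 = 0)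
    (hcoh : IsCoherent (↑S₀ : Set (L → ℂ)) ({1}ᶜ : Set L) τ) (ψ : L → ℂ) (hψ : ψ ∈ S₀)
    (hdvd : d ψ ∣ d χ) (hlt : 2 * d ψ * d χ < ∑ ξ ∈ S₀, d ξ ^ 2) :
    IsCoherent (insert χ (↑S₀ : Set (L → ℂ))) ({1}ᶜ : Set L) τ := by
  classical
  haveI := Fintype.ofFinite (IrrCharacter L)
  obtain ⟨⟨α₀, hα₀, hα₀ne⟩, τ₁, hτ₁, hτ₁τ⟩ := hcoh
  obtain ⟨S, hS⟩ : ∃ S : Set (L → ℂ), S = insert χ (↑S₀ : Set (L → ℂ)) := ⟨_, rfl⟩
  rw [← hS] at hτ hτ1 ⊢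
  have hS₀S : (↑S₀ : Set (L → ℂ)) ⊆ S := by rw [hS]; exact Set.subset_insert _ _
  have hχmem : χ ∈ S := by rw [hS]; exact Set.mem_insert _ _
  have hirrS : ∀ ξ ∈ S, IsIrrCharacter L ξ := by
    intro ξ hξ
    rw [hS] at hξ
    rcases hξ with h | h
    · rw [h]; exact hχ
    · exact hirr ξ h
  obtain ⟨a, ha⟩ := hdvd
  have hψ' : ψ ∈ (↑S₀ : Set (L → ℂ)) := hψ
  have hDpos : 0 < d ψ := by
    obtain ⟨n, hn, hn'⟩ := IsIrrCharacter.apply_one (hirr ψ hψ)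
    rw [hd ψ hψ] at hn'
    have : d ψ = n := by exact_mod_cast hn'
    omega
  have hχne : ∀ ξ ∈ S₀, χ ≠ ξ := fun ξ hξ h => hχS (h ▸ hξ)
  obtain ⟨β, hβ⟩ : ∃ β : L → ℂ, β = ((1 : ℤ) : ℂ) • χ - ((a : ℤ) : ℂ) • ψ := ⟨_, rfl⟩
  have hβm : β ∈ zspanOn S ({1}ᶜ : Set L) := by
    rw [hβ]
    exact comb_mem' hχmem (hS₀S hψ') 1 a (by rw [hdχ, hd ψ hψ, ha]; push_cast; ring)
  have hβξ : ∀ ξ ∈ S₀, classInner β ξ = -(a : ℂ) * (if ψ = ξ then 1 else 0) := by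
    intro ξ hξ
    rw [hβ, classInner_sub_left, classInner_smul_left, classInner_smul_left,
      irr_inner_ite hχ (hirr ξ hξ), if_neg (hχne ξ hξ), irr_inner_ite (hirr ψ hψ) (hirr ξ hξ)]
    push_cast; ring
  have hβχ : classInner β χ = 1 := by
    rw [hβ, classInner_sub_left, classInner_smul_left, classInner_smul_left,
      irr_inner_ite hχ hχ, if_pos rfl, irr_inner_ite (hirr ψ hψ) hχ, if_neg (hχne ψ hψ).symm]
    push_cast; ring
  have hββ : classInner β β = 1 + (a : ℂ) ^ 2 := by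
    nth_rewrite 2 [hβ]
    rw [classInner_sub_right, classInner_smul_right, classInner_smul_right, hβχ, hβξ ψ hψ,
      if_pos rfl, map_intCast, map_intCast]
    push_cast; ring
  have hτβv := hτ.2.2.2 β hβm
  have hτ₁v : ∀ ξ ∈ S₀, IsGeneralizedCharacter G (τ₁ ξ) :=
    fun ξ hξ => hτ₁.2.2.2 ξ (Submodule.subset_span hξ)
  have hcex : ∀ ξ : L → ℂ, ∃ z : ℤ, ξ ∈ S₀ → classInner (τ β) (τ₁ ξ) = z := by
    intro ξ
    by_cases h : ξ ∈ S₀
    · obtain ⟨z, hz⟩ := virt_inner_int hτβv (hτ₁v ξ h)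
      exact ⟨z, fun _ => hz⟩
    · exact ⟨0, fun h' => absurd h' h⟩
  choose c hc using hcex
  have hγ : ∀ ξ ∈ S₀, (((d ψ : ℕ) : ℤ) : ℂ) • ξ - (((d ξ : ℕ) : ℤ) : ℂ) • ψ
      ∈ zspanOn (↑S₀ : Set (L → ℂ)) ({1}ᶜ : Set L) := fun ξ hξ =>
    comb_mem (S := (↑S₀ : Set (L → ℂ))) hξ hψ' (d ξ) (d ψ) (by rw [hd ξ hξ]; simp)
      (by rw [hd ψ hψ]; simp)
  have hτγ : ∀ ξ ∈ S₀, τ ((((d ψ : ℕ) : ℤ) : ℂ) • ξ - (((d ξ : ℕ) : ℤ) : ℂ) • ψ)
      = (((d ψ : ℕ) : ℤ) : ℂ) • τ₁ ξ - (((d ξ : ℕ) : ℤ) : ℂ) • τ₁ ψ := by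
    intro ξ hξ
    rw [← hτ₁τ _ (hγ ξ hξ), star_comb hτ₁ (S := (↑S₀ : Set (L → ℂ))) hξ hψ']
  have hrel : ∀ ξ ∈ S₀, (d ψ : ℤ) * c ξ
      = d ξ * (c ψ + a) - a * d ψ * (if ψ = ξ then 1 else 0) := by
    intro ξ hξ
    have h1 := hτ.2.2.1 β hβm _ (zspanOn_mono hS₀S (hγ ξ hξ))
    rw [hτγ ξ hξ, classInner_sub_right, classInner_smul_right, classInner_smul_right, hc ξ hξ,
      hc ψ hψ, classInner_sub_right, classInner_smul_right, classInner_smul_right, hβξ ξ hξ,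
      hβξ ψ hψ, if_pos rfl] at h1
    simp only [map_intCast] at h1
    by_cases hψξ : ψ = ξ
    · rw [if_pos hψξ] at h1 ⊢
      have h2 : (((d ψ : ℤ) * c ξ : ℤ) : ℂ) = ((d ξ * (c ψ + a) - a * d ψ * 1 : ℤ) : ℂ) := by
        push_cast
        linear_combination h1
      exact_mod_cast h2
    · rw [if_neg hψξ] at h1 ⊢
      have h2 : (((d ψ : ℤ) * c ξ : ℤ) : ℂ) = ((d ξ * (c ψ + a) - a * d ψ * 0 : ℤ) : ℂ) := by
        push_cast
        linear_combination h1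
      exact_mod_cast h2
  have ht : ∀ ξ ∈ S₀, (d ψ : ℂ) * τ₁ ξ 1 = d ξ * τ₁ ψ 1 := by
    intro ξ hξ
    have h1 := hτ1 _ (zspanOn_mono hS₀S (hγ ξ hξ))
    rw [hτγ ξ hξ] at h1
    simp only [Pi.sub_apply, Pi.smul_apply, smul_eq_mul, Int.cast_natCast] at h1
    linear_combination h1
  obtain ⟨Δ, hΔ⟩ : ∃ Δ : G → ℂ, Δ = τ β - ∑ ξ ∈ S₀, (c ξ : ℂ) • τ₁ ξ := ⟨_, rfl⟩
  have hτ₁o : ∀ ξ ∈ S₀, ∀ ξ' ∈ S₀, classInner (τ₁ ξ) (τ₁ ξ') = if ξ = ξ' then 1 else 0 := by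
    intro ξ hξ ξ' hξ'
    rw [hτ₁.2.2.1 ξ (Submodule.subset_span hξ) ξ' (Submodule.subset_span hξ'),
      irr_inner_ite (hirr ξ hξ) (hirr ξ' hξ')]
  have hΔo : ∀ ξ' ∈ S₀, classInner Δ (τ₁ ξ') = 0 := by
    intro ξ' hξ'
    rw [hΔ, classInner_sub_left, classInner_sum_left, hc ξ' hξ', Finset.sum_eq_single ξ']
    · rw [classInner_smul_left, hτ₁o _ hξ' _ hξ', if_pos rfl]; ring
    · intro b hb hbne
      rw [classInner_smul_left, hτ₁o _ hb _ hξ', if_neg hbne]; ring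
    · intro h; exact absurd hξ' h
  have hΔv : IsGeneralizedCharacter G Δ := by
    rw [hΔ, sub_eq_add_neg]
    exact IsGeneralizedCharacter.add' hτβv (IsGeneralizedCharacter.neg'
      (IsGeneralizedCharacter.sum' _ _ (fun ξ hξ => IsGeneralizedCharacter.zsmul' (hτ₁v ξ hξ) (c ξ))))
  have hΔΔ : classInner Δ Δ = 1 + (a : ℂ) ^ 2 - ∑ ξ ∈ S₀, (c ξ : ℂ) ^ 2 := by
    have e1 : classInner Δ Δ = classInner Δ (τ β) := by
      nth_rewrite 2 [hΔ]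
      rw [classInner_sub_right, classInner_sum_right, Finset.sum_eq_zero, sub_zero]
      intro ξ hξ
      rw [classInner_smul_right, hΔo ξ hξ, mul_zero]
    rw [e1, hΔ, classInner_sub_left, hτ.2.2.1 β hβm β hβm, hββ, classInner_sum_left]
    congr 1
    apply Finset.sum_congr rfl
    intro ξ hξ
    rw [classInner_smul_left, ← classInner_conj_symm, hc ξ hξ, map_intCast]; ring
  obtain ⟨n, hn, hn0⟩ := virt_norm hΔv
  have hsq : (d ψ : ℤ) ^ 2 * ∑ ξ ∈ S₀, (c ξ) ^ 2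
      = (c ψ + a) ^ 2 * (∑ ξ ∈ S₀, (d ξ : ℤ) ^ 2) - 2 * a * (c ψ + a) * (d ψ : ℤ) ^ 2
        + (a : ℤ) ^ 2 * (d ψ : ℤ) ^ 2 := by
    rw [Finset.mul_sum]
    have h1 : ∀ ξ ∈ S₀, (d ψ : ℤ) ^ 2 * (c ξ) ^ 2
        = (c ψ + a) ^ 2 * (d ξ : ℤ) ^ 2 - (2 * a * (c ψ + a) * d ψ) * (if ψ = ξ then (d ξ : ℤ) else 0)
          + ((a : ℤ) ^ 2 * (d ψ : ℤ) ^ 2) * (if ψ = ξ then 1 else 0) := by
      intro ξ hξ
      have h2 := hrel ξ hξ
      have h3 : (d ψ : ℤ) ^ 2 * (c ξ) ^ 2 = ((d ψ : ℤ) * c ξ) ^ 2 := by ring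
      rw [h3, h2]
      split_ifs <;> ring
    rw [Finset.sum_congr rfl h1, Finset.sum_add_distrib, Finset.sum_sub_distrib, ← Finset.mul_sum,
      ← Finset.mul_sum, ← Finset.mul_sum, Finset.sum_ite_eq, Finset.sum_ite_eq, if_pos hψ, if_pos hψ]
    ring
  have hnint : (n : ℤ) = 1 + (a : ℤ) ^ 2 - ∑ ξ ∈ S₀, (c ξ) ^ 2 := by
    have : ((n : ℤ) : ℂ) = ((1 + (a : ℤ) ^ 2 - ∑ ξ ∈ S₀, (c ξ) ^ 2 : ℤ) : ℂ) := by
      push_cast
      rw [← hn, hΔΔ]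
    exact_mod_cast this
  have hψ1ne : τ₁ ψ 1 ≠ 0 := by
    obtain ⟨φ, hφ⟩ := irr_or_neg_of_norm_one (hτ₁v ψ hψ) (by rw [hτ₁o ψ hψ ψ hψ, if_pos rfl])
    have := IsIrrCharacter.apply_one_ne_zero φ.2
    rcases hφ with h | h
    · rw [h]; exact this
    · rw [h, Pi.neg_apply]; exact neg_ne_zero.mpr this
  obtain ⟨hx, hn1⟩ := feit_arith (d ψ) a (∑ ξ ∈ S₀, (d ξ : ℤ) ^ 2) (c ψ + a) n
    (by exact_mod_cast hDpos) (by positivity)
    (by
      have : ((2 * d ψ * d χ : ℕ) : ℤ) < ((∑ ξ ∈ S₀, d ξ ^ 2 : ℕ) : ℤ) := by exact_mod_cast hlt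
      rw [ha] at this
      push_cast at this
      linarith)
    (by positivity)
    (by rw [hnint]; linear_combination hsq)
    (by
      intro h0
      have hΔ0 := hn0 (by exact_mod_cast h0)
      have e1 : τ β = ∑ ξ ∈ S₀, (c ξ : ℂ) • τ₁ ξ := by
        rw [hΔ0] at hΔ
        exact sub_eq_zero.mp hΔ.symm
      have e2 := hτ1 β hβm
      rw [e1] at e2
      simp only [Finset.sum_apply, Pi.smul_apply, smul_eq_mul] at e2
      have e3 : (d ψ : ℂ) ^ 2 * ∑ ξ ∈ S₀, (c ξ : ℂ) * τ₁ ξ 1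
          = τ₁ ψ 1 * (((c ψ + a) * (∑ ξ ∈ S₀, (d ξ : ℤ) ^ 2) - a * (d ψ : ℤ) ^ 2 : ℤ) : ℂ) := by
        rw [Finset.mul_sum]
        have h1 : ∀ ξ ∈ S₀, (d ψ : ℂ) ^ 2 * ((c ξ : ℂ) * τ₁ ξ 1)
            = (τ₁ ψ 1 * ((c ψ : ℂ) + a)) * (d ξ : ℂ) ^ 2
              - (τ₁ ψ 1 * a * d ψ) * (if ψ = ξ then (d ξ : ℂ) else 0) := by
          intro ξ hξ
          have r1 : ((d ψ : ℂ)) * c ξ
              = d ξ * ((c ψ : ℂ) + a) - a * d ψ * (if ψ = ξ then 1 else 0) := by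
            have := hrel ξ hξ
            have h' : (((d ψ : ℤ) * c ξ : ℤ) : ℂ)
                = ((d ξ * (c ψ + a) - a * d ψ * (if ψ = ξ then 1 else 0) : ℤ) : ℂ) := by rw [this]
            push_cast at h'
            exact h'
          have r2 := ht ξ hξ
          have : (d ψ : ℂ) ^ 2 * ((c ξ : ℂ) * τ₁ ξ 1) = ((d ψ : ℂ) * c ξ) * ((d ψ : ℂ) * τ₁ ξ 1) := by
            ring
          rw [this, r1, r2]
          split_ifs <;> ring
        rw [Finset.sum_congr rfl h1, Finset.sum_sub_distrib, ← Finset.mul_sum, ← Finset.mul_sum,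
          Finset.sum_ite_eq, if_pos hψ]
        push_cast
        ring
      rw [e2, mul_zero] at e3
      rcases mul_eq_zero.mp e3.symm with h | h
      · exact absurd h hψ1ne
      · have : (c ψ + a) * (∑ ξ ∈ S₀, (d ξ : ℤ) ^ 2) - a * (d ψ : ℤ) ^ 2 = 0 := by exact_mod_cast h
        linarith)
  have hcξ : ∀ ξ ∈ S₀, c ξ = -(a : ℤ) * (if ψ = ξ then 1 else 0) := by
    intro ξ hξ
    have h1 := hrel ξ hξ
    rw [hx] at h1
    have hD : (d ψ : ℤ) ≠ 0 := by exact_mod_cast hDpos.ne'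
    apply mul_left_cancel₀ hD
    rw [h1]; ring
  have hτβ : τ β = Δ - (a : ℂ) • τ₁ ψ := by
    have h1 : ∑ ξ ∈ S₀, (c ξ : ℂ) • τ₁ ξ = -(a : ℂ) • τ₁ ψ := by
      rw [Finset.sum_eq_single ψ]
      · rw [hcξ ψ hψ, if_pos rfl]; push_cast; simp
      · intro b hb hbne
        rw [hcξ b hb, if_neg hbne.symm]; simp
      · intro h; exact absurd hψ h
    rw [hΔ, h1]
    simp
  have hΔ1 : classInner Δ Δ = 1 := by
    rw [hn]
    have : n = 1 := by exact_mod_cast hn1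
    rw [this]; simp
  obtain ⟨μ, hμ⟩ : ∃ μ : (L → ℂ) → (G → ℂ), μ = fun f => if f = χ then Δ else τ₁ f := ⟨_, rfl⟩
  have hμχ : μ χ = Δ := by rw [hμ]; simp
  have hμ₀ : ∀ ξ ∈ S₀, μ ξ = τ₁ ξ := by
    intro ξ hξ
    rw [hμ]
    simp only [if_neg (hχne ξ hξ).symm]
  refine ⟨⟨α₀, zspanOn_mono hS₀S hα₀, hα₀ne⟩, cohMap S μ, cohMap_isometry hirrS ?_ ?_,
    cohMap_agree (le_refl S) hirrS hτ (hS₀S hψ') ?_⟩
  · intro ξ hξ ξ' hξ'
    rw [hS] at hξ hξ'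
    rcases hξ with h | h <;> rcases hξ' with h' | h'
    · rw [h, h', hμχ, hΔ1, if_pos rfl]
    · rw [h, hμχ, hμ₀ ξ' h', hΔo ξ' h', if_neg (hχne ξ' h')]
    · rw [h', hμχ, hμ₀ ξ h, ← classInner_conj_symm, hΔo ξ h, if_neg (hχne ξ h).symm]; simp
    · rw [hμ₀ ξ h, hμ₀ ξ' h', hτ₁o ξ h ξ' h']
  · intro ξ hξ
    rw [hS] at hξ
    rcases hξ with h | h
    · rw [h, hμχ]; exact hΔv
    · rw [hμ₀ ξ h]; exact hτ₁v ξ h
  · intro ξ hξ
    rw [hS] at hξ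
    rcases hξ with h | h
    · rw [h, hμχ, hμ₀ ψ hψ, hd ψ hψ, hdχ]
      have e : (d ψ : ℂ) • χ - (d χ : ℂ) • ψ = (d ψ : ℤ) • β := by
        rw [zsmul_eq_csmul, hβ, ha]
        funext x
        simp only [Pi.sub_apply, Pi.smul_apply, smul_eq_mul]
        push_cast
        ring
      rw [e, hτ.2.1 β hβm, hτβ, zsmul_eq_csmul, ha]
      funext x
      simp only [Pi.sub_apply, Pi.smul_apply, smul_eq_mul]
      push_cast
      ring
    · rw [hμ₀ ξ h, hμ₀ ψ hψ, hd ψ hψ, hd ξ h]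
      have := hτγ ξ h
      simp only [Int.cast_natCast] at this
      exact this

end Cfsg.Agent.LeadBr
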