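import Mathlib
import Cfsg.Prelude.Def_Characters
import Cfsg.Prelude.Def_OddOrderChar
import Cfsg.Agent.Lib_lead_Coh3
import Cfsg.Agent.Lib_lead_Br16

set_option autoImplicit false
set_option linter.style.haveILetI false

/-! Existence of a coherence system for non-real irreducible characters. -/

namespace Cfsg.Agent.LeadBr

open Cfsg Cfsg.Agent.H4
open scoped ComplexConjugate

universe u v

variable {L : Type u} [Group L] {G : Type v} [Group G]

theorem gram_zero [Fintype G] (a b c d : IrrCharacter G) (hab : a ≠ b) (hcd : c ≠ d)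
    (h : classInner ((a : G → ℂ) - (b : G → ℂ)) ((c : G → ℂ) - (d : G → ℂ)) = 0) :
    a ≠ c ∧ a ≠ d ∧ b ≠ c ∧ b ≠ d := by
  classical
  rw [classInner_sub_left, classInner_sub_right, classInner_sub_right, irr_orthonormal,
    irr_orthonormal, irr_orthonormal, irr_orthonormal] at h
  refine ⟨?_, ?_, ?_, ?_⟩
  · rintro rfl
    rw [if_pos rfl, if_neg hcd, if_neg hab.symm] at h
    split_ifs at h <;> norm_num at h
  · rintro rfl
    rw [if_pos rfl, if_neg hcd.symm, if_neg hab.symm] at h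
    split_ifs at h <;> norm_num at h
  · rintro rfl
    rw [if_pos rfl, if_neg hab, if_neg hcd] at h
    split_ifs at h <;> norm_num at h
  · rintro rfl
    rw [if_pos rfl, if_neg hab, if_neg hcd.symm] at h
    split_ifs at h <;> norm_num at h

theorem conjFun_conjFun' {X : Type*} (χ : X → ℂ) : Cfsg.conjFun (Cfsg.conjFun χ) = χ := by
  funext x; simp [Cfsg.conjFun]

theorem irr_ne_neg_irr (a b : IrrCharacter G) : (a : G → ℂ) ≠ -(b : G → ℂ) := by
  intro h
  obtain ⟨m, hm, hm'⟩ := IsIrrCharacter.apply_one a.2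
  obtain ⟨n, hn, hn'⟩ := IsIrrCharacter.apply_one b.2
  have := congrFun h 1
  rw [Pi.neg_apply, hm', hn'] at this
  have h2 : ((m + n : ℕ) : ℂ) = 0 := by push_cast; linear_combination this
  have h3 : m + n = 0 := by exact_mod_cast h2
  omega

theorem exists_coherenceSystem [Fintype L] [Fintype G] (S : Set (L → ℂ)) (hS : S.Nonempty)
    (hirr : ∀ χ ∈ S, IsIrrCharacter L χ)
    (hconj : ∀ χ ∈ S, Cfsg.conjFun χ ∈ S ∧ Cfsg.conjFun χ ≠ χ) (τ : (L → ℂ) → (G → ℂ))
    (hτ : IsLinearIsometryOn (zspanOn S ({1}ᶜ : Set L)) τ)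
    (hτ1 : ∀ α ∈ zspanOn S ({1}ᶜ : Set L), τ α 1 = 0) :
    ∃ R : (L → ℂ) → Finset (G → ℂ), IsCoherenceSystem S τ R := by
  classical
  have hmem : ∀ χ ∈ S, χ - Cfsg.conjFun χ ∈ zspanOn S ({1}ᶜ : Set L) := by
    intro χ hχ
    obtain ⟨n, _, hn⟩ := IsIrrCharacter.apply_one (hirr χ hχ)
    have := comb_mem' hχ (hconj χ hχ).1 1 1 (by
      simp only [Cfsg.conjFun]
      rw [hn, Complex.conj_natCast])
    simpa using this
  have hin : ∀ χ ∈ S, ∀ φ ∈ S, classInner φ χ = 0 → classInner φ (Cfsg.conjFun χ) = 0 →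
      classInner (φ - Cfsg.conjFun φ) (χ - Cfsg.conjFun χ) = 0 := by
    intro χ hχ φ hφ h1 h2
    have hne1 : φ ≠ χ := by
      rintro rfl
      rw [IsIrrCharacter.norm_one (hirr φ hφ)] at h1
      exact one_ne_zero h1
    have hne2 : φ ≠ Cfsg.conjFun χ := by
      intro h
      rw [← h, IsIrrCharacter.norm_one (hirr φ hφ)] at h2
      exact one_ne_zero h2
    rw [classInner_sub_left, classInner_sub_right, classInner_sub_right, h1, h2,
      irr_inner_ite (hirr _ (hconj φ hφ).1) (hirr χ hχ),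
      irr_inner_ite (hirr _ (hconj φ hφ).1) (hirr _ (hconj χ hχ).1), if_neg, if_neg]
    · simp
    · intro h
      apply hne1
      rw [← conjFun_conjFun' φ, h, conjFun_conjFun']
    · intro h
      apply hne2
      rw [← h, conjFun_conjFun']
  have hex : ∀ χ : L → ℂ, ∃ a b : IrrCharacter G, χ ∈ S →
      (a ≠ b ∧ τ (χ - Cfsg.conjFun χ) = (a : G → ℂ) - (b : G → ℂ)) := by
    intro χ
    by_cases hχ : χ ∈ S
    · have hm := hmem χ hχ
      obtain ⟨a, b, hab, h⟩ := diff_of_norm_two (hτ.2.2.2 _ hm) (by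
        rw [hτ.2.2.1 _ hm _ hm, classInner_sub_left, classInner_sub_right, classInner_sub_right,
          irr_inner_ite (hirr χ hχ) (hirr χ hχ),
          irr_inner_ite (hirr χ hχ) (hirr _ (hconj χ hχ).1),
          irr_inner_ite (hirr _ (hconj χ hχ).1) (hirr χ hχ),
          irr_inner_ite (hirr _ (hconj χ hχ).1) (hirr _ (hconj χ hχ).1), if_pos rfl, if_pos rfl,
          if_neg (hconj χ hχ).2, if_neg (hconj χ hχ).2.symm]
        norm_num) (hτ1 _ hm)
      exact ⟨a, b, fun _ => ⟨hab, h⟩⟩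
    · exact ⟨trivIrr G, trivIrr G, fun h => absurd h hχ⟩
  choose a b hab using hex
  have hneg : ∀ (x y : G → ℂ), classInner x (-y) = -classInner x y := by
    intro x y
    have : -y = (-1 : ℂ) • y := by simp
    rw [this, classInner_smul_right]; simp
  have hneg' : ∀ (x y : G → ℂ), classInner (-x) y = -classInner x y := by
    intro x y
    have : -x = (-1 : ℂ) • x := by simp
    rw [this, classInner_smul_left]; simp
  refine ⟨fun χ => {(a χ : G → ℂ), -(b χ : G → ℂ)}, ?_⟩
  refine ⟨hS, fun χ hχ => IsIrrCharacter.isCharacter (hirr χ hχ), fun χ hχ => (hconj χ hχ).1,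
    fun χ hχ => (hconj χ hχ).2, hτ, hτ1, ?_, ?_, ?_, ?_, ?_⟩
  · intro χ hχ φ hφ hne
    rw [irr_inner_ite (hirr χ hχ) (hirr φ hφ), if_neg hne]
  · intro χ hχ α hα β hβ
    have hne := (hab χ hχ).1
    simp only [Finset.mem_insert, Finset.mem_singleton] at hα hβ
    rcases hα with rfl | rfl <;> rcases hβ with rfl | rfl
    · rw [if_pos rfl, IsIrrCharacter.norm_one (a χ).2]
    · rw [if_neg (irr_ne_neg_irr _ _), hneg, irr_inner_ite (a χ).2 (b χ).2,
        if_neg (fun h => hne (Subtype.ext h))]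
      simp
    · rw [if_neg (irr_ne_neg_irr _ _).symm, hneg', irr_inner_ite (b χ).2 (a χ).2,
        if_neg (fun h => hne (Subtype.ext h).symm)]
      simp
    · rw [if_pos rfl, hneg, hneg', IsIrrCharacter.norm_one (b χ).2]
      simp
  · intro χ hχ α hα
    simp only [Finset.mem_insert, Finset.mem_singleton] at hα
    rcases hα with rfl | rfl
    · exact IsCharacter.isGeneralized (IsIrrCharacter.isCharacter (a χ).2)
    · exact IsGeneralizedCharacter.neg' (IsCharacter.isGeneralized (IsIrrCharacter.isCharacter (b χ).2))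
  · intro χ hχ
    rw [Finset.sum_pair (irr_ne_neg_irr _ _), (hab χ hχ).2, sub_eq_add_neg]
  · intro χ hχ φ hφ h1 h2 α hα β hβ
    have h3 := hin χ hχ φ hφ h1 h2
    rw [← hτ.2.2.1 _ (hmem φ hφ) _ (hmem χ hχ), (hab φ hφ).2, (hab χ hχ).2] at h3
    obtain ⟨g1, g2, g3, g4⟩ := gram_zero _ _ _ _ (hab φ hφ).1 (hab χ hχ).1 h3
    simp only [Finset.mem_insert, Finset.mem_singleton] at hα hβ
    rcases hα with rfl | rfl <;> rcases hβ with rfl | rfl
    · rw [irr_inner_ite (a φ).2 (a χ).2, if_neg (fun h => g1 (Subtype.ext h))]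
    · rw [hneg, irr_inner_ite (a φ).2 (b χ).2, if_neg (fun h => g2 (Subtype.ext h))]; simp
    · rw [hneg', irr_inner_ite (b φ).2 (a χ).2, if_neg (fun h => g3 (Subtype.ext h))]; simp
    · rw [hneg, hneg', irr_inner_ite (b φ).2 (b χ).2, if_neg (fun h => g4 (Subtype.ext h))]; simp

end Cfsg.Agent.LeadBr
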