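import Mathlib
import Cfsg.Prelude.Def_Characters
import Cfsg.Agent.Lib_lead_Coh2

set_option autoImplicit false
set_option linter.style.haveILetI false

/-! Orthogonality of four signed irreducible characters. -/

namespace Cfsg.Agent.LeadBr

open Cfsg Cfsg.Agent.H4
open scoped ComplexConjugate

universe u

variable {X : Type u} [Group X]

theorem pm_irr {α : X → ℂ} (h : IsIrrCharacter X α ∨ IsIrrCharacter X (-α)) :
    ∃ (a : IrrCharacter X) (ε : ℝ), (ε = 1 ∨ ε = -1) ∧ α = (ε : ℂ) • (a : X → ℂ) := by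
  rcases h with h | h
  · exact ⟨⟨α, h⟩, 1, Or.inl rfl, by simp⟩
  · exact ⟨⟨-α, h⟩, -1, Or.inr rfl, by simp⟩

theorem four_orth_aux [Fintype X] (α β γ δ : X → ℂ)
    (hα : IsIrrCharacter X α ∨ IsIrrCharacter X (-α))
    (hβ : IsIrrCharacter X β ∨ IsIrrCharacter X (-β))
    (hγ : IsIrrCharacter X γ ∨ IsIrrCharacter X (-γ))
    (hδ : IsIrrCharacter X δ ∨ IsIrrCharacter X (-δ)) (u v : ℝ) (hu : u ≠ 0)
    (hab : classInner α β = 0) (hcd : classInner γ δ = 0)
    (hmix : classInner (α - β) ((u : ℂ) • γ - (v : ℂ) • δ) = 0) (h1 : α 1 = β 1)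
    (h2 : (u : ℂ) * γ 1 = (v : ℂ) * δ 1) : classInner α γ = 0 := by
  classical
  obtain ⟨a, εa, hεa, rfl⟩ := pm_irr hα
  obtain ⟨b, εb, hεb, rfl⟩ := pm_irr hβ
  obtain ⟨c, εc, hεc, rfl⟩ := pm_irr hγ
  obtain ⟨d, εd, hεd, rfl⟩ := pm_irr hδ
  have sq : ∀ ε : ℝ, (ε = 1 ∨ ε = -1) → (ε : ℂ) ^ 2 = 1 := by
    rintro ε (h | h) <;> rw [h] <;> norm_num
  have ne0 : ∀ ε : ℝ, (ε = 1 ∨ ε = -1) → (ε : ℂ) ≠ 0 := by
    rintro ε (h | h) <;> rw [h] <;> norm_num
  simp only [classInner_sub_left, classInner_sub_right, classInner_smul_left, classInner_smul_right,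
    Complex.conj_ofReal, irr_orthonormal, Pi.smul_apply, smul_eq_mul] at *
  by_contra hne
  have hac : a = c := by
    by_contra h
    rw [if_neg h] at hne
    simp at hne
  subst hac
  have hab' : a ≠ b := by
    intro h
    rw [if_pos h] at hab
    have := mul_ne_zero (ne0 εb hεb) (mul_ne_zero (ne0 εa hεa) one_ne_zero)
    exact this hab
  have hcd' : a ≠ d := by
    intro h
    rw [if_pos h] at hcd
    have := mul_ne_zero (ne0 εd hεd) (mul_ne_zero (ne0 εc hεc) one_ne_zero)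
    exact this hcd
  rw [if_pos rfl, if_neg hcd', if_neg hab'.symm] at hmix
  have huC : (u : ℂ) ≠ 0 := by exact_mod_cast hu
  have hbd : b = d := by
    by_contra h
    rw [if_neg h] at hmix
    have h3 : (εa : ℂ) * ((u : ℂ) * ((εc : ℂ) * 1)) = 0 := by linear_combination hmix
    exact mul_ne_zero (ne0 εa hεa) (mul_ne_zero huC (mul_ne_zero (ne0 εc hεc) one_ne_zero)) h3
  subst hbd
  rw [if_pos rfl] at hmix
  obtain ⟨m, hm, hm'⟩ := IsIrrCharacter.apply_one a.2
  obtain ⟨n, hn, hn'⟩ := IsIrrCharacter.apply_one b.2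
  rw [hm', hn'] at h1 h2
  have hmn : m = n := by
    have h3 : (m : ℂ) ^ 2 = (n : ℂ) ^ 2 := by
      have h4 : ((εa : ℂ) * m) ^ 2 = ((εb : ℂ) * n) ^ 2 := by rw [h1]
      rw [mul_pow, mul_pow, sq εa hεa, sq εb hεb, one_mul, one_mul] at h4
      exact h4
    have h5 : m ^ 2 = n ^ 2 := by exact_mod_cast h3
    exact Nat.pow_left_injective (n := 2) (by norm_num) h5
  subst hmn
  have hmC : (m : ℂ) ≠ 0 := by exact_mod_cast hm.ne'
  have h6 : (εa : ℂ) = εb := mul_right_cancel₀ hmC h1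
  have h7 : (u : ℂ) * εc = v * εd := by
    apply mul_right_cancel₀ hmC
    linear_combination h2
  have h8 : (εa : ℂ) * ((u : ℂ) * εc) = 0 := by
    have : 2 * ((εa : ℂ) * ((u : ℂ) * εc)) = 0 := by
      rw [← h6] at hmix
      linear_combination hmix + (εa : ℂ) * h7
    simpa using this
  exact mul_ne_zero (ne0 εa hεa) (mul_ne_zero huC (ne0 εc hεc)) h8

theorem four_orth [Fintype X] (α β γ δ : X → ℂ)
    (hα : IsIrrCharacter X α ∨ IsIrrCharacter X (-α))
    (hβ : IsIrrCharacter X β ∨ IsIrrCharacter X (-β))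
    (hγ : IsIrrCharacter X γ ∨ IsIrrCharacter X (-γ))
    (hδ : IsIrrCharacter X δ ∨ IsIrrCharacter X (-δ)) (u v : ℝ) (hu : u ≠ 0) (hv : v ≠ 0)
    (hab : classInner α β = 0) (hcd : classInner γ δ = 0)
    (hmix : classInner (α - β) ((u : ℂ) • γ - (v : ℂ) • δ) = 0) (h1 : α 1 = β 1)
    (h2 : (u : ℂ) * γ 1 = (v : ℂ) * δ 1) :
    classInner α γ = 0 ∧ classInner α δ = 0 ∧ classInner β γ = 0 ∧ classInner β δ = 0 := by
  have hba : classInner β α = 0 := by rw [← classInner_conj_symm, hab]; simp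
  have hdc : classInner δ γ = 0 := by rw [← classInner_conj_symm, hcd]; simp
  have hm2 : classInner (α - β) ((v : ℂ) • δ - (u : ℂ) • γ) = 0 := by
    rw [classInner_sub_right] at hmix ⊢
    linear_combination -hmix
  have hm3 : classInner (β - α) ((u : ℂ) • γ - (v : ℂ) • δ) = 0 := by
    rw [classInner_sub_left] at hmix ⊢
    linear_combination -hmix
  have hm4 : classInner (β - α) ((v : ℂ) • δ - (u : ℂ) • γ) = 0 := by
    rw [classInner_sub_left] at hm2 ⊢
    linear_combination -hm2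
  exact ⟨four_orth_aux α β γ δ hα hβ hγ hδ u v hu hab hcd hmix h1 h2,
    four_orth_aux α β δ γ hα hβ hδ hγ v u hv hab hdc hm2 h1 h2.symm,
    four_orth_aux β α γ δ hβ hα hγ hδ u v hu hba hcd hm3 h1.symm h2,
    four_orth_aux β α δ γ hβ hα hδ hγ v u hv hba hdc hm4 h1.symm h2.symm⟩

end Cfsg.Agent.LeadBr
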