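import Mathlib
import Cfsg.Prelude.Def_Characters
import Cfsg.Prelude.Def_OddOrderChar

set_option autoImplicit false
set_option linter.style.haveILetI false

/-! The Dade set-up: the basic separation lemma. -/

namespace Cfsg.Agent.LeadBr

open Cfsg Subgroup

universe u

variable {G : Type u} [Group G]

theorem dade_sep [Finite G] {A : Set G} {L : Subgroup G} {H : G → Subgroup G}
    (hD : DadeHypothesis A L H) {a b : G} (ha : a ∈ A) (hb : b ∈ A) {u v g : G} (hu : u ∈ H a)
    (hv : v ∈ H b) (h : g * (a * u) * g⁻¹ = b * v) : g * a * g⁻¹ = b := by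
  classical
  set M := Nat.card ↥(L ⊓ centralizer ({a} : Set G)) * Nat.card ↥(L ⊓ centralizer ({b} : Set G))
    with hM
  set K := Nat.card (H a) * Nat.card (H b) with hK
  have hcop : Nat.Coprime M K := by
    rw [hM, hK]
    apply Nat.Coprime.mul_left
    · exact Nat.Coprime.mul_right (hD.coprime a ha a ha).symm (hD.coprime b hb a ha).symm
    · exact Nat.Coprime.mul_right (hD.coprime a ha b hb).symm (hD.coprime b hb b hb).symm
  obtain ⟨s, hs1, hs0⟩ := Nat.chineseRemainder hcop 1 0
  have haM : orderOf a ∣ M := by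
    have : a ∈ L ⊓ centralizer ({a} : Set G) :=
      ⟨hD.subset ha, mem_centralizer_singleton_iff.mpr rfl⟩
    exact (Subgroup.orderOf_dvd_natCard _ this).trans (Dvd.intro _ rfl)
  have hbM : orderOf b ∣ M := by
    have : b ∈ L ⊓ centralizer ({b} : Set G) :=
      ⟨hD.subset hb, mem_centralizer_singleton_iff.mpr rfl⟩
    exact (Subgroup.orderOf_dvd_natCard _ this).trans (Dvd.intro_left _ rfl)
  have huK : orderOf u ∣ K := (Subgroup.orderOf_dvd_natCard _ hu).trans (Dvd.intro _ rfl)
  have hvK : orderOf v ∣ K := (Subgroup.orderOf_dvd_natCard _ hv).trans (Dvd.intro_left _ rfl)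
  have e1 : a ^ s = a := by
    have := pow_eq_pow_iff_modEq.mpr (hs1.of_dvd haM)
    rwa [pow_one] at this
  have e2 : b ^ s = b := by
    have := pow_eq_pow_iff_modEq.mpr (hs1.of_dvd hbM)
    rwa [pow_one] at this
  have e3 : u ^ s = 1 := by
    have := pow_eq_pow_iff_modEq.mpr (hs0.of_dvd huK)
    rwa [pow_zero] at this
  have e4 : v ^ s = 1 := by
    have := pow_eq_pow_iff_modEq.mpr (hs0.of_dvd hvK)
    rwa [pow_zero] at this
  have c1 : Commute a u := (mem_centralizer_singleton_iff.mp (hD.le_centralizer a ha hu)).symm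
  have c2 : Commute b v := (mem_centralizer_singleton_iff.mp (hD.le_centralizer b hb hv)).symm
  have h1 : (a * u) ^ s = a := by rw [c1.mul_pow, e1, e3, mul_one]
  have h2 : (b * v) ^ s = b := by rw [c2.mul_pow, e2, e4, mul_one]
  calc g * a * g⁻¹ = g * (a * u) ^ s * g⁻¹ := by rw [h1]
    _ = (g * (a * u) * g⁻¹) ^ s := by rw [conj_pow]
    _ = b := by rw [h, h2]

theorem dade_normalizer [Finite G] {A : Set G} {L : Subgroup G} {H : G → Subgroup G}
    (hD : DadeHypothesis A L H) {a : G} (ha : a ∈ A) :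
    normalizer ((fun u : G => a * u) '' (H a : Set G)) = centralizer ({a} : Set G) := by
  ext g
  rw [mem_set_normalizer_iff, mem_centralizer_singleton_iff]
  constructor
  · intro h
    have h1 : a ∈ (fun u : G => a * u) '' (H a : Set G) := ⟨1, (H a).one_mem, mul_one a⟩
    obtain ⟨v, hv, hv'⟩ := (h a).mp h1
    have h2 := dade_sep hD ha ha (H a).one_mem hv (g := g) (by rw [mul_one]; exact hv'.symm)
    calc g * a = (g * a * g⁻¹) * g := by group
      _ = a * g := by rw [h2]
  · intro h x
    have hg : g ∈ centralizer ({a} : Set G) := mem_centralizer_singleton_iff.mpr h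
    constructor
    · rintro ⟨u, hu, rfl⟩
      refine ⟨g * u * g⁻¹, hD.conj_mem_H a ha g hg u hu, ?_⟩
      show a * (g * u * g⁻¹) = g * (a * u) * g⁻¹
      calc a * (g * u * g⁻¹) = (a * g) * u * g⁻¹ := by group
        _ = (g * a) * u * g⁻¹ := by rw [h]
        _ = g * (a * u) * g⁻¹ := by group
    · rintro ⟨u, hu, hu'⟩
      refine ⟨g⁻¹ * u * g, ?_, ?_⟩
      · have := hD.conj_mem_H a ha g⁻¹ (inv_mem hg) u hu
        simpa using this
      · show a * (g⁻¹ * u * g) = x
        have hu'' : a * u = g * x * g⁻¹ := hu'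
        have h' : g⁻¹ * a = a * g⁻¹ := by
          calc g⁻¹ * a = g⁻¹ * (a * g) * g⁻¹ := by group
            _ = g⁻¹ * (g * a) * g⁻¹ := by rw [h]
            _ = a * g⁻¹ := by group
        calc a * (g⁻¹ * u * g) = (a * g⁻¹) * u * g := by group
          _ = (g⁻¹ * a) * u * g := by rw [h']
          _ = g⁻¹ * (a * u) * g := by group
          _ = g⁻¹ * (g * x * g⁻¹) * g := by rw [hu'']
          _ = x := by group

end Cfsg.Agent.LeadBr
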