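import Cfsg.Statements.S1498
import Cfsg.Agent.Lib_helper1_SZ
import Cfsg.Agent.Lib_helper3_Solv

set_option autoImplicit false
open Cfsg

namespace Cfsg.Agent.S1498

theorem step {G : Type*} [Group G] [Finite G] (A : Set G) (L : Subgroup G) (H : G → Subgroup G)
    (hD : Cfsg.DadeHypothesis A L H) (a : G) (ha : a ∈ A) (x : G) (hx : x ∈ L) :
    (H a).map (MulAut.conj x).toMonoidHom ≤ H (x * a * x⁻¹) := by
  rintro _ ⟨h, hh, rfl⟩
  change x * h * x⁻¹ ∈ H (x * a * x⁻¹)
  set b := x * a * x⁻¹ with hbdef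
  have hb : b ∈ A := hD.conj_mem x hx a ha
  have hhc := Subgroup.mem_centralizer_singleton_iff.1 (hD.le_centralizer a ha hh)
  have hkC : x * h * x⁻¹ ∈ Subgroup.centralizer ({b} : Set G) := by
    rw [Subgroup.mem_centralizer_singleton_iff, hbdef]
    calc x * h * x⁻¹ * (x * a * x⁻¹) = x * (h * a) * x⁻¹ := by group
      _ = x * (a * h) * x⁻¹ := by rw [hhc]
      _ = _ := by group
  have hnorm : L ⊓ Subgroup.centralizer ({b} : Set G) ≤ Subgroup.normalizer (H b : Set G) :=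
    Cfsg.Agent.H1.le_normalizer_of_forall (fun g hg u hu => hD.conj_mem_H b hb g hg.2 u hu)
  rw [← hD.sup_eq b hb] at hkC
  obtain ⟨u, hu, l, hl, hkul⟩ := Cfsg.Agent.H3.mem_sup_of_le_normalizer hnorm hkC
  have hpow : ∀ n : ℕ, ∃ u' ∈ H b, (u * l) ^ n = u' * l ^ n := by
    intro n
    induction n with
    | zero => exact ⟨1, one_mem _, by simp⟩
    | succ n ih =>
      obtain ⟨u', hu', he⟩ := ih
      refine ⟨u' * (l ^ n * u * (l ^ n)⁻¹), mul_mem hu'
        (hD.conj_mem_H b hb _ (pow_mem hl.2 n) u hu), ?_⟩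
      rw [pow_succ, he, pow_succ]
      group
  obtain ⟨u', hu', he⟩ := hpow (Nat.card (H a))
  have hk1 : (x * h * x⁻¹) ^ Nat.card (H a) = 1 := by
    have h1 : h ^ Nat.card (H a) = 1 := by
      have := pow_card_eq_one' (x := (⟨h, hh⟩ : H a))
      exact congrArg Subtype.val this
    rw [conj_pow, h1]; group
  rw [← hkul, hk1] at he
  have hl1 : l ^ Nat.card (H a) = 1 := by
    have h1 : l ^ Nat.card (H a) = u'⁻¹ := by
      exact eq_inv_of_mul_eq_one_right he.symm
    have h2 : l ^ Nat.card (H a) ∈ H b ⊓ (L ⊓ Subgroup.centralizer ({b} : Set G)) :=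
      Subgroup.mem_inf.2 ⟨h1 ▸ inv_mem hu', pow_mem hl _⟩
    rw [hD.inf_eq_bot b hb, Subgroup.mem_bot] at h2
    exact h2
  have hl2 : l ^ Nat.card ↥(L ⊓ Subgroup.centralizer ({b} : Set G)) = 1 := by
    have := pow_card_eq_one' (x := (⟨l, hl⟩ : ↥(L ⊓ Subgroup.centralizer ({b} : Set G))))
    exact congrArg Subtype.val this
  have hl3 := pow_gcd_eq_one.2 ⟨hl1, hl2⟩
  rw [Nat.Coprime.gcd_eq_one (hD.coprime a ha b hb), pow_one] at hl3
  rw [hkul, hl3, mul_one]
  exact hu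

/-- Under the Dade hypothesis for (A, L, H): for a ∈ A and x ∈ L, the subgroup attached to x * a * x⁻¹ is the conjugate of H a by x. -/
theorem result {G : Type*} [Group G] [Finite G] (A : Set G) (L : Subgroup G) (H : G → Subgroup G) (hD : Cfsg.DadeHypothesis A L H) (a : G) (ha : a ∈ A) (x : G) (hx : x ∈ L) : H (x * a * x⁻¹) = (H a).map (MulAut.conj x).toMonoidHom := by
  apply le_antisymm
  · have h1 := step A L H hD (x * a * x⁻¹) (hD.conj_mem x hx a ha) x⁻¹ (inv_mem hx)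
    have e : x⁻¹ * (x * a * x⁻¹) * x⁻¹⁻¹ = a := by group
    rw [e] at h1
    intro u hu
    refine ⟨x⁻¹ * u * x, ?_, ?_⟩
    · apply h1
      exact ⟨u, hu, by simp [MulAut.conj_apply]⟩
    · simp [MulAut.conj_apply, mul_assoc]
  · exact step A L H hD a ha x hx

end Cfsg.Agent.S1498
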