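import Mathlib
import Cfsg.Prelude.Def_Characters
import Cfsg.Prelude.Def_OddOrderChar
import Cfsg.Agent.Lib_lead_Dade1
import Cfsg.Agent.Lib_lead_Br18
import Cfsg.Agent.Lib_helper1_Coprime
import Cfsg.Agent.Lib_helper1_SZ
import Cfsg.Agent.S1498

set_option autoImplicit false
set_option linter.style.haveILetI false

/-! The Dade set-up: the counting formula. -/

namespace Cfsg.Agent.LeadBr

open Cfsg Cfsg.Agent.H4 Subgroup
open scoped ComplexConjugate

universe u

variable {G : Type u} [Group G]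

/-- the union of the conjugates of the coset `a H(a)` -/
def dSupp (H : G → Subgroup G) (a : G) : Set G := {g | ∃ x : G, ∃ u ∈ H a, x * g * x⁻¹ = a * u}

theorem dade_count [Fintype G] {A : Set G} {L : Subgroup G} {H : G → Subgroup G}
    (hD : DadeHypothesis A L H) {a : G} (ha : a ∈ A) (g : G) [Decidable (g ∈ dSupp H a)]
    [DecidablePred fun x : G => a⁻¹ * (x * g * x⁻¹) ∈ H a] :
    (∑ x : G, if a⁻¹ * (x * g * x⁻¹) ∈ H a then (1 : ℂ) else 0)
      = if g ∈ dSupp H a then (Nat.card (centralizer ({a} : Set G)) : ℂ) else 0 := by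
  classical
  by_cases hg : g ∈ dSupp H a
  · rw [if_pos hg]
    obtain ⟨y, u₀, hu₀, hy⟩ := hg
    have key : ∀ x : G, a⁻¹ * (x * g * x⁻¹) ∈ H a ↔ x * y⁻¹ ∈ centralizer ({a} : Set G) := by
      intro x
      have e : x * g * x⁻¹ = (x * y⁻¹) * (a * u₀) * (x * y⁻¹)⁻¹ := by rw [← hy]; group
      constructor
      · intro h
        have h1 := dade_sep hD ha ha hu₀ h (g := x * y⁻¹) (by rw [← e]; group)
        rw [mem_centralizer_singleton_iff]
        calc x * y⁻¹ * a = ((x * y⁻¹) * a * (x * y⁻¹)⁻¹) * (x * y⁻¹) := by group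
          _ = a * (x * y⁻¹) := by rw [h1]
      · intro h
        have h1 := mem_centralizer_singleton_iff.mp h
        have h2 := hD.conj_mem_H a ha _ h u₀ hu₀
        have : a⁻¹ * (x * g * x⁻¹) = (x * y⁻¹) * u₀ * (x * y⁻¹)⁻¹ := by
          rw [e]
          calc a⁻¹ * ((x * y⁻¹) * (a * u₀) * (x * y⁻¹)⁻¹)
              = a⁻¹ * ((x * y⁻¹) * a) * u₀ * (x * y⁻¹)⁻¹ := by group
            _ = a⁻¹ * (a * (x * y⁻¹)) * u₀ * (x * y⁻¹)⁻¹ := by rw [h1]
            _ = _ := by group
        rw [this]; exact h2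
    simp only [key]
    rw [← Equiv.sum_comp (Equiv.mulRight y)]
    simp only [Equiv.coe_mulRight, mul_inv_cancel_right]
    rw [Finset.sum_boole, Nat.card_eq_fintype_card, Fintype.card_subtype]
  · rw [if_neg hg]
    apply Finset.sum_eq_zero
    intro x _
    rw [if_neg]
    intro h
    exact hg ⟨x, _, h, by group⟩

theorem dade_CFa [Fintype G] {A : Set G} {L : Subgroup G} {H : G → Subgroup G}
    (hD : DadeHypothesis A L H) {a : G} (ha : a ∈ A) (F : G → ℂ) (hF : IsClassFunction G F)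
    [DecidablePred (· ∈ dSupp H a)] [DecidablePred (· ∈ H a)] :
    (Nat.card (centralizer ({a} : Set G)) : ℂ) * ∑ g : G, (if g ∈ dSupp H a then F g else 0)
      = (Nat.card G : ℂ) * ∑ u : G, (if u ∈ H a then F (a * u) else 0) := by
  classical
  have h1 : ∀ x : G, ∑ u : G, (if u ∈ H a then F (a * u) else 0)
      = ∑ g : G, (if a⁻¹ * (x * g * x⁻¹) ∈ H a then F g else 0) := by
    intro x
    let e : G ≃ G :=
      { toFun := fun g => a⁻¹ * (x * g * x⁻¹)
        invFun := fun u => x⁻¹ * (a * u) * x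
        left_inv := by intro g; group
        right_inv := by intro u; group }
    rw [← Equiv.sum_comp e]
    apply Finset.sum_congr rfl
    intro g _
    have h2 : a * e g = x * g * x⁻¹ := by
      show a * (a⁻¹ * (x * g * x⁻¹)) = _
      group
    rw [h2, hF g x]
    rfl
  have h2 : (Nat.card G : ℂ) * ∑ u : G, (if u ∈ H a then F (a * u) else 0)
      = ∑ _x : G, ∑ u : G, (if u ∈ H a then F (a * u) else 0) := by
    rw [Finset.sum_const, Finset.card_univ, nsmul_eq_mul, Nat.card_eq_fintype_card]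
  rw [h2, Finset.sum_congr rfl (fun x _ => h1 x), Finset.sum_comm, Finset.mul_sum]
  apply Finset.sum_congr rfl
  intro g _
  have h3 : ∑ x : G, (if a⁻¹ * (x * g * x⁻¹) ∈ H a then F g else 0)
      = F g * ∑ x : G, (if a⁻¹ * (x * g * x⁻¹) ∈ H a then (1 : ℂ) else 0) := by
    rw [Finset.mul_sum]
    apply Finset.sum_congr rfl
    intro x _
    split_ifs <;> simp
  rw [h3, dade_count hD ha g]
  split_ifs <;> ring

theorem dade_supp_iff [Finite G] {A : Set G} {L : Subgroup G} {H : G → Subgroup G}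
    (hD : DadeHypothesis A L H) {a₀ : L} (ha₀ : (a₀ : G) ∈ A) {g : G} (hg : g ∈ dSupp H a₀) (a : L) :
    ((a : G) ∈ A ∧ g ∈ dSupp H a) ↔ IsConj a₀ a := by
  obtain ⟨y, u₀, hu₀, hy⟩ := hg
  constructor
  · rintro ⟨ha, x, u, hu, hx⟩
    have h1 := dade_sep hD ha₀ ha hu₀ hu (g := x * y⁻¹) (by rw [← hy, ← hx]; group)
    obtain ⟨l, hl, hl'⟩ := hD.fusion a₀ ha₀ (x * y⁻¹) (by rw [h1]; exact ha)
    rw [isConj_iff]
    exact ⟨⟨l, hl⟩, Subtype.ext (hl'.trans h1)⟩
  · intro h
    obtain ⟨l, hl⟩ := isConj_iff.mp h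
    have hl' : (l : G) * a₀ * (l : G)⁻¹ = a := congrArg Subtype.val hl
    refine ⟨by rw [← hl']; exact hD.conj_mem l l.2 a₀ ha₀, l * y, l * u₀ * (l : G)⁻¹, ?_, ?_⟩
    · rw [← hl', Cfsg.Agent.S1498.result A L H hD a₀ ha₀ l l.2]
      exact ⟨u₀, hu₀, rfl⟩
    · rw [← hl']
      calc (l : G) * y * g * ((l : G) * y)⁻¹ = l * (y * g * y⁻¹) * (l : G)⁻¹ := by group
        _ = l * ((a₀ : G) * u₀) * (l : G)⁻¹ := by rw [hy]
        _ = _ := by group

theorem card_centralizer_sub (L : Subgroup G) (a : L) :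
    Nat.card (centralizer ({a} : Set L)) = Nat.card ↥(L ⊓ centralizer ({(a : G)} : Set G)) := by
  have h1 : centralizer ({a} : Set L) = (L ⊓ centralizer ({(a : G)} : Set G)).subgroupOf L := by
    ext x
    rw [mem_centralizer_singleton_iff, mem_subgroupOf, mem_inf, mem_centralizer_singleton_iff]
    constructor
    · intro h; exact ⟨x.2, congrArg Subtype.val h⟩
    · intro h; exact Subtype.ext h.2
  rw [h1, Cfsg.Agent.H1.card_subgroupOf_of_le inf_le_left]

theorem dade_card [Finite G] {A : Set G} {L : Subgroup G} {H : G → Subgroup G}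
    (hD : DadeHypothesis A L H) {a : G} (ha : a ∈ A) :
    Nat.card (centralizer ({a} : Set G))
      = Nat.card (H a) * Nat.card ↥(L ⊓ centralizer ({a} : Set G)) := by
  have hnorm : L ⊓ centralizer ({a} : Set G) ≤ normalizer (H a : Set G) :=
    Cfsg.Agent.H1.le_normalizer_of_forall (fun g hg u hu => hD.conj_mem_H a ha g hg.2 u hu)
  have := Cfsg.Agent.H1.card_sup_mul_card_inf' (H a) (L ⊓ centralizer ({a} : Set G)) hnorm
  rw [hD.sup_eq a ha, hD.inf_eq_bot a ha, Subgroup.card_bot, mul_one] at this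
  exact this

theorem sum_class_weight {L : Type*} [Group L] [Fintype L] (a₀ : L) [DecidablePred (IsConj a₀)] :
    ∑ a : L, (if IsConj a₀ a then (Nat.card (centralizer ({a} : Set L)) : ℂ) else 0)
      = Nat.card L := by
  classical
  set k₀ : ℂ := ∑ y : L, if IsConj a₀ y then (1 : ℂ) else 0 with hk₀
  have h1 : ∀ a : L, IsConj a₀ a →
      (Nat.card L : ℂ) = (Nat.card (centralizer ({a} : Set L)) : ℂ) * k₀ := by
    intro a ha
    have := sum_conj_eq a (fun _ => (1 : ℂ))
    rw [Finset.sum_const, Finset.card_univ, nsmul_eq_mul, mul_one, ← Nat.card_eq_fintype_card] at this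
    rw [this, hk₀]
    congr 1
    apply Finset.sum_congr rfl
    intro y _
    have : IsConj a y ↔ IsConj a₀ y := ⟨fun h => ha.trans h, fun h => ha.symm.trans h⟩
    simp only [this]
  have hL : (Nat.card L : ℂ) ≠ 0 := by exact_mod_cast Nat.card_pos.ne'
  have hk : k₀ ≠ 0 := by
    intro h
    have := h1 a₀ (IsConj.refl a₀)
    rw [h, mul_zero] at this
    exact hL this
  apply mul_right_cancel₀ hk
  rw [Finset.sum_mul]
  have h2 : ∀ a ∈ (Finset.univ : Finset L),
      (if IsConj a₀ a then (Nat.card (centralizer ({a} : Set L)) : ℂ) else 0) * k₀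
        = (Nat.card L : ℂ) * (if IsConj a₀ a then (1 : ℂ) else 0) := by
    intro a _
    by_cases h : IsConj a₀ a
    · rw [if_pos h, if_pos h, mul_one, h1 a h]
    · rw [if_neg h, if_neg h]; simp
  rw [Finset.sum_congr rfl h2, ← Finset.mul_sum]

open Classical in
theorem dade_CF [Fintype G] {A : Set G} {L : Subgroup G} [Fintype L] {H : G → Subgroup G}
    (hD : DadeHypothesis A L H) (F : G → ℂ) (hF : IsClassFunction G F) :
    (Nat.card L : ℂ) * ∑ g : G, (if (∃ a : L, (a : G) ∈ A ∧ g ∈ dSupp H a) then F g else 0)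
      = (Nat.card G : ℂ) * ∑ a : L, (if (a : G) ∈ A then
          (Nat.card (H a) : ℂ)⁻¹ * ∑ u : G, (if u ∈ H a then F (a * u) else 0) else 0) := by
  have h1 : ∀ g : G, (Nat.card L : ℂ) * (if (∃ a : L, (a : G) ∈ A ∧ g ∈ dSupp H a) then F g else 0)
      = ∑ a : L, (if (a : G) ∈ A then (Nat.card (centralizer ({a} : Set L)) : ℂ) *
          (if g ∈ dSupp H a then F g else 0) else 0) := by
    intro g
    by_cases hg : ∃ a : L, (a : G) ∈ A ∧ g ∈ dSupp H a
    · rw [if_pos hg]
      obtain ⟨a₀, ha₀, hga₀⟩ := hg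
      rw [← sum_class_weight a₀, Finset.sum_mul]
      apply Finset.sum_congr rfl
      intro a _
      have := dade_supp_iff hD ha₀ hga₀ a
      by_cases hc : IsConj a₀ a
      · obtain ⟨h2, h3⟩ := this.mpr hc
        rw [if_pos hc, if_pos h2, if_pos h3]
      · rw [if_neg hc]
        by_cases h2 : (a : G) ∈ A
        · have h3 : g ∉ dSupp H a := fun h3 => hc (this.mp ⟨h2, h3⟩)
          rw [if_pos h2, if_neg h3]; simp
        · rw [if_neg h2]; simp
    · rw [if_neg hg, mul_zero]
      symm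
      apply Finset.sum_eq_zero
      intro a _
      by_cases h2 : (a : G) ∈ A
      · have h3 : g ∉ dSupp H a := fun h3 => hg ⟨a, h2, h3⟩
        rw [if_pos h2, if_neg h3, mul_zero]
      · rw [if_neg h2]
  rw [Finset.mul_sum, Finset.sum_congr rfl (fun g _ => h1 g), Finset.sum_comm, Finset.mul_sum]
  apply Finset.sum_congr rfl
  intro a _
  by_cases h2 : (a : G) ∈ A
  · simp only [if_pos h2]
    rw [← Finset.mul_sum]
    have h3 := dade_CFa hD h2 F hF
    have h4 := dade_card hD h2
    rw [← card_centralizer_sub L a] at h4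
    rw [h4] at h3
    push_cast at h3
    have hH : (Nat.card (H a) : ℂ) ≠ 0 := by exact_mod_cast Nat.card_pos.ne'
    field_simp
    linear_combination h3
  · simp only [if_neg h2]
    simp

end Cfsg.Agent.LeadBr
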