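import Mathlib
import Cfsg.Prelude.Def_Characters
import Cfsg.Prelude.Def_OddOrderChar
import Cfsg.Agent.Lib_lead_Dade2

set_option autoImplicit false
set_option linter.style.haveILetI false

/-! The Dade map is an isometry with an explicit adjoint. -/

namespace Cfsg.Agent.LeadBr

open Cfsg Cfsg.Agent.H4 Subgroup
open scoped ComplexConjugate

universe u

variable {G : Type u} [Group G]

theorem dade_apply [Finite G] {A : Set G} {L : Subgroup G} {H : G → Subgroup G}
    (hD : DadeHypothesis A L H) (α : L → ℂ) (hα : IsClassFunction L α) {a : L} (ha : (a : G) ∈ A)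
    {g : G} (hg : g ∈ dSupp H a) : dadeIsometry A L H α g = α a := by
  classical
  have hex : ∃ a : L, (a : G) ∈ A ∧ ∃ x : G, ∃ u ∈ H (a : G), x * g * x⁻¹ = (a : G) * u :=
    ⟨a, ha, hg⟩
  unfold dadeIsometry
  rw [dif_pos hex]
  obtain ⟨h1, h2⟩ := Classical.choose_spec hex
  have := (dade_supp_iff hD ha hg (Classical.choose hex)).mp ⟨h1, h2⟩
  obtain ⟨l, hl⟩ := isConj_iff.mp this
  rw [← hl, hα]

theorem dade_apply_not {A : Set G} {L : Subgroup G} {H : G → Subgroup G} (α : L → ℂ) {g : G}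
    (hg : ¬ ∃ a : L, (a : G) ∈ A ∧ g ∈ dSupp H a) : dadeIsometry A L H α g = 0 := by
  unfold dadeIsometry
  rw [dif_neg]
  exact hg

theorem dSupp_conj (H : G → Subgroup G) (a g h : G) : h * g * h⁻¹ ∈ dSupp H a ↔ g ∈ dSupp H a := by
  constructor
  · rintro ⟨x, u, hu, hx⟩
    exact ⟨x * h, u, hu, by rw [← hx]; group⟩
  · rintro ⟨x, u, hu, hx⟩
    exact ⟨x * h⁻¹, u, hu, by rw [← hx]; group⟩

theorem dade_isClassFunction [Finite G] {A : Set G} {L : Subgroup G} {H : G → Subgroup G}
    (hD : DadeHypothesis A L H) (α : L → ℂ) (hα : IsClassFunction L α) :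
    IsClassFunction G (dadeIsometry A L H α) := by
  intro g h
  by_cases hg : ∃ a : L, (a : G) ∈ A ∧ g ∈ dSupp H a
  · obtain ⟨a, ha, hga⟩ := hg
    rw [dade_apply hD α hα ha hga, dade_apply hD α hα ha ((dSupp_conj H a g h).mpr hga)]
  · rw [dade_apply_not α hg, dade_apply_not α]
    rintro ⟨a, ha, hga⟩
    exact hg ⟨a, ha, (dSupp_conj H a g h).mp hga⟩

theorem mul_mem_dSupp (H : G → Subgroup G) (a u : G) (hu : u ∈ H a) : a * u ∈ dSupp H a :=
  ⟨1, u, hu, by simp⟩

open Classical in
theorem finsum_mem_eq_sum_ite {X : Type*} [Fintype X] {M : Type*} [AddCommMonoid M] (s : Set X)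
    (f : X → M) : ∑ᶠ x ∈ s, f x = ∑ x : X, if x ∈ s then f x else 0 := by
  rw [finsum_mem_def, finsum_eq_sum_of_fintype]
  apply Finset.sum_congr rfl
  intro x _
  rw [Set.indicator_apply]

theorem dade_adjoint [Fintype G] {A : Set G} {L : Subgroup G} [Fintype L] {H : G → Subgroup G}
    (hD : DadeHypothesis A L H) (α : L → ℂ) (hα : IsClassFunction L α)
    (hαA : ∀ x : L, (x : G) ∉ A → α x = 0) (χ : G → ℂ) (ψ : L → ℂ) (hχ : IsClassFunction G χ)
    (hψ : ∀ a : L, (a : G) ∈ A →
      ψ a = (Nat.card (H a) : ℂ)⁻¹ * ∑ᶠ u ∈ (H a : Set G), χ (a * u)) :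
    classInner (dadeIsometry A L H α) χ = classInner α ψ := by
  classical
  have hcl := dade_isClassFunction hD α hα
  have hF : IsClassFunction G (fun g => dadeIsometry A L H α g * conj (χ g)) := by
    intro g h
    simp only
    rw [hcl, hχ]
  have hCF := dade_CF hD _ hF
  have h1 : ∑ g : G, (if (∃ a : L, (a : G) ∈ A ∧ g ∈ dSupp H a)
      then dadeIsometry A L H α g * conj (χ g) else 0)
      = ∑ g : G, dadeIsometry A L H α g * conj (χ g) := by
    apply Finset.sum_congr rfl
    intro g _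
    by_cases hg : ∃ a : L, (a : G) ∈ A ∧ g ∈ dSupp H a
    · rw [if_pos hg]
    · rw [if_neg hg, dade_apply_not α hg, zero_mul]
  have h2 : ∑ a : L, (if (a : G) ∈ A then
      (Nat.card (H a) : ℂ)⁻¹ * ∑ u : G, (if u ∈ H a then
        dadeIsometry A L H α (a * u) * conj (χ (a * u)) else 0) else 0)
      = ∑ a : L, α a * conj (ψ a) := by
    apply Finset.sum_congr rfl
    intro a _
    by_cases ha : (a : G) ∈ A
    · rw [if_pos ha, hψ a ha, finsum_mem_eq_sum_ite, map_mul, map_inv₀, map_natCast, map_sum,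
        Finset.mul_sum, Finset.mul_sum, Finset.mul_sum]
      apply Finset.sum_congr rfl
      intro u _
      by_cases hu : u ∈ H a
      · rw [if_pos hu, if_pos (show u ∈ (H a : Set G) from hu),
          dade_apply hD α hα ha (mul_mem_dSupp H a u hu)]
        ring
      · rw [if_neg hu, if_neg (show u ∉ (H a : Set G) from hu)]
        simp
    · rw [if_neg ha, hαA a ha, zero_mul]
  rw [h1, h2] at hCF
  unfold classInner
  have hG : (Nat.card G : ℂ) ≠ 0 := by exact_mod_cast Nat.card_pos.ne'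
  have hL : (Nat.card L : ℂ) ≠ 0 := by exact_mod_cast Nat.card_pos.ne'
  field_simp
  linear_combination hCF

theorem dade_isometry [Fintype G] {A : Set G} {L : Subgroup G} [Fintype L] {H : G → Subgroup G}
    (hD : DadeHypothesis A L H) (α : L → ℂ) (hα : IsClassFunction L α)
    (hαA : ∀ x : L, (x : G) ∉ A → α x = 0) (β : L → ℂ) (hβ : IsClassFunction L β) :
    classInner (dadeIsometry A L H α) (dadeIsometry A L H β) = classInner α β := by
  classical
  apply dade_adjoint hD α hα hαA _ β (dade_isClassFunction hD β hβ)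
  intro a ha
  rw [finsum_mem_eq_sum_ite]
  have h1 : ∑ u : G, (if u ∈ (H a : Set G) then dadeIsometry A L H β (a * u) else 0)
      = ∑ u : G, (if u ∈ (H a : Set G) then β a else 0) := by
    apply Finset.sum_congr rfl
    intro u _
    by_cases hu : u ∈ (H a : Set G)
    · rw [if_pos hu, if_pos hu, dade_apply hD β hβ ha (mul_mem_dSupp H a u hu)]
    · rw [if_neg hu, if_neg hu]
  rw [h1, ← Finset.sum_filter, Finset.sum_const, nsmul_eq_mul]
  have h2 : ((Finset.univ.filter (fun u : G => u ∈ (H a : Set G))).card : ℂ) = Nat.card (H a) := by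
    rw [Nat.card_eq_fintype_card, Fintype.card_subtype]
    rfl
  rw [h2]
  have hH : (Nat.card (H a) : ℂ) ≠ 0 := by exact_mod_cast Nat.card_pos.ne'
  field_simp

end Cfsg.Agent.LeadBr
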