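import Mathlib
import Cfsg.Prelude.Def_Characters
import Cfsg.Prelude.Def_OddOrderChar
import Cfsg.Agent.Lib_lead_Dade3

set_option autoImplicit false
set_option linter.style.haveILetI false

/-! A norm inequality for the adjoint of the Dade map. -/

namespace Cfsg.Agent.LeadBr

open Cfsg Cfsg.Agent.H4 Subgroup
open scoped ComplexConjugate

universe u

variable {G : Type u} [Group G]

open Classical in
theorem dade_CF_real [Fintype G] {A : Set G} {L : Subgroup G} [Fintype L] {H : G → Subgroup G}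
    (hD : DadeHypothesis A L H) (R : G → ℝ) (hR : ∀ g h : G, R (h * g * h⁻¹) = R g) :
    (Nat.card L : ℝ) * ∑ g : G, (if (∃ a : L, (a : G) ∈ A ∧ g ∈ dSupp H a) then R g else 0)
      = (Nat.card G : ℝ) * ∑ a : L, (if (a : G) ∈ A then
          (Nat.card (H a) : ℝ)⁻¹ * ∑ u : G, (if u ∈ H a then R (a * u) else 0) else 0) := by
  have h := dade_CF hD (fun g => ((R g : ℝ) : ℂ)) (fun g h => by simp only; rw [hR])
  apply Complex.ofReal_injective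
  simp only [Complex.ofReal_mul, Complex.ofReal_sum, apply_ite Complex.ofReal, Complex.ofReal_zero,
    Complex.ofReal_inv, Complex.ofReal_natCast]
  exact h

theorem finsum_mem_eq_sum_ite' {X : Type*} [Fintype X] {M : Type*} [AddCommMonoid M] (s : Set X)
    [DecidablePred (· ∈ s)] (f : X → M) : ∑ᶠ x ∈ s, f x = ∑ x : X, if x ∈ s then f x else 0 := by
  rw [finsum_mem_eq_sum_ite]
  apply Finset.sum_congr rfl
  intro x _
  split_ifs <;> rfl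

theorem norm_sq_avg_le {X : Type*} (s : Finset X) (f : X → ℂ) :
    ‖((s.card : ℂ))⁻¹ * ∑ u ∈ s, f u‖ ^ 2 ≤ ((s.card : ℝ))⁻¹ * ∑ u ∈ s, ‖f u‖ ^ 2 := by
  by_cases hs : s.card = 0
  · rw [Finset.card_eq_zero] at hs
    simp [hs]
  have hn : (0 : ℝ) < s.card := by exact_mod_cast Nat.pos_of_ne_zero hs
  rw [norm_mul, norm_inv, Complex.norm_natCast, mul_pow]
  have h1 : ‖∑ u ∈ s, f u‖ ≤ ∑ u ∈ s, ‖f u‖ := norm_sum_le _ _
  have h2 : (∑ u ∈ s, ‖f u‖) ^ 2 ≤ s.card * ∑ u ∈ s, ‖f u‖ ^ 2 := sq_sum_le_card_mul_sum_sq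
  have h3 : ‖∑ u ∈ s, f u‖ ^ 2 ≤ s.card * ∑ u ∈ s, ‖f u‖ ^ 2 :=
    (pow_le_pow_left₀ (norm_nonneg _) h1 2).trans h2
  calc ((s.card : ℝ))⁻¹ ^ 2 * ‖∑ u ∈ s, f u‖ ^ 2
      ≤ ((s.card : ℝ))⁻¹ ^ 2 * (s.card * ∑ u ∈ s, ‖f u‖ ^ 2) :=
        mul_le_mul_of_nonneg_left h3 (by positivity)
    _ = ((s.card : ℝ))⁻¹ * ∑ u ∈ s, ‖f u‖ ^ 2 := by
        field_simp

theorem dade_norm_le [Fintype G] {A : Set G} {L : Subgroup G} [Fintype L] {H : G → Subgroup G}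
    (hD : DadeHypothesis A L H) (χ : G → ℂ) (hχ : IsClassFunction G χ) (ψ : L → ℂ)
    (hψ : ∀ a : L, (a : G) ∈ A →
      ψ a = (Nat.card (H a) : ℂ)⁻¹ * ∑ᶠ u ∈ (H a : Set G), χ (a * u)) :
    (Nat.card L : ℝ)⁻¹ * ∑ᶠ a ∈ {a : L | (a : G) ∈ A}, ‖ψ a‖ ^ 2
      ≤ (Nat.card G : ℝ)⁻¹ *
        ∑ᶠ g ∈ {g : G | ∃ a ∈ A, ∃ u ∈ H a, ∃ x : G, x * g * x⁻¹ = a * u}, ‖χ g‖ ^ 2 := by
  classical
  have hCF := dade_CF_real hD (fun g => ‖χ g‖ ^ 2) (fun g h => by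
    show ‖χ (h * g * h⁻¹)‖ ^ 2 = ‖χ g‖ ^ 2
    rw [hχ])
  rw [finsum_mem_eq_sum_ite', finsum_mem_eq_sum_ite']
  have h1 : ∑ g : G, (if g ∈ {g : G | ∃ a ∈ A, ∃ u ∈ H a, ∃ x : G, x * g * x⁻¹ = a * u}
      then ‖χ g‖ ^ 2 else 0)
      = ∑ g : G, (if (∃ a : L, (a : G) ∈ A ∧ g ∈ dSupp H a) then ‖χ g‖ ^ 2 else 0) := by
    apply Finset.sum_congr rfl
    intro g _
    have : g ∈ {g : G | ∃ a ∈ A, ∃ u ∈ H a, ∃ x : G, x * g * x⁻¹ = a * u}
        ↔ ∃ a : L, (a : G) ∈ A ∧ g ∈ dSupp H a := by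
      constructor
      · rintro ⟨a, ha, u, hu, x, hx⟩
        exact ⟨⟨a, hD.subset ha⟩, ha, x, u, hu, hx⟩
      · rintro ⟨a, ha, x, u, hu, hx⟩
        exact ⟨a, ha, u, hu, x, hx⟩
    simp only [this]
  rw [h1]
  have hG : (0 : ℝ) < Nat.card G := by exact_mod_cast Nat.card_pos
  have hL : (0 : ℝ) < Nat.card L := by exact_mod_cast Nat.card_pos
  have h2 : (Nat.card G : ℝ)⁻¹ *
      ∑ g : G, (if (∃ a : L, (a : G) ∈ A ∧ g ∈ dSupp H a) then ‖χ g‖ ^ 2 else 0)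
      = (Nat.card L : ℝ)⁻¹ * ∑ a : L, (if (a : G) ∈ A then
          (Nat.card (H a) : ℝ)⁻¹ * ∑ u : G, (if u ∈ H a then ‖χ (a * u)‖ ^ 2 else 0) else 0) := by
    rw [inv_mul_eq_iff_eq_mul₀ hG.ne', ← mul_assoc, mul_comm (Nat.card G : ℝ), mul_assoc, ← hCF,
      ← mul_assoc, inv_mul_cancel₀ hL.ne', one_mul]
  rw [h2]
  apply mul_le_mul_of_nonneg_left _ (by positivity)
  apply Finset.sum_le_sum
  intro a _
  by_cases ha : (a : G) ∈ A
  · rw [if_pos (show a ∈ {a : L | (a : G) ∈ A} from ha), if_pos ha, hψ a ha, finsum_mem_eq_sum_ite',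
      ← Finset.sum_filter, ← Finset.sum_filter]
    have hc : (Finset.univ.filter (fun u : G => u ∈ (H a : Set G))).card = Nat.card (H a) := by
      rw [Nat.card_eq_fintype_card, Fintype.card_subtype]
      rfl
    have := norm_sq_avg_le (Finset.univ.filter (fun u : G => u ∈ (H a : Set G)))
      (fun u => χ (a * u))
    rw [hc] at this
    exact this
  · rw [if_neg (show a ∉ {a : L | (a : G) ∈ A} from ha), if_neg ha]

end Cfsg.Agent.LeadBr
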