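import Mathlib
import Cfsg.Prelude.Def_Characters
import Cfsg.Prelude.Def_OddOrderChar
import Cfsg.Agent.Lib_lead_Fk3

set_option autoImplicit false
set_option linter.style.haveILetI false

/-! Exceptional characters are those not constant on the nonidentity elements of `K`. -/

namespace Cfsg.Agent.LeadBr

open Cfsg Cfsg.Agent.H4 Subgroup
open scoped ComplexConjugate

universe u v

variable {G : Type u} [Group G]

theorem tifn_iff [Fintype G] (K : Subgroup G) [Fintype (normalizer (K : Set G))]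
    (hC : ∀ k ∈ K, k ≠ 1 → centralizer ({k} : Set G) ≤ K)
    (htwo : ∃ χ ∈ tifnS K, ∃ ξ ∈ tifnS K, χ ≠ ξ)
    (star : (normalizer (K : Set G) → ℂ) → (G → ℂ))
    (hstar : IsLinearIsometryOn (zspan (tifnS K)) star)
    (hext : ∀ α ∈ zspanOn (tifnS K) ({1}ᶜ : Set (normalizer (K : Set G))),
      star α = indFun (normalizer (K : Set G)) α)
    (ψ : G → ℂ) (hψ : IsIrrCharacter G ψ) :
    (∃ χ ∈ tifnS K, ψ = star χ ∨ ψ = -star χ) ↔
      ∃ a ∈ K, ∃ b ∈ K, a ≠ 1 ∧ b ≠ 1 ∧ ψ a ≠ ψ b := by
  classical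
  constructor
  · rintro ⟨χ, hχ, hψχ⟩
    by_contra hcon
    push Not at hcon
    have hst : ∀ a ∈ K, ∀ b ∈ K, a ≠ 1 → b ≠ 1 → star χ a = star χ b := by
      intro a ha b hb ha1 hb1
      have := hcon a ha b hb ha1 hb1
      rcases hψχ with h | h
      · rw [h] at this; exact this
      · rw [h] at this
        simpa using this
    obtain ⟨d, hd⟩ := tifn_const K star hstar hext χ hχ
    obtain ⟨k₀, hk₀, hk₀1⟩ := hχ.2
    have hk₀' : k₀ ≠ 1 := by
      rintro rfl
      exact hk₀1 rfl
    have hconst : ∀ k : normalizer (K : Set G), (k : G) ∈ K → k ≠ 1 → χ k = χ k₀ := by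
      intro k hk hk1
      have h1 := hd k hk hk1
      have h2 := hd k₀ hk₀ hk₀'
      have h3 := hst k hk k₀ hk₀ (fun h => hk1 (Subtype.ext h)) (fun h => hk₀' (Subtype.ext h))
      rw [h3] at h1
      linear_combination h2 - h1
    obtain ⟨ξ, hξ, hξχ⟩ : ∃ ξ ∈ tifnS K, ξ ≠ χ := by
      obtain ⟨χ1, h1, χ2, h2, h12⟩ := htwo
      by_cases h : χ1 = χ
      · exact ⟨χ2, h2, fun h' => h12 (h.trans h'.symm)⟩
      · exact ⟨χ1, h1, h⟩
    obtain ⟨σ, hσ, hσ1, rfl⟩ := tifn_struct K hC ξ hξ.1 hξ.2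
    haveI := Fintype.ofFinite (K.subgroupOf (normalizer (K : Set G)))
    have h1 := classInner_const_off_one
      (fun k : K.subgroupOf (normalizer (K : Set G)) => χ k) (χ k₀) (by
        intro k hk1
        exact hconst k (mem_subgroupOf.mp k.2) (fun h => hk1 (Subtype.ext h))) σ hσ hσ1
    rw [classInner_restrict_eq _ _ (IsCharacter.isClassFunction (IsIrrCharacter.isCharacter hχ.1))]
      at h1
    have h2 : classInner χ (indFun (K.subgroupOf (normalizer (K : Set G))) σ) = 0 := by
      by_contra h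
      exact hξχ (irr_eq_of_classInner_ne_zero hχ.1 hξ.1 h).symm
    rw [h2] at h1
    have hcard : (Nat.card (K.subgroupOf (normalizer (K : Set G))) : ℂ) ≠ 0 := by
      exact_mod_cast Nat.card_pos.ne'
    have h3 : (χ 1 - χ k₀) * σ 1 = 0 := by
      have := h1.symm
      rw [div_eq_zero_iff] at this
      rcases this with h | h
      · exact h
      · exact absurd h hcard
    rcases mul_eq_zero.mp h3 with h | h
    · exact hk₀1 (sub_eq_zero.mp h).symm
    · exact IsIrrCharacter.apply_one_ne_zero hσ h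
  · rintro ⟨a, ha, b, hb, ha1, hb1, hab⟩
    by_contra hcon
    push Not at hcon
    apply hab
    have horth : ∀ χ ∈ tifnS K, classInner ψ (star χ) = 0 := by
      intro χ hχ
      have hχ' : χ ∈ zspan (tifnS K) := Submodule.subset_span hχ
      obtain ⟨φ, hφ⟩ := irr_or_neg_of_norm_one (hstar.2.2.2 χ hχ')
        (by rw [hstar.2.2.1 χ hχ' χ hχ']; exact IsIrrCharacter.norm_one hχ.1)
      have hne : ψ ≠ φ := by
        intro h
        rcases hφ with h' | h'
        · exact (hcon χ hχ).1 (h.trans h'.symm)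
        · exact (hcon χ hχ).2 (by rw [h', neg_neg]; exact h)
      have h0 : classInner ψ (φ : G → ℂ) = 0 := by
        by_contra h
        exact hne (irr_eq_of_classInner_ne_zero hψ φ.2 h)
      rcases hφ with h' | h'
      · rw [h', h0]
      · rw [h']
        have : -(φ : G → ℂ) = (-1 : ℂ) • (φ : G → ℂ) := by simp
        rw [this, classInner_smul_right, h0, mul_zero]
    have hgen : IsGeneralizedCharacter (normalizer (K : Set G))
        (fun n : normalizer (K : Set G) => ψ n) :=
      IsGeneralizedCharacter.restrict' _ (IsCharacter.isGeneralized (IsIrrCharacter.isCharacter hψ))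
    obtain ⟨d, hd⟩ := const_int_of_orth (K.subgroupOf (normalizer (K : Set G))) _ hgen (by
      intro θ ξ hθ hξ
      have hθS : (θ : normalizer (K : Set G) → ℂ) ∈ tifnS K := by
        obtain ⟨k, hk, hk1⟩ := hθ
        exact ⟨θ.2, k, mem_subgroupOf.mp hk, hk1⟩
      have hξS : (ξ : normalizer (K : Set G) → ℂ) ∈ tifnS K := by
        obtain ⟨k, hk, hk1⟩ := hξ
        exact ⟨ξ.2, k, mem_subgroupOf.mp hk, hk1⟩
      obtain ⟨a, _, ha⟩ := IsIrrCharacter.apply_one θ.2
      obtain ⟨b, _, hb⟩ := IsIrrCharacter.apply_one ξ.2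
      have hmem := comb_mem hθS hξS a b (by rw [ha]; simp) (by rw [hb]; simp)
      rw [ha, hb]
      have e : ((b : ℕ) : ℂ) • (θ : normalizer (K : Set G) → ℂ) - ((a : ℕ) : ℂ) • (ξ : normalizer (K : Set G) → ℂ)
          = (((b : ℕ) : ℤ) : ℂ) • (θ : normalizer (K : Set G) → ℂ) - (((a : ℕ) : ℤ) : ℂ) • (ξ : normalizer (K : Set G) → ℂ) := by
        simp
      rw [e, classInner_restrict_eq _ _ (IsCharacter.isClassFunction (IsIrrCharacter.isCharacter hψ)),
        ← hext _ hmem, star_comb hstar hθS hξS, classInner_sub_right, classInner_smul_right,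
        classInner_smul_right, horth _ hθS, horth _ hξS]
      simp)
    have h1 := hd ⟨a, le_normalizer ha⟩ (mem_subgroupOf.mpr ha) (fun h => ha1 (congrArg Subtype.val h))
    have h2 := hd ⟨b, le_normalizer hb⟩ (mem_subgroupOf.mpr hb) (fun h => hb1 (congrArg Subtype.val h))
    exact h1.trans h2.symm

end Cfsg.Agent.LeadBr
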