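import Mathlib
import Cfsg.Prelude.Def_Characters
import Cfsg.Agent.Lib_lead_Fk2

set_option autoImplicit false
set_option linter.style.haveILetI false

/-! Elements of the Frobenius normalizer outside the T.I. subgroup are not fused into it. -/

namespace Cfsg.Agent.LeadBr

open Cfsg Cfsg.Agent.H4 Subgroup
open scoped ComplexConjugate

universe u

variable {G : Type u} [Group G]

theorem exists_fixed_of_prime_order [Finite G] (K : Subgroup G) (y : G) (p : ℕ) [hp : Fact p.Prime]
    (hy : y ^ p = 1) (hyK : ∀ c ∈ K, y * c * y⁻¹ ∈ K) (hpK : p ∣ Nat.card K) :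
    ∃ c ∈ K, c ≠ 1 ∧ y * c * y⁻¹ = c := by
  classical
  haveI := Fintype.ofFinite K
  by_contra hcon
  push Not at hcon
  let f : Function.End K := fun c => ⟨y * c * y⁻¹, hyK c c.2⟩
  have hpow : ∀ (n : ℕ) (c : K), (((f ^ n) c : K) : G) = y ^ n * c * (y ^ n)⁻¹ := by
    intro n
    induction n with
    | zero => intro c; simp only [pow_zero, one_mul, inv_one, mul_one]; rfl
    | succ n ih =>
      intro c
      rw [pow_succ']
      show y * ((f ^ n) c : K) * y⁻¹ = _
      rw [ih, pow_succ']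
      group
  have hf : f ^ p ^ 1 = 1 := by
    funext c
    apply Subtype.ext
    rw [pow_one, hpow, hy]
    simp only [one_mul, inv_one, mul_one]
    rfl
  have h1 := Equiv.Perm.card_fixedPoints_modEq hf
  have h2 : Fintype.card (Function.fixedPoints f) = 1 := by
    rw [Fintype.card_eq_one_iff]
    refine ⟨⟨1, ?_⟩, ?_⟩
    · show f 1 = 1
      apply Subtype.ext
      show y * ((1 : K) : G) * y⁻¹ = _
      simp
    · rintro ⟨c, hc⟩
      apply Subtype.ext
      by_contra hc1
      have hc' : y * (c : G) * y⁻¹ = c := congrArg Subtype.val hc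
      exact hcon c c.2 (fun h => hc1 (Subtype.ext h)) hc'
  rw [h2, ← Nat.card_eq_fintype_card] at h1
  have h3 : Nat.card K ≡ 0 [MOD p] := (Nat.modEq_zero_iff_dvd).mpr hpK
  have h4 : 1 ≡ 0 [MOD p] := h1.symm.trans h3
  have h5 := (Nat.modEq_zero_iff_dvd).mp h4
  exact hp.out.one_lt.ne' (Nat.dvd_one.mp h5)

theorem tifn_not_fused [Finite G] (K : Subgroup G)
    (hTI : ∀ g : G, g ∉ normalizer (K : Set G) → ∀ k ∈ K, g * k * g⁻¹ ∈ K → k = 1)
    (hC : ∀ k ∈ K, k ≠ 1 → centralizer ({k} : Set G) ≤ K)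
    (x : G) (hx : x ∈ normalizer (K : Set G)) (hxK : x ∉ K) (g : G) : g * x * g⁻¹ ∉ K := by
  classical
  intro hk
  have hgN : g ∉ normalizer (K : Set G) := by
    intro hg
    apply hxK
    have := (mem_normalizer_iff.mp hg x).mpr hk
    exact this
  have hx1 : x ≠ 1 := by
    rintro rfl
    exact hxK K.one_mem
  have hn1 : orderOf x ≠ 1 := fun h => hx1 (orderOf_eq_one_iff.mp h)
  set p := (orderOf x).minFac with hp
  have hpp : p.Prime := Nat.minFac_prime hn1
  haveI : Fact p.Prime := ⟨hpp⟩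
  have hpd : p ∣ orderOf x := Nat.minFac_dvd _
  set y := x ^ (orderOf x / p) with hy
  have hyo : orderOf y = p := orderOf_pow_orderOf_div (orderOf_pos x).ne' hpd
  have hyN : y ∈ normalizer (K : Set G) := Subgroup.pow_mem _ hx _
  have hgy : g * y * g⁻¹ ∈ K := by
    have : g * y * g⁻¹ = (g * x * g⁻¹) ^ (orderOf x / p) := by
      rw [hy, conj_pow]
    rw [this]
    exact K.pow_mem hk _
  have hy1 : y ≠ 1 := by
    intro h
    rw [h, orderOf_one] at hyo
    exact hpp.one_lt.ne hyo
  have hpK : p ∣ Nat.card K := by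
    have h1 : orderOf (⟨g * y * g⁻¹, hgy⟩ : K) = p := by
      rw [← Subgroup.orderOf_coe]
      show orderOf (g * y * g⁻¹) = p
      rw [← hyo]
      exact (MulAut.conj g).orderOf_eq y
    rw [← h1]
    exact orderOf_dvd_natCard _
  obtain ⟨c, hc, hc1, hyc⟩ := exists_fixed_of_prime_order K y p (by rw [← hyo]; exact pow_orderOf_eq_one y)
    (fun c hc => (mem_normalizer_iff.mp hyN c).mp hc) hpK
  have hyK : y ∈ K := by
    apply hC c hc hc1
    rw [mem_centralizer_singleton_iff]
    calc y * c = (y * c * y⁻¹) * y := by group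
      _ = c * y := by rw [hyc]
  exact hy1 (hTI g hgN y hyK hgy)

end Cfsg.Agent.LeadBr
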