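import Mathlib
import Cfsg.Agent.Lib_lead_Frob4

set_option autoImplicit false

namespace Cfsg.Agent.LeadFrob

open scoped Pointwise

/-- a fixed-point-free action gives a Frobenius group -/
theorem exists_frob_of_fpf {V C : Type} [Group V] [Finite V] [Nontrivial V] [Group C] [Finite C]
    [Nontrivial C] (φ : C →* MulAut V) (h : ∀ c : C, c ≠ 1 → ∀ v : V, φ c v = v → v = 1) :
    ∃ (L : Type) (_ : Group L) (_ : Finite L) (H : Subgroup L),
      Cfsg.IsFrobeniusComplement H ∧ Nonempty (C ≃* H) := by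
  classical
  have hfin : Finite (V ⋊[φ] C) := Finite.of_equiv _ SemidirectProduct.equivProd.symm
  refine ⟨V ⋊[φ] C, inferInstance, hfin, (SemidirectProduct.inr : C →* V ⋊[φ] C).range, ?_,
    ⟨MonoidHom.ofInjective SemidirectProduct.inr_injective⟩⟩
  have hn : ((SemidirectProduct.inl : V →* V ⋊[φ] C).range).Normal := by
    rw [SemidirectProduct.range_inl_eq_ker_rightHom]; infer_instance
  have hc : Subgroup.IsComplement' (SemidirectProduct.inl : V →* V ⋊[φ] C).range
      (SemidirectProduct.inr : C →* V ⋊[φ] C).range := by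
    apply Subgroup.isComplement'_of_disjoint_and_mul_eq_univ
    · rw [disjoint_iff, eq_bot_iff]
      rintro x ⟨hx1, ⟨c, rfl⟩⟩
      have hx2 : (SemidirectProduct.inr c : V ⋊[φ] C) ∈ (SemidirectProduct.inl : V →* V ⋊[φ] C).range := hx1
      rw [SemidirectProduct.range_inl_eq_ker_rightHom, MonoidHom.mem_ker,
        SemidirectProduct.rightHom_inr] at hx2
      rw [hx2, map_one]; exact Subgroup.one_mem _
    · rw [Set.eq_univ_iff_forall]
      intro x
      exact ⟨_, ⟨x.left, rfl⟩, _, ⟨x.right, rfl⟩, SemidirectProduct.inl_left_mul_inr_right x⟩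
  refine (frob_of_complement _ _ hc ?_ ?_ ?_).1
  · intro hb
    obtain ⟨v, hv⟩ := exists_ne (1 : V)
    have h1 : (SemidirectProduct.inl v : V ⋊[φ] C) ∈ (SemidirectProduct.inl : V →* V ⋊[φ] C).range := ⟨v, rfl⟩
    rw [hb, Subgroup.mem_bot] at h1
    exact hv (SemidirectProduct.inl_injective (h1.trans (map_one _).symm))
  · intro hb
    obtain ⟨v, hv⟩ := exists_ne (1 : C)
    have h1 : (SemidirectProduct.inr v : V ⋊[φ] C) ∈ (SemidirectProduct.inr : C →* V ⋊[φ] C).range := ⟨v, rfl⟩
    rw [hb, Subgroup.mem_bot] at h1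
    exact hv (SemidirectProduct.inr_injective (h1.trans (map_one _).symm))
  · rintro _ ⟨c, rfl⟩ hc1 _ ⟨v, rfl⟩ hcomm
    have hc1' : c ≠ 1 := by rintro rfl; exact hc1 (map_one _)
    have h1 : (SemidirectProduct.inl (φ c v) : V ⋊[φ] C) = SemidirectProduct.inl v := by
      rw [SemidirectProduct.inl_aut, ← hcomm, map_inv, mul_inv_cancel_right]
    rw [h c hc1' v (SemidirectProduct.inl_injective h1), map_one]

theorem frob_transport {C C' : Type*} [Group C] [Group C'] (e : C ≃* C')
    (h : ∃ (L : Type) (_ : Group L) (_ : Finite L) (H : Subgroup L),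
      Cfsg.IsFrobeniusComplement H ∧ Nonempty (C' ≃* H)) :
    ∃ (L : Type) (_ : Group L) (_ : Finite L) (H : Subgroup L),
      Cfsg.IsFrobeniusComplement H ∧ Nonempty (C ≃* H) := by
  obtain ⟨L, i1, i2, H, hH, ⟨f⟩⟩ := h
  exact ⟨L, i1, i2, H, hH, ⟨e.trans f⟩⟩

end Cfsg.Agent.LeadFrob
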