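import Mathlib
import Cfsg.Prelude.Def_Characters
import Cfsg.Agent.Lib_helper2_Glaub12
import Cfsg.Agent.Lib_helper4_CharL
import Cfsg.Agent.Lib_helper1_Coprime

set_option autoImplicit false
set_option linter.style.haveILetI false

/-! The set-up `L = K ⋊ W₁`, `C_K(x) = W₂` for all `x ∈ W₁ \ 1`. -/

namespace Cfsg.Agent.LeadBr

open Cfsg Cfsg.Agent.H4 Subgroup
open scoped ComplexConjugate

universe u

variable {L : Type u} [Group L]

theorem invBy_iff (K : Subgroup L) [hK : K.Normal] (θ : K → ℂ) (x : L) :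
    H2.InvBy K x θ ↔ conjFun hK θ x = θ := by
  constructor
  · intro h; funext k; exact h k _ rfl
  · intro h g g' hg
    have := congrFun h g
    rw [← this, conjFun_apply]; congr 1; exact Subtype.ext hg

theorem conjFun_mul_left (K : Subgroup L) [hK : K.Normal] [Finite L] (θ : K → ℂ)
    (hθ : IsIrrCharacter K θ) (k : L) (hk : k ∈ K) (w : L) :
    conjFun hK θ (k * w) = conjFun hK θ w := by
  funext n
  rw [conjFun_apply, conjFun_apply]
  have hcl := IsCharacter.isClassFunction (IsIrrCharacter.isCharacter hθ)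
  have := hcl ⟨w * n * w⁻¹, hK.conj_mem n n.2 w⟩ ⟨k, hk⟩
  rw [← this]; congr 1; apply Subtype.ext; simp [mul_assoc]

theorem comm_of_le_cyclic {W S : Subgroup L} (hW : IsCyclic W) (hS : S ≤ W) (a b : S) :
    a * b = b * a := by
  apply Subtype.ext
  have h := (IsCyclic.commGroup (α := W)).mul_comm ⟨a, hS a.2⟩ ⟨b, hS b.2⟩
  exact congrArg (Subtype.val : W → L) h

theorem pf_cent (K W₁ W₂ : Subgroup L) (hW₂K : W₂ ≤ K)
    (hC : ∀ x ∈ W₁, x ≠ 1 → K ⊓ Subgroup.centralizer ({x} : Set L) = W₂)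
    (S : Subgroup L) (hS : S ≤ W₁) (hne : S ≠ ⊥) :
    K ⊓ Subgroup.centralizer (S : Set L) = W₂ := by
  obtain ⟨⟨x, hx⟩, hx1⟩ := Subgroup.ne_bot_iff_exists_ne_one.mp hne
  have hx1' : x ≠ 1 := fun h => hx1 (Subtype.ext h)
  apply le_antisymm
  · rw [← hC x (hS hx) hx1']
    exact inf_le_inf_left K (Subgroup.centralizer_le (by simpa using hx))
  · intro w hw
    refine Subgroup.mem_inf.mpr ⟨hW₂K hw, ?_⟩
    rw [Subgroup.mem_centralizer_iff]
    intro s hs
    by_cases hs1 : s = 1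
    · rw [hs1]; simp
    · have : w ∈ K ⊓ Subgroup.centralizer ({s} : Set L) := by rw [hC s (hS hs) hs1]; exact hw
      exact Subgroup.mem_centralizer_iff.mp this.2 s rfl

theorem pf_count [Fintype L] (K W₁ W₂ : Subgroup L) [hK : K.Normal]
    (hcop : (Nat.card K).Coprime (Nat.card W₁)) (hW₁c : IsCyclic W₁) (hW₂c : IsCyclic W₂)
    (hW₂K : W₂ ≤ K)
    (hC : ∀ x ∈ W₁, x ≠ 1 → K ⊓ Subgroup.centralizer ({x} : Set L) = W₂)
    (S : Subgroup L) (hS : S ≤ W₁) (hne : S ≠ ⊥) :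
    Nat.card {χ : IrrCharacter K // H2.InvUnder K S χ} = Nat.card W₂ := by
  have hW₂card : Nat.card (IrrCharacter W₂) = Nat.card W₂ := by
    rw [card_irr, card_conjClasses_of_comm (comm_of_le_cyclic hW₂c le_rfl)]
  have hsolv : Group.IsSolvable S := Group.isSolvable_of_comm (comm_of_le_cyclic hW₁c hS)
  have h := H2.card_irr_inv _ K S rfl (fun s _ g hg => hK.conj_mem g hg s)
    (Nat.Coprime.coprime_dvd_right (Subgroup.card_dvd_of_le hS) hcop) hsolv
  rw [pf_cent K W₁ W₂ hW₂K hC S hS hne, hW₂card] at h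
  exact h

theorem pf_fix [Fintype L] (K W₁ W₂ : Subgroup L) [hK : K.Normal]
    (hcop : (Nat.card K).Coprime (Nat.card W₁)) (hW₁c : IsCyclic W₁) (hW₂c : IsCyclic W₂)
    (hW₂K : W₂ ≤ K)
    (hC : ∀ x ∈ W₁, x ≠ 1 → K ⊓ Subgroup.centralizer ({x} : Set L) = W₂)
    (θ : IrrCharacter K) (w : L) (hw : w ∈ W₁) (hw1 : w ≠ 1) (hθw : H2.InvBy K w θ) :
    H2.InvUnder K W₁ θ := by
  classical
  have hS : Subgroup.zpowers w ≤ W₁ := Subgroup.zpowers_le.mpr hw
  have hne : Subgroup.zpowers w ≠ ⊥ := by rw [Ne, Subgroup.zpowers_eq_bot]; exact hw1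
  have hW₁ : W₁ ≠ ⊥ := fun h => hne (le_bot_iff.mp (h ▸ hS))
  have hθS : H2.InvUnder K (Subgroup.zpowers w) θ := by
    have hmem : w ∈ H2.stabSub K (θ : K → ℂ) :=
      ⟨fun g hg => hK.conj_mem g hg w, fun g hg => by simpa using hK.conj_mem g hg w⁻¹, hθw⟩
    intro s hs
    exact ((Subgroup.zpowers_le.mpr hmem) hs).2.2
  have hsub : {χ : IrrCharacter K | H2.InvUnder K W₁ χ} ⊆
      {χ : IrrCharacter K | H2.InvUnder K (Subgroup.zpowers w) χ} := by
    intro χ hχ s hs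
    exact hχ s (hS hs)
  have hA : {χ : IrrCharacter K | H2.InvUnder K W₁ χ}.ncard = Nat.card W₂ := by
    rw [← Nat.card_coe_set_eq]
    exact pf_count K W₁ W₂ hcop hW₁c hW₂c hW₂K hC W₁ le_rfl hW₁
  have hB : {χ : IrrCharacter K | H2.InvUnder K (Subgroup.zpowers w) χ}.ncard = Nat.card W₂ := by
    rw [← Nat.card_coe_set_eq]
    exact pf_count K W₁ W₂ hcop hW₁c hW₂c hW₂K hC _ hS hne
  have heq := Set.eq_of_subset_of_ncard_le hsub (by rw [hA, hB]) (Set.toFinite _)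
  have : θ ∈ {χ : IrrCharacter K | H2.InvUnder K W₁ χ} := by rw [heq]; exact hθS
  exact this

end Cfsg.Agent.LeadBr
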