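import Mathlib
import Cfsg.Prelude.Def_Characters
import Cfsg.Agent.Lib_lead_Pf1

set_option autoImplicit false
set_option linter.style.haveILetI false

/-! The "going down" theorem for an abelian chief factor, in abstract form. -/

namespace Cfsg.Agent.LeadBr

open Cfsg Cfsg.Agent.H4 Subgroup
open scoped ComplexConjugate

universe u

variable {K : Type u} [Group K]

/-- restriction of an automorphism to an invariant subgroup -/
noncomputable def restrictEquiv [Finite K] (N : Subgroup K) (α : K ≃* K) (h : ∀ n ∈ N, α n ∈ N) :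
    N ≃* N :=
  MulEquiv.ofBijective ((α.toMonoidHom.comp N.subtype).codRestrict N (fun n => h n n.2))
    (by
      have hinj : Function.Injective
          ((α.toMonoidHom.comp N.subtype).codRestrict N (fun n => h n n.2)) := by
        intro a b hab
        have := congrArg Subtype.val hab
        exact Subtype.ext (α.injective this)
      exact ⟨hinj, Finite.injective_iff_surjective.mp hinj⟩)

theorem restrictEquiv_coe [Finite K] (N : Subgroup K) (α : K ≃* K) (h : ∀ n ∈ N, α n ∈ N) (n : N) :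
    ((restrictEquiv N α h n : N) : K) = α n := rfl

theorem inertia_invariant [Fintype K] (N : Subgroup K) [hN : N.Normal] [Fintype N]
    (hab : ∀ x y : K, x * y * x⁻¹ * y⁻¹ ∈ N) (α : K ≃* K) (hαN : ∀ n ∈ N, α n ∈ N)
    (ϑ : K → ℂ) (hϑ : IsIrrCharacter K ϑ) (hinv : ∀ k, ϑ (α k) = ϑ k)
    (φ : N → ℂ) (hφ : IsIrrCharacter N φ) (hcon : classInner (fun n : N => ϑ n) φ ≠ 0)
    (x : K) (hx : x ∈ inertia hN φ) : α x ∈ inertia hN φ := by
  classical
  obtain ⟨e, he⟩ : ∃ e : N ≃* N, ∀ n : N, ((e n : N) : K) = α n :=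
    ⟨restrictEquiv N α hαN, restrictEquiv_coe N α hαN⟩
  obtain ⟨ψ, hψ⟩ : ∃ ψ : N → ℂ, ψ = fun n => φ (e n) := ⟨_, rfl⟩
  have hψirr : IsIrrCharacter N ψ := by
    rw [hψ]; exact IsIrrCharacter.comp_surj e.toMonoidHom e.surjective hφ
  have hcon2 : classInner (fun n : N => ϑ n) ψ ≠ 0 := by
    have h1 := classInner_equiv e (fun n : N => ϑ n) φ
    have h2 : (fun a : N => (fun n : N => ϑ n) (e a)) = fun n : N => ϑ n := by
      funext a
      show ϑ ((e a : N) : K) = ϑ a
      rw [he, hinv]
    rw [h2] at h1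
    rw [hψ, h1]; exact hcon
  obtain ⟨g, hg⟩ := clifford_conj hN hϑ hφ hψirr hcon hcon2
  have hgx : conjFun hN φ (g * x) = conjFun hN φ g := by
    have hc : g * x = (g * x * g⁻¹ * x⁻¹) * x * g := by group
    rw [hc, ← conjFun_mul hN φ (g * x * g⁻¹ * x⁻¹ * x) g,
      conjFun_mul_left N φ hφ _ (hab g x) x, (mem_inertia hN φ x).mp hx]
  have hψx : conjFun hN ψ x = ψ := by
    rw [hg, conjFun_mul, hgx]
  rw [mem_inertia']
  intro n
  obtain ⟨m, rfl⟩ := e.surjective n
  have h3 := congrFun hψx m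
  rw [conjFun_apply, hψ] at h3
  have h3' : φ (e ⟨x * m * x⁻¹, hN.conj_mem m m.2 x⟩) = φ (e m) := h3
  rw [← h3']
  congr 1
  apply Subtype.ext
  show α x * ((e m : N) : K) * (α x)⁻¹ = ((e ⟨x * m * x⁻¹, hN.conj_mem m m.2 x⟩ : N) : K)
  rw [he, he]
  simp

theorem gd_case_c [Fintype K] (N : Subgroup K) [hN : N.Normal] [Fintype N]
    (ϑ : K → ℂ) (hϑ : IsIrrCharacter K ϑ) (φ : N → ℂ) (hφ : IsIrrCharacter N φ)
    (hcon : classInner (fun n : N => ϑ n) φ ≠ 0) (hT : inertia hN φ = N) :
    ∃ F : Finset (N → ℂ), (∀ ψ ∈ F, IsIrrCharacter N ψ) ∧ F.card = N.index ∧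
      (fun n : N => ϑ n) = ∑ ψ ∈ F, ψ := by
  classical
  haveI := Fintype.ofFinite (IrrCharacter K)
  have hne : (Nat.card N : ℂ) ≠ 0 := by exact_mod_cast Nat.card_pos.ne'
  have hirr : IsIrrCharacter K (indFun N φ) := by
    rw [isIrrCharacter_iff]
    refine ⟨IsCharacter.ind N (IsIrrCharacter.isCharacter hφ), ?_⟩
    have h1 := card_mul_classInner_ind_ind hN φ φ hφ hφ
    have h2 : Nat.card {g : K // conjFun hN φ g = φ} = Nat.card N := by
      have h3 : Nat.card {g : K // conjFun hN φ g = φ} = Nat.card (inertia hN φ) := rfl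
      rw [h3]
      exact congrArg (fun S : Subgroup K => Nat.card S) hT
    rw [h2] at h1
    exact mul_left_cancel₀ hne (by rw [h1, mul_one])
  have hϑeq : ϑ = indFun N φ := by
    apply irr_eq_of_classInner_ne_zero hϑ hirr
    rw [← classInner_conj_symm, frobenius_reciprocity _ _ _ (IsCharacter.isClassFunction
      (IsIrrCharacter.isCharacter hϑ)), classInner_conj_symm]
    exact hcon
  have hfib : ∀ g : K, (Finset.univ.filter
      (fun x : K => conjFun hN φ x = conjFun hN φ g)).card = Nat.card N := by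
    intro g
    rw [← Fintype.card_subtype, ← Nat.card_eq_fintype_card]
    apply Nat.card_congr
    refine (Equiv.subtypeEquiv (Equiv.mulRight g⁻¹) ?_)
    intro x
    show _ ↔ x * g⁻¹ ∈ N
    have hmemN : x * g⁻¹ ∈ N ↔ conjFun hN φ (x * g⁻¹) = φ := by
      rw [← mem_inertia, hT]
    rw [hmemN]
    constructor
    · intro h
      rw [← conjFun_mul, h, conjFun_mul, mul_inv_cancel, conjFun_one]
    · intro h
      have h5 : conjFun hN φ x = conjFun hN φ ((x * g⁻¹) * g) := by
        congr 1; group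
      rw [h5, ← conjFun_mul, h]
  refine ⟨Finset.univ.image (fun g : K => conjFun hN φ g), ?_, ?_, ?_⟩
  · intro ψ hψ
    obtain ⟨g, _, rfl⟩ := Finset.mem_image.mp hψ
    exact conjFun_irr hN hφ g
  · have h1 := Finset.card_eq_sum_card_image (fun g : K => conjFun hN φ g) Finset.univ
    have h2 : ∑ b ∈ Finset.univ.image (fun g : K => conjFun hN φ g),
        (Finset.univ.filter (fun x : K => conjFun hN φ x = b)).card
        = ∑ b ∈ Finset.univ.image (fun g : K => conjFun hN φ g), Nat.card N := by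
      apply Finset.sum_congr rfl
      intro b hb
      obtain ⟨g, _, rfl⟩ := Finset.mem_image.mp hb
      exact hfib g
    rw [h2, Finset.sum_const, smul_eq_mul, Finset.card_univ, ← Nat.card_eq_fintype_card] at h1
    have h3 := N.index_mul_card
    have hpos : 0 < Nat.card N := Nat.card_pos
    exact Nat.eq_of_mul_eq_mul_right hpos (by rw [← h1, h3])
  · rw [hϑeq, indFun_normal_restrict hN]
    have h1 := Finset.sum_comp (s := Finset.univ) (fun b : N → ℂ => b)
      (fun g : K => conjFun hN φ g)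
    rw [h1]
    have h2 : ∑ b ∈ Finset.univ.image (fun g : K => conjFun hN φ g),
        (Finset.univ.filter (fun x : K => conjFun hN φ x = b)).card • b
        = ∑ b ∈ Finset.univ.image (fun g : K => conjFun hN φ g), (Nat.card N) • b := by
      apply Finset.sum_congr rfl
      intro b hb
      obtain ⟨g, _, rfl⟩ := Finset.mem_image.mp hb
      rw [hfib g]
    rw [h2, ← Finset.smul_sum, ← Nat.cast_smul_eq_nsmul ℂ, smul_smul, inv_mul_cancel₀ hne,
      one_smul]

end Cfsg.Agent.LeadBr
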