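import Mathlib
import Cfsg.Prelude.Def_Characters
import Cfsg.Agent.Lib_lead_Gd1

set_option autoImplicit false
set_option linter.style.haveILetI false

/-! The "going down" theorem for an abelian chief factor, in abstract form (continued). -/

namespace Cfsg.Agent.LeadBr

open Cfsg Cfsg.Agent.H4 Subgroup
open scoped ComplexConjugate

universe u

variable {K : Type u} [Group K]

theorem gd_case_top [Fintype K] (N : Subgroup K) [hN : N.Normal] [Fintype N]
    (hab : ∀ x y : K, x * y * x⁻¹ * y⁻¹ ∈ N)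
    (ϑ : K → ℂ) (hϑ : IsIrrCharacter K ϑ) (φ : N → ℂ) (hφ : IsIrrCharacter N φ)
    (hcon : classInner (fun n : N => ϑ n) φ ≠ 0) (hinv : ∀ g : K, conjFun hN φ g = φ)
    (hU : ∀ E : Subgroup K, N ≤ E → (∀ k, ϑ k ≠ 0 → k ∈ E) → E = ⊤) :
    IsIrrCharacter N (fun n : N => ϑ n) := by
  classical
  haveI := Fintype.ofFinite (IrrCharacter K)
  haveI := Fintype.ofFinite (IrrCharacter N)
  obtain ⟨e, C, he, hC1, hind, hres, hmem⟩ := ind_of_abelian_quotient N hab φ hφ hinv
  have hcl : ∀ χ : IrrCharacter K, IsClassFunction K (χ : K → ℂ) :=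
    fun χ => IsCharacter.isClassFunction (IsIrrCharacter.isCharacter χ.2)
  have hϑC : (⟨ϑ, hϑ⟩ : IrrCharacter K) ∈ C := by
    rw [hmem]
    show classInner (indFun N φ) ϑ ≠ 0
    rw [frobenius_reciprocity N _ _ (hcl ⟨ϑ, hϑ⟩), ← classInner_conj_symm]
    simpa using hcon
  have hϑres : (fun n : N => ϑ n) = (e : ℂ) • φ := hres _ hϑC
  obtain ⟨e₁, C₁, he₁, hC₁, hind₁, hres₁, hmem₁⟩ :=
    ind_of_abelian_quotient N hab (fun _ => 1) (trivIrr N).2 (fun g => rfl)
  have htriv : trivIrr K ∈ C₁ := by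
    rw [hmem₁, frobenius_reciprocity N _ _ (hcl _)]
    have h1 : (fun h : N => ((trivIrr K : IrrCharacter K) : K → ℂ) h) = fun _ => 1 := rfl
    rw [h1]
    have h2 : classInner (fun _ : N => (1 : ℂ)) (fun _ => 1) = 1 :=
      ((isIrrCharacter_iff _).mp (trivIrr N).2).2
    rw [h2]
    exact one_ne_zero
  have he₁1 : e₁ = 1 := by
    have h1 := congrFun (hres₁ _ htriv) 1
    simp only [Pi.smul_apply, smul_eq_mul, mul_one] at h1
    have h2 : ((trivIrr K : IrrCharacter K) : K → ℂ) ((1 : N) : K) = 1 := rfl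
    rw [h2] at h1
    exact_mod_cast h1.symm
  subst he₁1
  have hlin : ∀ lam ∈ C₁, ∀ n : N, (lam : K → ℂ) n = 1 := by
    intro lam hl n
    have := congrFun (hres₁ lam hl) n
    simpa using this
  have hlin1 : ∀ lam ∈ C₁, (lam : K → ℂ) 1 = 1 := fun lam hl => hlin lam hl 1
  have hmapirr : ∀ lam ∈ C₁, IsIrrCharacter K ((lam : K → ℂ) * ϑ) := fun lam hl =>
    IsIrrCharacter.linear_mul_irr (IsIrrCharacter.isCharacter lam.2) (hlin1 lam hl) hϑ
  have hcard : C₁.card ≤ C.card := by
    apply Finset.card_le_card_of_injOn (fun lam : IrrCharacter K =>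
      if h : lam ∈ C₁ then (⟨(lam : K → ℂ) * ϑ, hmapirr lam h⟩ : IrrCharacter K) else lam)
    · intro lam hl
      have hl' : lam ∈ C₁ := hl
      show (if h : lam ∈ C₁ then (⟨(lam : K → ℂ) * ϑ, hmapirr lam h⟩ : IrrCharacter K) else lam) ∈ C
      rw [dif_pos hl', hmem]
      show classInner (indFun N φ) ((lam : K → ℂ) * ϑ) ≠ 0
      rw [frobenius_reciprocity N _ _ (IsCharacter.isClassFunction
        (IsIrrCharacter.isCharacter (hmapirr lam hl')))]
      have h1 : (fun h : N => ((lam : K → ℂ) * ϑ) h) = (e : ℂ) • φ := by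
        rw [← hϑres]; funext n; simp [hlin lam hl' n]
      rw [h1, classInner_smul_right, ((isIrrCharacter_iff _).mp hφ).2]
      simp only [mul_one, ne_eq, map_eq_zero, Nat.cast_eq_zero]
      exact he.ne'
    · intro a ha b hb hab'
      have ha' : a ∈ C₁ := ha
      have hb' : b ∈ C₁ := hb
      have hab2 : (if h : a ∈ C₁ then (⟨(a : K → ℂ) * ϑ, hmapirr a h⟩ : IrrCharacter K) else a)
          = (if h : b ∈ C₁ then (⟨(b : K → ℂ) * ϑ, hmapirr b h⟩ : IrrCharacter K) else b) := hab'
      rw [dif_pos ha', dif_pos hb'] at hab2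
      have h1 : (a : K → ℂ) * ϑ = (b : K → ℂ) * ϑ := congrArg Subtype.val hab2
      have hma := IsCharacter.linear_mul (IsIrrCharacter.isCharacter a.2) (hlin1 a ha')
      have hmb := IsCharacter.linear_mul (IsIrrCharacter.isCharacter b.2) (hlin1 b hb')
      let E : Subgroup K :=
        { carrier := {k | (a : K → ℂ) k = (b : K → ℂ) k}
          mul_mem' := by
            intro x y hx hy
            show (a : K → ℂ) (x * y) = (b : K → ℂ) (x * y)
            rw [hma, hmb, (show (a : K → ℂ) x = (b : K → ℂ) x from hx),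
              (show (a : K → ℂ) y = (b : K → ℂ) y from hy)]
          one_mem' := by
            show (a : K → ℂ) 1 = (b : K → ℂ) 1
            rw [hlin1 a ha', hlin1 b hb']
          inv_mem' := by
            intro x hx
            show (a : K → ℂ) x⁻¹ = (b : K → ℂ) x⁻¹
            have hx' : (a : K → ℂ) x = (b : K → ℂ) x := hx
            have h2 : (a : K → ℂ) x⁻¹ * (a : K → ℂ) x = 1 := by
              rw [← hma, inv_mul_cancel, hlin1 a ha']
            have h3 : (b : K → ℂ) x⁻¹ * (a : K → ℂ) x = 1 := by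
              rw [hx', ← hmb, inv_mul_cancel, hlin1 b hb']
            exact mul_right_cancel₀ (right_ne_zero_of_mul_eq_one h2) (h2.trans h3.symm) }
      have hE : E = ⊤ := hU E
        (fun n hn => (hlin a ha' ⟨n, hn⟩).trans (hlin b hb' ⟨n, hn⟩).symm)
        (fun k hk => by
          have h4 := congrFun h1 k
          simp only [Pi.mul_apply] at h4
          exact mul_right_cancel₀ hk h4)
      apply Subtype.ext; funext k
      have h5 : k ∈ E := by rw [hE]; trivial
      exact h5
  have he1 : e = 1 := by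
    have h1 : e ^ 2 * C.card ≤ C.card := by
      rw [hC1, ← hC₁]; simpa using hcard
    have hCpos : 0 < C.card := Finset.card_pos.mpr ⟨_, hϑC⟩
    by_contra hne
    have h2 : 2 ≤ e := by omega
    have h3 : 4 ≤ e ^ 2 := by nlinarith
    have h4 : 4 * C.card ≤ e ^ 2 * C.card := Nat.mul_le_mul_right _ h3
    omega
  rw [hϑres, he1]
  simpa using hφ

theorem going_down_abs [Fintype K] (N : Subgroup K) [hN : N.Normal]
    (hab : ∀ x y : K, x * y * x⁻¹ * y⁻¹ ∈ N)
    (A : Set (K ≃* K)) (hAN : ∀ α ∈ A, ∀ n ∈ N, α n ∈ N)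
    (hchief : ∀ M : Subgroup K, N ≤ M → (∀ α ∈ A, ∀ m ∈ M, α m ∈ M) → M = N ∨ M = ⊤)
    (ϑ : K → ℂ) (hϑ : IsIrrCharacter K ϑ) (hinv : ∀ α ∈ A, ∀ k, ϑ (α k) = ϑ k) :
    IsIrrCharacter N (fun n : N => ϑ n) ∨
    (∃ (φ : N → ℂ) (e : ℕ), IsIrrCharacter N φ ∧ (fun n : N => ϑ n) = (e : ℂ) • φ ∧
      e ^ 2 = N.index) ∨
    (∃ F : Finset (N → ℂ), (∀ φ ∈ F, IsIrrCharacter N φ) ∧ F.card = N.index ∧
      (fun n : N => ϑ n) = ∑ φ ∈ F, φ) := by
  classical
  haveI := Fintype.ofFinite N
  have hres : IsCharacter N (fun k : N => ϑ k) :=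
    IsCharacter.restrict N (IsIrrCharacter.isCharacter hϑ)
  obtain ⟨φ, hcon⟩ := IsCharacter.exists_constituent hres
    (IsCharacter.ne_zero_of_apply_one (IsIrrCharacter.apply_one_ne_zero hϑ))
  have hφcl := IsCharacter.isClassFunction (IsIrrCharacter.isCharacter φ.2)
  rcases hchief (inertia hN (φ : N → ℂ)) (le_inertia hN hφcl)
    (fun α hα m hm => inertia_invariant N hab α (hAN α hα) ϑ hϑ (hinv α hα) φ φ.2 hcon m hm)
    with hT | hT
  · right; right; exact gd_case_c N ϑ hϑ φ φ.2 hcon hT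
  · have hφinv : ∀ g, conjFun hN (φ : N → ℂ) g = φ :=
      fun g => (mem_inertia hN _ g).mp (by rw [hT]; trivial)
    have hNU : N ≤ Subgroup.closure ((N : Set K) ∪ {k | ϑ k ≠ 0}) :=
      fun n hn => Subgroup.subset_closure (Or.inl hn)
    have hUinv : ∀ α ∈ A, ∀ m ∈ Subgroup.closure ((N : Set K) ∪ {k | ϑ k ≠ 0}),
        α m ∈ Subgroup.closure ((N : Set K) ∪ {k | ϑ k ≠ 0}) := by
      intro α hα m hm
      induction hm using Subgroup.closure_induction with
      | mem x hx =>
        rcases hx with hx | hx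
        · exact Subgroup.subset_closure (Or.inl (hAN α hα x hx))
        · exact Subgroup.subset_closure (Or.inr (by
            show ϑ (α x) ≠ 0
            rw [hinv α hα]; exact hx))
      | one => rw [map_one]; exact Subgroup.one_mem _
      | mul x y _ _ hx hy => rw [map_mul]; exact Subgroup.mul_mem _ hx hy
      | inv x _ hx => rw [map_inv]; exact Subgroup.inv_mem _ hx
    rcases hchief _ hNU hUinv with hU | hU
    · right; left
      obtain ⟨e, h1, h2⟩ := ((fully_ramified_iff N ϑ hϑ φ φ.2 hcon).1).mpr ⟨fun g hg => by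
          by_contra h0
          apply hg; rw [← hU]; exact Subgroup.subset_closure (Or.inr h0),
          fun g n => congrFun (hφinv g) n⟩
      exact ⟨φ, e, φ.2, h1, h2⟩
    · left
      apply gd_case_top N hab ϑ hϑ φ φ.2 hcon hφinv
      intro E hNE hsupp
      rw [eq_top_iff, ← hU, Subgroup.closure_le]
      rintro x (hx | hx)
      · exact hNE hx
      · exact hsupp x hx

end Cfsg.Agent.LeadBr
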