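import Cfsg.Statements.S0857
import Mathlib
import Cfsg.Agent.Lib_lead_Gd2

set_option autoImplicit false
open Cfsg

namespace Cfsg.Agent.S0857

open Cfsg.Agent.H4 Cfsg.Agent.LeadBr


/-- Let L < K be normal subgroups of the finite group G with no normal subgroup of G strictly between them and with K / L abelian (the commutator subgroup of K lies in L). Let ϑ be an irreducible character of K invariant under conjugation by G. Then the restriction of ϑ to L is irreducible; or it equals e times an irreducible character of L with e ^ 2 equal to the index of L in K; or it is the sum of a family of pairwise distinct irreducible characters of L indexed by a set whose size is the index of L in K. -/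
theorem result {G : Type*} [Group G] [Fintype G] (K L : Subgroup G) [hK : K.Normal] [L.Normal] (hLK : L < K) (hchief : ∀ M : Subgroup G, M.Normal → L ≤ M → M ≤ K → M = L ∨ M = K) (hab : ⁅K, K⁆ ≤ L) (ϑ : K → ℂ) (hϑ : Cfsg.IsIrrCharacter K ϑ) (hinv : ∀ (g : G) (n : K), ϑ ⟨g * n * g⁻¹, hK.conj_mem (n : G) n.2 g⟩ = ϑ n) : Cfsg.IsIrrCharacter L (fun x : L => ϑ ⟨(x : G), hLK.le x.2⟩) ∨ (∃ (φ : L → ℂ) (e : ℕ), Cfsg.IsIrrCharacter L φ ∧ (fun x : L => ϑ ⟨(x : G), hLK.le x.2⟩) = (e : ℂ) • φ ∧ e ^ 2 = L.relIndex K) ∨ (∃ F : Finset (L → ℂ), (∀ φ ∈ F, Cfsg.IsIrrCharacter L φ) ∧ F.card = L.relIndex K ∧ (fun x : L => ϑ ⟨(x : G), hLK.le x.2⟩) = ∑ φ ∈ F, φ) := by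
  classical
  have hLn : ∀ (g : G) (l : G), l ∈ L → g * l * g⁻¹ ∈ L := fun g l hl =>
    (inferInstance : L.Normal).conj_mem l hl g
  have key := going_down_abs (K := ↥K) (L.subgroupOf K)
    (by
      intro x y
      rw [Subgroup.mem_subgroupOf]
      apply hab
      have := Subgroup.commutator_mem_commutator x.2 y.2
      rw [commutatorElement_def] at this
      exact this)
    (Set.range (fun g : G => (MulAut.conjNormal g : ↥K ≃* ↥K)))
    (by
      rintro _ ⟨g, rfl⟩ n hn
      rw [Subgroup.mem_subgroupOf] at hn ⊢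
      show ((MulAut.conjNormal g n : ↥K) : G) ∈ L
      rw [MulAut.conjNormal_apply]
      exact hLn g n hn)
    (by
      intro M hNM hM
      have hMn : (M.map K.subtype).Normal := by
        constructor
        intro m hm g
        obtain ⟨m0, hm0, rfl⟩ := Subgroup.mem_map.mp hm
        refine Subgroup.mem_map.mpr ⟨MulAut.conjNormal g m0, hM _ ⟨g, rfl⟩ m0 hm0, ?_⟩
        show ((MulAut.conjNormal g m0 : ↥K) : G) = _
        rw [MulAut.conjNormal_apply]
        rfl
      have hLM : L ≤ M.map K.subtype := by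
        intro l hl
        exact Subgroup.mem_map.mpr ⟨⟨l, hLK.le hl⟩, hNM (Subgroup.mem_subgroupOf.mpr hl), rfl⟩
      have hMK : M.map K.subtype ≤ K := Subgroup.map_subtype_le M
      have hMeq : M = (M.map K.subtype).subgroupOf K := by
        rw [Subgroup.subgroupOf, Subgroup.comap_map_eq_self_of_injective K.subtype_injective]
      rcases hchief _ hMn hLM hMK with h | h
      · left; rw [hMeq, h]
      · right; rw [hMeq, h, Subgroup.subgroupOf_self])
    ϑ hϑ
    (by
      rintro _ ⟨g, rfl⟩ k
      rw [← hinv g k]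
      congr 1)
  obtain ⟨e, he⟩ : ∃ e : ↥L ≃* ↥(L.subgroupOf K), ∀ x : L, ((e x : ↥K) : G) = x :=
    ⟨(Subgroup.subgroupOfEquivOfLe hLK.le).symm, fun x => rfl⟩
  have htr : ∀ f : ↥(L.subgroupOf K) → ℂ, IsIrrCharacter ↥(L.subgroupOf K) f →
      IsIrrCharacter L (fun x => f (e x)) := fun f hf =>
    IsIrrCharacter.comp_surj e.toMonoidHom e.surjective hf
  have hϑe : (fun x : L => ϑ ⟨(x : G), hLK.le x.2⟩)
      = fun x : L => (fun n : ↥(L.subgroupOf K) => ϑ n) (e x) := by
    funext x
    show _ = ϑ (e x : ↥K)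
    congr 1
    apply Subtype.ext
    exact (he x).symm
  rw [hϑe]
  rcases key with h | ⟨φ, m, hφ, h1, h2⟩ | ⟨F, hF, hFc, hFs⟩
  · left; exact htr _ h
  · right; left
    refine ⟨fun x => φ (e x), m, htr _ hφ, ?_, h2⟩
    rw [h1]; rfl
  · right; right
    have hinj : Function.Injective (fun (f : ↥(L.subgroupOf K) → ℂ) (x : L) => f (e x)) := by
      intro a b hab'
      funext n
      obtain ⟨x, rfl⟩ := e.surjective n
      exact congrFun hab' x
    refine ⟨F.image (fun f x => f (e x)), ?_, ?_, ?_⟩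
    · intro ψ hψ
      obtain ⟨f, hf, rfl⟩ := Finset.mem_image.mp hψ
      exact htr f (hF f hf)
    · rw [Finset.card_image_of_injective _ hinj, hFc]; rfl
    · rw [Finset.sum_image (fun a _ b _ h => hinj h), hFs]
      funext x
      simp [Finset.sum_apply]

end Cfsg.Agent.S0857
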