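import Mathlib
import Cfsg.Prelude.Def_Characters
import Cfsg.Agent.S0857
import Cfsg.Agent.Lib_lead_Br9
import Cfsg.Agent.Lib_lead_Coh2

set_option autoImplicit false
set_option linter.style.haveILetI false

/-! Relative M-groups (Isaacs 6.22). -/

namespace Cfsg.Agent.LeadBr

open Cfsg Cfsg.Agent.H4 Subgroup
open scoped ComplexConjugate

universe u

/-- every chief factor of every subgroup above `N` has non-square order -/
def NSq {G : Type u} [Group G] (N : Subgroup G) : Prop :=
  ∀ (H K L : Subgroup G), N ≤ L → L < K → K ≤ H → (∀ h ∈ H, ∀ k ∈ K, h * k * h⁻¹ ∈ K) →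
    (∀ h ∈ H, ∀ l ∈ L, h * l * h⁻¹ ∈ L) →
    (∀ M : Subgroup G, L ≤ M → M ≤ K → (∀ h ∈ H, ∀ m ∈ M, h * m * h⁻¹ ∈ M) → M = L ∨ M = K) →
    ¬ IsSquare (L.relIndex K)

theorem NSq_subgroupOf {G : Type u} [Group G] (N T : Subgroup G) (hNT : N ≤ T) (h : NSq N) :
    NSq (N.subgroupOf T) := by
  intro H K L hNL hLK hKH hK hL hchief
  have hinj := T.subtype_injective
  rw [← relIndex_map_map_of_injective L K hinj]
  apply h (H.map T.subtype) (K.map T.subtype) (L.map T.subtype)
  · intro n hn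
    exact mem_map.mpr ⟨⟨n, hNT hn⟩, hNL (mem_subgroupOf.mpr hn), rfl⟩
  · exact lt_of_le_of_ne (map_mono hLK.le) (fun e => hLK.ne (map_injective hinj e))
  · exact map_mono hKH
  · intro a ha k hk
    obtain ⟨a0, ha0, rfl⟩ := mem_map.mp ha
    obtain ⟨k0, hk0, rfl⟩ := mem_map.mp hk
    exact mem_map.mpr ⟨a0 * k0 * a0⁻¹, hK a0 ha0 k0 hk0, rfl⟩
  · intro a ha k hk
    obtain ⟨a0, ha0, rfl⟩ := mem_map.mp ha
    obtain ⟨k0, hk0, rfl⟩ := mem_map.mp hk
    exact mem_map.mpr ⟨a0 * k0 * a0⁻¹, hL a0 ha0 k0 hk0, rfl⟩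
  · intro M hLM hMK hM
    have hMT : M ≤ T := hMK.trans (map_subtype_le K)
    have h1 : L ≤ M.subgroupOf T := by
      intro l hl
      exact mem_subgroupOf.mpr (hLM (mem_map.mpr ⟨l, hl, rfl⟩))
    have h2 : M.subgroupOf T ≤ K := by
      intro m hm
      obtain ⟨k0, hk0, hk⟩ := mem_map.mp (hMK (mem_subgroupOf.mp hm))
      have : k0 = m := hinj hk
      rw [← this]; exact hk0
    have h3 : ∀ a ∈ H, ∀ m ∈ M.subgroupOf T, a * m * a⁻¹ ∈ M.subgroupOf T := by
      intro a ha m hm
      exact mem_subgroupOf.mpr (hM a (mem_map.mpr ⟨a, ha, rfl⟩) m (mem_subgroupOf.mp hm))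
    rcases hchief _ h1 h2 h3 with e | e
    · left; rw [← e, map_subgroupOf_eq_of_le hMT]
    · right; rw [← e, map_subgroupOf_eq_of_le hMT]

theorem comm_sup_le {G : Type u} [Group G] (A L : Subgroup G) [L.Normal] :
    ⁅A ⊔ L, A ⊔ L⁆ ≤ ⁅A, A⁆ ⊔ L := by
  have h1 : map (QuotientGroup.mk' L) ⁅A ⊔ L, A ⊔ L⁆ = map (QuotientGroup.mk' L) ⁅A, A⁆ := by
    rw [map_commutator, map_commutator, Subgroup.map_sup, QuotientGroup.map_mk'_self, sup_bot_eq]
  calc ⁅A ⊔ L, A ⊔ L⁆ ≤ comap (QuotientGroup.mk' L) (map (QuotientGroup.mk' L) ⁅A ⊔ L, A ⊔ L⁆) :=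
        le_comap_map _ _
    _ = ⁅A, A⁆ ⊔ L := by rw [h1, comap_map_eq, QuotientGroup.ker_mk']

theorem chief_abelian {G : Type u} [Group G] (N K L : Subgroup G) [K.Normal] [L.Normal]
    (hsol : ∃ k, derivedSeries G k ≤ N) (hNL : N ≤ L) (hLK : L < K)
    (hchief : ∀ M : Subgroup G, M.Normal → L ≤ M → M ≤ K → M = L ∨ M = K) : ⁅K, K⁆ ≤ L := by
  have hKK : ⁅K, K⁆ ≤ K := commutator_le_left K K
  rcases hchief (⁅K, K⁆ ⊔ L) inferInstance le_sup_right (sup_le hKK hLK.le) with h | h
  · rw [← h]; exact le_sup_left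
  · exfalso
    have key : ∀ n, K ≤ derivedSeries G n ⊔ L := by
      intro n
      induction n with
      | zero => rw [derivedSeries_zero, top_sup_eq]; exact le_top
      | succ n ih =>
        rw [derivedSeries_succ]
        calc K = ⁅K, K⁆ ⊔ L := h.symm
          _ ≤ ⁅derivedSeries G n ⊔ L, derivedSeries G n ⊔ L⁆ ⊔ L :=
            sup_le_sup_right (commutator_mono ih ih) L
          _ ≤ (⁅derivedSeries G n, derivedSeries G n⁆ ⊔ L) ⊔ L :=
            sup_le_sup_right (comm_sup_le _ L) L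
          _ = ⁅derivedSeries G n, derivedSeries G n⁆ ⊔ L := by rw [sup_assoc, sup_idem]
    obtain ⟨k, hk⟩ := hsol
    have h2 : K ≤ L := (key k).trans (sup_le (hk.trans hNL) le_rfl)
    exact absurd h2 (not_le_of_gt hLK)

theorem relM : ∀ (n : ℕ) (G : Type u) [Group G] [Fintype G] (N : Subgroup G) [N.Normal],
    Nat.card G = n → (∃ k, derivedSeries G k ≤ N) → NSq N → ∀ χ : G → ℂ, IsIrrCharacter G χ →
    ∃ (H : Subgroup G) (hNH : N ≤ H) (ψ : H → ℂ), IsIrrCharacter H ψ ∧ indFun H ψ = χ ∧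
      IsIrrCharacter N (fun n : N => ψ ⟨(n : G), hNH n.2⟩) := by
  intro n
  induction n using Nat.strong_induction_on with
  | _ n ih =>
  intro G _ _ N _ hcard hsol hsq χ hχ
  classical
  have htop : IsIrrCharacter (⊤ : Subgroup G) (fun h => χ h) :=
    IsIrrCharacter.comp_surj (Subgroup.topEquiv (G := G)).toMonoidHom
      (Subgroup.topEquiv (G := G)).surjective hχ
  by_cases hirr : IsIrrCharacter N (fun n : N => χ n)
  · exact ⟨⊤, le_top, fun h => χ h, htop, indFun_top χ (IsCharacter.isClassFunction (IsIrrCharacter.isCharacter hχ)), hirr⟩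
  · obtain ⟨K, hKmin⟩ := (Set.toFinite {K : Subgroup G | K.Normal ∧ N ≤ K ∧
      IsIrrCharacter K (fun k : K => χ k)}).exists_minimal ⟨⊤, inferInstance, le_top, htop⟩
    obtain ⟨⟨hKn, hNK, hKirr⟩, hKm⟩ := hKmin
    have hNltK : N < K := by
      refine lt_of_le_of_ne hNK ?_
      rintro rfl
      exact hirr hKirr
    obtain ⟨L, hLmax⟩ := (Set.toFinite {L : Subgroup G | L.Normal ∧ N ≤ L ∧ L < K}).exists_maximal
      ⟨N, inferInstance, le_rfl, hNltK⟩
    obtain ⟨⟨hLn, hNL, hLK⟩, hLm⟩ := hLmax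
    have hchief : ∀ M : Subgroup G, M.Normal → L ≤ M → M ≤ K → M = L ∨ M = K := by
      intro M hM hLM hMK
      by_cases hMK' : M = K
      · right; exact hMK'
      · left
        exact le_antisymm (hLm ⟨hM, hNL.trans hLM, lt_of_le_of_ne hMK hMK'⟩ hLM) hLM
    have hab : ⁅K, K⁆ ≤ L := chief_abelian N K L hsol hNL hLK hchief
    have hinv : ∀ (g : G) (k : K), (fun k : K => χ k) ⟨g * k * g⁻¹, hKn.conj_mem (k : G) k.2 g⟩
        = (fun k : K => χ k) k := by
      intro g k
      exact (IsCharacter.isClassFunction (IsIrrCharacter.isCharacter hχ)) k g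
    have hLirr : ¬ IsIrrCharacter L (fun x : L => χ x) := by
      intro h
      have := hKm ⟨hLn, hNL, h⟩ hLK.le
      exact absurd this (not_le_of_gt hLK)
    rcases S0857.result K L hLK hchief hab (fun k : K => χ k) hKirr hinv with h | h | h
    · exact absurd h hLirr
    · exfalso
      obtain ⟨φ, e, -, -, he⟩ := h
      refine hsq ⊤ K L hNL hLK le_top (fun h _ k hk => hKn.conj_mem k hk h)
        (fun h _ k hk => hLn.conj_mem k hk h) ?_ ⟨e, by rw [← he, sq]⟩
      intro M hLM hMK hM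
      exact hchief M ⟨fun m hm g => hM g (mem_top g) m hm⟩ hLM hMK
    · obtain ⟨F, hF, hFc, hsum⟩ := h
      have hsum' : (fun x : L => χ x) = ∑ φ ∈ F, φ := hsum
      have h2 : 1 < F.card := by
        rw [hFc]
        have h0 : L.relIndex K ≠ 0 := (Nat.card_pos (α := K ⧸ L.subgroupOf K)).ne'
        have h1 : L.relIndex K ≠ 1 := fun h => absurd (relIndex_eq_one.mp h) (not_le_of_gt hLK)
        omega
      obtain ⟨φ, hφ, φ', hφ', hne⟩ := Finset.one_lt_card.mp h2
      have hin : ∀ a ∈ F, classInner (fun x : L => χ x) a = 1 := by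
        intro a ha
        rw [hsum', classInner_sum_left]
        rw [Finset.sum_congr rfl (fun b hb => irr_inner_ite (hF b hb) (hF a ha))]
        rw [Finset.sum_ite_eq' F a]
        simp [ha]
      set T : Subgroup G := inertia hLn φ with hT
      have hLT : L ≤ T := le_inertia hLn (IsCharacter.isClassFunction (IsIrrCharacter.isCharacter (hF φ hφ)))
      have hNT : N ≤ T := hNL.trans hLT
      have hTne : T ≠ ⊤ := by
        intro hTt
        have h3 := restrict_of_invariant L hLn χ hχ φ (hF φ hφ) (by rw [hin φ hφ]; exact one_ne_zero)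
          (fun g => (mem_inertia hLn φ g).mp (by rw [← hT, hTt]; exact mem_top g))
        rw [hin φ hφ, one_smul] at h3
        have h4 := hin φ' hφ'
        rw [h3, irr_inner_ite (hF φ hφ) (hF φ' hφ'), if_neg hne] at h4
        exact zero_ne_one h4
      obtain ⟨ψ, hψ, hψind, -⟩ := clifford_corr_surj L hLn φ (hF φ hφ) T (mem_inertia' hLn φ) hLT χ hχ
        (by rw [hin φ hφ]; exact one_ne_zero)
      have hcT : Nat.card T < n := by
        by_contra hc
        exact hTne (T.eq_top_of_le_card (by omega))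
      have hsolT : ∃ k, derivedSeries T k ≤ N.subgroupOf T := by
        obtain ⟨k, hk⟩ := hsol
        refine ⟨k, ?_⟩
        have := (map_derivedSeries_le_derivedSeries T.subtype k).trans hk
        exact map_le_iff_le_comap.mp this
      obtain ⟨H', hNH', ψ', hψ', hind', hres'⟩ := ih (Nat.card T) hcT T (N.subgroupOf T) rfl hsolT
        (NSq_subgroupOf N T hNT hsq) ψ hψ
      have hNH : N ≤ H'.map T.subtype := by
        intro x hx
        exact mem_map.mpr ⟨⟨x, hNT hx⟩, hNH' (mem_subgroupOf.mpr hx), rfl⟩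
      refine ⟨H'.map T.subtype, hNH,
        fun x => ψ' ((H'.equivMapOfInjective T.subtype T.subtype_injective).symm x), ?_, ?_, ?_⟩
      · exact IsIrrCharacter.comp_surj
          (H'.equivMapOfInjective T.subtype T.subtype_injective).symm.toMonoidHom
          (H'.equivMapOfInjective T.subtype T.subtype_injective).symm.surjective hψ'
      · rw [← indFun_indFun, hind', hψind]
      · have h5 := IsIrrCharacter.comp_surj (subgroupOfEquivOfLe hNT).symm.toMonoidHom
          (subgroupOfEquivOfLe hNT).symm.surjective hres'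
        convert h5 using 1
        funext x
        show ψ' _ = ψ' _
        congr 1
        apply (H'.equivMapOfInjective T.subtype T.subtype_injective).injective
        rw [MulEquiv.apply_symm_apply]
        rfl

end Cfsg.Agent.LeadBr
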