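import Mathlib
import Cfsg.Prelude.Def_Characters
import Cfsg.Agent.Lib_helper4_CharH

set_option autoImplicit false
set_option linter.style.haveILetI false

/-! Mackey's formula for a group with two double cosets. -/

namespace Cfsg.Agent.LeadBr

open Cfsg Cfsg.Agent.H4 Subgroup
open scoped ComplexConjugate

universe u

variable {G : Type u} [Group G]

theorem extendByZero_conj_mem (H : Subgroup G) (f : H → ℂ) (hf : IsClassFunction H f) (k : G)
    (hk : k ∈ H) (g : G) : extendByZero H f (k * g * k⁻¹) = extendByZero H f g := by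
  by_cases hg : g ∈ H
  · rw [extendByZero_mem H _ hg, extendByZero_mem H _ (H.mul_mem (H.mul_mem hk hg) (H.inv_mem hk))]
    exact hf ⟨g, hg⟩ ⟨k, hk⟩
  · rw [extendByZero_not_mem H _ hg, extendByZero_not_mem H]
    intro h
    apply hg
    have := H.mul_mem (H.mul_mem (H.inv_mem hk) h) hk
    simpa [mul_assoc] using this

theorem dc_aux1 (a w b c₁ c₂ : G) (h : a * w * b = c₁ * w * c₂) :
    w⁻¹ * (c₁⁻¹ * a) * w = c₂ * b⁻¹ := by
  have : a * w = c₁ * w * c₂ * b⁻¹ := by rw [← h]; group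
  calc w⁻¹ * (c₁⁻¹ * a) * w = w⁻¹ * c₁⁻¹ * (a * w) := by group
    _ = w⁻¹ * c₁⁻¹ * (c₁ * w * c₂ * b⁻¹) := by rw [this]
    _ = _ := by group

theorem dc_aux2 (a w b c₁ c₂ : G) (h : a * w * b = c₁ * w * c₂) :
    (w⁻¹ * (c₁⁻¹ * a) * w)⁻¹ * c₂ = b := by
  rw [dc_aux1 a w b c₁ c₂ h]; group

theorem dc_aux3 (a w b x : G) (h : a * w * b = x) : w = a⁻¹ * x * b⁻¹ := by
  rw [← h]; group

/-- number of elements outside `B` when `G = B ∪ BwB` -/
theorem card_double_coset [Finite G] (B : Subgroup G) (w : G)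
    (hG : ∀ g : G, g ∈ B ∨ ∃ b₁ ∈ B, ∃ b₂ ∈ B, g = b₁ * w * b₂) (hw : w ∉ B)
    (T : Subgroup G) (hT : ∀ t, t ∈ T ↔ t ∈ B ∧ w⁻¹ * t * w ∈ B) :
    Nat.card {x : G // x ∉ B} * Nat.card T = Nat.card B * Nat.card B := by
  classical
  haveI := Fintype.ofFinite G
  let φ : B × B → G := fun p => (p.1 : G) * w * p.2
  have hfib : ∀ x : G, x ∉ B → Nat.card {p : B × B // φ p = x} = Nat.card T := by
    intro x hx
    obtain ⟨c₁, hc₁, c₂, hc₂, rfl⟩ := (hG x).resolve_left hx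
    symm
    apply Nat.card_congr
    refine ⟨fun t => ⟨(⟨c₁ * t, B.mul_mem hc₁ ((hT t).mp t.2).1⟩,
        ⟨(w⁻¹ * t * w)⁻¹ * c₂, B.mul_mem (B.inv_mem ((hT t).mp t.2).2) hc₂⟩), ?_⟩,
      fun p => ⟨c₁⁻¹ * p.1.1, ?_⟩, ?_, ?_⟩
    · show c₁ * (t : G) * w * ((w⁻¹ * t * w)⁻¹ * c₂) = c₁ * w * c₂
      group
    · rw [hT]
      refine ⟨B.mul_mem (B.inv_mem hc₁) p.1.1.2, ?_⟩
      have h1 : (p.1.1 : G) * w * p.1.2 = c₁ * w * c₂ := p.2
      have h2 : w⁻¹ * (c₁⁻¹ * (p.1.1 : G)) * w = c₂ * (p.1.2 : G)⁻¹ := dc_aux1 _ _ _ _ _ h1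
      rw [h2]
      exact B.mul_mem hc₂ (B.inv_mem p.1.2.2)
    · intro t
      apply Subtype.ext
      show c₁⁻¹ * (c₁ * (t : G)) = t
      group
    · intro p
      apply Subtype.ext
      have h1 : (p.1.1 : G) * w * p.1.2 = c₁ * w * c₂ := p.2
      apply Prod.ext
      · apply Subtype.ext
        show c₁ * (c₁⁻¹ * (p.1.1 : G)) = p.1.1
        group
      · apply Subtype.ext
        show (w⁻¹ * (c₁⁻¹ * (p.1.1 : G)) * w)⁻¹ * c₂ = p.1.2
        exact dc_aux2 _ _ _ _ _ h1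
  have hfib0 : ∀ x : G, x ∈ B → Nat.card {p : B × B // φ p = x} = 0 := by
    intro x hx
    haveI : IsEmpty {p : B × B // φ p = x} := ⟨fun p => by
      apply hw
      have h1 : (p.1.1 : G) * w * p.1.2 = x := p.2
      have : w = (p.1.1 : G)⁻¹ * x * (p.1.2 : G)⁻¹ := dc_aux3 _ _ _ _ h1
      rw [this]
      exact B.mul_mem (B.mul_mem (B.inv_mem p.1.1.2) hx) (B.inv_mem p.1.2.2)⟩
    exact Nat.card_of_isEmpty
  have h1 : Nat.card (B × B) = ∑ x : G, Nat.card {p : B × B // φ p = x} := by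
    rw [← Nat.card_sigma]
    exact Nat.card_congr (Equiv.sigmaFiberEquiv φ).symm
  rw [Nat.card_prod] at h1
  rw [h1]
  have h2 : ∀ x : G, Nat.card {p : B × B // φ p = x} = if x ∉ B then Nat.card T else 0 := by
    intro x
    by_cases hx : x ∈ B
    · rw [hfib0 x hx, if_neg (not_not.mpr hx)]
    · rw [hfib x hx, if_pos hx]
  simp only [h2]
  rw [← Finset.sum_filter, Finset.sum_const, smul_eq_mul, Nat.card_eq_fintype_card,
    Fintype.card_subtype]

theorem mackey_two [Fintype G] (B : Subgroup G) [Fintype B] (w : G)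
    (hG : ∀ g : G, g ∈ B ∨ ∃ b₁ ∈ B, ∃ b₂ ∈ B, g = b₁ * w * b₂) (hw : w ∉ B)
    (lam mu : B → ℂ) (hlam : IsClassFunction B lam) (hmu : IsClassFunction B mu)
    (T : Subgroup G) (hT : ∀ t, t ∈ T ↔ t ∈ B ∧ w⁻¹ * t * w ∈ B) [Fintype T] :
    classInner (indFun B lam) (indFun B mu) = classInner lam mu
      + classInner (fun t : T => lam ⟨t, ((hT t).mp t.2).1⟩)
          (fun t : T => mu ⟨w⁻¹ * t * w, ((hT t).mp t.2).2⟩) := by
  classical
  rw [frobenius_reciprocity B lam _ (indFun_isClassFunction B mu)]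
  set f : G → ℂ := fun x => ∑ b : B, lam b * conj (extendByZero B mu (x⁻¹ * b * x)) with hf
  have hinv : ∀ (b₁ b₂ : G), b₁ ∈ B → b₂ ∈ B → ∀ x, f (b₁ * x * b₂) = f x := by
    intro b₁ b₂ h₁ h₂ x
    simp only [hf]
    have e1 : ∀ b : B, extendByZero B mu ((b₁ * x * b₂)⁻¹ * b * (b₁ * x * b₂))
        = extendByZero B mu (x⁻¹ * (((⟨b₁, h₁⟩ : B)⁻¹ * b * ⟨b₁, h₁⟩ : B) : G) * x) := by
      intro b
      have := extendByZero_conj_mem B mu hmu b₂⁻¹ (B.inv_mem h₂) (x⁻¹ * (b₁⁻¹ * b * b₁) * x)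
      show _ = extendByZero B mu (x⁻¹ * (b₁⁻¹ * (b : G) * b₁) * x)
      rw [← this]
      congr 1
      group
    simp only [e1]
    have e2 : ∀ b : B, lam b = lam ((⟨b₁, h₁⟩ : B)⁻¹ * b * ⟨b₁, h₁⟩) := by
      intro b
      have := hlam b (⟨b₁, h₁⟩ : B)⁻¹
      rw [inv_inv] at this
      exact this.symm
    calc ∑ b : B, lam b * conj (extendByZero B mu
            (x⁻¹ * (((⟨b₁, h₁⟩ : B)⁻¹ * b * ⟨b₁, h₁⟩ : B) : G) * x))
        = ∑ b : B, lam ((⟨b₁, h₁⟩ : B)⁻¹ * b * ⟨b₁, h₁⟩) * conj (extendByZero B mu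
            (x⁻¹ * (((⟨b₁, h₁⟩ : B)⁻¹ * b * ⟨b₁, h₁⟩ : B) : G) * x)) := by
          apply Finset.sum_congr rfl
          intro b _
          rw [← e2]
      _ = ∑ b : B, lam b * conj (extendByZero B mu (x⁻¹ * b * x)) := by
          apply Fintype.sum_equiv (MulAut.conj (⟨b₁, h₁⟩ : B)⁻¹).toEquiv
          intro b
          simp [MulAut.conj_apply]
  have hfB : ∀ x ∈ B, f x = f 1 := by
    intro x hx
    have := hinv x 1 hx B.one_mem 1
    simpa using this
  have hfw : ∀ x, x ∉ B → f x = f w := by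
    intro x hx
    obtain ⟨c₁, hc₁, c₂, hc₂, rfl⟩ := (hG x).resolve_left hx
    exact hinv c₁ c₂ hc₁ hc₂ w
  have hf1 : f 1 = (Nat.card B : ℂ) * classInner lam mu := by
    unfold classInner
    have hne : (Nat.card B : ℂ) ≠ 0 := by exact_mod_cast Nat.card_pos.ne'
    rw [← mul_assoc, mul_inv_cancel₀ hne, one_mul]
    simp only [hf]
    apply Finset.sum_congr rfl
    intro b _
    rw [inv_one, one_mul, mul_one, extendByZero_coe]
  have hfw' : f w = (Nat.card T : ℂ) * classInner (fun t : T => lam ⟨t, ((hT t).mp t.2).1⟩)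
      (fun t : T => mu ⟨w⁻¹ * t * w, ((hT t).mp t.2).2⟩) := by
    unfold classInner
    have hne : (Nat.card T : ℂ) ≠ 0 := by exact_mod_cast Nat.card_pos.ne'
    rw [← mul_assoc, mul_inv_cancel₀ hne, one_mul]
    simp only [hf]
    symm
    apply Fintype.sum_of_injective (fun t : T => (⟨t, ((hT t).mp t.2).1⟩ : B))
    · intro a b h
      apply Subtype.ext
      exact congrArg (fun z : B => (z : G)) h
    · intro b hb
      have : w⁻¹ * (b : G) * w ∉ B := by
        intro h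
        apply hb
        exact ⟨⟨b, (hT b).mpr ⟨b.2, h⟩⟩, rfl⟩
      rw [extendByZero_not_mem B mu this, map_zero, mul_zero]
    · intro t
      rw [extendByZero_mem B mu ((hT t).mp t.2).2]
  have hsum : ∑ x : G, f x = (Nat.card B : ℂ) * f 1 + (Nat.card {x : G // x ∉ B} : ℂ) * f w := by
    rw [← Finset.sum_filter_add_sum_filter_not Finset.univ (fun x => x ∈ B)]
    congr 1
    · rw [Finset.sum_congr rfl (fun x hx => hfB x (Finset.mem_filter.mp hx).2), Finset.sum_const,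
        nsmul_eq_mul, Nat.card_eq_fintype_card, Fintype.card_subtype]
    · rw [Finset.sum_congr rfl (fun x hx => hfw x (Finset.mem_filter.mp hx).2), Finset.sum_const,
        nsmul_eq_mul, Nat.card_eq_fintype_card, Fintype.card_subtype]
  have hcard := card_double_coset B w hG hw T hT
  have hcard' : (Nat.card {x : G // x ∉ B} : ℂ) * Nat.card T = Nat.card B * Nat.card B := by
    exact_mod_cast hcard
  have hmain : classInner lam (fun b : B => indFun B mu b)
      = (Nat.card B : ℂ)⁻¹ * ((Nat.card B : ℂ)⁻¹ * ∑ x : G, f x) := by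
    unfold classInner indFun
    congr 1
    simp only [map_mul, map_inv₀, map_natCast, map_sum, hf]
    rw [Finset.sum_comm, Finset.mul_sum]
    apply Finset.sum_congr rfl
    intro b _
    rw [Finset.mul_sum, Finset.mul_sum, Finset.mul_sum]
    apply Finset.sum_congr rfl
    intro x _
    ring
  rw [hmain, hsum, hf1, hfw']
  have hne : (Nat.card B : ℂ) ≠ 0 := by exact_mod_cast Nat.card_pos.ne'
  field_simp
  linear_combination (classInner (fun t : T => lam ⟨t, ((hT t).mp t.2).1⟩)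
      (fun t : T => mu ⟨w⁻¹ * t * w, ((hT t).mp t.2).2⟩)) * hcard'

end Cfsg.Agent.LeadBr
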