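import Mathlib
import Cfsg.Prelude.Def_ParabolicCharacters
import Cfsg.Agent.Lib_lead_Mk1

set_option autoImplicit false
set_option linter.style.haveILetI false

/-! Principal series of `GL₂(q)`. -/

namespace Cfsg.Agent.LeadBr

open Cfsg Cfsg.Agent.H4 Subgroup Matrix
open scoped ComplexConjugate MatrixGroups

theorem classInner_linear {H : Type*} [Group H] [Fintype H] (f g : H → ℂ) (hf : IsCharacter H f)
    (hf1 : f 1 = 1) (hg : IsCharacter H g) (hg1 : g 1 = 1) [Decidable (f = g)] :
    classInner f g = if f = g then 1 else 0 := by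
  classical
  have := irr_orthonormal (⟨f, isIrrCharacter_of_linear hf hf1⟩ : IrrCharacter H)
    ⟨g, isIrrCharacter_of_linear hg hg1⟩
  simp only [Subtype.mk.injEq] at this
  rw [this]

variable {F : Type*} [Field F]

theorem mem_BGL (g : GL (Fin 2) F) :
    g ∈ upperTriangularGL 2 F ↔ (g : Matrix (Fin 2) (Fin 2) F) 1 0 = 0 := by
  show (g : Matrix (Fin 2) (Fin 2) F).BlockTriangular id ↔ _
  constructor
  · intro h
    exact h (by decide)
  · intro h i j hij
    fin_cases i <;> fin_cases j <;> simp_all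

theorem GL_det_ne (g : GL (Fin 2) F) : (g : Matrix (Fin 2) (Fin 2) F).det ≠ 0 := by
  have := (Matrix.GeneralLinearGroup.det g).ne_zero
  simpa using this

theorem BGL_diag_ne (b : upperTriangularGL 2 F) :
    ((b : GL (Fin 2) F) : Matrix (Fin 2) (Fin 2) F) 0 0 ≠ 0 ∧
    ((b : GL (Fin 2) F) : Matrix (Fin 2) (Fin 2) F) 1 1 ≠ 0 := by
  have h1 := GL_det_ne (b : GL (Fin 2) F)
  rw [Matrix.det_fin_two, (mem_BGL _).mp b.2, mul_zero, sub_zero] at h1
  exact ⟨left_ne_zero_of_mul h1, right_ne_zero_of_mul h1⟩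

/-- the linear character `b ↦ α(b₁₁)β(b₂₂)` of the Borel subgroup -/
noncomputable def psFun (α β : MulChar F ℂ) : upperTriangularGL 2 F → ℂ :=
  fun b => α (((b : GL (Fin 2) F) : Matrix (Fin 2) (Fin 2) F) 0 0) *
    β (((b : GL (Fin 2) F) : Matrix (Fin 2) (Fin 2) F) 1 1)

theorem psFun_one (α β : MulChar F ℂ) : psFun α β 1 = 1 := by
  simp [psFun]

theorem psFun_mul (α β : MulChar F ℂ) (a b : upperTriangularGL 2 F) :
    psFun α β (a * b) = psFun α β a * psFun α β b := by
  have ha := (mem_BGL _).mp a.2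
  have hb := (mem_BGL _).mp b.2
  simp only [psFun, Subgroup.coe_mul, Units.val_mul, Matrix.mul_apply, Fin.sum_univ_two, ha, hb,
    mul_zero, zero_mul, add_zero, zero_add, map_mul]
  ring

theorem mulChar_ne_zero (α : MulChar F ℂ) {x : F} (hx : x ≠ 0) : α x ≠ 0 :=
  ((isUnit_iff_ne_zero.mpr hx).map α).ne_zero

theorem psFun_ne_zero (α β : MulChar F ℂ) (b : upperTriangularGL 2 F) : psFun α β b ≠ 0 :=
  mul_ne_zero (mulChar_ne_zero α (BGL_diag_ne b).1) (mulChar_ne_zero β (BGL_diag_ne b).2)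

/-- `psFun` as a homomorphism -/
noncomputable def psHom (α β : MulChar F ℂ) : upperTriangularGL 2 F →* ℂˣ where
  toFun b := Units.mk0 (psFun α β b) (psFun_ne_zero α β b)
  map_one' := by ext; simp [psFun_one]
  map_mul' a b := by ext; simp [psFun_mul]

theorem psFun_isCharacter (α β : MulChar F ℂ) : IsCharacter _ (psFun α β) :=
  isCharacter_of_hom (psHom α β)

/-- the Weyl element -/
def wGL (F : Type*) [Field F] : GL (Fin 2) F :=
  Matrix.GeneralLinearGroup.mkOfDetNeZero !![0, 1; 1, 0] (by simp [Matrix.det_fin_two])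

theorem wGL_inv : (wGL F)⁻¹ = wGL F := by
  apply inv_eq_of_mul_eq_one_left
  ext i j
  fin_cases i <;> fin_cases j <;>
    simp [wGL, Matrix.GeneralLinearGroup.mkOfDetNeZero, Matrix.mul_apply, Fin.sum_univ_two]

theorem wGL_conj (t : GL (Fin 2) F) :
    (((wGL F)⁻¹ * t * wGL F : GL (Fin 2) F) : Matrix (Fin 2) (Fin 2) F)
      = !![(t : Matrix (Fin 2) (Fin 2) F) 1 1, (t : Matrix (Fin 2) (Fin 2) F) 1 0;
           (t : Matrix (Fin 2) (Fin 2) F) 0 1, (t : Matrix (Fin 2) (Fin 2) F) 0 0] := by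
  rw [wGL_inv]
  ext i j
  fin_cases i <;> fin_cases j <;>
    simp [wGL, Matrix.GeneralLinearGroup.mkOfDetNeZero, Matrix.mul_apply, Fin.sum_univ_two,
      Matrix.vecMul, dotProduct]

theorem wGL_not_mem : wGL F ∉ upperTriangularGL 2 F := by
  rw [mem_BGL]
  simp [wGL, Matrix.GeneralLinearGroup.mkOfDetNeZero]

theorem bruhat_GL (g : GL (Fin 2) F) : g ∈ upperTriangularGL 2 F ∨
    ∃ b₁ ∈ upperTriangularGL 2 F, ∃ b₂ ∈ upperTriangularGL 2 F, g = b₁ * wGL F * b₂ := by
  by_cases hg : g ∈ upperTriangularGL 2 F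
  · exact Or.inl hg
  · right
    rw [mem_BGL] at hg
    set a := (g : Matrix (Fin 2) (Fin 2) F) 0 0 with ha
    set b := (g : Matrix (Fin 2) (Fin 2) F) 0 1 with hb
    set c := (g : Matrix (Fin 2) (Fin 2) F) 1 0 with hc
    set d := (g : Matrix (Fin 2) (Fin 2) F) 1 1 with hd
    have hdet : a * d - b * c ≠ 0 := by
      have := GL_det_ne g
      rwa [Matrix.det_fin_two] at this
    refine ⟨Matrix.GeneralLinearGroup.mkOfDetNeZero !![1, a / c; 0, 1]
        (by simp [Matrix.det_fin_two]), ?_,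
      Matrix.GeneralLinearGroup.mkOfDetNeZero !![c, d; 0, b - a * d / c] (by
        simp only [Matrix.det_fin_two_of, mul_zero, sub_zero]
        intro h
        apply hdet
        field_simp at h
        linear_combination -h), ?_, ?_⟩
    · rw [mem_BGL]; simp [Matrix.GeneralLinearGroup.mkOfDetNeZero]
    · rw [mem_BGL]; simp [Matrix.GeneralLinearGroup.mkOfDetNeZero]
    · ext i j
      fin_cases i <;> fin_cases j <;>
        simp [wGL, Matrix.GeneralLinearGroup.mkOfDetNeZero, Matrix.mul_apply, Fin.sum_univ_two,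
          ← ha, ← hb, ← hc, ← hd] <;> field_simp <;> ring

/-- diagonal matrices -/
def dGL (a d : Fˣ) : GL (Fin 2) F :=
  Matrix.GeneralLinearGroup.mkOfDetNeZero !![(a : F), 0; 0, (d : F)] (by simp [Matrix.det_fin_two])

theorem dGL_mem (a d : Fˣ) : dGL a d ∈ upperTriangularGL 2 F := by
  rw [mem_BGL]; simp [dGL, Matrix.GeneralLinearGroup.mkOfDetNeZero]

theorem psFun_dGL (α β : MulChar F ℂ) (a d : Fˣ) :
    psFun α β ⟨dGL a d, dGL_mem a d⟩ = α a * β d := by
  simp [psFun, dGL, Matrix.GeneralLinearGroup.mkOfDetNeZero]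

theorem psFun_eq_iff (α β α' β' : MulChar F ℂ) :
    psFun α β = psFun α' β' ↔ α = α' ∧ β = β' := by
  constructor
  · intro h
    constructor
    · apply MulChar.ext
      intro a
      have := congrFun h ⟨dGL a 1, dGL_mem a 1⟩
      simpa [psFun_dGL] using this
    · apply MulChar.ext
      intro a
      have := congrFun h ⟨dGL 1 a, dGL_mem 1 a⟩
      simpa [psFun_dGL] using this
  · rintro ⟨rfl, rfl⟩; rfl

/-- the diagonal torus `B ∩ wBw⁻¹` -/
def TGL (F : Type*) [Field F] : Subgroup (GL (Fin 2) F) :=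
  upperTriangularGL 2 F ⊓ (upperTriangularGL 2 F).comap (MulAut.conj (wGL F)⁻¹).toMonoidHom

theorem mem_TGL (t : GL (Fin 2) F) : t ∈ TGL F ↔
    t ∈ upperTriangularGL 2 F ∧ (wGL F)⁻¹ * t * wGL F ∈ upperTriangularGL 2 F := by
  simp [TGL, mem_inf, mem_comap, MulAut.conj_apply]

theorem dGL_mem_T (a d : Fˣ) : dGL a d ∈ TGL F := by
  rw [mem_TGL]
  refine ⟨dGL_mem a d, ?_⟩
  rw [mem_BGL, wGL_conj]
  simp [dGL, Matrix.GeneralLinearGroup.mkOfDetNeZero]

theorem psFun_conj (α β : MulChar F ℂ) (t : GL (Fin 2) F)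
    (ht : (wGL F)⁻¹ * t * wGL F ∈ upperTriangularGL 2 F) :
    psFun α β ⟨(wGL F)⁻¹ * t * wGL F, ht⟩ = α ((t : Matrix (Fin 2) (Fin 2) F) 1 1) *
      β ((t : Matrix (Fin 2) (Fin 2) F) 0 0) := by
  simp only [psFun, wGL_conj]
  simp

open Classical in
theorem gl2_inner [Fintype F] [DecidableEq F] (α β α' β' : MulChar F ℂ) :
    classInner (indFun (upperTriangularGL 2 F) (psFun α β))
      (indFun (upperTriangularGL 2 F) (psFun α' β'))
      = (if α = α' ∧ β = β' then 1 else 0) + (if α = β' ∧ β = α' then 1 else 0) := by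
  haveI : Fintype (upperTriangularGL 2 F) := Fintype.ofFinite _
  haveI : Fintype (TGL F) := Fintype.ofFinite _
  rw [mackey_two (upperTriangularGL 2 F) (wGL F) bruhat_GL wGL_not_mem (psFun α β) (psFun α' β')
    (IsCharacter.isClassFunction (psFun_isCharacter α β))
    (IsCharacter.isClassFunction (psFun_isCharacter α' β')) (TGL F) mem_TGL]
  congr 1
  · rw [classInner_linear _ _ (psFun_isCharacter α β) (psFun_one α β) (psFun_isCharacter α' β')
      (psFun_one α' β')]
    simp only [psFun_eq_iff]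
  · let h1 : TGL F →* upperTriangularGL 2 F :=
      { toFun := fun t => ⟨t, ((mem_TGL _).mp t.2).1⟩
        map_one' := rfl
        map_mul' := fun _ _ => rfl }
    let h2 : TGL F →* upperTriangularGL 2 F :=
      { toFun := fun t => ⟨(wGL F)⁻¹ * t * wGL F, ((mem_TGL _).mp t.2).2⟩
        map_one' := by apply Subtype.ext; simp
        map_mul' := fun a b => by apply Subtype.ext; simp [mul_assoc] }
    show classInner (fun x : TGL F => psFun α β (h1 x)) (fun x : TGL F => psFun α' β' (h2 x)) = _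
    rw [classInner_linear _ _ (IsCharacter.comp h1 (psFun_isCharacter α β))
      (by show psFun α β (h1 1) = 1; rw [map_one, psFun_one])
      (IsCharacter.comp h2 (psFun_isCharacter α' β'))
      (by show psFun α' β' (h2 1) = 1; rw [map_one, psFun_one])]
    have key : ((fun x : TGL F => psFun α β (h1 x)) = fun x : TGL F => psFun α' β' (h2 x)) ↔
        (α = β' ∧ β = α') := by
      constructor
      · intro h
        constructor
        · apply MulChar.ext
          intro a
          have := congrFun h ⟨dGL a 1, dGL_mem_T a 1⟩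
          have e1 : psFun α β (h1 ⟨dGL a 1, dGL_mem_T a 1⟩) = α a * β (1 : Fˣ) := psFun_dGL α β a 1
          have e2 : psFun α' β' (h2 ⟨dGL a 1, dGL_mem_T a 1⟩) = α' (1 : Fˣ) * β' a := by
            show psFun α' β' ⟨(wGL F)⁻¹ * dGL a 1 * wGL F, _⟩ = _
            rw [psFun_conj]
            simp [dGL, Matrix.GeneralLinearGroup.mkOfDetNeZero]
          simp only [e1, e2] at this
          simpa using this
        · apply MulChar.ext
          intro a
          have := congrFun h ⟨dGL 1 a, dGL_mem_T 1 a⟩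
          have e1 : psFun α β (h1 ⟨dGL 1 a, dGL_mem_T 1 a⟩) = α (1 : Fˣ) * β a := psFun_dGL α β 1 a
          have e2 : psFun α' β' (h2 ⟨dGL 1 a, dGL_mem_T 1 a⟩) = α' a * β' (1 : Fˣ) := by
            show psFun α' β' ⟨(wGL F)⁻¹ * dGL 1 a * wGL F, _⟩ = _
            rw [psFun_conj]
            simp [dGL, Matrix.GeneralLinearGroup.mkOfDetNeZero]
          simp only [e1, e2] at this
          simpa using this
      · rintro ⟨rfl, rfl⟩
        funext t
        show psFun α β ⟨t, _⟩ = psFun β α ⟨(wGL F)⁻¹ * t * wGL F, _⟩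
        rw [psFun_conj]
        simp only [psFun]
        ring
    simp only [key]

end Cfsg.Agent.LeadBr
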