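import Mathlib
import Cfsg.Prelude.Def_ParabolicCharacters
import Cfsg.Agent.Lib_lead_Mk2

set_option autoImplicit false
set_option linter.style.haveILetI false

/-! Principal series of `SL₂(q)`. -/

namespace Cfsg.Agent.LeadBr

open Cfsg Cfsg.Agent.H4 Subgroup Matrix
open scoped ComplexConjugate MatrixGroups

variable {F : Type*} [Field F]

/-- the Borel subgroup of `SL₂` -/
abbrev BSL (F : Type*) [Field F] : Subgroup (Matrix.SpecialLinearGroup (Fin 2) F) :=
  (upperTriangularGL 2 F).comap Matrix.SpecialLinearGroup.toGL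

theorem mem_BSL (g : Matrix.SpecialLinearGroup (Fin 2) F) :
    g ∈ BSL F ↔ (g : Matrix (Fin 2) (Fin 2) F) 1 0 = 0 := by
  rw [mem_comap, mem_BGL]
  rfl

theorem BSL_diag (b : BSL F) :
    ((b : Matrix.SpecialLinearGroup (Fin 2) F) : Matrix (Fin 2) (Fin 2) F) 0 0 *
    ((b : Matrix.SpecialLinearGroup (Fin 2) F) : Matrix (Fin 2) (Fin 2) F) 1 1 = 1 := by
  have h1 := (b : Matrix.SpecialLinearGroup (Fin 2) F).2
  rw [Matrix.det_fin_two, (mem_BSL _).mp b.2, mul_zero, sub_zero] at h1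
  exact h1

/-- the linear character `b ↦ α(b₁₁)` of the Borel subgroup -/
noncomputable def sFun (α : MulChar F ℂ) : BSL F → ℂ :=
  fun b => α (((b : Matrix.SpecialLinearGroup (Fin 2) F) : Matrix (Fin 2) (Fin 2) F) 0 0)

theorem sFun_one (α : MulChar F ℂ) : sFun α 1 = 1 := by
  simp [sFun]

theorem sFun_mul (α : MulChar F ℂ) (a b : BSL F) : sFun α (a * b) = sFun α a * sFun α b := by
  have hb := (mem_BSL _).mp b.2
  simp only [sFun, Subgroup.coe_mul, Matrix.SpecialLinearGroup.coe_mul, Matrix.mul_apply,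
    Fin.sum_univ_two, hb, mul_zero, add_zero, map_mul]

theorem sFun_ne_zero (α : MulChar F ℂ) (b : BSL F) : sFun α b ≠ 0 :=
  mulChar_ne_zero α (left_ne_zero_of_mul (by rw [BSL_diag b]; exact one_ne_zero))

/-- `sFun` as a homomorphism -/
noncomputable def sHom (α : MulChar F ℂ) : BSL F →* ℂˣ where
  toFun b := Units.mk0 (sFun α b) (sFun_ne_zero α b)
  map_one' := by ext; simp [sFun_one]
  map_mul' a b := by ext; simp [sFun_mul]

theorem sFun_isCharacter (α : MulChar F ℂ) : IsCharacter _ (sFun α) :=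
  isCharacter_of_hom (sHom α)

/-- the Weyl element -/
def wSL (F : Type*) [Field F] : Matrix.SpecialLinearGroup (Fin 2) F :=
  ⟨!![0, 1; -1, 0], by simp [Matrix.det_fin_two]⟩

theorem wSL_conj (t : Matrix.SpecialLinearGroup (Fin 2) F) :
    (((wSL F)⁻¹ * t * wSL F : Matrix.SpecialLinearGroup (Fin 2) F) : Matrix (Fin 2) (Fin 2) F)
      = !![(t : Matrix (Fin 2) (Fin 2) F) 1 1, -(t : Matrix (Fin 2) (Fin 2) F) 1 0;
           -(t : Matrix (Fin 2) (Fin 2) F) 0 1, (t : Matrix (Fin 2) (Fin 2) F) 0 0] := by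
  rw [Matrix.SpecialLinearGroup.coe_mul, Matrix.SpecialLinearGroup.coe_mul,
    Matrix.SpecialLinearGroup.coe_inv]
  ext i j
  fin_cases i <;> fin_cases j <;>
    simp [wSL, Matrix.adjugate_fin_two, Matrix.mul_apply,
      Fin.sum_univ_two, Matrix.vecMul, dotProduct]

theorem wSL_not_mem : wSL F ∉ BSL F := by
  rw [mem_BSL]
  simp [wSL]

theorem bruhat_SL (g : Matrix.SpecialLinearGroup (Fin 2) F) : g ∈ BSL F ∨
    ∃ b₁ ∈ BSL F, ∃ b₂ ∈ BSL F, g = b₁ * wSL F * b₂ := by
  by_cases hg : g ∈ BSL F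
  · exact Or.inl hg
  · right
    rw [mem_BSL] at hg
    set a := (g : Matrix (Fin 2) (Fin 2) F) 0 0 with ha
    set b := (g : Matrix (Fin 2) (Fin 2) F) 0 1 with hb
    set c := (g : Matrix (Fin 2) (Fin 2) F) 1 0 with hc
    set d := (g : Matrix (Fin 2) (Fin 2) F) 1 1 with hd
    have hdet : a * d - b * c = 1 := by
      have := g.2
      rwa [Matrix.det_fin_two] at this
    have hd1 : (!![1, a / c; 0, 1] : Matrix (Fin 2) (Fin 2) F).det = 1 := by
      simp [Matrix.det_fin_two]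
    have hd2 : (!![-c, -d; 0, -1 / c] : Matrix (Fin 2) (Fin 2) F).det = 1 := by
      simp only [Matrix.det_fin_two_of, mul_zero, sub_zero]
      field_simp
    let b₁ : Matrix.SpecialLinearGroup (Fin 2) F := ⟨!![1, a / c; 0, 1], hd1⟩
    let b₂ : Matrix.SpecialLinearGroup (Fin 2) F := ⟨!![-c, -d; 0, -1 / c], hd2⟩
    have e1 : (b₁ : Matrix (Fin 2) (Fin 2) F) = !![1, a / c; 0, 1] := rfl
    have e2 : (b₂ : Matrix (Fin 2) (Fin 2) F) = !![-c, -d; 0, -1 / c] := rfl
    have e3 : (wSL F : Matrix (Fin 2) (Fin 2) F) = !![0, 1; -1, 0] := rfl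
    refine ⟨b₁, (mem_BSL _).mpr (by rw [e1]; simp), b₂, (mem_BSL _).mpr (by rw [e2]; simp), ?_⟩
    apply Matrix.SpecialLinearGroup.ext
    intro i j
    rw [Matrix.SpecialLinearGroup.coe_mul, Matrix.SpecialLinearGroup.coe_mul, e1, e2, e3]
    fin_cases i <;> fin_cases j
    · simp [Matrix.mul_apply, Fin.sum_univ_two, ← ha]
      field_simp
    · simp [Matrix.mul_apply, Fin.sum_univ_two, ← hb]
      field_simp
      linear_combination -hdet
    · simp [Matrix.mul_apply, Fin.sum_univ_two, ← hc]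
    · simp [Matrix.mul_apply, Fin.sum_univ_two, ← hd]

/-- diagonal matrices -/
def dSL (a : Fˣ) : Matrix.SpecialLinearGroup (Fin 2) F :=
  ⟨!![(a : F), 0; 0, ((a⁻¹ : Fˣ) : F)], by simp [Matrix.det_fin_two]⟩

theorem dSL_coe (a : Fˣ) : (dSL a : Matrix (Fin 2) (Fin 2) F) = !![(a : F), 0; 0, ((a⁻¹ : Fˣ) : F)] :=
  rfl

theorem dSL_mem (a : Fˣ) : dSL a ∈ BSL F := (mem_BSL _).mpr (by rw [dSL_coe]; simp)

theorem sFun_dSL (α : MulChar F ℂ) (a : Fˣ) : sFun α ⟨dSL a, dSL_mem a⟩ = α a := by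
  simp [sFun, dSL_coe]

theorem sFun_eq_iff (α β : MulChar F ℂ) : sFun α = sFun β ↔ α = β := by
  constructor
  · intro h
    apply MulChar.ext
    intro a
    have := congrFun h ⟨dSL a, dSL_mem a⟩
    simpa [sFun_dSL] using this
  · rintro rfl; rfl

/-- the diagonal torus `B ∩ wBw⁻¹` -/
def TSL (F : Type*) [Field F] : Subgroup (Matrix.SpecialLinearGroup (Fin 2) F) :=
  BSL F ⊓ (BSL F).comap (MulAut.conj (wSL F)⁻¹).toMonoidHom

theorem mem_TSL (t : Matrix.SpecialLinearGroup (Fin 2) F) : t ∈ TSL F ↔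
    t ∈ BSL F ∧ (wSL F)⁻¹ * t * wSL F ∈ BSL F := by
  unfold TSL
  rw [mem_inf, mem_comap (K := BSL F)]
  simp

theorem dSL_mem_T (a : Fˣ) : dSL a ∈ TSL F := by
  rw [mem_TSL]
  refine ⟨dSL_mem a, ?_⟩
  rw [mem_BSL, wSL_conj, dSL_coe]
  simp

theorem sFun_conj (α : MulChar F ℂ) (t : Matrix.SpecialLinearGroup (Fin 2) F)
    (ht : (wSL F)⁻¹ * t * wSL F ∈ BSL F) :
    sFun α ⟨(wSL F)⁻¹ * t * wSL F, ht⟩ = α ((t : Matrix (Fin 2) (Fin 2) F) 1 1) := by
  simp only [sFun, wSL_conj]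
  simp

theorem sl2_inner [Fintype F] [DecidableEq F] (α β : MulChar F ℂ) [Decidable (α = β)]
    [Decidable (α = β⁻¹)] :
    classInner (indFun (BSL F) (sFun α)) (indFun (BSL F) (sFun β))
      = (if α = β then 1 else 0) + (if α = β⁻¹ then 1 else 0) := by
  classical
  haveI : Fintype (BSL F) := Fintype.ofFinite _
  haveI : Fintype (TSL F) := Fintype.ofFinite _
  rw [mackey_two (BSL F) (wSL F) bruhat_SL wSL_not_mem (sFun α) (sFun β)
    (IsCharacter.isClassFunction (sFun_isCharacter α))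
    (IsCharacter.isClassFunction (sFun_isCharacter β)) (TSL F) mem_TSL]
  congr 1
  · rw [classInner_linear _ _ (sFun_isCharacter α) (sFun_one α) (sFun_isCharacter β) (sFun_one β)]
    simp only [sFun_eq_iff]
  · let h1 : TSL F →* BSL F :=
      { toFun := fun t => ⟨t, ((mem_TSL _).mp t.2).1⟩
        map_one' := rfl
        map_mul' := fun _ _ => rfl }
    let h2 : TSL F →* BSL F :=
      { toFun := fun t => ⟨(wSL F)⁻¹ * t * wSL F, ((mem_TSL _).mp t.2).2⟩
        map_one' := by apply Subtype.ext; simp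
        map_mul' := fun a b => by apply Subtype.ext; simp [mul_assoc] }
    show classInner (fun x : TSL F => sFun α (h1 x)) (fun x : TSL F => sFun β (h2 x)) = _
    rw [classInner_linear _ _ (IsCharacter.comp h1 (sFun_isCharacter α))
      (by show sFun α (h1 1) = 1; rw [map_one, sFun_one])
      (IsCharacter.comp h2 (sFun_isCharacter β))
      (by show sFun β (h2 1) = 1; rw [map_one, sFun_one])]
    have key : ((fun x : TSL F => sFun α (h1 x)) = fun x : TSL F => sFun β (h2 x)) ↔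
        (α = β⁻¹) := by
      constructor
      · intro h
        apply MulChar.ext
        intro a
        have := congrFun h ⟨dSL a, dSL_mem_T a⟩
        have e1 : sFun α (h1 ⟨dSL a, dSL_mem_T a⟩) = α a := sFun_dSL α a
        have e2 : sFun β (h2 ⟨dSL a, dSL_mem_T a⟩) = β ((a⁻¹ : Fˣ) : F) := by
          show sFun β ⟨(wSL F)⁻¹ * dSL a * wSL F, _⟩ = _
          rw [sFun_conj, dSL_coe]
          simp
        simp only [e1, e2] at this
        rw [this, MulChar.inv_apply']
        simp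
      · rintro rfl
        funext t
        show sFun β⁻¹ ⟨t, _⟩ = sFun β ⟨(wSL F)⁻¹ * t * wSL F, _⟩
        rw [sFun_conj]
        simp only [sFun]
        rw [MulChar.inv_apply']
        congr 1
        have := BSL_diag (F := F) (h1 t)
        exact inv_eq_of_mul_eq_one_right this
    simp only [key]

end Cfsg.Agent.LeadBr
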