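import Mathlib
import Cfsg.Prelude.Def_ParabolicCharacters
import Cfsg.Agent.Lib_lead_Mk3
import Cfsg.Agent.Lib_helper6_SLCard
import Cfsg.Agent.Lib_lead_Br16

set_option autoImplicit false
set_option linter.style.haveILetI false

/-! Restriction of induced characters when `G = S B`; the index of the Borel subgroup of `SL₂`. -/

namespace Cfsg.Agent.LeadBr

open Cfsg Cfsg.Agent.H4 Subgroup Matrix
open scoped ComplexConjugate MatrixGroups

theorem indFun_comp_of_cover {S G : Type*} [Group S] [Group G] [Fintype S] [Fintype G]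
    (ι : S →* G) (B : Subgroup G)
    (hcov : ∀ g : G, ∃ s : S, ∃ b ∈ B, g = ι s * b) (ψ : B → ℂ) (hψ : IsClassFunction B ψ) (s : S) :
    indFun B ψ (ι s) = indFun (B.comap ι) (fun d => ψ ⟨ι d, d.2⟩) s := by
  classical
  haveI : Fintype B := Fintype.ofFinite _
  set F : G → ℂ := fun x => extendByZero B ψ (x⁻¹ * ι s * x) with hF
  have hFB : ∀ x : G, ∀ b ∈ B, F (x * b) = F x := by
    intro x b hb
    simp only [hF]
    have := extendByZero_conj_mem B ψ hψ b⁻¹ (B.inv_mem hb) (x⁻¹ * ι s * x)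
    rw [← this]
    congr 1
    group
  have hFι : ∀ y : S, F (ι y)
      = extendByZero (B.comap ι) (fun d => ψ ⟨ι d, d.2⟩) (y⁻¹ * s * y) := by
    intro y
    simp only [hF]
    have e : (ι y)⁻¹ * ι s * ι y = ι (y⁻¹ * s * y) := by simp
    rw [e]
    by_cases h : y⁻¹ * s * y ∈ B.comap ι
    · rw [extendByZero_mem (B.comap ι) _ h, extendByZero_mem B ψ (mem_comap.mp h)]
    · rw [extendByZero_not_mem (B.comap ι) _ h, extendByZero_not_mem B ψ (fun h' => h (mem_comap.mpr h'))]
  let φ : S × B → G := fun p => ι p.1 * p.2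
  have hfib : ∀ x : G, Fintype.card {p : S × B // φ p = x} = Nat.card (B.comap ι) := by
    intro x
    obtain ⟨y₀, b₀, hb₀, rfl⟩ := hcov x
    rw [← Nat.card_eq_fintype_card]
    symm
    apply Nat.card_congr
    refine ⟨fun d => ⟨(y₀ * d, ⟨(ι d)⁻¹ * b₀, B.mul_mem (B.inv_mem d.2) hb₀⟩), ?_⟩,
      fun p => ⟨y₀⁻¹ * p.1.1, ?_⟩, ?_, ?_⟩
    · show ι (y₀ * d) * ((ι d)⁻¹ * b₀) = ι y₀ * b₀
      rw [map_mul]; group
    · rw [mem_comap]
      have h1 : ι p.1.1 * (p.1.2 : G) = ι y₀ * b₀ := p.2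
      have h2 : ι (y₀⁻¹ * p.1.1) = b₀ * (p.1.2 : G)⁻¹ := by
        rw [map_mul, map_inv, eq_mul_inv_iff_mul_eq, mul_assoc, h1]; group
      rw [h2]
      exact B.mul_mem hb₀ (B.inv_mem p.1.2.2)
    · intro d
      apply Subtype.ext
      show y₀⁻¹ * (y₀ * (d : S)) = d
      group
    · intro p
      have h1 : ι p.1.1 * (p.1.2 : G) = ι y₀ * b₀ := p.2
      apply Subtype.ext
      apply Prod.ext
      · show y₀ * (y₀⁻¹ * p.1.1) = p.1.1
        group
      · apply Subtype.ext
        show (ι (y₀⁻¹ * p.1.1))⁻¹ * b₀ = p.1.2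
        rw [map_mul, map_inv, _root_.mul_inv_rev, inv_inv, mul_assoc]
        exact inv_mul_eq_iff_eq_mul.mpr h1.symm
  have hsum : ∑ p : S × B, F (φ p) = (Nat.card (B.comap ι) : ℂ) * ∑ x : G, F x := by
    rw [← Finset.sum_fiberwise Finset.univ φ, Finset.mul_sum]
    apply Finset.sum_congr rfl
    intro x _
    rw [Finset.sum_congr rfl (fun p hp => by rw [(Finset.mem_filter.mp hp).2] :
      ∀ p ∈ Finset.univ.filter (fun p => φ p = x), F (φ p) = F x), Finset.sum_const, nsmul_eq_mul,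
      ← hfib x, Fintype.card_subtype]
  have hsum2 : ∑ p : S × B, F (φ p) = (Nat.card B : ℂ) * ∑ y : S, F (ι y) := by
    rw [Fintype.sum_prod_type, Finset.mul_sum]
    apply Finset.sum_congr rfl
    intro y _
    rw [Finset.sum_congr rfl (fun (b : B) _ => hFB (ι y) b b.2), Finset.sum_const, nsmul_eq_mul,
      Finset.card_univ, Nat.card_eq_fintype_card]
  unfold indFun
  simp only [← hFι]
  show (Nat.card B : ℂ)⁻¹ * ∑ x : G, F x = _
  have hne : (Nat.card B : ℂ) ≠ 0 := by exact_mod_cast Nat.card_pos.ne'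
  have hne' : (Nat.card (B.comap ι) : ℂ) ≠ 0 := by exact_mod_cast Nat.card_pos.ne'
  field_simp
  rw [mul_comm, ← hsum, hsum2]

theorem char_norm_two {G : Type*} [Group G] [Fintype G] {Θ : G → ℂ} (h : IsCharacter G Θ)
    (h2 : classInner Θ Θ = 2) : ∃ a b : IrrCharacter G, a ≠ b ∧ Θ = (a : G → ℂ) + (b : G → ℂ) := by
  classical
  haveI := Fintype.ofFinite (IrrCharacter G)
  obtain ⟨m, rfl⟩ := IsCharacter.exists_mult h
  rw [classInner_sum_sum] at h2
  have h3 : ∑ ψ : IrrCharacter G, (m ψ : ℤ) * (m ψ : ℤ) = 2 := by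
    have : ((∑ ψ : IrrCharacter G, (m ψ : ℤ) * (m ψ : ℤ) : ℤ) : ℂ) = 2 := by
      rw [← h2]
      push_cast
      apply Finset.sum_congr rfl
      intro ψ _
      simp
    exact_mod_cast this
  obtain ⟨i, j, hij, hi, hj, hk⟩ := int_sum_sq_eq_two (fun ψ => (m ψ : ℤ)) h3
  have hi' : m i = 1 := by
    rcases hi with h | h
    · exact_mod_cast h
    · exfalso; have : (0 : ℤ) ≤ m i := Int.natCast_nonneg _; omega
  have hj' : m j = 1 := by
    rcases hj with h | h
    · exact_mod_cast h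
    · exfalso; have : (0 : ℤ) ≤ m j := Int.natCast_nonneg _; omega
  refine ⟨i, j, hij, ?_⟩
  rw [Finset.sum_eq_add i j hij (fun k _ hk' => by
    have : m k = 0 := by exact_mod_cast hk k hk'.1 hk'.2
    rw [this]; simp) (fun h => absurd (Finset.mem_univ _) h) (fun h => absurd (Finset.mem_univ _) h),
    hi', hj']
  simp

variable {F : Type*} [Field F]

theorem card_BSL [Fintype F] : Nat.card (BSL F) = (Fintype.card F - 1) * Fintype.card F := by
  classical
  have e : BSL F ≃ Fˣ × F :=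
    { toFun := fun b => (Units.mk0 _ (left_ne_zero_of_mul
        (by rw [BSL_diag b]; exact one_ne_zero)),
        ((b : Matrix.SpecialLinearGroup (Fin 2) F) : Matrix (Fin 2) (Fin 2) F) 0 1)
      invFun := fun p => ⟨⟨!![(p.1 : F), p.2; 0, ((p.1⁻¹ : Fˣ) : F)], by simp [Matrix.det_fin_two]⟩,
        (mem_BSL _).mpr (by
          show (!![(p.1 : F), p.2; 0, ((p.1⁻¹ : Fˣ) : F)] : Matrix (Fin 2) (Fin 2) F) 1 0 = 0
          simp)⟩
      left_inv := by
        intro b
        apply Subtype.ext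
        apply Matrix.SpecialLinearGroup.ext
        intro i j
        have h10 := (mem_BSL _).mp b.2
        have hd := BSL_diag b
        show (!![_, _; 0, _] : Matrix (Fin 2) (Fin 2) F) i j = _
        fin_cases i <;> fin_cases j
        · simp
        · simp
        · simp [h10]
        · simp only [Fin.mk_one, Fin.isValue, Matrix.of_apply, Matrix.cons_val', Matrix.cons_val_one,
            Matrix.cons_val_fin_one, Units.val_inv_eq_inv_val, Units.val_mk0]
          exact inv_eq_of_mul_eq_one_right hd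
      right_inv := by
        intro p
        apply Prod.ext
        · apply Units.ext
          show (!![(p.1 : F), p.2; 0, ((p.1⁻¹ : Fˣ) : F)] : Matrix (Fin 2) (Fin 2) F) 0 0 = _
          simp
        · show (!![(p.1 : F), p.2; 0, ((p.1⁻¹ : Fˣ) : F)] : Matrix (Fin 2) (Fin 2) F) 0 1 = _
          simp }
  rw [Nat.card_congr e, Nat.card_prod, H6.card_units_field, Nat.card_eq_fintype_card]

theorem index_BSL [Fintype F] : (BSL F).index = Fintype.card F + 1 := by
  have h1 := H6.card_SL_field (F := F) 2 (by norm_num)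
  have h2 := (BSL F).index_mul_card
  rw [card_BSL] at h2
  rw [← h2, Fin.prod_univ_two] at h1
  simp only [Fin.val_zero, Fin.val_one, pow_zero, pow_one] at h1
  have hq : 2 ≤ Fintype.card F := Fintype.one_lt_card
  generalize Fintype.card F = q at *
  generalize (BSL F).index = k at *
  obtain ⟨m, rfl⟩ : ∃ m, q = m + 2 := ⟨q - 2, by omega⟩
  have e1 : m + 2 - 1 = m + 1 := by omega
  have e2 : (m + 2) ^ 2 - 1 = (m + 1) * (m + 3) := by
    have : (m + 2) ^ 2 = (m + 1) * (m + 3) + 1 := by ring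
    omega
  have e3 : (m + 2) ^ 2 - (m + 2) = (m + 2) * (m + 1) := by
    have : (m + 2) ^ 2 = (m + 2) * (m + 1) + (m + 2) := by ring
    omega
  rw [e1, e2, e3] at h1
  have h3 : ((m + 1) * (m + 1) * (m + 2)) * k = ((m + 1) * (m + 1) * (m + 2)) * (m + 2 + 1) := by
    linarith
  exact Nat.eq_of_mul_eq_mul_left (by positivity) h3

end Cfsg.Agent.LeadBr
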