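import Mathlib
import Cfsg.Prelude.Def_ParabolicCharacters
import Cfsg.Agent.Lib_lead_Mk4

set_option autoImplicit false
set_option linter.style.haveILetI false

/-! The two half principal series characters of `SL₂(q)`. -/

namespace Cfsg.Agent.LeadBr

open Cfsg Cfsg.Agent.H4 Subgroup Matrix
open scoped ComplexConjugate MatrixGroups

variable {F : Type*} [Field F]

theorem GL_cover (g : GL (Fin 2) F) : ∃ s : Matrix.SpecialLinearGroup (Fin 2) F,
    ∃ b ∈ upperTriangularGL 2 F, g = Matrix.SpecialLinearGroup.toGL s * b := by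
  set δ : Fˣ := Matrix.GeneralLinearGroup.det g with hδ
  have hδ' : (δ : F) = (g : Matrix (Fin 2) (Fin 2) F).det := rfl
  have hdet : ((g : Matrix (Fin 2) (Fin 2) F) * !![1, 0; 0, ((δ⁻¹ : Fˣ) : F)]).det = 1 := by
    rw [Matrix.det_mul, ← hδ']
    simp [Matrix.det_fin_two]
  refine ⟨⟨_, hdet⟩, dGL 1 δ, dGL_mem 1 δ, ?_⟩
  apply Units.ext
  show (g : Matrix (Fin 2) (Fin 2) F)
    = ((g : Matrix (Fin 2) (Fin 2) F) * !![1, 0; 0, ((δ⁻¹ : Fˣ) : F)]) * !![((1 : Fˣ) : F), 0; 0, (δ : F)]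
  rw [Matrix.mul_assoc]
  have : (!![1, 0; 0, ((δ⁻¹ : Fˣ) : F)] * !![((1 : Fˣ) : F), 0; 0, (δ : F)] : Matrix (Fin 2) (Fin 2) F)
      = 1 := by
    ext i j
    fin_cases i <;> fin_cases j <;> simp [Matrix.mul_apply, Fin.sum_univ_two]
  rw [this, Matrix.mul_one]

theorem range_toGL_eq_ker : (Matrix.SpecialLinearGroup.toGL :
    Matrix.SpecialLinearGroup (Fin 2) F →* GL (Fin 2) F).range
      = (Matrix.GeneralLinearGroup.det : GL (Fin 2) F →* Fˣ).ker := by
  ext x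
  rw [MonoidHom.mem_range, MonoidHom.mem_ker]
  constructor
  · rintro ⟨s, rfl⟩
    apply Units.ext
    exact s.2
  · intro h
    have h1 : (x : Matrix (Fin 2) (Fin 2) F).det = 1 := congrArg Units.val h
    exact ⟨⟨x, h1⟩, Units.ext rfl⟩

theorem psFun_toGL (α : MulChar F ℂ) :
    (fun d : BSL F => psFun α 1 ⟨Matrix.SpecialLinearGroup.toGL (d : Matrix.SpecialLinearGroup (Fin 2) F),
      d.2⟩) = sFun α := by
  funext d
  have h := BSL_diag d
  have h1 : ((d : Matrix.SpecialLinearGroup (Fin 2) F) : Matrix (Fin 2) (Fin 2) F) 1 1 ≠ 0 :=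
    right_ne_zero_of_mul (by rw [h]; exact one_ne_zero)
  show α (((d : Matrix.SpecialLinearGroup (Fin 2) F) : Matrix (Fin 2) (Fin 2) F) 0 0) *
    (1 : MulChar F ℂ) (((d : Matrix.SpecialLinearGroup (Fin 2) F) : Matrix (Fin 2) (Fin 2) F) 1 1) = _
  rw [MulChar.one_apply (isUnit_iff_ne_zero.mpr h1), mul_one]
  rfl

theorem sl2_half [Fintype F] [DecidableEq F] (α : MulChar F ℂ) (hα : α ^ 2 = 1) (hα1 : α ≠ 1) :
    ∃ χ₁ χ₂ : Matrix.SpecialLinearGroup (Fin 2) F → ℂ,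
      IsIrrCharacter (Matrix.SpecialLinearGroup (Fin 2) F) χ₁ ∧
      IsIrrCharacter (Matrix.SpecialLinearGroup (Fin 2) F) χ₂ ∧ χ₁ ≠ χ₂ ∧
      indFun (BSL F) (sFun α) = χ₁ + χ₂ ∧
      χ₁ 1 = (((Fintype.card F + 1) / 2 : ℕ) : ℂ) ∧ χ₂ 1 = (((Fintype.card F + 1) / 2 : ℕ) : ℂ) ∧
      ∃ x : GL (Fin 2) F, ∀ g h : Matrix.SpecialLinearGroup (Fin 2) F,
        Matrix.SpecialLinearGroup.toGL h = x * Matrix.SpecialLinearGroup.toGL g * x⁻¹ →
          χ₂ h = χ₁ g := by
  classical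
  haveI := Fintype.ofFinite (IrrCharacter (GL (Fin 2) F))
  set Θ := indFun (BSL F) (sFun α) with hΘ
  have hΘc : IsCharacter _ Θ := IsCharacter.ind _ (sFun_isCharacter α)
  have hinv : α = α⁻¹ := by rw [eq_inv_iff_mul_eq_one, ← pow_two]; exact hα
  have hnorm : classInner Θ Θ = 2 := by
    rw [hΘ, sl2_inner α α, if_pos rfl, if_pos hinv]; norm_num
  obtain ⟨a, b, hab, hΘab⟩ := char_norm_two hΘc hnorm
  set Pi0 := indFun (upperTriangularGL 2 F) (psFun α 1) with hPi0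
  have hPi0irr : IsIrrCharacter (GL (Fin 2) F) Pi0 := by
    rw [isIrrCharacter_iff]
    refine ⟨IsCharacter.ind _ (psFun_isCharacter α 1), ?_⟩
    have := gl2_inner α 1 α 1
    rw [if_pos ⟨rfl, rfl⟩, if_neg (fun h => hα1 h.1), add_zero] at this
    exact this
  have hPi0Θ : ∀ s : Matrix.SpecialLinearGroup (Fin 2) F,
      Pi0 (Matrix.SpecialLinearGroup.toGL s) = Θ s := by
    intro s
    rw [hPi0, indFun_comp_of_cover Matrix.SpecialLinearGroup.toGL (upperTriangularGL 2 F) GL_cover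
      (psFun α 1) (IsCharacter.isClassFunction (psFun_isCharacter α 1)) s, psFun_toGL]
  set N : Subgroup (GL (Fin 2) F) := (Matrix.SpecialLinearGroup.toGL :
    Matrix.SpecialLinearGroup (Fin 2) F →* GL (Fin 2) F).range with hNdef
  have hN : N.Normal := by rw [hNdef, range_toGL_eq_ker]; infer_instance
  haveI : Fintype N := Fintype.ofFinite _
  let e : Matrix.SpecialLinearGroup (Fin 2) F ≃* N :=
    MonoidHom.ofInjective Matrix.SpecialLinearGroup.toGL_injective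
  have he : ∀ s, ((e s : N) : GL (Fin 2) F) = Matrix.SpecialLinearGroup.toGL s := fun s => rfl
  have hirr' : ∀ χ : IrrCharacter (Matrix.SpecialLinearGroup (Fin 2) F),
      IsIrrCharacter N (fun n => (χ : _ → ℂ) (e.symm n)) :=
    fun χ => IsIrrCharacter.comp_surj e.symm.toMonoidHom e.symm.surjective χ.2
  have hin : ∀ χ : IrrCharacter (Matrix.SpecialLinearGroup (Fin 2) F),
      classInner (fun n : N => Pi0 n) (fun n => (χ : _ → ℂ) (e.symm n)) = classInner Θ (χ : _ → ℂ) := by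
    intro χ
    rw [← classInner_equiv e]
    congr 1
    · funext s; exact hPi0Θ s
    · funext s; simp
  have hΘa : classInner Θ (a : _ → ℂ) = 1 := by
    rw [hΘab, classInner_add_left, irr_orthonormal a a, irr_orthonormal b a, if_pos rfl,
      if_neg (Ne.symm hab), add_zero]
  have hΘb : classInner Θ (b : _ → ℂ) = 1 := by
    rw [hΘab, classInner_add_left, irr_orthonormal a b, irr_orthonormal b b, if_pos rfl,
      if_neg hab, zero_add]
  obtain ⟨g₀, hg₀⟩ := clifford_conj hN hPi0irr (hirr' a) (hirr' b)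
    (by rw [hin a, hΘa]; exact one_ne_zero) (by rw [hin b, hΘb]; exact one_ne_zero)
  have hconj : ∀ g h : Matrix.SpecialLinearGroup (Fin 2) F,
      Matrix.SpecialLinearGroup.toGL h = g₀⁻¹ * Matrix.SpecialLinearGroup.toGL g * g₀⁻¹⁻¹ →
        (b : _ → ℂ) h = (a : _ → ℂ) g := by
    intro g h hgh
    have h1 := congrFun hg₀ (e h)
    simp only [conjFun_apply, MulEquiv.symm_apply_apply] at h1
    rw [h1]
    have h2 : e.symm ⟨g₀ * ((e h : N) : GL (Fin 2) F) * g₀⁻¹, hN.conj_mem _ (e h).2 g₀⟩ = g := by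
      rw [MulEquiv.symm_apply_eq]
      apply Subtype.ext
      show g₀ * Matrix.SpecialLinearGroup.toGL h * g₀⁻¹ = Matrix.SpecialLinearGroup.toGL g
      rw [hgh]; group
    rw [h2]
  have hdeg : (b : Matrix.SpecialLinearGroup (Fin 2) F → ℂ) 1
      = (a : Matrix.SpecialLinearGroup (Fin 2) F → ℂ) 1 := hconj 1 1 (by simp)
  have hsum : (a : Matrix.SpecialLinearGroup (Fin 2) F → ℂ) 1
      + (b : Matrix.SpecialLinearGroup (Fin 2) F → ℂ) 1 = ((Fintype.card F + 1 : ℕ) : ℂ) := by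
    have h1 : Θ 1 = (a : Matrix.SpecialLinearGroup (Fin 2) F → ℂ) 1
        + (b : Matrix.SpecialLinearGroup (Fin 2) F → ℂ) 1 := by rw [hΘab]; rfl
    rw [← h1, hΘ, indFun_apply_one, index_BSL, sFun_one, mul_one]
  obtain ⟨n, _, hn⟩ := IsIrrCharacter.apply_one a.2
  have hn2 : n = (Fintype.card F + 1) / 2 := by
    rw [hdeg, hn] at hsum
    have : n + n = Fintype.card F + 1 := by exact_mod_cast hsum
    omega
  refine ⟨a, b, a.2, b.2, fun h => hab (Subtype.ext h), hΘab, ?_, ?_, g₀⁻¹, hconj⟩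
  · rw [hn, hn2]
  · rw [hdeg, hn, hn2]

end Cfsg.Agent.LeadBr
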