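import Mathlib

set_option autoImplicit false

namespace Cfsg.Agent.LeadPerm

open Equiv

variable {α : Type*}

/-- explicit transitivity of a permutation group -/
def Trans (H : Subgroup (Perm α)) : Prop := ∀ a b : α, ∃ h ∈ H, h a = b

theorem trans_of_pretransitive (G : Subgroup (Perm α)) [MulAction.IsPretransitive G α] : Trans G := by
  intro a b
  obtain ⟨g, hg⟩ := MulAction.exists_smul_eq G a b
  exact ⟨g, g.2, hg⟩

theorem pretransitive_of_trans {G : Subgroup (Perm α)} (h : Trans G) : MulAction.IsPretransitive G α := by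
  constructor
  intro a b
  obtain ⟨g, hg, hgb⟩ := h a b
  exact ⟨⟨g, hg⟩, hgb⟩

theorem trans_map_of_pretransitive (G : Subgroup (Perm α)) (M : Subgroup G)
    [MulAction.IsPretransitive M α] : Trans (M.map G.subtype) := by
  intro a b
  obtain ⟨g, hg⟩ := MulAction.exists_smul_eq M a b
  exact ⟨((g : G) : Perm α), ⟨(g : G), g.2, rfl⟩, hg⟩

theorem semireg_centralizer {H : Subgroup (Perm α)} (ht : Trans H) {c : Perm α}
    (hc : c ∈ Subgroup.centralizer (H : Set (Perm α))) {a : α} (h : c a = a) : c = 1 := by
  ext b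
  obtain ⟨g, hg, rfl⟩ := ht a b
  have := Subgroup.mem_centralizer_iff.mp hc g hg
  have h2 : (g * c) a = (c * g) a := by rw [this]
  simp only [Perm.mul_apply, h] at h2
  simpa using h2.symm

theorem eq_of_apply_eq {H : Subgroup (Perm α)} (ht : Trans H) {c d : Perm α}
    (hc : c ∈ Subgroup.centralizer (H : Set (Perm α)))
    (hd : d ∈ Subgroup.centralizer (H : Set (Perm α))) {a : α} (h : c a = d a) : c = d := by
  have : d⁻¹ * c = 1 := by
    apply semireg_centralizer ht (Subgroup.mul_mem _ (Subgroup.inv_mem _ hd) hc) (a := a)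
    simp [Perm.mul_apply, h]
  calc c = d * (d⁻¹ * c) := by group
    _ = d := by rw [this, mul_one]

theorem centralizer_eq_of_le {H K : Subgroup (Perm α)} (ht : Trans H) (hK : Trans K)
    (hle : K ≤ Subgroup.centralizer (H : Set (Perm α))) :
    Subgroup.centralizer (H : Set (Perm α)) = K := by
  apply le_antisymm _ hle
  intro c hc
  by_cases hne : Nonempty α
  · obtain ⟨a⟩ := hne
    obtain ⟨k, hk, hka⟩ := hK a (c a)
    have : c = k := eq_of_apply_eq ht hc (hle hk) hka.symm
    rw [this]; exact hk
  · have : c = 1 := by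
      ext b; exact (hne ⟨b⟩).elim
    rw [this]; exact K.one_mem

/-- a transitive group centralized by a transitive group is semiregular -/
theorem semireg_of_commute {H K : Subgroup (Perm α)} (hK : Trans K)
    (hle : H ≤ Subgroup.centralizer (K : Set (Perm α))) {h : Perm α} (hh : h ∈ H) {a : α}
    (ha : h a = a) : h = 1 :=
  semireg_centralizer hK (hle hh) ha

end Cfsg.Agent.LeadPerm
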