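import Mathlib
import Cfsg.Prelude.Def_Transfer
import Cfsg.Agent.Lib_lead_XS5

set_option autoImplicit false

/-! Extraspecial groups: splitting off a pair, and gluing isomorphisms. -/

namespace Cfsg.Agent.LeadXS

open scoped commutatorElement IsMulCommutative

/-- extraspecial or cyclic of order `p` -/
structure XS0 (p : ℕ) (E : Type*) [Group E] : Prop where
  pgroup : IsPGroup p E
  card_center : Nat.card (Subgroup.center E) = p
  comm_mem : ∀ a b : E, ⁅a, b⁆ ∈ Subgroup.center E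
  pow : ∀ x : E, x ^ p ∈ Subgroup.center E

variable {E : Type*} [Group E] {p : ℕ}

theorem XS.toXS0 (h : XS p E) : XS0 p E := ⟨h.pgroup, h.card_center, h.comm_mem, h.pow⟩

theorem XS0.toXS [Fact p.Prime] (h : XS0 p E) {x y : E} (hxy : x * y ≠ y * x) : XS p E := by
  refine ⟨h.pgroup, h.card_center, ?_, h.pow⟩
  apply eq_of_le_of_prime_card (p := p) _ h.card_center
  · intro hbot
    apply hxy
    have h1 : ⁅x, y⁆ ∈ commutator E :=
      Subgroup.commutator_mem_commutator (Subgroup.mem_top x) (Subgroup.mem_top y)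
    rw [hbot, Subgroup.mem_bot] at h1
    exact commutatorElement_eq_one_iff_mul_comm.1 h1
  · rw [commutator_def, Subgroup.commutator_le]
    intro a _ b _
    exact h.comm_mem a b

theorem mem_centralizer_pair {x y g : E} :
    g ∈ Subgroup.centralizer ({x, y} : Set E) ↔ x * g = g * x ∧ y * g = g * y := by
  rw [Subgroup.mem_centralizer_iff]
  constructor
  · intro h
    exact ⟨h x (by simp), h y (by simp)⟩
  · rintro ⟨h1, h2⟩ t (rfl | ht)
    · exact h1
    · rw [Set.mem_singleton_iff.1 ht]; exact h2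

section pair

variable [Fact p.Prime] (h : XS0 p E) {x y : E} (hxy : x * y ≠ y * x)
include h hxy

theorem XS0.exists_decomp (e : E) :
    ∃ a b : ℤ, e * (y ^ a * x ^ b)⁻¹ ∈ Subgroup.centralizer ({x, y} : Set E) := by
  obtain ⟨a, b, h1, h2⟩ := exists_zpow h.comm_mem h.card_center hxy
    (commHom h.comm_mem x e) (commHom h.comm_mem y e)
  refine ⟨a, b, ?_⟩
  rw [mem_centralizer_pair]
  constructor
  · apply commutatorElement_eq_one_iff_mul_comm.1
    have : commHom h.comm_mem x (e * (y ^ a * x ^ b)⁻¹) = 1 := by rw [map_mul, map_inv, h1]; simp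
    exact congrArg Subtype.val this
  · apply commutatorElement_eq_one_iff_mul_comm.1
    have : commHom h.comm_mem y (e * (y ^ a * x ^ b)⁻¹) = 1 := by rw [map_mul, map_inv, h2]; simp
    exact congrArg Subtype.val this

theorem XS0.card_pair [Finite E] :
    Nat.card E = Nat.card (Subgroup.centralizer ({x, y} : Set E)) * (p * p) := by
  let f : E →* Subgroup.center E × Subgroup.center E :=
    (commHom h.comm_mem x).prod (commHom h.comm_mem y)
  have hsurj : Function.Surjective f := by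
    rintro ⟨u, v⟩
    obtain ⟨a, b, h1, h2⟩ := exists_zpow h.comm_mem h.card_center hxy u v
    exact ⟨y ^ a * x ^ b, Prod.ext h1 h2⟩
  have hker : f.ker = Subgroup.centralizer ({x, y} : Set E) := by
    ext g
    rw [MonoidHom.mem_ker, mem_centralizer_pair]
    constructor
    · intro hk
      have h1 : ⁅x, g⁆ = 1 := congrArg (fun t => ((Prod.fst t : Subgroup.center E) : E)) hk
      have h2 : ⁅y, g⁆ = 1 := congrArg (fun t => ((Prod.snd t : Subgroup.center E) : E)) hk
      exact ⟨commutatorElement_eq_one_iff_mul_comm.1 h1,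
        commutatorElement_eq_one_iff_mul_comm.1 h2⟩
    · rintro ⟨h1, h2⟩
      exact Prod.ext (Subtype.ext (commutatorElement_eq_one_iff_mul_comm.2 h1))
        (Subtype.ext (commutatorElement_eq_one_iff_mul_comm.2 h2))
  have h1 := Subgroup.card_mul_index f.ker
  rw [Subgroup.index_ker, MonoidHom.range_eq_top.2 hsurj, Subgroup.card_top, Nat.card_prod,
    h.card_center, hker] at h1
  exact h1.symm

theorem XS0.pair_inf_centralizer :
    Subgroup.centralizer ({x, y} : Set E) ⊓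
      Subgroup.centralizer ((Subgroup.centralizer ({x, y} : Set E) : Subgroup E) : Set E) =
      Subgroup.center E := by
  apply le_antisymm
  · rintro g ⟨hg, hgc⟩
    obtain ⟨hgx, hgy⟩ := mem_centralizer_pair.1 hg
    rw [Subgroup.mem_center_iff]
    intro e
    obtain ⟨a, b, hab⟩ := h.exists_decomp hxy e
    set k := y ^ a * x ^ b with hk
    have hgk : g * k = k * g := by
      have c1 : Commute g x := hgx.symm
      have c2 : Commute g y := hgy.symm
      exact ((c2.zpow_right a).mul_right (c1.zpow_right b)).eq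
    have h3 := Subgroup.mem_centralizer_iff.1 hgc _ hab
    calc e * g = (e * k⁻¹) * (k * g) := by group
      _ = ((e * k⁻¹) * g) * k := by rw [← hgk]; group
      _ = g * e := by rw [h3]; group
  · exact le_inf (Subgroup.center_le_centralizer _) (Subgroup.center_le_centralizer _)

theorem XS0.pair : XS0 p (Subgroup.centralizer ({x, y} : Set E)) := by
  refine ⟨h.pgroup.to_subgroup _, ?_, ?_, ?_⟩
  · rw [Cfsg.Agent.H7.card_center_eq, h.pair_inf_centralizer hxy, h.card_center]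
  · intro a b
    rw [Subgroup.mem_center_iff]
    intro g
    apply Subtype.ext
    exact Subgroup.mem_center_iff.1 (h.comm_mem a b) g
  · intro a
    rw [Subgroup.mem_center_iff]
    intro g
    apply Subtype.ext
    exact Subgroup.mem_center_iff.1 (h.pow a) g

end pair

/-- the integral Heisenberg group -/
@[ext] structure HZ where
  a : ℤ
  b : ℤ
  c : ℤ

instance : Group HZ where
  mul u v := ⟨u.a + v.a, u.b + v.b, u.c + v.c - u.b * v.a⟩
  one := ⟨0, 0, 0⟩
  inv u := ⟨-u.a, -u.b, -u.c - u.a * u.b⟩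
  mul_assoc u v w := by
    apply HZ.ext
    · show u.a + v.a + w.a = u.a + (v.a + w.a); ring
    · show u.b + v.b + w.b = u.b + (v.b + w.b); ring
    · show u.c + v.c - u.b * v.a + w.c - (u.b + v.b) * w.a =
        u.c + (v.c + w.c - v.b * w.a) - u.b * (v.a + w.a)
      ring
  one_mul u := by
    apply HZ.ext
    · show 0 + u.a = u.a; ring
    · show 0 + u.b = u.b; ring
    · show 0 + u.c - 0 * u.a = u.c; ring
  mul_one u := by
    apply HZ.ext
    · show u.a + 0 = u.a; ring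
    · show u.b + 0 = u.b; ring
    · show u.c + 0 - u.b * 0 = u.c; ring
  inv_mul_cancel u := by
    apply HZ.ext
    · show -u.a + u.a = 0; ring
    · show -u.b + u.b = 0; ring
    · show -u.c - u.a * u.b + u.c - -u.b * u.a = 0; ring

theorem HZ.mul_a (u v : HZ) : (u * v).a = u.a + v.a := rfl
theorem HZ.mul_b (u v : HZ) : (u * v).b = u.b + v.b := rfl
theorem HZ.mul_c (u v : HZ) : (u * v).c = u.c + v.c - u.b * v.a := rfl

section psi

variable (hc : ∀ a b : E, ⁅a, b⁆ ∈ Subgroup.center E)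
include hc

theorem comm_zpow_right (g x : E) (a : ℤ) : ⁅g, x ^ a⁆ = ⁅g, x⁆ ^ a := by
  have := map_zpow (commHom hc g) x a
  exact congrArg Subtype.val this

theorem comm_zpow_left (g x : E) (a : ℤ) : ⁅x ^ a, g⁆ = ⁅x, g⁆ ^ a := by
  rw [← commutatorElement_inv, comm_zpow_right hc, ← commutatorElement_inv x g, inv_zpow, inv_inv]

/-- the homomorphism from the integral Heisenberg group -/
def psi (x y : E) : HZ →* E :=
  MonoidHom.mk' (fun u => x ^ u.a * y ^ u.b * ⁅x, y⁆ ^ u.c) (by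
    intro u v
    rw [HZ.mul_a, HZ.mul_b, HZ.mul_c]
    have hz : ∀ (k : ℤ) (g : E), g * ⁅x, y⁆ ^ k = ⁅x, y⁆ ^ k * g := fun k g =>
      Subgroup.mem_center_iff.1 (Subgroup.zpow_mem _ (hc x y) k) g
    have h1 : y ^ u.b * x ^ v.a = ⁅x, y⁆ ^ (-(u.b * v.a)) * (x ^ v.a * y ^ u.b) := by
      have h2 : ⁅y ^ u.b, x ^ v.a⁆ = ⁅x, y⁆ ^ (-(u.b * v.a)) := by
        rw [comm_zpow_left hc, comm_zpow_right hc, ← commutatorElement_inv x y, ← zpow_mul,
          inv_zpow, zpow_neg, mul_comm]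
      rw [← h2, commutatorElement_def]; group
    have e0 : x ^ (u.a + v.a) * y ^ (u.b + v.b) * ⁅x, y⁆ ^ (u.c + v.c - u.b * v.a)
        = x ^ u.a * (x ^ v.a * y ^ u.b) * y ^ v.b *
            (⁅x, y⁆ ^ u.c * ⁅x, y⁆ ^ v.c * ⁅x, y⁆ ^ (-(u.b * v.a))) := by
      rw [zpow_add, zpow_add, sub_eq_add_neg, zpow_add, zpow_add]; group
    rw [e0]
    have c1 := hz u.c
    have c3 := hz (-(u.b * v.a))
    generalize ⁅x, y⁆ ^ u.c = w1 at *
    generalize ⁅x, y⁆ ^ v.c = w2 at *
    generalize ⁅x, y⁆ ^ (-(u.b * v.a)) = w3 at *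
    generalize x ^ u.a = X1 at *
    generalize x ^ v.a = X2 at *
    generalize y ^ u.b = Y1 at *
    generalize y ^ v.b = Y2 at *
    symm
    calc X1 * Y1 * w1 * (X2 * Y2 * w2) = X1 * Y1 * (w1 * (X2 * Y2)) * w2 := by group
      _ = X1 * (Y1 * X2) * Y2 * (w1 * w2) := by rw [← c1 (X2 * Y2)]; group
      _ = X1 * ((X2 * Y1) * w3) * Y2 * (w1 * w2) := by rw [h1, c3 (X2 * Y1)]
      _ = X1 * (X2 * Y1) * (w3 * (Y2 * (w1 * w2))) := by group
      _ = X1 * (X2 * Y1) * Y2 * (w1 * w2 * w3) := by rw [← c3 (Y2 * (w1 * w2))]; group)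

theorem psi_apply (x y : E) (u : HZ) : psi hc x y u = x ^ u.a * y ^ u.b * ⁅x, y⁆ ^ u.c := rfl

end psi

section glue

theorem XS0.center_pow (h : XS0 p E) {z : E} (hz : z ∈ Subgroup.center E) : z ^ p = 1 := by
  have := pow_card_eq_one' (G := Subgroup.center E) (x := ⟨z, hz⟩)
  rw [h.card_center] at this
  exact congrArg Subtype.val this

variable [Fact p.Prime]

theorem XS0.orderOf_comm (h : XS0 p E) {x y : E} (hxy : x * y ≠ y * x) : orderOf ⁅x, y⁆ = p :=
  orderOf_eq_prime (h.center_pow (h.comm_mem x y))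
    (fun h1 => hxy (commutatorElement_eq_one_iff_mul_comm.1 h1))

omit [Fact p.Prime] in
theorem XS0.psi_of_dvd (h : XS0 p E) {x y : E} (α β : ℤ) (hx : x ^ p = ⁅x, y⁆ ^ α)
    (hy : y ^ p = ⁅x, y⁆ ^ β) (u : HZ) (a' b' : ℤ) (ha : u.a = p * a') (hb : u.b = p * b') :
    psi h.comm_mem x y u = ⁅x, y⁆ ^ (α * a' + β * b' + u.c) := by
  rw [psi_apply, ha, hb, zpow_mul, zpow_mul, zpow_natCast, zpow_natCast, hx, hy, ← zpow_mul,
    ← zpow_mul, ← zpow_add, ← zpow_add]

theorem XS0.psi_mul_eq_one_iff (h : XS0 p E) {x y : E} (hxy : x * y ≠ y * x) (α β : ℤ)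
    (hx : x ^ p = ⁅x, y⁆ ^ α) (hy : y ^ p = ⁅x, y⁆ ^ β) (u : HZ) (c : E)
    (hcC : c ∈ Subgroup.centralizer ({x, y} : Set E)) :
    psi h.comm_mem x y u * c = 1 ↔ ∃ a' b' : ℤ, u.a = p * a' ∧ u.b = p * b' ∧
      c = ⁅x, y⁆ ^ (-(α * a' + β * b' + u.c)) := by
  have hc := h.comm_mem
  constructor
  · intro h1
    have h2 : psi hc x y u = c⁻¹ := eq_inv_of_mul_eq_one_left h1
    have h3 : psi hc x y u ∈ Subgroup.centralizer ({x, y} : Set E) := by
      rw [h2]; exact Subgroup.inv_mem _ hcC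
    obtain ⟨h4, h5⟩ := mem_centralizer_pair.1 h3
    have hzc : ∀ (k : ℤ) (g : E), ⁅⁅x, y⁆ ^ k, g⁆ = 1 := by
      intro k g
      apply commutatorElement_eq_one_iff_mul_comm.2
      exact (Subgroup.mem_center_iff.1 (Subgroup.zpow_mem _ (hc x y) k) g).symm
    have h6 : ⁅x, y⁆ ^ u.a = 1 := by
      have e1 : ⁅psi hc x y u, y⁆ = ⁅x, y⁆ ^ u.a := by
        rw [psi_apply, comm_mul_left hc, comm_mul_left hc, hzc, comm_zpow_left hc,
          comm_zpow_left hc, commutatorElement_self]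
        simp
      rw [← e1]
      exact commutatorElement_eq_one_iff_mul_comm.2 h5.symm
    have h7 : ⁅x, y⁆ ^ u.b = 1 := by
      have e1 : ⁅psi hc x y u, x⁆ = (⁅x, y⁆ ^ u.b)⁻¹ := by
        rw [psi_apply, comm_mul_left hc, comm_mul_left hc, hzc, comm_zpow_left hc,
          comm_zpow_left hc, commutatorElement_self, ← commutatorElement_inv x y, inv_zpow]
        simp
      have e2 : ⁅psi hc x y u, x⁆ = 1 := commutatorElement_eq_one_iff_mul_comm.2 h4.symm
      rw [e2] at e1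
      exact inv_eq_one.1 e1.symm
    obtain ⟨a', ha⟩ : (p : ℤ) ∣ u.a := by
      rw [← h.orderOf_comm hxy]; exact orderOf_dvd_iff_zpow_eq_one.2 h6
    obtain ⟨b', hb⟩ : (p : ℤ) ∣ u.b := by
      rw [← h.orderOf_comm hxy]; exact orderOf_dvd_iff_zpow_eq_one.2 h7
    refine ⟨a', b', ha, hb, ?_⟩
    rw [zpow_neg, ← h.psi_of_dvd α β hx hy u a' b' ha hb, h2, inv_inv]
  · rintro ⟨a', b', ha, hb, rfl⟩
    rw [h.psi_of_dvd α β hx hy u a' b' ha hb, ← zpow_add]
    simp

theorem exists_equiv_of_ker_eq {X F F' : Type*} [Group X] [Group F] [Group F'] (f : X →* F)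
    (f' : X →* F') (hf : Function.Surjective f) (hf' : Function.Surjective f')
    (hk : f.ker = f'.ker) : ∃ φ : F ≃* F', ∀ w, φ (f w) = f' w := by
  refine ⟨((QuotientGroup.quotientKerEquivOfSurjective f hf).symm.trans
    (QuotientGroup.quotientMulEquivOfEq hk)).trans
    (QuotientGroup.quotientKerEquivOfSurjective f' hf'), ?_⟩
  intro w
  have h1 : (QuotientGroup.quotientKerEquivOfSurjective f hf).symm (f w) = QuotientGroup.mk w := by
    rw [MulEquiv.symm_apply_eq]; rfl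
  simp only [MulEquiv.trans_apply, h1]
  rfl

omit [Fact p.Prime] in
theorem XS0.commute_psi (h : XS0 p E) {x y c : E}
    (hcC : c ∈ Subgroup.centralizer ({x, y} : Set E)) (u : HZ) :
    Commute (psi h.comm_mem x y u) c := by
  obtain ⟨h1, h2⟩ := mem_centralizer_pair.1 hcC
  have c1 : Commute x c := h1
  have c2 : Commute y c := h2
  have c3 : Commute ⁅x, y⁆ c := (Subgroup.mem_center_iff.1 (h.comm_mem x y) c).symm
  rw [psi_apply]
  exact ((c1.zpow_left _).mul_left (c2.zpow_left _)).mul_left (c3.zpow_left _)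

theorem XS0.exists_psi_mul (h : XS0 p E) {x y : E} (hxy : x * y ≠ y * x) (e : E) :
    ∃ u : HZ, ∃ c ∈ Subgroup.centralizer ({x, y} : Set E), psi h.comm_mem x y u * c = e := by
  obtain ⟨a, b, hab⟩ := h.exists_decomp hxy e
  refine ⟨⟨0, a, 0⟩ * ⟨b, 0, 0⟩, _, hab, ?_⟩
  rw [(h.commute_psi hab _).eq, map_mul, psi_apply, psi_apply]
  simp only [zpow_zero, one_mul, mul_one]
  group

theorem glue {E' Y : Type*} [Group E'] [Group Y] (h : XS0 p E) (h' : XS0 p E') {x y : E}
    {x' y' : E'} (hxy : x * y ≠ y * x) (hxy' : x' * y' ≠ y' * x') (α β : ℤ)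
    (hx : x ^ p = ⁅x, y⁆ ^ α) (hy : y ^ p = ⁅x, y⁆ ^ β) (hx' : x' ^ p = ⁅x', y'⁆ ^ α)
    (hy' : y' ^ p = ⁅x', y'⁆ ^ β) (j : Y →* E) (j' : Y →* E')
    (hj : j.range = Subgroup.centralizer ({x, y} : Set E))
    (hj' : j'.range = Subgroup.centralizer ({x', y'} : Set E'))
    (hjj : ∀ (t : Y) (m : ℤ), j t = ⁅x, y⁆ ^ m ↔ j' t = ⁅x', y'⁆ ^ m) :
    ∃ φ : E ≃* E', φ ⁅x, y⁆ = ⁅x', y'⁆ ∧ ∀ t, φ (j t) = j' t := by
  have hjm : ∀ t, j t ∈ Subgroup.centralizer ({x, y} : Set E) := fun t => hj ▸ ⟨t, rfl⟩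
  have hjm' : ∀ t, j' t ∈ Subgroup.centralizer ({x', y'} : Set E') := fun t => hj' ▸ ⟨t, rfl⟩
  let f : HZ × Y →* E := (psi h.comm_mem x y).noncommCoprod j (fun u t => h.commute_psi (hjm t) u)
  let f' : HZ × Y →* E' :=
    (psi h'.comm_mem x' y').noncommCoprod j' (fun u t => h'.commute_psi (hjm' t) u)
  have hf : Function.Surjective f := by
    intro e
    obtain ⟨u, c, hcC, he⟩ := h.exists_psi_mul hxy e
    rw [← hj] at hcC
    obtain ⟨t, rfl⟩ := hcC
    exact ⟨(u, t), he⟩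
  have hf' : Function.Surjective f' := by
    intro e
    obtain ⟨u, c, hcC, he⟩ := h'.exists_psi_mul hxy' e
    rw [← hj'] at hcC
    obtain ⟨t, rfl⟩ := hcC
    exact ⟨(u, t), he⟩
  have hk : f.ker = f'.ker := by
    ext ⟨u, t⟩
    rw [MonoidHom.mem_ker, MonoidHom.mem_ker]
    show psi h.comm_mem x y u * j t = 1 ↔ psi h'.comm_mem x' y' u * j' t = 1
    rw [h.psi_mul_eq_one_iff hxy α β hx hy u _ (hjm t),
      h'.psi_mul_eq_one_iff hxy' α β hx' hy' u _ (hjm' t)]
    simp only [hjj]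
  obtain ⟨φ, hφ⟩ := exists_equiv_of_ker_eq f f' hf hf' hk
  refine ⟨φ, ?_, ?_⟩
  · have h1 := hφ (⟨0, 0, 1⟩, 1)
    have e1 : f (⟨0, 0, 1⟩, 1) = ⁅x, y⁆ := by
      show psi h.comm_mem x y ⟨0, 0, 1⟩ * j 1 = _
      rw [psi_apply]; simp
    have e2 : f' (⟨0, 0, 1⟩, 1) = ⁅x', y'⁆ := by
      show psi h'.comm_mem x' y' ⟨0, 0, 1⟩ * j' 1 = _
      rw [psi_apply]; simp
    rw [e1, e2] at h1
    exact h1
  · intro t
    have h1 := hφ (1, t)
    have e1 : f (1, t) = j t := by
      show psi h.comm_mem x y 1 * j t = _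
      rw [map_one, one_mul]
    have e2 : f' (1, t) = j' t := by
      show psi h'.comm_mem x' y' 1 * j' t = _
      rw [map_one, one_mul]
    rw [e1, e2] at h1
    exact h1

end glue

end Cfsg.Agent.LeadXS
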