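import Mathlib
import Cfsg.Prelude.Def_Transfer
import Cfsg.Agent.Lib_lead_XS6

set_option autoImplicit false

/-! Extraspecial groups: isomorphism theorems. -/

namespace Cfsg.Agent.LeadXS

open scoped commutatorElement IsMulCommutative

universe u v

variable {p : ℕ} [Fact p.Prime]

omit [Fact p.Prime] in
theorem comm_mem_centralizer_pair {E : Type*} [Group E] (h : XS0 p E) (x y : E) :
    ⁅x, y⁆ ∈ Subgroup.centralizer ({x, y} : Set E) :=
  Subgroup.center_le_centralizer _ (h.comm_mem x y)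

theorem glue' {E : Type*} {E' : Type*} [Group E] [Group E'] (h : XS0 p E) (h' : XS0 p E') {x y : E}
    {x' y' : E'} (hxy : x * y ≠ y * x) (hxy' : x' * y' ≠ y' * x') (α β : ℤ)
    (hx : x ^ p = ⁅x, y⁆ ^ α) (hy : y ^ p = ⁅x, y⁆ ^ β) (hx' : x' ^ p = ⁅x', y'⁆ ^ α)
    (hy' : y' ^ p = ⁅x', y'⁆ ^ β)
    (φ₂ : Subgroup.centralizer ({x, y} : Set E) ≃* Subgroup.centralizer ({x', y'} : Set E'))
    (hφ₂ : ((φ₂ ⟨⁅x, y⁆, comm_mem_centralizer_pair h x y⟩ :
      Subgroup.centralizer ({x', y'} : Set E')) : E') = ⁅x', y'⁆) :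
    ∃ φ : E ≃* E', φ ⁅x, y⁆ = ⁅x', y'⁆ := by
  obtain ⟨φ, hφ, -⟩ := glue h h' hxy hxy' α β hx hy hx' hy'
    (Subgroup.centralizer ({x, y} : Set E)).subtype
    ((Subgroup.centralizer ({x', y'} : Set E')).subtype.comp φ₂.toMonoidHom)
    (Subgroup.range_subtype _)
    (by
      rw [MonoidHom.range_comp, MonoidHom.range_eq_top.2 φ₂.surjective, ← MonoidHom.range_eq_map,
        Subgroup.range_subtype])
    (by
      intro t m
      have e1 : ((φ₂ (⟨⁅x, y⁆, comm_mem_centralizer_pair h x y⟩ ^ m) :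
          Subgroup.centralizer ({x', y'} : Set E')) : E') = ⁅x', y'⁆ ^ m := by
        rw [map_zpow, Subgroup.coe_zpow, hφ₂]
      constructor
      · intro ht
        have : t = ⟨⁅x, y⁆, comm_mem_centralizer_pair h x y⟩ ^ m := Subtype.ext ht
        rw [this]
        exact e1
      · intro ht
        have h2 : φ₂ t = φ₂ (⟨⁅x, y⁆, comm_mem_centralizer_pair h x y⟩ ^ m) :=
          Subtype.ext (ht.trans e1.symm)
        have h3 := φ₂.injective h2
        rw [h3]
        rfl)
  exact ⟨φ, hφ⟩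

theorem XS0.exists_noncomm {E : Type*} [Group E] [Finite E] (h : XS0 p E) (hcard : p < Nat.card E)
    {z : E} (hz : z ∈ Subgroup.center E) : ∃ x y : E, ⁅x, y⁆ = z ∧ ∃ y₀, x * y₀ ≠ y₀ * x := by
  have h1 : ∃ x : E, x ∉ Subgroup.center E := by
    by_contra hcon
    push Not at hcon
    have : Subgroup.center E = ⊤ := by rw [eq_top_iff]; exact fun x _ => hcon x
    have h2 := h.card_center
    rw [this, Subgroup.card_top] at h2
    omega
  obtain ⟨x, hx⟩ := h1
  have h2 : ∃ y₀, x * y₀ ≠ y₀ * x := by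
    by_contra hcon
    push Not at hcon
    exact hx (Subgroup.mem_center_iff.2 fun g => (hcon g).symm)
  obtain ⟨y₀, hy₀⟩ := h2
  obtain ⟨a, b, h3, -⟩ := exists_zpow h.comm_mem h.card_center hy₀ ⟨z, hz⟩ 1
  exact ⟨x, y₀ ^ a * x ^ b, congrArg Subtype.val h3, y₀, hy₀⟩

theorem XS0.exists_center_ne_one {E : Type*} [Group E] (h : XS0 p E) :
    ∃ z ∈ Subgroup.center E, z ≠ 1 := by
  have h1 : Nontrivial (Subgroup.center E) := by
    have : Finite (Subgroup.center E) :=
      Nat.finite_of_card_ne_zero (by rw [h.card_center]; exact (Fact.out : p.Prime).ne_zero)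
    rw [← Finite.one_lt_card_iff_nontrivial, h.card_center]
    exact (Fact.out : p.Prime).one_lt
  obtain ⟨z, hz⟩ := exists_ne (1 : Subgroup.center E)
  exact ⟨z, z.2, fun hh => hz (Subtype.ext hh)⟩

/-- extraspecial groups of exponent `p` and the same order are isomorphic -/
theorem iso_exponent_p : ∀ (n : ℕ) (E : Type u) (E' : Type v) [Group E] [Group E'] [Finite E]
    [Finite E'], XS0 p E → XS0 p E' → (∀ x : E, x ^ p = 1) → (∀ x : E', x ^ p = 1) →
    Nat.card E = p ^ (2 * n + 1) → Nat.card E' = p ^ (2 * n + 1) →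
    ∀ z ∈ Subgroup.center E, z ≠ 1 → ∀ z' ∈ Subgroup.center E', z' ≠ 1 →
    ∃ φ : E ≃* E', φ z = z' := by
  have hp : p.Prime := Fact.out
  intro n
  induction n with
  | zero =>
    intro E E' _ _ _ _ h h' he he' hc hc' z hz hz1 z' hz' hz1'
    simp only [mul_zero, zero_add, pow_one] at hc hc'
    exact ⟨mulEquivOfOrderOfEq (fun x => mem_zpowers_of_prime_card hc hz1)
      (fun x => mem_zpowers_of_prime_card hc' hz1')
      ((orderOf_eq_prime (he z) hz1).trans (orderOf_eq_prime (he' z') hz1').symm),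
      mulEquivOfOrderOfEq_apply_gen _ _ _⟩
  | succ n ih =>
    intro E E' _ _ _ _ h h' he he' hc hc' z hz hz1 z' hz' hz1'
    have hlt : p < p ^ (2 * (n + 1) + 1) := by
      calc p = p ^ 1 := (pow_one p).symm
        _ < p ^ (2 * (n + 1) + 1) := Nat.pow_lt_pow_right hp.one_lt (by omega)
    obtain ⟨x, y, hxyz, -⟩ := h.exists_noncomm (hc ▸ hlt) hz
    obtain ⟨x', y', hxyz', -⟩ := h'.exists_noncomm (hc' ▸ hlt) hz'
    have hxy : x * y ≠ y * x := fun hh =>
      hz1 (hxyz ▸ commutatorElement_eq_one_iff_mul_comm.2 hh)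
    have hxy' : x' * y' ≠ y' * x' := fun hh =>
      hz1' (hxyz' ▸ commutatorElement_eq_one_iff_mul_comm.2 hh)
    have hcC : Nat.card (Subgroup.centralizer ({x, y} : Set E)) = p ^ (2 * n + 1) := by
      have h1 := h.card_pair hxy
      rw [hc] at h1
      apply Nat.eq_of_mul_eq_mul_right (Nat.mul_pos hp.pos hp.pos)
      rw [← h1]; ring
    have hcC' : Nat.card (Subgroup.centralizer ({x', y'} : Set E')) = p ^ (2 * n + 1) := by
      have h1 := h'.card_pair hxy'
      rw [hc'] at h1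
      apply Nat.eq_of_mul_eq_mul_right (Nat.mul_pos hp.pos hp.pos)
      rw [← h1]; ring
    obtain ⟨φ₂, hφ₂⟩ := ih (Subgroup.centralizer ({x, y} : Set E))
      (Subgroup.centralizer ({x', y'} : Set E')) (h.pair hxy) (h'.pair hxy')
      (fun t => Subtype.ext (he t)) (fun t => Subtype.ext (he' t)) hcC hcC'
      ⟨⁅x, y⁆, comm_mem_centralizer_pair h x y⟩
      (by
        rw [Subgroup.mem_center_iff]
        intro g
        exact Subtype.ext (Subgroup.mem_center_iff.1 (h.comm_mem x y) g))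
      (fun hh => hz1 (hxyz ▸ congrArg Subtype.val hh))
      ⟨⁅x', y'⁆, comm_mem_centralizer_pair h' x' y'⟩
      (by
        rw [Subgroup.mem_center_iff]
        intro g
        exact Subtype.ext (Subgroup.mem_center_iff.1 (h'.comm_mem x' y') g))
      (fun hh => hz1' (hxyz' ▸ congrArg Subtype.val hh))
    obtain ⟨φ, hφ⟩ := glue' h h' hxy hxy' 0 0 (by simp [he]) (by simp [he]) (by simp [he'])
      (by simp [he']) φ₂ (by rw [hφ₂])
    exact ⟨φ, by rw [← hxyz, ← hxyz']; exact hφ⟩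

end Cfsg.Agent.LeadXS
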