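import Mathlib
import Cfsg.Prelude.Def_Transfer
import Cfsg.Agent.Lib_lead_XS7

set_option autoImplicit false

/-! Extraspecial 2-groups: the two types. -/

namespace Cfsg.Agent.LeadXS

open scoped commutatorElement IsMulCommutative

universe u v

/-- extension of an elementary abelian subgroup by a commuting involution -/
theorem ext_elemAb {G : Type*} [Group G] (B : Subgroup G) (hB : Cfsg.IsElementaryAbelian 2 B)
    (x : G) (hx2 : x ^ 2 = 1) (hxB : x ∉ B) (hcomm : ∀ b ∈ B, x * b = b * x) :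
    ∃ A : Subgroup G, Cfsg.IsElementaryAbelian 2 A ∧ Nat.card A = 2 * Nat.card B ∧ B ≤ A ∧
      x ∈ A := by
  have : Fact (Nat.Prime 2) := ⟨Nat.prime_two⟩
  obtain ⟨hBc, hBsq⟩ := hB
  have hx1 : x ≠ 1 := fun h => hxB (h ▸ B.one_mem)
  let f : B × Subgroup.zpowers x →* G :=
    B.subtype.noncommCoprod (Subgroup.zpowers x).subtype (by
      intro b t
      obtain ⟨k, hk⟩ := Subgroup.mem_zpowers_iff.1 t.2
      show Commute (b : G) (t : G)
      rw [← hk]
      exact (Commute.zpow_right (hcomm b b.2).symm k))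
  have hzp : ∀ t ∈ Subgroup.zpowers x, t = 1 ∨ t = x := by
    intro t ht
    obtain ⟨k, rfl⟩ := Subgroup.mem_zpowers_iff.1 ht
    have hx2' : x ^ (2 : ℤ) = 1 := by exact_mod_cast hx2
    rcases Int.even_or_odd' k with ⟨m, rfl | rfl⟩
    · left; rw [zpow_mul, hx2', one_zpow]
    · right; rw [zpow_add, zpow_mul, hx2', one_zpow, one_mul, zpow_one]
  have hinj : Function.Injective f := by
    rw [injective_iff_map_eq_one]
    rintro ⟨b, t⟩ h
    have h1 : (b : G) * (t : G) = 1 := h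
    rcases hzp t t.2 with ht | ht
    · rw [ht, mul_one] at h1
      exact Prod.ext (Subtype.ext h1) (Subtype.ext ht)
    · exfalso
      rw [ht] at h1
      apply hxB
      have : x = (b : G)⁻¹ := eq_inv_of_mul_eq_one_right h1
      rw [this]; exact B.inv_mem b.2
  have hcm : ∀ u v : B × Subgroup.zpowers x, u * v = v * u := by
    rintro ⟨b, t⟩ ⟨b', t'⟩
    refine Prod.ext (mul_comm' b b') ?_
    apply Subtype.ext
    show (t : G) * t' = t' * t
    rcases hzp t t.2 with ht | ht <;> rcases hzp t' t'.2 with ht' | ht' <;> rw [ht, ht'] <;> simp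
  refine ⟨f.range, ⟨⟨⟨?_⟩⟩, ?_⟩, ?_, ?_, ?_⟩
  · rintro ⟨_, u, rfl⟩ ⟨_, v, rfl⟩
    apply Subtype.ext
    show f u * f v = f v * f u
    rw [← map_mul, ← map_mul, hcm]
  · rintro _ ⟨⟨b, t⟩, rfl⟩
    rw [← map_pow]
    have : ((b, t) : B × Subgroup.zpowers x) ^ 2 = 1 := by
      refine Prod.ext (Subtype.ext (hBsq b b.2)) (Subtype.ext ?_)
      show (t : G) ^ 2 = 1
      rcases hzp t t.2 with ht | ht <;> rw [ht]
      · simp
      · exact hx2
    rw [this, map_one]
  · rw [← Nat.card_congr (MonoidHom.ofInjective hinj).toEquiv, Nat.card_prod, Nat.card_zpowers,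
      orderOf_eq_prime hx2 hx1, mul_comm]
  · intro b hb
    exact ⟨(⟨b, hb⟩, 1), by show b * 1 = b; simp⟩
  · exact ⟨(1, ⟨x, Subgroup.mem_zpowers x⟩), by show 1 * x = x; simp⟩

/-- plus type -/
def HP (n : ℕ) (E : Type*) [Group E] : Prop :=
  ∃ A : Subgroup E, Cfsg.IsElementaryAbelian 2 A ∧ Nat.card A = 2 ^ (n + 1)

variable {E : Type*} [Group E]

theorem XS0.center_eq (h : XS0 2 E) {a b : E} (ha : a ∈ Subgroup.center E)
    (hb : b ∈ Subgroup.center E) (ha1 : a ≠ 1) (hb1 : b ≠ 1) : a = b := by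
  obtain ⟨u, _, hu⟩ := (Nat.card_eq_two_iff' (1 : Subgroup.center E)).1 h.card_center
  have a1 := hu ⟨a, ha⟩ (fun hh => ha1 (congrArg Subtype.val hh))
  have a2 := hu ⟨b, hb⟩ (fun hh => hb1 (congrArg Subtype.val hh))
  exact congrArg Subtype.val (a1.trans a2.symm)

theorem XS0.exists_invol_pair (h : XS0 2 E) {x : E} (hx2 : x ^ 2 = 1)
    (hx : x ∉ Subgroup.center E) : ∃ y, y ^ 2 = 1 ∧ x * y ≠ y * x := by
  have h2 : ∃ y₀, x * y₀ ≠ y₀ * x := by
    by_contra hcon
    push Not at hcon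
    exact hx (Subgroup.mem_center_iff.2 fun g => (hcon g).symm)
  obtain ⟨y₀, hy₀⟩ := h2
  by_cases hy2 : y₀ ^ 2 = 1
  · exact ⟨y₀, hy2, hy₀⟩
  · refine ⟨y₀ * x, ?_, ?_⟩
    · have hz1 : ⁅x, y₀⁆ ≠ 1 := fun hh => hy₀ (commutatorElement_eq_one_iff_mul_comm.1 hh)
      rw [sq_mul h.comm_mem, hx2, mul_one, h.center_eq (h.pow y₀) (h.comm_mem x y₀) hy2 hz1,
        ← pow_two]
      exact h.center_pow (h.comm_mem x y₀)
    · intro hh
      apply hy₀
      have : x * y₀ * x = y₀ * x * x := by rw [← hh]; group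
      exact mul_right_cancel this

theorem XS0.exists_noncentral_invol [Finite E] (h : XS0 2 E) (hcard : 8 < Nat.card E) :
    ∃ x, x ∉ Subgroup.center E ∧ x ^ 2 = 1 := by
  have : Fact (Nat.Prime 2) := ⟨Nat.prime_two⟩
  obtain ⟨a, _, _, b, hab⟩ := h.exists_noncomm (by omega) (Subgroup.one_mem _)
  have haZ : a ∉ Subgroup.center E := fun hh => hab (Subgroup.mem_center_iff.1 hh b).symm
  by_cases ha2 : a ^ 2 = 1
  · exact ⟨a, haZ, ha2⟩
  have h1 := h.card_pair hab
  have h2 : ∃ c ∈ Subgroup.centralizer ({a, b} : Set E), c ∉ Subgroup.center E := by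
    by_contra hcon
    push Not at hcon
    have h3 : Nat.card (Subgroup.centralizer ({a, b} : Set E)) ≤ 2 := by
      rw [← h.card_center]
      exact Subgroup.card_le_of_le hcon
    omega
  obtain ⟨c, hcC, hcZ⟩ := h2
  by_cases hc2 : c ^ 2 = 1
  · exact ⟨c, hcZ, hc2⟩
  obtain ⟨hca, hcb⟩ := mem_centralizer_pair.1 hcC
  refine ⟨a * c, ?_, ?_⟩
  · intro hh
    apply hab
    have h4 := Subgroup.mem_center_iff.1 hh b
    have h5 : (a * b) * c = (b * a) * c := by
      calc (a * b) * c = a * (b * c) := by group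
        _ = a * c * b := by rw [hcb]; group
        _ = b * (a * c) := h4.symm
        _ = (b * a) * c := by group
    exact mul_right_cancel h5
  · rw [sq_mul h.comm_mem, commutatorElement_eq_one_iff_mul_comm.2 hca.symm, one_mul,
      h.center_eq (h.pow a) (h.pow c) ha2 hc2, ← pow_two]
    exact h.center_pow (h.pow c)

theorem XS0.center_elemAb (h : XS0 2 E) : Cfsg.IsElementaryAbelian 2 (Subgroup.center E) :=
  ⟨inferInstance, fun _ ha => h.center_pow ha⟩

theorem XS0.sq_ne_one_of_not_hp (h : XS0 2 E) (hnp : ¬ HP 1 E) {x : E}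
    (hx : x ∉ Subgroup.center E) : x ^ 2 ≠ 1 := by
  intro hx2
  obtain ⟨A, hA, hAc, -, -⟩ := ext_elemAb (Subgroup.center E) h.center_elemAb x hx2 hx
    (fun b hb => Subgroup.mem_center_iff.1 hb x)
  exact hnp ⟨A, hA, by rw [hAc, h.card_center]; norm_num⟩

theorem XS0.hp_of_pair (h : XS0 2 E) {n : ℕ} {x y : E} (hx2 : x ^ 2 = 1) (hxy : x * y ≠ y * x)
    (hp : HP n (Subgroup.centralizer ({x, y} : Set E))) : HP (n + 1) E := by
  set C := Subgroup.centralizer ({x, y} : Set E) with hC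
  obtain ⟨A₀, ⟨hc, hsq⟩, hcard⟩ := hp
  have hB : Cfsg.IsElementaryAbelian 2 (A₀.map C.subtype) := by
    refine ⟨inferInstance, ?_⟩
    rintro _ ⟨a, ha, rfl⟩
    exact congrArg Subtype.val (hsq a ha)
  have hBC : A₀.map C.subtype ≤ C := Subgroup.map_subtype_le _
  obtain ⟨A, hA, hAc, -, -⟩ := ext_elemAb _ hB x hx2
    (fun hh => hxy (mem_centralizer_pair.1 (hBC hh)).2.symm)
    (fun b hb => (mem_centralizer_pair.1 (hBC hb)).1)
  refine ⟨A, hA, ?_⟩
  rw [hAc, Subgroup.card_map_of_injective C.subtype_injective, hcard]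
  ring

theorem XS0.exists_pair_of_hp [Finite E] (h : XS0 2 E) {n : ℕ}
    (hc : Nat.card E = 2 ^ (2 * (n + 1) + 1)) (hp : HP (n + 1) E) :
    ∃ x y : E, x ^ 2 = 1 ∧ y ^ 2 = 1 ∧ x * y ≠ y * x ∧
      HP n (Subgroup.centralizer ({x, y} : Set E)) := by
  have : Fact (Nat.Prime 2) := ⟨Nat.prime_two⟩
  obtain ⟨A, hA, hAc⟩ := hp
  have hlt : 2 < Nat.card E := by
    rw [hc]
    calc 2 = 2 ^ 1 := rfl
      _ < 2 ^ (2 * (n + 1) + 1) := Nat.pow_lt_pow_right (by norm_num) (by omega)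
  obtain ⟨a, _, _, b, hab⟩ := h.exists_noncomm hlt (Subgroup.one_mem _)
  have hX : XS 2 E := h.toXS hab
  have hAcomm : ∀ a ∈ A, ∀ b ∈ A, a * b = b * a := by
    intro a ha b hb
    have := hA.1
    exact congrArg Subtype.val (mul_comm' (⟨a, ha⟩ : A) ⟨b, hb⟩)
  have hex : ∃ x ∈ A, x ∉ Subgroup.center E := by
    by_contra hcon
    push Not at hcon
    have h3 : Nat.card A ≤ 2 := by
      rw [← h.card_center]
      exact Subgroup.card_le_of_le hcon
    rw [hAc] at h3
    have : 2 ^ 2 ≤ 2 ^ (n + 1 + 1) := Nat.pow_le_pow_right (by norm_num) (by omega)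
    omega
  obtain ⟨x, hxA, hxZ⟩ := hex
  have hx2 := hA.2 x hxA
  obtain ⟨y, hy2, hxy⟩ := h.exists_invol_pair hx2 hxZ
  refine ⟨x, y, hx2, hy2, hxy, ?_⟩
  set C := Subgroup.centralizer ({x, y} : Set E) with hC
  refine ⟨A.subgroupOf C, ⟨⟨⟨?_⟩⟩, ?_⟩, ?_⟩
  · rintro ⟨a, ha⟩ ⟨b, hb⟩
    apply Subtype.ext
    apply Subtype.ext
    exact hAcomm a (Subgroup.mem_subgroupOf.1 ha) b (Subgroup.mem_subgroupOf.1 hb)
  · intro a ha
    apply Subtype.ext
    exact hA.2 a (Subgroup.mem_subgroupOf.1 ha)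
  · let l : A →* Subgroup.center E := (commHom h.comm_mem y).comp A.subtype
    have hl : Function.Surjective l := by
      rw [← MonoidHom.range_eq_top]
      apply eq_of_le_of_prime_card (p := 2) le_top (by rw [Subgroup.card_top, h.card_center])
      intro hbot
      apply hxy
      have h1 : l ⟨x, hxA⟩ ∈ l.range := ⟨_, rfl⟩
      rw [hbot, Subgroup.mem_bot] at h1
      have h2 : ⁅y, x⁆ = 1 := congrArg Subtype.val h1
      exact (commutatorElement_eq_one_iff_mul_comm.1 h2).symm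
    have h3 := card_fiber_mul l hl 1
    rw [h.card_center, hAc] at h3
    have e : ↥(A.subgroupOf C) ≃ {a : A // l a = 1} :=
      { toFun := fun c => ⟨⟨c.1.1, Subgroup.mem_subgroupOf.1 c.2⟩, by
          apply Subtype.ext
          exact commutatorElement_eq_one_iff_mul_comm.2 (mem_centralizer_pair.1 c.1.2).2⟩
        invFun := fun a => ⟨⟨a.1.1, by
          rw [hC, mem_centralizer_pair]
          refine ⟨hAcomm x hxA _ a.1.2, ?_⟩
          have : ⁅y, (a.1 : E)⁆ = 1 := congrArg Subtype.val a.2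
          exact commutatorElement_eq_one_iff_mul_comm.1 this⟩, Subgroup.mem_subgroupOf.2 a.1.2⟩
        left_inv := fun c => rfl
        right_inv := fun a => rfl }
    rw [Nat.card_congr e]
    have e2 : 2 ^ (n + 1 + 1) = 2 ^ (n + 1) * 2 := by ring
    omega

end Cfsg.Agent.LeadXS
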