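import Mathlib
import Cfsg.Prelude.Def_Transfer
import Cfsg.Agent.Lib_lead_XS8

set_option autoImplicit false

/-! Extraspecial 2-groups: classification. -/

namespace Cfsg.Agent.LeadXS

open scoped commutatorElement IsMulCommutative

universe u v

theorem glue2 {E : Type*} {E' : Type*} [Group E] [Group E'] (h : XS0 2 E) (h' : XS0 2 E')
    {x y : E} {x' y' : E'} (hxy : x * y ≠ y * x) (hxy' : x' * y' ≠ y' * x') (α β : ℤ)
    (hx : x ^ 2 = ⁅x, y⁆ ^ α) (hy : y ^ 2 = ⁅x, y⁆ ^ β) (hx' : x' ^ 2 = ⁅x', y'⁆ ^ α)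
    (hy' : y' ^ 2 = ⁅x', y'⁆ ^ β)
    (φ₂ : Subgroup.centralizer ({x, y} : Set E) ≃* Subgroup.centralizer ({x', y'} : Set E')) :
    Nonempty (E ≃* E') := by
  have : Fact (Nat.Prime 2) := ⟨Nat.prime_two⟩
  have hz : (⟨⁅x, y⁆, comm_mem_centralizer_pair h x y⟩ : Subgroup.centralizer ({x, y} : Set E)) ∈
      Subgroup.center (Subgroup.centralizer ({x, y} : Set E)) := by
    rw [Subgroup.mem_center_iff]
    intro g
    exact Subtype.ext (Subgroup.mem_center_iff.1 (h.comm_mem x y) g)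
  have hz' : (⟨⁅x', y'⁆, comm_mem_centralizer_pair h' x' y'⟩ :
      Subgroup.centralizer ({x', y'} : Set E')) ∈
      Subgroup.center (Subgroup.centralizer ({x', y'} : Set E')) := by
    rw [Subgroup.mem_center_iff]
    intro g
    exact Subtype.ext (Subgroup.mem_center_iff.1 (h'.comm_mem x' y') g)
  have h1 : φ₂ ⟨⁅x, y⁆, comm_mem_centralizer_pair h x y⟩ ∈
      Subgroup.center (Subgroup.centralizer ({x', y'} : Set E')) := by
    rw [Subgroup.mem_center_iff]
    intro g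
    obtain ⟨g₀, rfl⟩ := φ₂.surjective g
    rw [← map_mul, ← map_mul, Subgroup.mem_center_iff.1 hz g₀]
  have h2 := (h'.pair hxy').center_eq h1 hz'
    (by
      intro hh
      have h3 := φ₂.injective (hh.trans (map_one φ₂).symm)
      exact hxy (commutatorElement_eq_one_iff_mul_comm.1 (congrArg Subtype.val h3)))
    (fun hh => hxy' (commutatorElement_eq_one_iff_mul_comm.1 (congrArg Subtype.val hh)))
  obtain ⟨φ, -⟩ := glue' h h' hxy hxy' α β hx hy hx' hy' φ₂ (by rw [h2])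
  exact ⟨φ⟩

theorem XS0.card_pair_two {E : Type*} [Group E] [Finite E] (h : XS0 2 E) {x y : E}
    (hxy : x * y ≠ y * x) {n : ℕ} (hc : Nat.card E = 2 ^ (2 * (n + 1) + 1)) :
    Nat.card (Subgroup.centralizer ({x, y} : Set E)) = 2 ^ (2 * n + 1) := by
  have : Fact (Nat.Prime 2) := ⟨Nat.prime_two⟩
  have h1 := h.card_pair hxy
  rw [hc] at h1
  have e : 2 ^ (2 * (n + 1) + 1) = 2 ^ (2 * n + 1) * (2 * 2) := by ring
  omega

theorem XS0.hp_zero {E : Type*} [Group E] (h : XS0 2 E) : HP 0 E :=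
  ⟨Subgroup.center E, h.center_elemAb, by rw [h.card_center]; norm_num⟩

theorem two_lt_pow (n : ℕ) : 2 < 2 ^ (2 * (n + 1) + 1) := by
  calc 2 = 2 ^ 1 := rfl
    _ < 2 ^ (2 * (n + 1) + 1) := Nat.pow_lt_pow_right (by norm_num) (by omega)

theorem eight_lt_pow (n : ℕ) : 8 < 2 ^ (2 * (n + 1 + 1) + 1) := by
  calc 8 = 2 ^ 3 := rfl
    _ < 2 ^ (2 * (n + 1 + 1) + 1) := Nat.pow_lt_pow_right (by norm_num) (by omega)

theorem XS0.sq_eq_comm_of_not_hp {F : Type*} [Group F] (hF : XS0 2 F) (hnp : ¬ HP (0 + 1) F)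
    {a b : F} (hab : a * b ≠ b * a) :
    a ^ 2 = ⁅a, b⁆ ^ (1 : ℤ) ∧ b ^ 2 = ⁅a, b⁆ ^ (1 : ℤ) := by
  have ha : a ∉ Subgroup.center F := fun hh => hab (Subgroup.mem_center_iff.1 hh b).symm
  have hb : b ∉ Subgroup.center F := fun hh => hab (Subgroup.mem_center_iff.1 hh a)
  have hz1 : ⁅a, b⁆ ≠ 1 := fun hh => hab (commutatorElement_eq_one_iff_mul_comm.1 hh)
  rw [zpow_one]
  exact ⟨hF.center_eq (hF.pow a) (hF.comm_mem a b) (hF.sq_ne_one_of_not_hp hnp ha) hz1,
    hF.center_eq (hF.pow b) (hF.comm_mem a b) (hF.sq_ne_one_of_not_hp hnp hb) hz1⟩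

/-- classification of extraspecial 2-groups -/
theorem iso_two : ∀ (n : ℕ) (E : Type u) (E' : Type v) [Group E] [Group E'] [Finite E]
    [Finite E'], XS0 2 E → XS0 2 E' → Nat.card E = 2 ^ (2 * n + 1) →
    Nat.card E' = 2 ^ (2 * n + 1) → (HP n E ↔ HP n E') → Nonempty (E ≃* E') := by
  have : Fact (Nat.Prime 2) := ⟨Nat.prime_two⟩
  intro n
  induction n with
  | zero =>
    intro E E' _ _ _ _ h h' hc hc' _
    exact ⟨mulEquivOfPrimeCardEq (p := 2) (by simpa using hc) (by simpa using hc')⟩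
  | succ n ih =>
    intro E E' _ _ _ _ h h' hc hc' hiff
    by_cases hp : HP (n + 1) E
    · obtain ⟨x, y, hx2, hy2, hxy, hC⟩ := h.exists_pair_of_hp hc hp
      obtain ⟨x', y', hx2', hy2', hxy', hC'⟩ := h'.exists_pair_of_hp hc' (hiff.1 hp)
      obtain ⟨φ₂⟩ := ih _ _ (h.pair hxy) (h'.pair hxy') (h.card_pair_two hxy hc)
        (h'.card_pair_two hxy' hc') (iff_of_true hC hC')
      exact glue2 h h' hxy hxy' 0 0 (by simp [hx2]) (by simp [hy2]) (by simp [hx2'])
        (by simp [hy2']) φ₂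
    · have hp' : ¬ HP (n + 1) E' := fun hh => hp (hiff.2 hh)
      cases n with
      | zero =>
        obtain ⟨x, _, _, y, hxy⟩ := h.exists_noncomm (hc ▸ two_lt_pow 0) (Subgroup.one_mem _)
        obtain ⟨x', _, _, y', hxy'⟩ := h'.exists_noncomm (hc' ▸ two_lt_pow 0) (Subgroup.one_mem _)
        obtain ⟨k1, k2⟩ := h.sq_eq_comm_of_not_hp hp hxy
        obtain ⟨k1', k2'⟩ := h'.sq_eq_comm_of_not_hp hp' hxy'
        have c1 := h.card_pair_two hxy hc
        have c2 := h'.card_pair_two hxy' hc'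
        exact glue2 h h' hxy hxy' 1 1 k1 k2 k1' k2'
          (mulEquivOfPrimeCardEq (p := 2) (by simpa using c1) (by simpa using c2))
      | succ m =>
        obtain ⟨x, hxZ, hx2⟩ := h.exists_noncentral_invol (hc ▸ eight_lt_pow m)
        obtain ⟨y, hy2, hxy⟩ := h.exists_invol_pair hx2 hxZ
        obtain ⟨x', hxZ', hx2'⟩ := h'.exists_noncentral_invol (hc' ▸ eight_lt_pow m)
        obtain ⟨y', hy2', hxy'⟩ := h'.exists_invol_pair hx2' hxZ'
        obtain ⟨φ₂⟩ := ih _ _ (h.pair hxy) (h'.pair hxy') (h.card_pair_two hxy hc)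
          (h'.card_pair_two hxy' hc')
          (iff_of_false (fun hh => hp (h.hp_of_pair hx2 hxy hh))
            (fun hh => hp' (h'.hp_of_pair hx2' hxy' hh)))
        exact glue2 h h' hxy hxy' 0 0 (by simp [hx2]) (by simp [hy2]) (by simp [hx2'])
          (by simp [hy2']) φ₂

/-- every extraspecial 2-group of order `2^(2n+3)` has 2-rank at least `n+1`. -/
theorem hp_pred : ∀ (n : ℕ) (E : Type u) [Group E] [Finite E], XS0 2 E →
    Nat.card E = 2 ^ (2 * (n + 1) + 1) → HP n E := by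
  intro n
  induction n with
  | zero => intro E _ _ h _; exact h.hp_zero
  | succ m ih =>
    intro E _ _ h hc
    obtain ⟨x, hxZ, hx2⟩ := h.exists_noncentral_invol (hc ▸ eight_lt_pow m)
    obtain ⟨y, hy2, hxy⟩ := h.exists_invol_pair hx2 hxZ
    exact h.hp_of_pair hx2 hxy (ih _ (h.pair hxy) (h.card_pair_two hxy hc))

end Cfsg.Agent.LeadXS
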