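import Mathlib
import Cfsg.Prelude.Def_Transfer
import Cfsg.Agent.Lib_lead_XS9

set_option autoImplicit false

/-! Extraspecial 2-groups: counting involutions in the minus type. -/

namespace Cfsg.Agent.LeadXS

open scoped commutatorElement IsMulCommutative

universe u

theorem card_split {α : Type*} [Fintype α] (Q R : α → Prop) [DecidablePred Q] [DecidablePred R] :
    (Finset.univ.filter Q).card = (Finset.univ.filter (fun a => Q a ∧ R a)).card +
      (Finset.univ.filter (fun a => Q a ∧ ¬ R a)).card := by
  rw [← Finset.card_filter_add_card_filter_not (s := Finset.univ.filter Q) R, Finset.filter_filter,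
    Finset.filter_filter]

theorem XS0.card_sq_pair {E : Type*} [Group E] [Finite E] (h : XS0 2 E) {x y : E}
    (hx2 : x ^ 2 = 1) (hxy : x * y ≠ y * x) :
    Nat.card {e : E // e ^ 2 = 1} =
      2 * Nat.card {c : Subgroup.centralizer ({x, y} : Set E) // c ^ 2 = 1} +
        Nat.card (Subgroup.centralizer ({x, y} : Set E)) := by
  classical
  have : Fact (Nat.Prime 2) := ⟨Nat.prime_two⟩
  have := Fintype.ofFinite E
  have hxx : x * x = 1 := by rw [← pow_two]; exact hx2
  have hz1 : ⁅x, y⁆ ≠ 1 := fun hh => hxy (commutatorElement_eq_one_iff_mul_comm.1 hh)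
  have hzz : ⁅x, y⁆ * ⁅x, y⁆ = 1 := by rw [← pow_two]; exact h.center_pow (h.comm_mem x y)
  -- all nontrivial central elements are `z`
  have hcz : ∀ c ∈ Subgroup.center E, c ≠ 1 → c = ⁅x, y⁆ := fun c hc hc1 =>
    h.center_eq hc (h.comm_mem x y) hc1 hz1
  have hinj : ∀ a b : E, a * x = b * x → a = b := fun a b hab => mul_right_cancel hab
  have hMx : ∀ e : E, x * (e * x) = (e * x) * x ↔ x * e = e * x := by
    intro e
    constructor
    · intro hh
      have : (x * e) * x = (e * x) * x := by rw [← hh]; group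
      exact mul_right_cancel this
    · intro hh
      rw [← mul_assoc, hh]
  -- squares
  have hsq1 : ∀ e : E, x * e = e * x → (e * x) ^ 2 = e ^ 2 := by
    intro e he
    rw [sq_mul h.comm_mem, commutatorElement_eq_one_iff_mul_comm.2 he, hx2]; simp
  have hsq2 : ∀ e : E, x * e ≠ e * x → (e * x) ^ 2 = ⁅x, y⁆ * e ^ 2 := by
    intro e he
    rw [sq_mul h.comm_mem, hx2, mul_one,
      hcz _ (h.comm_mem x e) (fun hh => he (commutatorElement_eq_one_iff_mul_comm.1 hh))]
  have hMy : ∀ e : E, y * (e * x) = (e * x) * y ↔ ¬ (y * e = e * y) := by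
    intro e
    have e1 : ⁅y, e * x⁆ = ⁅y, e⁆ * ⁅y, x⁆ := comm_mul_right h.comm_mem y e x
    have e2 : ⁅y, x⁆ = ⁅x, y⁆ :=
      hcz _ (h.comm_mem y x) (fun hh => hxy (commutatorElement_eq_one_iff_mul_comm.1 hh).symm)
    rw [← commutatorElement_eq_one_iff_mul_comm, ← commutatorElement_eq_one_iff_mul_comm, e1, e2]
    constructor
    · intro hh h1
      rw [h1, one_mul] at hh
      exact hz1 hh
    · intro h1
      rw [hcz _ (h.comm_mem y e) h1, hzz]
  -- the pieces
  have s0 : Nat.card {e : E // e ^ 2 = 1} = (Finset.univ.filter (fun e : E => e ^ 2 = 1)).card := by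
    rw [Nat.card_eq_fintype_card, Fintype.card_subtype]
  have s1 := card_split (fun e : E => e ^ 2 = 1) (fun e => x * e = e * x)
  have s2 := card_split (fun e : E => e ^ 2 = 1 ∧ x * e = e * x) (fun e => y * e = e * y)
  have b1 : (Finset.univ.filter (fun e : E => (e ^ 2 = 1 ∧ x * e = e * x) ∧ ¬ y * e = e * y)).card =
      (Finset.univ.filter (fun e : E => (e ^ 2 = 1 ∧ x * e = e * x) ∧ y * e = e * y)).card := by
    apply Finset.card_bij (fun e _ => e * x)
    · intro e he
      simp only [Finset.mem_filter, Finset.mem_univ, true_and] at he ⊢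
      exact ⟨⟨by rw [hsq1 e he.1.2, he.1.1], (hMx e).2 he.1.2⟩, (hMy e).2 he.2⟩
    · intro a _ b _ hab
      exact hinj a b hab
    · intro e he
      simp only [Finset.mem_filter, Finset.mem_univ, true_and] at he
      refine ⟨e * x, ?_, by rw [mul_assoc, hxx, mul_one]⟩
      simp only [Finset.mem_filter, Finset.mem_univ, true_and]
      refine ⟨⟨by rw [hsq1 e he.1.2, he.1.1], (hMx e).2 he.1.2⟩, ?_⟩
      intro hh
      exact (hMy e).1 hh he.2
  have s3 := card_split (fun e : E => ¬ x * e = e * x) (fun e => e ^ 2 = 1)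
  have b2 : (Finset.univ.filter (fun e : E => ¬ x * e = e * x ∧ ¬ e ^ 2 = 1)).card =
      (Finset.univ.filter (fun e : E => ¬ x * e = e * x ∧ e ^ 2 = 1)).card := by
    apply Finset.card_bij (fun e _ => e * x)
    · intro e he
      simp only [Finset.mem_filter, Finset.mem_univ, true_and] at he ⊢
      refine ⟨fun hh => he.1 ((hMx e).1 hh), ?_⟩
      rw [hsq2 e he.1, hcz _ (h.pow e) he.2, hzz]
    · intro a _ b _ hab
      exact hinj a b hab
    · intro e he
      simp only [Finset.mem_filter, Finset.mem_univ, true_and] at he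
      refine ⟨e * x, ?_, by rw [mul_assoc, hxx, mul_one]⟩
      simp only [Finset.mem_filter, Finset.mem_univ, true_and]
      refine ⟨fun hh => he.1 ((hMx e).1 hh), ?_⟩
      rw [hsq2 e he.1, he.2, mul_one]
      exact hz1
  have s4 := Finset.card_filter_add_card_filter_not (s := (Finset.univ : Finset E))
    (fun e => x * e = e * x)
  have s5 : (Finset.univ.filter (fun e : E => x * e = e * x)).card * 2 = Nat.card E := by
    have hl : Function.Surjective (commHom h.comm_mem x) := by
      rw [← MonoidHom.range_eq_top]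
      apply eq_of_le_of_prime_card (p := 2) le_top (by rw [Subgroup.card_top, h.card_center])
      intro hbot
      have h1 : commHom h.comm_mem x y ∈ (commHom h.comm_mem x).range := ⟨_, rfl⟩
      rw [hbot, Subgroup.mem_bot] at h1
      exact hz1 (congrArg Subtype.val h1)
    have h3 := card_fiber_mul (commHom h.comm_mem x) hl 1
    rw [h.card_center] at h3
    rw [← h3, Nat.card_eq_fintype_card, Fintype.card_subtype]
    congr 2
    ext e
    simp only [Finset.mem_filter, Finset.mem_univ, true_and]
    rw [← commutatorElement_eq_one_iff_mul_comm]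
    constructor
    · intro hh; exact Subtype.ext hh
    · intro hh; exact congrArg Subtype.val hh
  have s6 : Nat.card {c : Subgroup.centralizer ({x, y} : Set E) // c ^ 2 = 1} =
      (Finset.univ.filter (fun e : E => (e ^ 2 = 1 ∧ x * e = e * x) ∧ y * e = e * y)).card := by
    rw [← Fintype.card_subtype, ← Nat.card_eq_fintype_card]
    apply Nat.card_congr
    exact
      { toFun := fun c => ⟨c.1.1, ⟨congrArg Subtype.val c.2, (mem_centralizer_pair.1 c.1.2).1⟩,
          (mem_centralizer_pair.1 c.1.2).2⟩
        invFun := fun e => ⟨⟨e.1, mem_centralizer_pair.2 ⟨e.2.1.2, e.2.2⟩⟩, Subtype.ext e.2.1.1⟩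
        left_inv := fun c => rfl
        right_inv := fun e => rfl }
  have s7 := h.card_pair hxy
  have s8 : (Finset.univ.filter (fun e : E => e ^ 2 = 1 ∧ ¬ x * e = e * x)).card =
      (Finset.univ.filter (fun e : E => ¬ x * e = e * x ∧ e ^ 2 = 1)).card := by
    congr 1
    ext e
    simp only [Finset.mem_filter, Finset.mem_univ, true_and]
    exact and_comm
  rw [Finset.card_univ, ← Nat.card_eq_fintype_card] at s4
  omega

/-- the number of solutions of `x^2 = 1` in the minus type -/
theorem card_sq_of_not_hp : ∀ (n : ℕ) (E : Type u) [Group E] [Finite E], XS0 2 E →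
    Nat.card E = 2 ^ (2 * n + 1) → ¬ HP n E →
    Nat.card {e : E // e ^ 2 = 1} + 2 ^ n = 2 ^ (2 * n) := by
  intro n
  induction n with
  | zero => intro E _ _ h _ hnp; exact absurd h.hp_zero hnp
  | succ n ih =>
    intro E _ _ h hc hnp
    cases n with
    | zero =>
      have e : {e : E // e ^ 2 = 1} ≃ Subgroup.center E :=
        Equiv.subtypeEquivRight (fun x =>
          ⟨fun hx => by
            by_contra hxZ
            exact h.sq_ne_one_of_not_hp hnp hxZ hx, fun hx => h.center_pow hx⟩)
      rw [Nat.card_congr e, h.card_center]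
      norm_num
    | succ m =>
      obtain ⟨x, hxZ, hx2⟩ := h.exists_noncentral_invol (hc ▸ eight_lt_pow m)
      obtain ⟨y, hy2, hxy⟩ := h.exists_invol_pair hx2 hxZ
      have h1 := ih _ (h.pair hxy) (h.card_pair_two hxy hc)
        (fun hh => hnp (h.hp_of_pair hx2 hxy hh))
      have h2 := h.card_sq_pair hx2 hxy
      rw [h.card_pair_two hxy hc] at h2
      have e1 : 2 ^ (2 * (m + 1 + 1)) = 2 ^ (2 * (m + 1)) * 4 := by ring
      have e2 : 2 ^ (2 * (m + 1) + 1) = 2 ^ (2 * (m + 1)) * 2 := by ring
      have e3 : 2 ^ (m + 1 + 1) = 2 ^ (m + 1) * 2 := by ring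
      omega

end Cfsg.Agent.LeadXS
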