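import Mathlib
import Cfsg.Statements.S0019
import Cfsg.Agent.Lib_helper1_PNilp3

set_option autoImplicit false
open Cfsg

namespace Cfsg.Agent.S0019

open Pointwise
open Cfsg.Agent.H1 Subgroup

theorem exists_sylow_le_of_not_dvd_index {G : Type*} [Group G] [Finite G] (H : Subgroup G)
    (r : ℕ) [Fact r.Prime] (hr : ¬ r ∣ H.index) : ∃ S : Sylow r G, (S : Subgroup G) ≤ H := by
  obtain ⟨P₀⟩ : Nonempty (Sylow r H) := inferInstance
  have hpg : IsPGroup r ((P₀ : Subgroup H).map H.subtype) := P₀.2.map _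
  have hidx : ¬ r ∣ ((P₀ : Subgroup H).map H.subtype).index := by
    rw [index_map_subtype]
    intro hd
    rcases (Nat.Prime.dvd_mul Fact.out).mp hd with h | h
    · exact P₀.not_dvd_index h
    · exact hr h
  refine ⟨hpg.toSylow hidx, ?_⟩
  rw [IsPGroup.toSylow_coe]
  exact map_subtype_le _

theorem core {G : Type*} [Group G] [Finite G] (H₁ H₂ N : Subgroup G)
    (h12 : ∀ g : G, ∃ x ∈ H₁, ∃ y ∈ H₂, g = x * y) (r : ℕ) [Fact r.Prime] (hN : IsPGroup r N)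
    (hH₁N : H₁ ≤ normalizer (N : Set G)) (hr : ¬ r ∣ H₂.index) :
    normalClosure (N : Set G) ≤ H₂ := by
  obtain ⟨S, hS⟩ := exists_sylow_le_of_not_dvd_index H₂ r hr
  obtain ⟨R, hR⟩ := hN.exists_le_sylow
  obtain ⟨g, rfl⟩ := MulAction.exists_smul_eq G S R
  rw [Sylow.coe_subgroup_smul] at hR
  have hconj : ∀ x ∈ H₁, ∀ n ∈ N, x⁻¹ * n * x ∈ N := by
    intro x hx n hn
    have := conj_mem_of_le_normalizer hH₁N (inv_mem hx) hn
    simpa using this
  have hconj' : ∀ x ∈ H₁, ∀ n ∈ N, x * n * x⁻¹ ∈ N := by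
    intro x hx n hn
    exact conj_mem_of_le_normalizer hH₁N hx hn
  have hNH₂ : N ≤ H₂ := by
    intro n hn
    obtain ⟨x, hx, y, hy, hg⟩ := h12 g
    -- m := x n x⁻¹ ∈ N, g⁻¹ m g ∈ S ≤ H₂
    have h1 : g⁻¹ * (x * n * x⁻¹) * g ∈ H₂ := hS (mem_conj_smul.mp (hR (hconj' x hx n hn)))
    rw [hg] at h1
    have h2 : n = y * ((x * y)⁻¹ * (x * n * x⁻¹) * (x * y)) * y⁻¹ := by group
    rw [h2]
    exact mul_mem (mul_mem hy h1) (inv_mem hy)
  unfold normalClosure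
  rw [closure_le]
  intro z hz
  obtain ⟨n, hn, hnz⟩ := Group.mem_conjugatesOfSet_iff.mp hz
  obtain ⟨c, hc⟩ := isConj_iff.mp hnz
  obtain ⟨x, hx, y, hy, hcxy⟩ := h12 c⁻¹
  have hc' : c = y⁻¹ * x⁻¹ := by
    rw [← inv_inv c, hcxy]; group
  rw [SetLike.mem_coe, ← hc, hc']
  have h3 : y⁻¹ * x⁻¹ * n * (y⁻¹ * x⁻¹)⁻¹ = y⁻¹ * (x⁻¹ * n * x) * y := by group
  rw [h3]
  exact mul_mem (mul_mem (inv_mem hy) (hNH₂ (hconj x hx n hn))) hy

theorem aux.{u} : ∀ (n : ℕ) (G : Type u) [Group G] [Finite G] (H₁ H₂ H₃ : Subgroup G),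
    Nat.card G = n → Group.IsSolvable H₁ → Group.IsSolvable H₂ → Group.IsSolvable H₃ →
    (∀ g : G, ∃ x ∈ H₁, ∃ y ∈ H₂, g = x * y) → (∀ g : G, ∃ x ∈ H₁, ∃ y ∈ H₃, g = x * y) →
    H₂.index.Coprime H₃.index → Group.IsSolvable G := by
  intro n
  induction n using Nat.strong_induction_on with
  | _ n ih =>
  intro G _ _ H₁ H₂ H₃ hn h₁ h₂ h₃ h12 h13 hcop
  by_cases hb : H₁ = ⊥
  · have htop : H₂ = ⊤ := by
      rw [eq_top_iff]
      intro g _
      obtain ⟨x, hx, y, hy, rfl⟩ := h12 g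
      rw [hb, mem_bot] at hx
      rw [hx, one_mul]
      exact hy
    rw [htop] at h₂
    exact Group.isSolvable_of_surjective (f := (Subgroup.topEquiv (G := G)).toMonoidHom)
      (Subgroup.topEquiv (G := G)).surjective
  haveI : Nontrivial H₁ := (nontrivial_iff_ne_bot H₁).mpr hb
  obtain ⟨r, hr, P, hPc, hPr, hPne, -⟩ := exists_normal_pgroup_of_solvable H₁
  haveI : Fact r.Prime := ⟨hr⟩
  have hPn : P.Normal := inferInstance
  set N := P.map H₁.subtype with hN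
  have hNr : IsPGroup r N := hPr.map _
  have hNne : N ≠ ⊥ := by
    rw [hN, Ne, Subgroup.map_eq_bot_iff_of_injective _ H₁.subtype_injective]
    exact hPne
  have hH₁N : H₁ ≤ normalizer (N : Set G) := by
    apply le_normalizer_of_forall
    rintro a ha _ ⟨k, hk, rfl⟩
    exact ⟨⟨a, ha⟩ * k * ⟨a, ha⟩⁻¹, hPn.conj_mem k hk _, rfl⟩
  have hM : Group.IsSolvable (normalClosure (N : Set G)) := by
    by_cases hr2 : r ∣ H₂.index
    · have hr3 : ¬ r ∣ H₃.index := fun h =>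
        hr.one_lt.ne' (Nat.eq_one_of_dvd_coprimes hcop hr2 h)
      exact isSolvable_of_le (core H₁ H₃ N h13 r hNr hH₁N hr3) h₃
    · exact isSolvable_of_le (core H₁ H₂ N h12 r hNr hH₁N hr2) h₂
  have hMne : normalClosure (N : Set G) ≠ ⊥ := by
    intro h
    apply hNne
    rw [eq_bot_iff, ← h]
    exact le_normalClosure
  have hq : Group.IsSolvable (G ⧸ normalClosure (N : Set G)) := by
    have hs := QuotientGroup.mk'_surjective (normalClosure (N : Set G))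
    apply ih _ (hn ▸ card_quotient_lt hMne) _
      (H₁.map (QuotientGroup.mk' _)) (H₂.map (QuotientGroup.mk' _)) (H₃.map (QuotientGroup.mk' _))
      rfl (isSolvable_map _ h₁) (isSolvable_map _ h₂) (isSolvable_map _ h₃)
    · intro g
      obtain ⟨g, rfl⟩ := hs g
      obtain ⟨x, hx, y, hy, rfl⟩ := h12 g
      exact ⟨_, ⟨x, hx, rfl⟩, _, ⟨y, hy, rfl⟩, map_mul _ _ _⟩
    · intro g
      obtain ⟨g, rfl⟩ := hs g
      obtain ⟨x, hx, y, hy, rfl⟩ := h13 g
      exact ⟨_, ⟨x, hx, rfl⟩, _, ⟨y, hy, rfl⟩, map_mul _ _ _⟩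
    · exact Nat.Coprime.coprime_dvd_left (index_map_dvd _ hs)
        (Nat.Coprime.coprime_dvd_right (index_map_dvd _ hs) hcop)
  exact (Group.isSolvable_iff_subgroup_quotient (normalClosure (N : Set G))).mpr ⟨hM, hq⟩


/-- A finite group that factorises as H₁H₂ and as H₁H₃ with all three subgroups solvable and the indices of H₂ and H₃ coprime is solvable. -/
theorem result {G : Type*} [Group G] [Finite G] (H₁ H₂ H₃ : Subgroup G)
    (h₁ : Group.IsSolvable H₁) (h₂ : Group.IsSolvable H₂) (h₃ : Group.IsSolvable H₃)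
    (h12 : ∀ g : G, ∃ x ∈ H₁, ∃ y ∈ H₂, g = x * y) (h13 : ∀ g : G, ∃ x ∈ H₁, ∃ y ∈ H₃, g = x * y)
    (hcop : H₂.index.Coprime H₃.index) : Group.IsSolvable G := by
  exact aux _ G H₁ H₂ H₃ rfl h₁ h₂ h₃ h12 h13 hcop

end Cfsg.Agent.S0019
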