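import Mathlib
import Cfsg.Statements.S0006
import Cfsg.Agent.S0019
import Cfsg.Agent.S0007
import Cfsg.Agent.S0144

set_option autoImplicit false
open Cfsg

namespace Cfsg.Agent.S0006

open Cfsg.Agent.H1 Subgroup

theorem inherit {G : Type*} [Group G] [Finite G]
    (h : ∀ p : ℕ, p.Prime → ∃ H : Subgroup G, H.index = p ^ (Nat.card G).factorization p)
    (p : ℕ) (hp : p.Prime) (H : Subgroup G) (hH : H.index = p ^ (Nat.card G).factorization p) :
    ∀ q : ℕ, q.Prime → ∃ K : Subgroup H, K.index = q ^ (Nat.card H).factorization q := by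
  intro q hq
  have hmul := H.index_mul_card
  have hi0 : H.index ≠ 0 := index_ne_zero_of_finite
  have hc0 : Nat.card H ≠ 0 := Nat.card_pos.ne'
  have hfac : (Nat.card G).factorization = H.index.factorization + (Nat.card H).factorization := by
    rw [← hmul, Nat.factorization_mul hi0 hc0]
  by_cases hqp : q = p
  · subst hqp
    refine ⟨⊤, ?_⟩
    have h1 := congrArg (fun f => f q) hfac
    simp only [Finsupp.add_apply] at h1
    rw [hH, Nat.factorization_pow, Finsupp.smul_apply, hq.factorization_self, smul_eq_mul,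
      mul_one] at h1
    have h2 : (Nat.card H).factorization q = 0 := by omega
    rw [h2, pow_zero, index_top]
  · obtain ⟨L, hL⟩ := h q hq
    refine ⟨L.subgroupOf H, ?_⟩
    have hcop : L.index.Coprime H.index := by
      rw [hL, hH]
      exact Nat.Coprime.pow _ _ ((Nat.coprime_primes hq hp).mpr hqp)
    have h7 := (Cfsg.Agent.S0007.result L H hcop).1
    have h8 := relIndex_mul_index (inf_le_right : L ⊓ H ≤ H)
    rw [inf_relIndex_right, h7] at h8
    have h9 : L.relIndex H = L.index := Nat.eq_of_mul_eq_mul_right (Nat.pos_of_ne_zero hi0) h8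
    have h1 := congrArg (fun f => f q) hfac
    simp only [Finsupp.add_apply] at h1
    rw [hH, Nat.factorization_pow, Finsupp.smul_apply, hp.factorization,
      Finsupp.single_eq_of_ne hqp, smul_eq_mul, mul_zero, zero_add] at h1
    rw [← h1, ← hL]
    exact h9

theorem aux.{u} : ∀ (n : ℕ) (G : Type u) [Group G] [Finite G], Nat.card G = n →
    (∀ p : ℕ, p.Prime → ∃ H : Subgroup G, H.index = p ^ (Nat.card G).factorization p) →
    Group.IsSolvable G := by
  intro n
  induction n using Nat.strong_induction_on with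
  | _ n ih =>
  intro G _ _ hn h
  have hsub : ∀ p : ℕ, p.Prime → p ∣ Nat.card G → ∀ H : Subgroup G,
      H.index = p ^ (Nat.card G).factorization p → Group.IsSolvable H := by
    intro p hp hpd H hH
    have hne : H ≠ ⊤ := by
      intro htop
      rw [htop, index_top] at hH
      have hpos : 0 < (Nat.card G).factorization p :=
        hp.factorization_pos_of_dvd Nat.card_pos.ne' hpd
      have := Nat.one_lt_pow hpos.ne' hp.one_lt
      omega
    exact ih _ (hn ▸ card_lt_of_ne_top hne) H rfl (inherit h p hp H hH)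
  by_cases h3 : ∃ p₁ p₂ p₃ : ℕ, p₁.Prime ∧ p₂.Prime ∧ p₃.Prime ∧ p₁ ∣ Nat.card G ∧ p₂ ∣ Nat.card G ∧
      p₃ ∣ Nat.card G ∧ p₁ ≠ p₂ ∧ p₁ ≠ p₃ ∧ p₂ ≠ p₃
  · obtain ⟨p₁, p₂, p₃, hp₁, hp₂, hp₃, hd₁, hd₂, hd₃, h12, h13, h23⟩ := h3
    obtain ⟨H₁, hH₁⟩ := h p₁ hp₁
    obtain ⟨H₂, hH₂⟩ := h p₂ hp₂
    obtain ⟨H₃, hH₃⟩ := h p₃ hp₃
    have c12 : H₁.index.Coprime H₂.index := by
      rw [hH₁, hH₂]; exact Nat.Coprime.pow _ _ ((Nat.coprime_primes hp₁ hp₂).mpr h12)
    have c13 : H₁.index.Coprime H₃.index := by
      rw [hH₁, hH₃]; exact Nat.Coprime.pow _ _ ((Nat.coprime_primes hp₁ hp₃).mpr h13)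
    have c23 : H₂.index.Coprime H₃.index := by
      rw [hH₂, hH₃]; exact Nat.Coprime.pow _ _ ((Nat.coprime_primes hp₂ hp₃).mpr h23)
    exact Cfsg.Agent.S0019.result H₁ H₂ H₃ (hsub p₁ hp₁ hd₁ H₁ hH₁) (hsub p₂ hp₂ hd₂ H₂ hH₂)
      (hsub p₃ hp₃ hd₃ H₃ hH₃) (Cfsg.Agent.S0007.result H₁ H₂ c12).2
      (Cfsg.Agent.S0007.result H₁ H₃ c13).2 c23
  · push Not at h3
    by_cases hc1 : Nat.card G = 1
    · haveI : Subsingleton G := (Nat.card_eq_one_iff_unique.mp hc1).1
      infer_instance
    obtain ⟨p, hp, hpd⟩ := Nat.exists_prime_and_dvd hc1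
    obtain ⟨H, hH⟩ := h p hp
    have hpH : ¬ p ∣ Nat.card H := by
      obtain ⟨K, hK⟩ := inherit h p hp H hH p hp
      intro hd
      have hmul := H.index_mul_card
      have hfac : (Nat.card G).factorization p =
          H.index.factorization p + (Nat.card H).factorization p := by
        rw [← hmul, Nat.factorization_mul index_ne_zero_of_finite Nat.card_pos.ne']
        rfl
      rw [hH, Nat.factorization_pow, Finsupp.smul_apply, hp.factorization_self, smul_eq_mul,
        mul_one] at hfac
      have := hp.factorization_pos_of_dvd Nat.card_pos.ne' hd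
      omega
    by_cases hc2 : Nat.card H = 1
    · apply Cfsg.Agent.S0144.result p p ((Nat.card G).factorization p) 0 hp hp
      have e := H.index_mul_card
      rw [hc2, hH] at e
      rw [pow_zero]
      exact e.symm
    obtain ⟨q, hq, hqd⟩ := Nat.exists_prime_and_dvd hc2
    have hqp : q ≠ p := by rintro rfl; exact hpH hqd
    have hcard := Nat.eq_prime_pow_of_unique_prime_dvd (n := Nat.card H) (p := q)
      Nat.card_pos.ne' (fun {d} hd hdH => by
        by_contra hdq
        have hdp : d ≠ p := by rintro rfl; exact hpH hdH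
        exact hdq (h3 p q d hp hq hd hpd (hqd.trans (card_subgroup_dvd_card H))
          (hdH.trans (card_subgroup_dvd_card H)) hqp.symm hdp.symm).symm)
    apply Cfsg.Agent.S0144.result p q ((Nat.card G).factorization p)
      (Nat.card H).primeFactorsList.length hp hq
    have e := H.index_mul_card
    rw [hH] at e
    rw [← hcard]
    exact e.symm


/-- Converse of Hall's Theorem: if for every prime p a finite group has a subgroup of index equal to the p-part of the group order (a Hall p-complement), then the group is solvable. -/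
theorem result {G : Type*} [Group G] [Finite G]
    (h : ∀ p : ℕ, p.Prime → ∃ H : Subgroup G, H.index = p ^ (Nat.card G).factorization p) :
    Group.IsSolvable G := by
  exact aux _ G rfl h

end Cfsg.Agent.S0006
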