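import Mathlib
import Cfsg.Statements.S0011

set_option autoImplicit false
open Cfsg

namespace Cfsg.Agent.S0011


/-- If the Frattini quotient of a finite group is nilpotent then the group is nilpotent. -/
theorem result {G : Type*} [Group G] [Finite G]
    (h : Group.IsNilpotent (G ⧸ frattini G)) : Group.IsNilpotent G := by
  apply (Group.isNilpotent_of_finite_tfae.out 0 3 rfl rfl).mpr
  intro p hp P
  have hsurj := QuotientGroup.mk'_surjective (frattini G)
  have h1 : ((P.mapSurjective hsurj).toSubgroup).Normal := inferInstance
  rw [Sylow.coe_mapSurjective] at h1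
  have h2 : ((P : Subgroup G) ⊔ frattini G).Normal := by
    have : (P : Subgroup G) ⊔ frattini G
        = ((P : Subgroup G).map (QuotientGroup.mk' (frattini G))).comap (QuotientGroup.mk' _) := by
      rw [Subgroup.comap_map_eq, QuotientGroup.ker_mk']
    rw [this]; infer_instance
  have h3 := Sylow.normalizer_sup_eq_top' P (le_sup_left : (P : Subgroup G) ≤ (P : Subgroup G) ⊔ frattini G)
  have h4 : Subgroup.normalizer ((P : Subgroup G) : Set G) ⊔ frattini G = ⊤ := by
    have h5 : Subgroup.normalizer ((P : Subgroup G) : Set G) ⊔ (P : Subgroup G)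
        = Subgroup.normalizer ((P : Subgroup G) : Set G) := sup_eq_left.mpr Subgroup.le_normalizer
    rw [← h5, sup_assoc]
    exact h3
  exact Subgroup.normalizer_eq_top_iff.mp (frattini_nongenerating h4)

end Cfsg.Agent.S0011
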