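import Mathlib
import Cfsg.Statements.S0013
import Cfsg.Agent.Lib_helper1_Frattini

set_option autoImplicit false
open Cfsg

namespace Cfsg.Agent.S0013


/-- In a finite p-group the Frattini subgroup is the smallest normal subgroup with elementary abelian quotient: it lies below any normal subgroup containing all commutators and all p-th powers. -/
theorem result {G : Type*} [Group G] [Finite G] (p : ℕ) [Fact p.Prime]
    (hG : IsPGroup p G) (N : Subgroup G) [N.Normal] (hcomm : commutator G ≤ N) (hpow : ∀ x : G, x ^ p ∈ N) :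
    frattini G ≤ N := by
  intro x hxΦ
  by_contra hxN
  obtain ⟨M, hNM, hMmax⟩ := Finite.exists_le_maximal (p := fun M : Subgroup G => N ≤ M ∧ x ∉ M)
    (a := N) ⟨le_rfl, hxN⟩
  have hMn : M.Normal := Subgroup.Normal.of_commutator_le G (hcomm.trans hNM)
  have hxM : x ∉ M := hMmax.prop.2
  have hbig : ∀ L : Subgroup G, M < L → x ∈ L := by
    intro L hL
    by_contra hxL
    exact hL.not_ge (hMmax.le_of_ge ⟨hNM.trans hL.le, hxL⟩ hL.le)
  have hco : IsCoatom M := by
    refine ⟨fun h => hxM (h ▸ Subgroup.mem_top x), fun L hL => ?_⟩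
    rw [eq_top_iff]
    intro y _
    by_cases hy : y ∈ M
    · exact hL.le hy
    have h1 : M < M ⊔ Subgroup.zpowers y := by
      refine lt_of_le_of_ne le_sup_left (fun h => hy ?_)
      rw [h]
      exact Subgroup.mem_sup_right (Subgroup.mem_zpowers y)
    obtain ⟨m, hm, z, hz, hmz⟩ := Subgroup.mem_sup_of_normal_left.mp (hbig _ h1)
    obtain ⟨i, rfl⟩ := Subgroup.mem_zpowers_iff.mp hz
    have hpi : ¬ (p : ℤ) ∣ i := by
      rintro ⟨j, rfl⟩
      apply hxM
      rw [← hmz, zpow_mul, zpow_natCast]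
      exact mul_mem hm (hNM (zpow_mem (hpow y) j))
    have hcop : IsCoprime i (p : ℤ) := by
      have hp : Prime (p : ℤ) := Nat.prime_iff_prime_int.mp Fact.out
      exact (hp.coprime_iff_not_dvd.mpr hpi).symm
    obtain ⟨a, b, hab⟩ := hcop
    have hyi : y ^ i ∈ L := by
      have : y ^ i = m⁻¹ * x := by rw [← hmz]; group
      rw [this]
      exact mul_mem (inv_mem (hL.le hm)) (hbig L hL)
    have hyp : y ^ (p : ℤ) ∈ L := by
      rw [zpow_natCast]; exact hL.le (hNM (hpow y))
    have : y = (y ^ i) ^ a * (y ^ (p : ℤ)) ^ b := by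
      rw [← zpow_mul, ← zpow_mul, ← zpow_add, mul_comm i a, mul_comm (p : ℤ) b, hab, zpow_one]
    rw [this]
    exact mul_mem (zpow_mem hyi a) (zpow_mem hyp b)
  exact hxM (frattini_le_coatom hco hxΦ)

end Cfsg.Agent.S0013
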