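import Mathlib
import Cfsg.Statements.S0014
import Cfsg.Agent.Lib_helper1_Frattini

set_option autoImplicit false
open Cfsg

namespace Cfsg.Agent.S0014

open Subgroup Cfsg.Agent.H1

theorem step {G : Type*} [Group G] [Finite G] {p : ℕ} [hp : Fact p.Prime] (hG : IsPGroup p G)
    (L : Subgroup G) (hL : frattini G ≤ L) (a : G) (ha : a ∉ L) :
    p * (zpowers a ⊔ L).index = L.index := by
  have hF := pgroup_frattini p hG
  haveI hLn : L.Normal := Subgroup.Normal.of_commutator_le G (hF.1.trans hL)
  set b := QuotientGroup.mk' L a with hb
  have ho : orderOf b = p := by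
    apply orderOf_eq_prime
    · rw [hb, ← map_pow]
      exact (QuotientGroup.eq_one_iff _).mpr (hL (hF.2 a))
    · intro h
      exact ha ((QuotientGroup.eq_one_iff a).mp h)
  have h1 : zpowers a ⊔ L = (zpowers b).comap (QuotientGroup.mk' L) := by
    rw [hb, ← MonoidHom.map_zpowers, QuotientGroup.comap_map_mk', sup_comm]
  rw [h1, index_comap_of_surjective _ (QuotientGroup.mk'_surjective L), index_eq_card L,
    ← (zpowers b).card_mul_index, Nat.card_zpowers, ho]

theorem H_insert {G : Type*} [Group G] [DecidableEq G] (a : G) (T : Finset G) (Φ : Subgroup G) :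
    closure ((insert a T : Finset G) : Set G) ⊔ Φ = zpowers a ⊔ (closure (T : Set G) ⊔ Φ) := by
  rw [Finset.coe_insert, Set.insert_eq, Subgroup.closure_union, ← zpowers_eq_closure, sup_assoc]

theorem irr {G : Type*} [Group G] [Finite G] [DecidableEq G] {p : ℕ} [hp : Fact p.Prime]
    (hG : IsPGroup p G) (T : Finset G) :
    (∀ t ∈ T, t ∉ closure ((T.erase t : Finset G) : Set G) ⊔ frattini G) →
    (frattini G).index = p ^ T.card * (closure (T : Set G) ⊔ frattini G).index := by
  induction T using Finset.induction_on with
  | empty =>
    intro _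
    simp
  | insert a T haT ih =>
    intro h
    have h1 : ∀ t ∈ T, t ∉ closure ((T.erase t : Finset G) : Set G) ⊔ frattini G := by
      intro t ht hmem
      apply h t (Finset.mem_insert_of_mem ht)
      refine (sup_le_sup_right (Subgroup.closure_mono ?_) _) hmem
      intro x hx
      rw [Finset.mem_coe, Finset.mem_erase] at hx ⊢
      exact ⟨hx.1, Finset.mem_insert_of_mem hx.2⟩
    have h2 : a ∉ closure (T : Set G) ⊔ frattini G := by
      have := h a (Finset.mem_insert_self a T)
      rwa [Finset.erase_insert haT] at this
    rw [ih h1, H_insert, ← step hG _ le_sup_right a h2, Finset.card_insert_of_notMem haT,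
      pow_succ, mul_assoc]

theorem bound {G : Type*} [Group G] [Finite G] [DecidableEq G] {p : ℕ} [hp : Fact p.Prime]
    (hG : IsPGroup p G) (T : Finset G) :
    (frattini G).index ≤ p ^ T.card * (closure (T : Set G) ⊔ frattini G).index := by
  induction T using Finset.induction_on with
  | empty => simp
  | insert a T haT ih =>
    rw [H_insert, Finset.card_insert_of_notMem haT, pow_succ, mul_assoc]
    by_cases h2 : a ∈ closure (T : Set G) ⊔ frattini G
    · rw [sup_eq_right.mpr (zpowers_le.mpr h2)]
      exact ih.trans (Nat.mul_le_mul_left _ (Nat.le_mul_of_pos_left _ hp.out.pos))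
    · rw [step hG _ le_sup_right a h2]
      exact ih

/-- Burnside's basis Theorem: in a finite p-group whose Frattini quotient has order p ^ n, every generating set contains n elements that already generate, and no set with fewer than n elements generates. -/
theorem result {G : Type*} [Group G] [Finite G] (p n : ℕ) [Fact p.Prime]
    (hG : IsPGroup p G) (hn : (frattini G).index = p ^ n) :
    (∀ S : Finset G, Subgroup.closure (S : Set G) = ⊤ → ∃ T : Finset G, T ⊆ S ∧ T.card = n ∧ Subgroup.closure (T : Set G) = ⊤) ∧
    (∀ T : Finset G, Subgroup.closure (T : Set G) = ⊤ → n ≤ T.card) := by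
  classical
  have hp : p.Prime := Fact.out
  constructor
  · intro S hS
    let F := S.powerset.filter (fun T : Finset G => closure (T : Set G) ⊔ frattini G = ⊤)
    have hne : F.Nonempty := ⟨S, by simp [F, hS]⟩
    obtain ⟨T, hT, hmin⟩ := Finset.exists_min_image F Finset.card hne
    rw [Finset.mem_filter, Finset.mem_powerset] at hT
    have hirr : ∀ t ∈ T, t ∉ closure ((T.erase t : Finset G) : Set G) ⊔ frattini G := by
      intro t ht hmem
      have h1 : closure ((T.erase t : Finset G) : Set G) ⊔ frattini G = ⊤ := by
        rw [eq_top_iff, ← hT.2]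
        refine sup_le ?_ le_sup_right
        rw [closure_le]
        intro x hx
        by_cases hxt : x = t
        · rw [hxt]
          exact hmem
        · exact mem_sup_left (subset_closure (Finset.mem_coe.mpr (Finset.mem_erase.mpr ⟨hxt, hx⟩)))
      have h2 : T.erase t ∈ F := by
        rw [Finset.mem_filter, Finset.mem_powerset]
        exact ⟨(Finset.erase_subset t T).trans hT.1, h1⟩
      have h3 := hmin _ h2
      rw [Finset.card_erase_of_mem ht] at h3
      have := Finset.card_pos.mpr ⟨t, ht⟩
      omega
    have h4 := irr hG T hirr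
    rw [hT.2, index_top, mul_one, hn] at h4
    exact ⟨T, hT.1, (Nat.pow_right_injective hp.two_le h4).symm, frattini_nongenerating hT.2⟩
  · intro T hT
    have h := bound hG T
    rw [hT, top_sup_eq, index_top, mul_one, hn] at h
    exact (Nat.pow_le_pow_iff_right hp.one_lt).mp h

end Cfsg.Agent.S0014
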