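import Mathlib
import Cfsg.Statements.S0065
import Cfsg.Agent.Lib_helper1_PQ

set_option autoImplicit false
open Cfsg

namespace Cfsg.Agent.S0065

theorem aux {G : Type*} [Group G] [Finite G] [Group.IsNilpotent G] (N : Subgroup G) :
    N.Normal → N ≠ ⊥ → N ⊓ Subgroup.center G ≠ ⊥ := by
  induction N using WellFoundedLT.induction with
  | ind N ih =>
  intro hn hN
  have h1 : ⁅N, (⊤ : Subgroup G)⁆ ≠ N :=
    Cfsg.Agent.H1.commutator_ne_self_of_nilpotent (S := ⊤) (Group.isNilpotent_top.mpr inferInstance)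
      le_top le_rfl hN
  have h2 : ⁅N, (⊤ : Subgroup G)⁆ ≤ N := Subgroup.commutator_le_left N ⊤
  by_cases h3 : ⁅N, (⊤ : Subgroup G)⁆ = ⊥
  · rw [Subgroup.commutator_eq_bot_iff_le_centralizer, Subgroup.coe_top,
      Subgroup.centralizer_univ] at h3
    rwa [inf_eq_left.mpr h3]
  · have h4 := ih _ (lt_of_le_of_ne h2 h1) inferInstance h3
    intro h5
    apply h4
    rw [eq_bot_iff, ← h5]
    exact inf_le_inf_right _ h2

/-- A nontrivial normal subgroup of a nilpotent group intersects the centre nontrivially. -/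
theorem result {G : Type*} [Group G] [Finite G] [Group.IsNilpotent G]
    (N : Subgroup G) [N.Normal] (hN : N ≠ ⊥) : N ⊓ Subgroup.center G ≠ ⊥ := by
  exact aux N inferInstance hN

end Cfsg.Agent.S0065
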