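import Mathlib
import Cfsg.Statements.S0015
import Cfsg.Agent.S0065

set_option autoImplicit false
open Cfsg

namespace Cfsg.Agent.S0015


/-- In a finite nilpotent group, an abelian normal subgroup that is maximal among abelian normal subgroups equals its own centralizer. -/
theorem result {G : Type*} [Group G] [Finite G] [Group.IsNilpotent G]
    (N : Subgroup G) [N.Normal] [IsMulCommutative N]
    (hmax : ∀ M : Subgroup G, M.Normal → IsMulCommutative M → N ≤ M → M = N) :
    Subgroup.centralizer (N : Set G) = N := by
  classical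
  have hNC : N ≤ Subgroup.centralizer (N : Set G) := by
    intro x hx
    rw [Subgroup.mem_centralizer_iff]
    intro y hy
    exact setLike_mul_comm hy hx
  refine le_antisymm ?_ hNC
  by_contra hne
  have hCn : (Subgroup.centralizer (N : Set G)).Normal := inferInstance
  have hmap : (Subgroup.centralizer (N : Set G)).map (QuotientGroup.mk' N) ≠ ⊥ := by
    intro h
    apply hne
    rw [Subgroup.map_eq_bot_iff, QuotientGroup.ker_mk'] at h
    exact h
  have : ((Subgroup.centralizer (N : Set G)).map (QuotientGroup.mk' N)).Normal :=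
    Subgroup.Normal.map hCn _ (QuotientGroup.mk'_surjective N)
  have h65 := Cfsg.Agent.S0065.result _ hmap
  obtain ⟨⟨z, hz⟩, hz1⟩ := Subgroup.ne_bot_iff_exists_ne_one.mp h65
  obtain ⟨hzC, hzZ⟩ := Subgroup.mem_inf.mp hz
  obtain ⟨x, hxC, rfl⟩ := Subgroup.mem_map.mp hzC
  have hxN : x ∉ N := by
    intro hx
    apply hz1
    ext
    simpa using (QuotientGroup.eq_one_iff x).mpr hx
  have hcommM : IsMulCommutative (Subgroup.closure ((N : Set G) ∪ {x})) := by
    apply Subgroup.isMulCommutative_closure
    rw [Subgroup.mem_centralizer_iff] at hxC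
    rintro a (ha | ha) b (hb | hb)
    · exact setLike_mul_comm ha hb
    · rw [Set.mem_singleton_iff.mp hb]; exact hxC a ha
    · rw [Set.mem_singleton_iff.mp ha]; exact (hxC b hb).symm
    · rw [Set.mem_singleton_iff.mp ha, Set.mem_singleton_iff.mp hb]
  have hNM : N ≤ Subgroup.closure ((N : Set G) ∪ {x}) := fun a ha =>
    Subgroup.subset_closure (Or.inl ha)
  have hnormM : (Subgroup.closure ((N : Set G) ∪ {x})).Normal := by
    refine ⟨fun n hn g => ?_⟩
    induction hn using Subgroup.closure_induction with
    | mem a ha =>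
      rcases ha with ha | ha
      · exact hNM (‹N.Normal›.conj_mem a ha g)
      · rw [Set.mem_singleton_iff.mp ha]
        have h1 : g * x * g⁻¹ * x⁻¹ ∈ N := by
          rw [← QuotientGroup.eq_one_iff]
          have h2 := Subgroup.mem_center_iff.mp hzZ (QuotientGroup.mk' N g)
          simp only [QuotientGroup.mk'_apply] at h2
          rw [QuotientGroup.mk_mul, QuotientGroup.mk_mul, QuotientGroup.mk_mul, h2,
            QuotientGroup.mk_inv, QuotientGroup.mk_inv]
          group
        have h3 : g * x * g⁻¹ = (g * x * g⁻¹ * x⁻¹) * x := by group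
        rw [h3]
        exact mul_mem (hNM h1) (Subgroup.subset_closure (Or.inr rfl))
    | one => simp
    | mul a b _ _ ha hb =>
      have h3 : g * (a * b) * g⁻¹ = (g * a * g⁻¹) * (g * b * g⁻¹) := by group
      rw [h3]; exact mul_mem ha hb
    | inv a _ ha =>
      have h3 : g * a⁻¹ * g⁻¹ = (g * a * g⁻¹)⁻¹ := by group
      rw [h3]; exact inv_mem ha
  have := hmax _ hnormM hcommM hNM
  apply hxN
  rw [← this]
  exact Subgroup.subset_closure (Or.inr rfl)

end Cfsg.Agent.S0015
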