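import Mathlib
import Cfsg.Statements.S0020
import Cfsg.Agent.Lib_helper1_CompSys

set_option autoImplicit false
open Pointwise
open Cfsg

namespace Cfsg.Agent.S0020

open Pointwise
open Cfsg.Agent.H1 Subgroup

/-- A finite solvable group admits a Sylow system: Sylow subgroups, one for each prime, that pairwise permute as sets. -/
theorem result {G : Type*} [Group G] [Finite G] [Group.IsSolvable G] :
    ∃ S : (p : Nat.Primes) → Sylow (p : ℕ) G,
      ∀ p q : Nat.Primes, (S p : Set G) * (S q : Set G) = (S q : Set G) * (S p : Set G) := by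
  classical
  obtain ⟨K, hK⟩ := exists_complementSystem G
  obtain ⟨T0, hT0⟩ := exists_finset_primes (Nat.card G) Nat.card_pos.ne'
  let U : Nat.Primes → Subgroup G := fun p => (T0.erase p).inf K
  have hUpg : ∀ p : Nat.Primes, IsPGroup (p : ℕ) (U p) := by
    intro p
    have hpow := Nat.eq_prime_pow_of_unique_prime_dvd (n := Nat.card (U p)) (p := p) Nat.card_pos.ne'
      (fun {d} hd hdU => by
        by_contra hdp
        obtain ⟨dd, hdd⟩ : ∃ dd : Nat.Primes, (dd : ℕ) = d := ⟨⟨d, hd⟩, rfl⟩
        subst hdd
        have hmem : dd ∈ T0.erase p := Finset.mem_erase.mpr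
          ⟨fun h => hdp (by rw [h]), (hT0 dd).mpr (hdU.trans (card_subgroup_dvd_card _))⟩
        exact cs_not_dvd_card_inf hK _ hmem hdU)
    haveI : Fact (p : ℕ).Prime := ⟨p.2⟩
    exact IsPGroup.of_card hpow
  have hUidx : ∀ p : Nat.Primes, ¬ (p : ℕ) ∣ (U p).index := by
    intro p hd
    obtain ⟨q, hq, hqp⟩ := cs_prime_dvd_index_inf hK _ p.2 hd
    exact (Finset.mem_erase.mp hq).1 (Subtype.ext hqp)
  haveI hfact : ∀ p : Nat.Primes, Fact (p : ℕ).Prime := fun p => ⟨p.2⟩
  have hUcard : ∀ p : Nat.Primes, Nat.card (U p) = (K p).index := by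
    intro p
    have := ((hUpg p).toSylow (hUidx p)).card_eq_multiplicity
    rw [hK p]
    exact this
  have main : ∀ p q : Nat.Primes, p ≠ q → q ∈ T0 →
      ((((T0.erase p).erase q).inf K : Subgroup G) : Set G) = (U p : Set G) * (U q : Set G) := by
    intro p q hpq hq
    have hq' : q ∈ T0.erase p := Finset.mem_erase.mpr ⟨fun h => hpq h.symm, hq⟩
    apply coe_eq_mul_of_card
    · exact Finset.inf_mono (Finset.erase_subset _ _)
    · rw [Finset.erase_right_comm]
      exact Finset.inf_mono (Finset.erase_subset _ _)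
    · have hinf : U p ⊓ U q = ⊥ := by
        apply (disjoint_of_coprime_natCard _).eq_bot
        rw [hUcard, hUcard]
        exact cs_coprime_index hK hpq
      rw [hinf, card_bot, mul_one]
      have h1 : (U p).index = (K q).index * (((T0.erase p).erase q).inf K).index := by
        rw [cs_index_inf hK, cs_index_inf hK]
        exact (Finset.mul_prod_erase _ (fun r => (K r).index) hq').symm
      have h2 := (U p).index_mul_card
      have h3 := (((T0.erase p).erase q).inf K).index_mul_card
      rw [h1, ← h3, ← hUcard q] at h2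
      have hpos : 0 < (((T0.erase p).erase q).inf K).index :=
        Nat.pos_of_ne_zero index_ne_zero_of_finite
      have h4 : (((T0.erase p).erase q).inf K).index * (Nat.card (U p) * Nat.card (U q)) =
          (((T0.erase p).erase q).inf K).index * Nat.card (((T0.erase p).erase q).inf K : Subgroup G) := by
        rw [← h2]; ring
      exact (Nat.eq_of_mul_eq_mul_left hpos h4).symm
  have htriv : ∀ p : Nat.Primes, p ∉ T0 → U p = ⊥ := by
    intro p hp
    rw [← card_eq_one, hUcard, hK p, Nat.factorization_eq_zero_of_not_dvd (fun h => hp ((hT0 p).mpr h)),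
      pow_zero]
  refine ⟨fun p => (hUpg p).toSylow (hUidx p), fun p q => ?_⟩
  change (U p : Set G) * (U q : Set G) = (U q : Set G) * (U p : Set G)
  by_cases hpq : p = q
  · rw [hpq]
  by_cases hp : p ∈ T0
  · by_cases hq : q ∈ T0
    · rw [← main p q hpq hq, ← main q p (fun h => hpq h.symm) hp, Finset.erase_right_comm]
    · rw [htriv q hq, coe_bot]
      simp
  · rw [htriv p hp, coe_bot]
    simp

end Cfsg.Agent.S0020
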