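import Mathlib
import Cfsg.Statements.S0021
import Cfsg.Agent.Lib_helper1_Fact
import Cfsg.Agent.S0006

set_option autoImplicit false
open Pointwise
open Cfsg

namespace Cfsg.Agent.S0021

open Pointwise
open Cfsg.Agent.H1 Subgroup

theorem join_props {G : Type*} [Group G] [Finite G]
    (S : (p : Nat.Primes) → Sylow (p : ℕ) G)
    (hS : ∀ p q : Nat.Primes, (S p : Set G) * (S q : Set G) = (S q : Set G) * (S p : Set G))
    (T : Finset Nat.Primes) :
    (∀ r : Nat.Primes, ((T.sup (fun q => (S q : Subgroup G)) : Subgroup G) : Set G) * (S r : Set G) =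
      (S r : Set G) * ((T.sup (fun q => (S q : Subgroup G)) : Subgroup G) : Set G)) ∧
    (∀ l : ℕ, l.Prime → l ∣ Nat.card (T.sup (fun q => (S q : Subgroup G)) : Subgroup G) →
      ∃ q ∈ T, (q : ℕ) = l) := by
  classical
  induction T using Finset.induction_on with
  | empty =>
    refine ⟨fun r => ?_, fun l hl hd => ?_⟩
    · rw [Finset.sup_empty, coe_bot]
      simp
    · rw [Finset.sup_empty, card_bot] at hd
      exact absurd (Nat.dvd_one.mp hd) hl.one_lt.ne'
  | insert b T hb ih =>
    obtain ⟨ih1, ih2⟩ := ih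
    rw [Finset.sup_insert]
    have hbT : ((S b : Subgroup G) : Set G) * ((T.sup (fun q => (S q : Subgroup G)) : Subgroup G) : Set G)
        = ((T.sup (fun q => (S q : Subgroup G)) : Subgroup G) : Set G) * ((S b : Subgroup G) : Set G) :=
      (ih1 b).symm
    refine ⟨fun r => sup_mul_comm hbT (hS b r) (ih1 r), fun l hl hd => ?_⟩
    have h1 := card_sup_mul_card_inf_of_mul_comm hbT
    have h2 : l ∣ Nat.card (S b : Subgroup G) *
        Nat.card (T.sup (fun q => (S q : Subgroup G)) : Subgroup G) := by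
      rw [← h1]; exact Dvd.dvd.mul_right hd _
    rcases (Nat.Prime.dvd_mul hl).mp h2 with h | h
    · haveI : Fact (b : ℕ).Prime := ⟨b.2⟩
      obtain ⟨k, hk⟩ := IsPGroup.iff_card.mp (S b).2
      rw [hk] at h
      exact ⟨b, Finset.mem_insert_self _ _,
        ((Nat.prime_dvd_prime_iff_eq hl b.2).mp (hl.dvd_of_dvd_pow h)).symm⟩
    · obtain ⟨q, hq, hql⟩ := ih2 l hl h
      exact ⟨q, Finset.mem_insert_of_mem hq, hql⟩


/-- A finite group with a family of pairwise permuting Sylow subgroups, one for each prime, is solvable (this direction rests on Burnside's two-prime Theorem). -/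
theorem result {G : Type*} [Group G] [Finite G]
    (S : (p : Nat.Primes) → Sylow (p : ℕ) G)
    (hS : ∀ p q : Nat.Primes, (S p : Set G) * (S q : Set G) = (S q : Set G) * (S p : Set G)) :
    Group.IsSolvable G := by
  classical
  apply Cfsg.Agent.S0006.result
  intro p hp
  obtain ⟨T0, hT0⟩ : ∃ T0 : Finset Nat.Primes, ∀ q : Nat.Primes, q ∈ T0 ↔ (q : ℕ) ∣ Nat.card G := by
    have hfin : {q : Nat.Primes | (q : ℕ) ∣ Nat.card G}.Finite := by
      have h1 : {q : Nat.Primes | (q : ℕ) ∣ Nat.card G} =
          (fun q : Nat.Primes => (q : ℕ)) ⁻¹' ((Nat.card G).divisors : Set ℕ) := by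
        ext q
        simp [Nat.card_pos.ne']
      rw [h1]
      exact Set.Finite.preimage (Set.injOn_of_injective Subtype.coe_injective)
        (Finset.finite_toSet _)
    exact ⟨hfin.toFinset, fun q => by rw [Set.Finite.mem_toFinset]; rfl⟩
  obtain ⟨pp, hpp⟩ : ∃ pp : Nat.Primes, (pp : ℕ) = p := ⟨⟨p, hp⟩, rfl⟩
  set T : Finset Nat.Primes := T0.erase pp with hT
  obtain ⟨-, h2⟩ := join_props S hS T
  set H : Subgroup G := T.sup (fun q => (S q : Subgroup G)) with hH
  refine ⟨H, ?_⟩
  have hpH : ¬ p ∣ Nat.card H := by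
    intro hd
    obtain ⟨q, hq, hqp⟩ := h2 p hp hd
    rw [hT, Finset.mem_erase] at hq
    exact hq.1 (Subtype.ext (hqp.trans hpp.symm))
  have hidx := Nat.eq_prime_pow_of_unique_prime_dvd (n := H.index) (p := p)
    index_ne_zero_of_finite (fun {d} hd hdi => by
      by_contra hdp
      have hdG : d ∣ Nat.card G := hdi.trans (index_dvd_card H)
      obtain ⟨dd, hdd⟩ : ∃ dd : Nat.Primes, (dd : ℕ) = d := ⟨⟨d, hd⟩, rfl⟩
      subst hdd
      have hmem : dd ∈ T := by
        rw [hT, Finset.mem_erase, hT0]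
        exact ⟨fun h => hdp (by rw [h, hpp]), hdG⟩
      have hle : (S dd : Subgroup G) ≤ H :=
        Finset.le_sup (f := fun q => (S q : Subgroup G)) hmem
      haveI : Fact (dd : ℕ).Prime := ⟨dd.2⟩
      exact (S dd).not_dvd_index (hdi.trans (index_dvd_of_le hle)))
  rw [hidx]
  congr 1
  have hmul := H.index_mul_card
  have hfac : (Nat.card G).factorization p =
      H.index.factorization p + (Nat.card H).factorization p := by
    rw [← hmul, Nat.factorization_mul index_ne_zero_of_finite Nat.card_pos.ne']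
    rfl
  rw [Nat.factorization_eq_zero_of_not_dvd hpH, add_zero] at hfac
  rw [hfac]
  conv_rhs => rw [hidx]
  rw [Nat.factorization_pow, Finsupp.smul_apply, hp.factorization_self, smul_eq_mul, mul_one]

end Cfsg.Agent.S0021
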