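import Mathlib
import Cfsg.Statements.S0022
import Cfsg.Agent.Lib_helper1_SZ

set_option autoImplicit false
open Cfsg

namespace Cfsg.Agent.S0022


/-- Under coprime action fixed points pass to quotients: with A normalising K, coprime orders, A or K solvable, and N an A-invariant normal subgroup of K, every coset of N in K fixed by conjugation by A contains an element centralised by A. -/
theorem result {G : Type*} [Group G] [Finite G] (A K : Subgroup G) (hAK : A ≤ Subgroup.normalizer (K : Set G))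
    (hcop : (Nat.card A).Coprime (Nat.card K)) (hsolv : Group.IsSolvable A ∨ Group.IsSolvable K)
    (N : Subgroup G) (hNK : N ≤ K) (hNnormal : K ≤ Subgroup.normalizer (N : Set G)) (hNA : A ≤ Subgroup.normalizer (N : Set G))
    (k : G) (hk : k ∈ K) (hfix : ∀ a ∈ A, a * k * a⁻¹ * k⁻¹ ∈ N) :
    ∃ c ∈ K ⊓ Subgroup.centralizer (A : Set G), k⁻¹ * c ∈ N := by
  have hx : ∀ a ∈ A, a⁻¹ * k⁻¹ * a * k ∈ N := by
    intro a ha
    have h1 := hfix a⁻¹ (inv_mem ha)
    rw [inv_inv] at h1
    have h2 := ((Subgroup.mem_normalizer_iff''.mp (hNnormal hk)) _).mp h1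
    have h3 := inv_mem h2
    have e : (k⁻¹ * (a⁻¹ * k * a * k⁻¹) * k)⁻¹ = a⁻¹ * k⁻¹ * a * k := by group
    rwa [e] at h3
  obtain ⟨d, hd, hc⟩ := Cfsg.Agent.H1.coprime_key A N hNA
    (Nat.Coprime.coprime_dvd_right (Subgroup.card_dvd_of_le hNK) hcop)
    (hsolv.imp id (Cfsg.Agent.H1.isSolvable_of_le hNK)) k hx
  exact ⟨k * d, ⟨mul_mem hk (hNK hd), hc⟩, by simpa using hd⟩

end Cfsg.Agent.S0022
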