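import Mathlib
import Cfsg.Statements.S0029
import Cfsg.Agent.Lib_helper1_SZ

set_option autoImplicit false
open Cfsg

namespace Cfsg.Agent.S0029


/-- An action that is trivial on the Frattini quotient and coprime on the Frattini subgroup is trivial: if A normalises K, the orders of A and of the Frattini subgroup of K are coprime, and every commutator of an element of A with an element of K lies in the Frattini subgroup of K, then A centralises K. -/
theorem result {G : Type*} [Group G] [Finite G] (A K : Subgroup G)
    (hAK : A ≤ Subgroup.normalizer (K : Set G))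
    (hcop : (Nat.card A).Coprime (Nat.card (frattini K)))
    (htriv : ∀ a ∈ A, ∀ k ∈ K, a * k * a⁻¹ * k⁻¹ ∈ (frattini K).map K.subtype) :
    A ≤ Subgroup.centralizer (K : Set G) := by
  set D := (frattini K).map K.subtype with hD
  have hDK : D ≤ K := Subgroup.map_subtype_le _
  have hDn : A ≤ Subgroup.normalizer (D : Set G) :=
    hAK.trans (Cfsg.Agent.H1.normalizer_le_normalizer_map_of_characteristic K (frattini K))
  have hcard : Nat.card D = Nat.card (frattini K) :=
    Subgroup.card_map_of_injective K.subtype_injective
  have hsol : Group.IsSolvable D := by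
    have : Group.IsNilpotent (frattini K) := frattini_nilpotent
    exact Cfsg.Agent.H1.isSolvable_map _ inferInstance
  have key : ∀ k ∈ K, ∃ d ∈ D, k * d ∈ Subgroup.centralizer (A : Set G) := by
    intro k hk
    apply Cfsg.Agent.H1.coprime_key A D hDn (hcard ▸ hcop) (Or.inr hsol) k
    intro a ha
    have h1 := htriv a⁻¹ (inv_mem ha) k⁻¹ (inv_mem hk)
    simpa using h1
  have h2 : (Subgroup.centralizer (A : Set G)).subgroupOf K ⊔ frattini K = ⊤ := by
    rw [eq_top_iff]
    intro k _
    obtain ⟨d, hd, hc⟩ := key k k.2
    obtain ⟨d', hd', rfl⟩ := hd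
    have e : k = (k * d') * d'⁻¹ := by group
    rw [e]
    exact mul_mem (Subgroup.mem_sup_left (Subgroup.mem_subgroupOf.mpr hc))
      (Subgroup.mem_sup_right (inv_mem hd'))
  have h3 := frattini_nongenerating h2
  rw [Subgroup.subgroupOf_eq_top] at h3
  exact Subgroup.le_centralizer_iff.mp h3

end Cfsg.Agent.S0029
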