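import Mathlib
import Cfsg.Statements.S0030
import Cfsg.Agent.Lib_helper1_SZ

set_option autoImplicit false
open Cfsg

namespace Cfsg.Agent.S0030


/-- Under coprime action fixed points of a product of two invariant subgroups factor: if K = X Y with X and Y normalised by A then every A-fixed element of K is a product of an A-fixed element of X and an A-fixed element of Y. -/
theorem result {G : Type*} [Group G] [Finite G] (A K : Subgroup G) (hAK : A ≤ Subgroup.normalizer (K : Set G))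
    (hcop : (Nat.card A).Coprime (Nat.card K)) (hsolv : Group.IsSolvable A ∨ Group.IsSolvable K)
    (X Y : Subgroup G) (hX : X ≤ K) (hY : Y ≤ K) (hXA : A ≤ Subgroup.normalizer (X : Set G)) (hYA : A ≤ Subgroup.normalizer (Y : Set G))
    (hXY : ∀ k ∈ K, ∃ x ∈ X, ∃ y ∈ Y, k = x * y) (k : G) (hk : k ∈ K ⊓ Subgroup.centralizer (A : Set G)) :
    ∃ x ∈ X ⊓ Subgroup.centralizer (A : Set G), ∃ y ∈ Y ⊓ Subgroup.centralizer (A : Set G), k = x * y := by
  obtain ⟨x, hx, y, hy, hxy⟩ := hXY k hk.1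
  have hkc : ∀ a ∈ A, a * k = k * a := fun a ha => (Subgroup.mem_centralizer_iff.mp hk.2) a ha
  have hDn : A ≤ Subgroup.normalizer ((X ⊓ Y : Subgroup G) : Set G) := by
    apply Cfsg.Agent.H1.le_normalizer_of_forall
    intro a ha z hz
    exact ⟨Cfsg.Agent.H1.conj_mem_of_le_normalizer hXA ha hz.1,
      Cfsg.Agent.H1.conj_mem_of_le_normalizer hYA ha hz.2⟩
  have hDK : X ⊓ Y ≤ K := inf_le_left.trans hX
  have hxx : ∀ a ∈ A, a⁻¹ * x⁻¹ * a * x ∈ X ⊓ Y := by
    intro a ha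
    refine Subgroup.mem_inf.mpr ⟨?_, ?_⟩
    · exact mul_mem (Cfsg.Agent.H1.conj_mem_of_le_normalizer' hXA ha (inv_mem hx)) hx
    · have e : a⁻¹ * x⁻¹ * a * x = (a⁻¹ * y * a) * y⁻¹ := by
        have h1 : x = k * y⁻¹ := by rw [hxy]; group
        have h2 : a⁻¹ * k⁻¹ * a = k⁻¹ := by
          have := hkc a ha
          have h3 : k⁻¹ * a = a * k⁻¹ := by
            calc k⁻¹ * a = k⁻¹ * (a * k) * k⁻¹ := by group
              _ = k⁻¹ * (k * a) * k⁻¹ := by rw [this]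
              _ = a * k⁻¹ := by group
          rw [mul_assoc, h3]; group
        calc a⁻¹ * x⁻¹ * a * x = a⁻¹ * (k * y⁻¹)⁻¹ * a * (k * y⁻¹) := by rw [← h1]
          _ = (a⁻¹ * y * a) * (a⁻¹ * k⁻¹ * a) * k * y⁻¹ := by group
          _ = (a⁻¹ * y * a) * y⁻¹ := by rw [h2]; group
      rw [e]
      exact mul_mem (Cfsg.Agent.H1.conj_mem_of_le_normalizer' hYA ha hy) (inv_mem hy)
  obtain ⟨d, hd, hc⟩ := Cfsg.Agent.H1.coprime_key A (X ⊓ Y) hDn
    (Nat.Coprime.coprime_dvd_right (Subgroup.card_dvd_of_le hDK) hcop)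
    (hsolv.imp id (Cfsg.Agent.H1.isSolvable_of_le hDK)) x hxx
  refine ⟨x * d, Subgroup.mem_inf.mpr ⟨mul_mem hx hd.1, hc⟩, d⁻¹ * y,
    Subgroup.mem_inf.mpr ⟨mul_mem (inv_mem hd.2) hy, ?_⟩, by rw [hxy]; group⟩
  have e : d⁻¹ * y = (x * d)⁻¹ * k := by rw [hxy]; group
  rw [e]
  exact mul_mem (inv_mem hc) hk.2

end Cfsg.Agent.S0030
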