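import Cfsg.Statements.S0037
import Mathlib
import Cfsg.Agent.Lib_lead_Frob
import Cfsg.Agent.S3383

set_option autoImplicit false
open Pointwise
open Cfsg

namespace Cfsg.Agent.S0037

open scoped Pointwise


/-- Of two Frobenius complements in one finite group, the one of smaller (or equal) order is conjugate to a subgroup of the other. -/
theorem result {G : Type*} [Group G] [Finite G] (H H₀ : Subgroup G)
    (hH : Cfsg.IsFrobeniusComplement H) (hH₀ : Cfsg.IsFrobeniusComplement H₀) (hle : Nat.card H₀ ≤ Nat.card H) :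
    ∃ g : G, MulAut.conj g • H₀ ≤ H := by
  obtain ⟨N, hN, hNn, hc⟩ := Cfsg.Agent.H3.frobenius_theorem H hH
  obtain ⟨N₀, hN₀, hNn₀, hc₀⟩ := Cfsg.Agent.H3.frobenius_theorem H₀ hH₀
  have cN := Cfsg.Agent.LeadFrob.card_kernel_subgroup hH hN
  have cN₀ := Cfsg.Agent.LeadFrob.card_kernel_subgroup hH₀ hN₀
  have hidx : H.index ≤ H₀.index := by
    have e1 := H.card_mul_index
    have e2 := H₀.card_mul_index
    have hpos : 0 < Nat.card H₀ := Nat.card_pos
    by_contra hlt
    push Not at hlt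
    have : Nat.card H₀ * H₀.index < Nat.card H * H.index :=
      calc Nat.card H₀ * H₀.index < Nat.card H₀ * H.index := Nat.mul_lt_mul_of_pos_left hlt hpos
        _ ≤ Nat.card H * H.index := Nat.mul_le_mul_right _ hle
    omega
  have hle2 : N ≤ N₀ := by
    rcases Cfsg.Agent.S3383.dichotomy H hH N hN N₀ hNn₀ with h | h
    · exact h
    · exact (Subgroup.eq_of_le_of_card_ge h (by rw [cN, cN₀]; exact hidx)).ge
  obtain ⟨g, hg⟩ := Cfsg.Agent.LeadFrob.le_conj_of_frob H H₀ hH (by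
    intro x hx hx1 hxk
    rw [← hN] at hxk
    have h1 : x ∈ N₀ ⊓ H₀ := ⟨hle2 hxk, hx⟩
    rw [hc₀.disjoint.eq_bot, Subgroup.mem_bot] at h1
    exact hx1 h1)
  refine ⟨g⁻¹, ?_⟩
  calc MulAut.conj g⁻¹ • H₀ ≤ MulAut.conj g⁻¹ • (MulAut.conj g • H) :=
        Subgroup.pointwise_smul_le_pointwise_smul_iff.2 hg
    _ = H := by rw [← mul_smul, ← map_mul]; simp

end Cfsg.Agent.S0037
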