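import Mathlib
import Cfsg.Statements.S0043
import Cfsg.Agent.Lib_helper1_Frattini

set_option autoImplicit false
open Cfsg

namespace Cfsg.Agent.S0043

open scoped commutatorElement

/-- A minimal normal subgroup of a finite solvable group is abelian, and for some prime p all of its elements have order dividing p. -/
theorem result {G : Type*} [Group G] [Finite G] [Group.IsSolvable G]
    (N : Subgroup G) [N.Normal] (hN : N ≠ ⊥) (hmin : ∀ M : Subgroup G, M.Normal → M ≤ N → M = ⊥ ∨ M = N) :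
    IsMulCommutative N ∧ ∃ p : ℕ, p.Prime ∧ ∀ x ∈ N, x ^ p = 1 := by
  have h1 : ⁅N, N⁆ < N := Group.IsSolvable.commutator_lt_of_ne_bot hN
  have h2 : ⁅N, N⁆ = ⊥ := (hmin _ inferInstance h1.le).resolve_right h1.ne
  have hc : ∀ a ∈ N, ∀ b ∈ N, a * b = b * a := by
    intro a ha b hb
    have : ⁅a, b⁆ ∈ ⁅N, N⁆ := Subgroup.commutator_mem_commutator ha hb
    rwa [h2, Subgroup.mem_bot, commutatorElement_eq_one_iff_mul_comm] at this
  refine ⟨⟨⟨fun a b => Subtype.ext (hc a a.2 b b.2)⟩⟩, ?_⟩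
  have hcard : Nat.card N ≠ 1 := fun h => hN (Subgroup.card_eq_one.mp h)
  set p := (Nat.card N).minFac with hp
  have hpp : p.Prime := Nat.minFac_prime hcard
  have : Fact p.Prime := ⟨hpp⟩
  refine ⟨p, hpp, ?_⟩
  let M : Subgroup G :=
    { carrier := {x | x ∈ N ∧ x ^ p = 1}
      one_mem' := ⟨one_mem _, one_pow _⟩
      mul_mem' := by
        rintro a b ⟨ha, ha'⟩ ⟨hb, hb'⟩
        refine ⟨mul_mem ha hb, ?_⟩
        rw [(show Commute a b from hc a ha b hb).mul_pow, ha', hb', one_mul]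
      inv_mem' := by
        rintro a ⟨ha, ha'⟩
        exact ⟨inv_mem ha, by rw [inv_pow, ha', inv_one]⟩ }
  have hMn : M.Normal := by
    refine ⟨fun x hx g => ⟨‹N.Normal›.conj_mem x hx.1 g, ?_⟩⟩
    rw [conj_pow, hx.2]; group
  have hMN : M ≤ N := fun x hx => hx.1
  obtain ⟨x, hx⟩ := exists_prime_orderOf_dvd_card' (G := N) p (Nat.minFac_dvd _)
  have hMne : M ≠ ⊥ := by
    intro h
    have hxM : (x : G) ∈ M := by
      refine ⟨x.2, ?_⟩
      have := pow_orderOf_eq_one x
      rw [hx] at this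
      exact_mod_cast congrArg Subtype.val this
    rw [h, Subgroup.mem_bot] at hxM
    have : x = 1 := Subtype.ext hxM
    rw [this, orderOf_one] at hx
    exact hpp.one_lt.ne hx
  have hMeq : M = N := (hmin M hMn hMN).resolve_left hMne
  intro y hy
  rw [← hMeq] at hy
  exact hy.2

end Cfsg.Agent.S0043
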