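import Mathlib
import Cfsg.Statements.S0572

set_option autoImplicit false
open Cfsg

namespace Cfsg.Agent.S0572

open scoped commutatorElement

theorem comm1 {G : Type*} [Group G] (a a₁ b₁ : G) (h : a * a₁ = a₁ * a) :
    ⁅a, b₁ * a₁⁆ = ⁅a, b₁⁆ := by
  rw [commutatorElement_def, commutatorElement_def]
  have h1 : a₁ * a⁻¹ * a₁⁻¹ = a⁻¹ := by
    have : a₁ * a⁻¹ = a⁻¹ * a₁ := by
      calc a₁ * a⁻¹ = a⁻¹ * (a * a₁) * a⁻¹ := by group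
        _ = a⁻¹ * (a₁ * a) * a⁻¹ := by rw [h]
        _ = a⁻¹ * a₁ := by group
    rw [this]; group
  calc a * (b₁ * a₁) * a⁻¹ * (b₁ * a₁)⁻¹ = a * b₁ * (a₁ * a⁻¹ * a₁⁻¹) * b₁⁻¹ := by group
    _ = a * b₁ * a⁻¹ * b₁⁻¹ := by rw [h1]

theorem comm2 {G : Type*} [Group G] (a₂ b₂ b₁ : G) (h : b₂ * b₁ = b₁ * b₂) :
    ⁅a₂ * b₂, b₁⁆ = ⁅a₂, b₁⁆ := by
  rw [commutatorElement_def, commutatorElement_def]
  have h1 : b₂ * b₁ * b₂⁻¹ = b₁ := by rw [h]; group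
  calc a₂ * b₂ * b₁ * (a₂ * b₂)⁻¹ * b₁⁻¹ = a₂ * (b₂ * b₁ * b₂⁻¹) * a₂⁻¹ * b₁⁻¹ := by group
    _ = a₂ * b₁ * a₂⁻¹ * b₁⁻¹ := by rw [h1]

theorem conj_comm {G : Type*} [Group G] (g x y : G) :
    g * ⁅x, y⁆ * g⁻¹ = ⁅g * x * g⁻¹, g * y * g⁻¹⁆ := by
  simp only [commutatorElement_def]; group

theorem conj_eq_of_comm {G : Type*} [Group G] (g x : G) (h : g * x = x * g) : g * x * g⁻¹ = x := by
  rw [h]; group

theorem main {G : Type*} [Group G] (A B : Subgroup G) [IsMulCommutative A] [IsMulCommutative B]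
    (hAB : ∀ g : G, ∃ a ∈ A, ∃ b ∈ B, g = a * b) :
    commutator G ≤ ⁅A, B⁆ ∧ ⁅⁅A, B⁆, ⁅A, B⁆⁆ = ⊥ := by
  have hA : ∀ x ∈ A, ∀ y ∈ A, x * y = y * x := fun x hx y hy =>
    congrArg Subtype.val (mul_comm' (⟨x, hx⟩ : A) ⟨y, hy⟩)
  have hB : ∀ x ∈ B, ∀ y ∈ B, x * y = y * x := fun x hx y hy =>
    congrArg Subtype.val (mul_comm' (⟨x, hx⟩ : B) ⟨y, hy⟩)
  have hBA : ∀ g : G, ∃ b ∈ B, ∃ a ∈ A, g = b * a := by
    intro g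
    obtain ⟨a, ha, b, hb, h⟩ := hAB g⁻¹
    exact ⟨b⁻¹, inv_mem hb, a⁻¹, inv_mem ha, by rw [← mul_inv_rev, ← h, inv_inv]⟩
  -- key identity
  have key : ∀ a ∈ A, ∀ b ∈ B, ∀ α ∈ A, ∀ β ∈ B,
      (β * α) * ⁅a, b⁆ * (β * α)⁻¹ = (α * β) * ⁅a, b⁆ * (α * β)⁻¹ := by
    intro a ha b hb α hα β hβ
    obtain ⟨b₁, hb₁, a₁, ha₁, h1⟩ := hBA (α * b * α⁻¹)
    obtain ⟨a₂, ha₂, b₂, hb₂, h2⟩ := hAB (β * a * β⁻¹)
    have e1 : (β * α) * ⁅a, b⁆ * (β * α)⁻¹ = ⁅a₂, b₁⁆ := by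
      calc (β * α) * ⁅a, b⁆ * (β * α)⁻¹ = β * (α * ⁅a, b⁆ * α⁻¹) * β⁻¹ := by group
        _ = β * ⁅a, b₁⁆ * β⁻¹ := by
            rw [conj_comm, conj_eq_of_comm α a (hA α hα a ha), h1, comm1 a a₁ b₁ (hA a ha a₁ ha₁)]
        _ = ⁅a₂, b₁⁆ := by
            rw [conj_comm, conj_eq_of_comm β b₁ (hB β hβ b₁ hb₁), h2, comm2 a₂ b₂ b₁ (hB b₂ hb₂ b₁ hb₁)]
    have e2 : (α * β) * ⁅a, b⁆ * (α * β)⁻¹ = ⁅a₂, b₁⁆ := by
      calc (α * β) * ⁅a, b⁆ * (α * β)⁻¹ = α * (β * ⁅a, b⁆ * β⁻¹) * α⁻¹ := by group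
        _ = α * ⁅a₂, b⁆ * α⁻¹ := by
            rw [conj_comm, conj_eq_of_comm β b (hB β hβ b hb), h2, comm2 a₂ b₂ b (hB b₂ hb₂ b hb)]
        _ = ⁅a₂, b₁⁆ := by
            rw [conj_comm, conj_eq_of_comm α a₂ (hA α hα a₂ ha₂), h1, comm1 a₂ a₁ b₁ (hA a₂ ha₂ a₁ ha₁)]
    rw [e1, e2]
  have hcomm : ∀ x ∈ {g | ∃ g₁ ∈ A, ∃ g₂ ∈ B, ⁅g₁, g₂⁆ = g},
      ∀ y ∈ {g | ∃ g₁ ∈ A, ∃ g₂ ∈ B, ⁅g₁, g₂⁆ = g}, x * y = y * x := by
    rintro _ ⟨a, ha, b, hb, rfl⟩ _ ⟨α, hα, β, hβ, rfl⟩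
    have h := key a ha b hb α⁻¹ (inv_mem hα) β⁻¹ (inv_mem hβ)
    set c := ⁅a, b⁆ with hc
    have h' : (α⁻¹ * β⁻¹)⁻¹ * (β⁻¹ * α⁻¹) * c = c * ((α⁻¹ * β⁻¹)⁻¹ * (β⁻¹ * α⁻¹)) := by
      calc (α⁻¹ * β⁻¹)⁻¹ * (β⁻¹ * α⁻¹) * c
          = (α⁻¹ * β⁻¹)⁻¹ * ((β⁻¹ * α⁻¹) * c * (β⁻¹ * α⁻¹)⁻¹) * (β⁻¹ * α⁻¹) := by group
        _ = (α⁻¹ * β⁻¹)⁻¹ * ((α⁻¹ * β⁻¹) * c * (α⁻¹ * β⁻¹)⁻¹) * (β⁻¹ * α⁻¹) := by rw [h]
        _ = c * ((α⁻¹ * β⁻¹)⁻¹ * (β⁻¹ * α⁻¹)) := by group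
    have e3 : (α⁻¹ * β⁻¹)⁻¹ * (β⁻¹ * α⁻¹) = β * α * β⁻¹ * α⁻¹ := by group
    have e4 : ⁅α, β⁆ = (β * α * β⁻¹ * α⁻¹)⁻¹ := by rw [commutatorElement_def]; group
    rw [e3] at h'
    rw [e4]
    have : Commute (β * α * β⁻¹ * α⁻¹) c := h'
    exact (this.inv_left).symm.eq
  have hD : ⁅⁅A, B⁆, ⁅A, B⁆⁆ = ⊥ := by
    rw [Subgroup.commutator_eq_bot_iff_le_centralizer, Subgroup.commutator_def,
      Subgroup.centralizer_closure, Subgroup.closure_le]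
    intro x hx
    rw [SetLike.mem_coe, Subgroup.mem_centralizer_iff]
    intro y hy
    exact hcomm y hy x hx
  refine ⟨?_, hD⟩
  -- normality of [A,B]
  have hnA : ∀ x ∈ A, ∀ z ∈ ⁅A, B⁆, x * z * x⁻¹ ∈ ⁅A, B⁆ := by
    intro x hx z hz
    rw [Subgroup.commutator_def] at hz
    induction hz using Subgroup.closure_induction with
    | mem z hz =>
      obtain ⟨a, ha, b, hb, rfl⟩ := hz
      have e : x * ⁅a, b⁆ * x⁻¹ = ⁅x * a, b⁆ * ⁅x, b⁆⁻¹ := by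
        simp only [commutatorElement_def]; group
      rw [e]
      exact mul_mem (Subgroup.commutator_mem_commutator (mul_mem hx ha) hb)
        (inv_mem (Subgroup.commutator_mem_commutator hx hb))
    | one => simp
    | mul y z _ _ ihy ihz =>
      have e : x * (y * z) * x⁻¹ = (x * y * x⁻¹) * (x * z * x⁻¹) := by group
      rw [e]; exact mul_mem ihy ihz
    | inv y _ ih =>
      have e : x * y⁻¹ * x⁻¹ = (x * y * x⁻¹)⁻¹ := by group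
      rw [e]; exact inv_mem ih
  have hnB : ∀ x ∈ B, ∀ z ∈ ⁅A, B⁆, x * z * x⁻¹ ∈ ⁅A, B⁆ := by
    intro x hx z hz
    rw [Subgroup.commutator_def] at hz
    induction hz using Subgroup.closure_induction with
    | mem z hz =>
      obtain ⟨a, ha, b, hb, rfl⟩ := hz
      have e : x * ⁅a, b⁆ * x⁻¹ = ⁅a, x⁆⁻¹ * ⁅a, x * b⁆ := by
        simp only [commutatorElement_def]; group
      rw [e]
      exact mul_mem (inv_mem (Subgroup.commutator_mem_commutator ha hx))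
        (Subgroup.commutator_mem_commutator ha (mul_mem hx hb))
    | one => simp
    | mul y z _ _ ihy ihz =>
      have e : x * (y * z) * x⁻¹ = (x * y * x⁻¹) * (x * z * x⁻¹) := by group
      rw [e]; exact mul_mem ihy ihz
    | inv y _ ih =>
      have e : x * y⁻¹ * x⁻¹ = (x * y * x⁻¹)⁻¹ := by group
      rw [e]; exact inv_mem ih
  have hn : (⁅A, B⁆ : Subgroup G).Normal := by
    refine ⟨fun z hz g => ?_⟩
    obtain ⟨a, ha, b, hb, rfl⟩ := hAB g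
    have e : a * b * z * (a * b)⁻¹ = a * (b * z * b⁻¹) * a⁻¹ := by group
    rw [e]
    exact hnA a ha _ (hnB b hb z hz)
  apply Subgroup.Normal.quotient_commutative_iff_commutator_le.mp
  refine ⟨⟨fun x y => ?_⟩⟩
  obtain ⟨g, rfl⟩ := QuotientGroup.mk'_surjective _ x
  obtain ⟨h, rfl⟩ := QuotientGroup.mk'_surjective _ y
  obtain ⟨a, ha, b, hb, rfl⟩ := hAB g
  obtain ⟨α, hα, β, hβ, rfl⟩ := hAB h
  have cAB : ∀ u ∈ A, ∀ v ∈ B, Commute (QuotientGroup.mk' ⁅A, B⁆ u) (QuotientGroup.mk' ⁅A, B⁆ v) := by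
    intro u hu v hv
    have h1 : ⁅u, v⁆ ∈ ⁅A, B⁆ := Subgroup.commutator_mem_commutator hu hv
    have h2 : QuotientGroup.mk' ⁅A, B⁆ ⁅u, v⁆ = 1 := (QuotientGroup.eq_one_iff _).mpr h1
    rw [map_commutatorElement, commutatorElement_eq_one_iff_commute] at h2
    exact h2
  have cAA : Commute (QuotientGroup.mk' ⁅A, B⁆ a) (QuotientGroup.mk' ⁅A, B⁆ α) := by
    change _ * _ = _ * _
    rw [← map_mul, ← map_mul, hA a ha α hα]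
  have cBB : Commute (QuotientGroup.mk' ⁅A, B⁆ b) (QuotientGroup.mk' ⁅A, B⁆ β) := by
    change _ * _ = _ * _
    rw [← map_mul, ← map_mul, hB b hb β hβ]
  rw [map_mul, map_mul]
  exact ((cAA.mul_right (cAB a ha β hβ)).mul_left ((cAB α hα b hb).symm.mul_right cBB)).eq

/-- Itô's Theorem: if a group G is the product AB of two abelian subgroups, then the commutator subgroup of G is abelian, i.e. the second term of the derived series is trivial. -/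
theorem result {G : Type*} [Group G] (A B : Subgroup G) [IsMulCommutative A] [IsMulCommutative B] (hAB : ∀ g : G, ∃ a ∈ A, ∃ b ∈ B, g = a * b) : derivedSeries G 2 = ⊥ := by
  obtain ⟨h1, h2⟩ := main A B hAB
  rw [show (2 : ℕ) = 1 + 1 from rfl, derivedSeries_succ, derivedSeries_one, eq_bot_iff, ← h2]
  exact Subgroup.commutator_mono h1 h1

end Cfsg.Agent.S0572
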