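import Mathlib
import Cfsg.Statements.S0049
import Cfsg.Agent.Lib_helper1_Frattini

set_option autoImplicit false
open Cfsg

namespace Cfsg.Agent.S0049


/-- A prime divisor of the order of a finite group also divides the index of the Frattini subgroup. -/
theorem result {G : Type*} [Group G] [Finite G] (p : ℕ) (hp : p.Prime) (hdvd : p ∣ Nat.card G) :
    p ∣ (frattini G).index := by
  have : Fact p.Prime := ⟨hp⟩
  by_contra h
  let P : Sylow p G := default
  have hPΦ : (P : Subgroup G) ≤ frattini G :=
    Cfsg.Agent.H1.le_of_isPGroup_of_not_dvd_index P.2 h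
  have h1 := Sylow.normalizer_sup_eq_top' P hPΦ
  have h2 := frattini_nongenerating h1
  have hPn : (P : Subgroup G).Normal := Subgroup.normalizer_eq_top_iff.mp h2
  obtain ⟨H, hH⟩ := Subgroup.exists_right_complement'_of_coprime P.card_coprime_index
  have h3 : H ⊔ frattini G = ⊤ := by
    rw [eq_top_iff, ← hH.sup_eq_top, sup_comm]
    exact sup_le_sup_left hPΦ H
  have h4 := frattini_nongenerating h3
  rw [h4, Subgroup.isComplement'_top_right] at hH
  exact P.ne_bot_of_dvd_card hdvd hH

end Cfsg.Agent.S0049
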