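import Mathlib
import Cfsg.Statements.S0050
import Cfsg.Agent.Lib_helper1_Coprime

set_option autoImplicit false
open Cfsg

namespace Cfsg.Agent.S0050

open Pointwise

/-- Frattini argument for Hall subgroups: if L is a solvable normal subgroup and H a subgroup of L of order coprime to its index in L, then L together with the normaliser of H generates the whole group. -/
theorem result {G : Type*} [Group G] [Finite G] (L : Subgroup G) [L.Normal] (hL : Group.IsSolvable L)
    (H : Subgroup G) (hHL : H ≤ L) (hHall : (Nat.card H).Coprime (H.relIndex L)) :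
    L ⊔ Subgroup.normalizer (H : Set G) = ⊤ := by
  rw [eq_top_iff]
  intro g _
  have h1 : MulAut.conj g • H ≤ L := by
    have : MulAut.conj g • H ≤ MulAut.conj g • L :=
      Subgroup.pointwise_smul_le_pointwise_smul_iff.mpr hHL
    rwa [Subgroup.Normal.conj_smul_eq_self g L] at this
  obtain ⟨l, hl, hl'⟩ := Cfsg.Agent.H1.hall_conj_internal L H (MulAut.conj g • H) hL hHL h1
    (Cfsg.Agent.H1.card_conj_smul g H).symm hHall
  have h2 : l⁻¹ * g ∈ Subgroup.normalizer (H : Set G) := by
    rw [← Cfsg.Agent.H1.conj_smul_eq_iff_mem_normalizer, map_mul, mul_smul, ← hl', ← mul_smul,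
      ← map_mul, inv_mul_cancel, map_one, one_smul]
  have e : g = l * (l⁻¹ * g) := by group
  rw [e]
  exact mul_mem (Subgroup.mem_sup_left hl) (Subgroup.mem_sup_right h2)

end Cfsg.Agent.S0050
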