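import Mathlib
import Cfsg.Statements.S0053
import Cfsg.Agent.Lib_helper1_Frattini

set_option autoImplicit false
open Cfsg

namespace Cfsg.Agent.S0053


/-- An abelian minimal normal subgroup N of a finite group is complemented exactly when N is not inside the Frattini subgroup. -/
theorem result {G : Type*} [Group G] [Finite G]
    (N : Subgroup G) [N.Normal] [IsMulCommutative N] (hN : N ≠ ⊥)
    (hmin : ∀ M : Subgroup G, M.Normal → M ≤ N → M = ⊥ ∨ M = N) :
    (∃ H : Subgroup G, Subgroup.IsComplement' N H) ↔ ¬ N ≤ frattini G := by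
  constructor
  · rintro ⟨H, hH⟩ hle
    have hHt : H ≠ ⊤ := by
      rintro rfl
      exact hN (Subgroup.isComplement'_top_right.mp hH)
    obtain ⟨M, hM, hHM⟩ := (eq_top_or_exists_le_coatom H).resolve_left hHt
    have h1 : N ⊔ H ≤ M := sup_le (hle.trans (frattini_le_coatom hM)) hHM
    rw [hH.sup_eq_top, top_le_iff] at h1
    exact hM.1 h1
  · intro h
    obtain ⟨M, hM, hNM⟩ := Cfsg.Agent.H1.exists_coatom_not_le h
    have hsup : N ⊔ M = ⊤ := by
      apply hM.2
      refine lt_of_le_of_ne le_sup_right (fun h1 => hNM ?_)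
      rw [h1]; exact le_sup_left
    have hn : (N ⊓ M).Normal := by
      rw [← Subgroup.normalizer_eq_top_iff, eq_top_iff, ← hsup]
      apply sup_le
      · apply Cfsg.Agent.H1.le_normalizer_of_forall
        intro n hn x hx
        have : n * x = x * n := congrArg Subtype.val (mul_comm' (⟨n, hn⟩ : N) ⟨x, hx.1⟩)
        rw [this]; simpa using hx
      · rw [inf_comm]; exact Cfsg.Agent.H1.le_normalizer_inf_normal M N
    have hinf : N ⊓ M = ⊥ := by
      refine (hmin _ hn inf_le_left).resolve_right (fun h1 => hNM ?_)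
      rw [← h1]; exact inf_le_right
    refine ⟨M, Subgroup.isComplement'_of_disjoint_and_mul_eq_univ (disjoint_iff.mpr hinf) ?_⟩
    rw [← Subgroup.normal_mul, hsup]; rfl

end Cfsg.Agent.S0053
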