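import Mathlib
import Cfsg.Statements.S0054

set_option autoImplicit false
open Cfsg

namespace Cfsg.Agent.S0054


/-- A regular normal subgroup of a finite 2-transitive group is elementary abelian: it is commutative and all its elements have order dividing one prime. -/
theorem result {G : Type*} [Group G] [Finite G]
    {X : Type*} [Nonempty X] [MulAction G X] (h2 : MulAction.IsMultiplyPretransitive G X 2)
    (N : Subgroup G) [N.Normal] (htrans : MulAction.IsPretransitive N X) (hreg : ∀ x : X, MulAction.stabilizer N x = ⊥) :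
    IsMulCommutative N ∧ ∃ p : ℕ, p.Prime ∧ ∀ n ∈ N, n ^ p = 1 := by
  obtain ⟨x0⟩ := ‹Nonempty X›
  rw [MulAction.is_two_pretransitive_iff] at h2
  have hfix : ∀ n ∈ N, n • x0 = x0 → n = 1 := by
    intro n hn h
    have h1 : (⟨n, hn⟩ : N) ∈ MulAction.stabilizer N x0 := h
    rw [hreg x0, Subgroup.mem_bot] at h1
    exact congrArg Subtype.val h1
  have hconj : ∀ a ∈ N, ∀ b ∈ N, a ≠ 1 → b ≠ 1 → ∃ g : G, g * a * g⁻¹ = b := by
    intro a ha b hb ha1 hb1
    have h1 : x0 ≠ a • x0 := fun h => ha1 (hfix a ha h.symm)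
    have h3 : x0 ≠ b • x0 := fun h => hb1 (hfix b hb h.symm)
    obtain ⟨g, hg1, hg2⟩ := h2 h1 h3
    refine ⟨g, ?_⟩
    have hg3 : g⁻¹ • x0 = x0 := by rw [inv_smul_eq_iff, hg1]
    have h4 : (b⁻¹ * (g * a * g⁻¹)) • x0 = x0 := by
      rw [mul_smul, mul_smul, mul_smul, hg3, hg2, inv_smul_smul]
    have h5 := hfix _ (mul_mem (inv_mem hb) (‹N.Normal›.conj_mem a ha g)) h4
    exact (inv_mul_eq_one.1 h5).symm
  by_cases hN : N = ⊥
  · subst hN
    refine ⟨⟨⟨fun a b => ?_⟩⟩, 2, Nat.prime_two, ?_⟩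
    · have ha : a = 1 := Subtype.ext (Subgroup.mem_bot.1 a.2)
      rw [ha, one_mul, mul_one]
    · intro n hn
      rw [Subgroup.mem_bot.1 hn, one_pow]
  haveI hnt : Nontrivial N := (Subgroup.nontrivial_iff_ne_bot N).2 hN
  have hcard : Nat.card N ≠ 1 := by
    intro h
    exact hN (Subgroup.card_eq_one.1 h)
  obtain ⟨p, hp, hpd⟩ := Nat.exists_prime_and_dvd hcard
  haveI : Fact p.Prime := ⟨hp⟩
  obtain ⟨a, ha⟩ := exists_prime_orderOf_dvd_card' p hpd
  have ha1 : (a : G) ≠ 1 := by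
    intro h
    have : a = 1 := Subtype.ext h
    rw [this, orderOf_one] at ha
    exact hp.ne_one ha.symm
  have hap : (a : G) ^ p = 1 := by
    have := pow_orderOf_eq_one a
    rw [ha] at this
    exact congrArg Subtype.val this
  have hexp : ∀ n ∈ N, n ^ p = 1 := by
    intro n hn
    by_cases hn1 : n = 1
    · rw [hn1, one_pow]
    obtain ⟨g, hg⟩ := hconj a a.2 n hn ha1 hn1
    rw [← hg, conj_pow, hap]; group
  have hpg : IsPGroup p N := fun n => ⟨1, by
    rw [pow_one]; exact Subtype.ext (hexp n n.2)⟩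
  haveI := hpg.center_nontrivial
  obtain ⟨z, hz⟩ := exists_ne (1 : Subgroup.center N)
  have hz1 : ((z : N) : G) ≠ 1 := fun h => hz (Subtype.ext (Subtype.ext h))
  have hzc : ∀ n ∈ N, n * ((z : N) : G) = ((z : N) : G) * n := by
    intro n hn
    exact congrArg Subtype.val (Subgroup.mem_center_iff.1 z.2 ⟨n, hn⟩)
  refine ⟨⟨⟨fun b n => ?_⟩⟩, p, hp, hexp⟩
  apply Subtype.ext
  by_cases hb1 : (b : G) = 1
  · change (b : G) * n = n * b
    rw [hb1, one_mul, mul_one]
  obtain ⟨g, hg⟩ := hconj _ (z : N).2 b b.2 hz1 hb1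
  change (b : G) * n = n * b
  have h1 : g⁻¹ * n * g ∈ N := by
    have := ‹N.Normal›.conj_mem n n.2 g⁻¹
    rwa [inv_inv] at this
  have h2' := hzc _ h1
  rw [← hg]
  calc g * ((z : N) : G) * g⁻¹ * n = g * (((z : N) : G) * (g⁻¹ * n * g)) * g⁻¹ := by group
    _ = g * ((g⁻¹ * n * g) * ((z : N) : G)) * g⁻¹ := by rw [h2']
    _ = n * (g * ((z : N) : G) * g⁻¹) := by group

end Cfsg.Agent.S0054
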