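import Mathlib
import Cfsg.Statements.S0055
import Cfsg.Agent.Lib_helper1_AbSylow

set_option autoImplicit false
open Cfsg

namespace Cfsg.Agent.S0055

open Cfsg.Agent.H1 Subgroup

/-- If A normalises an abelian subgroup V of coprime order, then V is the internal direct product of its A-fixed points and its commutator with A: the two meet trivially and generate V. -/
theorem result {G : Type*} [Group G] [Finite G] (A V : Subgroup G) [IsMulCommutative V]
    (hAV : A ≤ Subgroup.normalizer (V : Set G)) (hcop : (Nat.card A).Coprime (Nat.card V)) :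
    (V ⊓ Subgroup.centralizer (A : Set G)) ⊓ ⁅V, A⁆ = ⊥ ∧ (V ⊓ Subgroup.centralizer (A : Set G)) ⊔ ⁅V, A⁆ = V := by
  have hsolv : Group.IsSolvable V := Group.isSolvable_of_comm (fun a b => mul_comm' a b)
  refine ⟨?_, ?_⟩
  · have hVL : V ≤ V ⊔ A := le_sup_left
    have hrel : (V.relIndex (V ⊔ A)) ∣ Nat.card A := by
      have h1 := card_sup_mul_card_inf' V A hAV
      have h2 := relIndex_mul_card' hVL
      rw [← h2] at h1
      have hpos : 0 < Nat.card V := Nat.card_pos
      refine Dvd.intro (Nat.card (V ⊓ A : Subgroup G)) ?_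
      nlinarith [h1]
    have hcop' : Nat.Coprime (Nat.card V) (V.relIndex (V ⊔ A)) :=
      (Nat.Coprime.coprime_dvd_left hrel hcop).symm
    have h3 := abelian_decomp_inf V (V ⊔ A) hVL hcop'
    rw [eq_bot_iff, ← h3]
    exact inf_le_inf (le_inf inf_le_left (inf_centralizer_le_centralizer_sup V A))
      (commutator_mono le_rfl le_sup_right)
  · rw [sup_comm]
    exact coprime_comm_sup_centralizer A V hAV hcop (Or.inr hsolv)

end Cfsg.Agent.S0055
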