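import Mathlib
import Cfsg.Statements.S0056
import Cfsg.Agent.S0055

set_option autoImplicit false
open Cfsg

namespace Cfsg.Agent.S0056

open Cfsg.Agent.H1 Subgroup

/-- A coprime action on an abelian group that fixes all elements of prime order is trivial. -/
theorem result {G : Type*} [Group G] [Finite G] (A V : Subgroup G) [IsMulCommutative V]
    (hAV : A ≤ Subgroup.normalizer (V : Set G)) (hcop : (Nat.card A).Coprime (Nat.card V))
    (hΩ : ∀ v ∈ V, (orderOf v).Prime → ∀ a ∈ A, a * v = v * a) : A ≤ Subgroup.centralizer (V : Set G) := by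
  obtain ⟨hinf, -⟩ := Cfsg.Agent.S0055.result A V hAV hcop
  have hW : ⁅V, A⁆ = ⊥ := by
    by_contra hne
    have hc1 : Nat.card (⁅V, A⁆ : Subgroup G) ≠ 1 := by rwa [Ne, card_eq_one]
    obtain ⟨q, hq, hqd⟩ := Nat.exists_prime_and_dvd hc1
    haveI : Fact q.Prime := ⟨hq⟩
    obtain ⟨w, hw⟩ := exists_prime_orderOf_dvd_card' q hqd
    have hwo : orderOf (w : G) = q := by rw [Subgroup.orderOf_coe]; exact hw
    have hwV : (w : G) ∈ V := commutator_le_of_le_normalizer hAV w.2
    have hwC : (w : G) ∈ centralizer (A : Set G) := by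
      rw [mem_centralizer_iff]
      intro a ha
      exact hΩ w hwV (hwo ▸ hq) a ha
    have : (w : G) ∈ (V ⊓ centralizer (A : Set G)) ⊓ ⁅V, A⁆ := mem_inf.mpr ⟨mem_inf.mpr ⟨hwV, hwC⟩, w.2⟩
    rw [hinf, mem_bot] at this
    rw [this, orderOf_one] at hwo
    exact hq.one_lt.ne hwo
  rw [commutator_eq_bot_iff_le_centralizer] at hW
  exact le_centralizer_iff.mp hW

end Cfsg.Agent.S0056
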