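import Mathlib
import Cfsg.Statements.S0057
import Cfsg.Agent.Lib_helper1_Misc3

set_option autoImplicit false
open Cfsg

namespace Cfsg.Agent.S0057

open Cfsg.Agent.H1 Subgroup
open scoped Pointwise commutatorElement

/-- Under coprime action, if the centraliser of A in K has prime index p in K then the commutator subgroup [K, A] has order exactly p. -/
theorem result {G : Type*} [Group G] [Finite G] (A K : Subgroup G) (hAK : A ≤ Subgroup.normalizer (K : Set G))
    (hcop : (Nat.card A).Coprime (Nat.card K)) (hsolv : Group.IsSolvable A ∨ Group.IsSolvable K)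
    (p : ℕ) (hp : p.Prime) (hidx : (K ⊓ Subgroup.centralizer (A : Set G)).relIndex K = p) :
    Nat.card (⁅K, A⁆ : Subgroup G) = p := by
  have : Fact p.Prime := ⟨hp⟩
  obtain ⟨P, hAP⟩ := coprime_invariant_sylow_exists A K hAK hcop hsolv p
  have hPK : (P : Subgroup K).map K.subtype ≤ K := map_subtype_le _
  have hPp : IsPGroup p ((P : Subgroup K).map K.subtype) := P.2.map _
  have hnd : ¬ p ∣ ((P : Subgroup K).map K.subtype).relIndex K := by
    have h1 : ((P : Subgroup K).map K.subtype).relIndex K = (P : Subgroup K).index := by
      unfold relIndex subgroupOf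
      rw [comap_map_eq_self_of_injective K.subtype_injective]
    rw [h1]; exact P.not_dvd_index
  have hidx' : (centralizer (A : Set G)).relIndex K = p := by
    rw [← hidx, inf_relIndex_left]
  have hr : ((P : Subgroup K).map K.subtype ⊓ centralizer (A : Set G)).relIndex
      ((P : Subgroup K).map K.subtype) = p := by
    rw [inf_relIndex_left]
    have h1 : (centralizer (A : Set G)).relIndex ((P : Subgroup K).map K.subtype) ≤ p := by
      exact (relIndex_le_of_le_right hPK (by rw [hidx']; exact hp.ne_zero)).trans hidx'.le
    obtain ⟨n, hn⟩ := hPp.exists_card_eq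
    have h2 : (centralizer (A : Set G)).relIndex ((P : Subgroup K).map K.subtype) ∣ p ^ n :=
      hn ▸ relIndex_dvd_card _ _
    obtain ⟨j, -, hj⟩ := (Nat.dvd_prime_pow hp).mp h2
    have h3 : (centralizer (A : Set G)).relIndex ((P : Subgroup K).map K.subtype) ≠ 1 := by
      intro h
      have h4 : (P : Subgroup K).map K.subtype ≤ K ⊓ centralizer (A : Set G) :=
        le_inf hPK (relIndex_eq_one.mp h)
      have h5 := relIndex_dvd_of_le_left K h4
      rw [hidx] at h5
      exact hnd h5
    rw [hj] at h1 h3 ⊢
    rcases j with _ | _ | j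
    · exact absurd (pow_zero p) h3
    · exact pow_one p
    · exfalso
      have h6 : p ^ 2 ≤ p ^ (j + 1 + 1) := Nat.pow_le_pow_right hp.pos (by omega)
      have := hp.two_le
      nlinarith
  have hinf : (P : Subgroup K).map K.subtype ⊓ (K ⊓ centralizer (A : Set G))
      = (P : Subgroup K).map K.subtype ⊓ centralizer (A : Set G) :=
    le_antisymm (le_inf inf_le_left (inf_le_right.trans inf_le_right))
      (le_inf inf_le_left (le_inf (inf_le_left.trans hPK) inf_le_right))
  have hfact : (K : Set G) = (((P : Subgroup K).map K.subtype : Subgroup G) : Set G) *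
      ((K ⊓ centralizer (A : Set G) : Subgroup G) : Set G) := by
    apply coe_eq_mul_of_card hPK inf_le_left
    rw [hinf]
    have h1 := relIndex_mul_card' (inf_le_left : K ⊓ centralizer (A : Set G) ≤ K)
    have h2 := relIndex_mul_card' (inf_le_left :
      (P : Subgroup K).map K.subtype ⊓ centralizer (A : Set G) ≤ (P : Subgroup K).map K.subtype)
    rw [hidx] at h1
    rw [hr] at h2
    rw [← h1, ← h2]; ring
  have hcomm : ⁅K, A⁆ = ⁅(P : Subgroup K).map K.subtype, A⁆ := by
    apply le_antisymm
    · rw [commutator_le]
      intro k hk a ha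
      have hk' : k ∈ (K : Set G) := hk
      rw [hfact] at hk'
      obtain ⟨x, hx, c, hc, rfl⟩ := Set.mem_mul.mp hk'
      have hca : a * c = c * a := mem_centralizer_iff.mp (Subgroup.mem_inf.mp hc).2 a ha
      have h1 : ⁅x * c, a⁆ = ⁅x, a⁆ := by
        rw [commutatorElement_def, commutatorElement_def]
        have : x * c * a * (x * c)⁻¹ = x * a * x⁻¹ := by
          rw [mul_assoc x c a, ← hca]; group
        rw [this]
      rw [h1]
      exact commutator_mem_commutator hx ha
    · exact commutator_mono hPK le_rfl
  rw [hcomm]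
  exact card_commutator_of_pgroup_of_relIndex A _ hAP
    (Nat.Coprime.coprime_dvd_right (card_dvd_of_le hPK) hcop) p hPp hr

end Cfsg.Agent.S0057
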