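import Mathlib
import Cfsg.Statements.S0059
import Cfsg.Agent.Lib_helper1_Coprime

set_option autoImplicit false
open Cfsg

namespace Cfsg.Agent.S0059


/-- Let a finite group act on a set on which a normal subgroup K of coprime order and index is transitive, with K or the quotient solvable. Then any complement H of K has a fixed point, and any two H-fixed points are interchanged by an element of K centralising H. -/
theorem result {G : Type*} [Group G] [Finite G] {X : Type*} [Nonempty X] [MulAction G X]
    (K H : Subgroup G) [K.Normal] (hc : Subgroup.IsComplement' K H) (hcop : (Nat.card K).Coprime K.index)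
    (hsolv : Group.IsSolvable K ∨ Group.IsSolvable (G ⧸ K)) (htrans : MulAction.IsPretransitive K X) :
    (∃ x : X, ∀ h ∈ H, h • x = x) ∧
    ∀ x y : X, (∀ h ∈ H, h • x = x) → (∀ h ∈ H, h • y = y) → ∃ k ∈ K ⊓ Subgroup.centralizer (H : Set G), k • x = y := by
  have hidx : K.index = Nat.card H := hc.symm.index_eq_card
  have hcop' : (Nat.card H).Coprime (Nat.card K) := (hidx ▸ hcop).symm
  have hs : Group.IsSolvable H ∨ Group.IsSolvable K := by
    rcases hsolv with h | h
    · exact Or.inr h
    · exact Or.inl (Group.isSolvable_of_surjective (f := hc.symm.QuotientMulEquiv.toMonoidHom)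
        hc.symm.QuotientMulEquiv.surjective)
  have hHK : H ≤ Subgroup.normalizer (K : Set G) := Subgroup.le_normalizer_of_normal
  constructor
  · obtain ⟨x₀⟩ := ‹Nonempty X›
    obtain ⟨k, hk, hk'⟩ := Cfsg.Agent.H1.glauberman_exists H K (MulAction.stabilizer G x₀) hHK
      hcop' hs (by
        intro h hh
        obtain ⟨k, hk⟩ := MulAction.exists_smul_eq K (h • x₀) x₀
        exact ⟨k, k.2, by rw [MulAction.mem_stabilizer_iff, mul_smul]; exact hk⟩)
    refine ⟨k⁻¹ • x₀, fun h hh => ?_⟩
    have h1 : k * h * k⁻¹ ∈ MulAction.stabilizer G x₀ :=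
      hk' (by rw [Cfsg.Agent.H1.mem_conj_smul]; simpa [mul_assoc] using hh)
    rw [MulAction.mem_stabilizer_iff] at h1
    calc h • k⁻¹ • x₀ = k⁻¹ • (k * h * k⁻¹) • x₀ := by simp [mul_smul]
      _ = k⁻¹ • x₀ := by rw [h1]
  · intro x y hx hy
    obtain ⟨k, hk⟩ := MulAction.exists_smul_eq K x y
    have hk0 : (k : G) • x = y := hk
    obtain ⟨c, hc, hck⟩ := Cfsg.Agent.H1.glauberman_conj H K (MulAction.stabilizer G y) hHK
      hcop' hs (fun h hh => hy h hh) k k.2 (by
        intro z hz
        rw [Cfsg.Agent.H1.mem_conj_smul] at hz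
        rw [MulAction.mem_stabilizer_iff]
        have h1 := hx _ hz
        calc z • y = (k : G) • ((k : G)⁻¹ * z * k) • x := by rw [← hk0]; simp [mul_smul]
          _ = y := by rw [h1, hk0])
    refine ⟨c * k, Subgroup.mem_inf.mpr ⟨mul_mem hc.1 k.2, hck⟩, ?_⟩
    rw [mul_smul, hk0]
    exact hc.2

end Cfsg.Agent.S0059
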