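import Mathlib
import Cfsg.Statements.S0060
import Cfsg.Agent.Lib_helper1_Misc

set_option autoImplicit false
open Pointwise
open Cfsg

namespace Cfsg.Agent.S0060

open Cfsg.Agent.H1 Subgroup
open scoped Pointwise

/-- Brodkey's Theorem: in a finite group with abelian Sylow p-subgroups and no nontrivial normal p-subgroup, some conjugate of a Sylow p-subgroup meets it trivially. -/
theorem result {G : Type*} [Group G] [Finite G] (p : ℕ) [Fact p.Prime]
    (S : Sylow p G) (hS : IsMulCommutative S) (hOp : Cfsg.pCore p G = ⊥) :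
    ∃ g : G, (S : Subgroup G) ⊓ MulAut.conj g • (S : Subgroup G) = ⊥ := by
  obtain ⟨g, hg⟩ := Finite.exists_min
    (fun g : G => Nat.card ((S : Subgroup G) ⊓ MulAut.conj g • (S : Subgroup G) : Subgroup G))
  refine ⟨g, ?_⟩
  have hcomm : ∀ a ∈ (S : Subgroup G), ∀ b ∈ (S : Subgroup G), a * b = b * a := by
    intro a ha b hb
    have := mul_comm' (⟨a, ha⟩ : (S : Subgroup G)) ⟨b, hb⟩
    exact congrArg Subtype.val this
  have hSD : (S : Subgroup G) ≤ normalizer
      (((S : Subgroup G) ⊓ MulAut.conj g • (S : Subgroup G) : Subgroup G) : Set G) := by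
    apply le_normalizer_of_forall
    intro s hs d hd
    have : s * d * s⁻¹ = d := by rw [hcomm s hs d hd.1]; group
    rw [this]; exact hd
  have hTD : MulAut.conj g • (S : Subgroup G) ≤ normalizer
      (((S : Subgroup G) ⊓ MulAut.conj g • (S : Subgroup G) : Subgroup G) : Set G) := by
    apply le_normalizer_of_forall
    intro s hs d hd
    have h1 := hcomm _ (mem_conj_smul.mp hs) _ (mem_conj_smul.mp hd.2)
    have h2 : s * d = d * s := by
      have : g * (g⁻¹ * s * g * (g⁻¹ * d * g)) * g⁻¹ = g * (g⁻¹ * d * g * (g⁻¹ * s * g)) * g⁻¹ := by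
        rw [h1]
      simpa [mul_assoc] using this
    have : s * d * s⁻¹ = d := by rw [h2]; group
    rw [this]; exact hd
  have key : ∀ R : Sylow p G,
      ((S : Subgroup G) ⊓ MulAut.conj g • (S : Subgroup G) : Subgroup G) ≤ R := by
    intro R
    obtain ⟨x, hx⟩ := MulAction.exists_smul_eq G S R
    have hx' : MulAut.conj x • (S : Subgroup G) = R := by
      rw [← hx, Sylow.coe_subgroup_smul]
    obtain ⟨n, hnN, hn⟩ := pgroup_conj_into_sylow_of_le S _
      ((R : Subgroup G) ⊓ normalizer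
      (((S : Subgroup G) ⊓ MulAut.conj g • (S : Subgroup G) : Subgroup G) : Set G)) hSD inf_le_right
      (R.2.to_le inf_le_left)
    have h1 : (MulAut.conj n • (R : Subgroup G)) ⊓ MulAut.conj g • (S : Subgroup G) ≤
        (S : Subgroup G) ⊓ MulAut.conj g • (S : Subgroup G) := by
      intro y hy
      refine Subgroup.mem_inf.mpr ⟨hn ?_, hy.2⟩
      rw [mem_conj_smul]
      refine Subgroup.mem_inf.mpr ⟨mem_conj_smul.mp hy.1, ?_⟩
      exact mul_mem (mul_mem (inv_mem hnN) (hTD hy.2)) hnN
    have h2 : MulAut.conj (n * x) • ((S : Subgroup G) ⊓ MulAut.conj ((n * x)⁻¹ * g) • (S : Subgroup G))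
        = (MulAut.conj n • (R : Subgroup G)) ⊓ MulAut.conj g • (S : Subgroup G) := by
      rw [Subgroup.smul_inf, smul_smul, ← map_mul, ← hx', smul_smul, ← map_mul]
      congr 3
      group
    have h3 := hg ((n * x)⁻¹ * g)
    rw [← card_conj_smul (n * x) ((S : Subgroup G) ⊓ MulAut.conj ((n * x)⁻¹ * g) • (S : Subgroup G)), h2] at h3
    have h4 : (MulAut.conj n • (R : Subgroup G)) ⊓ MulAut.conj g • (S : Subgroup G) =
        (S : Subgroup G) ⊓ MulAut.conj g • (S : Subgroup G) :=
      Subgroup.eq_of_le_of_card_ge h1 h3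
    intro d hd
    have h5 : n * d * n⁻¹ ∈ ((S : Subgroup G) ⊓ MulAut.conj g • (S : Subgroup G) : Subgroup G) :=
      (mem_normalizer_iff.mp hnN d).mp hd
    rw [← h4] at h5
    have h6 := mem_conj_smul.mp h5.1
    have h7 : n⁻¹ * (n * d * n⁻¹) * n = d := by group
    rwa [h7] at h6
  rw [eq_bot_iff, ← hOp, pCore_eq_iInf_sylow]
  exact le_iInf key

end Cfsg.Agent.S0060
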