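import Mathlib
import Cfsg.Statements.S0063

set_option autoImplicit false
open Cfsg

namespace Cfsg.Agent.S0063

theorem aux.{u} (p : ℕ) [Fact p.Prime] : ∀ (m : ℕ) (G : Type u) [Group G] [Finite G],
    Nat.card G = p ^ m → Group.nilpotencyClass G ≤ max 1 (m - 1) := by
  intro m
  induction m using Nat.strong_induction_on with
  | _ m ih =>
    intro G _ _ hG
    have hp : p.Prime := Fact.out
    have hPG : IsPGroup p G := IsPGroup.of_card hG
    have hnil : Group.IsNilpotent G := hPG.isNilpotent
    by_cases hab : IsMulCommutative G
    · exact (Group.IsNilpotent.nilpotencyClass_le_one_iff.mpr hab).trans (le_max_left _ _)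
    have hnt : Nontrivial G := by
      by_contra h
      rw [not_nontrivial_iff_subsingleton] at h
      exact hab ⟨⟨fun a b => Subsingleton.elim _ _⟩⟩
    have hZ : Nontrivial (Subgroup.center G) := hPG.center_nontrivial
    obtain ⟨k, hk⟩ := (IsPGroup.iff_card.mp (hPG.to_quotient (Subgroup.center G)))
    have hmul := Subgroup.card_eq_card_quotient_mul_card_subgroup (Subgroup.center G)
    have hZ1 : 1 < Nat.card (Subgroup.center G) := Finite.one_lt_card
    have hkm : k < m := by
      have : p ^ k < p ^ m := by
        rw [← hG, hmul, hk]
        have : 0 < p ^ k := pos_of_ne_zero (pow_ne_zero _ hp.ne_zero)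
        nlinarith
      exact (Nat.pow_lt_pow_iff_right hp.one_lt).mp this
    have hk2 : 2 ≤ k := by
      by_contra hlt
      apply hab
      have hcyc : IsCyclic (G ⧸ Subgroup.center G) := by
        have : k = 0 ∨ k = 1 := by omega
        rcases this with rfl | rfl
        · rw [pow_zero] at hk
          have : Subsingleton (G ⧸ Subgroup.center G) := (Nat.card_eq_one_iff_unique.mp hk).1
          infer_instance
        · rw [pow_one] at hk
          exact isCyclic_of_prime_card hk
      exact ⟨⟨commutative_of_cyclic_center_quotient (QuotientGroup.mk' (Subgroup.center G))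
        (by rw [QuotientGroup.ker_mk'])⟩⟩
    have h1 := ih k hkm (G ⧸ Subgroup.center G) hk
    rw [Group.nilpotencyClass_eq_quotient_center_plus_one]
    have : max 1 (k - 1) = k - 1 := by omega
    rw [this] at h1
    have : k - 1 + 1 ≤ m - 1 := by omega
    exact le_trans (by omega) (le_max_right _ _)


/-- A finite group of prime-power order p ^ m with m > 1 is nilpotent of class at most m - 1. -/
theorem result {G : Type*} [Group G] [Finite G] (p m : ℕ) [Fact p.Prime]
    (hG : Nat.card G = p ^ m) (hm : 1 < m) : Group.nilpotencyClass G ≤ m - 1 := by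
  have := aux p m G hG
  have h2 : max 1 (m - 1) = m - 1 := by omega
  rwa [h2] at this

end Cfsg.Agent.S0063
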