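import Mathlib
import Cfsg.Statements.S0064

set_option autoImplicit false
open Cfsg

namespace Cfsg.Agent.S0064


/-- A finite group is nilpotent exactly when each of its subgroups is subnormal. -/
theorem result {G : Type*} [Group G] [Finite G] :
    Group.IsNilpotent G ↔ ∀ H : Subgroup G, H.IsSubnormal := by
  constructor
  · intro hnil H
    induction H using WellFoundedGT.induction with
    | ind H ih =>
    by_cases hH : H = ⊤
    · rw [hH]; exact Subgroup.IsSubnormal.top
    · have hlt : H < Subgroup.normalizer (H : Set G) :=
        Group.normalizerCondition_of_isNilpotent H (lt_top_iff_ne_top.mpr hH)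
      exact Subgroup.IsSubnormal.step H _ Subgroup.le_normalizer (ih _ hlt) inferInstance
  · intro h
    apply (Group.isNilpotent_of_finite_tfae.out 0 2 rfl rfl).mpr
    intro M hM
    rcases (h M).lt_normal with h1 | ⟨K, hK, hMK, hKt⟩
    · exact absurd h1 hM.1
    · rcases eq_or_lt_of_le hMK with h2 | h2
      · rw [h2]; exact hK
      · exact absurd (hM.2 K h2) hKt.ne

end Cfsg.Agent.S0064
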