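import Cfsg.Statements.S0066
import Cfsg.Agent.Lib_helper7_Sylow
import Cfsg.Agent.S0540

set_option autoImplicit false
open Pointwise
open Cfsg

universe u
namespace Cfsg.Agent.S0066

open Subgroup Cfsg.Agent.H7
open scoped Pointwise

theorem subn_transport {G G' : Type*} [Group G] [Group G'] (φ : G' →* G) (B J : Subgroup G)
    (B' J' : Subgroup G') (hJ : J' ≤ J.comap φ) (hB : ∀ y ∈ J', y ∈ B' ↔ φ y ∈ B)
    (h : (B.subgroupOf J).IsSubnormal) : (B'.subgroupOf J').IsSubnormal := by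
  have heq : B'.subgroupOf J' =
      (B.subgroupOf J).comap ((φ.comp J'.subtype).codRestrict J (fun y => hJ y.2)) := by
    ext y
    rw [mem_subgroupOf, mem_comap, mem_subgroupOf]
    exact hB y y.2
  rw [heq]
  exact h.comap _

theorem aux (n : ℕ) : ∀ {G : Type u} [Group G] [Finite G], Nat.card G = n → ∀ (A : Subgroup G),
    (∀ g : G, (A.subgroupOf (A ⊔ MulAut.conj g • A)).IsSubnormal) → A.IsSubnormal := by
  induction n using Nat.strong_induction_on with
  | _ n ih =>
  intro G _ _ hn A hyp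
  by_contra hA
  have IH' : ∀ U : Subgroup G, U ≠ ⊤ → ∀ B ≤ U,
      (∀ g : G, (B.subgroupOf (B ⊔ MulAut.conj g • B)).IsSubnormal) → (B.subgroupOf U).IsSubnormal := by
    intro U hU B hBU hB
    have hlt : Nat.card U < n := by
      rw [← hn, ← card_top (G := G)]
      exact card_lt_of_lt (lt_top_iff_ne_top.mpr hU)
    apply ih _ hlt rfl
    intro g
    apply subn_transport U.subtype B (B ⊔ MulAut.conj (g : G) • B) _ _ _ _ (hB g)
    · apply sup_le
      · intro y hy
        exact le_sup_left (b := MulAut.conj (g : G) • B) (mem_subgroupOf.mp hy)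
      · rintro _ ⟨y, hy, rfl⟩
        apply le_sup_right (a := B)
        exact ⟨y, mem_subgroupOf.mp hy, rfl⟩
    · intro y _
      exact mem_subgroupOf
  have hconj : ∀ x : G, ∀ g : G,
      ((MulAut.conj x • A).subgroupOf (MulAut.conj x • A ⊔ MulAut.conj g • MulAut.conj x • A)).IsSubnormal := by
    intro x g
    apply subn_transport (MulAut.conj x⁻¹).toMonoidHom A (A ⊔ MulAut.conj (x⁻¹ * g * x) • A) _ _ _ _
      (hyp (x⁻¹ * g * x))
    · apply sup_le
      · rintro _ ⟨a, ha, rfl⟩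
        apply le_sup_left (b := MulAut.conj (x⁻¹ * g * x) • A)
        change x⁻¹ * (x * a * x⁻¹) * x⁻¹⁻¹ ∈ A
        have : x⁻¹ * (x * a * x⁻¹) * x⁻¹⁻¹ = a := by group
        rw [this]
        exact ha
      · rintro _ ⟨_, ⟨a, ha, rfl⟩, rfl⟩
        apply le_sup_right (a := A)
        refine ⟨a, ha, ?_⟩
        change (x⁻¹ * g * x) * a * (x⁻¹ * g * x)⁻¹ = x⁻¹ * (g * (x * a * x⁻¹) * g⁻¹) * x⁻¹⁻¹
        group
    · intro y _
      rw [← map_conj_eq_smul, mem_map_conj]
      change _ ↔ x⁻¹ * y * x⁻¹⁻¹ ∈ A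
      rw [inv_inv]
  have hAtop : A ≠ ⊤ := by
    rintro rfl
    exact hA IsSubnormal.top
  obtain ⟨M, ⟨hMtop, hAM⟩, hMmax⟩ := Cfsg.Agent.S0540.result A {U | U ≠ ⊤ ∧ A ≤ U} ⟨A, hAtop, le_rfl⟩
    (fun V => {B | (∃ g : G, B = MulAut.conj g • A) ∧ B ≤ V ∧ (B.subgroupOf V).IsSubnormal})
    (fun V B => Iff.rfl)
    (fun V hV => ⟨⟨1, by simp⟩, hV.2, IH' V hV.1 A hV.2 hyp⟩)
    (by
      rintro V hV W _ B ⟨⟨x, rfl⟩, -, -⟩ hBV
      exact ⟨⟨x, rfl⟩, hBV, IH' V hV.1 _ hBV (hconj x)⟩)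
    (by
      intro V hV W hW
      refine ⟨_, ⟨?_, ?_⟩, le_rfl⟩
      · intro htop
        rw [normalizer_eq_top_iff] at htop
        apply hA
        have hmem : A ∈ {B | (∃ g : G, B = MulAut.conj g • A) ∧ B ≤ V ∧ (B.subgroupOf V).IsSubnormal} ∩
            {B | (∃ g : G, B = MulAut.conj g • A) ∧ B ≤ W ∧ (B.subgroupOf W).IsSubnormal} :=
          ⟨⟨⟨1, by simp⟩, hV.2, IH' V hV.1 A hV.2 hyp⟩, ⟨⟨1, by simp⟩, hW.2, IH' W hW.1 A hW.2 hyp⟩⟩
        refine IsSubnormal.trans (le_sSup hmem) ?_ htop.isSubnormal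
        apply subn_transport (MonoidHom.id G) A V _ _ _ _ (IH' V hV.1 A hV.2 hyp)
        · apply sSup_le
          intro B hB
          exact hB.1.2.1
        · intro y _
          exact Iff.rfl
      · refine le_trans (le_sSup ?_) le_normalizer
        exact ⟨⟨⟨1, by simp⟩, hV.2, IH' V hV.1 A hV.2 hyp⟩, ⟨⟨1, by simp⟩, hW.2, IH' W hW.1 A hW.2 hyp⟩⟩)
  have hconjM : ∀ g : G, MulAut.conj g • A ≤ M := by
    intro g
    refine le_trans le_sup_right (hMmax (A ⊔ MulAut.conj g • A) ⟨?_, le_sup_left⟩)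
    intro htop
    apply hA
    have := hyp g
    rw [htop] at this
    exact IsSubnormal.trans le_top this IsSubnormal.top
  have hNM : normalClosure (A : Set G) ≤ M := by
    rw [normalClosure, closure_le]
    intro y hy
    obtain ⟨a, ha, hay⟩ := Group.mem_conjugatesOfSet_iff.mp hy
    obtain ⟨c, rfl⟩ := isConj_iff.mp hay
    exact hconjM c ⟨a, ha, rfl⟩
  have hNtop : normalClosure (A : Set G) ≠ ⊤ := by
    intro h
    rw [h, top_le_iff] at hNM
    exact hMtop hNM
  apply hA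
  exact IsSubnormal.trans le_normalClosure (IH' _ hNtop A le_normalClosure hyp)
    (normalClosure_normal).isSubnormal

/-- Wielandt's subnormality criterion: a subgroup that is subnormal in its join with each of its conjugates is subnormal in the whole finite group. -/
theorem result {G : Type*} [Group G] [Finite G] (A : Subgroup G)
    (h : ∀ g : G, (A.subgroupOf (A ⊔ MulAut.conj g • A)).IsSubnormal) : A.IsSubnormal := by
  exact aux _ rfl A h

end Cfsg.Agent.S0066
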