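import Cfsg.Statements.S0067
import Mathlib
import Cfsg.Agent.Lib_helper7_Gen4
import Cfsg.Agent.Lib_helper2_BaerSuzuki
import Cfsg.Agent.Lib_helper2_Subnormal2
import Cfsg.Agent.Lib_helper1_Cores

set_option autoImplicit false
open Pointwise
open Cfsg

namespace Cfsg.Agent.S0067

open scoped Pointwise


/-- If the join of a subgroup A with each of its conjugates is nilpotent, then A is subnormal in the finite group and contained in the Fitting subgroup. -/
theorem result {G : Type*} [Group G] [Finite G] (A : Subgroup G)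
    (h : ∀ g : G, Group.IsNilpotent (A ⊔ MulAut.conj g • A : Subgroup G)) : A.IsSubnormal ∧ A ≤ Cfsg.fittingSubgroup G := by
  classical
  have hAF : A ≤ Cfsg.fittingSubgroup G := by
    have key := Cfsg.Agent.H7.eq_of_forall_sylow_le (D := A ⊓ Cfsg.fittingSubgroup G) (K := A) inf_le_left (by
      intro q hq
      have : Fact q.Prime := ⟨hq⟩
      obtain ⟨P⟩ : Nonempty (Sylow q A) := inferInstance
      refine ⟨P, ?_⟩
      rintro _ ⟨x, hx, rfl⟩
      refine ⟨x.2, Cfsg.Agent.H1.pCore_le_fitting q (Cfsg.Agent.H2.baer_suzuki (x : G) ?_)⟩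
      intro g
      have hL := h g
      obtain ⟨S⟩ : Nonempty (Sylow q (A ⊔ MulAut.conj g • A : Subgroup G)) := inferInstance
      have hSn : (S : Subgroup (A ⊔ MulAut.conj g • A : Subgroup G)).Normal :=
        (Group.isNilpotent_of_finite_tfae.out 0 3 rfl rfl).mp hL q inferInstance S
      have huniq := Sylow.unique_of_normal S hSn
      obtain ⟨k, hk⟩ := P.2 ⟨x, hx⟩
      have hxk : (x : G) ^ q ^ k = 1 := by
        have := congrArg (fun t : (P : Subgroup A) => ((t : A) : G)) hk
        simpa using this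
      have hmem : ∀ u : (A ⊔ MulAut.conj g • A : Subgroup G), (u : G) ^ q ^ k = 1 →
          u ∈ (S : Subgroup (A ⊔ MulAut.conj g • A : Subgroup G)) := by
        intro u hu
        have hu' : u ^ q ^ k = 1 := Subtype.ext hu
        obtain ⟨j, _, hj⟩ := (Nat.dvd_prime_pow hq).1 (orderOf_dvd_of_pow_eq_one hu')
        have hpg : IsPGroup q (Subgroup.zpowers u) :=
          IsPGroup.of_card (n := j) (by rw [Nat.card_zpowers, hj])
        obtain ⟨S', hS'⟩ := hpg.exists_le_sylow
        have : S' = S := Subsingleton.elim _ _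
        rw [← this]; exact hS' (Subgroup.mem_zpowers u)
      have hxL : (x : G) ∈ (A ⊔ MulAut.conj g • A : Subgroup G) := (le_sup_left : A ≤ _) x.2
      have hyL : g * (x : G) * g⁻¹ ∈ (A ⊔ MulAut.conj g • A : Subgroup G) := by
        apply (le_sup_right : MulAut.conj g • A ≤ _)
        rw [Cfsg.Agent.H1.mem_conj_smul]
        have e : g⁻¹ * (g * (x : G) * g⁻¹) * g = x := by group
        rw [e]; exact x.2
      have hle : Subgroup.closure ({(x : G), g * (x : G) * g⁻¹} : Set G) ≤
          (S : Subgroup (A ⊔ MulAut.conj g • A : Subgroup G)).map (Subgroup.subtype _) := by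
        rw [Subgroup.closure_le]
        rintro y (rfl | rfl)
        · exact ⟨⟨_, hxL⟩, hmem _ hxk, rfl⟩
        · exact ⟨⟨_, hyL⟩, hmem _ (by rw [conj_pow, hxk]; group), rfl⟩
      exact (S.2.map _).to_le hle)
    rw [← key]; exact inf_le_right
  refine ⟨?_, hAF⟩
  have hnil : Group.IsNilpotent (Cfsg.fittingSubgroup G) := Cfsg.Agent.H1.fitting_nilpotent
  exact Subgroup.IsSubnormal.trans hAF (Cfsg.Agent.H2.isSubnormal_of_isNilpotent _)
    (Cfsg.Agent.H1.fitting_normal).isSubnormal

end Cfsg.Agent.S0067
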