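import Cfsg.Statements.S0068
import Mathlib

set_option autoImplicit false
open Cfsg

namespace Cfsg.Agent.S0068

/-- Frobenius complements of even order: if H complements a nontrivial normal subgroup K, each nonidentity element of H has trivial centraliser in K, and H has even order, then H contains a unique involution s, K is abelian, and s inverts every element of K. -/
theorem result {G : Type*} [Group G] [Finite G] (K H : Subgroup G) [K.Normal]
    (hc : Subgroup.IsComplement' K H) (hK : K ≠ ⊥) (hfpf : ∀ h ∈ H, h ≠ 1 → K ⊓ Subgroup.centralizer {h} = ⊥)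
    (heven : 2 ∣ Nat.card H) :
    (∃ s ∈ H, orderOf s = 2 ∧ (∀ t ∈ H, orderOf t = 2 → t = s) ∧ ∀ k ∈ K, s * k * s⁻¹ = k⁻¹) ∧ IsMulCommutative K := by
  have hKn : K.Normal := inferInstance
  -- an involution of `H` inverts `K`
  have inv : ∀ s ∈ H, orderOf s = 2 → ∀ k ∈ K, s * k * s⁻¹ = k⁻¹ := by
    intro s hs hs2
    have hs1 : s ≠ 1 := by
      rintro rfl
      simp at hs2
    have hss : s * s = 1 := by
      have := pow_orderOf_eq_one s
      rwa [hs2, pow_two] at this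
    have hsi : s⁻¹ = s := inv_eq_of_mul_eq_one_left hss
    let f : K → K := fun k => ⟨(k : G)⁻¹ * (s * k * s⁻¹), K.mul_mem (K.inv_mem k.2) (hKn.conj_mem k k.2 s)⟩
    have hf : Function.Injective f := by
      intro a b hab
      have h1 : (a : G)⁻¹ * (s * a * s⁻¹) = (b : G)⁻¹ * (s * b * s⁻¹) := congrArg Subtype.val hab
      have h2 : (b : G) * (a : G)⁻¹ ∈ K ⊓ Subgroup.centralizer {s} := by
        refine Subgroup.mem_inf.2 ⟨K.mul_mem b.2 (K.inv_mem a.2), ?_⟩
        rw [Subgroup.mem_centralizer_singleton_iff]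
        have h3 : (b : G) * (a : G)⁻¹ = s * b * s⁻¹ * (s * a * s⁻¹)⁻¹ := by
          have : (b : G) * ((a : G)⁻¹ * (s * a * s⁻¹)) = s * b * s⁻¹ := by rw [h1]; group
          calc (b : G) * (a : G)⁻¹ = (b : G) * ((a : G)⁻¹ * (s * a * s⁻¹)) * (s * a * s⁻¹)⁻¹ := by group
            _ = _ := by rw [this]
        have h4 : s * b * s⁻¹ * (s * a * s⁻¹)⁻¹ = s * ((b : G) * (a : G)⁻¹) * s⁻¹ := by group
        rw [h4] at h3
        symm
        calc s * ((b : G) * (a : G)⁻¹) = (s * ((b : G) * (a : G)⁻¹) * s⁻¹) * s := by group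
          _ = (b : G) * (a : G)⁻¹ * s := by rw [← h3]
      rw [hfpf s hs hs1, Subgroup.mem_bot] at h2
      apply Subtype.ext
      exact (mul_inv_eq_one.1 h2).symm
    have hsurj : Function.Surjective f := Finite.surjective_of_injective hf
    intro k hk
    obtain ⟨a, ha⟩ := hsurj ⟨k, hk⟩
    have hk' : k = (a : G)⁻¹ * (s * a * s⁻¹) := (congrArg Subtype.val ha).symm
    rw [hk', hsi]
    calc s * ((a : G)⁻¹ * (s * a * s)) * s = s * (a : G)⁻¹ * (s * a * (s * s)) := by group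
      _ = s * (a : G)⁻¹ * s * a := by rw [hss]; group
      _ = ((a : G)⁻¹ * (s * a * s))⁻¹ := by
        have : ((a : G)⁻¹ * (s * a * s))⁻¹ = s⁻¹ * (a : G)⁻¹ * s⁻¹ * a := by group
        rw [this, hsi]
  have : Fact (Nat.Prime 2) := ⟨Nat.prime_two⟩
  obtain ⟨s', hs'⟩ := exists_prime_orderOf_dvd_card' (G := H) 2 heven
  have hs2 : orderOf (s' : G) = 2 := by rw [Subgroup.orderOf_coe]; exact hs'
  refine ⟨⟨s', s'.2, hs2, ?_, inv s' s'.2 hs2⟩, ?_⟩
  · intro t ht ht2
    by_contra hne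
    have h1 : t * (s' : G)⁻¹ ≠ 1 := fun h => hne (mul_inv_eq_one.1 h)
    have h2 := hfpf _ (H.mul_mem ht (H.inv_mem s'.2)) h1
    apply hK
    rw [eq_bot_iff, ← h2]
    intro k hk
    refine Subgroup.mem_inf.2 ⟨hk, ?_⟩
    rw [Subgroup.mem_centralizer_singleton_iff]
    have e1 := inv s' s'.2 hs2 k⁻¹ (K.inv_mem hk)
    have e2 := inv t ht ht2 k⁻¹ (K.inv_mem hk)
    rw [inv_inv] at e1 e2
    have e3 : (s' : G)⁻¹ * k * s' = k⁻¹ := by
      calc (s' : G)⁻¹ * k * s' = (s' : G)⁻¹ * ((s' : G) * k⁻¹ * (s' : G)⁻¹) * s' := by rw [e1]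
        _ = k⁻¹ := by group
    symm
    calc t * (s' : G)⁻¹ * k = t * ((s' : G)⁻¹ * k * s') * (s' : G)⁻¹ := by group
      _ = (t * k⁻¹ * t⁻¹) * t * (s' : G)⁻¹ := by rw [e3]; group
      _ = k * (t * (s' : G)⁻¹) := by rw [e2]; group
  · refine ⟨⟨fun a b => ?_⟩⟩
    apply Subtype.ext
    have e1 := inv s' s'.2 hs2 a a.2
    have e2 := inv s' s'.2 hs2 b b.2
    have e3 := inv s' s'.2 hs2 (a * b) (K.mul_mem a.2 b.2)
    have e4 : (s' : G) * ((a : G) * b) * (s' : G)⁻¹ = ((s' : G) * a * (s' : G)⁻¹) * ((s' : G) * b * (s' : G)⁻¹) := by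
      group
    rw [e4, e1, e2] at e3
    have e5 : ((a : G)⁻¹ * (b : G)⁻¹)⁻¹ = (((a : G) * b)⁻¹)⁻¹ := by rw [e3]
    simpa using e5.symm

end Cfsg.Agent.S0068
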