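import Mathlib
import Cfsg.Statements.S0070
import Cfsg.Agent.Lib_helper1_Misc2

set_option autoImplicit false
open Cfsg

namespace Cfsg.Agent.S0070

open Cfsg.Agent.H1 Subgroup

/-- The Fitting subgroup commutes with passing to the Frattini quotient: the Fitting subgroup of G modulo its Frattini subgroup is the image of the Fitting subgroup of G. -/
theorem result {G : Type*} [Group G] [Finite G] :
    Cfsg.fittingSubgroup (G ⧸ frattini G) = (Cfsg.fittingSubgroup G).map (QuotientGroup.mk' (frattini G)) := by
  have hs := QuotientGroup.mk'_surjective (frattini G)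
  apply le_antisymm
  · have hn : (Cfsg.fittingSubgroup (G ⧸ frattini G)).Normal := fitting_normal
    have hKn : ((Cfsg.fittingSubgroup (G ⧸ frattini G)).comap (QuotientGroup.mk' (frattini G))).Normal :=
      hn.comap _
    have hnil : Group.IsNilpotent
        ((Cfsg.fittingSubgroup (G ⧸ frattini G)).comap (QuotientGroup.mk' (frattini G))) := by
      refine nilpotent_of_surjective_of_ker_le_frattini _
        ((QuotientGroup.mk' (frattini G)).subgroupComap (Cfsg.fittingSubgroup (G ⧸ frattini G)))
        (MonoidHom.subgroupComap_surjective_of_surjective _ _ hs) fitting_nilpotent ?_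
      rintro _ ⟨x, hx, rfl⟩
      have h1 : (QuotientGroup.mk' (frattini G)).subgroupComap
        (Cfsg.fittingSubgroup (G ⧸ frattini G)) x = 1 := hx
      have h2 := congrArg Subtype.val h1
      have h3 : QuotientGroup.mk' (frattini G) (x : G) = 1 := h2
      exact (QuotientGroup.eq_one_iff _).mp h3
    have h1 := le_fitting hKn hnil
    rw [← map_comap_eq_self_of_surjective hs (Cfsg.fittingSubgroup (G ⧸ frattini G))]
    exact Subgroup.map_mono h1
  · apply le_fitting
    · exact (fitting_normal).map _ hs
    · have := fitting_nilpotent (G := G)
      exact Group.nilpotent_of_surjective ((QuotientGroup.mk' (frattini G)).subgroupMap _)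
        (MonoidHom.subgroupMap_surjective _ _)

end Cfsg.Agent.S0070
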