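import Mathlib
import Cfsg.Statements.S0072
import Cfsg.Agent.Lib_helper1_FrobNPC

set_option autoImplicit false
open Cfsg

namespace Cfsg.Agent.S0072

open Cfsg.Agent.H1

/-- A finite group has a normal p-complement if and only if every p-local subgroup (normalizer of a nontrivial p-subgroup) has one. -/
theorem result {G : Type*} [Group G] [Finite G] (p : ℕ) [Fact p.Prime] : Cfsg.HasNormalPComplement p G ↔ ∀ Q : Subgroup G, IsPGroup p Q → Q ≠ ⊥ → Cfsg.HasNormalPComplement p (Subgroup.normalizer (Q : Set G)) := by
  constructor
  · intro h Q _ _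
    exact hasNormalPComplement_subgroup h _
  · intro h
    apply hasNormalPComplement_of_frobCond
    intro X hX g hg hgo
    by_cases hXb : X = ⊥
    · rw [hXb, Subgroup.mem_centralizer_iff]
      intro x hx
      rw [SetLike.mem_coe, Subgroup.mem_bot] at hx
      rw [hx, one_mul, mul_one]
    have h1 := frobCond_of_hasNormalPComplement (h X hX hXb)
    have h2 := h1 (X.subgroupOf (Subgroup.normalizer (X : Set G))) (isPGroup_subgroupOf hX _)
      ⟨g, hg⟩ (by
        haveI : (X.subgroupOf (Subgroup.normalizer (X : Set G))).Normal :=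
          Subgroup.normal_in_normalizer
        have e := Subgroup.normalizer_eq_top (H := X.subgroupOf (Subgroup.normalizer (X : Set G)))
        exact e ▸ Subgroup.mem_top _) (by rw [Subgroup.orderOf_mk]; exact hgo)
    rw [Subgroup.mem_centralizer_iff] at h2 ⊢
    intro x hx
    have h3 := h2 ⟨x, Subgroup.le_normalizer hx⟩ (by
      rw [SetLike.mem_coe, Subgroup.mem_subgroupOf]; exact hx)
    exact congrArg Subtype.val h3

end Cfsg.Agent.S0072
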