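import Mathlib
import Cfsg.Statements.S0073
import Cfsg.Agent.Lib_helper1_MinAct2

set_option autoImplicit false
open Cfsg

namespace Cfsg.Agent.S0073

open Cfsg.Agent.H1

/-- For a finite non-abelian simple group, either the cube of the least prime divisor of the order divides the order, or 12 does. -/
theorem result {G : Type*} [Group G] [Finite G] [IsSimpleGroup G] (hG : ∃ x y : G, x * y ≠ y * x) : (Nat.card G).minFac ^ 3 ∣ Nat.card G ∨ 12 ∣ Nat.card G := by
  classical
  have hne1 : Nat.card G ≠ 1 := by
    intro h1
    have := (Nat.card_eq_one_iff_unique.mp h1).1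
    obtain ⟨x, y, hxy⟩ := hG
    exact hxy (Subsingleton.elim _ _)
  set p := (Nat.card G).minFac with hpdef
  have hp : p.Prime := Nat.minFac_prime hne1
  have : Fact p.Prime := ⟨hp⟩
  have hpG : p ∣ Nat.card G := Nat.minFac_dvd _
  have hnc : ¬ Cfsg.HasNormalPComplement p G := by
    rintro ⟨P, N, hN, hc⟩
    have hcard := hc.card_mul_card
    rcases hN.eq_bot_or_eq_top with h | h
    · subst h
      rw [Subgroup.card_bot, one_mul] at hcard
      have hPtop : (P : Subgroup G) = ⊤ := Subgroup.eq_top_of_card_eq _ hcard
      have hpg : IsPGroup p G := by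
        have := P.isPGroup'
        rw [hPtop] at this
        exact this.of_equiv Subgroup.topEquiv
      have hnil : Group.IsNilpotent G := hpg.isNilpotent
      have hsol : Group.IsSolvable G := inferInstance
      have := IsSimpleGroup.comm_iff_isSolvable.mpr hsol
      obtain ⟨x, y, hxy⟩ := hG
      exact hxy (this x y)
    · subst h
      rw [Subgroup.card_top] at hcard
      have h1 : Nat.card (P : Subgroup G) = 1 := by
        have hpos : 0 < Nat.card G := Nat.card_pos
        exact Nat.eq_of_mul_eq_mul_left hpos (by rw [hcard, mul_one])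
      have := P.ne_bot_of_dvd_card hpG
      exact this (Subgroup.card_eq_one.mp h1)
  obtain ⟨U, y, hm⟩ := exists_minAct hnc
  obtain ⟨q, hq, hqy, j, hj1, hqj, hjd⟩ := hm.exists_prime
  have hjG : p ^ j ∣ Nat.card G :=
    hjd.trans ((Subgroup.index_dvd_card _).trans (Subgroup.card_subgroup_dvd_card U))
  have hqG : q ∣ Nat.card G := hqy.trans (orderOf_dvd_natCard y)
  have hpq : p ≤ q := Nat.minFac_le_of_dvd hq.two_le hqG
  by_cases hj3 : 3 ≤ j
  · left
    exact (pow_dvd_pow p hj3).trans hjG
  · right
    have hp2 := hp.two_le
    have hj2 : j = 1 ∨ j = 2 := by omega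
    rcases hj2 with rfl | rfl
    · exfalso
      rw [pow_one] at hqj
      have := Nat.le_of_dvd (by omega) hqj
      omega
    · have h5 : p ^ 2 - 1 = (p + 1) * (p - 1) := by
        have h6 := Nat.sq_sub_sq p 1
        rwa [one_pow] at h6
      rw [h5] at hqj
      rcases (Nat.Prime.dvd_mul hq).mp hqj with h | h
      · have hle := Nat.le_of_dvd (by omega) h
        have hqe : q = p ∨ q = p + 1 := by omega
        rcases hqe with hqe | hqe
        · exfalso
          rw [hqe] at h
          have : p ∣ 1 := (Nat.dvd_add_right (dvd_refl p)).mp h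
          exact hp.one_lt.ne' (Nat.dvd_one.mp this)
        · -- p and p+1 both prime
          rw [hqe] at hq hqG
          have hp2' : p = 2 := by
            rcases hp.eq_two_or_odd with h2 | h2
            · exact h2
            · exfalso
              rcases hq.eq_two_or_odd with h3 | h3 <;> omega
          rw [hp2'] at hjG hqG
          have hcop : Nat.Coprime (2 ^ 2) (2 + 1) := by decide
          have := hcop.mul_dvd_of_dvd_of_dvd hjG hqG
          simpa using this
      · exfalso
        have := Nat.le_of_dvd (by omega) h
        omega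

end Cfsg.Agent.S0073
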