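import Mathlib
import Cfsg.Statements.S0074
import Cfsg.Agent.Lib_helper1_Transfer

set_option autoImplicit false
open Cfsg

namespace Cfsg.Agent.S0074

open scoped commutatorElement

/-- For an abelian Sylow p-subgroup P, the intersection of P with the derived subgroup of G equals its intersection with the derived subgroup of the normalizer of P. -/
theorem result {G : Type*} [Group G] [Finite G] {p : ℕ} [Fact p.Prime] (P : Sylow p G) (hP : IsMulCommutative P) : commutator G ⊓ (P : Subgroup G) = ⁅Subgroup.normalizer (P : Set G), Subgroup.normalizer (P : Set G)⁆ ⊓ (P : Subgroup G) := by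
  apply le_antisymm
  · refine le_inf ?_ inf_le_right
    rw [Subgroup.commutator_inf_eq_focalSubgroup P]
    apply Cfsg.Agent.H1.focalSubgroup_le_of_control
    intro x hx u hu
    obtain ⟨n, hn, hnx⟩ := P.conj_eq_normalizer_conj_of_mem x u⁻¹ hx (by rw [inv_inv]; exact hu)
    rw [inv_inv] at hnx
    rw [hnx]
    have : x * (n⁻¹ * x * n)⁻¹ = ⁅x, n⁻¹⁆ := by rw [commutatorElement_def]; group
    rw [this]
    exact Subgroup.commutator_mem_commutator (Subgroup.le_normalizer hx) (inv_mem hn)
  · exact inf_le_inf_right _ (Subgroup.commutator_mono le_top le_top)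

end Cfsg.Agent.S0074
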