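import Mathlib
import Cfsg.Statements.S0076
import Cfsg.Agent.Lib_helper1_Transfer

set_option autoImplicit false
open Cfsg

namespace Cfsg.Agent.S0076

open Pointwise
open Cfsg.Agent.H1

theorem image_conj_mul {G : Type*} [Group G] (a b : G) (X : Set G) :
    (fun y => (a * b) * y * (a * b)⁻¹) '' X
      = (fun y => a * y * a⁻¹) '' ((fun y => b * y * b⁻¹) '' X) := by
  rw [Set.image_image]
  apply Set.image_congr
  intro y _
  group

theorem conj_injective {G : Type*} [Group G] (a : G) :
    Function.Injective (fun y : G => a * y * a⁻¹) := by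
  intro x y h
  simpa using h

theorem image_conj_eq_iff {G : Type*} [Group G] (g : G) (X : Set G) :
    (fun y => g * y * g⁻¹) '' X = X ↔ g ∈ Subgroup.normalizer X := by
  rw [Subgroup.mem_set_normalizer_iff]
  constructor
  · intro h n
    constructor
    · intro hn
      rw [← h]
      exact ⟨n, hn, rfl⟩
    · intro hn
      rw [← h] at hn
      obtain ⟨m, hm, hmn⟩ := hn
      rwa [← conj_injective g hmn]
  · intro h
    ext y
    constructor
    · rintro ⟨m, hm, rfl⟩
      exact (h m).mp hm
    · intro hy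
      refine ⟨g⁻¹ * y * g, (h _).mpr ?_, by group⟩
      have : g * (g⁻¹ * y * g) * g⁻¹ = y := by group
      rwa [this]


/-- Two P-invariant subsets of a Sylow p-subgroup P that are conjugate in G are conjugate under the normalizer of P. -/
theorem result {G : Type*} [Group G] [Finite G] {p : ℕ} [Fact p.Prime] (P : Sylow p G) (X Y : Set G) (hXP : X ⊆ P) (hYP : Y ⊆ P) (hX : ∀ x ∈ P, (fun y => x * y * x⁻¹) '' X = X) (hY : ∀ x ∈ P, (fun y => x * y * x⁻¹) '' Y = Y) (g : G) (hg : (fun y => g * y * g⁻¹) '' X = Y) : ∃ n ∈ Subgroup.normalizer (P : Set G), (fun y => n * y * n⁻¹) '' X = Y := by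
  have hPK : (P : Subgroup G) ≤ Subgroup.normalizer X := fun x hx =>
    (image_conj_eq_iff x X).mp (hX x hx)
  have hQK : ((g⁻¹ • P : Sylow p G) : Subgroup G) ≤ Subgroup.normalizer X := by
    intro w hw
    rw [Sylow.coe_subgroup_smul] at hw
    have h1 := (mem_conj_smul (g := g⁻¹) (H := (P : Subgroup G))).mp hw
    rw [inv_inv] at h1
    have h2 := hY _ h1
    rw [← hg, ← image_conj_mul] at h2
    have h3 : g * w * g⁻¹ * g = g * w := by group
    rw [h3, image_conj_mul] at h2
    exact (image_conj_eq_iff w X).mp ((Set.image_injective.mpr (conj_injective g)) h2)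
  obtain ⟨c, hc, hcP⟩ := sylow_conj_of_le (g⁻¹ • P) P _ hQK hPK
  rw [Sylow.coe_subgroup_smul, smul_smul, ← map_mul] at hcP
  have h2 : c * g⁻¹ ∈ Subgroup.normalizer ((P : Subgroup G) : Set G) :=
    conj_smul_eq_iff_mem_normalizer.mp hcP
  refine ⟨g * c⁻¹, ?_, ?_⟩
  · have : g * c⁻¹ = (c * g⁻¹)⁻¹ := by group
    rw [this]
    exact inv_mem h2
  · rw [image_conj_mul, (image_conj_eq_iff c⁻¹ X).mpr (inv_mem hc), hg]

end Cfsg.Agent.S0076
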