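import Mathlib
import Cfsg.Statements.S0077
import Cfsg.Agent.Lib_helper1_Transfer

set_option autoImplicit false
open Cfsg

namespace Cfsg.Agent.S0077

open Pointwise
open scoped commutatorElement
open Cfsg.Agent.H1

/-- If a subgroup Z of the centre of a Sylow p-subgroup P is weakly closed in P, then P meets the derived subgroup of G exactly where it meets the derived subgroup of the normalizer of Z. -/
theorem result {G : Type*} [Group G] [Finite G] {p : ℕ} [Fact p.Prime] (P : Sylow p G) (Z : Subgroup G) (hZ : Z ≤ Subgroup.centralizer (P : Set G)) (hW : Cfsg.IsWeaklyClosed Z P) : commutator G ⊓ (P : Subgroup G) = ⁅Subgroup.normalizer (Z : Set G), Subgroup.normalizer (Z : Set G)⁆ ⊓ (P : Subgroup G) := by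
  obtain ⟨hZP, hW⟩ := hW
  have hW' : ∀ g : G, MulAut.conj g • Z ≤ (P : Subgroup G) → g ∈ Subgroup.normalizer (Z : Set G) :=
    fun g hg => conj_smul_eq_iff_mem_normalizer.mp (hW g hg)
  have hPN : (P : Subgroup G) ≤ Subgroup.normalizer (Z : Set G) := by
    intro x hx
    apply hW'
    intro y hy
    rw [mem_conj_smul] at hy
    have : y = x * (x⁻¹ * y * x) * x⁻¹ := by group
    rw [this]
    exact mul_mem (mul_mem hx (hZP hy)) (inv_mem hx)
  apply le_antisymm
  · refine le_inf ?_ inf_le_right
    rw [Subgroup.commutator_inf_eq_focalSubgroup P]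
    apply focalSubgroup_le_of_control
    intro x hx u hu
    have hZpg : IsPGroup p Z := P.2.to_le hZP
    have hZupg : IsPGroup p (MulAut.conj u • Z : Subgroup G) := by
      have := hZpg.map (MulAut.conj u).toMonoidHom
      exact this
    have h1 : Z ≤ Subgroup.centralizer {u * x * u⁻¹} := by
      intro z hz
      rw [Subgroup.mem_centralizer_singleton_iff]
      exact (Subgroup.mem_centralizer_iff.mp (hZ hz) _ hu).symm
    have h2 : MulAut.conj u • Z ≤ Subgroup.centralizer {u * x * u⁻¹} := by
      intro z hz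
      rw [mem_conj_smul] at hz
      rw [Subgroup.mem_centralizer_singleton_iff]
      have h3 := (Subgroup.mem_centralizer_iff.mp (hZ hz) _ hx)
      have h4 : z = u * (u⁻¹ * z * u) * u⁻¹ := by group
      rw [h4]
      calc u * (u⁻¹ * z * u) * u⁻¹ * (u * x * u⁻¹) = u * ((u⁻¹ * z * u) * x) * u⁻¹ := by group
        _ = u * (x * (u⁻¹ * z * u)) * u⁻¹ := by rw [h3]
        _ = u * x * u⁻¹ * (u * (u⁻¹ * z * u) * u⁻¹) := by group
    obtain ⟨c, hc, Q, hZQ, hcQ⟩ := pgroups_conj_into_sylow _ Z _ hZpg hZupg h1 h2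
    obtain ⟨w, rfl⟩ := MulAction.exists_smul_eq G P Q
    rw [Sylow.coe_subgroup_smul] at hZQ hcQ
    have h5 : w⁻¹ ∈ Subgroup.normalizer (Z : Set G) := by
      apply hW'
      rw [map_inv, Subgroup.pointwise_smul_subset_iff]  
      exact hZQ
    have h6 : w⁻¹ * (c * u) ∈ Subgroup.normalizer (Z : Set G) := by
      apply hW'
      rw [map_mul, mul_smul, map_inv, Subgroup.pointwise_smul_subset_iff, map_mul, mul_smul]
      exact hcQ
    have h7 : c * u ∈ Subgroup.normalizer (Z : Set G) := by
      have : c * u = (w⁻¹)⁻¹ * (w⁻¹ * (c * u)) := by group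
      rw [this]
      exact mul_mem (inv_mem h5) h6
    rw [Subgroup.mem_centralizer_singleton_iff] at hc
    have h8 : u * x * u⁻¹ = (c * u) * x * (c * u)⁻¹ := by
      have : (c * u) * x * (c * u)⁻¹ = (c * (u * x * u⁻¹)) * c⁻¹ := by group
      rw [this, hc]
      group
    rw [h8]
    have : x * ((c * u) * x * (c * u)⁻¹)⁻¹ = ⁅x, c * u⁆ := by rw [commutatorElement_def]; group
    rw [this]
    exact Subgroup.commutator_mem_commutator (hPN hx) h7
  · exact inf_le_inf_right _ (Subgroup.commutator_mono le_top le_top)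

end Cfsg.Agent.S0077
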