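import Mathlib
import Cfsg.Statements.S0079
import Cfsg.Agent.Lib_helper1_PNilp2

set_option autoImplicit false
open Cfsg

namespace Cfsg.Agent.S0079

open Cfsg.Agent.H1

/-- A nilpotent Hall subgroup has a normal complement exactly when elements of it that are conjugate in the whole group are already conjugate inside it. -/
theorem result {G : Type*} [Group G] [Finite G] (H : Subgroup G) (hH : Group.IsNilpotent H) (hHall : Nat.Coprime (Nat.card H) H.index) : (∃ N : Subgroup G, N.Normal ∧ N.IsComplement' H) ↔ ∀ x ∈ H, ∀ y ∈ H, (∃ g : G, g * x * g⁻¹ = y) → ∃ h ∈ H, h * x * h⁻¹ = y := by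
  constructor
  · rintro ⟨N, hNn, hN⟩ x hx y hy ⟨g, hg⟩
    have hgtop : g ∈ N ⊔ H := by rw [hN.sup_eq_top]; trivial
    obtain ⟨n, hn, h, hh, rfl⟩ := Subgroup.mem_sup_of_normal_left.mp hgtop
    refine ⟨h, hh, ?_⟩
    have hx' : h * x * h⁻¹ ∈ H := mul_mem (mul_mem hh hx) (inv_mem hh)
    have h1 : y * (h * x * h⁻¹)⁻¹ ∈ N ⊓ H := by
      refine Subgroup.mem_inf.mpr ⟨?_, mul_mem hy (inv_mem hx')⟩
      have : y * (h * x * h⁻¹)⁻¹ = n * ((h * x * h⁻¹) * n⁻¹ * (h * x * h⁻¹)⁻¹) := by
        rw [← hg]; group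
      rw [this]
      exact mul_mem hn (hNn.conj_mem _ (inv_mem hn) _)
    rw [hN.disjoint.eq_bot, Subgroup.mem_bot, mul_inv_eq_one] at h1
    exact h1.symm
  · intro hctl
    have key : ∀ p : ℕ, p.Prime → p ∣ Nat.card H →
        Nat.Coprime (Nat.card (Cfsg.pResidual p G)) p := by
      intro p hp hpd
      haveI : Fact p.Prime := ⟨hp⟩
      obtain ⟨P, hPH, hHP⟩ := exists_sylow_le_of_hall_nilpotent H hH hHall p hpd
      apply coprime_card_pResidual_of_control p _ G P rfl
      intro x hx y hy hg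
      obtain ⟨h, hh, hhx⟩ := hctl x (hPH hx) y (hPH hy) hg
      obtain ⟨a, ha, b, hb, hab, ⟨k, hk⟩, hbc⟩ := exists_p_decomposition p h
      have haH : a ∈ H := (Subgroup.zpowers_le.mpr hh) ha
      have hbH : b ∈ H := (Subgroup.zpowers_le.mpr hh) hb
      have haP : a ∈ (P : Subgroup G) := mem_sylow_of_mem_normalizer P (hHP haH) hk
      obtain ⟨j, hj⟩ := IsPGroup.iff_card.mp P.2
      have hcomm : ⁅(P : Subgroup G), Subgroup.zpowers b⁆ = ⊥ :=
        commutator_eq_bot_of_nilpotent_coprime hH hPH (Subgroup.zpowers_le.mpr hbH)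
          ((Subgroup.zpowers_le.mpr hbH).trans hHP)
          (by rw [Nat.card_zpowers, hj]; exact Nat.Coprime.pow_right j hbc)
          (Or.inr (isSolvable_of_isPGroup P.2))
      rw [Subgroup.commutator_eq_bot_iff_le_centralizer] at hcomm
      have hbx : b * x = x * b :=
        Subgroup.mem_centralizer_iff.mp (hcomm hx) b (Subgroup.mem_zpowers b)
      refine ⟨a, haP, ?_⟩
      rw [← hhx, hab]
      calc a * x * a⁻¹ = a * (x * b) * b⁻¹ * a⁻¹ := by group
        _ = a * (b * x) * b⁻¹ * a⁻¹ := by rw [hbx]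
        _ = a * b * x * (a * b)⁻¹ := by group
    set N : Subgroup G := ⨅ p : {p : ℕ // p.Prime ∧ p ∣ Nat.card H}, Cfsg.pResidual p.1 G with hN
    have hNn : N.Normal := Subgroup.normal_iInf_normal fun p => pResidual_normal p.1
    have hcop : Nat.Coprime (Nat.card N) (Nat.card H) := by
      apply Nat.Coprime.symm
      apply Nat.coprime_of_dvd
      intro q hq hqH hqN
      have h1 : N ≤ Cfsg.pResidual q G := iInf_le _ (⟨q, hq, hqH⟩ : {p : ℕ // p.Prime ∧ p ∣ Nat.card H})
      have h2 := key q hq hqH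
      exact (Nat.Prime.coprime_iff_not_dvd hq).mp h2.symm (hqN.trans (Subgroup.card_dvd_of_le h1))
    have hsup : N ⊔ H = ⊤ := by
      rw [← Subgroup.index_eq_one]
      by_contra hne
      obtain ⟨q, hq, hqd⟩ := Nat.exists_prime_and_dvd hne
      haveI : Fact q.Prime := ⟨hq⟩
      by_cases hqH : q ∣ Nat.card H
      · have h1 : q ∣ H.index := hqd.trans (Subgroup.index_dvd_of_le le_sup_right)
        exact (Nat.Prime.coprime_iff_not_dvd hq).mp (Nat.Coprime.coprime_dvd_left hqH hHall) h1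
      · obtain ⟨Q⟩ : Nonempty (Sylow q G) := inferInstance
        have hQN : (Q : Subgroup G) ≤ N := by
          apply le_iInf
          rintro ⟨p, hp, hpH⟩ x hx
          apply mem_pResidual_of_coprime
          obtain ⟨i, hi⟩ := (IsPGroup.iff_orderOf.mp Q.2) ⟨x, hx⟩
          rw [Subgroup.orderOf_mk] at hi
          rw [hi]
          apply Nat.Coprime.pow_left
          rw [Nat.coprime_primes hq hp]
          rintro rfl
          exact hqH hpH
        exact Q.not_dvd_index (hqd.trans (Subgroup.index_dvd_of_le (hQN.trans le_sup_left)))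
    exact ⟨N, hNn, isComplement'_of_sup_of_coprime hsup hcop⟩

end Cfsg.Agent.S0079
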