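import Mathlib
import Cfsg.Statements.S0083
import Cfsg.Agent.Lib_helper1_AbSylow

set_option autoImplicit false
open Cfsg

namespace Cfsg.Agent.S0083

open Cfsg.Agent.H1 Subgroup
open scoped commutatorElement

/-- For an abelian Sylow p-subgroup P, a normal p-complement exists exactly when the normalizer of P is an internal direct product of P with some subgroup. -/
theorem result {G : Type*} [Group G] [Finite G] {p : ℕ} [Fact p.Prime] (P : Sylow p G) (hP : IsMulCommutative P) : Cfsg.HasNormalPComplement p G ↔ ∃ Q : Subgroup G, Q ≤ Subgroup.centralizer (P : Set G) ∧ Q ⊓ (P : Subgroup G) = ⊥ ∧ Q ⊔ (P : Subgroup G) = Subgroup.normalizer (P : Set G) := by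
  constructor
  · intro h
    have hcop := hasNormalPComplement_iff.mp h
    have hc := isComplement'_pResidual P hcop
    haveI hRn := pResidual_normal (G := G) p
    refine ⟨Cfsg.pResidual p G ⊓ normalizer ((P : Subgroup G) : Set G), ?_, ?_, ?_⟩
    · rintro x ⟨hxR, hxN⟩
      rw [mem_centralizer_iff]
      intro y hy
      have h1 : x * y * x⁻¹ * y⁻¹ ∈ Cfsg.pResidual p G ⊓ (P : Subgroup G) := by
        refine mem_inf.mpr ⟨?_, mul_mem ((mem_normalizer_iff.mp hxN y).mp hy) (inv_mem hy)⟩
        have : x * y * x⁻¹ * y⁻¹ = x * (y * x⁻¹ * y⁻¹) := by group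
        rw [this]
        exact mul_mem hxR (hRn.conj_mem _ (inv_mem hxR) _)
      rw [hc.disjoint.eq_bot, mem_bot] at h1
      have : x * y = (x * y * x⁻¹ * y⁻¹) * (y * x) := by group
      rw [this, h1, one_mul]
    · rw [eq_bot_iff, ← hc.disjoint.eq_bot]
      exact inf_le_inf_right _ inf_le_left
    · rw [dedekind_normal _ _ _ le_normalizer, hc.sup_eq_top, top_inf_eq]
      rfl
  · rintro ⟨Q, hQC, -, hsup⟩
    have hN : normalizer ((P : Subgroup G) : Set G) ≤ centralizer ((P : Subgroup G) : Set G) := by
      have hsup' : Q ⊔ (P : Subgroup G) = normalizer ((P : Subgroup G) : Set G) := hsup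
      rw [← hsup']
      exact sup_le hQC (abelian_le_centralizer _)
    exact ⟨P, _, inferInstance, MonoidHom.ker_transferSylow_isComplement' P hN⟩

end Cfsg.Agent.S0083
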