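import Mathlib
import Cfsg.Statements.S0084
import Cfsg.Agent.Lib_helper1_AbSylow

set_option autoImplicit false
open Cfsg

namespace Cfsg.Agent.S0084

open Cfsg.Agent.H1 Subgroup

theorem normalizer_le_centralizer_of_coprime_factorial {G : Type*} [Group G] [Finite G]
    (T : Subgroup G) [IsMulCommutative T] (h : Nat.Coprime T.index (Nat.card T).factorial) :
    normalizer (T : Set G) ≤ centralizer (T : Set G) := by
  classical
  have key := card_dvd_of_injective _ (QuotientGroup.kerLift_injective T.normalizerMonoidHom)
  rw [normalizerMonoidHom_ker, ← index, ← relIndex] at key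
  refine relIndex_eq_one.mp (Nat.eq_one_of_dvd_coprimes h ?_ ?_)
  · exact (relIndex_dvd_of_le_left _ (abelian_le_centralizer T)).trans
      (relIndex_dvd_index_of_le le_normalizer)
  · refine key.trans ?_
    have h1 := card_dvd_of_injective (MulAut.toPerm T) (fun a b hab => MulEquiv.toEquiv_injective hab)
    haveI := Fintype.ofFinite T
    rwa [Nat.card_eq_fintype_card (α := Equiv.Perm T), Fintype.card_perm,
      ← Nat.card_eq_fintype_card] at h1


/-- A group whose Sylow 2-subgroups are Klein four-groups and whose order is prime to 3 has a normal 2-complement. -/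
theorem result {G : Type*} [Group G] [Finite G] (T : Sylow 2 G) (hT : IsKleinFour T) (h3 : ¬ 3 ∣ Nat.card G) : Cfsg.HasNormalPComplement 2 G := by
  haveI : Fact (Nat.Prime 2) := ⟨Nat.prime_two⟩
  haveI hab : IsMulCommutative (T : Subgroup G) := by
    haveI := hT
    exact IsKleinFour.isMulCommutative
  have hcard : Nat.card (T : Subgroup G) = 4 := hT.card_four
  have hN : normalizer ((T : Subgroup G) : Set G) ≤ centralizer ((T : Subgroup G) : Set G) := by
    apply normalizer_le_centralizer_of_coprime_factorial
    rw [hcard]
    have h24 : Nat.factorial 4 = 2 ^ 3 * 3 := by decide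
    rw [h24]
    apply Nat.Coprime.mul_right
    · apply Nat.Coprime.pow_right
      exact ((Nat.Prime.coprime_iff_not_dvd Nat.prime_two).mpr T.not_dvd_index).symm
    · apply Nat.Coprime.symm
      rw [Nat.Prime.coprime_iff_not_dvd Nat.prime_three]
      exact fun h => h3 (h.trans (index_dvd_card _))
  exact ⟨T, _, inferInstance, MonoidHom.ker_transferSylow_isComplement' T hN⟩

end Cfsg.Agent.S0084
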