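import Mathlib
import Cfsg.Statements.S0085
import Cfsg.Agent.Lib_helper1_AbSylow

set_option autoImplicit false
open Cfsg

namespace Cfsg.Agent.S0085

open Cfsg.Agent.H1 Subgroup

/-- A group whose Sylow 2-subgroups are elementary abelian of order 8 and whose order is prime to 3 and to 7 has a normal 2-complement. -/
theorem result {G : Type*} [Group G] [Finite G] (T : Sylow 2 G) (h8 : Nat.card T = 8) (he : ∀ x : T, x * x = 1) (h3 : ¬ 3 ∣ Nat.card G) (h7 : ¬ 7 ∣ Nat.card G) : Cfsg.HasNormalPComplement 2 G := by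
  haveI : Fact (Nat.Prime 2) := ⟨Nat.prime_two⟩
  have hinv : ∀ x : (T : Subgroup G), x⁻¹ = x := fun x => inv_eq_of_mul_eq_one_left (he x)
  haveI hab : IsMulCommutative (T : Subgroup G) := ⟨⟨fun a b => by
    rw [← hinv (a * b), mul_inv_rev, hinv, hinv]⟩⟩
  have hR : ((T : Subgroup G).normalizerMonoidHom).range = ⊥ := by
    by_contra hne
    have hc1 : Nat.card ((T : Subgroup G).normalizerMonoidHom).range ≠ 1 := by
      rwa [Ne, card_eq_one]
    obtain ⟨q, hq, hqd⟩ := Nat.exists_prime_and_dvd hc1
    haveI : Fact q.Prime := ⟨hq⟩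
    have hqidx : q ∣ (T : Subgroup G).index := by
      refine hqd.trans ?_
      rw [← index_ker, normalizerMonoidHom_ker]
      exact (relIndex_dvd_of_le_left _ (abelian_le_centralizer (T : Subgroup G))).trans
        (relIndex_dvd_index_of_le le_normalizer)
    have hqG : q ∣ Nat.card G := hqidx.trans (index_dvd_card _)
    have hq2 : q ≠ 2 := by rintro rfl; exact T.not_dvd_index hqidx
    have hq3 : q ≠ 3 := by rintro rfl; exact h3 hqG
    have hq7 : q ≠ 7 := by rintro rfl; exact h7 hqG
    obtain ⟨α, hα⟩ := exists_prime_orderOf_dvd_card' q hqd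
    set β : MulAut (T : Subgroup G) := α.1 with hβ
    have hβo : orderOf β = q := by rw [hβ, Subgroup.orderOf_coe]; exact hα
    have hpg : IsPGroup q (zpowers β) := by
      apply IsPGroup.of_card (n := 1)
      rw [Nat.card_zpowers, hβo, pow_one]
    have hmod := hpg.card_modEq_card_fixedPoints (T : Subgroup G)
    have hF : Nat.card (MulAction.fixedPoints (zpowers β) (T : Subgroup G)) =
        Nat.card (FixedPoints.subgroup (zpowers β) (T : Subgroup G)) := rfl
    have h8' : Nat.card (T : Subgroup G) = 8 := h8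
    rw [hF, h8'] at hmod
    have hdvd : Nat.card (FixedPoints.subgroup (zpowers β) (T : Subgroup G)) ∣ 2 ^ 3 := by
      have := card_subgroup_dvd_card (FixedPoints.subgroup (zpowers β) (T : Subgroup G))
      rwa [h8'] at this
    obtain ⟨k, hk, hkc⟩ := (Nat.dvd_prime_pow Nat.prime_two).mp hdvd
    rw [hkc] at hmod
    have hle : 2 ^ k ≤ 8 := by
      calc 2 ^ k ≤ 2 ^ 3 := Nat.pow_le_pow_right (by norm_num) hk
        _ = 8 := by norm_num
    have hd : q ∣ 8 - 2 ^ k := (Nat.modEq_iff_dvd' hle).mp hmod.symm
    interval_cases k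
    · have : q ∣ 7 := by simpa using hd
      exact hq7 ((Nat.prime_dvd_prime_iff_eq hq (by norm_num)).mp this)
    · have : q ∣ 2 * 3 := by simpa using hd
      rcases (Nat.Prime.dvd_mul hq).mp this with h | h
      · exact hq2 ((Nat.prime_dvd_prime_iff_eq hq Nat.prime_two).mp h)
      · exact hq3 ((Nat.prime_dvd_prime_iff_eq hq Nat.prime_three).mp h)
    · have : q ∣ 2 ^ 2 := by simpa using hd
      exact hq2 ((Nat.prime_dvd_prime_iff_eq hq Nat.prime_two).mp (hq.dvd_of_dvd_pow this))
    · have htop : FixedPoints.subgroup (zpowers β) (T : Subgroup G) = ⊤ := by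
        apply eq_top_of_card_eq
        rw [hkc, h8']
        norm_num
      have hβ1 : β = 1 := by
        ext t
        have ht : t ∈ FixedPoints.subgroup (zpowers β) (T : Subgroup G) := by rw [htop]; trivial
        have := (FixedPoints.mem_subgroup _ _ t).mp ht ⟨β, mem_zpowers β⟩
        exact congrArg Subtype.val this
      rw [hβ1, orderOf_one] at hβo
      exact hq.one_lt.ne hβo
  have hN : normalizer ((T : Subgroup G) : Set G) ≤ centralizer ((T : Subgroup G) : Set G) := by
    rw [MonoidHom.range_eq_bot_iff] at hR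
    have hker : ((T : Subgroup G).normalizerMonoidHom).ker = ⊤ := by
      rw [hR]; exact MonoidHom.ker_one
    rw [normalizerMonoidHom_ker, subgroupOf_eq_top] at hker
    exact hker
  exact ⟨T, _, inferInstance, MonoidHom.ker_transferSylow_isComplement' T hN⟩

end Cfsg.Agent.S0085
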