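import Mathlib
import Cfsg.Statements.S0087
import Cfsg.Agent.S0079

set_option autoImplicit false
open Cfsg

namespace Cfsg.Agent.S0087

open Pointwise
open Cfsg.Agent.H1 Subgroup

theorem aux.{u} : ∀ (n : ℕ) (G : Type u) [Group G] [Finite G] (H : Subgroup G), Nat.card G = n →
    Nat.Coprime (Nat.card H) H.index → normalizer (H : Set G) ≤ centralizer (H : Set G) →
    ∃ N : Subgroup G, N.Normal ∧ N.IsComplement' H := by
  intro n
  induction n using Nat.strong_induction_on with
  | _ n ih =>
  intro G _ _ H hn hHall h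
  have hab : IsMulCommutative H := ⟨⟨fun a b => Subtype.ext (h (le_normalizer b.2) a a.2)⟩⟩
  have hnil : Group.IsNilpotent H := ⟨1, Subgroup.upperCentralSeries_one_eq_top_iff.mpr hab⟩
  apply (Cfsg.Agent.S0079.result H hnil hHall).mpr
  rintro x hx y hy ⟨g, hg⟩
  refine ⟨1, one_mem _, ?_⟩
  rw [one_mul, inv_one, mul_one]
  by_cases hC : centralizer {y} = ⊤
  · have h1 : g ∈ centralizer {y} := by rw [hC]; trivial
    rw [mem_centralizer_singleton_iff] at h1
    have : x = g⁻¹ * (g * x * g⁻¹) * g := by group
    rw [this, hg, mul_assoc, ← h1, inv_mul_cancel_left]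
  · set C := centralizer {y} with hCdef
    have hHC : H ≤ C := by
      intro z hz
      rw [hCdef, mem_centralizer_singleton_iff]
      exact setLike_mul_comm hz hy
    have hgHC : MulAut.conj g • H ≤ C := by
      intro z hz
      rw [mem_conj_smul] at hz
      rw [hCdef, mem_centralizer_singleton_iff]
      have h1 : (g⁻¹ * z * g) * x = x * (g⁻¹ * z * g) := setLike_mul_comm hz hx
      rw [← hg]
      calc z * (g * x * g⁻¹) = g * ((g⁻¹ * z * g) * x) * g⁻¹ := by group
        _ = g * (x * (g⁻¹ * z * g)) * g⁻¹ := by rw [h1]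
        _ = g * x * g⁻¹ * z := by group
    have hrel : H.relIndex C ∣ H.index := relIndex_dvd_index_of_le hHC
    have hcop : Nat.Coprime (Nat.card H) (H.relIndex C) := Nat.Coprime.coprime_dvd_right hrel hHall
    obtain ⟨K', hK'n, hK'⟩ := ih (Nat.card C) (hn ▸ card_lt_of_ne_top hC) C (H.subgroupOf C) rfl
      (by rw [card_subgroupOf_of_le hHC]; exact hcop)
      (by
        rw [← subgroupOf_normalizer_eq hHC]
        intro z hz
        rw [mem_subgroupOf] at hz
        have h2 := h hz
        rw [mem_centralizer_iff] at h2 ⊢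
        intro w hw
        exact Subtype.ext (h2 w hw))
    set D := K'.map C.subtype with hD
    have hDC : D ≤ C := map_subtype_le _
    have hHD : H ≤ normalizer (D : Set G) := by
      apply le_normalizer_of_forall
      rintro a ha _ ⟨k, hk, rfl⟩
      exact ⟨⟨a, hHC ha⟩ * k * ⟨a, hHC ha⟩⁻¹, hK'n.conj_mem k hk _, rfl⟩
    have hsup : D ⊔ H = C := by
      have h1 := congrArg (Subgroup.map C.subtype) hK'.sup_eq_top
      rw [Subgroup.map_sup, map_subgroupOf_eq_of_le hHC, ← MonoidHom.range_eq_map,
        range_subtype] at h1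
      exact h1
    have hcardD : Nat.card D = H.relIndex C := by
      rw [hD, card_map_of_injective C.subtype_injective, ← hK'.index_eq_card]
      rfl
    obtain ⟨d, hd, hdH⟩ := sz_conj_internal D H (MulAut.conj g • H) hHD (hsup ▸ hgHC)
      (card_conj_smul g H) (by rw [hcardD]; exact hcop.symm)
      (Or.inr (Group.isSolvable_of_comm (fun a b => mul_comm' a b)))
    have h3 : d⁻¹ * g ∈ normalizer (H : Set G) := by
      apply conj_smul_eq_iff_mem_normalizer.mp
      rw [map_mul, mul_smul, ← hdH, map_inv, inv_smul_smul]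
    have h4 := mem_centralizer_iff.mp (h h3) x hx
    have h5 : d * y = y * d := mem_centralizer_singleton_iff.mp (hDC hd)
    have h6 : g * x = y * g := by rw [← hg]; group
    have h7 : x * d⁻¹ * g = d⁻¹ * y * g := by
      rw [mul_assoc, h4, mul_assoc, mul_assoc, h6]
    have h8 : x * d⁻¹ = d⁻¹ * y := mul_right_cancel h7
    have h9 : d⁻¹ * y = y * d⁻¹ := by
      rw [inv_mul_eq_iff_eq_mul, ← mul_assoc, h5, mul_inv_cancel_right]
    rw [h9] at h8
    exact mul_right_cancel h8


/-- A Hall subgroup that is central in its normalizer has a normal complement. -/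
theorem result {G : Type*} [Group G] [Finite G] (H : Subgroup G) (hHall : Nat.Coprime (Nat.card H) H.index) (h : Subgroup.normalizer (H : Set G) ≤ Subgroup.centralizer (H : Set G)) : ∃ N : Subgroup G, N.Normal ∧ N.IsComplement' H := by
  exact aux _ G H rfl hHall h

end Cfsg.Agent.S0087
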