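import Mathlib
import Cfsg.Statements.S0089
import Cfsg.Agent.S0088

set_option autoImplicit false
open Cfsg

namespace Cfsg.Agent.S0089


/-- When all Sylow subgroups are abelian, the derived subgroup meets the centre trivially. -/
theorem result {G : Type*} [Group G] [Finite G] (h : ∀ p : ℕ, p.Prime → ∀ P : Sylow p G, IsMulCommutative P) : commutator G ⊓ Subgroup.center G = ⊥ := by
  rw [eq_bot_iff]
  rintro z ⟨hz1, hz2⟩
  by_contra hz
  have hz' : z ≠ 1 := hz
  have ho : orderOf z ≠ 1 := fun h1 => hz' (orderOf_eq_one_iff.mp h1)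
  obtain ⟨p, hp, hpd⟩ := Nat.exists_prime_and_dvd ho
  haveI : Fact p.Prime := ⟨hp⟩
  obtain ⟨m, hm⟩ := hpd
  have hw : orderOf (z ^ m) = p := by
    have hpos : 0 < orderOf z := orderOf_pos z
    have hm0 : m ≠ 0 := by rintro rfl; rw [mul_zero] at hm; omega
    rw [orderOf_pow' z hm0, hm, Nat.gcd_eq_right (Dvd.intro_left _ rfl)]
    exact Nat.mul_div_cancel _ (Nat.pos_of_ne_zero hm0)
  have hpg : IsPGroup p (Subgroup.zpowers (z ^ m)) := by
    apply IsPGroup.of_card (n := 1)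
    rw [Nat.card_zpowers, hw, pow_one]
  obtain ⟨P, hP⟩ := hpg.exists_le_sylow
  have h88 := Cfsg.Agent.S0088.result (P : Subgroup G) (h p hp P) P.card_coprime_index
  have hmem : z ^ m ∈ (P : Subgroup G) ⊓ commutator G ⊓ Subgroup.center G :=
    ⟨⟨hP (Subgroup.mem_zpowers _), pow_mem hz1 m⟩, pow_mem hz2 m⟩
  rw [h88, Subgroup.mem_bot] at hmem
  rw [hmem, orderOf_one] at hw
  exact hp.one_lt.ne hw

end Cfsg.Agent.S0089
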