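import Mathlib
import Cfsg.Statements.S0090
import Cfsg.Agent.Lib_helper1_AbSylow

set_option autoImplicit false
open Cfsg

namespace Cfsg.Agent.S0090

open Cfsg.Agent.H1 Subgroup
open scoped commutatorElement

/-- An abelian normal Hall subgroup A splits as the internal direct product of G' ∩ A and Z(G) ∩ A, and [A, G] = G' ∩ A. -/
theorem result {G : Type*} [Group G] [Finite G] (A : Subgroup G) [A.Normal] (hc : IsMulCommutative A) (hHall : Nat.Coprime (Nat.card A) A.index) : ⁅A, (⊤ : Subgroup G)⁆ = commutator G ⊓ A ∧ (commutator G ⊓ A) ⊓ (Subgroup.center G ⊓ A) = ⊥ ∧ (commutator G ⊓ A) ⊔ (Subgroup.center G ⊓ A) = A := by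
  have h1 : ⁅A, (⊤ : Subgroup G)⁆ = commutator G ⊓ A := by
    apply le_antisymm
    · exact le_inf (commutator_mono le_top le_rfl) (commutator_le_left A ⊤)
    · rw [commutator_inf_eq_focal A (focal_coprime_of_hall A hHall)]
      apply focalSubgroup_le_of_control
      intro x hx u _
      have : x * (u * x * u⁻¹)⁻¹ = ⁅x, u⁆ := by rw [commutatorElement_def]; group
      rw [this]
      exact commutator_mem_commutator hx (mem_top u)
  have hcop : Nat.Coprime (Nat.card A) (A.relIndex ⊤) := by rw [relIndex_top_right]; exact hHall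
  have hn : (⊤ : Subgroup G) ≤ normalizer (A : Set G) := by rw [normalizer_eq_top]
  have h2 := abelian_decomp_inf A ⊤ le_top hcop
  have h3 := abelian_decomp_sup A ⊤ le_top hn hcop
  rw [coe_top, centralizer_univ] at h2 h3
  refine ⟨h1, ?_, ?_⟩
  · rw [← h1, inf_comm, inf_comm (center G)]
    exact h2
  · rw [← h1, sup_comm, inf_comm (center G)]
    exact h3

end Cfsg.Agent.S0090
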