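import Mathlib
import Cfsg.Statements.S0091
import Cfsg.Agent.Lib_helper1_Transfer

set_option autoImplicit false
open Cfsg

namespace Cfsg.Agent.S0091

open scoped commutatorElement

/-- If a nontrivial Sylow p-subgroup controls its own fusion then it is not contained in the derived subgroup. -/
theorem result {G : Type*} [Group G] [Finite G] {p : ℕ} [Fact p.Prime] (P : Sylow p G) (hp : p ∣ Nat.card G) (h : ∀ x ∈ P, ∀ y ∈ P, (∃ g : G, g * x * g⁻¹ = y) → ∃ z ∈ P, z * x * z⁻¹ = y) : ¬ (P : Subgroup G) ≤ commutator G := by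
  intro hle
  have h1 : (P : Subgroup G).focalSubgroup = P := by
    rw [← Subgroup.commutator_inf_eq_focalSubgroup P]
    exact inf_eq_right.mpr hle
  have h2 : (P : Subgroup G).focalSubgroup ≤ ⁅(P : Subgroup G), (P : Subgroup G)⁆ := by
    apply Cfsg.Agent.H1.focalSubgroup_le_of_control
    intro x hx u hu
    obtain ⟨z, hz, hzx⟩ := h x hx _ hu ⟨u, rfl⟩
    rw [← hzx]
    have : x * (z * x * z⁻¹)⁻¹ = ⁅x, z⁆ := by rw [commutatorElement_def]; group
    rw [this]
    exact Subgroup.commutator_mem_commutator hx hz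
  have hne : (P : Subgroup G) ≠ ⊥ := by
    intro hb
    have := P.dvd_card_of_dvd_card hp
    rw [hb, Subgroup.card_bot] at this
    exact (Fact.out : p.Prime).one_lt.ne' (Nat.dvd_one.mp this)
  apply Cfsg.Agent.H1.commutator_ne_self_of_nilpotent (U := (P : Subgroup G)) (P := (P : Subgroup G))
    (S := (P : Subgroup G)) P.2.isNilpotent le_rfl le_rfl hne
  exact le_antisymm (Subgroup.commutator_le_self _) (h1.symm.le.trans h2)

end Cfsg.Agent.S0091
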