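import Cfsg.Statements.S0092
import Mathlib
import Cfsg.Agent.Lib_helper1_AbSylow
import Cfsg.Agent.Lib_helper1_SZ
import Cfsg.Agent.Lib_helper1_PNilp
import Cfsg.Agent.Lib_helper7_Residual

set_option autoImplicit false
open Cfsg

namespace Cfsg.Agent.S0092

open Subgroup
open scoped Pointwise commutatorElement

theorem lemA {M : Type*} [Group M] [Finite M] {p : ℕ} [Fact p.Prime]
    (hM : Cfsg.pResidual p M = ⊤) (Q : Sylow p M) (hQ : IsMulCommutative Q) :
    (Q : Subgroup M) ⊓ centralizer (normalizer ((Q : Subgroup M) : Set M) : Set M) = ⊥ := by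
  have hc := H1.focal_coprime_of_hall (Q : Subgroup M) Q.card_coprime_index
  have h1 := H1.ker_transferFocal_inf (Q : Subgroup M) hc
  have hp : IsPGroup p ((Q : Subgroup M) ⧸ (Q : Subgroup M).focalSubgroupOf) := Q.2.to_quotient _
  have h2 := H1.pResidual_le_ker p hp (Q : Subgroup M).transferFocal
  rw [hM, top_le_iff] at h2
  rw [h2, top_inf_eq] at h1
  have h3 := H1.abelian_sylow_decomp_inf Q hQ
  rw [← H1.focal_eq_commutator_normalizer Q hQ, ← h1] at h3
  rw [← h3]
  exact (inf_eq_left.mpr inf_le_left).symm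

theorem lemB {G : Type*} [Group G] [Finite G] (Q H L : Subgroup G) [IsMulCommutative Q]
    (hQH : Q ≤ H) (hHL : H ≤ L) (hLQ : L ≤ normalizer (Q : Set G))
    (hLH : L ≤ normalizer (H : Set G))
    (hcop : Nat.Coprime (Nat.card Q) (Q.relIndex H))
    (hC : Q ⊓ centralizer (H : Set G) = ⊥) :
    ∃ K : Subgroup G, K ≤ L ∧ Q ⊔ K = L ∧ Q ⊓ K = ⊥ := by
  obtain ⟨R, hRH, hsup, hinf, hcard⟩ :=
    H1.exists_complement_internal Q H hQH (hHL.trans hLQ) hcop
  have hsolv : Group.IsSolvable Q := Group.isSolvable_of_comm (fun a b => mul_comm' a b)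
  refine ⟨L ⊓ normalizer (R : Set G), inf_le_left, ?_, ?_⟩
  · apply le_antisymm (sup_le (hQH.trans hHL) inf_le_left)
    intro l hl
    have hB : MulAut.conj l • R ≤ Q ⊔ R := by
      rw [hsup]
      have h1 : MulAut.conj l • H = H := H1.conj_smul_eq_iff_mem_normalizer.mpr (hLH hl)
      rw [← h1]
      exact pointwise_smul_le_pointwise_smul_iff.mpr hRH
    obtain ⟨d, hd, hd'⟩ := H1.sz_conj_internal Q R (MulAut.conj l • R)
      (hRH.trans (hHL.trans hLQ)) hB (H1.card_conj_smul _ _) (by rw [hcard]; exact hcop) (Or.inl hsolv)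
    have h2 : d⁻¹ * l ∈ normalizer (R : Set G) := by
      rw [← H1.conj_smul_eq_iff_mem_normalizer, map_mul, mul_smul, ← hd', ← mul_smul, ← map_mul]
      simp
    have : l = d * (d⁻¹ * l) := by group
    rw [this]
    exact mul_mem (mem_sup_left hd)
      (mem_sup_right (mem_inf.mpr ⟨mul_mem (inv_mem (hHL (hQH hd))) hl, h2⟩))
  · rw [eq_bot_iff, ← hC]
    rintro x ⟨hxQ, hxK⟩
    have hxR : x ∈ normalizer (R : Set G) := hxK.2
    replace hxQ : x ∈ Q := hxQ
    refine ⟨hxQ, ?_⟩
    have h2 : H ≤ centralizer {x} := by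
      rw [← hsup]
      refine sup_le ?_ ?_
      · intro v hv
        rw [mem_centralizer_singleton_iff]
        exact setLike_mul_comm hv hxQ
      · intro r hr
        rw [mem_centralizer_singleton_iff]
        have h3 : x * r * x⁻¹ * r⁻¹ ∈ Q ⊓ R := by
          refine mem_inf.mpr ⟨?_, ?_⟩
          · have := H1.conj_mem_of_le_normalizer (hRH.trans (hHL.trans hLQ)) hr (inv_mem hxQ)
            have h4 := mul_mem hxQ this
            simpa [mul_assoc] using h4
          · exact mul_mem ((mem_normalizer_iff.mp hxR r).mp hr) (inv_mem hr)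
        rw [hinf, mem_bot] at h3
        have := congrArg (fun t => t * r * x) h3
        simpa [mul_assoc] using this.symm
    change x ∈ centralizer (H : Set G)
    rw [mem_centralizer_iff]
    intro l hl
    exact mem_centralizer_singleton_iff.mp (h2 hl)


/-- If the Sylow p-subgroups of O^p(G) are abelian then G splits over O^p(G). -/
theorem result {G : Type*} [Group G] [Finite G] {p : ℕ} [Fact p.Prime] (h : ∀ Q : Sylow p (Cfsg.pResidual p G), IsMulCommutative Q) : ∃ K : Subgroup G, K.IsComplement' (Cfsg.pResidual p G) := by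
  classical
  have hNn : (Cfsg.pResidual p G).Normal := H1.pResidual_normal p
  set N := Cfsg.pResidual p G with hN
  have hpq : IsPGroup p (G ⧸ N) := H1.isPGroup_quotient_pResidual p
  have hNtop : Cfsg.pResidual p N = ⊤ := by
    have h1 := H1.map_pResidual_subtype N hpq
    apply Subgroup.map_injective N.subtype_injective
    rw [h1, ← MonoidHom.range_eq_map, Subgroup.range_subtype]
  obtain ⟨Q0⟩ : Nonempty (Sylow p N) := inferInstance
  have hQ0 := h Q0
  have hA := lemA hNtop Q0 hQ0
  set Q : Subgroup G := (Q0 : Subgroup N).map N.subtype with hQ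
  have : IsMulCommutative Q := Subgroup.map_isMulCommutative _ _
  have hQN : Q ≤ N := Subgroup.map_subtype_le _
  have hcomap : Q.subgroupOf N = Q0 := Subgroup.comap_map_eq_self_of_injective N.subtype_injective _
  have hnorm : (Subgroup.normalizer (Q : Set G)).subgroupOf N
      = Subgroup.normalizer ((Q0 : Subgroup N) : Set N) := by
    rw [← hcomap]
    exact Subgroup.comap_normalizer_eq_of_le_range (by rw [Subgroup.range_subtype]; exact hQN)
  have hQH : Q ≤ Subgroup.normalizer (Q : Set G) ⊓ N := le_inf Subgroup.le_normalizer hQN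
  have hcop : Nat.Coprime (Nat.card Q) (Q.relIndex (Subgroup.normalizer (Q : Set G) ⊓ N)) := by
    have h1 : Q.relIndex (Subgroup.normalizer (Q : Set G) ⊓ N) ∣ Q.relIndex N :=
      Dvd.intro _ (Subgroup.relIndex_mul_relIndex _ _ _ hQH inf_le_right)
    have h2 : Q.relIndex N = (Q0 : Subgroup N).index := by
      rw [← hcomap]; rfl
    have h3 : Nat.card Q = Nat.card (Q0 : Subgroup N) :=
      Subgroup.card_map_of_injective N.subtype_injective
    rw [h3]
    exact Nat.Coprime.coprime_dvd_right (h2 ▸ h1) Q0.card_coprime_index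
  have hC : Q ⊓ Subgroup.centralizer ((Subgroup.normalizer (Q : Set G) ⊓ N : Subgroup G) : Set G) = ⊥ := by
    rw [eq_bot_iff]
    rintro x ⟨hxQ, hxC⟩
    obtain ⟨y, hy, rfl⟩ := hxQ
    have : y ∈ (Q0 : Subgroup N) ⊓ Subgroup.centralizer (Subgroup.normalizer ((Q0 : Subgroup N) : Set N) : Set N) := by
      refine ⟨hy, ?_⟩
      change y ∈ Subgroup.centralizer _
      rw [Subgroup.mem_centralizer_iff]
      intro n hn
      rw [SetLike.mem_coe, ← hnorm] at hn
      have h5 := (Subgroup.mem_centralizer_iff.mp hxC) (n : G) ⟨hn, n.2⟩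
      exact Subtype.ext h5
    rw [hA, Subgroup.mem_bot] at this
    rw [this]; simp
  obtain ⟨K, hKL, hsup, hinf⟩ := lemB Q (Subgroup.normalizer (Q : Set G) ⊓ N) (Subgroup.normalizer (Q : Set G)) hQH inf_le_left le_rfl
    (H1.le_normalizer_inf_normal _ N) hcop hC
  obtain ⟨X0⟩ : Nonempty (Sylow p K) := inferInstance
  refine ⟨(X0 : Subgroup K).map K.subtype, ?_⟩
  apply Subgroup.isComplement'_of_disjoint_and_mul_eq_univ
  · rw [disjoint_iff, eq_bot_iff, ← hinf]
    intro x hx
    have hxK : x ∈ K := Subgroup.map_subtype_le _ hx.1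
    refine ⟨?_, hxK⟩
    have hP : IsPGroup p (((X0 : Subgroup K).map K.subtype ⊓ N : Subgroup G).subgroupOf N) := by
      have h1 : IsPGroup p ((X0 : Subgroup K).map K.subtype) := X0.2.map _
      have h2 : IsPGroup p ((X0 : Subgroup K).map K.subtype ⊓ N : Subgroup G) := h1.to_le inf_le_left
      exact h2.comap_of_injective _ N.subtype_injective
    have h3 := hP.inf_normalizer_sylow Q0
    have h4 : (⟨x, hx.2⟩ : N) ∈ (((X0 : Subgroup K).map K.subtype ⊓ N : Subgroup G).subgroupOf N) ⊓ Subgroup.normalizer ((Q0 : Subgroup N) : Set N) := by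
      refine ⟨hx, ?_⟩
      rw [← hnorm]
      exact hKL hxK
    have h5 := h3.le h4
    exact ⟨_, h5.2, rfl⟩
  · rw [← Subgroup.mul_normal, ← Subgroup.coe_top, SetLike.coe_set_eq, eq_top_iff]
    have h1 : K ≤ (X0 : Subgroup K).map K.subtype ⊔ N := by
      have h2 := H7.sylow_sup_pResidual X0
      have h3 := congrArg (Subgroup.map K.subtype) h2
      rw [Subgroup.map_sup, ← MonoidHom.range_eq_map, Subgroup.range_subtype] at h3
      exact h3.symm.le.trans (sup_le_sup le_rfl (H1.map_pResidual_subtype_le K))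
    have h2 : Subgroup.normalizer (Q : Set G) ≤ (X0 : Subgroup K).map K.subtype ⊔ N := by
      rw [← hsup]
      exact sup_le (hQN.trans le_sup_right) h1
    rw [← Sylow.normalizer_sup_eq_top Q0]
    exact sup_le h2 le_sup_right

end Cfsg.Agent.S0092
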