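import Cfsg.Statements.S0094
import Mathlib
import Cfsg.Agent.Lib_helper1_Frattini

set_option autoImplicit false
open Cfsg

namespace Cfsg.Agent.S0094

open scoped commutatorElement


/-- In a special p-group every central element has order dividing p. -/
theorem result {P : Type*} [Group P] [Finite P] {p : ℕ} [Fact p.Prime] (h : Cfsg.IsSpecial p P) (z : P) (hz : z ∈ Subgroup.center P) : z ^ p = 1 := by
  obtain ⟨hP, hF, hC⟩ := h
  let E : Subgroup P :=
    { carrier := {w | w ∈ Subgroup.center P ∧ w ^ p = 1}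
      one_mem' := ⟨one_mem _, one_pow _⟩
      mul_mem' := by
        rintro a b ⟨ha, ha'⟩ ⟨hb, hb'⟩
        refine ⟨mul_mem ha hb, ?_⟩
        have hc : Commute a b := (Subgroup.mem_center_iff.1 ha b).symm
        rw [hc.mul_pow, ha', hb', one_mul]
      inv_mem' := by
        rintro a ⟨ha, ha'⟩
        exact ⟨inv_mem ha, by rw [inv_pow, ha', inv_one]⟩ }
  have key : commutator P ≤ E := by
    rw [commutator_eq_closure, Subgroup.closure_le]
    rintro _ ⟨x, y, rfl⟩
    have hc : ⁅x, y⁆ ∈ Subgroup.center P := by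
      rw [← hC]
      exact Subgroup.commutator_mem_commutator (Subgroup.mem_top x) (Subgroup.mem_top y)
    refine ⟨hc, ?_⟩
    have hn : ∀ n : ℕ, x ^ n * y * (x ^ n)⁻¹ * y⁻¹ = ⁅x, y⁆ ^ n := by
      intro n
      induction n with
      | zero => simp
      | succ n ih =>
        have hcn : ⁅x, y⁆ ^ n ∈ Subgroup.center P := pow_mem hc n
        calc x ^ (n + 1) * y * (x ^ (n + 1))⁻¹ * y⁻¹
            = x * (x ^ n * y * (x ^ n)⁻¹ * y⁻¹) * (y * x⁻¹ * y⁻¹) := by
              rw [pow_succ']; group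
          _ = x * ⁅x, y⁆ ^ n * (y * x⁻¹ * y⁻¹) := by rw [ih]
          _ = ⁅x, y⁆ ^ n * x * (y * x⁻¹ * y⁻¹) := by rw [Subgroup.mem_center_iff.1 hcn x]
          _ = ⁅x, y⁆ ^ n * ⁅x, y⁆ := by rw [commutatorElement_def]; group
          _ = ⁅x, y⁆ ^ (n + 1) := (pow_succ _ _).symm
    rw [← hn p]
    have hxp : x ^ p ∈ Subgroup.center P := by
      rw [← hF]
      exact (H1.pgroup_frattini p hP).2 x
    rw [← Subgroup.mem_center_iff.1 hxp y]
    group
  rw [← hC] at hz
  exact (key hz).2

end Cfsg.Agent.S0094
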