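import Cfsg.Statements.S0095
import Mathlib
import Cfsg.Agent.Lib_lead_XS2

set_option autoImplicit false
open Cfsg

namespace Cfsg.Agent.S0095

/-- The order of an extraspecial p-group is an odd power p^(2n+1) of p with n ≥ 1. -/
theorem result {P : Type*} [Group P] [Finite P] {p : ℕ} [Fact p.Prime] (h : Cfsg.IsExtraspecial p P) : ∃ n : ℕ, 1 ≤ n ∧ Nat.card P = p ^ (2 * n + 1) := by
  exact (Cfsg.Agent.LeadXS.XS.of_extraspecial h).card

end Cfsg.Agent.S0095
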