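import Mathlib
import Cfsg.Statements.S0096
import Mathlib
import Cfsg.Agent.Lib_helper1_MinAct

set_option autoImplicit false
open Cfsg

namespace Cfsg.Agent.S0096

open Cfsg.Agent.H1
open scoped commutatorElement

/-- For odd p, in a p-group of class at most two the elements of order dividing p generate a subgroup of exponent dividing p. -/
theorem result {P : Type*} [Group P] [Finite P] {p : ℕ} [Fact p.Prime] (hp : p ≠ 2) (hP : IsPGroup p P) (h2 : ⁅commutator P, (⊤ : Subgroup P)⁆ = ⊥) (g : P) (hg : g ∈ Subgroup.closure {x : P | x ^ p = 1}) : g ^ p = 1 := by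
  have hpp : p.Prime := Fact.out
  have hcen : ∀ a b z : P, Commute ⁅a, b⁆ z := by
    intro a b z
    have h1 : ⁅⁅a, b⁆, z⁆ ∈ ⁅commutator P, (⊤ : Subgroup P)⁆ :=
      Subgroup.commutator_mem_commutator
        (Subgroup.commutator_mem_commutator (Subgroup.mem_top _) (Subgroup.mem_top _))
        (Subgroup.mem_top _)
    rw [h2, Subgroup.mem_bot] at h1
    exact commutatorElement_eq_one_iff_commute.mp h1
  have hdvd : p ∣ p.choose 2 := by
    apply hpp.dvd_choose_self (by norm_num)
    exact lt_of_le_of_ne hpp.two_le (Ne.symm hp)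
  induction hg using Subgroup.closure_induction with
  | mem x hx => exact hx
  | one => exact one_pow _
  | mul a b _ _ iha ihb =>
    set c := ⁅b, a⁆ with hc
    have hba : b * a = c * (a * b) := by rw [hc, commutatorElement_def]; group
    obtain ⟨h3, h4⟩ := mul_pow_of_central_comm (hcen b a a) (hcen b a b) hba p
    rw [ihb, one_mul, mul_one] at h3
    have h5 : c ^ p = 1 := by
      have : c ^ p * a = 1 * a := by rw [← h3, one_mul]
      exact mul_right_cancel this
    obtain ⟨k, hk⟩ := hdvd
    rw [h4, iha, ihb, hk, pow_mul, h5, one_pow]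
    simp
  | inv a _ iha => rw [inv_pow, iha, inv_one]

end Cfsg.Agent.S0096
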