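import Cfsg.Statements.S0097
import Mathlib
import Cfsg.Agent.Lib_lead_XS1
import Cfsg.Agent.Lib_helper7_Omega

set_option autoImplicit false
open Cfsg

namespace Cfsg.Agent.S0097

open scoped commutatorElement


/-- For odd p and E extraspecial, the subgroup generated by the elements of order dividing p has exponent dividing p and index at most p. -/
theorem result {E : Type*} [Group E] [Finite E] {p : ℕ} [Fact p.Prime] (hp : p ≠ 2) (h : Cfsg.IsExtraspecial p E) : (Subgroup.closure {x : E | x ^ p = 1}).index ≤ p ∧ ∀ g ∈ Subgroup.closure {x : E | x ^ p = 1}, g ^ p = 1 := by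
  have hX := Cfsg.Agent.LeadXS.XS.of_extraspecial h
  have hpr : p.Prime := Fact.out
  have hZp : ∀ c ∈ Subgroup.center E, c ^ p = 1 := by
    intro c hc
    have := pow_card_eq_one' (G := Subgroup.center E) (x := ⟨c, hc⟩)
    rw [hX.card_center] at this
    exact congrArg Subtype.val this
  have hmul : ∀ x y : E, (x * y) ^ p = x ^ p * y ^ p := by
    intro x y
    have hc := hX.comm_mem y x
    have h1 : y * x = ⁅y, x⁆ * x * y := by rw [commutatorElement_def]; group
    rw [Cfsg.Agent.H7.mul_pow_class2 h1 (Subgroup.mem_center_iff.1 hc x).symm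
      (Subgroup.mem_center_iff.1 hc y).symm p]
    obtain ⟨t, ht⟩ : p ∣ p.choose 2 :=
      hpr.dvd_choose_self (by norm_num) (by have := hpr.two_le; omega)
    rw [ht, pow_mul, hZp _ hc, one_pow, mul_one]
  let f : E →* Subgroup.center E :=
    MonoidHom.mk' (fun x => ⟨x ^ p, hX.pow x⟩) (fun x y => Subtype.ext (hmul x y))
  have hker : Subgroup.closure {x : E | x ^ p = 1} = f.ker := by
    apply le_antisymm
    · rw [Subgroup.closure_le]
      intro x hx
      rw [SetLike.mem_coe, MonoidHom.mem_ker]
      exact Subtype.ext hx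
    · intro x hx
      apply Subgroup.subset_closure
      exact congrArg Subtype.val (MonoidHom.mem_ker.1 hx)
  rw [hker]
  constructor
  · rw [Subgroup.index_ker, ← hX.card_center]
    exact Subgroup.card_le_card_group _
  · intro g hg
    exact congrArg Subtype.val (MonoidHom.mem_ker.1 hg)

end Cfsg.Agent.S0097
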