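import Cfsg.Statements.S0099
import Mathlib
import Cfsg.Agent.Lib_lead_XS9

set_option autoImplicit false
open Cfsg

namespace Cfsg.Agent.S0099

/-- Among three extraspecial 2-groups of equal order, some two are isomorphic. -/
theorem result {E₁ : Type*} {E₂ : Type*} {E₃ : Type*} [Group E₁] [Group E₂] [Group E₃] [Finite E₁] [Finite E₂] [Finite E₃] (h₁ : Cfsg.IsExtraspecial 2 E₁) (h₂ : Cfsg.IsExtraspecial 2 E₂) (h₃ : Cfsg.IsExtraspecial 2 E₃) (h12 : Nat.card E₁ = Nat.card E₂) (h23 : Nat.card E₂ = Nat.card E₃) : Nonempty (E₁ ≃* E₂) ∨ Nonempty (E₂ ≃* E₃) ∨ Nonempty (E₁ ≃* E₃) := by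
  have : Fact (Nat.Prime 2) := ⟨Nat.prime_two⟩
  have hX₁ := (Cfsg.Agent.LeadXS.XS.of_extraspecial h₁)
  have hX₂ := (Cfsg.Agent.LeadXS.XS.of_extraspecial h₂)
  have hX₃ := (Cfsg.Agent.LeadXS.XS.of_extraspecial h₃)
  obtain ⟨n, -, hn⟩ := hX₁.card
  have hn₂ : Nat.card E₂ = 2 ^ (2 * n + 1) := h12 ▸ hn
  have hn₃ : Nat.card E₃ = 2 ^ (2 * n + 1) := h23 ▸ hn₂
  by_cases p1 : Cfsg.Agent.LeadXS.HP n E₁ <;> by_cases p2 : Cfsg.Agent.LeadXS.HP n E₂ <;>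
    by_cases p3 : Cfsg.Agent.LeadXS.HP n E₃
  · exact Or.inl (Cfsg.Agent.LeadXS.iso_two n E₁ E₂ hX₁.toXS0 hX₂.toXS0 hn hn₂ (iff_of_true p1 p2))
  · exact Or.inl (Cfsg.Agent.LeadXS.iso_two n E₁ E₂ hX₁.toXS0 hX₂.toXS0 hn hn₂ (iff_of_true p1 p2))
  · exact Or.inr (Or.inr
      (Cfsg.Agent.LeadXS.iso_two n E₁ E₃ hX₁.toXS0 hX₃.toXS0 hn hn₃ (iff_of_true p1 p3)))
  · exact Or.inr (Or.inl
      (Cfsg.Agent.LeadXS.iso_two n E₂ E₃ hX₂.toXS0 hX₃.toXS0 hn₂ hn₃ (iff_of_false p2 p3)))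
  · exact Or.inr (Or.inl
      (Cfsg.Agent.LeadXS.iso_two n E₂ E₃ hX₂.toXS0 hX₃.toXS0 hn₂ hn₃ (iff_of_true p2 p3)))
  · exact Or.inr (Or.inr
      (Cfsg.Agent.LeadXS.iso_two n E₁ E₃ hX₁.toXS0 hX₃.toXS0 hn hn₃ (iff_of_false p1 p3)))
  · exact Or.inl (Cfsg.Agent.LeadXS.iso_two n E₁ E₂ hX₁.toXS0 hX₂.toXS0 hn hn₂ (iff_of_false p1 p2))
  · exact Or.inl (Cfsg.Agent.LeadXS.iso_two n E₁ E₂ hX₁.toXS0 hX₂.toXS0 hn hn₂ (iff_of_false p1 p2))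

end Cfsg.Agent.S0099
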