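import Cfsg.Statements.S0130
import Cfsg.Agent.Lib_helper7_Omega
import Cfsg.Agent.Lib_lead_Thompson

set_option autoImplicit false
open Cfsg

namespace Cfsg.Agent.S0130

open Subgroup
open scoped commutatorElement

theorem mem_normalizer_of_conj_mem {G : Type*} [Group G] [Finite G] (P : Subgroup G) (n : G)
    (h : ∀ q ∈ P, n * q * n⁻¹ ∈ P) : n ∈ Subgroup.normalizer (P : Set G) := by
  have h1 : P.map (MulAut.conj n).toMonoidHom ≤ P := by
    rintro _ ⟨q, hq, rfl⟩
    simpa using h q hq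
  have h2 : Nat.card (P.map (MulAut.conj n).toMonoidHom) = Nat.card P :=
    Nat.card_congr (Subgroup.equivMapOfInjective _ _ (MulAut.conj n).injective).symm.toEquiv
  have h3 := Subgroup.eq_of_le_of_card_ge h1 h2.ge
  rw [Subgroup.mem_normalizer_iff]
  intro q
  refine ⟨h q, fun hq => ?_⟩
  rw [← h3] at hq
  obtain ⟨q', hq', hh⟩ := hq
  have e : n * q' * n⁻¹ = n * q * n⁻¹ := by simpa using hh
  have : q' = q := mul_left_cancel (mul_right_cancel e)
  exact this ▸ hq'

lemma stepX {G : Type*} [Group G] {p n : ℕ} (hp : p.Prime) (hn : p ^ n ≠ 2) (A L : Subgroup G)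
    (hLC : ∀ l ∈ L, ∀ a ∈ A, l * a = a * l)
    (hLA : ∀ l ∈ L, l ^ p ^ n = 1 → l ∈ A)
    (hAe : ∀ a ∈ A, a ^ p ^ n = 1)
    (x k : G) (hxC : ∀ a ∈ A, x * a = a * x) (hx : x ^ p ^ n = 1) (hk : k ∈ L)
    (hkx : (k * x) ^ p ^ n = 1) (hc : ⁅x, k⁆ ∈ A) : k ∈ A := by
  obtain ⟨c, hcdef⟩ : ∃ c, c = ⁅x, k⁆ := ⟨_, rfl⟩
  rw [← hcdef] at hc
  obtain ⟨q, hq⟩ : ∃ q, q = p ^ n := ⟨_, rfl⟩
  rw [← hq] at hLA hAe hx hkx hn
  have h1 : x * k = c * k * x := by rw [hcdef, commutatorElement_def]; group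
  have hck : Commute c k := (hLC k hk c hc).symm
  have hcx : Commute c x := (hxC c hc).symm
  have formula := H7.mul_pow_class2 (x := k) (y := x) (c := c) h1 hck hcx q
  rw [hkx, hx, mul_one] at formula
  apply hLA k hk
  rcases Nat.even_or_odd q with hev | hodd
  · -- p = 2, n ≥ 2
    have hn0 : n ≠ 0 := by
      rintro rfl
      simp at hq
      rw [hq] at hev
      exact absurd hev (by decide)
    have hp2 : p = 2 := by
      rw [hq] at hev
      exact (Nat.Prime.even_iff hp).1 ((Nat.even_pow.1 hev).1)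
    have hn1 : n ≠ 1 := by
      rintro rfl
      rw [hp2] at hq
      exact hn (by rw [hq]; norm_num)
    obtain ⟨r, rfl⟩ : ∃ r, n = r + 2 := ⟨n - 2, by omega⟩
    obtain ⟨h, hh⟩ : ∃ h, h = 2 * 2 ^ r := ⟨_, rfl⟩
    have hq2 : q = 2 * h := by rw [hq, hp2, hh]; ring
    have hq4 : q = 4 * 2 ^ r := by rw [hq, hp2]; ring
    have hch : q.choose 2 + h = h * q := by
      rw [Nat.choose_two_right]
      have h0 : q * (q - 1) / 2 = h * (q - 1) := by
        apply Nat.div_eq_of_eq_mul_left (by norm_num)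
        rw [hq2]; ring
      rw [h0]
      have hqpos : 1 ≤ q := by rw [hq4]; exact Nat.mul_pos (by norm_num) (pow_pos (by norm_num) _)
      obtain ⟨q', rfl⟩ : ∃ q', q = q' + 1 := ⟨q - 1, by omega⟩
      simp only [Nat.add_sub_cancel]; ring
    have hcq : c ^ (q.choose 2) * c ^ h = 1 := by
      rw [← pow_add, hch, mul_comm, pow_mul, hAe c hc, one_pow]
    -- k ^ q = c ^ h
    have hkq : k ^ q = c ^ h := by
      have h2 : k ^ q * c ^ (q.choose 2) * c ^ h = c ^ h := by rw [← formula, one_mul]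
      rw [mul_assoc, hcq, mul_one] at h2
      exact h2
    obtain ⟨m, hm⟩ : ∃ m, m = k ^ h := ⟨_, rfl⟩
    have hmm : m * m = c ^ h := by
      rw [hm, ← pow_add, ← two_mul, ← hq2, hkq]
    have hmL : m ∈ L := hm ▸ L.pow_mem hk h
    have hconj : x * m * x⁻¹ = (m * m) * m := by
      have e1 : x * k * x⁻¹ = c * k := by rw [h1]; group
      rw [hm, ← conj_pow, e1, hck.mul_pow, ← hm, hmm]
    have hmmA : m * m ∈ A := hmm ▸ A.pow_mem hc h
    have h3 : x * (m * m) * x⁻¹ = m * m := by rw [hxC _ hmmA]; group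
    have h4 : x * (m * m) * x⁻¹ = (x * m * x⁻¹) * (x * m * x⁻¹) := by group
    rw [h4, hconj] at h3
    have h5 : m ^ 4 = 1 := by
      have h6 : m ^ 4 * (m * m) = m * m := by
        calc m ^ 4 * (m * m) = m * m * m * (m * m * m) := by simp only [pow_succ, pow_zero, one_mul, mul_assoc]
          _ = m * m := h3
      exact mul_eq_right.1 h6
    have hmq : m ^ q = 1 := by rw [hq4, pow_mul, h5, one_pow]
    have hmA : m ∈ A := hLA m hmL hmq
    have h7 : x * m * x⁻¹ = m := by rw [hxC m hmA]; group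
    rw [h7] at hconj
    have h8 : m * m = 1 := (mul_eq_right.1 hconj.symm)
    rw [hkq, ← hmm, h8]
  · obtain ⟨m, hm⟩ := hodd
    have hch : q.choose 2 = q * m := by
      rw [Nat.choose_two_right]
      apply Nat.div_eq_of_eq_mul_left (by norm_num)
      have : q - 1 = 2 * m := by omega
      rw [this]; ring
    rw [hch, pow_mul, hAe c hc, one_pow, mul_one] at formula
    exact formula.symm

lemma lemX {G : Type*} [Group G] {p n : ℕ} (hp : p.Prime) (hn : p ^ n ≠ 2) (A L : Subgroup G)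
    [L.Normal]
    (hLC : ∀ l ∈ L, ∀ a ∈ A, l * a = a * l)
    (hLA : ∀ l ∈ L, l ^ p ^ n = 1 → l ∈ A)
    (hAe : ∀ a ∈ A, a ^ p ^ n = 1)
    (γ : ℕ → Subgroup G) (hγ : ∀ j, ∀ k ∈ γ j, ∀ g : G, ⁅g, k⁆ ∈ γ (j + 1)) (N : ℕ)
    (hN : ∀ j, N ≤ j → γ j = ⊥) :
    ∀ d j, N ≤ j + d → ∀ x : G, (∀ a ∈ A, x * a = a * x) → x ^ p ^ n = 1 → ∀ k ∈ L, k ∈ γ j →
      (k * x) ^ p ^ n = 1 → k ∈ A := by
  intro d
  induction d with
  | zero =>
    intro j hj x _ _ k _ hkγ _
    rw [hN j (by omega), mem_bot] at hkγ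
    rw [hkγ]; exact A.one_mem
  | succ d ih =>
    intro j hj x hxC hx k hk hkγ hkx
    apply stepX hp hn A L hLC hLA hAe x k hxC hx hk hkx
    apply ih (j + 1) (by omega) (k * x) _ hkx ⁅x, k⁆ _ (hγ j k hkγ x)
    · have e : ⁅x, k⁆ * (k * x) = x * (k * x) * x⁻¹ := by rw [commutatorElement_def]; group
      rw [e, conj_pow, hkx]; group
    · intro a ha
      rw [mul_assoc, hxC a ha, ← mul_assoc, hLC k hk a ha, mul_assoc]
    · rw [commutatorElement_def]
      exact L.mul_mem ((inferInstance : L.Normal).conj_mem k hk x) (L.inv_mem hk)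

/-- If A is maximal among the normal abelian subgroups of exponent dividing p^n of a p-group (p^n ≠ 2), then A contains every element of order dividing p^n in its centralizer. -/
theorem result {G : Type*} [Group G] [Finite G] {p : ℕ} [Fact p.Prime] (hG : IsPGroup p G) (n : ℕ) (hn : p ^ n ≠ 2) (A : Subgroup G) [A.Normal] (hA : IsMulCommutative A) (hAe : ∀ a ∈ A, a ^ p ^ n = 1) (hmax : ∀ B : Subgroup G, B.Normal → IsMulCommutative B → (∀ b ∈ B, b ^ p ^ n = 1) → A ≤ B → B = A) (x : G) (hx : x ∈ Subgroup.centralizer (A : Set G)) (hxn : x ^ p ^ n = 1) : x ∈ A := by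
  classical
  have hp : p.Prime := Fact.out
  have hnil : Group.IsNilpotent G := hG.isNilpotent
  obtain ⟨N, hN⟩ := Subgroup.nilpotent_iff_lowerCentralSeries.1 hnil
  obtain ⟨γ, hγdef⟩ : ∃ γ : ℕ → Subgroup G, γ = (⊤ : Subgroup G).lowerCentralSeries := ⟨_, rfl⟩
  have hγn : ∀ j, (γ j).Normal := fun j => by rw [hγdef]; infer_instance
  have hγ0 : γ 0 = ⊤ := by rw [hγdef]; rfl
  have hγ : ∀ j, ∀ k ∈ γ j, ∀ g : G, ⁅g, k⁆ ∈ γ (j + 1) := by
    intro j k hk g
    rw [hγdef] at hk ⊢
    rw [← commutatorElement_inv]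
    exact inv_mem (commutator_mem_commutator hk (mem_top g))
  have hN' : ∀ j, N ≤ j → γ j = ⊥ := by
    intro j hj
    rw [hγdef]
    exact le_bot_iff.1 (hN ▸ (Subgroup.lowerCentralSeries_antitone (⊤ : Subgroup G)) hj)
  have hAc : ∀ x ∈ A, ∀ y ∈ A, x * y = y * x := by
    intro x hx y hy
    have h0 := congrArg Subtype.val (hA.is_comm.comm ⟨x, hx⟩ ⟨y, hy⟩)
    exact h0
  have R : ∀ d j, N ≤ j + d → ∀ x ∈ centralizer (A : Set G), x ^ p ^ n = 1 → x ∈ γ j → x ∈ A := by
    intro d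
    induction d with
    | zero =>
      intro j hj x _ _ hxγ
      rw [hN' j (by omega), mem_bot] at hxγ
      rw [hxγ]; exact A.one_mem
    | succ d ih =>
      intro j hj x hxC hxq hxγ
      have hxC' : ∀ a ∈ A, x * a = a * x := fun a ha => (mem_centralizer_iff.1 hxC a ha).symm
      haveI := hγn (j + 1)
      set L := A ⊔ (centralizer (A : Set G) ⊓ γ (j + 1)) with hL
      haveI hLn : L.Normal := by rw [hL]; infer_instance
      have hLdec : ∀ l ∈ L, ∃ a ∈ A, ∃ c ∈ centralizer (A : Set G) ⊓ γ (j + 1), a * c = l := by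
        intro l hl
        rw [hL, mem_sup_of_normal_left] at hl
        exact hl
      have hLC : ∀ l ∈ L, ∀ a ∈ A, l * a = a * l := by
        intro l hl a ha
        obtain ⟨a', ha', c, hc, rfl⟩ := hLdec l hl
        have h1 := mem_centralizer_iff.1 hc.1 a ha
        rw [mul_assoc, ← h1, ← mul_assoc, hAc a' ha' a ha, mul_assoc]
      have hLA : ∀ l ∈ L, l ^ p ^ n = 1 → l ∈ A := by
        intro l hl hlq
        obtain ⟨a', ha', c, hc, rfl⟩ := hLdec l hl
        have h1 : Commute a' c := mem_centralizer_iff.1 hc.1 a' ha'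
        rw [h1.mul_pow, hAe a' ha', one_mul] at hlq
        exact A.mul_mem ha' (ih (j + 1) (by omega) c hc.1 hlq hc.2)
      have hkA : ∀ g : G, ⁅g, x⁆ ∈ A := by
        intro g
        apply lemX hp hn A L hLC hLA hAe γ hγ N hN' N 0 (by omega) x hxC' hxq ⁅g, x⁆ _
          (by rw [hγ0]; exact mem_top _)
        · have e : ⁅g, x⁆ * x = g * x * g⁻¹ := by rw [commutatorElement_def]; group
          rw [e, conj_pow, hxq]; group
        · refine le_sup_right (a := A) ⟨?_, hγ j x hxγ g⟩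
          rw [commutatorElement_def]
          exact (centralizer (A : Set G)).mul_mem
            ((inferInstance : (centralizer (A : Set G)).Normal).conj_mem x hxC g)
            ((centralizer (A : Set G)).inv_mem hxC)
      -- B = A ⊔ ⟨x⟩
      set Bq := A ⊔ zpowers x with hBq
      have hBdec : ∀ y ∈ Bq, ∃ a ∈ A, ∃ z : ℤ, a * x ^ z = y := by
        intro y hy
        rw [hBq, mem_sup_of_normal_left] at hy
        obtain ⟨a, ha, w, hw, rfl⟩ := hy
        obtain ⟨z, rfl⟩ := mem_zpowers_iff.1 hw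
        exact ⟨a, ha, z, rfl⟩
      have hxB : x ∈ Bq := le_sup_right (a := A) (mem_zpowers x)
      have hBn : Bq.Normal := by
        rw [← normalizer_eq_top_iff, eq_top_iff]
        intro g _
        apply mem_normalizer_of_conj_mem
        intro y hy
        obtain ⟨a, ha, z, rfl⟩ := hBdec y hy
        have e : g * (a * x ^ z) * g⁻¹ = (g * a * g⁻¹) * (⁅g, x⁆ * x) ^ z := by
          have e1 : ⁅g, x⁆ * x = g * x * g⁻¹ := by rw [commutatorElement_def]; group
          rw [e1, conj_zpow]; group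
        rw [e]
        exact Bq.mul_mem (le_sup_left (a := A) ((inferInstance : A.Normal).conj_mem a ha g))
          (Bq.zpow_mem (Bq.mul_mem (le_sup_left (a := A) (hkA g)) hxB) z)
      have hBc : IsMulCommutative Bq := by
        apply LeadJ.comm_sup hA inferInstance
        intro a ha w hw
        obtain ⟨z, rfl⟩ := mem_zpowers_iff.1 hw
        exact ((show Commute a x from (hxC' a ha).symm).zpow_right z).eq
      have hBe : ∀ y ∈ Bq, y ^ p ^ n = 1 := by
        intro y hy
        obtain ⟨a, ha, z, rfl⟩ := hBdec y hy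
        have h1 : Commute a (x ^ z) := (show Commute a x from (hxC' a ha).symm).zpow_right z
        rw [h1.mul_pow, hAe a ha, one_mul, ← zpow_natCast, ← zpow_mul, mul_comm, zpow_mul,
          zpow_natCast, hxq, one_zpow]
      have := hmax Bq hBn hBc hBe le_sup_left
      exact this ▸ hxB
  exact R N 0 (by omega) x hx hxn (by rw [hγ0]; exact mem_top _)

end Cfsg.Agent.S0130
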