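import Cfsg.Statements.S0100
import Cfsg.Agent.S0130
import Cfsg.Agent.Lib_helper7_CycIdx2

set_option autoImplicit false
open Cfsg

namespace Cfsg.Agent.S0100

open Subgroup
open scoped commutatorElement

lemma comm_lt {G : Type*} [Group G] [Group.IsNilpotent G] (N : Subgroup G) [N.Normal] (hN : N ≠ ⊥) :
    ⁅N, (⊤ : Subgroup G)⁆ < N := by
  refine lt_of_le_of_ne (commutator_le_left N ⊤) ?_
  intro heq
  obtain ⟨n, hn⟩ := Subgroup.nilpotent_iff_lowerCentralSeries.1 (inferInstance : Group.IsNilpotent G)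
  have key : ∀ j, N ≤ (⊤ : Subgroup G).lowerCentralSeries j := by
    intro j
    induction j with
    | zero => exact le_top
    | succ j ih =>
      rw [Subgroup.lowerCentralSeries_succ]
      calc N = ⁅N, (⊤ : Subgroup G)⁆ := heq.symm
        _ ≤ _ := commutator_mono ih le_rfl
  exact hN (le_bot_iff.1 (hn ▸ key n))

lemma card_lt_pow {G : Type*} [Group G] [Finite G] {p : ℕ} [Fact p.Prime] (hG : IsPGroup p G)
    {D A : Subgroup G} (hlt : D < A) {k : ℕ} (hA : Nat.card A = p ^ k) :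
    ∃ i, i < k ∧ Nat.card D = p ^ i := by
  have hp : p.Prime := Fact.out
  obtain ⟨i, hi⟩ := (hG.to_subgroup D).exists_card_eq
  refine ⟨i, ?_, hi⟩
  have h1 : Nat.card D < Nat.card A := by
    by_contra hcon
    push Not at hcon
    exact hlt.ne (eq_of_le_of_card_ge hlt.le hcon)
  rw [hi, hA] at h1
  exact (Nat.pow_lt_pow_iff_right hp.one_lt).1 h1

/-- For odd p, a p-group without normal elementary abelian subgroups of order p^3 has p-rank at most 2. -/
theorem result {P : Type*} [Group P] [Finite P] {p : ℕ} [Fact p.Prime] (hp : p ≠ 2) (hP : IsPGroup p P) (h : ∀ A : Subgroup P, A.Normal → IsMulCommutative A → (∀ a ∈ A, a ^ p = 1) → Nat.card A ≠ p ^ 3) (E : Subgroup P) (hE : IsMulCommutative E) (hEe : ∀ e ∈ E, e ^ p = 1) : Nat.card E ≤ p ^ 2 := by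
  classical
  have hpp : p.Prime := Fact.out
  haveI hnil : Group.IsNilpotent P := hP.isNilpotent
  -- a maximal normal elementary abelian subgroup
  let 𝒮 : Set (Subgroup P) := {A | A.Normal ∧ IsMulCommutative A ∧ ∀ a ∈ A, a ^ p = 1}
  have hbot : (⊥ : Subgroup P) ∈ 𝒮 := ⟨inferInstance, inferInstance, fun a ha => by
    rw [mem_bot] at ha; rw [ha, one_pow]⟩
  obtain ⟨A, -, hAmax⟩ := (Set.toFinite 𝒮).exists_le_maximal hbot
  obtain ⟨hAn, hAc, hAe⟩ := hAmax.prop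
  haveI := hAn
  have hsub : ∀ D : Subgroup P, D ≤ A → IsMulCommutative D ∧ ∀ a ∈ D, a ^ p = 1 := by
    intro D hD
    refine ⟨⟨⟨fun a b => Subtype.ext ?_⟩⟩, fun a ha => hAe a (hD ha)⟩
    have h0 := congrArg Subtype.val (hAc.is_comm.comm ⟨a.1, hD a.2⟩ ⟨b.1, hD b.2⟩)
    exact h0
  obtain ⟨k, hk⟩ := (hP.to_subgroup A).exists_card_eq
  have hk2 : k ≤ 2 := by
    by_contra hcon
    push Not at hcon
    have hlt : ∀ D : Subgroup P, D ≤ A → ∀ i, i < 3 → Nat.card D = p ^ i → D < A := by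
      intro D hD i hi hDi
      refine lt_of_le_of_ne hD ?_
      rintro rfl
      rw [hk] at hDi
      have := Nat.pow_right_injective hpp.two_le hDi
      omega
    obtain ⟨D₁, hD₁n, -, hD₁A, hD₁c⟩ := H7.exists_normal_cover hP (inferInstance : (⊥ : Subgroup P).Normal) hAn
      (hlt ⊥ bot_le 0 (by norm_num) (by simp))
    rw [card_bot, one_mul] at hD₁c
    obtain ⟨D₂, hD₂n, -, hD₂A, hD₂c⟩ := H7.exists_normal_cover hP hD₁n hAn
      (hlt D₁ hD₁A 1 (by norm_num) (by rw [hD₁c, pow_one]))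
    rw [hD₁c] at hD₂c
    obtain ⟨D₃, hD₃n, -, hD₃A, hD₃c⟩ := H7.exists_normal_cover hP hD₂n hAn
      (hlt D₂ hD₂A 2 (by norm_num) (by rw [hD₂c]; ring))
    rw [hD₂c] at hD₃c
    exact h D₃ hD₃n (hsub D₃ hD₃A).1 (hsub D₃ hD₃A).2 (by rw [hD₃c]; ring)
  have hAlp : ∀ x ∈ centralizer (A : Set P), x ^ p = 1 → x ∈ A := by
    intro x hx hxp
    refine S0130.result hP 1 (by rw [pow_one]; exact hp) A hAc (fun a ha => by rw [pow_one]; exact hAe a ha)
      ?_ x hx (by rw [pow_one]; exact hxp)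
    intro B hBn hBc hBe hAB
    exact hAmax.eq_of_ge ⟨hBn, hBc, fun b hb => by simpa using hBe b hb⟩ hAB
  have hEc : ∀ x ∈ E, ∀ y ∈ E, x * y = y * x := by
    intro x hx y hy
    have h0 := congrArg Subtype.val (hE.is_comm.comm ⟨x, hx⟩ ⟨y, hy⟩)
    exact h0
  have hpk : p ^ k ≤ p ^ 2 := Nat.pow_le_pow_right hpp.pos hk2
  by_cases hEC : E ≤ centralizer (A : Set P)
  · have hEA : E ≤ A := fun x hx => hAlp x (hEC hx) (hEe x hx)
    exact (card_le_of_le hEA).trans (hk ▸ hpk)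
  obtain ⟨e₀, he₀, hne₀⟩ := SetLike.not_le_iff_exists.1 hEC
  rw [mem_centralizer_iff] at hne₀
  push Not at hne₀
  obtain ⟨a₀, ha₀, hne⟩ := hne₀
  set D := ⁅A, (⊤ : Subgroup P)⁆ with hD
  haveI hDn : D.Normal := by rw [hD]; infer_instance
  have hAne : A ≠ ⊥ := by
    intro hb
    rw [hb] at ha₀
    have : a₀ = 1 := ha₀
    rw [this] at hne
    simp at hne
  have hDA : D < A := comm_lt A hAne
  obtain ⟨i, hik, hDi⟩ := card_lt_pow hP hDA hk
  have hDne : D ≠ ⊥ := by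
    intro hb
    have h1 : ⁅a₀, e₀⁆ ∈ D := commutator_mem_commutator ha₀ (mem_top _)
    rw [hb, mem_bot, commutatorElement_eq_one_iff_mul_comm] at h1
    exact hne h1
  have hDD : ⁅D, (⊤ : Subgroup P)⁆ < D := comm_lt D hDne
  obtain ⟨i', hi'i, hDDi⟩ := card_lt_pow hP hDD hDi
  obtain ⟨rfl, rfl, rfl⟩ : i' = 0 ∧ i = 1 ∧ k = 2 := by omega
  have hDDb : ⁅D, (⊤ : Subgroup P)⁆ = ⊥ := by
    rw [pow_zero] at hDDi
    exact eq_bot_of_card_eq _ hDDi
  have hDcent : ∀ d ∈ D, ∀ g : P, d * g = g * d := by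
    intro d hd g
    have h1 : ⁅d, g⁆ ∈ ⁅D, (⊤ : Subgroup P)⁆ := commutator_mem_commutator hd (mem_top _)
    rwa [hDDb, mem_bot, commutatorElement_eq_one_iff_mul_comm] at h1
  have ha₀D : a₀ ∉ D := fun hmem => hne (hDcent a₀ hmem e₀)
  have hAeq : D ⊔ zpowers a₀ = A := by
    have hle : D ⊔ zpowers a₀ ≤ A := sup_le hDA.le (by rw [zpowers_le]; exact ha₀)
    by_contra hcon
    obtain ⟨j, hj2, hj⟩ := card_lt_pow hP (lt_of_le_of_ne hle hcon) hk
    have hlt : D < D ⊔ zpowers a₀ := lt_of_le_of_ne le_sup_left (fun heq =>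
      ha₀D (heq ▸ (le_sup_right (a := D) (mem_zpowers a₀))))
    obtain ⟨j', hj'j, hj'⟩ := card_lt_pow hP hlt hj
    rw [hDi] at hj'
    have := Nat.pow_right_injective hpp.two_le hj'
    omega
  have hcent : ∀ e : P, e * a₀ = a₀ * e → e ∈ centralizer (A : Set P) := by
    intro e he
    rw [mem_centralizer_iff]
    intro x hx
    rw [← hAeq] at hx
    have hx' : x ∈ D ⊔ zpowers a₀ := hx
    rw [mem_sup_of_normal_left] at hx'
    obtain ⟨d, hd, w, hw, rfl⟩ := hx'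
    obtain ⟨z, rfl⟩ := mem_zpowers_iff.1 hw
    have h1 : Commute e (a₀ ^ z) := (show Commute e a₀ from he).zpow_right z
    rw [mul_assoc, ← h1.eq, ← mul_assoc, hDcent d hd e, mul_assoc]
  have hmemD : ∀ e : P, ⁅e, a₀⁆ ∈ D := by
    intro e
    rw [← commutatorElement_inv]
    exact D.inv_mem (commutator_mem_commutator ha₀ (mem_top _))
  let φ : ↥E →* ↥D := MonoidHom.mk' (fun e => ⟨⁅(e : P), a₀⁆, hmemD e⟩) (by
    intro e e'
    apply Subtype.ext
    show ⁅(e : P) * e', a₀⁆ = ⁅(e : P), a₀⁆ * ⁅(e' : P), a₀⁆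
    have e1 : ⁅(e : P) * e', a₀⁆ = (e : P) * ⁅(e' : P), a₀⁆ * (e : P)⁻¹ * ⁅(e : P), a₀⁆ := by
      simp only [commutatorElement_def]; group
    rw [e1, ← hDcent _ (hmemD e') (e : P), mul_assoc, mul_assoc, ← mul_assoc (e : P), mul_inv_cancel,
      one_mul, hDcent _ (hmemD e')])
  set E₀ := E ⊓ centralizer (A : Set P) with hE₀
  have hE₀A : E₀ < A := by
    refine lt_of_le_of_ne (fun x hx => hAlp x hx.2 (hEe x hx.1)) ?_
    intro heq
    have : a₀ ∈ E₀ := heq ▸ ha₀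
    exact hne (hEc a₀ this.1 e₀ he₀)
  obtain ⟨j, hj2, hj⟩ := card_lt_pow hP hE₀A hk
  have hE₀p : Nat.card E₀ ≤ p := by
    rw [hj]
    calc p ^ j ≤ p ^ 1 := Nat.pow_le_pow_right hpp.pos (by omega)
      _ = p := pow_one p
  have hker : Nat.card φ.ker ≤ Nat.card E₀ := by
    refine Nat.card_le_card_of_injective (fun x : φ.ker => (⟨x.1.1, ⟨x.1.2, hcent _ ?_⟩⟩ : E₀)) ?_
    · have h1 : φ x.1 = 1 := x.2
      have h2 : ⁅(x.1 : P), a₀⁆ = 1 := congrArg Subtype.val h1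
      exact commutatorElement_eq_one_iff_mul_comm.1 h2
    · intro x y hxy
      apply Subtype.ext
      apply Subtype.ext
      have h0 := congrArg (fun z : E₀ => (z : P)) hxy
      exact h0
  have hrange : Nat.card φ.range ≤ p := by
    have h1 : Nat.card φ.range ≤ Nat.card D := card_le_card_group _
    rwa [hDi, pow_one] at h1
  have hcardE : Nat.card φ.ker * Nat.card φ.range = Nat.card E := by
    rw [← index_ker]; exact card_mul_index _
  rw [← hcardE, pow_two]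
  exact Nat.mul_le_mul (hker.trans hE₀p) hrange

end Cfsg.Agent.S0100
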