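import Mathlib
import Cfsg.Statements.S0101
import Cfsg.Agent.Lib_helper1_Transfer

set_option autoImplicit false
open Cfsg

namespace Cfsg.Agent.S0101


/-- In a perfect central extension, the kernel meets each Sylow p-subgroup P inside the Frattini subgroup of P. -/
theorem result {H : Type*} {G : Type*} [Group H] [Group G] [Finite H] (σ : H →* G) (hσ : Function.Surjective σ) (hc : σ.ker ≤ Subgroup.center H) (hH : commutator H = ⊤) {p : ℕ} [Fact p.Prime] (P : Sylow p H) : σ.ker ⊓ (P : Subgroup H) ≤ (frattini P).map (P : Subgroup H).subtype := by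
  intro z hz
  obtain ⟨hz1, hzP⟩ := hz
  have hzZ : z ∈ Subgroup.center H := hc hz1
  have key : ∀ (k : ℕ) (g₀ : H), g₀⁻¹ * z ^ k * g₀ ∈ (P : Subgroup H) →
      g₀⁻¹ * z ^ k * g₀ = z ^ k := by
    intro k g₀ _
    have := (Subgroup.mem_center_iff.mp (pow_mem hzZ k)) g₀
    rw [mul_assoc, ← this, inv_mul_cancel_left]
  have h1 := MonoidHom.transfer_eq_pow (Abelianization.of (G := (P : Subgroup H))) z key
  have h2 : MonoidHom.transfer (Abelianization.of (G := (P : Subgroup H))) z = 1 :=
    Abelianization.commutator_subset_ker _ (by rw [hH]; trivial)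
  rw [h2] at h1
  have h3 : (Abelianization.of (⟨z, hzP⟩ : (P : Subgroup H))) ^ (P : Subgroup H).index = 1 := by
    rw [← map_pow]
    exact h1.symm
  have hpg : IsPGroup p (Abelianization (P : Subgroup H)) := P.2.to_quotient _
  obtain ⟨k, hk⟩ := IsPGroup.iff_card.mp hpg
  have h4 : Abelianization.of (⟨z, hzP⟩ : (P : Subgroup H)) = 1 := by
    apply Cfsg.Agent.H1.eq_one_of_pow_eq_one_of_coprime h3
    rw [hk]
    exact Nat.Coprime.pow_right k ((Nat.Prime.coprime_iff_not_dvd Fact.out).mpr P.not_dvd_index).symm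
  have h5 : (⟨z, hzP⟩ : (P : Subgroup H)) ∈ commutator (P : Subgroup H) :=
    (QuotientGroup.eq_one_iff _).mp h4
  exact ⟨⟨z, hzP⟩, (Cfsg.Agent.H1.pgroup_frattini p P.2).1 h5, rfl⟩

end Cfsg.Agent.S0101
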