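import Mathlib
import Cfsg.Statements.S0102
import Cfsg.Agent.S0088

set_option autoImplicit false
open Cfsg

namespace Cfsg.Agent.S0102

open Cfsg.Agent.H1 Subgroup

/-- A finite perfect group with cyclic Sylow p-subgroups has no perfect central extension whose kernel has order divisible by p. -/
theorem result {G : Type*} {H : Type*} [Group G] [Group H] [Finite G] [Finite H] (hG : commutator G = ⊤) {p : ℕ} [Fact p.Prime] (hcyc : ∀ P : Sylow p G, IsCyclic P) (σ : H →* G) (hσ : Function.Surjective σ) (hz : σ.ker ≤ Subgroup.center H) (hH : commutator H = ⊤) : ¬ p ∣ Nat.card σ.ker := by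
  intro hpd
  obtain ⟨z, hzord⟩ := exists_prime_orderOf_dvd_card' p hpd
  have hzo : orderOf (z : H) = p := by rw [Subgroup.orderOf_coe]; exact hzord
  have hpg : IsPGroup p (zpowers (z : H)) := by
    apply IsPGroup.of_card (n := 1)
    rw [Nat.card_zpowers, hzo, pow_one]
  obtain ⟨P, hP⟩ := hpg.exists_le_sylow
  have hzP : (z : H) ∈ (P : Subgroup H) := hP (mem_zpowers _)
  -- P is abelian
  have hcycP : IsCyclic ((P.mapSurjective hσ : Sylow p G) : Subgroup G) := hcyc _
  rw [Sylow.coe_mapSurjective] at hcycP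
  let f : (P : Subgroup H) →* ((P : Subgroup H).map σ) := σ.subgroupMap (P : Subgroup H)
  have hfker : f.ker ≤ center (P : Subgroup H) := by
    intro x hx
    rw [MonoidHom.mem_ker] at hx
    have h1 : σ (x : H) = 1 := congrArg Subtype.val hx
    have h2 : (x : H) ∈ center H := hz (MonoidHom.mem_ker.mpr h1)
    rw [mem_center_iff] at h2 ⊢
    intro g
    exact Subtype.ext (h2 g)
  have hab : IsMulCommutative (P : Subgroup H) :=
    MonoidHom.isMulCommutative_of_isCyclic_of_ker_le_center f hfker
  have h88 := Cfsg.Agent.S0088.result (P : Subgroup H) hab P.card_coprime_index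
  have hmem : (z : H) ∈ (P : Subgroup H) ⊓ commutator H ⊓ center H :=
    mem_inf.mpr ⟨mem_inf.mpr ⟨hzP, by rw [hH]; trivial⟩, hz z.2⟩
  rw [h88, mem_bot] at hmem
  rw [hmem, orderOf_one] at hzo
  exact (Fact.out : p.Prime).one_lt.ne hzo

end Cfsg.Agent.S0102
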