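import Mathlib
import Cfsg.Statements.S0104
import Cfsg.Agent.Lib_helper1_Transfer

set_option autoImplicit false
open Cfsg

namespace Cfsg.Agent.S0104

open Pointwise
open Cfsg.Agent.H1

/-- A subgroup Z of a Sylow p-subgroup P that is normalized by N_G(P) is weakly closed in P exactly when it is normal in every Sylow p-subgroup containing it. -/
theorem result {G : Type*} [Group G] [Finite G] {p : ℕ} [Fact p.Prime] (P : Sylow p G) (Z : Subgroup G) (hZP : Z ≤ (P : Subgroup G)) (hZN : Subgroup.normalizer (P : Set G) ≤ Subgroup.normalizer (Z : Set G)) : Cfsg.IsWeaklyClosed Z P ↔ ∀ R : Sylow p G, Z ≤ (R : Subgroup G) → (R : Subgroup G) ≤ Subgroup.normalizer (Z : Set G) := by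
  have hPN : (P : Subgroup G) ≤ Subgroup.normalizer (Z : Set G) :=
    Subgroup.le_normalizer.trans hZN
  constructor
  · rintro ⟨-, hW⟩ R hZR
    obtain ⟨g, rfl⟩ := MulAction.exists_smul_eq G P R
    have h1 : Z.map (MulAut.conj g⁻¹).toMonoidHom ≤ (P : Subgroup G) := by
      rintro _ ⟨z, hz, rfl⟩
      have := hZR hz
      rw [Sylow.coe_subgroup_smul] at this
      have h2 := (mem_conj_smul (g := g) (H := (P : Subgroup G))).mp this
      simpa using h2
    have h2 : MulAut.conj g⁻¹ • Z = Z := hW g⁻¹ h1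
    have h3 : g⁻¹ ∈ Subgroup.normalizer (Z : Set G) := conj_smul_eq_iff_mem_normalizer.mp h2
    have h4 : g ∈ Subgroup.normalizer (Z : Set G) := by simpa using inv_mem h3
    intro x hx
    rw [Sylow.coe_subgroup_smul] at hx
    have h5 := (mem_conj_smul (g := g) (H := (P : Subgroup G))).mp hx
    have : x = g * (g⁻¹ * x * g) * g⁻¹ := by group
    rw [this]
    exact mul_mem (mul_mem h4 (hPN h5)) h3
  · intro hR
    refine ⟨hZP, fun g hg => ?_⟩
    have h1 : Z ≤ ((g⁻¹ • P : Sylow p G) : Subgroup G) := by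
      intro z hz
      rw [Sylow.coe_subgroup_smul]
      apply (mem_conj_smul (g := g⁻¹) (H := (P : Subgroup G))).mpr
      rw [inv_inv]
      exact hg ⟨z, hz, by simp⟩
    obtain ⟨c, hc, hcP⟩ := sylow_conj_of_le (g⁻¹ • P) P _ (hR _ h1) hPN
    rw [Sylow.coe_subgroup_smul, smul_smul, ← map_mul] at hcP
    have h2 : c * g⁻¹ ∈ Subgroup.normalizer (Z : Set G) :=
      hZN (conj_smul_eq_iff_mem_normalizer.mp hcP)
    have h3 : g ∈ Subgroup.normalizer (Z : Set G) := by
      have : g = (c * g⁻¹)⁻¹ * c := by group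
      rw [this]
      exact mul_mem (inv_mem h2) hc
    exact conj_smul_eq_iff_mem_normalizer.mpr h3

end Cfsg.Agent.S0104
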