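import Mathlib
import Cfsg.Statements.S0105
import Cfsg.Agent.Lib_helper1_AbSylow

set_option autoImplicit false
open Cfsg

namespace Cfsg.Agent.S0105

open Cfsg.Agent.H1 Subgroup

/-- With an abelian Sylow p-subgroup P, some quotient of G is isomorphic to the part of P central in N_G(P). -/
theorem result {G : Type*} [Group G] [Finite G] {p : ℕ} [Fact p.Prime] (P : Sylow p G) (hP : IsMulCommutative P) : ∃ (N : Subgroup G) (hN : N.Normal), Nonempty (G ⧸ N ≃* ((P : Subgroup G) ⊓ Subgroup.centralizer (Subgroup.normalizer (P : Set G) : Set G) : Subgroup G)) := by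
  refine ⟨(P : Subgroup G).transferFocal.ker, inferInstance, ⟨?_⟩⟩
  have e1 := Subgroup.transferFocal.quotientKerMulEquivQuotientFocalSubroupOf P
  set Z₀ : Subgroup G :=
    (P : Subgroup G) ⊓ centralizer (normalizer ((P : Subgroup G) : Set G) : Set G) with hZ₀
  let f : Z₀ →* (P : Subgroup G) ⧸ (P : Subgroup G).focalSubgroupOf :=
    (QuotientGroup.mk' _).comp (Subgroup.inclusion (inf_le_left : Z₀ ≤ (P : Subgroup G)))
  have hf : Function.Bijective f := by
    constructor
    · rw [injective_iff_map_eq_one]
      intro z hz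
      have h1 : (Subgroup.inclusion (inf_le_left : Z₀ ≤ (P : Subgroup G)) z) ∈
          (P : Subgroup G).focalSubgroupOf := (QuotientGroup.eq_one_iff _).mp hz
      have h2 : (z : G) ∈ (P : Subgroup G).focalSubgroup := h1
      rw [focal_eq_commutator_normalizer P hP] at h2
      have h3 : (z : G) ∈ Z₀ ⊓ ⁅(P : Subgroup G), normalizer ((P : Subgroup G) : Set G)⁆ :=
        mem_inf.mpr ⟨z.2, h2⟩
      have h4 : Z₀ ⊓ ⁅(P : Subgroup G), normalizer ((P : Subgroup G) : Set G)⁆ = ⊥ :=
        abelian_sylow_decomp_inf P hP
      rw [h4, mem_bot] at h3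
      exact Subtype.ext h3
    · have htop : (f.range).comap (QuotientGroup.mk' (P : Subgroup G).focalSubgroupOf) = ⊤ := by
        rw [eq_top_iff]
        have h1 : (⊤ : Subgroup (P : Subgroup G)) =
            Z₀.subgroupOf (P : Subgroup G) ⊔ (P : Subgroup G).focalSubgroupOf := by
          rw [focalSubgroupOf_def, ← subgroupOf_sup inf_le_left (focalSubgroup_le _),
            focal_eq_commutator_normalizer P hP, abelian_sylow_decomp_sup P hP, subgroupOf_self]
        rw [h1]
        refine sup_le ?_ ?_
        · intro x hx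
          exact ⟨⟨x, hx⟩, rfl⟩
        · intro x hx
          rw [mem_comap]
          have : QuotientGroup.mk' (P : Subgroup G).focalSubgroupOf x = 1 :=
            (QuotientGroup.eq_one_iff x).mpr hx
          rw [this]
          exact one_mem _
      intro y
      obtain ⟨x, rfl⟩ := QuotientGroup.mk_surjective y
      have hx : x ∈ (f.range).comap (QuotientGroup.mk' (P : Subgroup G).focalSubgroupOf) := by
        rw [htop]; trivial
      exact hx
  exact e1.trans (MulEquiv.ofBijective f hf).symm

end Cfsg.Agent.S0105
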