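import Mathlib
import Cfsg.Statements.S0111
import Cfsg.Agent.Lib_helper1_Transfer2

set_option autoImplicit false
open Cfsg

namespace Cfsg.Agent.S0111

open scoped IsMulCommutative
open Cfsg.Agent.H1

/-- The Thompson transfer lemma states that an involution of a Sylow 2-subgroup P lying outside a subgroup Q of index 2 in P either lies outside some normal subgroup of index 2 in G or is conjugate to an element of Q. -/
theorem result {G : Type*} [Group G] [Finite G] (P : Sylow 2 G) (Q : Subgroup G) (hQP : Q ≤ (P : Subgroup G)) (hQi : Q.relIndex (P : Subgroup G) = 2) (u : G) (hu : orderOf u = 2) (huP : u ∈ (P : Subgroup G)) (huQ : u ∉ Q) : (∃ M : Subgroup G, M.Normal ∧ M.index = 2 ∧ u ∉ M) ∨ ∃ g : G, g * u * g⁻¹ ∈ Q := by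
  by_cases hconj : ∃ g : G, g * u * g⁻¹ ∈ Q
  · exact Or.inr hconj
  left
  have hi2 : (Q.subgroupOf (P : Subgroup G)).index = 2 := hQi
  haveI hn : (Q.subgroupOf (P : Subgroup G)).Normal := Subgroup.normal_of_index_eq_two hi2
  have hcard : Nat.card ((P : Subgroup G) ⧸ Q.subgroupOf (P : Subgroup G)) = 2 := by
    rw [← Subgroup.index_eq_card]; exact hi2
  haveI : Fact (Nat.Prime 2) := ⟨Nat.prime_two⟩
  haveI hcyc : IsCyclic ((P : Subgroup G) ⧸ Q.subgroupOf (P : Subgroup G)) :=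
    isCyclic_of_prime_card hcard
  haveI hcomm : IsMulCommutative ((P : Subgroup G) ⧸ Q.subgroupOf (P : Subgroup G)) :=
    ⟨⟨fun a b => IsCyclic.commGroup.mul_comm a b⟩⟩
  set ϕ := QuotientGroup.mk' (Q.subgroupOf (P : Subgroup G)) with hϕ
  have hu2 : u ^ 2 = 1 := by rw [← hu]; exact pow_orderOf_eq_one u
  have ht : ϕ ⟨u, huP⟩ ≠ 1 := by
    intro h
    rw [hϕ, QuotientGroup.mk'_apply, QuotientGroup.eq_one_iff] at h
    exact huQ h
  have ht2 : ϕ ⟨u, huP⟩ ^ 2 = 1 := by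
    rw [← map_pow]
    have : (⟨u, huP⟩ : (P : Subgroup G)) ^ 2 = 1 := Subtype.ext hu2
    rw [this, map_one]
  have hE : ∀ j : ℕ, ϕ ⟨u, huP⟩ ^ (2 * j) = 1 := fun j => by rw [pow_mul, ht2, one_pow]
  have hO : ∀ j : ℕ, ϕ ⟨u, huP⟩ ^ (2 * j + 1) = ϕ ⟨u, huP⟩ := fun j => by
    rw [pow_succ, hE, one_mul]
  have key : ∀ (k : ℕ) (x : G) (hx : x⁻¹ * ((⟨u, huP⟩ : (P : Subgroup G)) : G) ^ k * x ∈ (P : Subgroup G)),
      ϕ ⟨x⁻¹ * ((⟨u, huP⟩ : (P : Subgroup G)) : G) ^ k * x, hx⟩ = ϕ ⟨u, huP⟩ ^ k := by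
    intro k x hx
    rcases Nat.even_or_odd' k with ⟨j, rfl | rfl⟩
    · rw [hE j]
      have : (⟨x⁻¹ * ((⟨u, huP⟩ : (P : Subgroup G)) : G) ^ (2 * j) * x, hx⟩ : (P : Subgroup G)) = 1 := by
        apply Subtype.ext
        simp [pow_mul, hu2]
      rw [this, map_one]
    · rw [hO j]
      have h1 : x⁻¹ * ((⟨u, huP⟩ : (P : Subgroup G)) : G) ^ (2 * j + 1) * x = x⁻¹ * u * x := by
        simp [pow_succ, pow_mul, hu2]
      rw [hϕ, QuotientGroup.mk'_apply, QuotientGroup.mk'_apply, QuotientGroup.eq,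
        Subgroup.mul_mem_iff_of_index_two hi2, inv_mem_iff]
      constructor
      · intro h
        exfalso
        apply hconj
        refine ⟨x⁻¹, ?_⟩
        rw [inv_inv, ← h1]
        exact h
      · intro h
        exact absurd h huQ
  have hV := transfer_eq_pow_of_conj ϕ ⟨u, huP⟩ key
  have hodd : Odd (P : Subgroup G).index := by
    rw [← Nat.not_even_iff_odd, even_iff_two_dvd]
    exact P.not_dvd_index
  obtain ⟨j, hj⟩ := hodd
  rw [hj, hO j] at hV
  refine ⟨(MonoidHom.transfer ϕ).ker, inferInstance, ?_, ?_⟩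
  · rw [Subgroup.index_ker]
    have h1 : Nat.card (MonoidHom.transfer ϕ).range ∣ 2 := by
      have := Subgroup.card_subgroup_dvd_card (MonoidHom.transfer ϕ).range
      rwa [hcard] at this
    rcases (Nat.dvd_prime Nat.prime_two).mp h1 with h | h
    · exfalso
      rw [Subgroup.card_eq_one] at h
      have : MonoidHom.transfer ϕ u ∈ (MonoidHom.transfer ϕ).range := ⟨u, rfl⟩
      rw [h, Subgroup.mem_bot] at this
      exact ht (hV ▸ this)
    · exact h
  · intro h
    rw [MonoidHom.mem_ker] at h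
    exact ht (hV ▸ h)

end Cfsg.Agent.S0111
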