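import Cfsg.Statements.S0107
import Cfsg.Agent.S0111
import Cfsg.Agent.Lib_helper7_TT

set_option autoImplicit false
open Cfsg

namespace Cfsg.Agent.S0107

open Subgroup
open scoped commutatorElement

/-- A finite group with no nontrivial 2-group quotient and dihedral Sylow 2-subgroups of order at least 8 has a single class of involutions. -/
theorem result {G : Type*} [Group G] [Finite G] (T : Sylow 2 G) (n : ℕ) (hn : 2 ≤ n) (hT : Nonempty ((T : Subgroup G) ≃* DihedralGroup (2 ^ n))) (hO : Cfsg.pResidual 2 G = ⊤) (x y : G) (hx : orderOf x = 2) (hy : orderOf y = 2) : ∃ g : G, g * x * g⁻¹ = y := by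
  obtain ⟨e⟩ := hT
  set C₀ : Subgroup (DihedralGroup (2 ^ n)) := zpowers (DihedralGroup.r 1) with hC₀
  set T₀' : Subgroup ↥(T : Subgroup G) := C₀.comap e.toMonoidHom with hT₀'
  set T₀ : Subgroup G := T₀'.map (T : Subgroup G).subtype with hT₀
  have hT₀T : T₀ ≤ (T : Subgroup G) := map_subtype_le _
  have hidxC : C₀.index = 2 := by
    have h1 := C₀.card_mul_index
    rw [hC₀, Nat.card_zpowers, DihedralGroup.orderOf_r_one, DihedralGroup.nat_card, mul_comm 2] at h1
    exact Nat.eq_of_mul_eq_mul_left (pow_pos (by norm_num) n) h1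
  have hrel : T₀.relIndex (T : Subgroup G) = 2 := by
    rw [relIndex, hT₀, subgroupOf, comap_map_eq_self_of_injective (T : Subgroup G).subtype_injective, hT₀',
      index_comap_of_surjective _ e.surjective, hidxC]
  -- no normal subgroup of index 2
  have hno : ∀ M : Subgroup G, M.Normal → M.index ≠ 2 := by
    intro M hMn hM
    have hle : Cfsg.pResidual 2 G ≤ M := by
      rw [Cfsg.pResidual, closure_le]
      intro w hw
      have hw : Nat.Coprime (orderOf w) 2 := hw
      change w ∈ M
      rw [← QuotientGroup.eq_one_iff, ← orderOf_eq_one_iff]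
      have e1 : orderOf (QuotientGroup.mk w : G ⧸ M) ∣ orderOf w := orderOf_map_dvd (QuotientGroup.mk' M) w
      have e2 : orderOf (QuotientGroup.mk w : G ⧸ M) ∣ 2 := by
        rw [← hM, index_eq_card]
        exact _root_.orderOf_dvd_natCard _
      exact Nat.eq_one_of_dvd_coprimes hw e1 e2
    rw [hO, top_le_iff] at hle
    rw [hle, index_top] at hM
    norm_num at hM
  -- every involution is conjugate into T₀
  have hinto : ∀ u : G, orderOf u = 2 → ∃ g : G, g * u * g⁻¹ ∈ T₀ := by
    intro u hu
    have hzp : IsPGroup 2 (zpowers u) := by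
      apply IsPGroup.of_card (n := 1)
      rw [Nat.card_zpowers, hu, pow_one]
    obtain ⟨g, -, hg⟩ := (Cfsg.Agent.H7.Sylow_isSylowIn_top T).exists_conj_le hzp le_top
    have hgu : g * u * g⁻¹ ∈ (T : Subgroup G) := Cfsg.Agent.H7.map_conj_le_iff.mp hg u (mem_zpowers u)
    have hguo : orderOf (g * u * g⁻¹) = 2 := by
      have h1 : g * u * g⁻¹ = MulAut.conj g u := by simp
      rw [h1, MulEquiv.orderOf_eq, hu]
    by_cases hmem : g * u * g⁻¹ ∈ T₀
    · exact ⟨g, hmem⟩
    · rcases Cfsg.Agent.S0111.result T T₀ hT₀T hrel _ hguo hgu hmem with ⟨M, hMn, hMi, -⟩ | ⟨k, hk⟩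
      · exact absurd hMi (hno M hMn)
      · exact ⟨k * g, by
          have : k * g * u * (k * g)⁻¹ = k * (g * u * g⁻¹) * k⁻¹ := by group
          rw [this]; exact hk⟩
  -- involutions in T₀ coincide
  have huniq : ∀ u v : G, u ∈ T₀ → v ∈ T₀ → orderOf u = 2 → orderOf v = 2 → u = v := by
    rintro _ _ ⟨u, hu, rfl⟩ ⟨v, hv, rfl⟩ huo hvo
    have hu' : e u ∈ C₀ := hu
    have hv' : e v ∈ C₀ := hv
    rw [Subgroup.coe_subtype, Subgroup.orderOf_coe] at huo hvo
    have key : (⟨e u, hu'⟩ : C₀) = ⟨e v, hv'⟩ := by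
      apply Cfsg.Agent.H7.cyclic_involution_unique
      · apply Subtype.ext
        change (e u) ^ 2 = 1
        have hu2 : u ^ 2 = 1 := by
          have := pow_orderOf_eq_one u
          rwa [huo] at this
        rw [← map_pow, hu2, map_one]
      · apply Subtype.ext
        change (e v) ^ 2 = 1
        have hv2 : v ^ 2 = 1 := by
          have := pow_orderOf_eq_one v
          rwa [hvo] at this
        rw [← map_pow, hv2, map_one]
      · intro h
        have h1 : e u = 1 := congrArg Subtype.val h
        have h2 : u = 1 := e.injective (by rw [h1, map_one])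
        rw [h2, orderOf_one] at huo
        norm_num at huo
      · intro h
        have h1 : e v = 1 := congrArg Subtype.val h
        have h2 : v = 1 := e.injective (by rw [h1, map_one])
        rw [h2, orderOf_one] at hvo
        norm_num at hvo
    have h3 : e u = e v := congrArg Subtype.val key
    rw [e.injective h3]
  obtain ⟨g, hg⟩ := hinto x hx
  obtain ⟨k, hk⟩ := hinto y hy
  have hconjo : ∀ (w c : G), orderOf w = 2 → orderOf (c * w * c⁻¹) = 2 := by
    intro w c hw
    have h1 : c * w * c⁻¹ = MulAut.conj c w := by simp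
    rw [h1, MulEquiv.orderOf_eq, hw]
  have heq := huniq _ _ hg hk (hconjo x g hx) (hconjo y k hy)
  refine ⟨k⁻¹ * g, ?_⟩
  calc k⁻¹ * g * x * (k⁻¹ * g)⁻¹ = k⁻¹ * (g * x * g⁻¹) * k := by group
    _ = k⁻¹ * (k * y * k⁻¹) * k := by rw [heq]
    _ = y := by group

end Cfsg.Agent.S0107
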