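import Cfsg.Statements.S0114
import Cfsg.Agent.Lib_helper7_MaxClass3

set_option autoImplicit false
open Cfsg

namespace Cfsg.Agent.S0114

/-- The central quotient of a 2-group of maximal class is dihedral. -/
theorem result {X : Type*} [Group X] [Finite X] (n : ℕ) (hn : 3 ≤ n) (hX : Nat.card X = 2 ^ n) (hc : Group.nilpotencyClass X = n - 1) : Nonempty (X ⧸ Subgroup.center X ≃* DihedralGroup (2 ^ (n - 2))) := by
  have hidx := (H7.class_main n X (by omega) hX).2.1 hc
  have hZ := H7.card_center_eq_two_of_index_commutator hn hX hidx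
  obtain ⟨k, rfl⟩ : ∃ k, n = k + 2 + 1 := ⟨n - 3, by omega⟩
  obtain ⟨a, y, hord, hy, h⟩ := H7.maxclass_structure (m := k + 2) (by omega) hX hidx
  have hk1 : k + 2 - 1 = k + 1 := by omega
  rw [hk1] at h
  have hidx2 : (Subgroup.zpowers a).index = 2 :=
    H7.index_zpowers_eq_two hX a (by rw [hord]; ring)
  obtain ⟨w, hw⟩ : ∃ w, w = a ^ (2 ^ (k + 1)) := ⟨_, rfl⟩
  have hw1 : w ≠ 1 := by
    rw [hw]
    apply pow_ne_one_of_lt_orderOf (by positivity)
    rw [hord]
    exact Nat.pow_lt_pow_right (by norm_num) (by omega)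
  have hw2 : w ^ 2 = 1 := by
    rw [hw, ← pow_mul, ← pow_succ, ← hord, pow_orderOf_eq_one]
  have hwi : w⁻¹ = w := by
    rw [pow_two] at hw2
    exact inv_eq_of_mul_eq_one_left hw2
  have hwa : Commute w a⁻¹ := by
    rw [hw]; exact ((Commute.refl a).pow_left _).inv_right
  have hya : y * a * y⁻¹ = a⁻¹ ∨ y * a * y⁻¹ = w * a⁻¹ := by
    rcases h with ⟨h1, -⟩ | ⟨h1, -⟩ | ⟨-, h1, -⟩
    · exact Or.inl h1
    · exact Or.inl h1
    · right
      rw [h1, hw, eq_mul_inv_iff_mul_eq, ← pow_succ, Nat.sub_add_cancel Nat.one_le_two_pow]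
  have hy2 : y ^ 2 = 1 ∨ y ^ 2 = w := by
    rcases h with ⟨-, h1⟩ | ⟨-, h1⟩ | ⟨-, -, h1⟩
    · exact Or.inl h1
    · exact Or.inr (h1.trans hw.symm)
    · exact Or.inl h1
  have hwy : y * w * y⁻¹ = w := by
    have e : y * w * y⁻¹ = (y * a * y⁻¹) ^ (2 ^ (k + 1)) := by rw [conj_pow, hw]
    rw [e]
    rcases hya with h1 | h1
    · rw [h1, inv_pow, ← hw, hwi]
    · rw [h1, hwa.mul_pow, inv_pow, ← hw, hwi, pow_succ' 2 k, pow_mul, hw2, one_pow, one_mul]
  have hwZ : w ∈ Subgroup.center X := by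
    rw [Subgroup.mem_center_iff]
    intro g
    have hwm : w ∈ Subgroup.zpowers a := by rw [hw]; exact pow_mem (Subgroup.mem_zpowers a) _
    rcases H7.exists_mul_of_index_two hidx2 hy g with hg | ⟨u, hu, rfl⟩
    · exact H7.zpowers_comm a g hg w hwm
    · rw [mul_assoc, mul_inv_eq_iff_eq_mul.1 hwy, ← mul_assoc, ← mul_assoc,
        H7.zpowers_comm a u hu w hwm]
  have hcen : ∀ c ∈ Subgroup.center X, c = 1 ∨ c = w := by
    obtain ⟨z, -, hzu⟩ := (Nat.card_eq_two_iff' (1 : Subgroup.center X)).1 hZ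
    intro c hc
    by_cases h1 : c = 1
    · exact Or.inl h1
    · right
      have e1 := hzu ⟨c, hc⟩ (fun h' => h1 (congrArg Subtype.val h'))
      have e2 := hzu ⟨w, hwZ⟩ (fun h' => hw1 (congrArg Subtype.val h'))
      exact congrArg Subtype.val (e1.trans e2.symm)
  have hπw : QuotientGroup.mk' (Subgroup.center X) w = 1 := by
    rw [QuotientGroup.mk'_apply, QuotientGroup.eq_one_iff]; exact hwZ
  have hgoal : k + 2 + 1 - 2 = k + 1 := by omega
  rw [hgoal]
  haveI : Fact (Nat.Prime 2) := ⟨Nat.prime_two⟩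
  apply H7.dihedral_iso (2 ^ (k + 1)) (QuotientGroup.mk' (Subgroup.center X) a)
    (QuotientGroup.mk' (Subgroup.center X) y)
  · apply orderOf_eq_prime_pow
    · rw [← map_pow, QuotientGroup.mk'_apply, QuotientGroup.eq_one_iff]
      intro hmem
      have hne : a ^ (2 ^ k) ≠ 1 := by
        apply pow_ne_one_of_lt_orderOf (by positivity)
        rw [hord]
        exact Nat.pow_lt_pow_right (by norm_num) (by omega)
      rcases hcen _ hmem with h1 | h1
      · exact hne h1
      · rw [hw, pow_succ 2 k, pow_mul, pow_two] at h1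
        apply hne
        simpa using h1
    · rw [← map_pow, ← hw, hπw]
  · rw [← map_inv, ← map_mul, ← map_mul, ← map_inv]
    rcases hya with h1 | h1
    · rw [h1]
    · rw [h1, map_mul, hπw, one_mul]
  · rw [← map_pow]
    rcases hy2 with h1 | h1
    · rw [h1, map_one]
    · rw [h1, hπw]
  · have := Subgroup.card_eq_card_quotient_mul_card_subgroup (Subgroup.center X)
    rw [hX, hZ] at this
    have e : 2 ^ (k + 2 + 1) = (2 * 2 ^ (k + 1)) * 2 := by ring
    rw [e] at this
    exact (Nat.eq_of_mul_eq_mul_right (by norm_num) this).symm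
  · rintro ⟨i, hi⟩
    apply hy
    have hi' : QuotientGroup.mk' (Subgroup.center X) (a ^ i) =
        QuotientGroup.mk' (Subgroup.center X) y := by rw [map_zpow]; exact hi
    rw [QuotientGroup.mk'_apply, QuotientGroup.mk'_apply, QuotientGroup.eq] at hi'
    have hmem : (a ^ i)⁻¹ * y ∈ Subgroup.zpowers a := by
      rcases hcen _ hi' with h1 | h1
      · rw [h1]; exact one_mem _
      · rw [h1, hw]; exact pow_mem (Subgroup.mem_zpowers a) _
    exact (Subgroup.mul_mem_cancel_left _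
      (inv_mem (Subgroup.zpow_mem_zpowers a i))).1 hmem

end Cfsg.Agent.S0114
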