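import Cfsg.Statements.S0115
import Cfsg.Agent.Lib_helper7_MaxClass3

set_option autoImplicit false
open Cfsg

namespace Cfsg.Agent.S0115

/-- A 2-group of order 2^n, n ≥ 3, is of maximal class exactly when its commutator quotient is a Klein four-group. -/
theorem result {X : Type*} [Group X] [Finite X] (n : ℕ) (hn : 3 ≤ n) (hX : Nat.card X = 2 ^ n) : Group.nilpotencyClass X = n - 1 ↔ IsKleinFour (X ⧸ commutator X) := by
  rw [(H7.class_main n X (by omega) hX).2]
  constructor
  · intro h
    have hcard : Nat.card (X ⧸ commutator X) = 4 := h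
    refine ⟨hcard, ?_⟩
    have h1 : Monoid.exponent (X ⧸ commutator X) ∣ 2 := by
      apply Monoid.exponent_dvd_of_forall_pow_eq_one
      intro g
      obtain ⟨g, rfl⟩ := QuotientGroup.mk_surjective g
      rw [← QuotientGroup.mk_pow, QuotientGroup.eq_one_iff]
      exact H7.sq_mem_commutator hn hX h g
    rcases (Nat.dvd_prime Nat.prime_two).1 h1 with h2 | h2
    · exfalso
      rw [Monoid.exp_eq_one_iff] at h2
      have := Nat.card_eq_one_iff_unique.2 ⟨h2, ⟨1⟩⟩
      omega
    · exact h2
  · intro h
    exact h.card_four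

end Cfsg.Agent.S0115
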