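import Cfsg.Statements.S0116
import Mathlib
import Cfsg.Agent.Lib_helper7_WellPlaced

set_option autoImplicit false
open Cfsg

namespace Cfsg.Agent.S0116

/-- The Alperin fusion Theorem states that conjugation between subsets of a Sylow p-subgroup P factors through normalizers of tame intersections P ∩ Q_i with other Sylow p-subgroups, carrying the subset along step by step. -/
theorem result {G : Type*} [Group G] [Finite G] {p : ℕ} [Fact p.Prime] (P : Sylow p G) (A : Set G) (g : G) (hA : A ⊆ (P : Set G)) (hAg : (fun a => g⁻¹ * a * g) '' A ⊆ (P : Set G)) : ∃ (n : ℕ) (Q : Fin n → Sylow p G) (x : Fin n → G), (List.ofFn x).prod = g ∧ (∀ i : Fin n, x i ∈ Subgroup.normalizer ((((P : Subgroup G) ⊓ (Q i : Subgroup G)) : Subgroup G) : Set G) ∧ ¬ p ∣ ((P : Subgroup G) ⊓ Subgroup.normalizer ((((P : Subgroup G) ⊓ (Q i : Subgroup G)) : Subgroup G) : Set G)).relIndex (Subgroup.normalizer ((((P : Subgroup G) ⊓ (Q i : Subgroup G)) : Subgroup G) : Set G)) ∧ ¬ p ∣ ((Q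 i : Subgroup G) ⊓ Subgroup.normalizer ((((P : Subgroup G) ⊓ (Q i : Subgroup G)) : Subgroup G) : Set G)).relIndex (Subgroup.normalizer ((((P : Subgroup G) ⊓ (Q i : Subgroup G)) : Subgroup G) : Set G))) ∧ (∀ h : 0 < n, A ⊆ (((P : Subgroup G) ⊓ (Q ⟨0, h⟩ : Subgroup G) : Subgroup G) : Set G)) ∧ ∀ i : Fin n, ∀ h : i.val + 1 < n, (fun a => (((List.ofFn x).take (i.val + 1)).prod)⁻¹ * a * ((List.ofFn x).take (i.val + 1)).prod) '' A ⊆ (((P : Subgroup G) ⊓ (Q ⟨i.val + 1, h⟩ : Subgroup G) : Subgroup G) : Set G) := by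
  classical
  let R : Subgroup G → G → Prop := fun T x => ∃ Q' : Sylow p G, T = (P : Subgroup G) ⊓ (Q' : Subgroup G) ∧
    x ∈ Subgroup.normalizer (T : Set G) ∧
    ¬ p ∣ ((P : Subgroup G) ⊓ Subgroup.normalizer (T : Set G)).relIndex (Subgroup.normalizer (T : Set G)) ∧
    ¬ p ∣ ((Q' : Subgroup G) ⊓ Subgroup.normalizer (T : Set G)).relIndex (Subgroup.normalizer (T : Set G))
  have hRn : ∀ T x, R T x → x ∈ Subgroup.normalizer (T : Set G) := by
    rintro T x ⟨Q', -, h, -⟩; exact h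
  have hRi : ∀ T x, R T x → R T x⁻¹ := by
    rintro T x ⟨Q', h1, h2, h3⟩
    exact ⟨Q', h1, Subgroup.inv_mem _ h2, h3⟩
  have key := H7.alperin_general (R := R) P hRn hRi (by
    intro Q hQ IH
    obtain ⟨h, h1, h2⟩ := H7.exists_fully_normalized P (P.2.to_le hQ)
    refine ⟨H7.rc h Q, h1, ⟨h, rfl⟩, h2, ?_⟩
    set U := H7.rc h Q with hU
    have hcU : Nat.card U = Nat.card Q := H7.card_rc h Q
    intro m hm
    have hmU : H7.rc m U = U := H7.rc_eq_self_iff.2 hm
    have hUE : U ≤ (P : Subgroup G) ⊓ H7.rc m (P : Subgroup G) := by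
      refine le_inf h1 ?_
      calc U = H7.rc m U := hmU.symm
        _ ≤ _ := H7.rc_mono m h1
    rcases hUE.eq_or_lt with heq | hlt
    · -- tame intersection
      have hcoe : (((m⁻¹ • P : Sylow p G) : Subgroup G)) = H7.rc m (P : Subgroup G) := by
        rw [Sylow.smul_def, Sylow.pointwise_smul_def]
        rfl
      refine H7.Chain.single (T := U) ⟨m⁻¹ • P, ?_, hm, h2.2.2, ?_⟩ (le_refl _)
      · rw [hcoe]; exact heq
      · rw [hcoe]
        have e1 : H7.rc m (P : Subgroup G) ⊓ Subgroup.normalizer (U : Set G)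
            = H7.rc m ((P : Subgroup G) ⊓ Subgroup.normalizer (U : Set G)) := by
          rw [H7.rc_inf, ← H7.normalizer_rc, hmU]
        have e2 : Subgroup.normalizer (U : Set G) = H7.rc m (Subgroup.normalizer (U : Set G)) := by
          rw [← H7.normalizer_rc, hmU]
        rw [e1]
        have := (h2.map_conj m⁻¹).2.2
        change ¬ p ∣ (H7.rc m ((P : Subgroup G) ⊓ Subgroup.normalizer (U : Set G))).relIndex
          (H7.rc m (Subgroup.normalizer (U : Set G))) at this
        rwa [← e2] at this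
    · have hc : Nat.card Q < Nat.card ((P : Subgroup G) ⊓ H7.rc m (P : Subgroup G) : Subgroup G) := by
        rw [← hcU]; exact H7.card_lt_of_lt hlt
      have hle : H7.rc m⁻¹ ((P : Subgroup G) ⊓ H7.rc m (P : Subgroup G)) ≤ (P : Subgroup G) := by
        calc H7.rc m⁻¹ ((P : Subgroup G) ⊓ H7.rc m (P : Subgroup G)) ≤ H7.rc m⁻¹ (H7.rc m (P : Subgroup G)) :=
              H7.rc_mono _ inf_le_right
          _ = (P : Subgroup G) := by rw [← H7.rc_mul]; simp [H7.rc_one]
      have c1 := (IH _ inf_le_left hc m⁻¹ hle).mono (B := (U : Set G)) hUE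
      have c2 := c1.symm hRn hRi
      rw [H7.rcs_subgroup_of_mem_normalizer (Subgroup.inv_mem _ hm), inv_inv] at c2
      exact c2)
  have hch := H7.alperin_general_set P key A g hA hAg
  obtain ⟨n, T, x, hprod, hR, h0, hs⟩ := hch.exists_fin
  choose Q hQ1 hQ2 hQ3 hQ4 using hR
  refine ⟨n, Q, x, hprod, ?_, ?_, ?_⟩
  · intro i
    rw [← hQ1 i]
    exact ⟨hQ2 i, hQ3 i, hQ4 i⟩
  · intro h
    rw [← hQ1]
    exact h0 h
  · intro i h
    rw [← hQ1]
    exact hs i h

end Cfsg.Agent.S0116
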