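import Cfsg.Statements.S0119
import Cfsg.Agent.S0093
import Cfsg.Agent.Lib_helper1_Frattini
import Cfsg.Agent.Lib_lead_CharP

set_option autoImplicit false
open Cfsg

namespace Cfsg.Agent.S0119

open Subgroup
open scoped commutatorElement

/-- If a p'-group A of automorphisms of a p-group G satisfies G = [G, A] and acts trivially on every characteristic abelian subgroup, then G is special with centre equal to the fixed points of A. -/
theorem result {G : Type*} [Group G] [Finite G] {p : ℕ} [Fact p.Prime] (hG : IsPGroup p G) (A : Subgroup (MulAut G)) (hA : Nat.Coprime (Nat.card A) p) (hGA : Subgroup.closure {x : G | ∃ g : G, ∃ a ∈ A, x = g⁻¹ * a g} = ⊤) (hchar : ∀ H : Subgroup G, H.Characteristic → IsMulCommutative H → ∀ a ∈ A, ∀ h ∈ H, a h = h) : Cfsg.IsSpecial p G ∧ (∀ g : G, (g ∈ Subgroup.center G ↔ ∀ a ∈ A, a g = g)) := by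
  classical
  have hp : p.Prime := Fact.out
  -- Step 1: characteristic abelian subgroups are central
  have step1 : ∀ H : Subgroup G, H.Characteristic → IsMulCommutative H → H ≤ center G := by
    intro H hHc hHa
    haveI := hHc
    have hHn : H.Normal := inferInstance
    have h1 : (⊤ : Subgroup G) ≤ centralizer (H : Set G) := by
      rw [← hGA, closure_le]
      rintro _ ⟨g, a, ha, rfl⟩
      show g⁻¹ * a g ∈ centralizer (H : Set G)
      rw [mem_centralizer_iff]
      intro h hh
      have e1 : a (g * h * g⁻¹) = g * h * g⁻¹ := hchar H hHc hHa a ha _ (hHn.conj_mem h hh g)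
      rw [map_mul, map_mul, map_inv, hchar H hHc hHa a ha h hh] at e1
      have e2 : a g * h = g * h * g⁻¹ * a g := by rw [← e1]; group
      calc h * (g⁻¹ * a g) = g⁻¹ * (g * h * g⁻¹ * a g) := by group
        _ = g⁻¹ * (a g * h) := by rw [e2]
        _ = g⁻¹ * a g * h := by group
    intro h hh
    rw [mem_center_iff]
    intro g
    exact ((mem_centralizer_iff.1 (h1 (mem_top g))) h hh).symm
  -- Step 2: class at most two
  have hnil : Group.IsNilpotent G := hG.isNilpotent
  have step2 : _root_.commutator G ≤ center G := by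
    have hex := Subgroup.nilpotent_iff_lowerCentralSeries.mp hnil
    set n := Nat.find hex with hn
    have hnspec : (⊤ : Subgroup G).lowerCentralSeries n = ⊥ := Nat.find_spec hex
    have hle2 : n ≤ 2 := by
      by_contra hcon
      obtain ⟨m, hm⟩ : ∃ m, n = m + 3 := ⟨n - 3, by omega⟩
      set K := (⊤ : Subgroup G).lowerCentralSeries (m + 1) with hK
      have hK2 : ⁅⁅K, (⊤ : Subgroup G)⁆, (⊤ : Subgroup G)⁆ = ⊥ := by
        rw [hm] at hnspec
        exact hnspec
      have hKle : K ≤ _root_.commutator G := by
        rw [← Subgroup.top_lowerCentralSeries_one]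
        exact Subgroup.lowerCentralSeries_antitone _ (by omega)
      have h3 : ⁅⁅(⊤ : Subgroup G), (⊤ : Subgroup G)⁆, K⁆ = ⊥ := by
        apply commutator_commutator_eq_bot_of_rotate
        · rw [commutator_comm ⊤ K]; exact hK2
        · exact hK2
      have hKab : IsMulCommutative K := by
        refine ⟨⟨fun a b => Subtype.ext ?_⟩⟩
        have h4 : ⁅(a : G), (b : G)⁆ ∈ ⁅⁅(⊤ : Subgroup G), (⊤ : Subgroup G)⁆, K⁆ :=
          commutator_mem_commutator (hKle a.2) b.2
        rw [h3, mem_bot, commutatorElement_eq_one_iff_mul_comm] at h4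
        exact h4
      have hKc : K ≤ center G := step1 K inferInstance hKab
      have h5 : (⊤ : Subgroup G).lowerCentralSeries (m + 2) = ⊥ := by
        show ⁅K, (⊤ : Subgroup G)⁆ = ⊥
        rw [eq_bot_iff, Subgroup.commutator_le]
        intro a ha b _
        rw [mem_bot, commutatorElement_eq_one_iff_mul_comm]
        exact ((mem_center_iff.1 (hKc ha)) b).symm
      have := Nat.find_min' hex h5
      omega
    have h2 : (⊤ : Subgroup G).lowerCentralSeries 2 = ⊥ := by
      rw [eq_bot_iff, ← hnspec]
      exact Subgroup.lowerCentralSeries_antitone _ hle2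
    intro x hx
    rw [mem_center_iff]
    intro g
    have h3 : ⁅x, g⁆ ∈ (⊤ : Subgroup G).lowerCentralSeries 2 :=
      commutator_mem_commutator hx (mem_top g)
    rw [h2, mem_bot, commutatorElement_eq_one_iff_mul_comm] at h3
    exact h3.symm
  -- Step 3: fixed points lie in the derived subgroup
  letI : Fintype A := Fintype.ofFinite A
  have step3 : ∀ x : G, (∀ a ∈ A, a x = x) → x ∈ _root_.commutator G := by
    intro x hx
    let ν : G →* Abelianization G :=
      ∏ a : A, (Abelianization.of (G := G)).comp ((a : MulAut G).toMonoidHom)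
    have hν : ∀ g, ν g = ∏ a : A, Abelianization.of ((a : MulAut G) g) := by
      intro g
      simp only [ν, MonoidHom.finsetProd_apply]
      rfl
    have hν1 : ν = 1 := by
      apply MonoidHom.eq_of_eqOn_dense hGA
      rintro _ ⟨g, b, hb, rfl⟩
      rw [MonoidHom.one_apply, hν]
      have h1 : ∀ a : A, Abelianization.of ((a : MulAut G) (g⁻¹ * b g)) =
          (Abelianization.of ((a : MulAut G) g))⁻¹ *
            Abelianization.of (((a * ⟨b, hb⟩ : A) : MulAut G) g) := by
        intro a
        rw [map_mul, map_mul, map_inv, map_inv]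
        rfl
      simp only [h1]
      rw [Finset.prod_mul_distrib, Finset.prod_inv_distrib]
      have h2 : ∏ a : A, Abelianization.of (((a * ⟨b, hb⟩ : A) : MulAut G) g) =
          ∏ a : A, Abelianization.of ((a : MulAut G) g) :=
        Fintype.prod_equiv (Equiv.mulRight (⟨b, hb⟩ : A)) _ _ (fun a => rfl)
      rw [h2, inv_mul_cancel]
    have h3 : (Abelianization.of x) ^ (Nat.card A) = 1 := by
      have h4 := hν x
      rw [hν1, MonoidHom.one_apply] at h4
      have h5 : ∀ a : A, Abelianization.of ((a : MulAut G) x) = Abelianization.of x := by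
        intro a; rw [hx a a.2]
      simp only [h5] at h4
      rw [Finset.prod_const, Finset.card_univ, ← Nat.card_eq_fintype_card] at h4
      exact h4.symm
    obtain ⟨k, hk⟩ := hG x
    have h6 : (Abelianization.of x) ^ (p ^ k) = 1 := by rw [← map_pow, hk, map_one]
    have h7 : orderOf (Abelianization.of x) ∣ Nat.gcd (Nat.card A) (p ^ k) :=
      Nat.dvd_gcd (orderOf_dvd_of_pow_eq_one h3) (orderOf_dvd_of_pow_eq_one h6)
    rw [Nat.Coprime.pow_right k hA, Nat.dvd_one, orderOf_eq_one_iff] at h7
    rw [← Abelianization.ker_of, MonoidHom.mem_ker]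
    exact h7
  have hZfix : ∀ x ∈ center G, ∀ a ∈ A, a x = x := by
    intro x hx a ha
    exact hchar (center G) inferInstance inferInstance a ha x hx
  have hZeq : _root_.commutator G = center G :=
    le_antisymm step2 (fun x hx => step3 x (hZfix x hx))
  -- Step 5: `p`-th powers are central
  have hcomm_mem : ∀ a b : G, ⁅a, b⁆ ∈ center G := fun a b =>
    step2 (commutator_mem_commutator (mem_top a) (mem_top b))
  have key : ∀ (x y : G) (k : ℕ), x ^ k ∈ center G → (y⁻¹ * (x * y * x⁻¹)) ^ k = 1 := by
    intro x y k hk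
    have hz : y⁻¹ * (x * y * x⁻¹) ∈ center G := by
      have : y⁻¹ * (x * y * x⁻¹) = ⁅y⁻¹, x⁆ := by rw [commutatorElement_def]; group
      rw [this]; exact hcomm_mem _ _
    have h1 : x * y * x⁻¹ = y * (y⁻¹ * (x * y * x⁻¹)) := by group
    have h2 := Cfsg.Agent.LeadCharP.conj_pow_of_comm h1 ((mem_center_iff.1 hz) x) k
    have h3 : x ^ k * y * (x ^ k)⁻¹ = y := by
      rw [← (mem_center_iff.1 hk) y]; group
    rw [h3] at h2
    exact (mul_eq_left.1 h2.symm)
  have hpow : ∀ x : G, x ^ p ∈ center G := by
    have hex : ∃ e : ℕ, ∀ x : G, x ^ (p ^ e) ∈ center G := by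
      obtain ⟨e, he⟩ := hG.exists_card_eq
      exact ⟨e, fun x => by rw [← he, pow_card_eq_one']; exact one_mem _⟩
    set e := Nat.find hex with he
    have hespec : ∀ x : G, x ^ (p ^ e) ∈ center G := Nat.find_spec hex
    have hle : e ≤ 1 := by
      by_contra hcon
      obtain ⟨f, hf⟩ : ∃ f, e = f + 2 := ⟨e - 2, by omega⟩
      set m := p ^ (f + 1) with hm
      have hmm : ∀ x : G, x ^ (m * m) ∈ center G := by
        intro x
        have : m * m = p ^ e * p ^ f := by rw [hm, hf, ← pow_add, ← pow_add]; congr 1; omega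
        rw [this, pow_mul]
        exact pow_mem (hespec x) _
      set D := closure {u : G | ∃ x : G, u = x ^ m} with hD
      have hDab : IsMulCommutative D := by
        apply Subgroup.isMulCommutative_closure
        rintro _ ⟨x, rfl⟩ _ ⟨y, rfl⟩
        set z := y⁻¹ * (x * y * x⁻¹) with hz
        have hzc : z ∈ center G := by
          have : z = ⁅y⁻¹, x⁆ := by rw [hz, commutatorElement_def]; group
          rw [this]; exact hcomm_mem _ _
        have h1 : x * y * x⁻¹ = y * z := by rw [hz]; group
        have h2 := Cfsg.Agent.LeadCharP.conj_pow_of_comm h1 ((mem_center_iff.1 hzc) x) m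
        have h3 : (x ^ m * y * (x ^ m)⁻¹) ^ m = y ^ m := by
          rw [h2]
          have hc : Commute y (z ^ m) := ((mem_center_iff.1 (pow_mem hzc m)) y)
          rw [hc.mul_pow, ← pow_mul, key x y (m * m) (hmm x), mul_one]
        rw [conj_pow] at h3
        calc x ^ m * y ^ m = (x ^ m * y ^ m * (x ^ m)⁻¹) * x ^ m := by group
          _ = y ^ m * x ^ m := by rw [h3]
      have hDch : D.Characteristic := by
        rw [characteristic_iff_map_le]
        intro φ
        rw [hD, MonoidHom.map_closure, closure_le]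
        rintro _ ⟨_, ⟨x, rfl⟩, rfl⟩
        apply Subgroup.subset_closure
        exact ⟨φ x, map_pow φ x m⟩
      have hDc := step1 D hDch hDab
      have h4 : ∀ x : G, x ^ (p ^ (f + 1)) ∈ center G := fun x =>
        hDc (Subgroup.subset_closure ⟨x, rfl⟩)
      have := Nat.find_min' hex h4
      omega
    intro x
    rcases Nat.le_one_iff_eq_zero_or_eq_one.1 hle with h0 | h1
    · have := hespec x
      rw [h0, pow_zero, pow_one] at this
      exact pow_mem this p
    · have := hespec x
      rwa [h1, pow_one] at this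
  refine ⟨⟨hG, ?_, hZeq⟩, ?_⟩
  · apply le_antisymm
    · exact Cfsg.Agent.S0093.frattini_le_of_elemAb (center G) hcomm_mem hpow
    · rw [← hZeq]; exact (Cfsg.Agent.H1.pgroup_frattini p hG).1
  · intro g
    exact ⟨fun hg => hZfix g hg, fun hg => step2 (step3 g hg)⟩

end Cfsg.Agent.S0119
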