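import Cfsg.Statements.S0120
import Cfsg.Agent.Lib_helper7_Omega

set_option autoImplicit false
open Cfsg

namespace Cfsg.Agent.S0120

/-- For odd p, a p'-automorphism of a p-group acting trivially on the elements of order dividing p is trivial. -/
theorem result {G : Type*} [Group G] [Finite G] {p : ℕ} [Fact p.Prime] (hp : p ≠ 2) (hG : IsPGroup p G) (a : MulAut G) (ha : Nat.Coprime (orderOf a) p) (h : ∀ x : G, x ^ p = 1 → a x = x) : a = 1 := by
  ext x
  rw [MulAut.one_apply]
  exact Cfsg.Agent.H7.aut_fix_of_fix_omega hp hG a ha ⊤ (fun x _ hx => h x hx)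
    (fun _ _ => Subgroup.mem_top _) x (Subgroup.mem_top _)

end Cfsg.Agent.S0120
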