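import Mathlib
import Cfsg.Statements.S0121
import Cfsg.Agent.Lib_helper1_Transfer

set_option autoImplicit false
open Cfsg

namespace Cfsg.Agent.S0121

open Cfsg.Agent.H1 Subgroup

/-- A p'-automorphism of a p-group acting trivially on a critical subgroup is trivial. -/
theorem result {G : Type*} [Group G] [Finite G] {p : ℕ} [Fact p.Prime] (hG : IsPGroup p G) (H : Subgroup G) (hH : H.Characteristic) (h1 : (frattini H).map H.subtype ≤ Subgroup.centralizer (H : Set G)) (h2 : ⁅H, (⊤ : Subgroup G)⁆ ≤ H ⊓ Subgroup.centralizer (H : Set G)) (h3 : Subgroup.centralizer (H : Set G) ≤ H) (a : MulAut G) (ha : Nat.Coprime (orderOf a) p) (h : ∀ x ∈ H, a x = x) : a = 1 := by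
  have hHn : H.Normal := inferInstance
  ext g
  rw [MulAut.one_apply]
  set c := g⁻¹ * a g with hc
  have hcC : c ∈ centralizer (H : Set G) := by
    rw [mem_centralizer_iff]
    intro x hx
    have h4 : a (g * x * g⁻¹) = g * x * g⁻¹ := h _ (hHn.conj_mem x hx g)
    rw [map_mul, map_mul, map_inv, h x hx] at h4
    -- a g * x * (a g)⁻¹ = g * x * g⁻¹
    have h5 : a g * x = g * x * g⁻¹ * a g := by
      rw [← h4]; group
    rw [hc]
    calc x * (g⁻¹ * a g) = g⁻¹ * (g * x * g⁻¹ * a g) := by group
      _ = g⁻¹ * (a g * x) := by rw [h5]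
      _ = g⁻¹ * a g * x := by group
  have hac : a c = c := h c (h3 hcC)
  have hag : a g = g * c := by rw [hc]; group
  have hpow : ∀ n : ℕ, (a ^ n) g = g * c ^ n := by
    intro n
    induction n with
    | zero => simp
    | succ n ih =>
      rw [pow_succ', MulAut.mul_apply, ih, map_mul, map_pow, hac, hag, pow_succ', mul_assoc]
  have h6 := hpow (orderOf a)
  rw [pow_orderOf_eq_one, MulAut.one_apply] at h6
  have h7 : c ^ orderOf a = 1 := by
    have : g * c ^ orderOf a = g * 1 := by rw [← h6, mul_one]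
    exact mul_left_cancel this
  obtain ⟨k, hk⟩ := IsPGroup.iff_card.mp hG
  have h8 : c = 1 := eq_one_of_pow_eq_one_of_coprime h7 (by rw [hk]; exact Nat.Coprime.pow_right k ha)
  rw [hag, h8, mul_one]

end Cfsg.Agent.S0121
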