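import Mathlib
import Cfsg.Statements.S0125
import Cfsg.Agent.Lib_helper1_AbSylow

set_option autoImplicit false
open Cfsg

namespace Cfsg.Agent.S0125

open Cfsg.Agent.H1 Subgroup

/-- The centralizer of a self-centralizing normal subgroup A of a Sylow p-subgroup is the direct product of A with a normal p'-subgroup. -/
theorem result {G : Type*} [Group G] [Finite G] {p : ℕ} [Fact p.Prime] (R : Sylow p G) (A : Subgroup G) (hAR : A ≤ (R : Subgroup G)) (hAn : (R : Subgroup G) ≤ Subgroup.normalizer (A : Set G)) (hC : (R : Subgroup G) ⊓ Subgroup.centralizer (A : Set G) = A) : ∃ H : Subgroup G, H ≤ Subgroup.centralizer (A : Set G) ∧ Nat.Coprime (Nat.card H) p ∧ Subgroup.centralizer (A : Set G) ≤ Subgroup.normalizer (H : Set G) ∧ H ⊓ A = ⊥ ∧ H ⊔ A = Subgroup.centralizer (A : Set G) := by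
  have hp : p.Prime := Fact.out
  have hAC : A ≤ centralizer (A : Set G) := by
    conv_lhs => rw [← hC]
    exact inf_le_right
  have hCN : centralizer (A : Set G) ≤ normalizer (A : Set G) := centralizer_le_normalizer _
  have hrel : ¬ p ∣ A.relIndex (centralizer (A : Set G)) := by
    have e : A.relIndex (centralizer (A : Set G)) = (R : Subgroup G).relIndex (centralizer (A : Set G)) := by
      rw [← inf_relIndex_right (R : Subgroup G), hC]
    rw [e]
    intro hd
    apply R.not_dvd_index
    refine hd.trans (Dvd.dvd.trans ?_ (relIndex_dvd_index_of_le hAn))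
    haveI : ((centralizer (A : Set G)).subgroupOf (normalizer (A : Set G))).Normal := by
      rw [← normalizerMonoidHom_ker]
      infer_instance
    have h1 := relIndex_dvd_index_of_normal_right
      ((R : Subgroup G).subgroupOf (normalizer (A : Set G)))
      ((centralizer (A : Set G)).subgroupOf (normalizer (A : Set G)))
    rw [relIndex_subgroupOf hCN] at h1
    exact h1
  obtain ⟨k, hk⟩ := IsPGroup.iff_card.mp (R.2.to_le hAR)
  have hcop : Nat.Coprime (Nat.card A) (A.relIndex (centralizer (A : Set G))) := by
    rw [hk]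
    exact Nat.Coprime.pow_left k ((Nat.Prime.coprime_iff_not_dvd hp).mpr hrel)
  obtain ⟨K, hKC, hsup, hinf, hcard⟩ := exists_complement_internal A _ hAC hCN hcop
  refine ⟨K, hKC, ?_, ?_, ?_, ?_⟩
  · rw [hcard]
    exact ((Nat.Prime.coprime_iff_not_dvd hp).mpr hrel).symm
  · rw [← hsup]
    refine sup_le ?_ le_normalizer
    exact (le_centralizer_iff.mp hKC).trans (centralizer_le_normalizer _)
  · rw [inf_comm]; exact hinf
  · rw [sup_comm]; exact hsup

end Cfsg.Agent.S0125
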