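import Mathlib
import Cfsg.Statements.S0131
import Cfsg.Agent.Lib_helper1_AbSylow

set_option autoImplicit false
open Cfsg

namespace Cfsg.Agent.S0131

open Cfsg.Agent.H1 Subgroup
open scoped commutatorElement

/-- P/P' has a normal complement in G exactly when the focal subgroup G' ∩ P is as small as possible, namely P'. -/
theorem result {G : Type*} [Group G] [Finite G] {p : ℕ} [Fact p.Prime] (P : Sylow p G) : (∃ N : Subgroup G, N.Normal ∧ N ⊓ (P : Subgroup G) = ⁅(P : Subgroup G), (P : Subgroup G)⁆ ∧ N ⊔ (P : Subgroup G) = ⊤) ↔ commutator G ⊓ (P : Subgroup G) = ⁅(P : Subgroup G), (P : Subgroup G)⁆ := by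
  constructor
  · rintro ⟨N, hNn, hNP, hsup⟩
    apply le_antisymm
    · rw [← hNP]
      refine inf_le_inf_right _ ?_
      rw [← Subgroup.Normal.quotient_commutative_iff_commutator_le]
      have key : ∀ a : G ⧸ N, ∃ x ∈ (P : Subgroup G), (x : G ⧸ N) = a := by
        intro a
        obtain ⟨a, rfl⟩ := QuotientGroup.mk_surjective a
        have ha : a ∈ N ⊔ (P : Subgroup G) := by rw [hsup]; trivial
        obtain ⟨r, hr, x, hx, rfl⟩ := mem_sup_of_normal_left.mp ha
        refine ⟨x, hx, ?_⟩
        rw [QuotientGroup.mk_mul, (QuotientGroup.eq_one_iff r).mpr hr, one_mul]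
      refine ⟨⟨fun a b => ?_⟩⟩
      obtain ⟨x, hx, rfl⟩ := key a
      obtain ⟨y, hy, rfl⟩ := key b
      rw [← QuotientGroup.mk_mul, ← QuotientGroup.mk_mul, QuotientGroup.eq]
      have h1 : (x * y)⁻¹ * (y * x) = ⁅y⁻¹, x⁻¹⁆ := by rw [commutatorElement_def]; group
      rw [h1]
      have h2 : ⁅y⁻¹, x⁻¹⁆ ∈ N ⊓ (P : Subgroup G) := by
        rw [hNP]
        exact commutator_mem_commutator (inv_mem hy) (inv_mem hx)
      exact h2.1
    · exact le_inf (commutator_mono le_top le_top) (commutator_le_self _)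
  · intro h
    refine ⟨(P : Subgroup G).transferFocal.ker, inferInstance, ?_, ?_⟩
    · rw [ker_transferFocal_inf_eq_focalSubgroup P, ← commutator_inf_eq_focalSubgroup P, h]
    · exact ker_transferFocal_sup _ (focal_coprime_of_hall _ P.card_coprime_index)

end Cfsg.Agent.S0131
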