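import Mathlib
import Cfsg.Statements.S0132
import Cfsg.Agent.Lib_helper1_PNilp3
import Cfsg.Agent.Lib_helper1_FrobNPC
import Cfsg.Agent.Lib_helper1_Cores

set_option autoImplicit false
open Cfsg

namespace Cfsg.Agent.S0132

open Pointwise
open Cfsg.Agent.H1 Subgroup
open scoped commutatorElement

/-- A minimal non-p-nilpotent finite group is a minimal non-nilpotent group with a normal Sylow p-subgroup. -/
theorem result {G : Type*} [Group G] [Finite G] {p : ℕ} [Fact p.Prime] (h1 : ¬ Cfsg.HasNormalPComplement p G) (h2 : ∀ H : Subgroup G, H ≠ ⊤ → Cfsg.HasNormalPComplement p H) : (∀ H : Subgroup G, H ≠ ⊤ → Group.IsNilpotent H) ∧ ¬ Group.IsNilpotent G ∧ ∀ P : Sylow p G, (P : Subgroup G).Normal := by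
  have hp : p.Prime := Fact.out
  -- Step A
  have hF : ¬ FrobCond p G := fun h => h1 (hasNormalPComplement_of_frobCond h)
  unfold FrobCond at hF
  push Not at hF
  obtain ⟨X, hX, g, hg, hgo, hgC⟩ := hF
  -- Step B
  have hL : X ⊔ zpowers g = ⊤ := by
    by_contra hne
    set L := X ⊔ zpowers g with hLdef
    have hXL : X ≤ L := le_sup_left
    have hgL : g ∈ L := mem_sup_right (mem_zpowers g)
    have hFL := frobCond_of_hasNormalPComplement (h2 L hne)
    have h3 := hFL (X.subgroupOf L) (isPGroup_subgroupOf hX L) ⟨g, hgL⟩ (by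
      rw [mem_normalizer_iff]
      intro n
      rw [mem_subgroupOf, mem_subgroupOf]
      exact mem_normalizer_iff.mp hg n) (by rw [Subgroup.orderOf_mk]; exact hgo)
    apply hgC
    rw [mem_centralizer_iff] at h3 ⊢
    intro x hx
    exact congrArg Subtype.val (h3 ⟨x, hXL hx⟩ hx)
  -- Step C
  have hXn : X.Normal := by
    rw [← normalizer_eq_top_iff, eq_top_iff, ← hL]
    exact sup_le le_normalizer (zpowers_le.mpr hg)
  have hidx : X.index ∣ orderOf g := by
    have h3 := index_mul_card_inf_of_sup_eq_top (N := X) (M := zpowers g) (by rw [sup_comm]; exact hL)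
    have h4 := card_sup_mul_card_inf (zpowers g) X
    rw [sup_comm, hL, card_top, ← X.index_mul_card, Nat.card_zpowers] at h4
    have hpos : 0 < Nat.card X := Nat.card_pos
    refine Dvd.intro (Nat.card (zpowers g ⊓ X : Subgroup G)) ?_
    nlinarith [h4]
  have hidxp : Nat.Coprime X.index p := Nat.Coprime.coprime_dvd_left hidx hgo
  have hidxp' : ¬ p ∣ X.index := (Nat.Prime.coprime_iff_not_dvd hp).mp hidxp.symm
  have hpsub : ∀ S : Subgroup G, IsPGroup p S → S ≤ X := by
    intro S hS
    apply le_normal_of_coprime_index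
    obtain ⟨k, hk⟩ := IsPGroup.iff_card.mp hS
    rw [hk]
    exact (Nat.Coprime.pow_right k hidxp).symm
  have hcommX : commutator G ≤ X := by
    rw [← Subgroup.Normal.quotient_commutative_iff_commutator_le]
    have key : ∀ a : G ⧸ X, ∃ i : ℤ, ((g ^ i : G) : G ⧸ X) = a := by
      intro a
      obtain ⟨a, rfl⟩ := QuotientGroup.mk_surjective a
      have ha : a ∈ X ⊔ zpowers g := by rw [hL]; trivial
      obtain ⟨x, hx, z, hz, rfl⟩ := mem_sup_of_normal_left.mp ha
      obtain ⟨i, rfl⟩ := mem_zpowers_iff.mp hz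
      refine ⟨i, ?_⟩
      rw [QuotientGroup.mk_mul, (QuotientGroup.eq_one_iff x).mpr hx, one_mul]
    refine ⟨⟨fun a b => ?_⟩⟩
    obtain ⟨i, rfl⟩ := key a
    obtain ⟨j, rfl⟩ := key b
    rw [← QuotientGroup.mk_mul, ← QuotientGroup.mk_mul, ← zpow_add, ← zpow_add, add_comm]
  refine ⟨?_, ?_, ?_⟩
  · -- Step E
    intro H hH
    have hcop := hasNormalPComplement_iff.mp (h2 H hH)
    haveI hRn := pResidual_normal (G := H) p
    have hX'n : (X.subgroupOf H).Normal := inferInstance
    have hX'nil : Group.IsNilpotent (X.subgroupOf H) := (isPGroup_subgroupOf hX H).isNilpotent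
    obtain ⟨k, hk⟩ := IsPGroup.iff_card.mp (isPGroup_subgroupOf hX H)
    have hdisj : Cfsg.pResidual p H ⊓ X.subgroupOf H = ⊥ := by
      apply (disjoint_of_coprime_natCard _).eq_bot
      rw [hk]
      exact Nat.Coprime.pow_right k hcop
    have hRab : IsMulCommutative (Cfsg.pResidual p H) := by
      refine ⟨⟨fun a b => ?_⟩⟩
      have h3 : ⁅(a : H), (b : H)⁆ ∈ Cfsg.pResidual p H ⊓ X.subgroupOf H := by
        refine mem_inf.mpr ⟨?_, ?_⟩
        · rw [commutatorElement_def]
          exact mul_mem (mul_mem (mul_mem a.2 b.2) (inv_mem a.2)) (inv_mem b.2)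
        · rw [mem_subgroupOf]
          apply hcommX
          have : ((⁅(a : H), (b : H)⁆ : H) : G) = ⁅((a : H) : G), ((b : H) : G)⁆ := by
            simp [commutatorElement_def]
          rw [this]
          exact commutator_mem_commutator (mem_top _) (mem_top _)
      rw [hdisj, mem_bot, commutatorElement_eq_one_iff_mul_comm] at h3
      exact Subtype.ext h3
    have hRnil : Group.IsNilpotent (Cfsg.pResidual p H) :=
      ⟨1, Subgroup.upperCentralSeries_one_eq_top_iff.mpr hRab⟩
    obtain ⟨S⟩ : Nonempty (Sylow p H) := inferInstance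
    have hSX : (S : Subgroup H) ≤ X.subgroupOf H := by
      intro s hs
      rw [mem_subgroupOf]
      exact hpsub _ (S.2.map H.subtype) ⟨s, hs, rfl⟩
    have htop : (S : Subgroup H) ⊔ Cfsg.pResidual p H = ⊤ :=
      sylow_sup_eq_top_of_isPGroup_quotient S _ (isPGroup_quotient_pResidual p)
    have hfit : Cfsg.fittingSubgroup H = ⊤ := by
      rw [eq_top_iff, ← htop]
      exact sup_le (hSX.trans (le_fitting hX'n hX'nil)) (le_fitting hRn hRnil)
    have := fitting_nilpotent (G := H)
    rw [hfit] at this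
    exact (Group.isNilpotent_congr Subgroup.topEquiv).mp this
  · -- Step D
    intro hnil
    apply hgC
    obtain ⟨k, hk⟩ := IsPGroup.iff_card.mp hX
    have hcomm : ⁅X, zpowers g⁆ = ⊥ :=
      commutator_eq_bot_of_nilpotent_coprime (S := ⊤) inferInstance le_top le_top
        (zpowers_le.mpr hg) (by rw [Nat.card_zpowers, hk]; exact Nat.Coprime.pow_right k hgo)
        (Or.inr (isSolvable_of_isPGroup hX))
    rw [commutator_eq_bot_iff_le_centralizer] at hcomm
    exact (le_centralizer_iff.mp hcomm) (mem_zpowers g)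
  · intro P
    have h3 : (P : Subgroup G) = X := (P.3 hX (hpsub P P.2)).symm
    rw [h3]
    exact hXn

end Cfsg.Agent.S0132
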