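import Cfsg.Statements.S0170
import Mathlib
import Cfsg.Agent.Lib_lead_Br16

set_option autoImplicit false
open Cfsg

namespace Cfsg.Agent.S0170

open Cfsg.Agent.H4


/-- Exceptional characters. Let S be a subset of a finite group contained in its normalizer N and meeting its conjugates by elements outside N only in the identity. Given n ≥ 2 distinct irreducible characters of N of equal degree that vanish on N away from S, there exist a sign ε and n distinct irreducible characters θ_i of G such that inducing χ_i − χ_j to G gives ε (θ_i − θ_j) for all i, j. -/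
theorem result {G : Type*} [Group G] [Fintype G] (S : Set G) (hSN : S ⊆ Subgroup.normalizer S) (hTI : ∀ g : G, g ∉ Subgroup.normalizer S → ∀ s ∈ S, g * s * g⁻¹ ∈ S → s = 1) (n : ℕ) (hn : 2 ≤ n) (χ : Fin n → (Subgroup.normalizer S → ℂ)) (hirr : ∀ i, Cfsg.IsIrrCharacter (Subgroup.normalizer S) (χ i)) (hinj : Function.Injective χ) (hvan : ∀ i, ∀ x : Subgroup.normalizer S, (x : G) ∉ S → χ i x = 0) (hdeg : ∀ i j, χ i 1 = χ j 1) : ∃ ε : ℂ, (ε = 1 ∨ ε = -1) ∧ ∃ θ : Fin n → (G → ℂ), (∀ i, Cfsg.IsIrrCharacter G (θ i)) ∧ Function.Injective θ ∧ ∀ i j, Cfsg.indFun (Subgroup.normalizer S) (χ i) - Cfsg.indFun (Subgroup.normalizer S) (χ j) = ε • (θ i - θ j) := by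
  classical
  haveI : Fintype (Subgroup.normalizer S) := Fintype.ofFinite _
  let i₀ : Fin n := ⟨0, by omega⟩
  set τ : Fin n → (G → ℂ) := fun i => Cfsg.indFun (Subgroup.normalizer S) (χ i - χ i₀) with hτdef
  have hc : ∀ i, Cfsg.IsCharacter (Subgroup.normalizer S) (χ i) :=
    fun i => IsIrrCharacter.isCharacter (hirr i)
  have h0 : τ i₀ = 0 := by
    simp only [hτdef, sub_self]
    exact indFun_zero _
  have hgen : ∀ i, Cfsg.IsGeneralizedCharacter G (τ i) := fun i =>
    ⟨_, _, IsCharacter.ind _ (hc i), IsCharacter.ind _ (hc i₀), indFun_sub _ _ _⟩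
  have hone : ∀ i, τ i 1 = 0 := by
    intro i
    simp only [hτdef]
    rw [indFun_apply_one, Pi.sub_apply, hdeg i i₀, sub_self, mul_zero]
  have hgram : ∀ i j, i ≠ i₀ → j ≠ i₀ → Cfsg.classInner (τ i) (τ j) = if i = j then 2 else 1 := by
    intro i j hi hj
    simp only [hτdef]
    rw [classInner_indFun_TI S hTI (χ i - χ i₀) (χ j - χ i₀)
      (IsClassFunction.sub (IsCharacter.isClassFunction (hc j)) (IsCharacter.isClassFunction (hc i₀)))
      (fun x hx => by rw [Pi.sub_apply, hvan i x hx, hvan i₀ x hx, sub_self])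
      (fun x hx => by rw [Pi.sub_apply, hvan j x hx, hvan i₀ x hx, sub_self])
      (by rw [Pi.sub_apply, hdeg i i₀, sub_self])]
    have e : ∀ k l : Fin n, Cfsg.classInner (χ k) (χ l) = if k = l then 1 else 0 := by
      intro k l
      have := irr_orthonormal (⟨χ k, hirr k⟩ : Cfsg.IrrCharacter (Subgroup.normalizer S)) ⟨χ l, hirr l⟩
      simp only at this
      rw [this]
      by_cases hkl : k = l
      · subst hkl; simp
      · rw [if_neg hkl, if_neg]
        intro h
        exact hkl (hinj (congrArg Subtype.val h))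
    rw [classInner_sub_left, classInner_sub_right, classInner_sub_right, e, e, e, e,
      if_neg hi, if_neg (Ne.symm hj), if_pos rfl]
    by_cases hij : i = j
    · rw [if_pos hij, if_pos hij]; norm_num
    · rw [if_neg hij, if_neg hij]; norm_num
  obtain ⟨ε, hε, μ, hirr', hinj', hτ⟩ := Cfsg.Agent.LeadBr.exceptional n i₀ τ h0 hgen hone hgram
  refine ⟨ε, hε, μ, hirr', hinj', ?_⟩
  intro i j
  have e1 : Cfsg.indFun (Subgroup.normalizer S) (χ i) - Cfsg.indFun (Subgroup.normalizer S) (χ j)
      = τ i - τ j := by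
    simp only [hτdef]
    rw [indFun_sub, indFun_sub]
    abel
  rw [e1, hτ i, hτ j, ← smul_sub]
  congr 1
  abel

end Cfsg.Agent.S0170
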