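import Cfsg.Statements.S0172
import Mathlib

set_option autoImplicit false
set_option linter.style.haveILetI false

open Cfsg

namespace Cfsg.Agent.S0172

/-- Class number of a Frobenius group: if G = K H with K normal, K ⊓ H trivial and no non-identity element of H commuting with a non-identity element of K, then |H| * k(G) + 1 = |H| * k(H) + k(K), where k denotes the number of conjugacy classes. -/
theorem result {G : Type*} [Group G] [Finite G] (K H : Subgroup G) [K.Normal] (hKH : K ⊓ H = ⊥) (hKH' : K ⊔ H = ⊤) (hfpf : ∀ h ∈ H, h ≠ 1 → ∀ k ∈ K, h * k = k * h → k = 1) : Nat.card H * Nat.card (ConjClasses G) + 1 = Nat.card H * Nat.card (ConjClasses H) + Nat.card (ConjClasses K) := by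

  classical
  have hdisj : ∀ x : G, x ∈ K → x ∈ H → x = 1 := by
    intro x hx hx'
    have : x ∈ K ⊓ H := ⟨hx, hx'⟩
    rwa [hKH, Subgroup.mem_bot] at this
  have hdec : ∀ g : G, ∃ u ∈ K, ∃ a ∈ H, g = u * a := by
    intro g
    have hg : g ∈ K ⊔ H := by rw [hKH']; trivial
    obtain ⟨u, hu, a, ha, e⟩ := Subgroup.mem_sup_of_normal_left.1 hg
    exact ⟨u, hu, a, ha, e.symm⟩
  have hKn : ∀ (g : G), ∀ k ∈ K, g * k * g⁻¹ ∈ K := fun g k hk => ‹K.Normal›.conj_mem k hk g
  -- conjugacy lemma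
  have hconj : ∀ a ∈ H, a ≠ 1 → ∀ u ∈ K, ∃ k ∈ K, k * a * k⁻¹ = u * a := by
    intro a ha ha1 u hu
    let f : K → K := fun k => ⟨(k : G) * (a * (k : G)⁻¹ * a⁻¹), K.mul_mem k.2 (hKn a _ (K.inv_mem k.2))⟩
    have hinj : Function.Injective f := by
      intro k k' hkk
      have h1 : (k : G) * (a * (k : G)⁻¹ * a⁻¹) = (k' : G) * (a * (k' : G)⁻¹ * a⁻¹) :=
        congrArg Subtype.val hkk
      have h2 : a * ((k' : G)⁻¹ * k) = ((k' : G)⁻¹ * k) * a := by
        have h3 : (k : G) * a * (k : G)⁻¹ = (k' : G) * a * (k' : G)⁻¹ := by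
          have := congrArg (· * a) h1
          simpa [mul_assoc] using this
        have h4 : (k' : G)⁻¹ * ((k : G) * a * (k : G)⁻¹) * k = (k' : G)⁻¹ * ((k' : G) * a * (k' : G)⁻¹) * k := by
          rw [h3]
        simpa [mul_assoc] using h4.symm
      have h5 := hfpf a ha ha1 _ (K.mul_mem (K.inv_mem k'.2) k.2) h2
      exact Subtype.ext (inv_mul_eq_one.1 h5).symm
    obtain ⟨k, hk⟩ := (Finite.injective_iff_surjective.1 hinj) ⟨u, hu⟩
    refine ⟨k, k.2, ?_⟩
    have h1 : (k : G) * (a * (k : G)⁻¹ * a⁻¹) = u := congrArg Subtype.val hk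
    rw [← h1]; group
  -- centraliser lemma
  have hcent : ∀ a ∈ H, a ≠ 1 → ∀ y : G, y * a = a * y → y ∈ H := by
    intro a ha ha1 y hy
    obtain ⟨u, hu, b, hb, rfl⟩ := hdec y
    have hu' : u = a * u * b * a⁻¹ * b⁻¹ := by
      rw [eq_mul_inv_iff_mul_eq, eq_mul_inv_iff_mul_eq]
      rw [hy]; group
    have e : (a * u * a⁻¹)⁻¹ * u = a * b * a⁻¹ * b⁻¹ := by
      calc (a * u * a⁻¹)⁻¹ * u = (a * u * a⁻¹)⁻¹ * (a * u * b * a⁻¹ * b⁻¹) := by rw [← hu']
        _ = a * b * a⁻¹ * b⁻¹ := by group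
    have h1 : (a * u * a⁻¹)⁻¹ * u = 1 := by
      apply hdisj
      · exact K.mul_mem (K.inv_mem (hKn a u hu)) hu
      · rw [e]
        exact H.mul_mem (H.mul_mem (H.mul_mem ha hb) (H.inv_mem ha)) (H.inv_mem hb)
    have h2 : a * u * a⁻¹ = u := inv_mul_eq_one.1 h1
    have h3 : a * u = u * a := mul_inv_eq_iff_eq_mul.1 h2
    have h4 := hfpf a ha ha1 u hu h3
    rw [h4, one_mul]; exact hb
  -- rigidity
  have hrig : ∀ w ∈ K, ∀ a ∈ H, ∀ a' ∈ H, w * a * w⁻¹ = a' → a' = a := by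
    intro w hw a ha a' ha' e
    have h1 : a' * a⁻¹ = 1 := by
      apply hdisj
      · rw [← e]
        have := K.mul_mem hw (hKn a _ (K.inv_mem hw))
        simpa [mul_assoc] using this
      · exact H.mul_mem ha' (H.inv_mem ha)
    exact mul_inv_eq_one.1 h1
  have hS : ∀ x y : G, x * y = y * x → x ∉ K → ∃ k ∈ K, ∃ a ∈ H, ∃ b ∈ H, a ≠ 1 ∧
      k * a * k⁻¹ = x ∧ k * b * k⁻¹ = y := by
    intro x y hxy hx
    obtain ⟨u, hu, a, ha, rfl⟩ := hdec x
    have ha1 : a ≠ 1 := by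
      rintro rfl
      exact hx (by simpa using hu)
    obtain ⟨k, hk, e⟩ := hconj a ha ha1 u hu
    refine ⟨k, hk, a, ha, k⁻¹ * y * k, ?_, ha1, e, by group⟩
    apply hcent a ha ha1
    have e' : a = k⁻¹ * (u * a) * k := by rw [← e]; group
    calc k⁻¹ * y * k * a = k⁻¹ * y * k * (k⁻¹ * (u * a) * k) := by rw [← e']
      _ = k⁻¹ * (y * (u * a)) * k := by group
      _ = k⁻¹ * ((u * a) * y) * k := by rw [hxy]
      _ = (k⁻¹ * (u * a) * k) * (k⁻¹ * y * k) := by group
      _ = a * (k⁻¹ * y * k) := by rw [← e']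
  -- counting
  have c1 : Nat.card {p : G × G // Commute p.1 p.2} =
      Nat.card {p : {p : G × G // Commute p.1 p.2} // p.1.1 ∈ K ∧ p.1.2 ∈ K} +
      Nat.card {p : {p : G × G // Commute p.1 p.2} // ¬ (p.1.1 ∈ K ∧ p.1.2 ∈ K)} := by
    rw [← Nat.card_sum]
    exact Nat.card_congr
      (Equiv.sumCompl (fun p : {p : G × G // Commute p.1 p.2} => p.1.1 ∈ K ∧ p.1.2 ∈ K)).symm
  have c2 : Nat.card {p : H × H // Commute p.1 p.2} =
      Nat.card {q : {p : H × H // Commute p.1 p.2} // q.1 = (1, 1)} +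
      Nat.card {q : {p : H × H // Commute p.1 p.2} // ¬ q.1 = (1, 1)} := by
    rw [← Nat.card_sum]
    exact Nat.card_congr
      (Equiv.sumCompl (fun q : {p : H × H // Commute p.1 p.2} => q.1 = (1, 1))).symm
  have c3 : Nat.card {q : {p : H × H // Commute p.1 p.2} // q.1 = (1, 1)} = 1 := by
    rw [Nat.card_eq_one_iff_unique]
    exact ⟨⟨fun x y => Subtype.ext (Subtype.ext (x.2.trans y.2.symm))⟩,
      ⟨⟨⟨(1, 1), Commute.refl 1⟩, rfl⟩⟩⟩
  have c4 : Nat.card {p : {p : G × G // Commute p.1 p.2} // p.1.1 ∈ K ∧ p.1.2 ∈ K} =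
      Nat.card {p : K × K // Commute p.1 p.2} := by
    symm
    let φ : {p : K × K // Commute p.1 p.2} →
        {p : {p : G × G // Commute p.1 p.2} // p.1.1 ∈ K ∧ p.1.2 ∈ K} := fun p =>
      ⟨⟨((p.1.1 : G), (p.1.2 : G)), congrArg Subtype.val p.2⟩, p.1.1.2, p.1.2.2⟩
    refine Nat.card_congr (Equiv.ofBijective φ ⟨?_, ?_⟩)
    · intro p q hpq
      have h1 : ((p.1.1 : G), (p.1.2 : G)) = ((q.1.1 : G), (q.1.2 : G)) :=
        congrArg (fun t => t.1.1) hpq
      apply Subtype.ext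
      apply Prod.ext
      · exact Subtype.ext (congrArg Prod.fst h1)
      · exact Subtype.ext (congrArg Prod.snd h1)
    · rintro ⟨⟨⟨x, y⟩, hxy⟩, hx, hy⟩
      exact ⟨⟨(⟨x, hx⟩, ⟨y, hy⟩), Subtype.ext hxy⟩, rfl⟩
  have c5 : Nat.card {p : {p : G × G // Commute p.1 p.2} // ¬ (p.1.1 ∈ K ∧ p.1.2 ∈ K)} =
      Nat.card K * Nat.card {q : {p : H × H // Commute p.1 p.2} // ¬ q.1 = (1, 1)} := by
    rw [← Nat.card_prod]
    symm
    have hback : ∀ (k : G), k ∈ K → ∀ a ∈ H, k * a * k⁻¹ ∈ K → a = 1 := by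
      intro k hk a ha h
      apply hdisj a _ ha
      have := hKn k⁻¹ _ h
      simpa [mul_assoc] using this
    let φ : K × {q : {p : H × H // Commute p.1 p.2} // ¬ q.1 = (1, 1)} →
        {p : {p : G × G // Commute p.1 p.2} // ¬ (p.1.1 ∈ K ∧ p.1.2 ∈ K)} := fun x =>
      ⟨⟨((x.1 : G) * (x.2.1.1.1 : G) * (x.1 : G)⁻¹, (x.1 : G) * (x.2.1.1.2 : G) * (x.1 : G)⁻¹),
        (Commute.conj_iff (x.1 : G)).2 (congrArg Subtype.val x.2.1.2)⟩, fun h => x.2.2 (by
          apply Prod.ext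
          · exact Subtype.ext (hback _ x.1.2 _ x.2.1.1.1.2 h.1)
          · exact Subtype.ext (hback _ x.1.2 _ x.2.1.1.2.2 h.2))⟩
    refine Nat.card_congr (Equiv.ofBijective φ ⟨?_, ?_⟩)
    · rintro ⟨k, ⟨⟨⟨a, b⟩, hab⟩, hne⟩⟩ ⟨k', ⟨⟨⟨a', b'⟩, hab'⟩, hne'⟩⟩ hpq
      have h0 : ((k : G) * (a : G) * (k : G)⁻¹, (k : G) * (b : G) * (k : G)⁻¹) =
          ((k' : G) * (a' : G) * (k' : G)⁻¹, (k' : G) * (b' : G) * (k' : G)⁻¹) :=
        congrArg (fun t => t.1.1) hpq
      have h1 := congrArg Prod.fst h0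
      have h2 := congrArg Prod.snd h0
      simp only at h1 h2
      have hw : (k' : G)⁻¹ * k ∈ K := K.mul_mem (K.inv_mem k'.2) k.2
      have e1 : ((k' : G)⁻¹ * k) * a * ((k' : G)⁻¹ * k)⁻¹ = a' := by
        have : ((k' : G)⁻¹ * k) * a * ((k' : G)⁻¹ * k)⁻¹ = (k' : G)⁻¹ * ((k : G) * a * (k : G)⁻¹) * k' := by
          group
        rw [this, h1]; group
      have e2 : ((k' : G)⁻¹ * k) * b * ((k' : G)⁻¹ * k)⁻¹ = b' := by
        have : ((k' : G)⁻¹ * k) * b * ((k' : G)⁻¹ * k)⁻¹ = (k' : G)⁻¹ * ((k : G) * b * (k : G)⁻¹) * k' := by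
          group
        rw [this, h2]; group
      have ea := hrig _ hw a a.2 a' a'.2 e1
      have eb := hrig _ hw b b.2 b' b'.2 e2
      have hw1 : (k' : G)⁻¹ * k = 1 := by
        by_cases ha1 : (a : G) = 1
        · have hb1 : (b : G) ≠ 1 := by
            intro hb1
            apply hne
            exact Prod.ext (Subtype.ext ha1) (Subtype.ext hb1)
          apply hfpf b b.2 hb1 _ hw
          rw [eb] at e2
          exact (mul_inv_eq_iff_eq_mul.1 e2).symm
        · apply hfpf a a.2 ha1 _ hw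
          rw [ea] at e1
          exact (mul_inv_eq_iff_eq_mul.1 e1).symm
      have hk : k = k' := Subtype.ext (inv_mul_eq_one.1 hw1).symm
      have ea' : a = a' := Subtype.ext ea.symm
      have eb' : b = b' := Subtype.ext eb.symm
      subst hk ea' eb'
      rfl
    · rintro ⟨⟨⟨x, y⟩, hxy⟩, hn⟩
      by_cases hx : x ∈ K
      · have hy : y ∉ K := fun hy => hn ⟨hx, hy⟩
        obtain ⟨k, hk, b, hb, a, ha, hb1, e1, e2⟩ := hS y x hxy.symm hy
        have hcomm : a * b = b * a := by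
          have h3 : (k * a * k⁻¹) * (k * b * k⁻¹) = (k * b * k⁻¹) * (k * a * k⁻¹) := by
            rw [e1, e2]; exact hxy
          have h4 := congrArg (fun t => k⁻¹ * t * k) h3
          simpa [mul_assoc] using h4
        refine ⟨(⟨k, hk⟩, ⟨⟨(⟨a, ha⟩, ⟨b, hb⟩), Subtype.ext hcomm⟩, ?_⟩), ?_⟩
        · intro h
          exact hb1 (congrArg (fun t => ((Prod.snd t : H) : G)) h)
        · apply Subtype.ext
          apply Subtype.ext
          exact Prod.ext e2 e1
      · obtain ⟨k, hk, a, ha, b, hb, ha1, e1, e2⟩ := hS x y hxy hx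
        have hcomm : a * b = b * a := by
          have h3 : (k * a * k⁻¹) * (k * b * k⁻¹) = (k * b * k⁻¹) * (k * a * k⁻¹) := by
            rw [e1, e2]; exact hxy
          have h4 := congrArg (fun t => k⁻¹ * t * k) h3
          simpa [mul_assoc] using h4
        refine ⟨(⟨k, hk⟩, ⟨⟨(⟨a, ha⟩, ⟨b, hb⟩), Subtype.ext hcomm⟩, ?_⟩), ?_⟩
        · intro h
          exact ha1 (congrArg (fun t => ((Prod.fst t : H) : G)) h)
        · apply Subtype.ext
          apply Subtype.ext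
          exact Prod.ext e1 e2
  have hcompl : Subgroup.IsComplement' K H := by
    apply Subgroup.isComplement'_of_disjoint_and_mul_eq_univ (disjoint_iff.2 hKH)
    rw [← Subgroup.normal_mul, hKH']; rfl
  have hcard : Nat.card K * Nat.card H = Nat.card G := hcompl.card_mul_card
  have eG := card_comm_eq_card_conjClasses_mul_card G
  have eK := card_comm_eq_card_conjClasses_mul_card K
  have eH := card_comm_eq_card_conjClasses_mul_card H
  have hKpos : 0 < Nat.card K := Nat.card_pos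
  rw [c1, c4, c5, eK, ← hcard] at eG
  rw [c2, c3] at eH
  apply Nat.eq_of_mul_eq_mul_left hKpos
  generalize Nat.card {q : {p : H × H // Commute p.1 p.2} // ¬ q.1 = (1, 1)} = c' at eG eH
  calc Nat.card K * (Nat.card H * Nat.card (ConjClasses G) + 1)
      = Nat.card (ConjClasses G) * (Nat.card K * Nat.card H) + Nat.card K := by ring
    _ = Nat.card (ConjClasses K) * Nat.card K + Nat.card K * c' + Nat.card K := by rw [← eG]
    _ = Nat.card K * (1 + c') + Nat.card (ConjClasses K) * Nat.card K := by ring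
    _ = Nat.card K * (Nat.card (ConjClasses H) * Nat.card H) + Nat.card (ConjClasses K) * Nat.card K := by
        rw [eH]
    _ = Nat.card K * (Nat.card H * Nat.card (ConjClasses H) + Nat.card (ConjClasses K)) := by ring

end Cfsg.Agent.S0172
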