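import Cfsg.Statements.S0189
import Cfsg.Agent.Lib_helper4_CharE

set_option autoImplicit false
open Cfsg

namespace Cfsg.Agent.S0189

/-- If a complex character of a finite group vanishes at every non-identity element of a Sylow p-subgroup P, then |P| divides its degree. -/
theorem result {G : Type*} [Group G] [Finite G] (p : ℕ) [Fact p.Prime] (P : Sylow p G) (χ : G → ℂ) (hχ : Cfsg.IsCharacter G χ) (hvan : ∀ g : G, g ∈ P → g ≠ 1 → χ g = 0) : ∃ k : ℕ, χ 1 = (Nat.card P : ℂ) * k := by
  classical
  have := Fintype.ofFinite G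
  have := Fintype.ofFinite (P : Subgroup G)
  have := Fintype.ofFinite (IrrCharacter (P : Subgroup G))
  obtain ⟨k, hk⟩ := Cfsg.Agent.H4.IsCharacter.classInner_nat
    (Cfsg.Agent.H4.IsCharacter.restrict (P : Subgroup G) hχ)
    (Cfsg.Agent.H4.IsCharacter.one (G := (P : Subgroup G)))
  refine ⟨k, ?_⟩
  unfold Cfsg.classInner at hk
  rw [Finset.sum_eq_single (1 : (P : Subgroup G))] at hk
  · have hne : (Nat.card (P : Subgroup G) : ℂ) ≠ 0 := Cfsg.Agent.H4.card_ne_zero_C
    simp only [map_one, mul_one, OneMemClass.coe_one] at hk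
    field_simp at hk
    rw [hk]
  · intro b _ hb
    simp only [hvan b b.2 (fun h => hb (Subtype.ext h)), zero_mul]
  · simp

end Cfsg.Agent.S0189
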