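import Cfsg.Statements.S0192
import Mathlib
import Cfsg.Agent.Lib_helper4_CharD

set_option autoImplicit false
open Cfsg

namespace Cfsg.Agent.S0192

open Cfsg.Agent.H4


/-- Brauer's generation criterion. Let G be a finite simple group, H₁ and H₂ subgroups, and χ a non-principal irreducible character. If the multiplicity of the principal character in χ restricted to H₁ ⊓ H₂ is less than the sum of the corresponding multiplicities for H₁ and H₂, then H₁ and H₂ do not generate G. -/
theorem result {G : Type*} [Group G] [Fintype G] [IsSimpleGroup G] (H₁ H₂ : Subgroup G) [Fintype H₁] [Fintype H₂] [Fintype ↥(H₁ ⊓ H₂)] (χ : G → ℂ) (hχ : Cfsg.IsIrrCharacter G χ) (hχ1 : χ ≠ fun _ => 1) (hlt : (Cfsg.classInner (fun x : ↥(H₁ ⊓ H₂) => χ x) (fun _ => 1)).re < (Cfsg.classInner (fun x : H₁ => χ x) (fun _ => 1)).re + (Cfsg.classInner (fun x : H₂ => χ x) (fun _ => 1)).re) : H₁ ⊔ H₂ ≠ ⊤ := by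
  classical
  intro htop
  have hχ' := hχ
  obtain ⟨n, ρ, hirr, rfl⟩ := hχ
  have key : ∀ (H : Subgroup G) [Fintype H],
      Cfsg.classInner (fun x : H => ρ.character x) (fun _ => 1)
        = (Module.finrank ℂ (Representation.invariants (ρ.comp H.subtype)) : ℂ) := by
    intro H _
    haveI : Invertible (Nat.card H : ℂ) :=
      invertibleOfNonzero (by exact_mod_cast Nat.card_pos.ne')
    rw [← Representation.card_inv_mul_sum_char_eq_finrank]
    unfold Cfsg.classInner
    simp [Representation.character]
  have key0 : Cfsg.classInner ρ.character (fun _ => 1)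
        = (Module.finrank ℂ (Representation.invariants ρ) : ℂ) := by
    haveI : Invertible (Nat.card G : ℂ) :=
      invertibleOfNonzero (by exact_mod_cast Nat.card_pos.ne')
    rw [← Representation.card_inv_mul_sum_char_eq_finrank]
    unfold Cfsg.classInner
    simp
  have h0 : Module.finrank ℂ (Representation.invariants ρ) = 0 := by
    have := irr_orthonormal ⟨ρ.character, hχ'⟩ (trivIrr G)
    rw [if_neg] at this
    · have h2 : Cfsg.classInner ρ.character (fun _ => 1) = 0 := this
      rw [key0] at h2
      exact_mod_cast h2
    · intro h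
      exact hχ1 (congrArg Subtype.val h)
  have hbot : Representation.invariants ρ = ⊥ := Submodule.finrank_eq_zero.mp h0
  rw [key, key, key] at hlt
  simp only [Complex.natCast_re] at hlt
  have hlt' : Module.finrank ℂ (Representation.invariants (ρ.comp (H₁ ⊓ H₂).subtype))
      < Module.finrank ℂ (Representation.invariants (ρ.comp H₁.subtype))
        + Module.finrank ℂ (Representation.invariants (ρ.comp H₂.subtype)) := by
    exact_mod_cast hlt
  have hinf : Representation.invariants (ρ.comp H₁.subtype) ⊓
      Representation.invariants (ρ.comp H₂.subtype) = ⊥ := by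
    rw [eq_bot_iff, ← hbot]
    intro v hv g
    let S : Subgroup G :=
      { carrier := {g | ρ g v = v}
        one_mem' := by simp
        mul_mem' := by
          intro a b ha hb
          simp only [Set.mem_setOf_eq] at ha hb ⊢
          rw [map_mul, Module.End.mul_apply, hb, ha]
        inv_mem' := by
          intro a ha
          simp only [Set.mem_setOf_eq] at ha ⊢
          conv_lhs => rw [← ha]
          rw [← Module.End.mul_apply, ← map_mul, inv_mul_cancel, map_one, Module.End.one_apply] }
    have hS : H₁ ⊔ H₂ ≤ S := by
      refine sup_le ?_ ?_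
      · intro x hx
        exact hv.1 ⟨x, hx⟩
      · intro x hx
        exact hv.2 ⟨x, hx⟩
    have hg : g ∈ H₁ ⊔ H₂ := by rw [htop]; trivial
    exact hS hg
  have hsup : Representation.invariants (ρ.comp H₁.subtype) ⊔
      Representation.invariants (ρ.comp H₂.subtype) ≤
      Representation.invariants (ρ.comp (H₁ ⊓ H₂).subtype) := by
    refine sup_le ?_ ?_
    · intro v hv g
      exact hv ⟨g.1, g.2.1⟩
    · intro v hv g
      exact hv ⟨g.1, g.2.2⟩
  have h1 := Submodule.finrank_sup_add_finrank_inf_eq
    (Representation.invariants (ρ.comp H₁.subtype)) (Representation.invariants (ρ.comp H₂.subtype))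
  rw [hinf, finrank_bot, add_zero] at h1
  have h2 := Submodule.finrank_mono hsup
  omega

end Cfsg.Agent.S0192
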