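import Mathlib
import Cfsg.Statements.S0196
import Mathlib
import Cfsg.Agent.Lib_helper1_FrobCount

set_option autoImplicit false
open Cfsg

namespace Cfsg.Agent.S0196

open Cfsg.Agent.H1

theorem dvd_card_of_index_stabilizer {N X : Type*} [Group N] [MulAction N X] [Finite X] {d : ℕ}
    (h : ∀ x : X, (MulAction.stabilizer N x).index = d) : d ∣ Nat.card X := by
  classical
  have := Fintype.ofFinite X
  have : Fintype (MulAction.orbitRel.Quotient N X) := Fintype.ofFinite _
  rw [Nat.card_congr (MulAction.selfEquivSigmaOrbits N X), Nat.card_sigma]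
  apply Finset.dvd_sum
  intro ω _
  rw [_root_.Nat.card_coe_set_eq, ← MulAction.index_stabilizer, h]

/-- Let A be a subgroup of a finite group G that equals the centralizer of each of its non-identity elements, and let N be its normalizer. Then the index of A in N divides |A| − 1 (N/A permutes the non-identity elements of A in orbits of full length). -/
theorem result {G : Type*} [Group G] [Finite G] (A : Subgroup G) (hA : ∀ x ∈ A, x ≠ 1 → Subgroup.centralizer ({x} : Set G) = A) : (A.subgroupOf (Subgroup.normalizer (A : Set G))).index ∣ Nat.card A - 1 := by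
  rw [← card_ne_one A]
  let act : MulAction (Subgroup.normalizer (A : Set G)) {a : A // a ≠ 1} :=
    { smul := fun n a => ⟨⟨(n : G) * (a : A) * (n : G)⁻¹,
        (Subgroup.mem_normalizer_iff.mp n.2 _).mp a.1.2⟩, by
          intro h
          apply a.2
          have h1 : (n : G) * ((a : A) : G) * (n : G)⁻¹ = 1 := congrArg Subtype.val h
          ext
          have h2 : ((a : A) : G) = (n : G)⁻¹ * ((n : G) * ((a : A) : G) * (n : G)⁻¹) * (n : G) := by
            group
          rw [h2, h1]; simp⟩
      one_smul := by
        intro a
        apply Subtype.ext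
        apply Subtype.ext
        change ((1 : Subgroup.normalizer (A : Set G)) : G) * ((a : A) : G) *
          ((1 : Subgroup.normalizer (A : Set G)) : G)⁻¹ = _
        simp
      mul_smul := by
        intro m n a
        apply Subtype.ext
        apply Subtype.ext
        change ((m * n : Subgroup.normalizer (A : Set G)) : G) * ((a : A) : G) *
          ((m * n : Subgroup.normalizer (A : Set G)) : G)⁻¹ =
          (m : G) * ((n : G) * ((a : A) : G) * (n : G)⁻¹) * (m : G)⁻¹
        simp only [Subgroup.coe_mul]
        group }
  apply dvd_card_of_index_stabilizer (N := Subgroup.normalizer (A : Set G))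
  intro a
  congr 1
  ext n
  rw [MulAction.mem_stabilizer_iff, Subgroup.mem_subgroupOf]
  have ha1 : ((a : A) : G) ≠ 1 := by
    intro h
    apply a.2
    ext; exact h
  have e1 : (n : G) ∈ A ↔ (n : G) * ((a : A) : G) = ((a : A) : G) * (n : G) := by
    rw [← Subgroup.mem_centralizer_singleton_iff, hA _ a.1.2 ha1]
  rw [e1]
  constructor
  · intro h
    have h1 : (n : G) * ((a : A) : G) * (n : G)⁻¹ = ((a : A) : G) :=
      congrArg (fun z : {a : A // a ≠ 1} => ((z : A) : G)) h
    calc (n : G) * ((a : A) : G) = ((n : G) * ((a : A) : G) * (n : G)⁻¹) * n := by group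
      _ = ((a : A) : G) * n := by rw [h1]
  · intro h
    apply Subtype.ext
    apply Subtype.ext
    change (n : G) * ((a : A) : G) * (n : G)⁻¹ = ((a : A) : G)
    rw [h]; group

end Cfsg.Agent.S0196
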