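import Cfsg.Statements.S0202
import Cfsg.Agent.Lib_helper5_Klein2

set_option autoImplicit false
open Cfsg

namespace Cfsg.Agent.S0202


/-- If a Sylow 2-subgroup of a finite group is a Klein four-group, the group has one or three conjugacy classes of involutions. -/
theorem result {G : Type*} [Group G] [Finite G] (P : Sylow 2 G) (hP : IsKleinFour (P : Subgroup G)) : Nat.card {C : ConjClasses G // ∃ t : G, orderOf t = 2 ∧ ConjClasses.mk t = C} = 1 ∨ Nat.card {C : ConjClasses G // ∃ t : G, orderOf t = 2 ∧ ConjClasses.mk t = C} = 3 := by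
  rcases H5.klein_dichotomy P hP with h | h
  · exact Or.inr (H5.klein_card_classes_eq_three P hP (H5.klein_no_fusion P hP h))
  · left
    obtain ⟨a, b, ha, hb, ha1, hb1, hab⟩ := H5.klein_exists_pair (P : Subgroup G)
    exact H5.card_classes_eq_one 2 a (H5.klein_order_two (P : Subgroup G) ha ha1) (H5.klein_all_conj P h)

end Cfsg.Agent.S0202
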