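import Cfsg.Statements.S0203
import Cfsg.Agent.Lib_helper5_Klein2

set_option autoImplicit false
open Cfsg

namespace Cfsg.Agent.S0203


/-- If a Sylow 2-subgroup P of a finite group G is a Klein four-group, then G has three classes of involutions if and only if P has a normal complement in G. -/
theorem result {G : Type*} [Group G] [Finite G] (P : Sylow 2 G) (hP : IsKleinFour (P : Subgroup G)) : Nat.card {C : ConjClasses G // ∃ t : G, orderOf t = 2 ∧ ConjClasses.mk t = C} = 3 ↔ ∃ N : Subgroup G, N.Normal ∧ Subgroup.IsComplement' N (P : Subgroup G) := by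
  constructor
  · intro h3
    rcases H5.klein_dichotomy P hP with h | h
    · exact ⟨_, MonoidHom.normal_ker _, MonoidHom.ker_transferSylow_isComplement' P h⟩
    · exfalso
      obtain ⟨a, b, ha, hb, ha1, hb1, hab⟩ := H5.klein_exists_pair (P : Subgroup G)
      have h1 := H5.card_classes_eq_one 2 a (H5.klein_order_two (P : Subgroup G) ha ha1)
        (H5.klein_all_conj P h)
      omega
  · rintro ⟨N, hN, hcompl⟩
    apply H5.klein_card_classes_eq_three P hP
    intro s hs t ht hst
    obtain ⟨g, rfl⟩ := isConj_iff.1 hst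
    -- g = k * p
    have hg : g ∈ (N ⊔ (P : Subgroup G) : Subgroup G) := by
      rw [hcompl.sup_eq_top]; exact Subgroup.mem_top g
    rw [← SetLike.mem_coe, Subgroup.normal_mul] at hg
    obtain ⟨k, hk, q, hq, rfl⟩ := hg
    have hqs : q * s * q⁻¹ = s := by
      rw [H5.klein_comm (P : Subgroup G) hq hs, mul_inv_cancel_right]
    have e1 : k * q * s * (k * q)⁻¹ = k * s * k⁻¹ := by
      calc k * q * s * (k * q)⁻¹ = k * (q * s * q⁻¹) * k⁻¹ := by group
        _ = _ := by rw [hqs]
    simp only at ht ⊢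
    rw [e1] at ht ⊢
    have h1 : k * s * k⁻¹ * s⁻¹ ∈ N ⊓ (P : Subgroup G) := by
      refine Subgroup.mem_inf.2 ⟨?_, (P : Subgroup G).mul_mem ht ((P : Subgroup G).inv_mem hs)⟩
      have : k * s * k⁻¹ * s⁻¹ = k * (s * k⁻¹ * s⁻¹) := by group
      rw [this]
      exact N.mul_mem hk (hN.conj_mem _ (N.inv_mem hk) s)
    rw [hcompl.disjoint.eq_bot, Subgroup.mem_bot] at h1
    exact (mul_inv_eq_one.1 h1).symm

end Cfsg.Agent.S0203
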