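import Cfsg.Statements.S0208
import Cfsg.Agent.Lib_helper5_Invol

set_option autoImplicit false
open Cfsg

namespace Cfsg.Agent.S0208


/-- If x, y are involutions and xy has odd order, then some element of the subgroup generated by x and y conjugates x to y. -/
theorem result {G : Type*} [Group G] [Finite G] (x y : G) (hx : orderOf x = 2) (hy : orderOf y = 2) (hodd : Odd (orderOf (x * y))) : ∃ d ∈ Subgroup.closure ({x, y} : Set G), d * x * d⁻¹ = y := by
  have hx2 := H5.mul_self_of_order_two hx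
  have hy2 := H5.mul_self_of_order_two hy
  obtain ⟨m, hm⟩ := hodd
  refine ⟨(x * y) ^ (m : ℤ), H5.zpow_mem_closure_pair x y m, ?_⟩
  rw [H5.rot_conj_invol hx2 hy2]
  have h1 : (x * y) ^ (2 * (m : ℤ) + 1) = 1 := by
    have : (2 * (m : ℤ) + 1) = ((2 * m + 1 : ℕ) : ℤ) := by push_cast; ring
    rw [this, zpow_natCast, ← hm, pow_orderOf_eq_one]
  rw [zpow_add, zpow_one] at h1
  have h2 : (x * y) ^ (2 * (m : ℤ)) = (x * y)⁻¹ := eq_inv_of_mul_eq_one_left h1
  rw [h2, mul_inv_rev, H5.inv_of_order_two hx, H5.inv_of_order_two hy, mul_assoc, hx2, mul_one]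

end Cfsg.Agent.S0208
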