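import Cfsg.Statements.S0209
import Cfsg.Agent.Lib_helper5_Invol

set_option autoImplicit false
open Cfsg

namespace Cfsg.Agent.S0209


/-- If x, y are involutions whose product has even order n, the element (xy)^(n/2) is an involution that commutes with x and with y. -/
theorem result {G : Type*} [Group G] [Finite G] (x y : G) (hx : orderOf x = 2) (hy : orderOf y = 2) (heven : Even (orderOf (x * y))) : orderOf ((x * y) ^ (orderOf (x * y) / 2)) = 2 ∧ Commute ((x * y) ^ (orderOf (x * y) / 2)) x ∧ Commute ((x * y) ^ (orderOf (x * y) / 2)) y := by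
  have hx2 := H5.mul_self_of_order_two hx
  have hy2 := H5.mul_self_of_order_two hy
  have hpos : 0 < orderOf (x * y) := orderOf_pos _
  obtain ⟨m, hm⟩ := heven
  have hm' : orderOf (x * y) / 2 = m := by omega
  rw [hm']
  have hmpos : 0 < m := by omega
  have hz : orderOf ((x * y) ^ m) = 2 := by
    rw [orderOf_pow' _ (by omega), hm]
    have : Nat.gcd (m + m) m = m := by
      rw [← two_mul]; exact Nat.gcd_eq_right (Dvd.intro_left 2 rfl)
    rw [this, ← two_mul]
    exact Nat.mul_div_cancel _ hmpos
  have hzi := H5.inv_of_order_two hz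
  have hcx : Commute ((x * y) ^ m) x := by
    have h := H5.invol_mul_zpow hx2 hy2 m
    rw [zpow_neg, zpow_natCast, hzi] at h
    exact h.symm
  refine ⟨hz, hcx, ?_⟩
  have hcxy : Commute ((x * y) ^ m) (x * y) := (Commute.refl _).pow_left m
  have := hcx.mul_right hcxy
  rwa [← mul_assoc, hx2, one_mul] at this

end Cfsg.Agent.S0209
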