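import Cfsg.Statements.S0211
import Cfsg.Agent.Lib_helper5_Invol

set_option autoImplicit false
open Cfsg

namespace Cfsg.Agent.S0211


/-- Let x, y be involutions with xy of even order n and z = (xy)^(n/2). Then xz is conjugate to x by an element of the subgroup generated by x, y if and only if 4 divides n. -/
theorem result {G : Type*} [Group G] [Finite G] (x y : G) (hx : orderOf x = 2) (hy : orderOf y = 2) (heven : Even (orderOf (x * y))) : (∃ d ∈ Subgroup.closure ({x, y} : Set G), d * x * d⁻¹ = x * (x * y) ^ (orderOf (x * y) / 2)) ↔ 4 ∣ orderOf (x * y) := by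
  have hx2 := H5.mul_self_of_order_two hx
  have hy2 := H5.mul_self_of_order_two hy
  have hpos : 0 < orderOf (x * y) := orderOf_pos _
  obtain ⟨m, hm⟩ := heven
  have hm' : orderOf (x * y) / 2 = m := by omega
  rw [hm']
  have key : x * (x * y) ^ m = (x * y) ^ (-(m : ℤ)) * x := by
    have h := H5.invol_mul_zpow hx2 hy2 m
    rwa [zpow_natCast] at h
  constructor
  · rintro ⟨d, hd, h⟩
    obtain ⟨k, hk⟩ := H5.conj_invol_of_mem_closure hx2 hy2 hd
    rw [h, key] at hk
    have h1 : (x * y) ^ (-(m : ℤ)) = (x * y) ^ (2 * k) := mul_right_cancel hk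
    have h2 : (x * y) ^ (2 * k + m) = 1 := by
      rw [zpow_add, ← h1, ← zpow_add]; simp
    have h3 : (orderOf (x * y) : ℤ) ∣ 2 * k + m := orderOf_dvd_iff_zpow_eq_one.2 h2
    rw [hm] at h3 ⊢
    obtain ⟨c, hc⟩ := h3
    push_cast at hc
    have h5 : (2 : ℤ) ∣ m := ⟨m * c - k, by linarith⟩
    omega
  · intro h4
    rw [hm] at h4
    obtain ⟨c, hc⟩ := h4
    refine ⟨(x * y) ^ (c : ℤ), H5.zpow_mem_closure_pair x y c, ?_⟩
    rw [H5.rot_conj_invol hx2 hy2, key]
    congr 1
    have h5 : (x * y) ^ (2 * (c : ℤ) + m) = 1 := by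
      have : (2 * (c : ℤ) + m) = ((m + m : ℕ) : ℤ) := by push_cast; omega
      rw [this, zpow_natCast, ← hm, pow_orderOf_eq_one]
    rw [zpow_add] at h5
    rw [zpow_neg]
    exact eq_inv_of_mul_eq_one_left h5

end Cfsg.Agent.S0211
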