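import Cfsg.Statements.S0233
import Cfsg.Agent.Lib_helper5_BF

set_option autoImplicit false
open Cfsg

namespace Cfsg.Agent.S0233

open Cfsg.Agent.H5
open scoped Classical

theorem sum_ite_invol {G : Type*} [Group G] [Fintype G] (a : ℕ) :
    ∑ x : G, (if orderOf x = 2 then a else 0) = Nat.card {t : G // orderOf t = 2} * a := by
  classical
  rw [Finset.sum_ite, Finset.sum_const_zero, add_zero, Finset.sum_const, smul_eq_mul,
    Nat.card_eq_fintype_card, Fintype.card_subtype]

theorem sum_ite_one {G : Type*} [Group G] [Fintype G] (a : ℕ) :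
    ∑ x : G, (if x = 1 then a else 0) = a := by
  classical
  simp

theorem bound_of_proper {G : Type*} [Group G] [Finite G] (B N : ℕ)
    (hall : ∀ H : Subgroup G, H ≠ ⊤ → B ≤ 2 * H.index * N) (H : Subgroup G) (hH : H ≠ ⊤) :
    B * Nat.card H ≤ 2 * Nat.card G * N := by
  have h1 := hall H hH
  have h2 := H.card_mul_index
  calc B * Nat.card H ≤ (2 * H.index * N) * Nat.card H := Nat.mul_le_mul_right _ h1
    _ = 2 * (Nat.card H * H.index) * N := by ring
    _ = 2 * Nat.card G * N := by rw [h2]

theorem per_elt {G : Type*} [Group G] [Finite G]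
    (hZ : Odd (Nat.card (Subgroup.center G))) (B : ℕ)
    (h2 : ∀ H : Subgroup G, H ≠ ⊤ → H.index ≠ 2)
    (hall : ∀ H : Subgroup G, H ≠ ⊤ →
      B ≤ 2 * H.index * (Nat.card {t : G // orderOf t = 2}) ^ 2) (x : G) :
    B * cPairs x + (if orderOf x = 2 then 2 * B else 0)
        + (if x = 1 then Nat.card G * (Nat.card {t : G // orderOf t = 2}) ^ 2 else 0)
      ≤ Nat.card G * (Nat.card {t : G // orderOf t = 2}) ^ 2
        + (if orderOf x = 2 then Nat.card G * (Nat.card {t : G // orderOf t = 2}) ^ 2 else 0)
        + (if x = 1 then Nat.card {t : G // orderOf t = 2} * B else 0) := by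
  classical
  obtain ⟨hc1, hc2, hc3⟩ := S0238.result x
  change cPairs x ≤ _ at hc1
  change _ → cPairs x = 0 at hc2
  change _ → cPairs x + 2 ≤ _ at hc3
  set N := (Nat.card {t : G // orderOf t = 2}) ^ 2 with hN
  have hb := bound_of_proper B N hall
  by_cases hx1 : x = 1
  · subst hx1
    have : orderOf (1 : G) ≠ 2 := by simp
    rw [if_neg this, if_neg this, if_pos rfl, if_pos rfl, cPairs_one]
    nlinarith
  rw [if_neg hx1, if_neg hx1]
  by_cases hx2 : orderOf x = 2
  · rw [if_pos hx2, if_pos hx2]
    have hprop : Subgroup.centralizer ({x} : Set G) ≠ ⊤ := by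
      intro htop
      have hxZ : x ∈ Subgroup.center G := by
        rw [Subgroup.mem_center_iff]
        intro g
        have : g ∈ Subgroup.centralizer ({x} : Set G) := htop ▸ Subgroup.mem_top g
        rw [Subgroup.mem_centralizer_singleton_iff] at this
        exact this
      have := even_card_of_invol_mem _ _ hx2 hxZ
      exact (Nat.not_even_iff_odd.mpr hZ) this
    have h3 := hb _ hprop
    have h4 := hc3 hx2
    calc B * cPairs x + 2 * B + 0 = B * (cPairs x + 2) := by ring
      _ ≤ B * Nat.card (Subgroup.centralizer ({x} : Set G)) := Nat.mul_le_mul_left _ h4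
      _ ≤ 2 * Nat.card G * N := h3
      _ = Nat.card G * N + Nat.card G * N + 0 := by ring
  rw [if_neg hx2, if_neg hx2]
  by_cases hreal : IsConj x x⁻¹
  · have hne : x ≠ x⁻¹ := by
      intro h
      apply hx2
      apply order_two_of hx1
      calc x * x = x * x⁻¹ := by rw [← h]
        _ = 1 := mul_inv_cancel x
    have hcard := card_extC x hreal hne
    have hprop : extC x ≠ ⊤ := by
      intro htop
      have hi : (Subgroup.centralizer ({x} : Set G)).index = 2 := by
        have h5 := (Subgroup.centralizer ({x} : Set G)).card_mul_index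
        rw [htop, Subgroup.card_top] at hcard
        rw [hcard] at h5
        have hpos : 0 < Nat.card (Subgroup.centralizer ({x} : Set G)) := Nat.card_pos
        have : Nat.card (Subgroup.centralizer ({x} : Set G)) *
            (Subgroup.centralizer ({x} : Set G)).index
            = Nat.card (Subgroup.centralizer ({x} : Set G)) * 2 := by rw [h5]; ring
        exact Nat.eq_of_mul_eq_mul_left hpos this
      have hne' : Subgroup.centralizer ({x} : Set G) ≠ ⊤ := by
        intro h6
        rw [h6, Subgroup.index_top] at hi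
        omega
      exact h2 _ hne' hi
    have h3 := hb _ hprop
    rw [hcard] at h3
    have h4 : B * cPairs x ≤ B * Nat.card (Subgroup.centralizer ({x} : Set G)) :=
      Nat.mul_le_mul_left _ hc1
    nlinarith
  · rw [hc2 hreal]
    simp

/-- Let G be a finite group of even order with exactly n involutions whose centre has odd order, and put a = |G|/n. Then G has a proper subgroup H with |G : H| = 2 or |G : H| < a(a+1)/2; over ℕ the latter reads 2·|G:H|·n² < |G|·(|G| + n). -/
theorem result {G : Type*} [Group G] [Finite G] (heven : Even (Nat.card G)) (hZ : Odd (Nat.card (Subgroup.center G))) : ∃ H : Subgroup G, H ≠ ⊤ ∧ (H.index = 2 ∨ 2 * H.index * (Nat.card {t : G // orderOf t = 2}) ^ 2 < Nat.card G * (Nat.card G + Nat.card {t : G // orderOf t = 2})) := by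
  classical
  by_contra hcon
  push Not at hcon
  haveI : Fintype G := Fintype.ofFinite G
  set n := Nat.card {t : G // orderOf t = 2} with hn
  set g := Nat.card G with hg
  have h2 : ∀ H : Subgroup G, H ≠ ⊤ → H.index ≠ 2 := fun H hH => (hcon H hH).1
  have hall : ∀ H : Subgroup G, H ≠ ⊤ → g * (g + n) ≤ 2 * H.index * n ^ 2 :=
    fun H hH => (hcon H hH).2
  have hper := per_elt hZ (g * (g + n)) h2 hall
  have hsum := Finset.sum_le_sum (fun x (_ : x ∈ (Finset.univ : Finset G)) => hper x)
  simp only [Finset.sum_add_distrib, sum_ite_invol, sum_ite_one, ← Finset.mul_sum, sum_cPairs,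
    Finset.sum_const, Finset.card_univ, smul_eq_mul, ← Nat.card_eq_fintype_card] at hsum
  rw [← hn, ← hg] at hsum
  have hgpos : 0 < g := Nat.card_pos
  have hnpos : 0 < n := by
    obtain ⟨t, ht⟩ := exists_invol_of_even' heven
    haveI : Nonempty {t : G // orderOf t = 2} := ⟨⟨t, ht⟩⟩
    exact Nat.card_pos
  have : 0 < g * n ^ 2 := by positivity
  nlinarith

end Cfsg.Agent.S0233
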