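import Cfsg.Statements.S0212
import Cfsg.Agent.Lib_helper5_BF2
import Cfsg.Agent.S0233

set_option autoImplicit false
open Cfsg

namespace Cfsg.Agent.S0212

open Cfsg.Agent.H5

/-- The Brauer–Fowler bound: if G is a finite simple group and t an involution of G whose centralizer has order n, then |G| ≤ (2n^2)!. -/
theorem result {G : Type*} [Group G] [Finite G] [IsSimpleGroup G] (t : G) (ht : orderOf t = 2) : Nat.card G ≤ Nat.factorial (2 * (Nat.card (Subgroup.centralizer ({t} : Set G))) ^ 2) := by
  classical
  set m := Nat.card (Subgroup.centralizer ({t} : Set G)) with hm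
  have hmpos : 0 < m := Nat.card_pos
  rcases (inferInstance : (Subgroup.center G).Normal).eq_bot_or_eq_top with hZ | hZ
  · have hZodd : Odd (Nat.card (Subgroup.center G)) := by rw [hZ]; simp
    have heven : Even (Nat.card G) := by
      have := even_card_of_invol_mem (⊤ : Subgroup G) t ht (Subgroup.mem_top t)
      rwa [Subgroup.card_top] at this
    obtain ⟨H, hH, hidx⟩ := S0233.result heven hZodd
    have h1 := simple_card_le_factorial_index H hH
    refine h1.trans (Nat.factorial_le ?_)
    rcases hidx with h2 | h2
    · rw [h2]; nlinarith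
    · have h3 := card_le_invol_mul_centralizer t ht
      rw [← hm] at h3
      set n := Nat.card {t : G // orderOf t = 2} with hn
      set g := Nat.card G with hg
      have hnpos : 0 < n := by
        haveI : Nonempty {t : G // orderOf t = 2} := ⟨⟨t, ht⟩⟩
        exact Nat.card_pos
      have h4 : g * (g + n) ≤ (n * m) * (n * m + n) := Nat.mul_le_mul h3 (by omega)
      have h5 : 2 * H.index * n ^ 2 < (m * (m + 1)) * n ^ 2 := by
        calc 2 * H.index * n ^ 2 < g * (g + n) := h2
          _ ≤ (n * m) * (n * m + n) := h4
          _ = (m * (m + 1)) * n ^ 2 := by ring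
      have h6 : 2 * H.index < m * (m + 1) := lt_of_mul_lt_mul_right h5 (Nat.zero_le _)
      nlinarith
  · have hC : Subgroup.centralizer ({t} : Set G) = ⊤ := by
      rw [eq_top_iff]
      intro g _
      rw [Subgroup.mem_centralizer_singleton_iff]
      have : t ∈ Subgroup.center G := hZ ▸ Subgroup.mem_top t
      rw [Subgroup.mem_center_iff] at this
      exact this g
    have hmg : m = Nat.card G := by rw [hm, hC, Subgroup.card_top]
    rw [← hmg]
    calc m ≤ 2 * m ^ 2 := by nlinarith
      _ ≤ Nat.factorial (2 * m ^ 2) := Nat.self_le_factorial _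

end Cfsg.Agent.S0212
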