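import Cfsg.Statements.S0213
import Cfsg.Agent.Lib_helper5_Count
import Cfsg.Agent.Lib_helper5_Basic
import Cfsg.Agent.S0208
import Cfsg.Agent.S0209

set_option autoImplicit false
open Cfsg

namespace Cfsg.Agent.S0213

open Cfsg.Agent.H5
open scoped Classical

theorem invol_unique_zpowers {G : Type*} [Group G] [Finite G] {a z w : G} (hz : orderOf z = 2)
    (hw : orderOf w = 2)
    (hza : z ∈ Subgroup.zpowers a) (hwa : w ∈ Subgroup.zpowers a) : z = w := by
  classical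
  haveI : Fintype (Subgroup.zpowers a) := Fintype.ofFinite _
  by_contra hne
  have h := IsCyclic.card_pow_eq_one_le (α := Subgroup.zpowers a) (n := 2) (by norm_num)
  have hsub : ({1, ⟨z, hza⟩, ⟨w, hwa⟩} : Finset (Subgroup.zpowers a)) ⊆
      Finset.univ.filter (fun x => x ^ 2 = 1) := by
    intro x hx
    rw [Finset.mem_filter]
    refine ⟨Finset.mem_univ _, ?_⟩
    simp only [Finset.mem_insert, Finset.mem_singleton] at hx
    rcases hx with rfl | rfl | rfl
    · simp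
    · apply Subtype.ext
      simp only [Subgroup.coe_pow, Subgroup.coe_one]
      rw [sq, mul_self_of_order_two hz]
    · apply Subtype.ext
      simp only [Subgroup.coe_pow, Subgroup.coe_one]
      rw [sq, mul_self_of_order_two hw]
  have hcard : ({1, ⟨z, hza⟩, ⟨w, hwa⟩} : Finset (Subgroup.zpowers a)).card = 3 := by
    apply Finset.card_eq_three.2
    refine ⟨1, ⟨z, hza⟩, ⟨w, hwa⟩, ?_, ?_, ?_, rfl⟩
    · intro h1
      exact ne_one_of_order_two hz (congrArg Subtype.val h1).symm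
    · intro h1
      exact ne_one_of_order_two hw (congrArg Subtype.val h1).symm
    · intro h1
      exact hne (congrArg Subtype.val h1)
  have := Finset.card_le_card hsub
  omega

theorem M_conj {G : Type*} [Group G] (x₁ x₂ z c : G) :
    Nat.card {p : G × G // IsConj x₁ p.1 ∧ IsConj x₂ p.2 ∧
      z ∈ Subgroup.zpowers (p.1 * p.2)} =
    Nat.card {p : G × G // IsConj x₁ p.1 ∧ IsConj x₂ p.2 ∧
      c * z * c⁻¹ ∈ Subgroup.zpowers (p.1 * p.2)} := by
  apply Nat.card_congr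
  refine Equiv.subtypeEquiv ((MulAut.conj c).toEquiv.prodCongr (MulAut.conj c).toEquiv) ?_
  rintro ⟨u, v⟩
  change _ ↔ IsConj x₁ (c * u * c⁻¹) ∧ IsConj x₂ (c * v * c⁻¹) ∧
    c * z * c⁻¹ ∈ Subgroup.zpowers (c * u * c⁻¹ * (c * v * c⁻¹))
  have hc : ∀ x y : G, IsConj x y ↔ IsConj x (c * y * c⁻¹) := by
    intro x y
    have h1 : IsConj y (c * y * c⁻¹) := isConj_iff.2 ⟨c, rfl⟩
    exact ⟨fun h => h.trans h1, fun h => h.trans h1.symm⟩
  rw [← hc, ← hc]
  have hz : z ∈ Subgroup.zpowers (u * v) ↔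
      c * z * c⁻¹ ∈ Subgroup.zpowers (c * u * c⁻¹ * (c * v * c⁻¹)) := by
    have e : c * u * c⁻¹ * (c * v * c⁻¹) = c * (u * v) * c⁻¹ := by group
    rw [e, Subgroup.mem_zpowers_iff, Subgroup.mem_zpowers_iff]
    constructor
    · rintro ⟨k, rfl⟩
      exact ⟨k, by rw [conj_zpow]⟩
    · rintro ⟨k, hk⟩
      refine ⟨k, ?_⟩
      rw [conj_zpow] at hk
      exact mul_left_cancel (mul_right_cancel hk)
  rw [hz]

theorem sum_ite_conj {G : Type*} [Group G] [Fintype G] (x : G) (a : ℕ) :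
    ∑ z : G, (if IsConj x z then a else 0) = Nat.card {g : G // IsConj x g} * a := by
  classical
  rw [Finset.sum_ite, Finset.sum_const_zero, add_zero, Finset.sum_const, smul_eq_mul,
    Nat.card_eq_fintype_card, Fintype.card_subtype]

theorem order_two_of_isConj {G : Type*} [Group G] {x y : G} (hx : orderOf x = 2)
    (h : IsConj x y) : orderOf y = 2 := by
  obtain ⟨c, rfl⟩ := isConj_iff.1 h
  exact order_two_conj hx c

theorem count {G : Type*} [Group G] [Finite G] (x₁ x₂ : G) (h₁ : orderOf x₁ = 2)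
    (h₂ : orderOf x₂ = 2) (hnc : ¬ IsConj x₁ x₂)
    (hall : ∀ t : G, orderOf t = 2 → IsConj x₁ t ∨ IsConj x₂ t) :
    Nat.card {g : G // IsConj x₁ g} * Nat.card {g : G // IsConj x₂ g} =
      Nat.card {g : G // IsConj x₁ g} * Nat.card {p : G × G // IsConj x₁ p.1 ∧ IsConj x₂ p.2 ∧
        x₁ ∈ Subgroup.zpowers (p.1 * p.2)} +
      Nat.card {g : G // IsConj x₂ g} * Nat.card {p : G × G // IsConj x₁ p.1 ∧ IsConj x₂ p.2 ∧
        x₂ ∈ Subgroup.zpowers (p.1 * p.2)} := by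
  classical
  haveI : Fintype G := Fintype.ofFinite G
  let ζ : {g : G // IsConj x₁ g} × {g : G // IsConj x₂ g} → G :=
    fun q => (q.1.1 * q.2.1) ^ (orderOf (q.1.1 * q.2.1) / 2)
  have hζ : ∀ q, orderOf (ζ q) = 2 := by
    rintro ⟨⟨u, hu⟩, ⟨v, hv⟩⟩
    have hu2 := order_two_of_isConj h₁ hu
    have hv2 := order_two_of_isConj h₂ hv
    have heven : Even (orderOf (u * v)) := by
      rw [← Nat.not_odd_iff_even]
      intro hodd
      obtain ⟨d, _, hd⟩ := S0208.result u v hu2 hv2 hodd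
      exact hnc ((hu.trans (isConj_iff.2 ⟨d, hd⟩)).trans hv.symm)
    exact (S0209.result u v hu2 hv2 heven).1
  have hfib : ∀ z : G, orderOf z = 2 →
      Nat.card {q // ζ q = z} = Nat.card {p : G × G // IsConj x₁ p.1 ∧ IsConj x₂ p.2 ∧
        z ∈ Subgroup.zpowers (p.1 * p.2)} := by
    intro z hz
    refine Nat.card_congr ⟨fun q => ⟨(q.1.1.1, q.1.2.1), q.1.1.2, q.1.2.2, ?_⟩,
      fun p => ⟨(⟨p.1.1, p.2.1⟩, ⟨p.1.2, p.2.2.1⟩), ?_⟩, ?_, ?_⟩
    · have h := q.2
      have h' : ζ q.1 ∈ Subgroup.zpowers (q.1.1.1 * q.1.2.1) :=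
        Subgroup.pow_mem _ (Subgroup.mem_zpowers _) _
      rw [h] at h'
      exact h'
    · exact invol_unique_zpowers (hζ _) hz (Subgroup.pow_mem _ (Subgroup.mem_zpowers _) _) p.2.2.2
    · rintro ⟨⟨⟨u, hu⟩, ⟨v, hv⟩⟩, huv⟩; rfl
    · rintro ⟨⟨u, v⟩, hu, hv, huv⟩; rfl
  rw [← Nat.card_prod, Nat.card_congr (Equiv.sigmaFiberEquiv ζ).symm, Nat.card_sigma,
    ← sum_ite_conj, ← sum_ite_conj, ← Finset.sum_add_distrib]
  apply Finset.sum_congr rfl
  intro z _
  by_cases hz1 : IsConj x₁ z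
  · have hz2 : ¬ IsConj x₂ z := fun h => hnc (hz1.trans h.symm)
    rw [if_pos hz1, if_neg hz2, add_zero, hfib z (order_two_of_isConj h₁ hz1)]
    obtain ⟨c, rfl⟩ := isConj_iff.1 hz1
    exact (M_conj x₁ x₂ x₁ c).symm
  · rw [if_neg hz1, zero_add]
    by_cases hz2 : IsConj x₂ z
    · rw [if_pos hz2, hfib z (order_two_of_isConj h₂ hz2)]
      obtain ⟨c, rfl⟩ := isConj_iff.1 hz2
      exact (M_conj x₁ x₂ x₂ c).symm
    · rw [if_neg hz2]
      have : IsEmpty {q // ζ q = z} := by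
        constructor
        rintro ⟨q, hq⟩
        have := hζ q
        rw [hq] at this
        rcases hall z this with h | h
        · exact hz1 h
        · exact hz2 h
      exact Nat.card_of_isEmpty

/-- Thompson Order Formula, two-class case: if every involution of the finite group G is conjugate to exactly one of the non-conjugate involutions x₁, x₂, and nᵢ is the number of pairs (u, v) with u conjugate to x₁, v conjugate to x₂ and xᵢ in the cyclic group generated by uv, then |G| = |C(x₂)| n₁ + |C(x₁)| n₂. -/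
theorem result {G : Type*} [Group G] [Finite G] (x₁ x₂ : G) (h₁ : orderOf x₁ = 2) (h₂ : orderOf x₂ = 2) (hnc : ¬ IsConj x₁ x₂) (hall : ∀ t : G, orderOf t = 2 → IsConj x₁ t ∨ IsConj x₂ t) : Nat.card G = Nat.card (Subgroup.centralizer ({x₂} : Set G)) * Nat.card {p : G × G // IsConj x₁ p.1 ∧ IsConj x₂ p.2 ∧ x₁ ∈ Subgroup.zpowers (p.1 * p.2)} + Nat.card (Subgroup.centralizer ({x₁} : Set G)) * Nat.card {p : G × G // IsConj x₁ p.1 ∧ IsConj x₂ p.2 ∧ x₂ ∈ Subgroup.zpowers (p.1 * p.2)} := by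
  have hc := count x₁ x₂ h₁ h₂ hnc hall
  have e1 := card_conj_mul_card_centralizer x₁
  have e2 := card_conj_mul_card_centralizer x₂
  set k₁ := Nat.card {g : G // IsConj x₁ g}
  set k₂ := Nat.card {g : G // IsConj x₂ g}
  set c₁ := Nat.card (Subgroup.centralizer ({x₁} : Set G))
  set c₂ := Nat.card (Subgroup.centralizer ({x₂} : Set G))
  set n₁ := Nat.card {p : G × G // IsConj x₁ p.1 ∧ IsConj x₂ p.2 ∧ x₁ ∈ Subgroup.zpowers (p.1 * p.2)}
  set n₂ := Nat.card {p : G × G // IsConj x₁ p.1 ∧ IsConj x₂ p.2 ∧ x₂ ∈ Subgroup.zpowers (p.1 * p.2)}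
  set g := Nat.card G
  have hg : 0 < g := Nat.card_pos
  apply Nat.eq_of_mul_eq_mul_left hg
  calc g * g = (k₁ * c₁) * (k₂ * c₂) := by rw [e1, e2]
    _ = (k₁ * k₂) * (c₁ * c₂) := by ring
    _ = (k₁ * n₁ + k₂ * n₂) * (c₁ * c₂) := by rw [hc]
    _ = (k₁ * c₁) * (c₂ * n₁) + (k₂ * c₂) * (c₁ * n₂) := by ring
    _ = g * (c₂ * n₁ + c₁ * n₂) := by rw [e1, e2]; ring

end Cfsg.Agent.S0213
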