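import Cfsg.Statements.S0216
import Cfsg.Agent.Lib_helper5_Isolated2

set_option autoImplicit false
open Cfsg

namespace Cfsg.Agent.S0216


/-- For an involution u in a Sylow 2-subgroup P of a finite group G, the following are equivalent: no G-conjugate of u other than u lies in P; every commutator of u with an element of G has odd order. -/
theorem result {G : Type*} [Group G] [Finite G] (P : Sylow 2 G) (u : G) (hu : orderOf u = 2) (huP : u ∈ P) : (∀ g : G, g * u * g⁻¹ ∈ P → g * u * g⁻¹ = u) ↔ (∀ g : G, Odd (orderOf (u * g * u⁻¹ * g⁻¹))) := by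
  have hui := H5.inv_of_order_two hu
  constructor
  · intro h g
    have h1 := H5.isolated_odd (H5.isolated_of_sylow P u hu h) g
    have h2 : u * g * u⁻¹ * g⁻¹ = u * (g * u * g⁻¹) := by rw [hui]; group
    rw [h2]; exact h1
  · intro h g hg
    have h1 := h g
    have h2 : u * g * u⁻¹ * g⁻¹ = u * (g * u * g⁻¹) := by rw [hui]; group
    rw [h2] at h1
    have h3 : u * (g * u * g⁻¹) = 1 :=
      H5.eq_one_of_mem_two_group_of_odd P.2 ((P : Subgroup G).mul_mem huP hg) h1
    have h4 : g * u * g⁻¹ = u⁻¹ := eq_inv_of_mul_eq_one_right h3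
    rw [h4, hui]

end Cfsg.Agent.S0216
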