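import Cfsg.Statements.S0218
import Cfsg.Agent.Lib_helper5_Count

set_option autoImplicit false
open Cfsg

namespace Cfsg.Agent.S0218


/-- The generalized quaternion group of order 2^(n+3) contains exactly one element of order 2. -/
theorem result (n : ℕ) : Nat.card {x : QuaternionGroup (2 ^ (n + 1)) // orderOf x = 2} = 1 := by
  have hne : NeZero (2 ^ (n + 1)) := ⟨by positivity⟩
  have hne2 : NeZero (2 * 2 ^ (n + 1)) := ⟨by positivity⟩
  rw [Nat.card_eq_one_iff_unique]
  have key : ∀ x : QuaternionGroup (2 ^ (n + 1)), orderOf x = 2 →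
      x = QuaternionGroup.a ((2 ^ (n + 1) : ℕ) : ZMod (2 * 2 ^ (n + 1))) := by
    intro x hx
    rcases x with i | i
    · have h1 := H5.mul_self_of_order_two hx
      have h0 := H5.ne_one_of_order_two hx
      rw [QuaternionGroup.a_mul_a, QuaternionGroup.one_def] at h1
      have h2 : i + i = 0 := by
        injection h1
      have h3 : i ≠ 0 := by
        intro h
        apply h0
        rw [h, QuaternionGroup.one_def]
      congr 1
      -- i + i = 0 in ZMod (2 N), i ≠ 0 → i = N
      have h4 : ((i.val + i.val : ℕ) : ZMod (2 * 2 ^ (n + 1))) = 0 := by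
        push_cast
        rw [ZMod.natCast_zmod_val, h2]
      rw [ZMod.natCast_eq_zero_iff] at h4
      have h5 : i.val < 2 * 2 ^ (n + 1) := ZMod.val_lt i
      have h6 : i.val ≠ 0 := by
        intro h
        exact h3 ((ZMod.val_eq_zero i).1 h)
      obtain ⟨c, hc⟩ := h4
      have h7 : i.val = 2 ^ (n + 1) := by
        have hc2 : c < 2 := by
          by_contra hcc
          have h8 := Nat.mul_le_mul_left (2 * 2 ^ (n + 1)) (not_lt.1 hcc)
          omega
        have hc0 : c ≠ 0 := by
          rintro rfl
          omega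
        have hc1 : c = 1 := by omega
        rw [hc1] at hc
        omega
      calc i = ((i.val : ℕ) : ZMod (2 * 2 ^ (n + 1))) := (ZMod.natCast_zmod_val i).symm
        _ = _ := by rw [h7]
    · rw [QuaternionGroup.orderOf_xa] at hx
      omega
  constructor
  · constructor
    rintro ⟨x, hx⟩ ⟨y, hy⟩
    ext
    show x = y
    rw [key x hx, key y hy]
  · refine ⟨⟨QuaternionGroup.a ((2 ^ (n + 1) : ℕ) : ZMod (2 * 2 ^ (n + 1))), ?_⟩⟩
    apply H5.order_two_of
    · rw [QuaternionGroup.one_def]
      intro h
      injection h with h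
      rw [ZMod.natCast_eq_zero_iff] at h
      have h1 := Nat.le_of_dvd (by positivity) h
      have : 0 < 2 ^ (n + 1) := by positivity
      omega
    · rw [QuaternionGroup.a_mul_a, QuaternionGroup.one_def]
      congr 1
      rw [← Nat.cast_add, ZMod.natCast_eq_zero_iff]
      exact ⟨1, by ring⟩

end Cfsg.Agent.S0218
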