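import Cfsg.Statements.S0219
import Mathlib

set_option autoImplicit false
open Cfsg

namespace Cfsg.Agent.S0219


/-- If a finite group has even order and a cyclic Sylow 2-subgroup, then it has a subgroup of index 2 (consider the parity of permutations in the regular representation). -/
theorem result {G : Type*} [Group G] [Finite G] (heven : Even (Nat.card G)) (T : Sylow 2 G) (hT : IsCyclic (T : Subgroup G)) : ∃ H : Subgroup G, H.index = 2 := by
  have hp : (Nat.card G).minFac = 2 := (Nat.minFac_eq_two_iff _).2 (even_iff_two_dvd.1 heven)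
  have hcompl := IsCyclic.isComplement' hp hT
  set f := MonoidHom.transferSylow T (hT.normalizer_le_centralizer hp) with hf
  -- f is surjective
  have hsurj : f.range = ⊤ := by
    apply Subgroup.eq_top_of_card_eq
    rw [← Subgroup.index_ker]; exact hcompl.symm.index_eq_card
  -- T has even order
  have hTeven : 2 ∣ Nat.card (T : Subgroup G) := by
    have := T.card_eq_multiplicity
    rw [this]
    have h2 : 2 ∣ Nat.card G := even_iff_two_dvd.1 heven
    have hpos : 0 < (Nat.card G).factorization 2 :=
      Nat.Prime.factorization_pos_of_dvd Nat.prime_two Nat.card_pos.ne' h2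
    exact dvd_pow_self 2 hpos.ne'
  obtain ⟨c, hc⟩ := hT.exists_generator
  have hoc : orderOf c = Nat.card (T : Subgroup G) := orderOf_eq_card_of_forall_mem_zpowers hc
  have hidx : (Subgroup.zpowers (c ^ 2)).index = 2 := by
    have h1 := Subgroup.card_mul_index (Subgroup.zpowers (c ^ 2))
    rw [Nat.card_zpowers, orderOf_pow, hoc, Nat.gcd_eq_right hTeven] at h1
    obtain ⟨k, hk⟩ := hTeven
    have hkpos : 0 < k := by
      rcases Nat.eq_zero_or_pos k with h | h
      · rw [h] at hk
        have : 0 < Nat.card (T : Subgroup G) := Nat.card_pos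
        omega
      · exact h
    rw [hk, Nat.mul_div_cancel_left _ (by norm_num : 0 < 2), mul_comm 2 k] at h1
    exact Nat.eq_of_mul_eq_mul_left hkpos h1
  refine ⟨(Subgroup.zpowers (c ^ 2)).comap f, ?_⟩
  rw [Subgroup.index_comap, hsurj, Subgroup.relIndex_top_right, hidx]

end Cfsg.Agent.S0219
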