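import Cfsg.Statements.S0220
import Cfsg.Agent.Lib_helper5_Sylow2
import Cfsg.Agent.S0219

set_option autoImplicit false
open Cfsg

namespace Cfsg.Agent.S0220

theorem unique_invol_of_cyclic {A : Type*} [Group A] [Finite A] [IsCyclic A] {a b : A}
    (ha : orderOf a = 2) (hb : orderOf b = 2) : a = b := by
  classical
  have := Fintype.ofFinite A
  have hd : 2 ∣ Fintype.card A := by
    rw [← Nat.card_eq_fintype_card, ← ha]; exact orderOf_dvd_natCard a
  have h1 := IsCyclic.card_orderOf_eq_totient hd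
  rw [Nat.totient_two] at h1
  have h2 := Finset.card_le_one.1 h1.le
  exact h2 a (by simp [ha]) b (by simp [hb])


theorem aux {G : Type*} [Group G] [Finite G] (x : G) (hx : orderOf x = 2) (C : Subgroup G)
    (hC : C = Subgroup.centralizer ({x} : Set G)) (S : Sylow 2 C) (hS : IsCyclic (S : Subgroup C)) :
    ∃ H : Subgroup G, H.index = 2 := by
  set S' := (S : Subgroup C).map C.subtype with hS'
  have hS'2 : IsPGroup 2 S' := S.2.map _
  obtain ⟨T, hT⟩ := hS'2.exists_le_sylow
  have hxC : x ∈ C := by rw [hC]; exact Subgroup.mem_centralizer_singleton_iff.2 rfl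
  -- x ∈ S
  have hxS : (⟨x, hxC⟩ : C) ∈ S := by
    have hp : IsPGroup 2 (Subgroup.zpowers (⟨x, hxC⟩ : C)) := by
      apply IsPGroup.of_card (n := 1)
      rw [Nat.card_zpowers, Subgroup.orderOf_mk, hx, pow_one]
    obtain ⟨c, hc⟩ := H5.exists_conj_mem_sylow S _ hp
    have h1 := hc _ (Subgroup.mem_zpowers _)
    have h2 : c * ⟨x, hxC⟩ * c⁻¹ = (⟨x, hxC⟩ : C) := by
      ext
      show (c : G) * x * (c : G)⁻¹ = x
      have hc2 : (c : G) ∈ Subgroup.centralizer ({x} : Set G) := hC ▸ c.2
      rw [Subgroup.mem_centralizer_singleton_iff.1 hc2, mul_inv_cancel_right]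
    rwa [h2] at h1
  -- T ∩ C = S
  have hR : (T : Subgroup G).subgroupOf C = S := by
    apply S.is_maximal' T.2.comap_subtype
    intro s hs
    exact Subgroup.mem_subgroupOf.2 (hT ⟨s, hs, rfl⟩)
  have hTS : (T : Subgroup G) = S' := by
    by_contra hne
    have hlt : S'.subgroupOf T < ⊤ := by
      rw [lt_top_iff_ne_top]
      intro h
      apply hne
      exact le_antisymm (Subgroup.subgroupOf_eq_top.1 h) hT
    have : Group.IsNilpotent (T : Subgroup G) := IsPGroup.isNilpotent T.2
    have hnc := Group.normalizerCondition_of_isNilpotent (G := (T : Subgroup G)) _ hlt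
    obtain ⟨y, hyN, hyK⟩ := SetLike.exists_of_lt hnc
    have hxT : x ∈ T := hT ⟨⟨x, hxC⟩, hxS, rfl⟩
    have h1 : y * ⟨x, hxT⟩ * y⁻¹ ∈ S'.subgroupOf T :=
      (Subgroup.mem_normalizer_iff.1 hyN _).1 (Subgroup.mem_subgroupOf.2 ⟨⟨x, hxC⟩, hxS, rfl⟩)
    obtain ⟨w, hwS, hw⟩ := Subgroup.mem_subgroupOf.1 h1
    have hw' : (w : G) = (y : G) * x * (y : G)⁻¹ := hw
    have hw2 : orderOf w = 2 := by
      rw [← Subgroup.orderOf_coe, hw']
      exact H5.order_two_conj hx _
    have h3 : (⟨w, hwS⟩ : (S : Subgroup C)) = ⟨⟨x, hxC⟩, hxS⟩ := by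
      have hcy : IsCyclic (S : Subgroup C) := hS
      apply unique_invol_of_cyclic
      · rw [Subgroup.orderOf_mk, hw2]
      · rw [Subgroup.orderOf_mk, Subgroup.orderOf_mk, hx]
    have h4 : (w : G) = x := by
      have := congrArg (fun s : (S : Subgroup C) => ((s : C) : G)) h3
      exact this
    have hyC : (y : G) ∈ C := by
      rw [hC, Subgroup.mem_centralizer_singleton_iff]
      rw [h4] at hw'
      nth_rewrite 2 [hw']
      group
    have h5 : (⟨y, hyC⟩ : C) ∈ (T : Subgroup G).subgroupOf C := Subgroup.mem_subgroupOf.2 y.2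
    rw [hR] at h5
    exact hyK (Subgroup.mem_subgroupOf.2 ⟨⟨y, hyC⟩, h5, rfl⟩)
  have hTcyc : IsCyclic (T : Subgroup G) := by
    let e : (S : Subgroup C) ≃* (T : Subgroup G) :=
      ((S : Subgroup C).equivMapOfInjective C.subtype C.subtype_injective).trans
        (MulEquiv.subgroupCongr hTS.symm)
    have hcy : IsCyclic (S : Subgroup C) := hS
    exact isCyclic_of_surjective e e.surjective
  have heven : Even (Nat.card G) := by
    rw [even_iff_two_dvd, ← hx]; exact orderOf_dvd_natCard x
  exact Cfsg.Agent.S0219.result heven T hTcyc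


/-- If x is an involution of a finite group G and a Sylow 2-subgroup of the centralizer of x is cyclic, then G has a subgroup of index 2; in particular G is not simple unless it has order 2. -/
theorem result {G : Type*} [Group G] [Finite G] (x : G) (hx : orderOf x = 2) (S : Sylow 2 ↥(Subgroup.centralizer ({x} : Set G))) (hS : IsCyclic (S : Subgroup ↥(Subgroup.centralizer ({x} : Set G)))) : ∃ H : Subgroup G, H.index = 2 := by
  exact aux x hx _ rfl S hS

end Cfsg.Agent.S0220
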