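import Cfsg.Statements.S0221
import Cfsg.Agent.Lib_helper7_E8
import Cfsg.Agent.S0111

set_option autoImplicit false
open Cfsg

namespace Cfsg.Agent.S0221

/-- Let G be a finite group with no subgroup of index 2 whose 2-rank is at least 3 (it contains an elementary abelian subgroup of order 8). Then the centralizer of every involution of G also contains an elementary abelian subgroup of order 8. -/
theorem result {G : Type*} [Group G] [Finite G] (hno : ∀ H : Subgroup G, H.index ≠ 2) (hrank : ∃ E : Subgroup G, Nat.card E = 8 ∧ ∀ e ∈ E, e ^ 2 = 1) (x : G) (hx : orderOf x = 2) : ∃ E : Subgroup G, E ≤ Subgroup.centralizer ({x} : Set G) ∧ Nat.card E = 8 ∧ ∀ e ∈ E, e ^ 2 = 1 := by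
  haveI : Fact (Nat.Prime 2) := ⟨Nat.prime_two⟩
  obtain ⟨E, hE8, hE2⟩ := hrank
  have hEp : IsPGroup 2 E := IsPGroup.of_card (n := 3) (by rw [hE8]; norm_num)
  obtain ⟨S, hES⟩ := hEp.exists_le_sylow
  obtain ⟨M, hM, hMt⟩ := H7.exists_index_two_rank_three S.2 (E.subgroupOf (S : Subgroup G))
    (by rw [H1.card_subgroupOf_of_le hES, hE8])
    (fun e he => Subtype.ext (by simpa using hE2 e (Subgroup.mem_subgroupOf.1 he)))
  have hx2 : x ^ 2 = 1 := by rw [← hx, pow_orderOf_eq_one]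
  have hxp : IsPGroup 2 (Subgroup.zpowers x) :=
    IsPGroup.of_card (n := 1) (by rw [Nat.card_zpowers, hx]; norm_num)
  obtain ⟨S', hS'⟩ := hxp.exists_le_sylow
  obtain ⟨g, hg⟩ := MulAction.exists_smul_eq G S' S
  have hgx : g * x * g⁻¹ ∈ (S : Subgroup G) := by
    rw [← hg, Sylow.coe_subgroup_smul, Subgroup.mem_pointwise_smul_iff_inv_smul_mem]
    have : (MulAut.conj g)⁻¹ • (g * x * g⁻¹) = x := by
      rw [← map_inv, MulAut.smul_def, MulAut.conj_apply]; group
    rw [this]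
    exact hS' (Subgroup.mem_zpowers x)
  have hord : ∀ k : G, orderOf (k * x * k⁻¹) = 2 := fun k =>
    (MulEquiv.orderOf_eq (MulAut.conj k) x).trans hx
  obtain ⟨k, hkS, hkM⟩ : ∃ k : G, ∃ h : k * x * k⁻¹ ∈ (S : Subgroup G),
      (⟨k * x * k⁻¹, h⟩ : (S : Subgroup G)) ∈ M := by
    rcases hM with rfl | hidx
    · exact ⟨g, hgx, trivial⟩
    · by_cases hmem : (⟨g * x * g⁻¹, hgx⟩ : (S : Subgroup G)) ∈ M
      · exact ⟨g, hgx, hmem⟩
      · have hrel : (M.map (S : Subgroup G).subtype).relIndex (S : Subgroup G) = 2 := by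
          have e0 : (M.map (S : Subgroup G).subtype).subgroupOf (S : Subgroup G) = M :=
            Subgroup.comap_map_eq_self_of_injective (Subgroup.subtype_injective _) M
          rw [Subgroup.relIndex, e0]; exact hidx
        rcases S0111.result S (M.map (S : Subgroup G).subtype) (Subgroup.map_subtype_le M) hrel
          (g * x * g⁻¹) (hord g) hgx (by
            rintro ⟨m, hm, hmg⟩
            apply hmem
            have : m = ⟨g * x * g⁻¹, hgx⟩ := Subtype.ext hmg
            rwa [← this]) with ⟨K, -, hK, -⟩ | ⟨l, m, hm, hml⟩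
        · exact absurd hK (hno K)
        · have e : l * g * x * (l * g)⁻¹ = l * (g * x * g⁻¹) * l⁻¹ := by group
          have hml' : (m : G) = l * (g * x * g⁻¹) * l⁻¹ := hml
          refine ⟨l * g, by rw [e, ← hml']; exact m.2, ?_⟩
          have : m = ⟨l * g * x * (l * g)⁻¹, by rw [e, ← hml']; exact m.2⟩ :=
            Subtype.ext (hml'.trans e.symm)
          rwa [← this]
  obtain ⟨E', h8, h2, hc⟩ := hMt _ hkM (Subtype.ext (by
    show (k * x * k⁻¹) ^ 2 = 1
    rw [conj_pow, hx2]; group))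
  refine ⟨(E'.map (S : Subgroup G).subtype).map (MulAut.conj k⁻¹).toMonoidHom, ?_, ?_, ?_⟩
  · rintro _ ⟨_, ⟨e, he, rfl⟩, rfl⟩
    rw [Subgroup.mem_centralizer_singleton_iff]
    have h1 : (e : G) * (k * x * k⁻¹) = (k * x * k⁻¹) * e := congrArg Subtype.val (hc e he)
    show k⁻¹ * (e : G) * k⁻¹⁻¹ * x = x * (k⁻¹ * (e : G) * k⁻¹⁻¹)
    calc k⁻¹ * (e : G) * k⁻¹⁻¹ * x = k⁻¹ * ((e : G) * (k * x * k⁻¹)) * k := by group
      _ = k⁻¹ * ((k * x * k⁻¹) * e) * k := by rw [h1]
      _ = x * (k⁻¹ * (e : G) * k⁻¹⁻¹) := by group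
  · rw [Subgroup.card_map_of_injective (MulAut.conj k⁻¹).injective,
      Subgroup.card_map_of_injective (Subgroup.subtype_injective _), h8]
  · rintro _ ⟨_, ⟨e, he, rfl⟩, rfl⟩
    have h1 : (e : G) ^ 2 = 1 := by simpa using congrArg Subtype.val (h2 e he)
    show (k⁻¹ * (e : G) * k⁻¹⁻¹) ^ 2 = 1
    rw [conj_pow, h1]; group

end Cfsg.Agent.S0221
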