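import Cfsg.Statements.S0226
import Cfsg.Agent.Lib_helper5_Count

set_option autoImplicit false
open Cfsg

namespace Cfsg.Agent.S0226


/-- A finite group of even order has an odd number of involutions. -/
theorem result {G : Type*} [Group G] [Finite G] (heven : Even (Nat.card G)) : Odd (Nat.card {t : G // orderOf t = 2}) := by
  classical
  have := Fintype.ofFinite G
  let f : Function.End G := fun g => g⁻¹
  have hf : f ^ 2 ^ 1 = 1 := by
    funext g
    show f (f g) = g
    simp [f]
  have h1 := Equiv.Perm.card_fixedPoints_modEq (p := 2) (n := 1) hf
  -- fixed points = {1} ∪ involutions
  have h2 : Fintype.card (Function.fixedPoints f) = Nat.card {t : G // orderOf t = 2} + 1 := by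
    rw [← Nat.card_eq_fintype_card]
    have e : (Function.fixedPoints f) ≃ Option {t : G // orderOf t = 2} :=
      { toFun := fun g => if h : (g : G) = 1 then none else some ⟨g, by
          apply H5.order_two_of h
          have h3 : (g : G)⁻¹ = g := g.2
          nth_rewrite 1 [← h3]
          exact inv_mul_cancel _⟩
        invFun := fun o => match o with
          | none => ⟨1, by show (1 : G)⁻¹ = 1; simp⟩
          | some t => ⟨t.1, H5.inv_of_order_two t.2⟩
        left_inv := by
          intro g
          by_cases h : (g : G) = 1
          · simp only [h, dite_true]
            ext; exact h.symm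
          · simp only [h, dite_false]
        right_inv := by
          intro o
          cases o with
          | none => simp
          | some t =>
            have : (t : G) ≠ 1 := H5.ne_one_of_order_two t.2
            simp [this] }
    rw [Nat.card_congr e, Finite.card_option]
  rw [h2, ← Nat.card_eq_fintype_card] at h1
  have h3 : Nat.card G % 2 = 0 := Nat.even_iff.1 heven
  rw [Nat.odd_iff]
  unfold Nat.ModEq at h1
  omega

end Cfsg.Agent.S0226
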