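import Cfsg.Statements.S0228
import Mathlib

set_option autoImplicit false
open Cfsg

namespace Cfsg.Agent.S0228

theorem card_carrier_mul' {G : Type*} [Group G] (g : G) :
    Nat.card (ConjClasses.mk g).carrier * Nat.card (Subgroup.centralizer ({g} : Set G)) =
      Nat.card G := by
  rw [Subgroup.nat_card_centralizer_nat_card_stabilizer, ← ConjAct.orbit_eq_carrier_conjClasses,
    Nat.card_coe_set_eq, ← MulAction.index_stabilizer, Subgroup.index_mul_card]
  rfl

theorem card_syl3 {G : Type*} [Group G] [Finite G] (hG : Nat.card G = 12) (R : Sylow 3 G) :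
    Nat.card (R : Subgroup G) = 3 := by
  have : Fact (Nat.Prime 3) := ⟨Nat.prime_three⟩
  obtain ⟨k, hk⟩ := IsPGroup.iff_card.mp R.isPGroup'
  have h1 : Nat.card (R : Subgroup G) ∣ 12 := hG ▸ Subgroup.card_subgroup_dvd_card _
  have h2 : 3 ∣ Nat.card (R : Subgroup G) := R.dvd_card_of_dvd_card (by rw [hG]; norm_num)
  rw [hk] at h1 h2 ⊢
  rcases k with _ | _ | k
  · norm_num at h2
  · norm_num
  · exfalso
    have : 9 ∣ 12 := (Dvd.intro (3 ^ k) (by ring)).trans h1
    norm_num at this

theorem central_invol {G : Type*} [Group G] [Finite G] (hG : Nat.card G = 12)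
    (h1 : Nat.card (Sylow 3 G) = 1) : ∃ t : G, orderOf t = 2 ∧ t ∈ Subgroup.center G := by
  classical
  have : Fact (Nat.Prime 3) := ⟨Nat.prime_three⟩
  have hss : Subsingleton (Sylow 3 G) := (Nat.card_eq_one_iff_unique.mp h1).1
  obtain ⟨r, hr⟩ := exists_prime_orderOf_dvd_card' (G := G) 3 (by rw [hG]; norm_num)
  have hp : IsPGroup 3 (Subgroup.zpowers r) := by
    apply IsPGroup.of_card (n := 1)
    rw [Nat.card_zpowers, hr, pow_one]
  obtain ⟨R, hR⟩ := hp.exists_le_sylow
  have hrR : r ∈ R := hR (Subgroup.mem_zpowers r)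
  have hr1 : r ≠ 1 := by rintro rfl; simp at hr
  have hsub : (ConjClasses.mk r).carrier ⊆ ((R : Subgroup G) : Set G) \ {1} := by
    intro x hx
    rw [ConjClasses.mem_carrier_iff_mk_eq, ConjClasses.mk_eq_mk_iff_isConj, isConj_comm,
      isConj_iff] at hx
    obtain ⟨g, rfl⟩ := hx
    refine ⟨?_, ?_⟩
    · have h2 : g * r * g⁻¹ ∈ ((g • R : Sylow 3 G) : Subgroup G) := by
        rw [Sylow.coe_subgroup_smul, Subgroup.mem_smul_pointwise_iff_exists]
        exact ⟨r, hrR, rfl⟩
      rw [Subsingleton.elim (g • R) R] at h2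
      exact h2
    · rw [Set.mem_singleton_iff, conj_eq_one_iff]
      exact hr1
  have hcl : Nat.card (ConjClasses.mk r).carrier ≤ 2 := by
    rw [Nat.card_coe_set_eq]
    calc (ConjClasses.mk r).carrier.ncard ≤ (((R : Subgroup G) : Set G) \ {1}).ncard :=
          Set.ncard_le_ncard hsub (Set.toFinite _)
      _ = 2 := by
          rw [Set.ncard_sdiff_singleton_of_mem (one_mem _), ← Nat.card_coe_set_eq]
          have := card_syl3 hG R
          have e : Nat.card (((R : Subgroup G) : Set G)) = Nat.card (R : Subgroup G) := rfl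
          rw [e, this]
  have hmul := card_carrier_mul' r
  rw [hG] at hmul
  have heven : 2 ∣ Nat.card (Subgroup.centralizer ({r} : Set G)) := by
    generalize Nat.card (ConjClasses.mk r).carrier = a at hcl hmul
    generalize Nat.card (Subgroup.centralizer ({r} : Set G)) = b at hmul ⊢
    interval_cases a <;> omega
  obtain ⟨t', ht'⟩ := exists_prime_orderOf_dvd_card'
    (G := Subgroup.centralizer ({r} : Set G)) 2 heven
  have ht : orderOf (t' : G) = 2 := by rw [Subgroup.orderOf_coe, ht']
  have hcomm : Commute r (t' : G) := (Subgroup.mem_centralizer_singleton_iff.mp t'.2).symm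
  generalize (t' : G) = t at ht hcomm
  have ht2 : t ^ 2 = 1 := by rw [← ht, pow_orderOf_eq_one]
  have ht1 : t ≠ 1 := by rintro rfl; simp at ht
  have hr3 : r ^ 3 = 1 := by rw [← hr, pow_orderOf_eq_one]
  have hy : orderOf (r * t) = 6 := by
    rw [hcomm.orderOf_mul_eq_mul_orderOf_of_coprime (by rw [hr, ht]; norm_num), hr, ht]
  have hy3 : (r * t) ^ 3 = t := by
    rw [hcomm.mul_pow, hr3, one_mul, pow_succ, ht2, one_mul]
  have hidx : (Subgroup.zpowers (r * t)).index = 2 := by
    have := Subgroup.index_mul_card (Subgroup.zpowers (r * t))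
    rw [Nat.card_zpowers, hy, hG] at this
    omega
  have hnorm : (Subgroup.zpowers (r * t)).Normal := Subgroup.normal_of_index_eq_two hidx
  have hy3' : (r * t) ^ (3 : ℤ) = t := by exact_mod_cast hy3
  have ht2' : t ^ (2 : ℤ) = 1 := by exact_mod_cast ht2
  have htY : t ∈ Subgroup.zpowers (r * t) := Subgroup.mem_zpowers_iff.mpr ⟨3, hy3'⟩
  refine ⟨t, ht, ?_⟩
  rw [Subgroup.mem_center_iff]
  intro g
  have hx := hnorm.conj_mem t htY g
  obtain ⟨k, hk⟩ := Subgroup.mem_zpowers_iff.mp hx
  have hx2 : (g * t * g⁻¹) ^ 2 = 1 := by rw [conj_pow, ht2]; group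
  rw [← hk, ← zpow_natCast, ← zpow_mul, ← orderOf_dvd_iff_zpow_eq_one, hy] at hx2
  obtain ⟨j, hj⟩ : (3 : ℤ) ∣ k := by
    push_cast at hx2
    omega
  rw [hj, zpow_mul, hy3'] at hk
  rcases Int.even_or_odd' j with ⟨i, rfl | rfl⟩
  · exfalso
    rw [zpow_mul, ht2', one_zpow] at hk
    exact ht1 (conj_eq_one_iff.mp hk.symm)
  · rw [zpow_add, zpow_mul, ht2', one_zpow, one_mul, zpow_one] at hk
    exact (mul_inv_eq_iff_eq_mul.mp hk.symm)

/-- A group of order 12 in which no involution is central is isomorphic to the alternating group on four letters. -/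
theorem result {G : Type*} [Group G] [Finite G] (hG : Nat.card G = 12) (hz : ∀ z : G, orderOf z = 2 → z ∉ Subgroup.center G) : Nonempty (G ≃* alternatingGroup (Fin 4)) := by
  classical
  have : Fact (Nat.Prime 3) := ⟨Nat.prime_three⟩
  have hn3 : Nat.card (Sylow 3 G) = 4 := by
    obtain ⟨R⟩ : Nonempty (Sylow 3 G) := inferInstance
    have h1 := card_sylow_modEq_one 3 G
    have h2 : Nat.card (Sylow 3 G) ∣ 12 := by
      rw [← hG]
      exact (Sylow.card_dvd_index R).trans (Subgroup.index_dvd_card _)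
    have h4 : Nat.card (Sylow 3 G) ≤ 12 := Nat.le_of_dvd (by norm_num) h2
    have h5 : Nat.card (Sylow 3 G) ≠ 1 := by
      intro h
      obtain ⟨t, ht, htc⟩ := central_invol hG h
      exact hz t ht htc
    unfold Nat.ModEq at h1
    generalize Nat.card (Sylow 3 G) = n at h1 h2 h4 h5 ⊢
    interval_cases n <;> omega
  have hNR : ∀ R : Sylow 3 G, Subgroup.normalizer ((R : Subgroup G) : Set G) = R := by
    intro R
    have h1 := Sylow.card_eq_index_normalizer R
    have h1' : (Subgroup.normalizer ((R : Subgroup G) : Set G)).index = 4 := by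
      rw [← hn3]; exact h1.symm
    have h2 := Subgroup.index_mul_card (Subgroup.normalizer ((R : Subgroup G) : Set G))
    rw [h1', hG] at h2
    symm
    apply Subgroup.eq_of_le_of_card_ge Subgroup.le_normalizer
    rw [card_syl3 hG R]
    omega
  have hinj : Function.Injective (MulAction.toPermHom G (Sylow 3 G)) := by
    rw [injective_iff_map_eq_one]
    intro k hk
    have hkR : ∀ R : Sylow 3 G, k ∈ (R : Subgroup G) := by
      intro R
      have h1 := congrArg (fun f : Equiv.Perm (Sylow 3 G) => f R) hk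
      have h2 : k • R = R := by simpa using h1
      have h3 := Sylow.smul_eq_iff_mem_normalizer.mp h2
      have h4 : k ∈ Subgroup.normalizer ((R : Subgroup G) : Set G) := h3
      rwa [hNR R] at h4
    by_contra hk1
    have hnt : Nontrivial (Sylow 3 G) := by
      rw [← Finite.one_lt_card_iff_nontrivial, hn3]
      norm_num
    obtain ⟨R₁, R₂, hne⟩ := exists_pair_ne (Sylow 3 G)
    have hz3 : ∀ R : Sylow 3 G, Subgroup.zpowers k = R := by
      intro R
      have hle : Subgroup.zpowers k ≤ R := by
        rw [Subgroup.zpowers_le]; exact hkR R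
      apply Subgroup.eq_of_le_of_card_ge hle
      have hd := Subgroup.card_dvd_of_le hle
      rw [card_syl3 hG R] at hd ⊢
      rcases (Nat.dvd_prime Nat.prime_three).mp hd with h | h
      · exfalso
        rw [Nat.card_zpowers, orderOf_eq_one_iff] at h
        exact hk1 h
      · rw [h]
    exact hne (Sylow.ext ((hz3 R₁).symm.trans (hz3 R₂)))
  have e2 : Sylow 3 G ≃ Fin 4 := hn3 ▸ Finite.equivFin (Sylow 3 G)
  let ψ : G →* Equiv.Perm (Fin 4) :=
    (e2.permCongrHom.toMonoidHom).comp (MulAction.toPermHom G (Sylow 3 G))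
  have hψ : Function.Injective ψ := e2.permCongrHom.injective.comp hinj
  have hcr : Nat.card ψ.range = 12 := by
    rw [← Nat.card_congr (MonoidHom.ofInjective hψ).toEquiv, hG]
  have hidx : ψ.range.index = 2 := by
    have h := Subgroup.index_mul_card ψ.range
    rw [hcr, Nat.card_perm, Nat.card_fin] at h
    have : (4 : ℕ).factorial = 24 := rfl
    omega
  have hr := Equiv.Perm.eq_alternatingGroup_of_index_eq_two hidx
  exact ⟨(MonoidHom.ofInjective hψ).trans (MulEquiv.subgroupCongr hr)⟩


end Cfsg.Agent.S0228
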