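import Cfsg.Statements.S0229
import Cfsg.Agent.Lib_helper5_Isolated2
import Cfsg.Agent.S0208
import Cfsg.Agent.S0209
import Cfsg.Agent.S0211

set_option autoImplicit false
open Cfsg

namespace Cfsg.Agent.S0229


/-- Let t be an involution of a Sylow 2-subgroup S of a finite group G, conjugate in G to no other element of S, and let s be an involution of G not conjugate to t. Then the order of st is twice an odd number. -/
theorem result {G : Type*} [Group G] [Finite G] (S : Sylow 2 G) (t : G) (ht : orderOf t = 2) (htS : t ∈ S) (hiso : ∀ g : G, g * t * g⁻¹ ∈ S → g * t * g⁻¹ = t) (s : G) (hs : orderOf s = 2) (hns : ¬ IsConj s t) : orderOf (s * t) % 4 = 2 := by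
  have hiso' := H5.isolated_of_sylow S t ht hiso
  have htt := H5.mul_self_of_order_two ht
  -- order of s t equals the order of t s
  have hord : orderOf (s * t) = orderOf (t * s) := by
    have : s * t = (t * s)⁻¹ := by
      rw [mul_inv_rev, H5.inv_of_order_two hs, H5.inv_of_order_two ht]
    rw [this, orderOf_inv]
  rw [hord]
  have heven : Even (orderOf (t * s)) := by
    by_contra hodd
    rw [Nat.not_even_iff_odd] at hodd
    obtain ⟨d, -, hd⟩ := Cfsg.Agent.S0208.result t s ht hs hodd
    exact hns (isConj_comm.1 (isConj_iff.2 ⟨d, hd⟩))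
  have h4 : ¬ 4 ∣ orderOf (t * s) := by
    intro h4
    obtain ⟨d, -, hd⟩ := (Cfsg.Agent.S0211.result t s ht hs heven).2 h4
    obtain ⟨hz2, hzt, -⟩ := Cfsg.Agent.S0209.result t s ht hs heven
    set z := (t * s) ^ (orderOf (t * s) / 2) with hz
    have hc : Commute t (d * t * d⁻¹) := by
      rw [hd]
      show t * (t * z) = t * z * t
      rw [mul_assoc t z t, hzt.eq]
    have h5 := hiso'.2 d hc
    rw [hd] at h5
    have h6 : z = 1 := by
      have := congrArg (fun a => t * a) h5
      simpa [← mul_assoc, htt] using this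
    exact H5.ne_one_of_order_two hz2 h6
  obtain ⟨m, hm⟩ := heven
  omega

end Cfsg.Agent.S0229
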