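import Cfsg.Statements.S0230
import Cfsg.Agent.Lib_helper5_Count
import Cfsg.Agent.S0208
import Cfsg.Agent.S0209

set_option autoImplicit false
open Cfsg

namespace Cfsg.Agent.S0230


/-- Let G be a finite group with two non-conjugate involutions, and let t be an involution whose centralizer has maximal order among centralizers of involutions. Then |G| < |C_G(t)|^3. -/
theorem result {G : Type*} [Group G] [Finite G] (s t : G) (hs : orderOf s = 2) (ht : orderOf t = 2) (hnc : ¬ IsConj s t) (hmax : ∀ u : G, orderOf u = 2 → Nat.card (Subgroup.centralizer ({u} : Set G)) ≤ Nat.card (Subgroup.centralizer ({t} : Set G))) : Nat.card G < Nat.card (Subgroup.centralizer ({t} : Set G)) ^ 3 := by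
  classical
  have := Fintype.ofFinite G
  set m := Nat.card (Subgroup.centralizer ({t} : Set G)) with hm
  -- every conjugate v of t lies in C(z) for some involution z ∈ C(s)
  let I : Finset G := Finset.univ.filter (fun z => orderOf z = 2 ∧ z ∈ Subgroup.centralizer ({s} : Set G))
  let F : G → Finset G := fun z => Finset.univ.filter (fun v => v ∈ Subgroup.centralizer ({z} : Set G))
  let D : Finset G := Finset.univ.filter (fun v => IsConj t v)
  have hsub : D ⊆ I.biUnion F := by
    intro v hv
    have hv' : IsConj t v := (Finset.mem_filter.1 hv).2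
    obtain ⟨c, rfl⟩ := isConj_iff.1 hv'
    have hv2 : orderOf (c * t * c⁻¹) = 2 := H5.order_two_conj ht c
    have heven : Even (orderOf (s * (c * t * c⁻¹))) := by
      by_contra hodd
      rw [Nat.not_even_iff_odd] at hodd
      obtain ⟨d, -, hd⟩ := Cfsg.Agent.S0208.result s _ hs hv2 hodd
      apply hnc
      exact (isConj_iff.2 ⟨d, hd⟩).trans hv'.symm
    obtain ⟨hz2, hzs, hzv⟩ := Cfsg.Agent.S0209.result s _ hs hv2 heven
    rw [Finset.mem_biUnion]
    refine ⟨_, Finset.mem_filter.2 ⟨Finset.mem_univ _, hz2, ?_⟩, Finset.mem_filter.2 ⟨Finset.mem_univ _, ?_⟩⟩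
    · exact Subgroup.mem_centralizer_singleton_iff.2 hzs.eq
    · exact Subgroup.mem_centralizer_singleton_iff.2 hzv.eq.symm
  have hF : ∀ z ∈ I, (F z).card ≤ m := by
    intro z hz
    have hz2 : orderOf z = 2 := (Finset.mem_filter.1 hz).2.1
    have h1 : (F z).card = Nat.card (Subgroup.centralizer ({z} : Set G)) := by
      rw [Nat.card_eq_fintype_card, Fintype.card_subtype]
    rw [h1]; exact hmax z hz2
  have hI : I.card + 1 ≤ Nat.card (Subgroup.centralizer ({s} : Set G)) := by
    have h1 : Nat.card (Subgroup.centralizer ({s} : Set G)) =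
        (Finset.univ.filter (fun z => z ∈ Subgroup.centralizer ({s} : Set G))).card := by
      rw [Nat.card_eq_fintype_card, Fintype.card_subtype]
    rw [h1]
    have h2 : insert 1 I ⊆ Finset.univ.filter (fun z => z ∈ Subgroup.centralizer ({s} : Set G)) := by
      intro z hz
      rcases Finset.mem_insert.1 hz with rfl | hz
      · exact Finset.mem_filter.2 ⟨Finset.mem_univ _, Subgroup.one_mem _⟩
      · exact Finset.mem_filter.2 ⟨Finset.mem_univ _, (Finset.mem_filter.1 hz).2.2⟩
    have h3 : (1 : G) ∉ I := by
      intro h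
      have := (Finset.mem_filter.1 h).2.1
      simp at this
    rw [← Finset.card_insert_of_notMem h3]
    exact Finset.card_le_card h2
  have hD : D.card = Nat.card {g : G // IsConj t g} := by
    rw [Nat.card_eq_fintype_card, Fintype.card_subtype]
  have h1 : D.card ≤ I.card * m := by
    calc D.card ≤ (I.biUnion F).card := Finset.card_le_card hsub
      _ ≤ ∑ z ∈ I, (F z).card := Finset.card_biUnion_le
      _ ≤ ∑ z ∈ I, m := Finset.sum_le_sum hF
      _ = I.card * m := by rw [Finset.sum_const, smul_eq_mul]
  have h2 := hmax s hs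
  have h3 := H5.card_conj_mul_card_centralizer t
  rw [← hD, ← hm] at h3
  have hmpos : 0 < m := Nat.card_pos
  have h4 : I.card + 1 ≤ m := hI.trans h2
  rw [← h3]
  calc D.card * m ≤ I.card * m * m := Nat.mul_le_mul_right _ h1
    _ < m * m * m := by
      apply Nat.mul_lt_mul_of_pos_right _ hmpos
      exact Nat.mul_lt_mul_of_pos_right (by omega) hmpos
    _ = m ^ 3 := by ring

end Cfsg.Agent.S0230
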