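import Cfsg.Statements.S0231
import Cfsg.Agent.Lib_helper5_Sylow2
import Cfsg.Agent.S0208
import Cfsg.Agent.S0209

set_option autoImplicit false
open scoped Pointwise
open Cfsg

namespace Cfsg.Agent.S0231


/-- Let T be a Sylow 2-subgroup of the finite group G which is not normal and which intersects every other Sylow 2-subgroup trivially. Then G has a single conjugacy class of involutions. -/
theorem result {G : Type*} [Group G] [Finite G] (T : Sylow 2 G) (hnn : ¬ (T : Subgroup G).Normal) (hTI : ∀ g : G, MulAut.conj g • (T : Subgroup G) ≠ T → MulAut.conj g • (T : Subgroup G) ⊓ T = ⊥) (s t : G) (hs : orderOf s = 2) (ht : orderOf t = 2) : IsConj s t := by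
  -- TI property for all Sylow 2-subgroups
  have TI : ∀ Q R : Sylow 2 G, ∀ x : G, x ≠ 1 → x ∈ Q → x ∈ R → Q = R := by
    intro Q R x hx1 hxQ hxR
    obtain ⟨a, rfl⟩ := MulAction.exists_smul_eq G T Q
    obtain ⟨b, rfl⟩ := MulAction.exists_smul_eq G T R
    rw [H5.mem_smul_sylow_iff] at hxQ hxR
    have h1 : (b⁻¹ * a) • T = T := by
      by_contra hne
      have hne' : MulAut.conj (b⁻¹ * a) • (T : Subgroup G) ≠ T := by
        intro h
        apply hne
        ext1
        rw [Sylow.coe_subgroup_smul]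
        exact h
      have h2 := hTI _ hne'
      have h3 : b⁻¹ * x * b ∈ MulAut.conj (b⁻¹ * a) • (T : Subgroup G) ⊓ T := by
        refine Subgroup.mem_inf.2 ⟨?_, hxR⟩
        have h4 : b⁻¹ * x * b ∈ (b⁻¹ * a) • T := by
          rw [H5.mem_smul_sylow_iff]
          have : (b⁻¹ * a)⁻¹ * (b⁻¹ * x * b) * (b⁻¹ * a) = a⁻¹ * x * a := by group
          rw [this]; exact hxQ
        exact h4
      rw [h2, Subgroup.mem_bot] at h3
      apply hx1
      have : x = b * (b⁻¹ * x * b) * b⁻¹ := by group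
      rw [this, h3]; group
    rw [mul_smul] at h1
    have h5 := congrArg (fun R => b • R) h1
    simpa using h5
  -- non-conjugate involutions lie in a common Sylow subgroup
  have common : ∀ s t : G, orderOf s = 2 → orderOf t = 2 → ¬ IsConj s t →
      ∃ Q : Sylow 2 G, s ∈ Q ∧ t ∈ Q := by
    intro s t hs ht hnc
    have heven : Even (orderOf (s * t)) := by
      by_contra hodd
      rw [Nat.not_even_iff_odd] at hodd
      obtain ⟨d, -, hd⟩ := Cfsg.Agent.S0208.result s t hs ht hodd
      exact hnc (isConj_iff.2 ⟨d, hd⟩)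
    obtain ⟨hz2, hzs, hzt⟩ := Cfsg.Agent.S0209.result s t hs ht heven
    obtain ⟨Q₁, h1, h2⟩ := H5.exists_sylow_of_commuting_invol hz2 hs hzs
    obtain ⟨Q₂, h3, h4⟩ := H5.exists_sylow_of_commuting_invol hz2 ht hzt
    have := TI Q₁ Q₂ _ (H5.ne_one_of_order_two hz2) h1 h3
    subst this
    exact ⟨Q₁, h2, h4⟩
  by_contra hnc
  obtain ⟨Q, hsQ, htQ⟩ := common s t hs ht hnc
  -- there is another Sylow subgroup
  have hex : ∃ a : G, a • Q ≠ Q := by
    by_contra hall
    push Not at hall
    apply hnn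
    obtain ⟨b, rfl⟩ := MulAction.exists_smul_eq G Q T
    rw [hall b]
    rw [← Subgroup.normalizer_eq_top_iff, eq_top_iff]
    intro g _
    exact Sylow.smul_eq_iff_mem_normalizer.1 (hall g)
  obtain ⟨a, ha⟩ := hex
  have hs' : orderOf (a * s * a⁻¹) = 2 := H5.order_two_conj hs a
  have hnc' : ¬ IsConj (a * s * a⁻¹) t := by
    intro h
    exact hnc ((isConj_iff.2 ⟨a, rfl⟩).trans h)
  obtain ⟨R, h1, h2⟩ := common _ t hs' ht hnc'
  have h3 : R = Q := TI R Q t (H5.ne_one_of_order_two ht) h2 htQ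
  have h4 : R = a • Q := TI R (a • Q) _ (H5.ne_one_of_order_two hs') h1 (H5.conj_mem_smul_sylow Q a s hsQ)
  exact ha (h4.symm.trans h3)

end Cfsg.Agent.S0231
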