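import Cfsg.Statements.S0232
import Cfsg.Agent.Lib_helper5_BF2
import Cfsg.Agent.S0233
import Cfsg.Agent.S0219

set_option autoImplicit false
open Cfsg

namespace Cfsg.Agent.S0232

open Cfsg.Agent.H5

theorem of_index_two {G : Type*} [Group G] [Finite G] (hgt : 2 < Nat.card G)
    (H : Subgroup G) (hH : H.index = 2) : H ≠ ⊤ ∧ Nat.card G < (Nat.card H) ^ 3 := by
  constructor
  · intro h
    rw [h, Subgroup.index_top] at hH
    omega
  · have := H.card_mul_index
    rw [hH] at this
    rw [← this] at hgt ⊢
    set h := Nat.card H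
    have h2 : 2 ≤ h := by omega
    nlinarith [Nat.mul_le_mul h2 h2]

theorem odd_center {G : Type*} [Group G] [Finite G] (heven : Even (Nat.card G))
    (hgt : 2 < Nat.card G) (hZ : Odd (Nat.card (Subgroup.center G))) :
    ∃ H : Subgroup G, H ≠ ⊤ ∧ Nat.card G < (Nat.card H) ^ 3 := by
  classical
  obtain ⟨H, hH, hidx⟩ := S0233.result heven hZ
  rcases hidx with h2 | h2
  · exact ⟨H, of_index_two hgt H h2⟩
  obtain ⟨t, ht⟩ := exists_invol_of_even' heven
  have hprop : Subgroup.centralizer ({t} : Set G) ≠ ⊤ := by
    intro htop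
    have hxZ : t ∈ Subgroup.center G := by
      rw [Subgroup.mem_center_iff]
      intro g
      have : g ∈ Subgroup.centralizer ({t} : Set G) := htop ▸ Subgroup.mem_top g
      rw [Subgroup.mem_centralizer_singleton_iff] at this
      exact this
    have := even_card_of_invol_mem _ _ ht hxZ
    exact (Nat.not_even_iff_odd.mpr hZ) this
  by_contra hcon
  push Not at hcon
  have hc := hcon _ hprop
  have hh := hcon _ hH
  have h3 := card_le_invol_mul_centralizer t ht
  have h7 := H.card_mul_index
  set c := Nat.card (Subgroup.centralizer ({t} : Set G)) with hcdef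
  set n := Nat.card {t : G // orderOf t = 2} with hn
  set g := Nat.card G with hg
  set h := Nat.card H with hhdef
  have hcpos : 0 < c := Nat.card_pos
  have hnpos : 0 < n := by
    haveI : Nonempty {t : G // orderOf t = 2} := ⟨⟨t, ht⟩⟩
    exact Nat.card_pos
  have h4 : g * (g + n) ≤ (n * c) * (n * c + n) := Nat.mul_le_mul h3 (by omega)
  have h5 : 2 * H.index * n ^ 2 < (c * (c + 1)) * n ^ 2 := by
    calc 2 * H.index * n ^ 2 < g * (g + n) := h2
      _ ≤ (n * c) * (n * c + n) := h4
      _ = (c * (c + 1)) * n ^ 2 := by ring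
  have h6 : 2 * H.index < c * (c + 1) := lt_of_mul_lt_mul_right h5 (Nat.zero_le _)
  have hhpos : 0 < h := Nat.card_pos
  have h8 : 2 * g < c * (c + 1) * h := by
    calc 2 * g = (2 * H.index) * h := by rw [← h7]; ring
      _ < c * (c + 1) * h := Nat.mul_lt_mul_of_pos_right h6 hhpos
  have h9 : c * (c + 1) * h ≤ 2 * c ^ 2 * h := by
    apply Nat.mul_le_mul_right
    nlinarith
  have h10 : g < c ^ 2 * h := by nlinarith
  have h11 : g ^ 3 < (c ^ 2 * h) ^ 3 := Nat.pow_lt_pow_left h10 (by norm_num)
  have h12 : (c ^ 2 * h) ^ 3 = (c ^ 3) ^ 2 * h ^ 3 := by ring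
  have h13 : (c ^ 3) ^ 2 * h ^ 3 ≤ g ^ 2 * g :=
    Nat.mul_le_mul (Nat.pow_le_pow_left hc 2) hh
  have h14 : g ^ 2 * g = g ^ 3 := by ring
  omega

theorem main (k : ℕ) : ∀ (G : Type*) [Group G] [Finite G], Nat.card G = k → Even k → 2 < k →
    ∃ H : Subgroup G, H ≠ ⊤ ∧ Nat.card G < (Nat.card H) ^ 3 := by
  induction k using Nat.strong_induction_on with
  | _ k ih =>
    intro G _ _ hk heven hgt
    by_cases hZ : Odd (Nat.card (Subgroup.center G))
    · exact odd_center (hk ▸ heven) (hk ▸ hgt) hZ
    rw [Nat.not_odd_iff_even] at hZ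
    obtain ⟨z, hzZ, hz⟩ := exists_invol_of_even _ hZ
    have hnorm : (Subgroup.zpowers z).Normal := by
      constructor
      intro a ha b
      obtain ⟨i, rfl⟩ := Subgroup.mem_zpowers_iff.1 ha
      have : b * z ^ i * b⁻¹ = z ^ i := by
        have h1 : z ^ i ∈ Subgroup.center G := Subgroup.zpow_mem _ hzZ i
        rw [Subgroup.mem_center_iff] at h1
        rw [h1 b]; group
      rw [this]
      exact ha
    have hcardZ : Nat.card (Subgroup.zpowers z) = 2 := by rw [Nat.card_zpowers, hz]
    have hq : Nat.card (G ⧸ Subgroup.zpowers z) * 2 = k := by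
      have := (Subgroup.zpowers z).card_mul_index
      rw [hcardZ, hk, Subgroup.index_eq_card] at this
      omega
    set q := Nat.card (G ⧸ Subgroup.zpowers z) with hqdef
    by_cases hqe : Even q
    · by_cases hq2 : 2 < q
      · obtain ⟨Hb, hHb, hlt⟩ := ih q (by omega) (G ⧸ Subgroup.zpowers z) rfl hqe hq2
        refine ⟨Hb.comap (QuotientGroup.mk' (Subgroup.zpowers z)), ?_, ?_⟩
        · intro htop
          apply hHb
          have := Subgroup.map_comap_eq_self_of_surjective
            (QuotientGroup.mk'_surjective (Subgroup.zpowers z)) Hb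
          rw [htop] at this
          rw [← this, ← MonoidHom.range_eq_map, MonoidHom.range_eq_top]
          exact QuotientGroup.mk'_surjective (Subgroup.zpowers z)
        · have hi : (Hb.comap (QuotientGroup.mk' (Subgroup.zpowers z))).index = Hb.index :=
            Subgroup.index_comap_of_surjective _ (QuotientGroup.mk'_surjective _)
          have h1 := (Hb.comap (QuotientGroup.mk' (Subgroup.zpowers z))).card_mul_index
          have h2 := Hb.card_mul_index
          rw [hi, hk] at h1
          rw [← hqdef] at h2 hlt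
          have hipos : 0 < Hb.index := Nat.pos_of_ne_zero Subgroup.index_ne_zero_of_finite
          have h3 : Nat.card (Hb.comap (QuotientGroup.mk' (Subgroup.zpowers z))) = Nat.card Hb * 2 := by
            apply Nat.eq_of_mul_eq_mul_right hipos
            rw [h1, ← hq, ← h2]; ring
          rw [h3, hk, ← hq]
          have : (Nat.card Hb * 2) ^ 3 = 8 * (Nat.card Hb) ^ 3 := by ring
          omega
      · -- q = 2
        have hq2' : q = 2 := by
          rcases hqe with ⟨r, hr⟩
          omega
        refine ⟨Subgroup.zpowers z, ?_, ?_⟩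
        · intro htop
          rw [htop, Subgroup.card_top] at hcardZ
          omega
        · rw [hcardZ, hk]; omega
    · -- q odd
      have T : Sylow 2 G := default
      have hT : Nat.card T = 2 := by
        rw [Sylow.card_eq_multiplicity, hk, ← hq, Nat.factorization_mul (by omega) (by norm_num)]
        have h1 : q.factorization 2 = 0 := by
          apply Nat.factorization_eq_zero_of_not_dvd
          rwa [← even_iff_two_dvd]
        simp [h1, Nat.Prime.factorization_self Nat.prime_two]
      haveI : Fact (Nat.Prime 2) := ⟨Nat.prime_two⟩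
      have hcyc : IsCyclic (T : Subgroup G) := isCyclic_of_prime_card hT
      obtain ⟨H, hH⟩ := S0219.result (hk ▸ heven) T hcyc
      exact ⟨H, of_index_two (hk ▸ hgt) H hH⟩

/-- A finite group G of even order greater than 2 has a proper subgroup H with |G| < |H|^3. -/
theorem result {G : Type*} [Group G] [Finite G] (heven : Even (Nat.card G)) (hgt : 2 < Nat.card G) : ∃ H : Subgroup G, H ≠ ⊤ ∧ Nat.card G < (Nat.card H) ^ 3 := by
  exact main _ G rfl heven hgt

end Cfsg.Agent.S0232
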