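import Cfsg.Statements.S0234
import Cfsg.Agent.Lib_helper5_BF2
import Cfsg.Agent.S0233
import Cfsg.Agent.S0219
import Cfsg.Agent.S0144

set_option autoImplicit false
open Cfsg

namespace Cfsg.Agent.S0234

open Cfsg.Agent.H5

set_option maxRecDepth 100000 in
theorem count_A5 : (Finset.univ.filter (fun σ : Equiv.Perm (Fin 5) =>
    σ ≠ 1 ∧ σ * σ = 1 ∧ Equiv.Perm.sign σ = 1)).card = 15 := by
  decide +kernel

theorem arith (g : ℕ) (h1 : g ∣ 60) (h2 : Even g) (h3 : 2 < g) (h4 : g ≤ 45) :
    g = 4 ∨ g = 6 ∨ g = 10 ∨ g = 12 ∨ g = 20 ∨ g = 30 := by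
  obtain ⟨k, hk⟩ := h1
  obtain ⟨r, hr⟩ := h2
  interval_cases g <;> omega

theorem not_comm {G : Type*} [Group G] [Finite G] [IsSimpleGroup G]
    (heven : Even (Nat.card G)) (hgt : 2 < Nat.card G) : ¬ (∀ a b : G, a * b = b * a) := by
  intro hcomm
  obtain ⟨t, ht⟩ := exists_invol_of_even' heven
  have hnorm : (Subgroup.zpowers t).Normal := by
    constructor
    intro a ha b
    rw [hcomm b a, mul_assoc, mul_inv_cancel, mul_one]
    exact ha
  rcases hnorm.eq_bot_or_eq_top with h | h
  · rw [Subgroup.zpowers_eq_bot] at h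
    exact ne_one_of_order_two ht h
  · have := Nat.card_zpowers t
    rw [h, Subgroup.card_top, ht] at this
    omega

theorem no_index_two {G : Type*} [Group G] [Finite G] [IsSimpleGroup G]
    (hgt : 2 < Nat.card G) (H : Subgroup G) : H.index ≠ 2 := by
  intro hH
  have hn : H.Normal := Subgroup.normal_of_index_eq_two hH
  rcases hn.eq_bot_or_eq_top with h | h
  · rw [h, Subgroup.index_bot] at hH
    omega
  · rw [h, Subgroup.index_top] at hH
    omega

theorem embed5 {G : Type*} [Group G] [Finite G] [IsSimpleGroup G]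
    (hnc : ¬ (∀ a b : G, a * b = b * a)) (H : Subgroup G) (hH : H ≠ ⊤) (hi : H.index ≤ 5) :
    ∃ ψ : G →* Equiv.Perm (Fin 5), Function.Injective ψ ∧ ∀ g, Equiv.Perm.sign (ψ g) = 1 := by
  classical
  have e : (G ⧸ H) ≃ Fin H.index := Finite.equivFinOfCardEq (Subgroup.index_eq_card H).symm
  let ι : (G ⧸ H) ↪ Fin 5 := e.toEmbedding.trans (Fin.castLEEmb hi)
  let ψ : G →* Equiv.Perm (Fin 5) :=
    (Equiv.Perm.viaEmbeddingHom ι).comp (MulAction.toPermHom G (G ⧸ H))
  have hψ : Function.Injective ψ :=
    (Equiv.Perm.viaEmbeddingHom_injective ι).comp (simple_toPerm_injective H hH)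
  refine ⟨ψ, hψ, ?_⟩
  let σ : G →* ℤˣ := Equiv.Perm.sign.comp ψ
  have hσ : σ.ker = ⊤ := by
    rcases (σ.normal_ker).eq_bot_or_eq_top with h | h
    · exfalso
      apply hnc
      have hσinj : Function.Injective σ := (MonoidHom.ker_eq_bot_iff σ).1 h
      exact fun a b => hσinj (by rw [map_mul, map_mul, mul_comm])
    · exact h
  intro g
  have : g ∈ σ.ker := hσ ▸ Subgroup.mem_top g
  exact this

theorem not_burnside {G : Type*} [Group G] [Finite G] [IsSimpleGroup G]
    (hnc : ¬ (∀ a b : G, a * b = b * a)) (p q a b : ℕ) (hp : p.Prime) (hq : q.Prime) :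
    Nat.card G ≠ p ^ a * q ^ b := by
  intro h
  have := S0144.result p q a b hp hq h
  exact hnc (IsSimpleGroup.comm_iff_isSolvable.2 this)

/-- In a finite simple group G of even order greater than 2, the number n of involutions satisfies 3n < |G|. -/
theorem result {G : Type*} [Group G] [Finite G] [IsSimpleGroup G] (heven : Even (Nat.card G)) (hgt : 2 < Nat.card G) : 3 * Nat.card {t : G // orderOf t = 2} < Nat.card G := by
  classical
  by_contra hcon
  push Not at hcon
  have hnc := not_comm heven hgt
  have hZ : Subgroup.center G = ⊥ := by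
    rcases (inferInstance : (Subgroup.center G).Normal).eq_bot_or_eq_top with hZ | hZ
    · exact hZ
    · exfalso
      apply hnc
      intro a b
      have : b ∈ Subgroup.center G := hZ ▸ Subgroup.mem_top b
      rw [Subgroup.mem_center_iff] at this
      exact this a
  have hZodd : Odd (Nat.card (Subgroup.center G)) := by rw [hZ]; simp
  obtain ⟨H, hH, hidx⟩ := S0233.result heven hZodd
  have hi : H.index ≤ 5 := by
    rcases hidx with h2 | h2
    · omega
    · set n := Nat.card {t : G // orderOf t = 2} with hn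
      set g := Nat.card G with hg
      have hnpos : 0 < n := by
        by_contra h0
        have : n = 0 := by omega
        omega
      have h4 : g * (g + n) ≤ (3 * n) * (3 * n + n) := Nat.mul_le_mul hcon (by omega)
      have h5 : 2 * H.index * n ^ 2 < 12 * n ^ 2 := by
        calc 2 * H.index * n ^ 2 < g * (g + n) := h2
          _ ≤ (3 * n) * (3 * n + n) := h4
          _ = 12 * n ^ 2 := by ring
      have h6 : 2 * H.index < 12 := lt_of_mul_lt_mul_right h5 (Nat.zero_le _)
      omega
  obtain ⟨ψ, hψ, hsign⟩ := embed5 hnc H hH hi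
  -- |G| divides 60
  have hdvd : Nat.card G ∣ 60 := by
    let ψ' : G →* alternatingGroup (Fin 5) := ψ.codRestrict _ (fun g => by
      rw [Equiv.Perm.mem_alternatingGroup]; exact hsign g)
    have hinj : Function.Injective ψ' := by
      intro a b hab
      apply hψ
      exact congrArg Subtype.val hab
    have h1 := Subgroup.card_dvd_of_injective ψ' hinj
    have h2 : Nat.card (alternatingGroup (Fin 5)) = 60 := by
      have := two_mul_card_alternatingGroup (α := Fin 5)
      rw [Fintype.card_perm, Fintype.card_fin] at this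
      rw [Nat.card_eq_fintype_card]
      have h5 : Nat.factorial 5 = 120 := by decide
      omega
    rwa [h2] at h1
  -- at most 15 involutions
  have hn15 : Nat.card {t : G // orderOf t = 2} ≤ 15 := by
    rw [← count_A5, ← Fintype.card_coe, ← Nat.card_eq_fintype_card]
    apply Nat.card_le_card_of_injective (fun t : {t : G // orderOf t = 2} =>
      (⟨ψ t.1, by
        rw [Finset.mem_filter]
        refine ⟨Finset.mem_univ _, ?_, ?_, hsign _⟩
        · intro h
          have : t.1 = 1 := hψ (by rw [h, map_one])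
          exact ne_one_of_order_two t.2 this
        · rw [← map_mul, mul_self_of_order_two t.2, map_one]⟩ :
        {x // x ∈ Finset.univ.filter (fun σ : Equiv.Perm (Fin 5) =>
          σ ≠ 1 ∧ σ * σ = 1 ∧ Equiv.Perm.sign σ = 1)}))
    intro a b hab
    apply Subtype.ext
    apply hψ
    exact congrArg (fun z : {x // x ∈ Finset.univ.filter (fun σ : Equiv.Perm (Fin 5) =>
          σ ≠ 1 ∧ σ * σ = 1 ∧ Equiv.Perm.sign σ = 1)} => z.1) hab
  rcases arith _ hdvd heven hgt (by omega) with h | h | h | h | h | h
  · exact not_burnside hnc 2 3 2 0 Nat.prime_two Nat.prime_three (by rw [h]; norm_num)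
  · exact not_burnside hnc 2 3 1 1 Nat.prime_two Nat.prime_three (by rw [h]; norm_num)
  · exact not_burnside hnc 2 5 1 1 Nat.prime_two Nat.prime_five (by rw [h]; norm_num)
  · exact not_burnside hnc 2 3 2 1 Nat.prime_two Nat.prime_three (by rw [h]; norm_num)
  · exact not_burnside hnc 2 5 2 1 Nat.prime_two Nat.prime_five (by rw [h]; norm_num)
  · have T : Sylow 2 G := default
    have hT : Nat.card T = 2 := by
      rw [Sylow.card_eq_multiplicity, h]
      have : (30 : ℕ).factorization 2 = 1 := by
        have h30 : (30 : ℕ) = 2 * 15 := by norm_num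
        rw [h30, Nat.factorization_mul (by norm_num) (by norm_num)]
        have h1 : (15 : ℕ).factorization 2 = 0 :=
          Nat.factorization_eq_zero_of_not_dvd (by norm_num)
        simp [h1, Nat.Prime.factorization_self Nat.prime_two]
      rw [this]; norm_num
    haveI : Fact (Nat.Prime 2) := ⟨Nat.prime_two⟩
    have hcyc : IsCyclic (T : Subgroup G) := isCyclic_of_prime_card hT
    obtain ⟨K, hK⟩ := S0219.result heven T hcyc
    exact no_index_two hgt K hK

end Cfsg.Agent.S0234
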