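import Cfsg.Statements.S0239
import Cfsg.Agent.Lib_helper5_Count

set_option autoImplicit false
open Cfsg

namespace Cfsg.Agent.S0239


/-- If some nontrivial element x of a finite group G is conjugate to x⁻¹, then |G| is even. -/
theorem result {G : Type*} [Group G] [Finite G] (x : G) (hx : x ≠ 1) (hreal : IsConj x x⁻¹) : Even (Nat.card G) := by
  by_contra hodd
  rw [Nat.not_even_iff_odd] at hodd
  obtain ⟨g, hg⟩ := isConj_iff.1 hreal
  -- g has odd order
  have hgo : Odd (orderOf g) := Odd.of_dvd_nat hodd (orderOf_dvd_natCard g)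
  obtain ⟨m, hm⟩ := hgo
  -- g^2 commutes with x
  have h2 : Commute (g ^ 2) x := by
    have h3 : g * x⁻¹ * g⁻¹ = x := by
      have := congrArg (fun z => z⁻¹) hg
      simp only [mul_inv_rev, inv_inv] at this
      rw [← mul_assoc] at this
      exact this
    have h4 : g ^ 2 * x * (g ^ 2)⁻¹ = x := by
      calc g ^ 2 * x * (g ^ 2)⁻¹ = g * (g * x * g⁻¹) * g⁻¹ := by rw [sq]; group
        _ = x := by rw [hg, h3]
    exact mul_inv_eq_iff_eq_mul.1 h4
  have h5 : g = (g ^ 2) ^ (m + 1) := by
    rw [← pow_mul]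
    have : 2 * (m + 1) = orderOf g + 1 := by omega
    rw [this, pow_succ, pow_orderOf_eq_one, one_mul]
  have h6 : Commute g x := by
    rw [h5]; exact h2.pow_left _
  have h7 : x = x⁻¹ := by
    rw [← hg, h6.eq, mul_inv_cancel_right]
  have h8 : orderOf x = 2 := by
    apply H5.order_two_of hx
    nth_rewrite 2 [h7]
    exact mul_inv_cancel x
  have h9 : 2 ∣ Nat.card G := h8 ▸ orderOf_dvd_natCard x
  exact (Nat.not_even_iff_odd.2 hodd) (even_iff_two_dvd.2 h9)

end Cfsg.Agent.S0239
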