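import Cfsg.Statements.S0240
import Cfsg.Agent.Lib_helper5_Count

set_option autoImplicit false
open Cfsg

namespace Cfsg.Agent.S0240


/-- Let G be a finite group with n involutions and H a subgroup with |H|·(n+1) > |G|. Then some nontrivial h ∈ H is strongly real in G: an involution t of G satisfies t h t⁻¹ = h⁻¹. -/
theorem result {G : Type*} [Group G] [Finite G] (H : Subgroup G) (hH : Nat.card G < Nat.card H * (Nat.card {t : G // orderOf t = 2} + 1)) : ∃ h : G, h ∈ H ∧ h ≠ 1 ∧ ∃ t : G, orderOf t = 2 ∧ t * h * t⁻¹ = h⁻¹ := by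
  classical
  have := Fintype.ofFinite G
  let f : Option {t : G // orderOf t = 2} → G ⧸ H := fun o => match o with
    | none => ((1 : G) : G ⧸ H)
    | some t => ((t : G) : G ⧸ H)
  have hcard : Nat.card (G ⧸ H) < Nat.card (Option {t : G // orderOf t = 2}) := by
    rw [Finite.card_option]
    rw [Subgroup.card_eq_card_quotient_mul_card_subgroup H, mul_comm] at hH
    exact Nat.lt_of_mul_lt_mul_left hH
  have hninj : ¬ Function.Injective f := by
    intro hinj
    exact absurd (Nat.card_le_card_of_injective f hinj) (not_le.2 hcard)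
  rw [Function.Injective] at hninj
  push Not at hninj
  obtain ⟨a, b, hab, hne⟩ := hninj
  -- general claim
  have key1 : ∀ t : {t : G // orderOf t = 2}, ((1 : G) : G ⧸ H) = ((t : G) : G ⧸ H) →
      ∃ h : G, h ∈ H ∧ h ≠ 1 ∧ ∃ t : G, orderOf t = 2 ∧ t * h * t⁻¹ = h⁻¹ := by
    intro t ht
    rw [QuotientGroup.eq] at ht
    simp only [inv_one, one_mul] at ht
    refine ⟨t, ht, H5.ne_one_of_order_two t.2, t, t.2, ?_⟩
    rw [mul_inv_cancel_right, H5.inv_of_order_two t.2]
  cases a with
  | none =>
    cases b with
    | none => exact absurd rfl hne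
    | some t => exact key1 t hab
  | some s =>
    cases b with
    | none => exact key1 s hab.symm
    | some t =>
      have h1 : ((s : G) : G ⧸ H) = ((t : G) : G ⧸ H) := hab
      rw [QuotientGroup.eq, H5.inv_of_order_two s.2] at h1
      refine ⟨(s : G) * t, h1, ?_, s, s.2, H5.invol_pair_inverts s.2 t.2 rfl⟩
      intro h2
      apply hne
      have h3 : (t : G) = (s : G)⁻¹ := eq_inv_of_mul_eq_one_right h2
      rw [H5.inv_of_order_two s.2] at h3
      congr 1
      ext
      exact h3.symm

end Cfsg.Agent.S0240
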