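import Cfsg.Statements.S0241
import Cfsg.Agent.Lib_helper5_Count

set_option autoImplicit false
open Cfsg

namespace Cfsg.Agent.S0241


/-- If x ≠ 1 is conjugate to x⁻¹ in a finite group G and |C_G(x)| is odd, then some involution t satisfies t x t⁻¹ = x⁻¹. -/
theorem result {G : Type*} [Group G] [Finite G] (x : G) (hx : x ≠ 1) (hreal : IsConj x x⁻¹) (hodd : Odd (Nat.card (Subgroup.centralizer ({x} : Set G)))) : ∃ t : G, orderOf t = 2 ∧ t * x * t⁻¹ = x⁻¹ := by
  obtain ⟨g, hg⟩ := isConj_iff.1 hreal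
  have hgpos : orderOf g ≠ 0 := (orderOf_pos g).ne'
  obtain ⟨k, m, hm, hkm⟩ := Nat.exists_eq_two_pow_mul_odd hgpos
  -- powers of g act on x
  have hpow : ∀ n : ℕ, g ^ n * x * (g ^ n)⁻¹ = if Even n then x else x⁻¹ := by
    intro n
    induction n with
    | zero => simp
    | succ n ih =>
      have h1 : g ^ (n + 1) * x * (g ^ (n + 1))⁻¹ = g * (g ^ n * x * (g ^ n)⁻¹) * g⁻¹ := by
        rw [pow_succ']; group
      rw [h1, ih]
      have h3 : g * x⁻¹ * g⁻¹ = x := by
        have := congrArg (fun z => z⁻¹) hg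
        simp only [mul_inv_rev, inv_inv] at this
        rw [← mul_assoc] at this
        exact this
      by_cases hn : Even n
      · have : ¬ Even (n + 1) := by rw [Nat.even_add_one]; simpa using hn
        rw [if_pos hn, if_neg this, hg]
      · have : Even (n + 1) := by rw [Nat.even_add_one]; exact hn
        rw [if_neg hn, if_pos this, h3]
  set t := g ^ m with ht
  have htx : t * x * t⁻¹ = x⁻¹ := by
    rw [ht, hpow m, if_neg (Nat.not_even_iff_odd.2 hm)]
  have ht2 : t ^ 2 ∈ Subgroup.centralizer ({x} : Set G) := by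
    rw [Subgroup.mem_centralizer_singleton_iff, ht, ← pow_mul]
    have := hpow (m * 2)
    rw [if_pos (by simp)] at this
    exact mul_inv_eq_iff_eq_mul.1 this
  -- t^2 has 2-power order and odd order
  have ht3 : (t ^ 2) ^ (2 ^ k) = 1 := by
    rw [ht, ← pow_mul, ← pow_mul]
    have : m * (2 * 2 ^ k) = orderOf g * 2 := by rw [hkm]; ring
    rw [this, pow_mul, pow_orderOf_eq_one, one_pow]
  have ht4 : orderOf (t ^ 2) ∣ 2 ^ k := orderOf_dvd_of_pow_eq_one ht3
  have ht5 : orderOf (t ^ 2) ∣ Nat.card (Subgroup.centralizer ({x} : Set G)) := by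
    have := orderOf_dvd_natCard (⟨t ^ 2, ht2⟩ : Subgroup.centralizer ({x} : Set G))
    rwa [← Subgroup.orderOf_coe] at this
  have ht6 : orderOf (t ^ 2) = 1 := by
    have hc : Nat.Coprime (2 ^ k) (Nat.card (Subgroup.centralizer ({x} : Set G))) :=
      Nat.Coprime.pow_left _ (Nat.coprime_two_left.2 hodd)
    exact Nat.eq_one_of_dvd_coprimes hc ht4 ht5
  rw [orderOf_eq_one_iff, sq] at ht6
  refine ⟨t, H5.order_two_of ?_ ht6, htx⟩
  intro h1
  rw [h1] at htx
  simp only [one_mul, inv_one, mul_one] at htx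
  have h8 : orderOf x = 2 := by
    apply H5.order_two_of hx
    nth_rewrite 2 [htx]
    exact mul_inv_cancel x
  have hxc : x ∈ Subgroup.centralizer ({x} : Set G) := by
    rw [Subgroup.mem_centralizer_singleton_iff]
  have h9 : 2 ∣ Nat.card (Subgroup.centralizer ({x} : Set G)) := by
    have := orderOf_dvd_natCard (⟨x, hxc⟩ : Subgroup.centralizer ({x} : Set G))
    rwa [← Subgroup.orderOf_coe, h8] at this
  exact (Nat.not_even_iff_odd.2 hodd) (even_iff_two_dvd.2 h9)

end Cfsg.Agent.S0241
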