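import Cfsg.Statements.S0250
import Cfsg.Agent.Lib_helper6_PSL2Perm

set_option autoImplicit false
open Cfsg

namespace Cfsg.Agent.S0250

/-- SL_2(2) is isomorphic to S_3. -/
theorem result {F : Type*} [Field F] [Fintype F] (hF : Fintype.card F = 2) : Nonempty (Matrix.SpecialLinearGroup (Fin 2) F ≃* Equiv.Perm (Fin 3)) := by
  obtain ⟨f, hf⟩ := Cfsg.Agent.H6.exists_injective_PSL2_to_perm' hF
  have hc := Cfsg.Agent.H6.card_center_SL_field (F := F) 2 (by norm_num)
  rw [hF] at hc
  have hc1 : Subgroup.center (Matrix.SpecialLinearGroup (Fin 2) F) = ⊥ := by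
    rw [← Subgroup.card_eq_one]
    simpa using hc
  have hcard := Cfsg.Agent.H6.card_SL_field (F := F) 2 (by norm_num)
  rw [hF] at hcard
  simp [Fin.prod_univ_two] at hcard
  let g : Matrix.SpecialLinearGroup (Fin 2) F →* Equiv.Perm (Fin (2 + 1)) :=
    f.comp (QuotientGroup.mk' _)
  have hg : Function.Injective g := by
    rw [injective_iff_map_eq_one]
    intro x hx
    have h1 : (QuotientGroup.mk' (Subgroup.center (Matrix.SpecialLinearGroup (Fin 2) F))) x = 1 :=
      hf (by rw [map_one]; exact hx)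
    rw [QuotientGroup.mk'_apply, QuotientGroup.eq_one_iff, hc1, Subgroup.mem_bot] at h1
    exact h1
  exact Cfsg.Agent.H6.nonempty_mulEquiv_perm_of_injective g hg (by rw [hcard]; rfl)

end Cfsg.Agent.S0250
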