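import Cfsg.Statements.S0252
import Cfsg.Agent.Lib_helper6_PSL2Perm

set_option autoImplicit false
open Cfsg

namespace Cfsg.Agent.S0252

/-- PSL_2(4) is isomorphic to A_5. -/
theorem result {F : Type*} [Field F] [Fintype F] (hF : Fintype.card F = 4) : Nonempty (Matrix.ProjectiveSpecialLinearGroup (Fin 2) F ≃* alternatingGroup (Fin 5)) := by
  obtain ⟨f, hf⟩ := Cfsg.Agent.H6.exists_injective_PSL2_to_perm' hF
  have hcard := Cfsg.Agent.H6.card_PSL_field (F := F) 2 (by norm_num)
  rw [hF] at hcard
  simp [Fin.prod_univ_two] at hcard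
  refine Cfsg.Agent.H6.nonempty_mulEquiv_alternating_of_injective f hf ?_
  have h : (4 + 1).factorial = 120 := rfl
  rw [h]
  omega

end Cfsg.Agent.S0252
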