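import Cfsg.Statements.S0494
import Mathlib
import Cfsg.Agent.Lib_helper6_PSL2Perm

set_option autoImplicit false
open Cfsg

namespace Cfsg.Agent.S0494

/-- A simple group of order 60 is isomorphic to the alternating group of degree 5. -/
theorem result {G : Type*} [Group G] [Finite G] [IsSimpleGroup G]
    (h : Nat.card G = 60) : Nonempty (G ≃* alternatingGroup (Fin 5)) := by
  haveI : Fact (Nat.Prime 2) := ⟨Nat.prime_two⟩
  obtain ⟨P⟩ : Nonempty (Sylow 2 G) := inferInstance
  have hPcard : Nat.card (P : Subgroup G) = 4 := by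
    obtain ⟨k, hk⟩ := (IsPGroup.iff_card.mp P.2)
    have h1 := (P : Subgroup G).card_mul_index
    have h2 := P.not_dvd_index
    rw [h] at h1
    rw [hk] at h1 ⊢
    have hk6 : k < 6 := by
      by_contra hc
      push Not at hc
      have : 2 ^ 6 ≤ 2 ^ k := Nat.pow_le_pow_right (by norm_num) hc
      have h3 : 2 ^ k ∣ 60 := ⟨_, h1.symm⟩
      have := Nat.le_of_dvd (by norm_num) h3
      omega
    interval_cases k <;> omega
  have hsimple : ∀ K : Subgroup G, K.Normal → Nat.card K = 1 ∨ Nat.card K = 60 := by
    intro K hK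
    rcases hK.eq_bot_or_eq_top with rfl | rfl
    · left; simp
    · right; simp [h]
  set N := Subgroup.normalizer ((P : Subgroup G) : Set G) with hN
  have hPN : (P : Subgroup G) ≤ N := Subgroup.le_normalizer
  have h4 : 4 ∣ Nat.card N := hPcard ▸ Subgroup.card_dvd_of_le hPN
  have hidx : Nat.card N * N.index = 60 := h ▸ N.card_mul_index
  have hne60 : N.index ≠ 1 := by
    intro h1
    have htop : N = ⊤ := Subgroup.index_eq_one.mp h1
    have hnorm : (P : Subgroup G).Normal := Subgroup.normalizer_eq_top_iff.mp htop
    rcases hsimple _ hnorm with h2 | h2 <;> omega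
  have hne4 : Nat.card N ≠ 4 := by
    intro h1
    have hNP : N = P := (Subgroup.eq_of_le_of_card_ge hPN (by rw [h1, hPcard])).symm
    have hcomm : ∀ a ∈ (P : Subgroup G), ∀ b ∈ (P : Subgroup G), a * b = b * a := by
      haveI := IsPGroup.isMulCommutative_of_card_eq_prime_sq (p := 2) (G := (P : Subgroup G))
        (by rw [hPcard]; norm_num)
      intro a ha b hb
      have := this.is_comm.comm (⟨a, ha⟩ : (P : Subgroup G)) ⟨b, hb⟩
      exact congrArg Subtype.val this
    have hle : Subgroup.normalizer ((P : Subgroup G) : Set G) ≤ Subgroup.centralizer (P : Set G) := by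
      rw [← hN, hNP]
      intro a ha
      rw [Subgroup.mem_centralizer_iff]
      intro b hb
      exact hcomm b hb a ha
    have hc := MonoidHom.ker_transferSylow_isComplement' P hle
    have hcc := hc.card_mul_card
    rw [hPcard, h] at hcc
    rcases hsimple _ (MonoidHom.normal_ker (MonoidHom.transferSylow P hle)) with h2 | h2 <;> omega
  -- the coset action is faithful
  have hcore : N.normalCore = ⊥ := by
    rcases (Subgroup.normalCore_normal N).eq_bot_or_eq_top with h1 | h1
    · exact h1
    · exfalso
      apply hne60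
      rw [Subgroup.index_eq_one, eq_top_iff, ← h1]
      exact Subgroup.normalCore_le N
  have hinj : Function.Injective (MulAction.toPermHom G (G ⧸ N)) := by
    rw [← MonoidHom.ker_eq_bot_iff, ← Subgroup.normalCore_eq_ker, hcore]
  have hcard := Nat.card_le_card_of_injective _ hinj
  classical
  haveI : Fintype (G ⧸ N) := Fintype.ofFinite _
  rw [Nat.card_eq_fintype_card (α := Equiv.Perm _), Fintype.card_perm,
    ← Nat.card_eq_fintype_card, ← Subgroup.index, h] at hcard
  have hidx5 : N.index = 5 := by
    obtain ⟨c, hc⟩ := h4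
    rw [hc] at hidx hne4
    have hc15 : c * N.index = 15 := by nlinarith
    have hcd : N.index ∣ 15 := ⟨c, by rw [← hc15, mul_comm]⟩
    have hle15 : N.index ≤ 15 := Nat.le_of_dvd (by norm_num) hcd
    generalize N.index = k at *
    interval_cases k <;> first | omega | (simp [Nat.factorial] at hcard) | rfl
  have e : (G ⧸ N) ≃ Fin 5 := by
    have : Fintype.card (G ⧸ N) = 5 := by
      rw [← Nat.card_eq_fintype_card, ← Subgroup.index, hidx5]
    exact Fintype.equivFinOfCardEq this
  refine Cfsg.Agent.H6.nonempty_mulEquiv_alternating_of_injective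
    ((Equiv.permCongrHom e).toMonoidHom.comp (MulAction.toPermHom G (G ⧸ N))) ?_ ?_
  · exact (Equiv.permCongrHom e).injective.comp hinj
  · rw [h]; rfl

end Cfsg.Agent.S0494
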