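import Cfsg.Statements.S0253
import Mathlib
import Cfsg.Agent.Lib_helper6_SLCard
import Cfsg.Agent.S0494

set_option autoImplicit false
open Cfsg

namespace Cfsg.Agent.S0253

/-- PSL_2(5) is isomorphic to A_5. -/
theorem result {F : Type*} [Field F] [Fintype F] (hF : Fintype.card F = 5) : Nonempty (Matrix.ProjectiveSpecialLinearGroup (Fin 2) F ≃* alternatingGroup (Fin 5)) := by
  haveI : IsSimpleGroup (Matrix.ProjectiveSpecialLinearGroup (Fin 2) F) :=
    Matrix.ProjectiveSpecialLinearGroup.rank_two_simple (by
      rw [Nat.card_eq_fintype_card, hF]; norm_num)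
  haveI : Finite (Matrix.ProjectiveSpecialLinearGroup (Fin 2) F) := by
    unfold Matrix.ProjectiveSpecialLinearGroup
    infer_instance
  have hc := Cfsg.Agent.H6.card_PSL_field (F := F) 2 (by norm_num)
  rw [hF] at hc
  simp [Fin.prod_univ_two] at hc
  exact Cfsg.Agent.S0494.result (by omega)

end Cfsg.Agent.S0253
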