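import Cfsg.Statements.S0261
import Cfsg.Agent.Lib_helper7_Quat3

set_option autoImplicit false
open Cfsg

namespace Cfsg.Agent.S0261

open Matrix in
theorem exQ {F : Type*} [Field F] (a b : F) (h : a ^ 2 + b ^ 2 = -1) :
   ∃ α ξ : SpecialLinearGroup (Fin 2) F, α ^ (2 * 2) = 1 ∧ ξ * α * ξ⁻¹ = α⁻¹ ∧ ξ ^ 2 = α ^ 2 ∧ α ^ 2 = -1 := by
  let α : SpecialLinearGroup (Fin 2) F := ⟨!![0, -1; 1, 0], by simp [det_fin_two]⟩
  let ξ : SpecialLinearGroup (Fin 2) F := ⟨!![a, b; b, -a], by
    rw [det_fin_two_of]; linear_combination (-1 : F) * h⟩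
  have e1 : α ^ 2 = -1 := by
    apply Subtype.ext
    rw [pow_two]
    show !![0, -1; 1, 0] * !![0, -1; 1, 0] = (-1 : Matrix (Fin 2) (Fin 2) F)
    rw [Matrix.mul_fin_two]
    ext i j
    fin_cases i <;> fin_cases j <;> simp
  have e2 : ξ ^ 2 = -1 := by
    apply Subtype.ext
    rw [pow_two]
    show !![a, b; b, -a] * !![a, b; b, -a] = (-1 : Matrix (Fin 2) (Fin 2) F)
    rw [Matrix.mul_fin_two]
    ext i j
    fin_cases i <;> fin_cases j <;> simp <;>
      first | linear_combination h | linear_combination (-1 : F) * h | linear_combination (0 : F) * h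
  have e3 : ξ * α * ξ = α := by
    apply Subtype.ext

    show !![a, b; b, -a] * !![0, -1; 1, 0] * !![a, b; b, -a] = !![0, -1; 1, 0]
    rw [Matrix.mul_fin_two, Matrix.mul_fin_two]
    ext i j
    fin_cases i <;> fin_cases j <;> simp <;>
      first | linear_combination h | linear_combination (-1 : F) * h | linear_combination (0 : F) * h
  refine ⟨α, ξ, ?_, ?_, by rw [e1, e2], e1⟩
  · rw [pow_mul, e1]; simp
  · have : ξ * α * ξ⁻¹ = (ξ * α * ξ) * (ξ ^ 2)⁻¹ := by rw [pow_two]; group
    rw [this, e3, e2, ← e1, pow_two]; group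

open Matrix in
theorem invSL {F : Type*} [Field F] (h2 : (2 : F) ≠ 0) (t : SpecialLinearGroup (Fin 2) F) (ht : t ^ 2 = 1) :
    t = 1 ∨ t = -1 := by
  have h1 : t = t⁻¹ := by
    rw [pow_two] at ht
    exact eq_inv_of_mul_eq_one_left ht
  have h3 : (t : Matrix (Fin 2) (Fin 2) F) = adjugate (t : Matrix (Fin 2) (Fin 2) F) := by
    conv_lhs => rw [h1]
    exact Matrix.SpecialLinearGroup.coe_inv t
  rw [adjugate_fin_two] at h3
  have e00 : t 0 0 = t 1 1 := by
    have := congrFun (congrFun h3 0) 0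
    simpa using this
  have e01 : t 0 1 = 0 := by
    have := congrFun (congrFun h3 0) 1
    have h4 : t 0 1 = - t 0 1 := by simpa using this
    have h5 : (2 : F) * t 0 1 = 0 := by linear_combination h4
    exact (mul_eq_zero.1 h5).resolve_left h2
  have e10 : t 1 0 = 0 := by
    have := congrFun (congrFun h3 1) 0
    have h4 : t 1 0 = - t 1 0 := by simpa using this
    have h5 : (2 : F) * t 1 0 = 0 := by linear_combination h4
    exact (mul_eq_zero.1 h5).resolve_left h2
  have hdet := t.det_coe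
  rw [det_fin_two, e01, ← e00] at hdet
  have h6 : (t 0 0 - 1) * (t 0 0 + 1) = 0 := by linear_combination hdet
  rcases mul_eq_zero.1 h6 with h | h
  · left
    have h7 : t 0 0 = 1 := by linear_combination h
    ext i j
    fin_cases i <;> fin_cases j <;> simp [e01, e10, h7, ← e00]
  · right
    have h7 : t 0 0 = -1 := by linear_combination h
    ext i j
    fin_cases i <;> fin_cases j <;> simp [e01, e10, h7, ← e00]

/-- For q odd, the Sylow 2-subgroups of SL_2(q) are generalised quaternion. -/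
theorem result {F : Type*} [Field F] [Fintype F] (hF : Odd (Fintype.card F)) (P : Sylow 2 (Matrix.SpecialLinearGroup (Fin 2) F)) : ∃ k : ℕ, 1 ≤ k ∧ Nonempty ((P : Subgroup (Matrix.SpecialLinearGroup (Fin 2) F)) ≃* QuaternionGroup (2 ^ k)) := by
  classical
  have hchar : (2 : F) ≠ 0 := by
    apply Ring.two_ne_zero
    intro h
    have := (FiniteField.even_card_iff_char_two).1 h
    rcases hF with ⟨k, hk⟩
    omega
  obtain ⟨a, b, hab⟩ : ∃ a b : F, a ^ 2 + b ^ 2 = -1 := by
    let f : Polynomial F := Polynomial.X ^ 2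
    let g : Polynomial F := Polynomial.X ^ 2 - Polynomial.C (-1)
    obtain ⟨a, b, hab⟩ : ∃ a b, f.eval a + g.eval b = 0 :=
      FiniteField.exists_root_sum_quadratic (f := f) (g := g) (Polynomial.degree_X_pow 2)
        (Polynomial.degree_X_pow_sub_C (by decide) _) (Nat.odd_iff.1 hF)
    refine ⟨a, b, ?_⟩
    rw [← sub_eq_zero]
    simpa only [f, g, Polynomial.eval_C, Polynomial.eval_X, Polynomial.eval_pow, Polynomial.eval_sub,
      ← add_sub_assoc] using hab
  obtain ⟨α, ξ, h1, h2, h3, h4⟩ := exQ a b hab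
  obtain ⟨f, hfa, hfx⟩ := Cfsg.Agent.H7.quaternion_hom 2 α ξ h1 h2 h3
  have hQ : IsPGroup 2 (QuaternionGroup 2) :=
    IsPGroup.of_card (n := 3) (by rw [Nat.card_eq_fintype_card, QuaternionGroup.card]; norm_num)
  have hR : IsPGroup 2 f.range := hQ.of_surjective f.rangeRestrict f.rangeRestrict_surjective
  obtain ⟨P', hP'⟩ := hR.exists_le_sylow
  have hnc' : ¬ IsCyclic (P' : Subgroup (Matrix.SpecialLinearGroup (Fin 2) F)) := by
    intro hc
    have hα : α ∈ (P' : Subgroup (Matrix.SpecialLinearGroup (Fin 2) F)) := hP' ⟨_, hfa⟩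
    have hξ : ξ ∈ (P' : Subgroup (Matrix.SpecialLinearGroup (Fin 2) F)) := hP' ⟨_, hfx⟩
    have hcomm := hc.isMulCommutative.is_comm.comm ⟨ξ, hξ⟩ ⟨α, hα⟩
    have hcomm' : ξ * α = α * ξ := congrArg Subtype.val hcomm
    have h5 : α = α⁻¹ := by
      rw [← h2, hcomm']; group
    have h6 : α ^ 2 = 1 := by
      rw [pow_two]
      nth_rewrite 1 [h5]
      group
    rw [h4] at h6
    have h7 := congrArg (fun M : Matrix.SpecialLinearGroup (Fin 2) F => M 0 0) h6
    simp only [Matrix.SpecialLinearGroup.coe_neg, Matrix.SpecialLinearGroup.coe_one, Matrix.neg_apply,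
      Matrix.one_apply_eq] at h7
    apply hchar
    linear_combination (-1 : F) * h7
  have hnc : ¬ IsCyclic (P : Subgroup (Matrix.SpecialLinearGroup (Fin 2) F)) := fun hc =>
    hnc' (isCyclic_of_surjective (Sylow.equiv P P').toMonoidHom (Sylow.equiv P P').surjective)
  have main : ∃ z : (P : Subgroup (Matrix.SpecialLinearGroup (Fin 2) F)),
      ∀ t : (P : Subgroup (Matrix.SpecialLinearGroup (Fin 2) F)), t ^ 2 = 1 → t = 1 ∨ t = z := by
    by_cases hm : (-1 : Matrix.SpecialLinearGroup (Fin 2) F) ∈ (P : Subgroup (Matrix.SpecialLinearGroup (Fin 2) F))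
    · refine ⟨⟨-1, hm⟩, fun t ht => ?_⟩
      rcases invSL hchar t.1 (by simpa using congrArg Subtype.val ht) with h | h
      · left; exact Subtype.ext h
      · right; exact Subtype.ext h
    · refine ⟨1, fun t ht => ?_⟩
      left
      rcases invSL hchar t.1 (by simpa using congrArg Subtype.val ht) with h | h
      · exact Subtype.ext h
      · exact absurd (h ▸ t.2) hm
  obtain ⟨z, hz⟩ := main
  rcases Cfsg.Agent.H7.cyclic_or_quaternion_of_unique_involution P.2 z hz with h | ⟨n, hn⟩
  · exact absurd h hnc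
  · refine ⟨n, ?_, hn⟩
    by_contra hlt
    have hn0 : n = 0 := by omega
    subst hn0
    obtain ⟨e⟩ := hn
    apply hnc
    haveI : IsCyclic (QuaternionGroup (2 ^ 0)) := QuaternionGroup.quaternionGroup_one_isCyclic
    exact isCyclic_of_surjective e.symm.toMonoidHom e.symm.surjective

end Cfsg.Agent.S0261
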