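import Cfsg.Statements.S0805
import Cfsg.Agent.Lib_helper6_FieldEmb
import Cfsg.Agent.Lib_helper6_SL2Tori

open Cfsg.Agent.H6 Cfsg.Agent.H6.GL2C

set_option autoImplicit false
open Cfsg

namespace Cfsg.Agent.S0805

theorem nonScalar_map {K F : Type*} [Field K] [Field F] (ι : K →+* F)
    (A : Matrix (Fin 2) (Fin 2) K) : NonScalar (A.map ι) ↔ NonScalar A := by
  unfold GL2C.NonScalar
  simp only [Matrix.map_apply]
  rw [map_ne_zero, map_ne_zero, ι.injective.ne_iff]

theorem nonScalar_smul {F : Type*} [Field F] (c : F) (hc : c ≠ 0)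
    (A : Matrix (Fin 2) (Fin 2) F) : NonScalar (c • A) ↔ NonScalar A := by
  unfold GL2C.NonScalar
  simp only [Matrix.smul_apply, smul_eq_mul]
  rw [mul_ne_zero_iff, mul_ne_zero_iff, (mul_right_injective₀ hc).ne_iff]
  simp [hc]

theorem mk_eq_of_smul {F : Type*} [Field F] (X Y : Matrix.SpecialLinearGroup (Fin 2) F) (c : F)
    (h : (Y : Matrix (Fin 2) (Fin 2) F) = c • (X : Matrix (Fin 2) (Fin 2) F)) :
    (QuotientGroup.mk X : Matrix.ProjectiveSpecialLinearGroup (Fin 2) F) = QuotientGroup.mk Y := by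
  rw [QuotientGroup.eq, mem_center_iff_not_nonScalar, Matrix.SpecialLinearGroup.coe_mul, h,
    Matrix.mul_smul, ← Matrix.SpecialLinearGroup.coe_mul, inv_mul_cancel]
  simp [GL2C.NonScalar]

theorem mem_center_GL_iff {K : Type*} [Field K] (g : GL (Fin 2) K) :
    g ∈ Subgroup.center (GL (Fin 2) K) ↔ ¬ NonScalar (g : Matrix (Fin 2) (Fin 2) K) := by
  rw [Matrix.GeneralLinearGroup.mem_center_iff_val_mem_range_scalar]
  constructor
  · rintro ⟨a, ha⟩
    rw [← ha]
    simp [GL2C.NonScalar]
  · intro h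
    refine ⟨(g : Matrix (Fin 2) (Fin 2) K) 0 0, ?_⟩
    conv_rhs => rw [eq_smul_one_of_not_nonScalar h]
    ext i j
    fin_cases i <;> fin_cases j <;> simp

theorem geom_parity (x : ℕ) (hx : Odd x) (m : ℕ) :
    (∑ i ∈ Finset.range m, x ^ i) % 2 = m % 2 := by
  induction m with
  | zero => simp
  | succ n ih =>
    rw [Finset.sum_range_succ]
    have := Nat.odd_iff.mp (hx.pow (n := n))
    omega

theorem two_mul_card_PSL2 {F : Type*} [Field F] [Fintype F] (hodd : Odd (Fintype.card F)) :
    Nat.card (Matrix.ProjectiveSpecialLinearGroup (Fin 2) F) * 2 =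
      Fintype.card F * (Fintype.card F ^ 2 - 1) := by
  have h1 := Subgroup.card_eq_card_quotient_mul_card_subgroup
    (Subgroup.center (Matrix.SpecialLinearGroup (Fin 2) F))
  rw [card_center_SL_field 2 (by norm_num), card_SL2] at h1
  have h2 : Nat.gcd 2 (Fintype.card F - 1) = 2 := by
    apply Nat.gcd_eq_left
    obtain ⟨t, ht⟩ := hodd
    exact ⟨t, by omega⟩
  rw [h2] at h1
  exact h1.symm

/-- Subfield subgroups: let F be a finite field of odd order q and K a finite field with |K|^m = q, m ≥ 1. Then PSL_2(F) has a subgroup isomorphic to PSL_2(K), and has a subgroup isomorphic to PGL_2(K) if and only if m is even. -/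
theorem result {F K : Type*} [Field F] [Fintype F] [Field K] [Fintype K] {q : ℕ} (hF : Fintype.card F = q) (hodd : Odd q) (m : ℕ) (hm : 1 ≤ m) (hK : Fintype.card K ^ m = q) : (∃ H : Subgroup (Matrix.ProjectiveSpecialLinearGroup (Fin 2) F), Nonempty (H ≃* Matrix.ProjectiveSpecialLinearGroup (Fin 2) K)) ∧ ((∃ H : Subgroup (Matrix.ProjectiveSpecialLinearGroup (Fin 2) F), Nonempty (H ≃* Matrix.ProjGenLinGroup (Fin 2) K)) ↔ Even m) := by
  classical
  obtain ⟨ι⟩ := exists_ringHom_of_card_pow (K := K) (F := F) m (by rw [hF, hK])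
  set k₀ := Fintype.card K with hk₀
  have hk₀odd : Odd k₀ := (Nat.odd_pow_iff (e := m) (by omega)).mp (by rw [hK]; exact hodd)
  have hk2 : 2 ≤ k₀ := Fintype.one_lt_card
  have hFodd : Odd (Fintype.card F) := by rw [hF]; exact hodd
  refine ⟨?_, ?_, ?_⟩
  · let φ : Matrix.SpecialLinearGroup (Fin 2) K →* Matrix.ProjectiveSpecialLinearGroup (Fin 2) F :=
      (QuotientGroup.mk' (Subgroup.center (Matrix.SpecialLinearGroup (Fin 2) F))).comp
        (Matrix.SpecialLinearGroup.map ι)
    have hker : φ.ker = Subgroup.center (Matrix.SpecialLinearGroup (Fin 2) K) := by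
      ext A
      rw [MonoidHom.mem_ker]
      show (QuotientGroup.mk (Matrix.SpecialLinearGroup.map ι A) :
        Matrix.ProjectiveSpecialLinearGroup (Fin 2) F) = 1 ↔ _
      rw [QuotientGroup.eq_one_iff, mem_center_iff_not_nonScalar, mem_center_iff_not_nonScalar]
      exact not_congr (nonScalar_map ι _)
    exact ⟨φ.range, ⟨(QuotientGroup.quotientKerEquivRange φ).symm.trans
      (QuotientGroup.quotientMulEquivOfEq hker)⟩⟩
  · rintro ⟨H, ⟨e⟩⟩
    by_contra hm2
    have hmodd : m % 2 = 1 := by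
      rcases Nat.even_or_odd m with h | h
      · exact absurd h hm2
      · exact Nat.odd_iff.mp h
    have hH : Nat.card H = k₀ * (k₀ ^ 2 - 1) := by
      rw [Nat.card_congr e.toEquiv, card_PGL_eq_card_SL, card_SL2]
    have hdvd := Subgroup.card_subgroup_dvd_card H
    rw [hH] at hdvd
    obtain ⟨t, ht⟩ := hdvd
    have h2 := two_mul_card_PSL2 hFodd
    rw [ht, hF] at h2
    have hgeo := geom_sum_mul_add (k₀ ^ 2 - 1) m
    have hk1 : k₀ ^ 2 - 1 + 1 = k₀ ^ 2 := Nat.sub_add_cancel (Nat.one_le_pow _ _ (by omega))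
    rw [hk1] at hgeo
    set S := ∑ i ∈ Finset.range m, (k₀ ^ 2) ^ i with hS
    have hSodd : S % 2 = 1 := by
      rw [hS, geom_parity _ hk₀odd.pow, hmodd]
    have hq2 : q ^ 2 - 1 = S * (k₀ ^ 2 - 1) := by
      rw [← hK, ← pow_mul, mul_comm m 2, pow_mul, ← hgeo]
      simp
    rw [hq2] at h2
    have hN : 0 < k₀ ^ 2 - 1 := by
      have : 2 ^ 2 ≤ k₀ ^ 2 := Nat.pow_le_pow_left hk2 2
      omega
    have h3 : (k₀ ^ 2 - 1) * (k₀ * t * 2) = (k₀ ^ 2 - 1) * (q * S) := by
      linarith [h2]
    have h4 := Nat.eq_of_mul_eq_mul_left hN h3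
    have h5 : (q * S) % 2 = 1 := by
      rw [Nat.mul_mod, Nat.odd_iff.mp hodd, hSodd]
    omega
  · intro hm2
    obtain ⟨j, hj⟩ := hm2
    have hchar : ringChar F ≠ 2 := by
      intro h
      have h1 := FiniteField.even_card_of_char_two h
      have h2 := Nat.odd_iff.mp hFodd
      omega
    have hsq : ∀ k : K, IsSquare (ι k) := by
      intro k
      by_cases hk : k = 0
      · subst hk
        rw [map_zero]
        exact IsSquare.zero
      · rw [FiniteField.isSquare_iff hchar ((map_ne_zero ι).mpr hk)]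
        obtain ⟨w, hw⟩ : ∃ w, k₀ + 1 = 2 * w := by
          obtain ⟨t, ht⟩ := hk₀odd
          exact ⟨t + 1, by omega⟩
        have hgeo := geom_sum_mul_add (k₀ ^ 2 - 1) j
        have hk1 : k₀ ^ 2 - 1 + 1 = k₀ ^ 2 := Nat.sub_add_cancel (Nat.one_le_pow _ _ (by omega))
        rw [hk1] at hgeo
        set S := ∑ i ∈ Finset.range j, (k₀ ^ 2) ^ i with hS
        have hq' : Fintype.card F = 2 * ((k₀ - 1) * (w * S)) + 1 := by
          rw [hF, ← hK, hj, ← two_mul, pow_mul, ← hgeo, sq_sub_one_eq _ (by omega), hw]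
          ring
        have hhalf : Fintype.card F / 2 = (k₀ - 1) * (w * S) := by omega
        rw [hhalf, pow_mul, ← map_pow, FiniteField.pow_card_sub_one_eq_one k hk, map_one, one_pow]
    choose s hs using (fun g : GL (Fin 2) K => hsq ((g : Matrix (Fin 2) (Fin 2) K).det))
    have hs0 : ∀ g, s g ≠ 0 := by
      intro g h0
      have h1 := hs g
      rw [h0, mul_zero] at h1
      exact ((Matrix.isUnit_iff_isUnit_det _).mp g.isUnit).ne_zero ((map_eq_zero ι).mp h1)
    have hdet : ∀ g : GL (Fin 2) K,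
        ((s g)⁻¹ • (g : Matrix (Fin 2) (Fin 2) K).map ι).det = 1 := by
      intro g
      have h1 : ((g : Matrix (Fin 2) (Fin 2) K).map ι).det =
          ι (g : Matrix (Fin 2) (Fin 2) K).det := (RingHom.map_det ι _).symm
      rw [Matrix.det_smul, h1, hs g, Fintype.card_fin]
      have := hs0 g
      field_simp
    have hex : ∀ g : GL (Fin 2) K, ∃ T : Matrix.SpecialLinearGroup (Fin 2) F,
        (T : Matrix (Fin 2) (Fin 2) F) = (s g)⁻¹ • (g : Matrix (Fin 2) (Fin 2) K).map ι :=
      fun g => ⟨⟨_, hdet g⟩, rfl⟩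
    choose T hT using hex
    let ψ : GL (Fin 2) K →* Matrix.ProjectiveSpecialLinearGroup (Fin 2) F :=
      { toFun := fun g => QuotientGroup.mk (T g)
        map_one' := by
          refine (mk_eq_of_smul 1 _ (s 1)⁻¹ ?_).symm
          rw [hT, Units.val_one, Matrix.map_one _ (map_zero ι) (map_one ι)]
          rfl
        map_mul' := by
          intro g h
          rw [← QuotientGroup.mk_mul]
          refine (mk_eq_of_smul _ _ ((s (g * h))⁻¹ * (s g * s h)) ?_).symm
          rw [Matrix.SpecialLinearGroup.coe_mul, hT, hT, hT]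
          rw [Units.val_mul, Matrix.map_mul, Matrix.smul_mul, Matrix.mul_smul, smul_smul, smul_smul]
          congr 1
          have h1 := hs0 g
          have h2 := hs0 h
          field_simp }
    have hker : ψ.ker = Subgroup.center (GL (Fin 2) K) := by
      ext g
      rw [MonoidHom.mem_ker]
      show (QuotientGroup.mk (T g) : Matrix.ProjectiveSpecialLinearGroup (Fin 2) F) = 1 ↔ _
      rw [QuotientGroup.eq_one_iff, mem_center_iff_not_nonScalar, mem_center_GL_iff]
      apply not_congr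
      rw [hT, nonScalar_smul _ (inv_ne_zero (hs0 g)), nonScalar_map]
    exact ⟨ψ.range, ⟨(QuotientGroup.quotientKerEquivRange ψ).symm.trans
      (QuotientGroup.quotientMulEquivOfEq hker)⟩⟩

end Cfsg.Agent.S0805
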