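import Cfsg.Statements.S0807
import Cfsg.Agent.Lib_helper6_SL2Conj
import Cfsg.Agent.Lib_helper6_SL2Classes
import Cfsg.Agent.Lib_helper6_SLCard
import Cfsg.Agent.Lib_helper6_Field
open Cfsg.Agent.H6 Cfsg.Agent.H6.GL2C

set_option autoImplicit false
open Cfsg

namespace Cfsg.Agent.S0807

section gen
variable {G : Type*} [Group G]

theorem exists_klein (x y : G) (hx : orderOf x = 2) (hy : orderOf y = 2) (hne : x ≠ y)
    (hc : x * y = y * x) : ∃ V : Subgroup G, IsKleinFour V ∧ x ∈ V ∧ y ∈ V := by
  have hx2 : x * x = 1 := by rw [← sq, ← hx, pow_orderOf_eq_one]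
  have hy2 : y * y = 1 := by rw [← sq, ← hy, pow_orderOf_eq_one]
  have hx1 : x ≠ 1 := by rintro rfl; simp at hx
  have hy1 : y ≠ 1 := by rintro rfl; simp at hy
  have hyx : y * x = x * y := hc.symm
  have h1 : x * (x * y) = y := by rw [← mul_assoc, hx2, one_mul]
  have h2 : y * (x * y) = x := by rw [← mul_assoc, hyx, mul_assoc, hy2, mul_one]
  have h3 : x * y * x = y := by rw [mul_assoc, hyx, ← mul_assoc, hx2, one_mul]
  have h4 : x * y * y = x := by rw [mul_assoc, hy2, mul_one]
  have h5 : x * y * (x * y) = 1 := by rw [← mul_assoc, h3, hy2]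
  have hsq : ∀ a ∈ ({1, x, y, x * y} : Set G), a * a = 1 := by
    rintro a (rfl | rfl | rfl | rfl)
    · simp
    · exact hx2
    · exact hy2
    · exact h5
  let V : Subgroup G :=
    { carrier := {1, x, y, x * y}
      one_mem' := by simp
      mul_mem' := by
        rintro a b (rfl | rfl | rfl | rfl) (rfl | rfl | rfl | rfl) <;>
          simp [hx2, hy2, hyx, h1, h2, h3, h4, h5]
      inv_mem' := by
        intro a ha
        rw [inv_eq_of_mul_eq_one_left (hsq a ha)]
        exact ha }
  have hxV : x ∈ V := by show x ∈ ({1, x, y, x * y} : Set G); simp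
  have hyV : y ∈ V := by show y ∈ ({1, x, y, x * y} : Set G); simp
  refine ⟨V, ⟨?_, ?_⟩, hxV, hyV⟩
  · show Nat.card (({1, x, y, x * y} : Set G)) = 4
    rw [Nat.card_coe_set_eq, Set.ncard_insert_of_notMem, Set.ncard_insert_of_notMem,
      Set.ncard_insert_of_notMem, Set.ncard_singleton]
    · intro h
      rw [Set.mem_singleton_iff] at h
      apply hx1
      have := h.symm
      rwa [mul_eq_right] at this
    · rintro (h | h)
      · exact hne h
      · rw [Set.mem_singleton_iff] at h
        apply hy1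
        have := h.symm
        rwa [mul_eq_left] at this
    · rintro (h | h | h)
      · exact hx1 h.symm
      · exact hy1 h.symm
      · rw [Set.mem_singleton_iff] at h
        apply hne
        calc x = x * (y * y) := by rw [hy2, mul_one]
          _ = (x * y) * y := by rw [mul_assoc]
          _ = y := by rw [← h, one_mul]
  · have hd : Monoid.exponent V ∣ 2 := by
      apply Monoid.exponent_dvd_of_forall_pow_eq_one
      intro v
      apply Subtype.ext
      rw [sq]
      exact hsq v.1 v.2
    rcases (Nat.dvd_prime Nat.prime_two).mp hd with h | h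
    · exfalso
      have := Monoid.exp_eq_one_iff.mp h
      exact hx1 (congrArg Subtype.val (Subsingleton.elim (⟨x, hxV⟩ : V) 1))
    · exact h

theorem klein_le (V W : Subgroup G) (hV : IsKleinFour V) (x y : G) (hxV : x ∈ V) (hyV : y ∈ V)
    (hxW : x ∈ W) (hyW : y ∈ W) (hx1 : x ≠ 1) (hy1 : y ≠ 1) (hne : x ≠ y) : V ≤ W := by
  intro z hz
  by_cases h1 : z = 1
  · rw [h1]; exact one_mem _
  by_cases h2 : z = x
  · rw [h2]; exact hxW
  by_cases h3 : z = y
  · rw [h3]; exact hyW
  have := IsKleinFour.eq_mul_of_ne_all (G := V) (x := ⟨x, hxV⟩) (y := ⟨y, hyV⟩) (z := ⟨z, hz⟩)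
    (fun h => hx1 (congrArg Subtype.val h)) (fun h => hy1 (congrArg Subtype.val h))
    (fun h => hne (congrArg Subtype.val h)) (fun h => h1 (congrArg Subtype.val h))
    (fun h => h2 (congrArg Subtype.val h)) (fun h => h3 (congrArg Subtype.val h))
  have h4 : z = x * y := congrArg Subtype.val this
  rw [h4]
  exact mul_mem hxW hyW

theorem klein_orderOf (V : Subgroup G) (hV : IsKleinFour V) (x : G) (hxV : x ∈ V) (hx1 : x ≠ 1) :
    orderOf x = 2 := by
  apply orderOf_eq_prime _ hx1
  rw [sq]
  exact congrArg Subtype.val (IsKleinFour.mul_self (⟨x, hxV⟩ : V))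

theorem klein_comm (V : Subgroup G) (hV : IsKleinFour V) (x y : G) (hxV : x ∈ V) (hyV : y ∈ V) :
    x * y = y * x := by
  have := IsKleinFour.isMulCommutative (G := V)
  exact congrArg Subtype.val (this.is_comm.comm (⟨x, hxV⟩ : V) ⟨y, hyV⟩)


theorem card_pairs [Fintype G] [DecidableEq G] :
    (Finset.univ.filter (fun p : G × G => orderOf p.1 = 2 ∧ orderOf p.2 = 2 ∧ p.1 ≠ p.2 ∧
      p.1 * p.2 = p.2 * p.1)).card = 6 * Nat.card {V : Subgroup G // IsKleinFour V} := by
  classical
  have : Fintype (Subgroup G) := Fintype.ofFinite _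
  let K : Finset (Subgroup G) := Finset.univ.filter (fun V => IsKleinFour V)
  let s : Subgroup G → Finset G := fun V => (Finset.univ.filter (· ∈ V)).erase 1
  have hmem : ∀ V a, a ∈ s V ↔ a ≠ 1 ∧ a ∈ V := by
    intro V a
    simp [s]
  have hs : ∀ V ∈ K, (s V).card = 3 := by
    intro V hV
    have hV' : IsKleinFour V := (Finset.mem_filter.mp hV).2
    have h4 : (Finset.univ.filter (· ∈ V)).card = 4 := by
      rw [← hV'.card_four, Nat.card_eq_fintype_card, Fintype.card_subtype]
    rw [Finset.card_erase_of_mem (by simp [one_mem]), h4]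
  have e : (Finset.univ.filter (fun p : G × G => orderOf p.1 = 2 ∧ orderOf p.2 = 2 ∧ p.1 ≠ p.2 ∧
      p.1 * p.2 = p.2 * p.1)) = K.biUnion (fun V => (s V).offDiag) := by
    ext ⟨x, y⟩
    simp only [Finset.mem_filter, Finset.mem_univ, true_and, Finset.mem_biUnion,
      Finset.mem_offDiag, hmem, K]
    constructor
    · rintro ⟨hx, hy, hne, hc⟩
      obtain ⟨V, hV, hxV, hyV⟩ := exists_klein x y hx hy hne hc
      refine ⟨V, hV, ⟨?_, hxV⟩, ⟨?_, hyV⟩, hne⟩
      · rintro rfl; simp at hx
      · rintro rfl; simp at hy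
    · rintro ⟨V, hV, ⟨hx1, hxV⟩, ⟨hy1, hyV⟩, hne⟩
      exact ⟨klein_orderOf V hV x hxV hx1, klein_orderOf V hV y hyV hy1, hne,
        klein_comm V hV x y hxV hyV⟩
  rw [e, Finset.card_biUnion, Finset.sum_const_nat (m := 6)]
  · rw [Nat.card_eq_fintype_card, Fintype.card_subtype, mul_comm]
  · intro V hV
    rw [Finset.offDiag_card, hs V hV]
  · intro V hV W hW hVW
    show Disjoint (s V).offDiag (s W).offDiag
    rw [Finset.disjoint_left]
    rintro ⟨x, y⟩ h1 h2
    simp only [Finset.mem_offDiag, hmem] at h1 h2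
    obtain ⟨⟨hx1, hxV⟩, ⟨hy1, hyV⟩, hne⟩ := h1
    obtain ⟨⟨-, hxW⟩, ⟨-, hyW⟩, -⟩ := h2
    exact hVW (le_antisymm
      (klein_le V W (Finset.mem_filter.mp hV).2 x y hxV hyV hxW hyW hx1 hy1 hne)
      (klein_le W V (Finset.mem_filter.mp hW).2 x y hxW hyW hxV hyV hx1 hy1 hne))

/-- preimage count under a surjective homomorphism -/
theorem card_preimage {X Y : Type*} [Group X] [Group Y] [Fintype X] [Fintype Y] [DecidableEq X]
    [DecidableEq Y] (f : X →* Y) (hf : Function.Surjective f) (T : Finset Y) :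
    (Finset.univ.filter (fun x => f x ∈ T)).card = T.card * Nat.card f.ker := by
  rw [Finset.card_eq_sum_card_fiberwise (f := f) (t := T) (by
    intro x hx
    exact (Finset.mem_filter.mp hx).2)]
  rw [Finset.sum_const_nat (m := Nat.card f.ker)]
  intro t ht
  have h1 : (Finset.univ.filter (fun x => f x ∈ T)).filter (fun x => f x = t) =
      Finset.univ.filter (fun x => f x = t) := by
    ext x
    simp only [Finset.mem_filter, Finset.mem_univ, true_and]
    constructor
    · exact fun h => h.2
    · exact fun h => ⟨h ▸ ht, h⟩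
  rw [h1, MonoidHom.card_fiber_eq_of_mem_range f (hf t) (hf 1), Nat.card_eq_fintype_card,
    Fintype.card_subtype]
  congr 1
  ext x
  simp [MonoidHom.mem_ker]


theorem card_pairs' [Finite G] :
    Nat.card {p : G × G // orderOf p.1 = 2 ∧ orderOf p.2 = 2 ∧ p.1 ≠ p.2 ∧
      p.1 * p.2 = p.2 * p.1} = 6 * Nat.card {V : Subgroup G // IsKleinFour V} := by
  classical
  have : Fintype G := Fintype.ofFinite _
  rw [← card_pairs, Nat.card_eq_fintype_card, Fintype.card_subtype]

theorem card_preimage' {X Y : Type*} [Group X] [Group Y] [Finite X] (f : X →* Y)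
    (hf : Function.Surjective f) (P : Y → Prop) :
    Nat.card {x // P (f x)} = Nat.card {y // P y} * Nat.card f.ker := by
  classical
  have : Fintype X := Fintype.ofFinite _
  have : Finite Y := Finite.of_surjective f hf
  have : Fintype Y := Fintype.ofFinite _
  have h := card_preimage f hf (Finset.univ.filter P)
  simp only [Finset.mem_filter, Finset.mem_univ, true_and] at h
  rw [Nat.card_eq_fintype_card, Nat.card_eq_fintype_card, Fintype.card_subtype,
    Fintype.card_subtype]
  exact h

end gen

section mat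
variable {F : Type*} [Field F]

local notation "SL2" => Matrix.SpecialLinearGroup (Fin 2) F
local notation "M2" => Matrix (Fin 2) (Fin 2) F

def Anti (s u : SL2) : Prop := (s : M2) * (u : M2) = -((u : M2) * (s : M2))

theorem Anti.symm {s u : SL2} (h : Anti s u) : Anti u s := by
  unfold Anti at *
  rw [h, neg_neg]

theorem not_anti_of_commute (h2 : (2 : F) ≠ 0) (s u : SL2) (hc : s * u = u * s) : ¬ Anti s u := by
  intro h
  unfold Anti at h
  rw [← Matrix.SpecialLinearGroup.coe_mul, ← Matrix.SpecialLinearGroup.coe_mul, hc] at h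
  have h3 : (2 : F) • ((u * s : SL2) : M2) = 0 := by
    rw [two_smul]
    nth_rewrite 1 [h]
    exact neg_add_cancel _
  have h4 := (smul_eq_zero.mp h3).resolve_left h2
  have h5 := (u * s).2
  rw [h4] at h5
  simp at h5

theorem mem_center_of_neg_one (s : SL2) (h : (s : M2) = -1) :
    s ∈ Subgroup.center SL2 := by
  rw [mem_center_iff_not_nonScalar, h]
  rintro (h | h | h) <;> simp at h

theorem mem_center_of_one (s : SL2) (h : (s : M2) = 1) :
    s ∈ Subgroup.center SL2 := by
  rw [mem_center_iff_not_nonScalar, h]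
  rintro (h | h | h) <;> simp at h

theorem center_cases (s : SL2) (h : s ∈ Subgroup.center SL2) : (s : M2) = 1 ∨ (s : M2) = -1 := by
  rw [mem_center_iff_not_nonScalar] at h
  have hg := eq_smul_one_of_not_nonScalar h
  have hdet := s.2
  rw [hg] at hdet
  simp only [Matrix.det_smul, Fintype.card_fin, Matrix.det_one, mul_one] at hdet
  rcases sq_eq_one_iff.mp hdet with h | h
  · left; rw [hg, h, one_smul]
  · right; rw [hg, h, neg_smul, one_smul]

theorem orderOf_proj_of_trace (h2 : (2 : F) ≠ 0) (s : SL2) (ht : (s : M2).trace = 0) :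
    orderOf (proj F s) = 2 := by
  apply orderOf_eq_prime
  · rw [sq, ← map_mul]
    apply (QuotientGroup.eq_one_iff _).mpr
    apply mem_center_of_neg_one
    rw [Matrix.SpecialLinearGroup.coe_mul]
    exact (sq_eq_neg_one_iff s).mpr ht
  · intro h
    have hc := (QuotientGroup.eq_one_iff _).mp h
    rcases center_cases s hc with h | h <;> rw [h] at ht <;> simp at ht <;> exact h2 ht

theorem sq_of_orderOf_proj (h2 : (2 : F) ≠ 0) (s : SL2) (ho : orderOf (proj F s) = 2) :
    (s : M2) * (s : M2) = -1 := by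
  have h1 : proj F s ^ 2 = 1 := by
    have := pow_orderOf_eq_one (proj F s)
    rwa [ho] at this
  rw [sq, ← map_mul] at h1
  have hc := (QuotientGroup.eq_one_iff _).mp h1
  rcases center_cases _ hc with h | h
  · exfalso
    rw [Matrix.SpecialLinearGroup.coe_mul] at h
    have h3 : proj F s = 1 := by
      apply (QuotientGroup.eq_one_iff _).mpr
      rcases eq_one_or_neg_one_of_sq_eq_one h2 s h with h | h
      · exact mem_center_of_one s h
      · exact mem_center_of_neg_one s h
    rw [h3] at ho
    simp at ho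
  · rwa [Matrix.SpecialLinearGroup.coe_mul] at h

theorem anti_iff (h2 : (2 : F) ≠ 0) (s u : SL2) :
    (orderOf (proj F s) = 2 ∧ orderOf (proj F u) = 2 ∧ proj F s ≠ proj F u ∧
      proj F s * proj F u = proj F u * proj F s) ↔ Anti s u := by
  constructor
  · rintro ⟨hs, hu, hne, hc⟩
    rcases commute_or_anticommute s u hc with h | h
    · exfalso
      apply hne
      have hs2 := sq_of_orderOf_proj h2 s hs
      have hu2 := sq_of_orderOf_proj h2 u hu
      have hsu : s * s = u * u := by
        apply Subtype.ext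
        rw [Matrix.SpecialLinearGroup.coe_mul, Matrix.SpecialLinearGroup.coe_mul, hs2, hu2]
      have hcm : Commute s u := h
      have hw : (u⁻¹ * s) * (u⁻¹ * s) = 1 := by
        have e1 : (u⁻¹ * s) * (u⁻¹ * s) = u⁻¹ * u⁻¹ * (s * s) := by
          rw [mul_assoc, ← mul_assoc s, (hcm.inv_right).eq]
          simp only [mul_assoc]
        rw [e1, hsu]
        group
      have hw' : ((u⁻¹ * s : SL2) : M2) * ((u⁻¹ * s : SL2) : M2) = 1 := by
        rw [← Matrix.SpecialLinearGroup.coe_mul, hw]
        rfl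
      symm
      apply QuotientGroup.eq.mpr
      rcases eq_one_or_neg_one_of_sq_eq_one h2 _ hw' with h | h
      · exact mem_center_of_one _ h
      · exact mem_center_of_neg_one _ h
    · exact h
  · intro h
    refine ⟨orderOf_proj_of_trace h2 s (trace_eq_zero_of_anticommute h2 u s h.symm),
      orderOf_proj_of_trace h2 u (trace_eq_zero_of_anticommute h2 s u h), ?_,
      proj_commute_of_anticommute s u h⟩
    intro he
    have hz := QuotientGroup.eq.mp he
    apply not_anti_of_commute h2 s u _ h
    have h3 := Subgroup.mem_center_iff.mp hz s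
    -- s * (s⁻¹ * u) = (s⁻¹ * u) * s
    calc s * u = s * (s * (s⁻¹ * u)) := by group
      _ = s * ((s⁻¹ * u) * s) := by rw [h3]
      _ = u * s := by group


theorem trace_of_isConj (s x : SL2) (h : IsConj s x) : (x : M2).trace = (s : M2).trace := by
  obtain ⟨c, hc⟩ := isConj_iff.mp h
  rw [← hc, Matrix.SpecialLinearGroup.coe_mul, Matrix.SpecialLinearGroup.coe_mul,
    Matrix.trace_mul_cycle, ← Matrix.SpecialLinearGroup.coe_mul, inv_mul_cancel]
  simp

theorem card_anti_fiber [Finite F] (h2 : (2 : F) ≠ 0) (s : SL2) (ht : (s : M2).trace = 0) :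
    Nat.card {u : SL2 // Anti s u} = Nat.card (Subgroup.centralizer ({s} : Set SL2)) := by
  have hns : GL2C.NonScalar (s : M2) := by
    by_contra hcon
    have hc := (mem_center_iff_not_nonScalar s).mpr hcon
    rcases center_cases s hc with h | h <;> rw [h] at ht <;> simp at ht <;> exact h2 ht
  obtain ⟨x, hx⟩ := exists_anticommute s hns ht
  symm
  refine Nat.card_congr (Equiv.subtypeEquiv (Equiv.mulLeft x) ?_)
  intro c
  rw [Subgroup.mem_centralizer_singleton_iff]
  show _ ↔ Anti s (x * c)
  unfold Anti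
  rw [Matrix.SpecialLinearGroup.coe_mul]
  have e1 : (s : M2) * ((x : M2) * (c : M2)) = -((x : M2) * ((s : M2) * (c : M2))) := by
    rw [← mul_assoc, ← mul_assoc, hx, neg_mul, neg_neg]
  rw [e1, neg_inj, mul_assoc]
  have hxu : IsUnit (x : M2) := by
    rw [Matrix.isUnit_iff_isUnit_det, x.2]
    exact isUnit_one
  rw [hxu.mul_right_inj, ← Matrix.SpecialLinearGroup.coe_mul, ← Matrix.SpecialLinearGroup.coe_mul]
  constructor
  · intro h; rw [h]
  · intro h; exact (Subtype.ext h).symm

theorem card_anti [Fintype F] (h2 : (2 : F) ≠ 0) :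
    Nat.card {p : SL2 × SL2 // Anti p.1 p.2} = Nat.card SL2 := by
  classical
  have : Fintype SL2 := Fintype.ofFinite _
  rw [Nat.card_congr (Equiv.subtypeProdEquivSigmaSubtype (fun s u : SL2 => Anti s u)),
    Nat.card_sigma]
  set T := Nat.card {s : SL2 // (s : M2).trace = 0} with hT
  obtain ⟨s0, hs0⟩ : ∃ s : SL2, (s : M2) = !![0, -1; 1, 0] :=
    ⟨⟨_, by simp [Matrix.det_fin_two]⟩, rfl⟩
  have hTpos : 0 < T := by
    have : Nonempty {s : SL2 // (s : M2).trace = 0} :=
      ⟨⟨s0, by rw [hs0]; simp [Matrix.trace_fin_two]⟩⟩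
    exact Nat.card_pos
  have key : ∀ s : SL2, T * Nat.card {u : SL2 // Anti s u} =
      if (s : M2).trace = 0 then Nat.card SL2 else 0 := by
    intro s
    split_ifs with ht
    · rw [card_anti_fiber h2 s ht, ← card_carrier_mul_card_centralizer s]
      congr 1
      apply Nat.card_congr
      apply Equiv.subtypeEquivRight
      intro x
      rw [ConjClasses.mem_carrier_iff_mk_eq, ConjClasses.mk_eq_mk_iff_isConj]
      constructor
      · intro hx
        exact isConj_SL_of_trace_zero h2 x s hx ht
      · intro hx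
        rw [← trace_of_isConj x s hx] 
        exact ht
    · have : IsEmpty {u : SL2 // Anti s u} :=
        ⟨fun u => ht (trace_eq_zero_of_anticommute h2 u.1 s u.2.symm)⟩
      rw [Nat.card_of_isEmpty, mul_zero]
  apply Nat.eq_of_mul_eq_mul_left hTpos
  rw [Finset.mul_sum, Finset.sum_congr rfl (fun s _ => key s), Finset.sum_ite, Finset.sum_const,
    Finset.sum_const_zero, add_zero, smul_eq_mul, hT,
    Nat.card_eq_fintype_card (α := {s : SL2 // (s : M2).trace = 0}), Fintype.card_subtype]


end mat


/-- For q odd, twelve times the number of Klein four-subgroups of PSL_2(q) equals the order of PSL_2(q). -/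
theorem result {F : Type*} [Field F] [Fintype F] {q : ℕ} (hF : Fintype.card F = q) (hodd : Odd q) : 12 * Nat.card {V : Subgroup (Matrix.ProjectiveSpecialLinearGroup (Fin 2) F) // IsKleinFour V} = Nat.card (Matrix.ProjectiveSpecialLinearGroup (Fin 2) F) := by
  have h2 : (2 : F) ≠ 0 := two_ne_zero_of_odd_card (by rw [hF]; exact hodd)
  have hV := card_pairs' (G := Matrix.ProjectiveSpecialLinearGroup (Fin 2) F)
  have hsurj : Function.Surjective (MonoidHom.prodMap (proj F) (proj F)) := by
    rintro ⟨a, b⟩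
    obtain ⟨a, rfl⟩ := proj_surjective a
    obtain ⟨b, rfl⟩ := proj_surjective b
    exact ⟨(a, b), rfl⟩
  have hpre := card_preimage' (MonoidHom.prodMap (proj F) (proj F)) hsurj
    (fun p => orderOf p.1 = 2 ∧ orderOf p.2 = 2 ∧ p.1 ≠ p.2 ∧ p.1 * p.2 = p.2 * p.1)
  have hA : Nat.card {x : Matrix.SpecialLinearGroup (Fin 2) F × Matrix.SpecialLinearGroup (Fin 2) F //
      (fun p : Matrix.ProjectiveSpecialLinearGroup (Fin 2) F ×
        Matrix.ProjectiveSpecialLinearGroup (Fin 2) F =>
        orderOf p.1 = 2 ∧ orderOf p.2 = 2 ∧ p.1 ≠ p.2 ∧ p.1 * p.2 = p.2 * p.1)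
        (MonoidHom.prodMap (proj F) (proj F) x)} =
      Nat.card {p : Matrix.SpecialLinearGroup (Fin 2) F × Matrix.SpecialLinearGroup (Fin 2) F //
        Anti p.1 p.2} :=
    Nat.card_congr (Equiv.subtypeEquivRight (fun x => anti_iff h2 x.1 x.2))
  rw [hA, card_anti h2, hV] at hpre
  have hZ : Nat.card (Subgroup.center (Matrix.SpecialLinearGroup (Fin 2) F)) = 2 := by
    rw [card_center_SL_field 2 (by norm_num), hF]
    obtain ⟨k, hk⟩ := hodd
    have : (q - 1) % 2 = 0 := by omega
    rw [Nat.gcd_rec, this]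
    rfl
  have hker : Nat.card (MonoidHom.prodMap (proj F) (proj F)).ker = 4 := by
    rw [MonoidHom.ker_prodMap, proj_ker,
      Nat.card_congr (Subgroup.prodEquiv _ _).toEquiv, Nat.card_prod, hZ]
  have hS := Subgroup.card_eq_card_quotient_mul_card_subgroup
    (Subgroup.center (Matrix.SpecialLinearGroup (Fin 2) F))
  rw [hZ] at hS
  rw [hker, hS] at hpre
  have : Nat.card (Matrix.ProjectiveSpecialLinearGroup (Fin 2) F) =
      Nat.card (Matrix.SpecialLinearGroup (Fin 2) F ⧸
        Subgroup.center (Matrix.SpecialLinearGroup (Fin 2) F)) := rfl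
  omega

end Cfsg.Agent.S0807
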