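import Cfsg.Statements.S0808
import Cfsg.Agent.S0807
import Cfsg.Agent.S0805
import Cfsg.Agent.S0276
open Cfsg.Agent.H6 Cfsg.Agent.H6.GL2C Cfsg.Agent.S0807

set_option autoImplicit false
open Cfsg

namespace Cfsg.Agent.S0808

section gen
variable {G : Type*} [Group G]

def Cj (V W : Subgroup G) : Prop := ∃ g : G, W = V.map (MulAut.conj g).toMonoidHom

theorem map_conj_eq_iff (V : Subgroup G) (g : G) :
    V.map (MulAut.conj g).toMonoidHom = V ↔ g ∈ Subgroup.normalizer (V : Set G) := by
  rw [Subgroup.mem_normalizer_iff]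
  constructor
  · intro h v
    constructor
    · intro hv
      rw [← h]
      exact ⟨v, hv, rfl⟩
    · intro hv
      rw [← h] at hv
      obtain ⟨v', hv', e⟩ := hv
      have : v' = v := (MulAut.conj g).injective e
      rwa [← this]
  · intro h
    ext v
    constructor
    · rintro ⟨v', hv', rfl⟩
      exact (h v').mp hv'
    · intro hv
      refine ⟨g⁻¹ * v * g, ?_, ?_⟩
      · rw [SetLike.mem_coe, h]
        have : g * (g⁻¹ * v * g) * g⁻¹ = v := by group
        rwa [this]
      · show g * (g⁻¹ * v * g) * g⁻¹ = v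
        group

open Pointwise in
theorem card_conj_mul_card_normalizer [Finite G] (V : Subgroup G) :
    Nat.card {W : Subgroup G // Cj V W} * Nat.card (Subgroup.normalizer (V : Set G)) =
      Nat.card G := by
  letI : MulAction G (Subgroup G) := MulAction.compHom _ (MulAut.conj : G →* MulAut G)
  have hsm : ∀ (g : G) (W : Subgroup G), g • W = W.map (MulAut.conj g).toMonoidHom :=
    fun g W => rfl
  have hst : MulAction.stabilizer G V = Subgroup.normalizer (V : Set G) := by
    ext g
    rw [MulAction.mem_stabilizer_iff, hsm, map_conj_eq_iff]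
  have h := MulAction.index_stabilizer G V
  rw [← Subgroup.index_mul_card (Subgroup.normalizer (V : Set G)), ← hst, h,
    ← Nat.card_coe_set_eq]
  congr 1
  apply Nat.card_congr
  apply Equiv.subtypeEquivRight
  intro W
  constructor
  · rintro ⟨g, rfl⟩
    exact ⟨g, rfl⟩
  · rintro ⟨g, rfl⟩
    exact ⟨g, rfl⟩

theorem isKleinFour_map (V : Subgroup G) (hV : IsKleinFour V) (g : G) :
    IsKleinFour (V.map (MulAut.conj g).toMonoidHom) := by
  have e : V ≃* V.map (MulAut.conj g).toMonoidHom :=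
    V.equivMapOfInjective _ (MulAut.conj g).injective
  exact ⟨by rw [← Nat.card_congr e.toEquiv, hV.card_four],
    by rw [← Monoid.exponent_eq_of_mulEquiv e, hV.exponent_two]⟩

theorem Cj.trans' {V₁ V₂ W : Subgroup G} (h1 : Cj V₁ W) (h2 : Cj V₂ W) : Cj V₁ V₂ := by
  obtain ⟨g, hg⟩ := h1
  obtain ⟨k, hk⟩ := h2
  refine ⟨k⁻¹ * g, ?_⟩
  have : V₂ = W.map (MulAut.conj k⁻¹).toMonoidHom := by
    rw [hk, Subgroup.map_map]
    have : (MulAut.conj k⁻¹).toMonoidHom.comp (MulAut.conj k).toMonoidHom = MonoidHom.id G := by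
      ext x
      simp [MulAut.conj_apply]
      group
    rw [this, Subgroup.map_id]
  rw [this, hg, Subgroup.map_map]
  congr 1
  ext x
  simp [MulAut.conj_apply, mul_assoc]


theorem two_classes [Finite G]
    (h12 : 12 * Nat.card {V : Subgroup G // IsKleinFour V} = Nat.card G)
    (h8 : 8 ∣ Nat.card G)
    (h24 : ∀ V : Subgroup G, IsKleinFour V → Nat.card (Subgroup.normalizer (V : Set G)) ≤ 24) :
    ∃ V₁ V₂ : Subgroup G, IsKleinFour V₁ ∧ IsKleinFour V₂ ∧ ¬ Cj V₁ V₂ ∧
      ∀ W : Subgroup G, IsKleinFour W → Cj V₁ W ∨ Cj V₂ W := by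
  classical
  have : Fintype (Subgroup G) := Fintype.ofFinite _
  let K : Finset (Subgroup G) := Finset.univ.filter (fun V => IsKleinFour V)
  let cl : Subgroup G → Finset (Subgroup G) := fun V => Finset.univ.filter (fun W => Cj V W)
  have hK : K.card = Nat.card {V : Subgroup G // IsKleinFour V} := by
    rw [Nat.card_eq_fintype_card, Fintype.card_subtype]
  have hcl : ∀ V, (cl V).card = Nat.card {W : Subgroup G // Cj V W} := by
    intro V
    rw [Nat.card_eq_fintype_card, Fintype.card_subtype]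
  have hmemK : ∀ V, V ∈ K ↔ IsKleinFour V := by intro V; simp [K]
  have hmemcl : ∀ V W, W ∈ cl V ↔ Cj V W := by intro V W; simp [cl]
  have hsub : ∀ V ∈ K, cl V ⊆ K := by
    intro V hV W hW
    obtain ⟨g, rfl⟩ := (hmemcl V W).mp hW
    exact (hmemK _).mpr (isKleinFour_map V ((hmemK V).mp hV) g)
  have hGpos : 0 < Nat.card G := Nat.card_pos
  have hKpos : 0 < K.card := by
    rw [hK]
    omega
  have horb : ∀ V, (cl V).card * Nat.card (Subgroup.normalizer (V : Set G)) = Nat.card G := by
    intro V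
    rw [hcl]
    exact card_conj_mul_card_normalizer V
  have hbig : ∀ V ∈ K, K.card ≤ 2 * (cl V).card := by
    intro V hV
    have h1 := horb V
    have h2 := h24 V ((hmemK V).mp hV)
    have h3 : (cl V).card * Nat.card (Subgroup.normalizer (V : Set G)) ≤ (cl V).card * 24 :=
      Nat.mul_le_mul_left _ h2
    rw [hK]
    omega
  obtain ⟨V₁, hV₁⟩ := Finset.card_pos.mp hKpos
  have hne : cl V₁ ≠ K := by
    intro he
    have h1 := horb V₁
    rw [he, ← h12, ← hK, mul_comm 12] at h1
    have h2 := Nat.eq_of_mul_eq_mul_left hKpos h1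
    have h3 : 2 ^ (2 + 1) ∣ Nat.card (Subgroup.normalizer (V₁ : Set G)) :=
      Sylow.prime_pow_dvd_card_normalizer (p := 2) (n := 2) h8 ((hmemK V₁).mp hV₁).card_four
    rw [h2] at h3
    norm_num at h3
  obtain ⟨V₂, hV₂, hV₂'⟩ : ∃ V₂ ∈ K, V₂ ∉ cl V₁ := by
    by_contra hcon
    push Not at hcon
    exact hne (Finset.Subset.antisymm (hsub V₁ hV₁) hcon)
  have hdisj : Disjoint (cl V₁) (cl V₂) := by
    rw [Finset.disjoint_left]
    intro W h1 h2
    exact hV₂' ((hmemcl _ _).mpr (((hmemcl _ _).mp h1).trans' ((hmemcl _ _).mp h2)))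
  have hun : cl V₁ ∪ cl V₂ = K := by
    apply Finset.eq_of_subset_of_card_le (Finset.union_subset (hsub V₁ hV₁) (hsub V₂ hV₂))
    rw [Finset.card_union_of_disjoint hdisj]
    have := hbig V₁ hV₁
    have := hbig V₂ hV₂
    omega
  refine ⟨V₁, V₂, (hmemK _).mp hV₁, (hmemK _).mp hV₂, fun h => hV₂' ((hmemcl _ _).mpr h), ?_⟩
  intro W hW
  have : W ∈ cl V₁ ∪ cl V₂ := by rw [hun]; exact (hmemK _).mpr hW
  rcases Finset.mem_union.mp this with h | h
  · exact Or.inl ((hmemcl _ _).mp h)
  · exact Or.inr ((hmemcl _ _).mp h)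


end gen

section mat
section ringlem
variable {R : Type*} [Ring R]

theorem cc (a b t : R) (h1 : a * t = t * a) (h2 : b * t = t * b) : (a * b) * t = t * (a * b) := by
  rw [mul_assoc, h2, ← mul_assoc, h1, mul_assoc]

theorem aa (a b t : R) (h1 : a * t = -(t * a)) (h2 : b * t = -(t * b)) :
    (a * b) * t = t * (a * b) := by
  rw [mul_assoc, h2, mul_neg, ← mul_assoc, h1, neg_mul, neg_neg, mul_assoc]

theorem ca (a b t : R) (h1 : a * t = t * a) (h2 : b * t = -(t * b)) :
    (a * b) * t = -(t * (a * b)) := by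
  rw [mul_assoc, h2, mul_neg, ← mul_assoc, h1, mul_assoc]

theorem ac (a b t : R) (h1 : a * t = -(t * a)) (h2 : b * t = t * b) :
    (a * b) * t = -(t * (a * b)) := by
  rw [mul_assoc, h2, ← mul_assoc, h1, neg_mul, mul_assoc]

end ringlem

variable {F : Type*} [Field F]

local notation "SL2" => Matrix.SpecialLinearGroup (Fin 2) F
local notation "M2" => Matrix (Fin 2) (Fin 2) F

theorem central_of_commute_pair (h2 : (2 : F) ≠ 0) (s u w : SL2) (h : Anti s u)
    (hs : (w : M2) * (s : M2) = (s : M2) * (w : M2))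
    (hu : (w : M2) * (u : M2) = (u : M2) * (w : M2)) : proj F w = 1 := by
  apply (QuotientGroup.eq_one_iff _).mpr
  rw [mem_center_iff_not_nonScalar]
  intro hns
  have := commute_of_commute_nonScalar hns hs.symm hu.symm
  apply not_anti_of_commute h2 s u _ h
  apply Subtype.ext
  rw [Matrix.SpecialLinearGroup.coe_mul, Matrix.SpecialLinearGroup.coe_mul, this]

theorem centralizer_pair (h2 : (2 : F) ≠ 0) (s u w : SL2) (h : Anti s u)
    (hs : proj F w * proj F s = proj F s * proj F w)
    (hu : proj F w * proj F u = proj F u * proj F w) :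
    proj F w = 1 ∨ proj F w = proj F s ∨ proj F w = proj F u ∨
      proj F w = proj F s * proj F u := by
  obtain ⟨os, ou, -, hcomm⟩ := (anti_iff h2 s u).mpr h
  have hss : proj F s * proj F s = 1 := by
    have := pow_orderOf_eq_one (proj F s)
    rwa [os, sq] at this
  have huu : proj F u * proj F u = 1 := by
    have := pow_orderOf_eq_one (proj F u)
    rwa [ou, sq] at this
  have h' : (u : M2) * (s : M2) = -((s : M2) * (u : M2)) := h.symm
  have h0 : (s : M2) * (u : M2) = -((u : M2) * (s : M2)) := h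
  have cs : ∀ x y : SL2, x * y = y * x → (x : M2) * (y : M2) = (y : M2) * (x : M2) := by
    intro x y hxy
    rw [← Matrix.SpecialLinearGroup.coe_mul, hxy, Matrix.SpecialLinearGroup.coe_mul]
  rcases commute_or_anticommute w s hs with a1 | a1 <;>
    rcases commute_or_anticommute w u hu with a2 | a2
  · left
    exact central_of_commute_pair h2 s u w h (cs _ _ a1) (cs _ _ a2)
  · right; left
    have := central_of_commute_pair h2 s u (w * s) h
      (by rw [Matrix.SpecialLinearGroup.coe_mul]; exact cc _ _ _ (cs _ _ a1) rfl)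
      (by rw [Matrix.SpecialLinearGroup.coe_mul]; exact aa _ _ _ a2 h0)
    rw [map_mul] at this
    exact mul_right_cancel (this.trans hss.symm)
  · right; right; left
    have := central_of_commute_pair h2 s u (w * u) h
      (by rw [Matrix.SpecialLinearGroup.coe_mul]; exact aa _ _ _ a1 h')
      (by rw [Matrix.SpecialLinearGroup.coe_mul]; exact cc _ _ _ (cs _ _ a2) rfl)
    rw [map_mul] at this
    exact mul_right_cancel (this.trans huu.symm)
  · right; right; right
    have := central_of_commute_pair h2 s u (w * (s * u)) h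
      (by
        rw [Matrix.SpecialLinearGroup.coe_mul, Matrix.SpecialLinearGroup.coe_mul]
        exact aa _ _ _ a1 (ca _ _ _ rfl h'))
      (by
        rw [Matrix.SpecialLinearGroup.coe_mul, Matrix.SpecialLinearGroup.coe_mul]
        exact aa _ _ _ a2 (ac _ _ _ h0 rfl))
    rw [map_mul, map_mul] at this
    have e : (proj F s * proj F u) * (proj F s * proj F u) = 1 := by
      rw [mul_assoc, ← mul_assoc (proj F u), ← hcomm, mul_assoc, huu, mul_one, hss]
    exact mul_right_cancel (this.trans e.symm)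


theorem exists_pair {G : Type*} [Group G] (V : Subgroup G) (hV : IsKleinFour V) :
    ∃ x y : G, x ∈ V ∧ y ∈ V ∧ x ≠ 1 ∧ y ≠ 1 ∧ x ≠ y := by
  classical
  have : Finite V := Nat.finite_of_card_ne_zero (by rw [hV.card_four]; norm_num)
  have : Fintype V := Fintype.ofFinite _
  have h3 : ((Finset.univ : Finset V).erase 1).card = 3 := by
    rw [Finset.card_erase_of_mem (Finset.mem_univ _), Finset.card_univ, ← Nat.card_eq_fintype_card,
      hV.card_four]
  have h6 : 0 < (((Finset.univ : Finset V).erase 1).offDiag).card := by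
    rw [Finset.offDiag_card, h3]
    norm_num
  obtain ⟨⟨x, y⟩, hxy⟩ := Finset.card_pos.mp h6
  simp only [Finset.mem_offDiag, Finset.mem_erase, Finset.mem_univ, and_true] at hxy
  exact ⟨x, y, x.2, y.2, fun h => hxy.1 (Subtype.ext h), fun h => hxy.2.1 (Subtype.ext h),
    fun h => hxy.2.2 (Subtype.ext h)⟩

theorem card_normalizer_le_of {G : Type*} [Group G] [Finite G] (V : Subgroup G)
    (hV : IsKleinFour V) (x y : G) (hx : x ∈ V) (hy : y ∈ V) (hx1 : x ≠ 1) (hy1 : y ≠ 1)
    (hne : x ≠ y) (hC : ∀ c : G, c * x = x * c → c * y = y * c → c ∈ V) :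
    Nat.card (Subgroup.normalizer (V : Set G)) ≤ 24 := by
  classical
  have : Fintype G := Fintype.ofFinite _
  let N : Finset G := Finset.univ.filter (· ∈ Subgroup.normalizer (V : Set G))
  let VF : Finset G := Finset.univ.filter (· ∈ V)
  let f : G → G × G := fun n => (n * x * n⁻¹, n * y * n⁻¹)
  have hN : Nat.card (Subgroup.normalizer (V : Set G)) = N.card := by
    rw [Nat.card_eq_fintype_card, Fintype.card_subtype]
  have hVF : VF.card = 4 := by
    rw [← hV.card_four, Nat.card_eq_fintype_card, Fintype.card_subtype]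
  have h3 : (VF.erase 1).card = 3 := by
    rw [Finset.card_erase_of_mem (by simp [VF, one_mem]), hVF]
  have himg : N.image f ⊆ (VF.erase 1).offDiag := by
    intro a ha
    obtain ⟨n, hn, rfl⟩ := Finset.mem_image.mp ha
    have hn' : n ∈ Subgroup.normalizer (V : Set G) := (Finset.mem_filter.mp hn).2
    rw [Subgroup.mem_normalizer_iff] at hn'
    simp only [Finset.mem_offDiag, Finset.mem_erase, Finset.mem_filter, Finset.mem_univ, true_and,
      VF, f]
    refine ⟨⟨?_, (hn' x).mp hx⟩, ⟨?_, (hn' y).mp hy⟩, ?_⟩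
    · rw [Ne, conj_eq_one_iff]; exact hx1
    · rw [Ne, conj_eq_one_iff]; exact hy1
    · intro h
      exact hne (mul_left_cancel (mul_right_cancel h))
  have hfib : ∀ a ∈ N.image f, (N.filter (fun n => f n = a)).card ≤ 4 := by
    intro a ha
    obtain ⟨n₀, -, rfl⟩ := Finset.mem_image.mp ha
    have hsub : N.filter (fun n => f n = f n₀) ⊆ VF.image (fun c => n₀ * c) := by
      intro n hn
      have e := (Finset.mem_filter.mp hn).2
      have e1 : n * x * n⁻¹ = n₀ * x * n₀⁻¹ := congrArg Prod.fst e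
      have e2 : n * y * n⁻¹ = n₀ * y * n₀⁻¹ := congrArg Prod.snd e
      refine Finset.mem_image.mpr ⟨n₀⁻¹ * n, ?_, by group⟩
      simp only [VF, Finset.mem_filter, Finset.mem_univ, true_and]
      apply hC
      · calc n₀⁻¹ * n * x = n₀⁻¹ * (n * x * n⁻¹) * n := by group
          _ = n₀⁻¹ * (n₀ * x * n₀⁻¹) * n := by rw [e1]
          _ = x * (n₀⁻¹ * n) := by group
      · calc n₀⁻¹ * n * y = n₀⁻¹ * (n * y * n⁻¹) * n := by group
          _ = n₀⁻¹ * (n₀ * y * n₀⁻¹) * n := by rw [e2]
          _ = y * (n₀⁻¹ * n) := by group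
    calc (N.filter (fun n => f n = f n₀)).card ≤ (VF.image (fun c => n₀ * c)).card :=
          Finset.card_le_card hsub
      _ ≤ VF.card := Finset.card_image_le
      _ = 4 := hVF
  rw [hN]
  calc N.card ≤ 4 * (N.image f).card := Finset.card_le_mul_card_image N 4 hfib
    _ ≤ 4 * ((VF.erase 1).offDiag).card := Nat.mul_le_mul_left _ (Finset.card_le_card himg)
    _ = 24 := by rw [Finset.offDiag_card, h3]

theorem card_normalizer_le [Fintype F] (h2 : (2 : F) ≠ 0)
    (V : Subgroup (Matrix.ProjectiveSpecialLinearGroup (Fin 2) F)) (hV : IsKleinFour V) :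
    Nat.card (Subgroup.normalizer (V : Set (Matrix.ProjectiveSpecialLinearGroup (Fin 2) F))) ≤
      24 := by
  obtain ⟨x, y, hx, hy, hx1, hy1, hne⟩ := exists_pair V hV
  obtain ⟨s, rfl⟩ := proj_surjective x
  obtain ⟨u, rfl⟩ := proj_surjective y
  have hA : Anti s u := (anti_iff h2 s u).mp ⟨klein_orderOf V hV _ hx hx1,
    klein_orderOf V hV _ hy hy1, hne, klein_comm V hV _ _ hx hy⟩
  apply card_normalizer_le_of V hV _ _ hx hy hx1 hy1 hne
  intro c hc1 hc2
  obtain ⟨w, rfl⟩ := proj_surjective c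
  rcases centralizer_pair h2 s u w hA hc1 hc2 with h | h | h | h <;> rw [h]
  · exact one_mem _
  · exact hx
  · exact hy
  · exact mul_mem hx hy


end mat


/-- Conjugacy classes of four-groups in PSL_2(q), q odd: if q ≡ 3 or 5 (mod 8) all Klein four-subgroups are conjugate; if q ≡ 1 or 7 (mod 8) there are two Klein four-subgroups which are not conjugate, and every Klein four-subgroup is conjugate to one of them. -/
theorem result {F : Type*} [Field F] [Fintype F] {q : ℕ} (hF : Fintype.card F = q) (hodd : Odd q) : ((q % 8 = 3 ∨ q % 8 = 5) → ∀ V W : Subgroup (Matrix.ProjectiveSpecialLinearGroup (Fin 2) F), IsKleinFour V → IsKleinFour W → ∃ g : Matrix.ProjectiveSpecialLinearGroup (Fin 2) F, W = V.map (MulAut.conj g).toMonoidHom) ∧ ((q % 8 = 1 ∨ q % 8 = 7) → ∃ V₁ V₂ : Subgroup (Matrix.ProjectiveSpecialLinearGroup (Fin 2) F), IsKleinFour V₁ ∧ IsKleinFour V₂ ∧ (¬ ∃ g : Matrix.ProjectiveSpecialLinearGroup (Fin 2) F, V₂ = V₁.map (MulAut.conj g).toMonoidHom) ∧ ∀ W : Subgroup (Matrix.ProjectiveSpecialLinearGroup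 (Fin 2) F), IsKleinFour W → (∃ g : Matrix.ProjectiveSpecialLinearGroup (Fin 2) F, W = V₁.map (MulAut.conj g).toMonoidHom) ∨ (∃ g : Matrix.ProjectiveSpecialLinearGroup (Fin 2) F, W = V₂.map (MulAut.conj g).toMonoidHom)) := by
  subst hF
  have h2 : (2 : F) ≠ 0 := two_ne_zero_of_odd_card hodd
  constructor
  · intro hq V W hV hW
    have key : ∀ U : Subgroup (Matrix.ProjectiveSpecialLinearGroup (Fin 2) F), IsKleinFour U →
        ∃ Q : Sylow 2 (Matrix.ProjectiveSpecialLinearGroup (Fin 2) F),
          (Q : Subgroup (Matrix.ProjectiveSpecialLinearGroup (Fin 2) F)) = U := by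
      intro U hU
      have hp : IsPGroup 2 U := IsPGroup.of_card (n := 2) hU.card_four
      obtain ⟨Q, hQ⟩ := hp.exists_le_sylow
      have hQ4 := (Cfsg.Agent.S0276.result rfl hq Q).card_four
      exact ⟨Q, (Subgroup.eq_of_le_of_card_ge hQ (by rw [hQ4, hU.card_four])).symm⟩
    obtain ⟨P, rfl⟩ := key V hV
    obtain ⟨Q, rfl⟩ := key W hW
    obtain ⟨g, hg⟩ := MulAction.exists_smul_eq (Matrix.ProjectiveSpecialLinearGroup (Fin 2) F) P Q
    exact ⟨g, by rw [← hg]; rfl⟩
  · intro hq
    have hcard := Cfsg.Agent.S0805.two_mul_card_PSL2 (F := F) hodd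
    have h8 : 8 ∣ Nat.card (Matrix.ProjectiveSpecialLinearGroup (Fin 2) F) := by
      generalize Fintype.card F = q at hq hcard
      rcases hq with hq | hq
      · obtain ⟨k, rfl⟩ : ∃ k, q = 8 * k + 1 := ⟨q / 8, by omega⟩
        have e : (8 * k + 1) ^ 2 - 1 = 16 * (4 * k ^ 2 + k) := by
          apply Nat.sub_eq_of_eq_add
          ring
        rw [e] at hcard
        refine ⟨(8 * k + 1) * (4 * k ^ 2 + k), ?_⟩
        have e2 : (8 * k + 1) * (16 * (4 * k ^ 2 + k)) = 16 * ((8 * k + 1) * (4 * k ^ 2 + k)) := by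
          ring
        omega
      · obtain ⟨k, rfl⟩ : ∃ k, q = 8 * k + 7 := ⟨q / 8, by omega⟩
        have e : (8 * k + 7) ^ 2 - 1 = 16 * (4 * k ^ 2 + 7 * k + 3) := by
          apply Nat.sub_eq_of_eq_add
          ring
        rw [e] at hcard
        refine ⟨(8 * k + 7) * (4 * k ^ 2 + 7 * k + 3), ?_⟩
        have e2 : (8 * k + 7) * (16 * (4 * k ^ 2 + 7 * k + 3)) =
            16 * ((8 * k + 7) * (4 * k ^ 2 + 7 * k + 3)) := by
          ring
        omega
    exact two_classes (Cfsg.Agent.S0807.result rfl hodd) h8 (fun V hV => card_normalizer_le h2 V hV)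

end Cfsg.Agent.S0808
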