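import Cfsg.Statements.S2431
import Cfsg.Agent.S0808
import Cfsg.Agent.Lib_helper6_SylTransfer
open Cfsg.Agent.H6 Cfsg.Agent.H6.GL2C Cfsg.Agent.S0807 Cfsg.Agent.S0808

set_option autoImplicit false
open Cfsg

namespace Cfsg.Agent.S2431

section mat
variable {F : Type*} [Field F]

local notation "SL2" => Matrix.SpecialLinearGroup (Fin 2) F
local notation "PSL2" => Matrix.ProjectiveSpecialLinearGroup (Fin 2) F
local notation "M2" => Matrix (Fin 2) (Fin 2) F

theorem card_center [Fintype F] (hodd : Odd (Fintype.card F)) :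
    Nat.card (Subgroup.center SL2) = 2 := by
  rw [card_center_SL_field 2 (by norm_num)]
  obtain ⟨k, hk⟩ := hodd
  have : (Fintype.card F - 1) % 2 = 0 := by omega
  rw [Nat.gcd_rec, this]
  rfl

theorem card_comap_proj [Fintype F] (hodd : Odd (Fintype.card F)) (H : Subgroup PSL2) :
    Nat.card (H.comap (proj F)) = Nat.card H * 2 := by
  have h := card_preimage' (proj F) proj_surjective (fun y => y ∈ H)
  rw [proj_ker, card_center hodd] at h
  exact h

theorem anti_conj (g s u : SL2) (h : Anti s u) : Anti (g * s * g⁻¹) (g * u * g⁻¹) := by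
  unfold Anti at *
  have e : ((g⁻¹ : SL2) : M2) * (g : M2) = 1 := by
    rw [← Matrix.SpecialLinearGroup.coe_mul, inv_mul_cancel]; rfl
  simp only [Matrix.SpecialLinearGroup.coe_mul]
  calc (g : M2) * (s : M2) * ((g⁻¹ : SL2) : M2) * ((g : M2) * (u : M2) * ((g⁻¹ : SL2) : M2))
      = (g : M2) * (s : M2) * (((g⁻¹ : SL2) : M2) * (g : M2)) * (u : M2) * ((g⁻¹ : SL2) : M2) := by
        simp only [mul_assoc]
    _ = (g : M2) * ((s : M2) * (u : M2)) * ((g⁻¹ : SL2) : M2) := by
        rw [e, mul_one]; simp only [mul_assoc]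
    _ = -((g : M2) * ((u : M2) * (s : M2)) * ((g⁻¹ : SL2) : M2)) := by
        rw [h, mul_neg, neg_mul]
    _ = -((g : M2) * (u : M2) * (((g⁻¹ : SL2) : M2) * (g : M2)) * (s : M2) *
          ((g⁻¹ : SL2) : M2)) := by
        rw [e, mul_one]; simp only [mul_assoc]
    _ = _ := by simp only [mul_assoc]

theorem exists_anti [Finite F] (h2 : (2 : F) ≠ 0) : ∃ s u : SL2, Anti s u := by
  obtain ⟨s0, hs0⟩ : ∃ s : SL2, (s : M2) = !![0, -1; 1, 0] :=
    ⟨⟨_, by simp [Matrix.det_fin_two]⟩, rfl⟩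
  have ht : (s0 : M2).trace = 0 := by rw [hs0]; simp [Matrix.trace_fin_two]
  have hns : GL2C.NonScalar (s0 : M2) := by
    left
    rw [hs0]
    simp
  obtain ⟨x, hx⟩ := exists_anticommute s0 hns ht
  exact ⟨x, s0, hx⟩

theorem exists_anti_in_sylow [Fintype F] (hodd : Odd (Fintype.card F)) (S : Sylow 2 SL2) :
    ∃ s u : SL2, s ∈ S ∧ u ∈ S ∧ Anti s u := by
  have h2 : (2 : F) ≠ 0 := two_ne_zero_of_odd_card hodd
  obtain ⟨s, u, h⟩ := exists_anti (F := F) h2
  obtain ⟨os, ou, hne, hc⟩ := (anti_iff h2 s u).mpr h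
  obtain ⟨V, hV, hsV, huV⟩ := exists_klein _ _ os ou hne hc
  have hp : IsPGroup 2 (V.comap (proj F)) :=
    IsPGroup.of_card (n := 3) (by rw [card_comap_proj hodd, hV.card_four]; norm_num)
  obtain ⟨g, hg⟩ := SylT.exists_conj_mem S _ hp
  exact ⟨g * s * g⁻¹, g * u * g⁻¹, hg s hsV, hg u huV, anti_conj g s u h⟩

theorem mem_sylow_of_normalizer {G : Type*} [Group G] (S : Sylow 2 G) (x : G)
    (hx : x ∈ Subgroup.normalizer ((S : Subgroup G) : Set G)) (k : ℕ) (hk : x ^ (2 ^ k) = 1) :
    x ∈ S := by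
  have hp : IsPGroup 2 (Subgroup.zpowers x ⊔ (S : Subgroup G) : Subgroup G) := by
    apply IsPGroup.to_sup_of_normal_right' (SylT.isPGroup_zpowers' 2 x k hk) S.isPGroup'
    rw [Subgroup.zpowers_le]
    exact hx
  have := S.is_maximal' hp le_sup_right
  have hx' : x ∈ (Subgroup.zpowers x ⊔ (S : Subgroup G) : Subgroup G) :=
    (le_sup_left : Subgroup.zpowers x ≤ _) (Subgroup.mem_zpowers x)
  rw [this] at hx'
  exact hx'

theorem mul_mul_eq (h2 : (2 : F) ≠ 0) (s u h : SL2) (ha : Anti s u) (hc : h * s = s * h) :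
    h * u * h = u := by
  have ht : (s : M2).trace = 0 := trace_eq_zero_of_anticommute h2 u s ha.symm
  have hns : GL2C.NonScalar (s : M2) := by
    by_contra hcon
    have hcz := (mem_center_iff_not_nonScalar s).mpr hcon
    exact not_anti_of_commute h2 s u ((Subgroup.mem_center_iff.mp hcz u).symm) ha
  have hc' : (h : M2) * (s : M2) = (s : M2) * (h : M2) := by
    rw [← Matrix.SpecialLinearGroup.coe_mul, hc, Matrix.SpecialLinearGroup.coe_mul]
  obtain ⟨a, b, hab⟩ := exists_eq_of_commute hns hc'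
  have hdet : a * a + b * b = 1 := by
    have := h.2
    rw [hab, det_lin, ht, s.2] at this
    simp only [nrm] at this
    linear_combination this
  rw [lin_eq] at hab
  have e1 : (s : M2) * (u : M2) = -((u : M2) * (s : M2)) := ha
  have e2 : (s : M2) * (s : M2) = -1 := (sq_eq_neg_one_iff s).mpr ht
  apply Subtype.ext
  rw [Matrix.SpecialLinearGroup.coe_mul, Matrix.SpecialLinearGroup.coe_mul, hab]
  have l1 : (a • (1 : M2) + b • (s : M2)) * (u : M2) = a • (u : M2) - b • ((u : M2) * (s : M2)) := by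
    rw [add_mul, smul_mul_assoc, smul_mul_assoc, one_mul, e1, smul_neg, sub_eq_add_neg]
  have l2 : (a • (u : M2) - b • ((u : M2) * (s : M2))) * (a • (1 : M2) + b • (s : M2)) =
      (a * a + b * b) • (u : M2) := by
    rw [mul_add, mul_smul_comm, mul_smul_comm, mul_one, sub_mul, smul_mul_assoc, smul_mul_assoc,
      mul_assoc (u : M2), e2, mul_neg, mul_one]
    module
  rw [l1, l2, hdet, one_smul]


theorem centralizer_sylow [Fintype F] (hodd : Odd (Fintype.card F)) (S : Sylow 2 SL2) :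
    Subgroup.centralizer ((S : Subgroup SL2) : Set SL2) = Subgroup.center SL2 := by
  have h2 : (2 : F) ≠ 0 := two_ne_zero_of_odd_card hodd
  apply le_antisymm _ (Subgroup.center_le_centralizer _)
  intro w hw
  obtain ⟨s, u, hs, hu, ha⟩ := exists_anti_in_sylow hodd S
  rw [Subgroup.mem_centralizer_iff] at hw
  have h1 := hw s hs
  have h3 := hw u hu
  apply (QuotientGroup.eq_one_iff _).mp
  apply central_of_commute_pair h2 s u w ha
  · rw [← Matrix.SpecialLinearGroup.coe_mul, ← h1, Matrix.SpecialLinearGroup.coe_mul]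
  · rw [← Matrix.SpecialLinearGroup.coe_mul, ← h3, Matrix.SpecialLinearGroup.coe_mul]

theorem card_normalizer_three [Fintype F] (hodd : Odd (Fintype.card F))
    (hq : Fintype.card F % 8 = 3 ∨ Fintype.card F % 8 = 5) (S : Sylow 2 SL2) :
    Nat.card (Subgroup.normalizer ((S : Subgroup SL2) : Set SL2)) = 3 * Nat.card S := by
  have hP : IsPGroup 2 ((S : Subgroup SL2).map (proj F)) := S.isPGroup'.map _
  obtain ⟨Q, hQ⟩ := hP.exists_le_sylow
  have hQ4 : IsKleinFour (Q : Subgroup PSL2) := Cfsg.Agent.S0276.result rfl hq Q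
  have hp : IsPGroup 2 ((Q : Subgroup PSL2).comap (proj F)) :=
    IsPGroup.of_card (n := 3) (by rw [card_comap_proj hodd, hQ4.card_four]; norm_num)
  have hS : (Q : Subgroup PSL2).comap (proj F) = S :=
    S.is_maximal' hp (Subgroup.map_le_iff_le_comap.mp hQ)
  have hN : Nat.card (Subgroup.normalizer ((Q : Subgroup PSL2) : Set PSL2)) = 12 := by
    have h1 := card_conj_mul_card_normalizer (Q : Subgroup PSL2)
    have h2 := Cfsg.Agent.S0807.result (F := F) rfl hodd
    have h3 : Nat.card {W : Subgroup PSL2 // Cj (Q : Subgroup PSL2) W} =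
        Nat.card {W : Subgroup PSL2 // IsKleinFour W} := by
      apply Nat.card_congr
      apply Equiv.subtypeEquivRight
      intro W
      constructor
      · rintro ⟨g, rfl⟩
        exact isKleinFour_map _ hQ4 g
      · intro hW
        exact (Cfsg.Agent.S0808.result (F := F) rfl hodd).1 hq _ W hQ4 hW
    rw [h3, ← h2, mul_comm 12] at h1
    have hpos : 0 < Nat.card {W : Subgroup PSL2 // IsKleinFour W} := by
      have : 0 < Nat.card PSL2 := Nat.card_pos
      omega
    exact Nat.eq_of_mul_eq_mul_left hpos h1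
  have e1 : Nat.card (S : Subgroup SL2) = 8 := by
    rw [← hS, card_comap_proj hodd, hQ4.card_four]
  have e2 : Nat.card (Subgroup.normalizer ((S : Subgroup SL2) : Set SL2)) = 24 := by
    rw [← hS, ← Subgroup.comap_normalizer_eq_of_surjective _ proj_surjective,
      card_comap_proj hodd, hN]
  rw [e2]
  have : Nat.card S = Nat.card (S : Subgroup SL2) := rfl
  omega


theorem sixteen_dvd [Fintype F] (hq : Fintype.card F % 8 = 1 ∨ Fintype.card F % 8 = 7) :
    2 ^ 4 ∣ Nat.card SL2 := by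
  rw [card_SL2]
  generalize Fintype.card F = q at hq
  apply Dvd.dvd.mul_left
  rcases hq with hq | hq
  · obtain ⟨k, rfl⟩ : ∃ k, q = 8 * k + 1 := ⟨q / 8, by omega⟩
    have e : (8 * k + 1) ^ 2 - 1 = 16 * (4 * k ^ 2 + k) := by
      apply Nat.sub_eq_of_eq_add
      ring
    rw [e]
    exact ⟨_, rfl⟩
  · obtain ⟨k, rfl⟩ : ∃ k, q = 8 * k + 7 := ⟨q / 8, by omega⟩
    have e : (8 * k + 7) ^ 2 - 1 = 16 * (4 * k ^ 2 + 7 * k + 3) := by
      apply Nat.sub_eq_of_eq_add
      ring
    rw [e]
    exact ⟨_, rfl⟩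

theorem odd_trivial [Fintype F] (hodd : Odd (Fintype.card F))
    (hq : Fintype.card F % 8 = 1 ∨ Fintype.card F % 8 = 7) (S : Sylow 2 SL2) (h : SL2)
    (hN : h ∈ Subgroup.normalizer ((S : Subgroup SL2) : Set SL2)) (ho : Odd (orderOf h)) :
    h = 1 := by
  have h2 : (2 : F) ≠ 0 := two_ne_zero_of_odd_card hodd
  obtain ⟨s₁, u₁, hs₁, hu₁, ha₁⟩ := exists_anti_in_sylow hodd S
  obtain ⟨os₁, ou₁, hne₁, hc₁⟩ := (anti_iff h2 s₁ u₁).mpr ha₁
  obtain ⟨V, hV, hsV, huV⟩ := exists_klein _ _ os₁ ou₁ hne₁ hc₁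
  have h16 : 2 ^ 4 ∣ Nat.card (S : Subgroup SL2) := S.pow_dvd_card_of_pow_dvd_card (sixteen_dvd hq)
  have hnotle : ¬ ((S : Subgroup SL2) ≤ V.comap (proj F)) := by
    intro hle
    have h1 := Subgroup.card_le_of_le hle
    rw [card_comap_proj hodd, hV.card_four] at h1
    have h3 := Nat.le_of_dvd Nat.card_pos h16
    omega
  have inV : ∀ w : SL2, proj F w * proj F s₁ = proj F s₁ * proj F w →
      proj F w * proj F u₁ = proj F u₁ * proj F w → proj F w ∈ V := by
    intro w hw1 hw2
    rcases centralizer_pair h2 s₁ u₁ w ha₁ hw1 hw2 with e | e | e | e <;> rw [e]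
    · exact one_mem _
    · exact hsV
    · exact huV
    · exact mul_mem hsV huV
  set P : Subgroup PSL2 := (S : Subgroup SL2).map (proj F) with hPdef
  have hmemP : ∀ y ∈ S, proj F y ∈ P := fun y hy => ⟨y, hy, rfl⟩
  set W : Subgroup PSL2 := Subgroup.centralizer (P : Set PSL2) with hWdef
  have hWV : ∀ c ∈ W, c ∈ V := by
    intro c hc
    obtain ⟨w, rfl⟩ := proj_surjective c
    rw [hWdef, Subgroup.mem_centralizer_iff] at hc
    exact inV w (hc _ (hmemP s₁ hs₁)).symm (hc _ (hmemP u₁ hu₁)).symm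
  -- nontrivial centre
  obtain ⟨s, hsS, hsW, hs1⟩ : ∃ s ∈ S, proj F s ∈ W ∧ proj F s ≠ 1 := by
    have hPp : IsPGroup 2 P := S.isPGroup'.map _
    have : Nontrivial P := ⟨⟨⟨proj F s₁, hmemP s₁ hs₁⟩, 1, fun e => by
      have e' : proj F s₁ = 1 := congrArg Subtype.val e
      rw [e'] at os₁
      simp at os₁⟩⟩
    have hnt := hPp.center_nontrivial
    obtain ⟨z, hz⟩ := exists_ne (1 : Subgroup.center P)
    obtain ⟨s, hs, hsz⟩ := z.1.2
    refine ⟨s, hs, ?_, ?_⟩
    · rw [hWdef, Subgroup.mem_centralizer_iff]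
      intro p hp
      have := Subgroup.mem_center_iff.mp z.2 ⟨p, hp⟩
      have e := congrArg Subtype.val this
      rw [hsz]
      exact e
    · rw [hsz]
      intro e
      exact hz (Subtype.ext (Subtype.ext e))
  have huniq : ∀ c ∈ W, c = 1 ∨ c = proj F s := by
    intro c hc
    by_contra hcon
    push Not at hcon
    have hle : V ≤ W := klein_le V W hV (proj F s) c (hWV _ hsW) (hWV _ hc) hsW hc hs1 hcon.1
      (fun e => hcon.2 e.symm)
    apply hnotle
    intro y hy
    rw [Subgroup.mem_comap]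
    have e1 := hle hsV
    have e2 := hle huV
    rw [hWdef, Subgroup.mem_centralizer_iff] at e1 e2
    exact inV y (e1 _ (hmemP y hy)) (e2 _ (hmemP y hy))
  -- `h` fixes the central involution
  have hconjW : proj F h * proj F s * (proj F h)⁻¹ ∈ W := by
    rw [hWdef, Subgroup.mem_centralizer_iff]
    intro p hp
    obtain ⟨y, hy, rfl⟩ := hp
    have hy' : h⁻¹ * y * h ∈ S := by
      have := (Subgroup.mem_normalizer_iff.mp (inv_mem hN) y).mp hy
      rwa [inv_inv] at this
    have hb := hsW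
    rw [hWdef, Subgroup.mem_centralizer_iff] at hb
    have hb' := hb _ (hmemP _ hy')
    rw [map_mul, map_mul, map_inv] at hb'
    calc proj F y * (proj F h * proj F s * (proj F h)⁻¹)
        = proj F h * (((proj F h)⁻¹ * proj F y * proj F h) * proj F s) * (proj F h)⁻¹ := by group
      _ = proj F h * (proj F s * ((proj F h)⁻¹ * proj F y * proj F h)) * (proj F h)⁻¹ := by
          rw [hb']
      _ = _ := by group
  have hfix : proj F h * proj F s = proj F s * proj F h := by
    rcases huniq _ hconjW with e | e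
    · exfalso
      rw [conj_eq_one_iff] at e
      exact hs1 e
    · rw [mul_inv_eq_iff_eq_mul] at e
      exact e
  have hcomm : h * s = s * h := by
    rcases commute_or_anticommute h s hfix with e | e
    · exact e
    · exfalso
      have o2 := ((anti_iff h2 h s).mpr e).1
      have hd := orderOf_map_dvd (proj F) h
      rw [o2] at hd
      exact (Nat.not_even_iff_odd.mpr ho) (even_iff_two_dvd.mpr hd)
  -- an element of `S` inverting `h`
  obtain ⟨u, huS, hau⟩ : ∃ u ∈ S, Anti s u := by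
    have hsV' := hWV _ hsW
    by_cases e : proj F s = proj F s₁
    · refine ⟨u₁, hu₁, (anti_iff h2 s u₁).mp ⟨klein_orderOf V hV _ hsV' hs1, ou₁, ?_,
        klein_comm V hV _ _ hsV' huV⟩⟩
      rw [e]
      exact hne₁
    · exact ⟨s₁, hs₁, (anti_iff h2 s s₁).mp ⟨klein_orderOf V hV _ hsV' hs1, os₁, e,
        klein_comm V hV _ _ hsV' hsV⟩⟩
  have hinv := mul_mul_eq h2 s u h hau hcomm
  have hmem : h * u * h⁻¹ ∈ S := (Subgroup.mem_normalizer_iff.mp hN u).mp huS
  have hsq : h * h ∈ S := by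
    have e : h * h = (h * u * h⁻¹) * u⁻¹ := by
      have e1 : u * h⁻¹ = h * u := by
        calc u * h⁻¹ = (h * u * h) * h⁻¹ := by rw [hinv]
          _ = h * u := by group
      calc h * h = h * (h * u) * u⁻¹ := by group
        _ = h * (u * h⁻¹) * u⁻¹ := by rw [e1]
        _ = _ := by group
    rw [e]
    exact mul_mem hmem (inv_mem huS)
  obtain ⟨k, hk⟩ := S.isPGroup' ⟨h * h, hsq⟩
  have hk' : (h * h) ^ (2 ^ k) = 1 := congrArg Subtype.val hk
  rw [← sq, ← pow_mul, ← pow_succ'] at hk'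
  have hd := orderOf_dvd_of_pow_eq_one hk'
  have hcop : Nat.Coprime (orderOf h) (2 ^ (k + 1)) :=
    Nat.Coprime.pow_right _ (Nat.coprime_two_right.mpr ho)
  have := Nat.Coprime.eq_one_of_dvd hcop hd
  exact orderOf_eq_one_iff.mp this


end mat


/-- Let F be a finite field with q elements, q odd, and S a Sylow 2-subgroup of SL₂ over F. The centraliser of S is the centre of SL₂ (of order 2); S is its own normaliser when q ≡ ±1 mod 8, and has index 3 in its normaliser when q ≡ ±3 mod 8. -/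
theorem result {F : Type*} [Field F] [Fintype F] (hodd : Odd (Fintype.card F)) (S : Sylow 2 (Matrix.SpecialLinearGroup (Fin 2) F)) :
    Subgroup.centralizer ((S : Subgroup (Matrix.SpecialLinearGroup (Fin 2) F)) : Set (Matrix.SpecialLinearGroup (Fin 2) F)) = Subgroup.center (Matrix.SpecialLinearGroup (Fin 2) F) ∧
    ((Fintype.card F % 8 = 1 ∨ Fintype.card F % 8 = 7) →
      Subgroup.normalizer ((S : Subgroup (Matrix.SpecialLinearGroup (Fin 2) F)) : Set (Matrix.SpecialLinearGroup (Fin 2) F)) = (S : Subgroup (Matrix.SpecialLinearGroup (Fin 2) F))) ∧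
    ((Fintype.card F % 8 = 3 ∨ Fintype.card F % 8 = 5) →
      Nat.card (Subgroup.normalizer ((S : Subgroup (Matrix.SpecialLinearGroup (Fin 2) F)) : Set (Matrix.SpecialLinearGroup (Fin 2) F))) = 3 * Nat.card S) := by
  refine ⟨centralizer_sylow hodd S, ?_, fun hq => card_normalizer_three hodd hq S⟩
  intro hq
  apply le_antisymm _ Subgroup.le_normalizer
  intro g hg
  have hpos : orderOf g ≠ 0 := (orderOf_pos g).ne'
  obtain ⟨a, r, hr, har⟩ := Nat.exists_eq_two_pow_mul_odd hpos
  have ho : orderOf (g ^ (2 ^ a)) = r := by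
    rw [orderOf_pow_of_dvd (by positivity) (by rw [har]; exact Dvd.intro _ rfl), har,
      Nat.mul_div_cancel_left _ (by positivity)]
  have h1 := odd_trivial hodd hq S (g ^ (2 ^ a)) (pow_mem hg _) (by rw [ho]; exact hr)
  exact mem_sylow_of_normalizer S g hg a h1

end Cfsg.Agent.S2431
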