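import Cfsg.Statements.S0257
import Cfsg.Agent.S2431
import Cfsg.Agent.S0261

set_option autoImplicit false
open Cfsg

namespace Cfsg.Agent.S0257

/-- SL_2(3) has a normal subgroup of index 3 isomorphic to the quaternion group of order 8, and its centre has order 2. -/
theorem result {F : Type*} [Field F] [Fintype F] (hF : Fintype.card F = 3) : (∃ Q : Subgroup (Matrix.SpecialLinearGroup (Fin 2) F), Q.Normal ∧ Q.index = 3 ∧ Nonempty (Q ≃* QuaternionGroup 2)) ∧ Nat.card (Subgroup.center (Matrix.SpecialLinearGroup (Fin 2) F)) = 2 := by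
  have hodd : Odd (Fintype.card F) := by rw [hF]; decide
  have hZ : Nat.card (Subgroup.center (Matrix.SpecialLinearGroup (Fin 2) F)) = 2 :=
    Cfsg.Agent.S2431.card_center hodd
  refine ⟨?_, hZ⟩
  obtain ⟨S⟩ : Nonempty (Sylow 2 (Matrix.SpecialLinearGroup (Fin 2) F)) := inferInstance
  have hG : Nat.card (Matrix.SpecialLinearGroup (Fin 2) F) = 24 := by
    rw [Cfsg.Agent.H6.GL2C.card_SL2, hF]; norm_num
  have hN := (Cfsg.Agent.S2431.result hodd S).2.2 (Or.inl (by rw [hF]))
  obtain ⟨k, hk1, ⟨e⟩⟩ := Cfsg.Agent.S0261.result hodd S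
  have hSc : Nat.card (S : Subgroup (Matrix.SpecialLinearGroup (Fin 2) F)) = 4 * 2 ^ k := by
    have : NeZero (2 ^ k) := ⟨by positivity⟩
    rw [Nat.card_congr e.toEquiv, Nat.card_eq_fintype_card, QuaternionGroup.card]
  have hle : Nat.card (Subgroup.normalizer ((S : Subgroup (Matrix.SpecialLinearGroup (Fin 2) F)) :
      Set (Matrix.SpecialLinearGroup (Fin 2) F))) ≤ 24 := by
    rw [← hG]
    exact Subgroup.card_le_card_group _
  have hS' : Nat.card S = Nat.card (S : Subgroup (Matrix.SpecialLinearGroup (Fin 2) F)) := rfl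
  have hk : k = 1 := by
    by_contra hne
    have hk2 : 2 ≤ k := by omega
    have : 2 ^ 2 ≤ 2 ^ k := Nat.pow_le_pow_right (by norm_num) hk2
    omega
  subst hk
  have hS8 : Nat.card (S : Subgroup (Matrix.SpecialLinearGroup (Fin 2) F)) = 8 := by
    rw [hSc]; norm_num
  have hNtop : Subgroup.normalizer ((S : Subgroup (Matrix.SpecialLinearGroup (Fin 2) F)) :
      Set (Matrix.SpecialLinearGroup (Fin 2) F)) = ⊤ := by
    apply Subgroup.eq_top_of_card_eq
    rw [hN, hS', hS8, hG]
  refine ⟨S, Subgroup.normalizer_eq_top_iff.mp hNtop, ?_, ⟨e⟩⟩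
  have := Subgroup.index_mul_card (S : Subgroup (Matrix.SpecialLinearGroup (Fin 2) F))
  rw [hS8, hG] at this
  omega

end Cfsg.Agent.S0257
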