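import Cfsg.Statements.S0259
import Cfsg.Agent.Lib_helper6_SL2Classes

set_option autoImplicit false
open Cfsg

namespace Cfsg.Agent.S0259

open H6.GL2C

theorem nonScalar_of_mem {F : Type*} [Field F] [Fintype F] (p : ℕ) [Fact p.Prime] [CharP F p]
    (P : Sylow p (Matrix.GeneralLinearGroup (Fin 2) F))
    (a : Matrix.GeneralLinearGroup (Fin 2) F) (ha : a ∈ P) (h1 : a ≠ 1) :
    NonScalar (a : Matrix (Fin 2) (Fin 2) F) := by
  obtain ⟨k, hk⟩ := P.isPGroup' ⟨a, ha⟩
  have hk' : a ^ (p ^ k) = 1 := congrArg Subtype.val hk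
  have hk2 : (a : Matrix (Fin 2) (Fin 2) F) ^ (p ^ k) = 1 := by
    have := congrArg (fun u : Matrix.GeneralLinearGroup (Fin 2) F =>
      (u : Matrix (Fin 2) (Fin 2) F)) hk'
    simpa using this
  obtain ⟨ht, hd⟩ := trace_det_of_pow_char_pow p _ k hk2
  apply nonScalar_of_unipotent ht hd
  intro h
  apply h1
  exact Units.ext h

theorem comm_of_mem {F : Type*} [Field F] [Fintype F] (p : ℕ) [Fact p.Prime] [CharP F p]
    (P : Sylow p (Matrix.GeneralLinearGroup (Fin 2) F))
    (a b : Matrix.GeneralLinearGroup (Fin 2) F) (ha : a ∈ P) (hb : b ∈ P) : a * b = b * a := by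
  by_cases hbot : (P : Subgroup (Matrix.GeneralLinearGroup (Fin 2) F)) = ⊥
  · have ha' : a ∈ (P : Subgroup (Matrix.GeneralLinearGroup (Fin 2) F)) := ha
    rw [hbot, Subgroup.mem_bot] at ha'
    rw [ha']; simp
  have hnt : Nontrivial (P : Subgroup (Matrix.GeneralLinearGroup (Fin 2) F)) :=
    (Subgroup.nontrivial_iff_ne_bot _).mpr hbot
  have hcn := P.isPGroup'.center_nontrivial
  obtain ⟨z, hz⟩ := exists_ne (1 : Subgroup.center
    (P : Subgroup (Matrix.GeneralLinearGroup (Fin 2) F)))
  have hx1 : ((z : (P : Subgroup (Matrix.GeneralLinearGroup (Fin 2) F))) :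
      Matrix.GeneralLinearGroup (Fin 2) F) ≠ 1 := by
    intro h
    apply hz
    apply Subtype.ext
    apply Subtype.ext
    exact h
  have hns := nonScalar_of_mem p P _ (z : (P : Subgroup (Matrix.GeneralLinearGroup (Fin 2) F))).2 hx1
  have h1 := congrArg Subtype.val (Subgroup.mem_center_iff.mp z.2 ⟨a, ha⟩)
  have h2 := congrArg Subtype.val (Subgroup.mem_center_iff.mp z.2 ⟨b, hb⟩)
  apply Units.ext
  exact commute_of_commute_nonScalar hns (congrArg Units.val h1) (congrArg Units.val h2)

/-- Distinct Sylow p-subgroups of GL_2(q), p the characteristic, intersect trivially. -/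
theorem result {F : Type*} [Field F] [Fintype F] (p : ℕ) [Fact p.Prime] [CharP F p] (P Q : Sylow p (Matrix.GeneralLinearGroup (Fin 2) F)) (h : P ≠ Q) : (P : Subgroup (Matrix.GeneralLinearGroup (Fin 2) F)) ⊓ (Q : Subgroup (Matrix.GeneralLinearGroup (Fin 2) F)) = ⊥ := by
  by_contra hne
  apply h
  obtain ⟨⟨a, ha⟩, ha1'⟩ := Subgroup.ne_bot_iff_exists_ne_one.mp hne
  have ha1 : a ≠ 1 := fun h' => ha1' (Subtype.ext h')
  have haP : a ∈ P := ha.1
  have haQ : a ∈ Q := ha.2
  have hns := nonScalar_of_mem p P a haP ha1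
  set T := Subgroup.centralizer ({a} : Set (Matrix.GeneralLinearGroup (Fin 2) F)) with hT
  have hPT : (P : Subgroup (Matrix.GeneralLinearGroup (Fin 2) F)) ≤ T := by
    intro y hy
    exact Subgroup.mem_centralizer_singleton_iff.mpr (comm_of_mem p P y a hy haP)
  have hQT : (Q : Subgroup (Matrix.GeneralLinearGroup (Fin 2) F)) ≤ T := by
    intro y hy
    exact Subgroup.mem_centralizer_singleton_iff.mpr (comm_of_mem p Q y a hy haQ)
  have hTcomm : ∀ a ∈ T, ∀ b ∈ T, a * b = b * a := by
    intro x hx y hy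
    have ha' : x * a = a * x := Subgroup.mem_centralizer_singleton_iff.mp hx
    have hb' : y * a = a * y := Subgroup.mem_centralizer_singleton_iff.mp hy
    apply Units.ext
    exact commute_of_commute_nonScalar hns (congrArg Units.val ha') (congrArg Units.val hb')
  have hnorm : ((P.subtype hPT : Sylow p T) : Subgroup T).Normal := by
    constructor
    intro n hn t
    have : t * n * t⁻¹ = n := by
      rw [mul_inv_eq_iff_eq_mul]
      exact Subtype.ext (hTcomm t t.2 n n.2)
    rwa [this]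
  have huniq := Sylow.unique_of_normal (P.subtype hPT) hnorm
  exact Sylow.subtype_injective (hP := hPT) (hQ := hQT) (Subsingleton.elim _ _)

end Cfsg.Agent.S0259
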