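import Cfsg.Statements.S0263
import Mathlib

set_option autoImplicit false
open Cfsg

namespace Cfsg.Agent.S0263

/-- A Sylow p-subgroup of GL_n(q), p the characteristic, has order q^(n(n-1)/2). -/
theorem result {F : Type*} [Field F] [Fintype F] {q : ℕ} (hF : Fintype.card F = q) (p : ℕ) [Fact p.Prime] [CharP F p] (n : ℕ) (P : Sylow p (Matrix.GeneralLinearGroup (Fin n) F)) : Nat.card P = q ^ (n * (n - 1) / 2) := by
  classical
  subst hF
  have hp : p.Prime := Fact.out
  obtain ⟨f, _, hq⟩ := FiniteField.card F p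
  set q := Fintype.card F with hqdef
  have hq1 : 1 ≤ q := Fintype.card_pos
  have hpq : p ∣ q := by rw [hq]; exact dvd_pow_self p f.ne_zero
  have hcard : Nat.card (Matrix.GeneralLinearGroup (Fin n) F) =
      q ^ (n * (n - 1) / 2) * ∏ i : Fin n, (q ^ (n - (i : ℕ)) - 1) := by
    rw [Matrix.card_GL_field, ← Finset.sum_range_id, ← Fin.sum_univ_eq_sum_range (fun i => i) n,
      ← Finset.prod_pow_eq_pow_sum, ← Finset.prod_mul_distrib]
    refine Finset.prod_congr rfl (fun i _ => ?_)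
    rw [Nat.mul_sub, mul_one, ← pow_add, Nat.add_sub_cancel' i.2.le]
  have hm : ¬ p ∣ ∏ i : Fin n, (q ^ (n - (i : ℕ)) - 1) := by
    rw [Prime.dvd_finsetProd_iff hp.prime]
    rintro ⟨i, _, hi⟩
    have hk : n - (i : ℕ) ≠ 0 := by have := i.2; omega
    have h1 : p ∣ q ^ (n - (i : ℕ)) := dvd_trans hpq (dvd_pow_self q hk)
    have h2 : 1 ≤ q ^ (n - (i : ℕ)) := Nat.one_le_pow _ _ hq1
    have h3 : p ∣ 1 := by
      have := (Nat.dvd_sub h1 hi)
      rwa [Nat.sub_sub_self h2] at this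
    exact hp.one_lt.ne' (Nat.dvd_one.mp h3)
  have hm0 : ∏ i : Fin n, (q ^ (n - (i : ℕ)) - 1) ≠ 0 := fun h0 => hm (h0 ▸ dvd_zero p)
  rw [Sylow.card_eq_multiplicity, hcard, Nat.factorization_mul (by positivity) hm0,
    Finsupp.add_apply, Nat.factorization_eq_zero_of_not_dvd hm, add_zero, hq,
    ← pow_mul, Nat.factorization_pow, Finsupp.smul_apply, hp.factorization_self]
  simp

end Cfsg.Agent.S0263
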