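import Cfsg.Statements.S0273
import Cfsg.Agent.Lib_helper6_GL2Cent

set_option autoImplicit false
open Cfsg

namespace Cfsg.Agent.S0273

/-- In GL_2(q) the centraliser of a non-trivial element of a Sylow p-subgroup (p the characteristic) has order q (q-1): the Sylow subgroup times the scalars. -/
theorem result {F : Type*} [Field F] [Fintype F] {q : ℕ} (hF : Fintype.card F = q) (p : ℕ) [Fact p.Prime] [CharP F p] (P : Sylow p (Matrix.GeneralLinearGroup (Fin 2) F)) (a : Matrix.GeneralLinearGroup (Fin 2) F) (ha : a ∈ P) (ha1 : a ≠ 1) : Nat.card (Subgroup.centralizer ({a} : Set (Matrix.GeneralLinearGroup (Fin 2) F))) = q * (q - 1) := by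
  obtain ⟨k, hk⟩ := P.isPGroup' ⟨a, ha⟩
  have hk' : a ^ (p ^ k) = 1 := congrArg Subtype.val hk
  have hk2 : (a : Matrix (Fin 2) (Fin 2) F) ^ (p ^ k) = 1 := by
    rw [← Units.val_pow_eq_pow_val, hk', Units.val_one]
  obtain ⟨ht, hd⟩ := H6.GL2C.trace_det_of_pow_char_pow p _ k hk2
  have hns := H6.GL2C.nonScalar_of_unipotent ht hd (fun h => ha1 (Units.ext h))
  rw [H6.GL2C.card_centralizer_GL a hns, ht, hd, ← hF]
  have := H6.GL2C.card_nrm_ne_zero_double (1 : F)
  rwa [mul_one] at this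

end Cfsg.Agent.S0273
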