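import Cfsg.Statements.S0258
import Cfsg.Agent.S0273
import Cfsg.Agent.S0259
import Cfsg.Agent.S0263
import Cfsg.Agent.Lib_helper6_GL2Classes
import Cfsg.Agent.Lib_helper6_PSL2Cent
import Cfsg.Agent.Lib_helper6_SylTransfer
open Cfsg.Agent.H6 Cfsg.Agent.H6.GL2C

set_option autoImplicit false
open Cfsg

namespace Cfsg.Agent.S0258

section mat
variable {F : Type*} [Field F]

theorem isConj_unipotent (p : ℕ) [Fact p.Prime] [CharP F p] (x : GL (Fin 2) F) (k : ℕ)
    (hx : x ^ (p ^ k) = 1) (hx1 : x ≠ 1) : IsConj x (GL2.compGL (1 + 1) 1) := by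
  have hk2 : (x : Matrix (Fin 2) (Fin 2) F) ^ (p ^ k) = 1 := by
    rw [← Units.val_pow_eq_pow_val, hx, Units.val_one]
  obtain ⟨ht, hd⟩ := trace_det_of_pow_char_pow p _ k hk2
  have hns := nonScalar_of_unipotent ht hd (fun h => hx1 (Units.ext h))
  have h := GL2.isConj_compGL x (ne_scalar_of_nonScalar hns)
  have hd' : Matrix.GeneralLinearGroup.det x = 1 := by
    ext
    simpa using hd
  rwa [ht, hd'] at h

theorem key [Fintype F] (p : ℕ) [Fact p.Prime] [CharP F p] :
    Nat.card (Sylow p (GL (Fin 2) F)) * (Fintype.card F - 1) *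
      (Fintype.card F * (Fintype.card F - 1)) = Nat.card (GL (Fin 2) F) := by
  classical
  have : Fintype (Sylow p (GL (Fin 2) F)) := Fintype.ofFinite _
  let U : Finset (GL (Fin 2) F) := Finset.univ.filter (fun g => g ≠ 1 ∧ ∃ k, g ^ (p ^ k) = 1)
  let sP : Sylow p (GL (Fin 2) F) → Finset (GL (Fin 2) F) :=
    fun P => (Finset.univ.filter (· ∈ P)).erase 1
  have hmem : ∀ P g, g ∈ sP P ↔ g ≠ 1 ∧ g ∈ P := by
    intro P g
    simp [sP]
  have hcardP : ∀ P : Sylow p (GL (Fin 2) F), Nat.card P = Fintype.card F := by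
    intro P
    have := Cfsg.Agent.S0263.result (F := F) rfl p 2 P
    simpa using this
  have hsP : ∀ P, (sP P).card = Fintype.card F - 1 := by
    intro P
    have h4 : (Finset.univ.filter (· ∈ P)).card = Fintype.card F := by
      rw [← hcardP P, Nat.card_eq_fintype_card, Fintype.card_subtype]
      rfl
    rw [Finset.card_erase_of_mem (by simp [one_mem]), h4]
  have hU : U = Finset.univ.biUnion sP := by
    ext g
    simp only [U, Finset.mem_filter, Finset.mem_univ, true_and, Finset.mem_biUnion, hmem]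
    constructor
    · rintro ⟨h1, k, hk⟩
      obtain ⟨P, hP⟩ := (SylT.isPGroup_zpowers' p g k hk).exists_le_sylow
      exact ⟨P, h1, hP (Subgroup.mem_zpowers g)⟩
    · rintro ⟨P, h1, hP⟩
      obtain ⟨k, hk⟩ := P.isPGroup' ⟨g, hP⟩
      exact ⟨h1, k, congrArg Subtype.val hk⟩
  have hUcard : U.card = Nat.card (Sylow p (GL (Fin 2) F)) * (Fintype.card F - 1) := by
    rw [hU, Finset.card_biUnion, Finset.sum_const_nat (fun P _ => hsP P), Finset.card_univ,
      Nat.card_eq_fintype_card]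
    intro P _ Q _ hPQ
    show Disjoint (sP P) (sP Q)
    rw [Finset.disjoint_left]
    intro g h1 h2
    rw [hmem] at h1 h2
    have h3 : g ∈ (P : Subgroup (GL (Fin 2) F)) ⊓ (Q : Subgroup (GL (Fin 2) F)) := ⟨h1.2, h2.2⟩
    rw [Cfsg.Agent.S0259.result p P Q hPQ] at h3
    exact h1.1 h3
  obtain ⟨P₀⟩ : Nonempty (Sylow p (GL (Fin 2) F)) := inferInstance
  have hq2 : 2 ≤ Fintype.card F := Fintype.one_lt_card
  obtain ⟨a, ha⟩ : (sP P₀).Nonempty := by
    rw [← Finset.card_pos, hsP]
    omega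
  rw [hmem] at ha
  have hC := Cfsg.Agent.S0273.result (F := F) rfl p P₀ a ha.2 ha.1
  rw [← hUcard, ← hC, ← card_carrier_mul_card_centralizer a]
  congr 1
  rw [Nat.card_eq_fintype_card, ← Set.toFinset_card]
  congr 1
  ext g
  simp only [U, Finset.mem_filter, Finset.mem_univ, true_and, Set.mem_toFinset,
    ConjClasses.mem_carrier_iff_mk_eq, ConjClasses.mk_eq_mk_iff_isConj]
  obtain ⟨ka, hka⟩ := P₀.isPGroup' ⟨a, ha.2⟩
  have hka' : a ^ (p ^ ka) = 1 := congrArg Subtype.val hka
  constructor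
  · rintro ⟨h1, k, hk⟩
    exact (isConj_unipotent p g k hk h1).trans (isConj_unipotent p a ka hka' ha.1).symm
  · intro hc
    obtain ⟨c, hc⟩ := isConj_iff.mp hc
    have hg : g = c⁻¹ * a * c := by rw [← hc]; group
    refine ⟨?_, ka, ?_⟩
    · rintro rfl
      apply ha.1
      rw [← hc]
      group
    · have : g = c⁻¹ * a * c⁻¹⁻¹ := by rw [inv_inv]; exact hg
      rw [this, conj_pow, hka']
      group


theorem card_GL2' [Fintype F] (k : ℕ) (hk : Fintype.card F = k + 1) :
    Nat.card (GL (Fin 2) F) = k * (k + 2) * ((k + 1) * k) := by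
  rw [Matrix.card_GL_field, Fin.prod_univ_two]
  simp only [Fin.val_zero, Fin.val_one, pow_zero, pow_one]
  rw [hk]
  have e1 : (k + 1) ^ 2 - 1 = k * (k + 2) := by
    apply Nat.sub_eq_of_eq_add
    ring
  have e2 : (k + 1) ^ 2 - (k + 1) = (k + 1) * k := by
    apply Nat.sub_eq_of_eq_add
    ring
  rw [e1, e2]

theorem card_sylow [Fintype F] (p : ℕ) [Fact p.Prime] [CharP F p] :
    Nat.card (Sylow p (GL (Fin 2) F)) = Fintype.card F + 1 := by
  have hq2 : 2 ≤ Fintype.card F := Fintype.one_lt_card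
  obtain ⟨k, hk⟩ : ∃ k, Fintype.card F = k + 1 := ⟨Fintype.card F - 1, by omega⟩
  have h := key (F := F) p
  rw [card_GL2' k hk, hk, Nat.add_sub_cancel] at h
  have hk0 : 0 < k := by omega
  have h' : (k * ((k + 1) * k)) * Nat.card (Sylow p (GL (Fin 2) F)) =
      (k * ((k + 1) * k)) * (k + 2) := by
    calc (k * ((k + 1) * k)) * Nat.card (Sylow p (GL (Fin 2) F))
        = Nat.card (Sylow p (GL (Fin 2) F)) * k * ((k + 1) * k) := by ring
      _ = k * (k + 2) * ((k + 1) * k) := h
      _ = _ := by ring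
  rw [hk]
  exact Nat.eq_of_mul_eq_mul_left (by positivity) h'

end mat


/-- GL_2(q), q a power of the prime p, has exactly q + 1 Sylow p-subgroups. -/
theorem result {F : Type*} [Field F] [Fintype F] {q : ℕ} (hF : Fintype.card F = q) (p : ℕ) [Fact p.Prime] [CharP F p] : Nat.card (Sylow p (Matrix.GeneralLinearGroup (Fin 2) F)) = q + 1 := by
  subst hF
  exact card_sylow p

end Cfsg.Agent.S0258
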