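import Cfsg.Statements.S0264
import Cfsg.Agent.Lib_helper6_SLn
import Cfsg.Agent.Lib_helper6_SLCard

set_option autoImplicit false
open Cfsg

namespace Cfsg.Agent.S0264

open Matrix Matrix.SpecialLinearGroup in
/-- the diagonal matrix with `a` at position `i` and `1` elsewhere. -/
noncomputable def diag1 {F : Type*} [Field F] {ι : Type*} [DecidableEq ι] [Fintype ι] (i : ι) (a : F)
    (ha : a ≠ 0) : GL ι F where
  val := diagonal (fun k => if k = i then a else 1)
  inv := diagonal (fun k => if k = i then a⁻¹ else 1)
  val_inv := by
    rw [diagonal_mul_diagonal, ← diagonal_one]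
    congr 1
    funext k
    by_cases h : k = i <;> simp [h, ha]
  inv_val := by
    rw [diagonal_mul_diagonal, ← diagonal_one]
    congr 1
    funext k
    by_cases h : k = i <;> simp [h, ha]

open Matrix Matrix.SpecialLinearGroup in
open scoped commutatorElement in
theorem commutator_diag1_transvection {F : Type*} [Field F] {ι : Type*} [DecidableEq ι] [Fintype ι]
    {i j : ι} (hij : i ≠ j) (a : F) (ha : a ≠ 0) (b : F) :
    ⁅diag1 i a ha, toGL (transvection hij b)⁆ = toGL (transvection hij (b * (a - 1))) := by
  rw [commutatorElement_def, ← map_inv, transvection_inv]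
  apply Units.ext
  rw [Matrix.ext_iff_smul]
  intro v
  have hT : ∀ (c : F) (w : ι → F), ((toGL (transvection hij c) : GL ι F) : Matrix ι ι F) • w
      = transvection hij c • w := fun c w => rfl
  have hD : ∀ (w : ι → F) (k : ι), (((diag1 i a ha : GL ι F) : Matrix ι ι F) • w) k
      = if k = i then a * w i else w k := by
    intro w k
    change ((diagonal _ : Matrix ι ι F) *ᵥ w) k = _
    rw [mulVec_diagonal]
    split_ifs with h1
    · subst h1; rfl
    · simp
  have hD' : ∀ (w : ι → F) (k : ι), ((((diag1 i a ha)⁻¹ : GL ι F) : Matrix ι ι F) • w) k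
      = if k = i then a⁻¹ * w i else w k := by
    intro w k
    change ((diagonal _ : Matrix ι ι F) *ᵥ w) k = _
    rw [mulVec_diagonal]
    split_ifs with h1
    · subst h1; rfl
    · simp
  funext l
  simp only [Units.val_mul, mul_smul, hT, hD, hD', Cfsg.Agent.H6.transvection_smul_apply]
  by_cases h1 : l = i
  · subst h1
    simp [hij.symm]
    field_simp
    ring
  · simp [h1]


/-- GL_n(F)' = SL_n(F) (as the kernel of det), for every field F and every n, except n = 2 over the field of two elements. -/
theorem result {F : Type*} [Field F] (n : ℕ) (h : n = 2 → ∃ a : F, a ≠ 0 ∧ a ≠ 1) : commutator (Matrix.GeneralLinearGroup (Fin n) F) = (Matrix.GeneralLinearGroup.det : Matrix.GeneralLinearGroup (Fin n) F →* Fˣ).ker := by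
  apply le_antisymm (Abelianization.commutator_subset_ker _)
  rw [← Cfsg.Agent.H6.range_toGL_eq_ker_det]
  rintro _ ⟨s, rfl⟩
  rcases Nat.lt_or_ge n 2 with hn | hn
  · have : Subsingleton (Fin n) := by
      rw [← Fintype.card_le_one_iff_subsingleton]; simp; omega
    rw [Subsingleton.elim s 1, map_one]
    exact one_mem _
  · have : Nontrivial (Fin n) := Fintype.one_lt_card_iff_nontrivial.mp (by simp; omega)
    refine Cfsg.Agent.H6.transvection_induction
      (fun s => Matrix.SpecialLinearGroup.toGL s ∈ commutator (Matrix.GeneralLinearGroup (Fin n) F))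
      (fun i j hij c ↦ ?_) (fun A B hA hB ↦ ?_) s
    · rcases Nat.lt_or_ge n 3 with h3 | h3
      · obtain ⟨a, ha0, ha1⟩ := h (by omega)
        have := commutator_diag1_transvection hij a ha0 (c / (a - 1))
        rw [div_mul_cancel₀ c (sub_ne_zero_of_ne ha1)] at this
        rw [← this]
        exact Subgroup.commutator_mem_commutator (Subgroup.mem_top _) (Subgroup.mem_top _)
      · obtain ⟨x, y, hxy⟩ := Cfsg.Agent.H6.transvection_mem_commutatorSet_of_three_le
          (F := F) (by simpa using h3) hij c
        rw [← hxy, map_commutatorElement]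
        exact Subgroup.commutator_mem_commutator (Subgroup.mem_top _) (Subgroup.mem_top _)
    · simp only [map_mul]
      exact mul_mem hA hB

end Cfsg.Agent.S0264
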