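import Cfsg.Statements.S0268
import Cfsg.Agent.Lib_helper6_Field

set_option autoImplicit false
open Cfsg

namespace Cfsg.Agent.S0268

/-- For q odd, -1 is the unique involution of SL_2(q). -/
theorem result {F : Type*} [Field F] [Fintype F] (hF : Odd (Fintype.card F)) (g : Matrix.SpecialLinearGroup (Fin 2) F) (h1 : g ≠ 1) (h2 : g * g = 1) : (g : Matrix (Fin 2) (Fin 2) F) = -1 := by
  have h20 := Cfsg.Agent.H6.two_ne_zero_of_odd_card hF
  have hdet : g 0 0 * g 1 1 - g 0 1 * g 1 0 = 1 := by
    have := g.det_coe
    rwa [Matrix.det_fin_two] at this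
  have hm : (g : Matrix (Fin 2) (Fin 2) F) * (g : Matrix (Fin 2) (Fin 2) F) = 1 := by
    have := congrArg Subtype.val h2
    simpa using this
  have e00 := congrFun (congrFun hm 0) 0
  have e01 := congrFun (congrFun hm 0) 1
  have e10 := congrFun (congrFun hm 1) 0
  have e11 := congrFun (congrFun hm 1) 1
  simp [Matrix.mul_apply, Fin.sum_univ_two] at e00 e01 e10 e11
  have htr : g 0 0 + g 1 1 ≠ 0 := by
    intro ht
    apply h20
    have hd : g 1 1 = - g 0 0 := by linear_combination ht
    rw [hd] at hdet
    linear_combination (-1 : F) * e00 - hdet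
  have hb : g 0 1 = 0 := by
    have : g 0 1 * (g 0 0 + g 1 1) = 0 := by linear_combination e01
    exact (mul_eq_zero.mp this).resolve_right htr
  have hc : g 1 0 = 0 := by
    have : g 1 0 * (g 0 0 + g 1 1) = 0 := by linear_combination e10
    exact (mul_eq_zero.mp this).resolve_right htr
  rw [hb, hc] at hdet e00
  have ha : g 0 0 = 1 ∨ g 0 0 = -1 := by
    have : (g 0 0 - 1) * (g 0 0 + 1) = 0 := by linear_combination e00
    rcases mul_eq_zero.mp this with h | h
    · left; linear_combination h
    · right; linear_combination h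
  rcases ha with ha | ha
  · exfalso
    apply h1
    have hd : g 1 1 = 1 := by rw [ha] at hdet; linear_combination hdet
    ext i j
    fin_cases i <;> fin_cases j <;> simp [ha, hb, hc, hd]
  · have hd : g 1 1 = -1 := by rw [ha] at hdet; linear_combination (-1 : F) * hdet
    ext i j
    fin_cases i <;> fin_cases j <;> simp [ha, hb, hc, hd]

end Cfsg.Agent.S0268
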