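import Cfsg.Statements.S0269
import Cfsg.Agent.Lib_helper6_SympPerfect

set_option autoImplicit false
open Cfsg

namespace Cfsg.Agent.S0269

theorem field_cond {F : Type*} [Field F] [Fintype F] (hF : 4 ≤ Fintype.card F) :
    ∃ a : F, a ≠ 0 ∧ a ^ 2 ≠ 1 := by
  obtain ⟨x, hx⟩ : IsCyclic Fˣ := by infer_instance
  refine ⟨x, Units.ne_zero x, fun h ↦ ?_⟩
  have h1 : orderOf x = Nat.card Fˣ := orderOf_eq_card_of_forall_mem_zpowers hx
  have h2 : orderOf x ≤ 2 := orderOf_le_of_pow_eq_one zero_lt_two (Units.ext <| by simpa using h)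
  have h3 : Nat.card F = Nat.card Fˣ + 1 := Nat.card_eq_card_units_add_one F
  rw [Nat.card_eq_fintype_card] at h3
  omega

theorem e_orth {F : Type*} [Field F] {m : ℕ} (i j : Fin m) :
    Cfsg.sympForm m F (Pi.single (Sum.inl i) 1) (Pi.single (Sum.inl j) 1) = 0 := by
  rw [Cfsg.Agent.H6.sympForm_single_inl]
  simp

theorem e_not_mem {F : Type*} [Field F] {m : ℕ} {i j : Fin m} (hij : i ≠ j)
    (y : Fin m ⊕ Fin m → F) (hy : y (Sum.inl j) = 0) :
    (Pi.single (Sum.inl j) 1 + y : Fin m ⊕ Fin m → F) ∉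
      Submodule.span F {(Pi.single (Sum.inl i) 1 : Fin m ⊕ Fin m → F)} := by
  intro h
  obtain ⟨t, ht⟩ := Submodule.mem_span_singleton.mp h
  have := congrFun ht (Sum.inl j)
  simp [hy, hij] at this


/-- Sp_{2m}(q) is perfect except for Sp_2(2), Sp_2(3) and Sp_4(2): stated as m at least 3, or m = 2 and q at least 3, or q at least 4. -/
theorem result {F : Type*} [Field F] [Fintype F] (m : ℕ) (h : 3 ≤ m ∨ (m = 2 ∧ 3 ≤ Fintype.card F) ∨ 4 ≤ Fintype.card F) : commutator (Matrix.symplecticGroup (Fin m) F) = ⊤ := by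
  have hbig : 4 ≤ Fintype.card F → commutator (Matrix.symplecticGroup (Fin m) F) = ⊤ := by
    intro h4
    obtain ⟨a, ha, ha2⟩ := field_cond h4
    exact Cfsg.Agent.H6.commutator_symp_eq_top_of_sq_ne_one ha ha2
  rcases h with h3 | ⟨rfl, h3⟩ | h4
  · apply Cfsg.Agent.H6.commutator_eq_top_of_sympT_mem
    have hne : (Pi.single (Sum.inl ⟨0, by omega⟩) 1 : Fin m ⊕ Fin m → F) ≠ 0 :=
      Pi.single_ne_zero_iff.2 one_ne_zero
    apply Cfsg.Agent.H6.sympT_mem_commutator_of_one hne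
    intro c
    refine Cfsg.Agent.H6.sympT_mem_commutator_of_three
      (e₂ := Pi.single (Sum.inl ⟨1, by omega⟩) 1) (e₃ := Pi.single (Sum.inl ⟨2, by omega⟩) 1)
      (e_orth _ _) (e_orth _ _) (e_orth _ _) (Pi.single_ne_zero_iff.2 one_ne_zero) ?_ ?_ ?_ c
    · intro h
      have := congrFun h (Sum.inl ⟨0, by omega⟩)
      simp at this
    · have := e_not_mem (F := F) (m := m) (i := ⟨0, by omega⟩) (j := ⟨2, by omega⟩) (by simp) 0 rfl
      simpa using this
    · exact e_not_mem (by simp) _ (by simp)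
  · rcases Nat.lt_or_ge (Fintype.card F) 4 with h4 | h4
    · have hq : Fintype.card F = 3 := by omega
      have h2 : (2 : F) ≠ 0 := Cfsg.Agent.H6.two_ne_zero_of_odd_card (by rw [hq]; decide)
      apply Cfsg.Agent.H6.commutator_eq_top_of_sympT_mem
      have hne : (Pi.single (Sum.inl 0) 1 : Fin 2 ⊕ Fin 2 → F) ≠ 0 :=
        Pi.single_ne_zero_iff.2 one_ne_zero
      apply Cfsg.Agent.H6.sympT_mem_commutator_of_one hne
      intro c
      refine Cfsg.Agent.H6.sympT_mem_commutator_of_two_ne_zero h2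
        (w := Pi.single (Sum.inl 1) 1) ?_ (e_orth _ _) c
      have := e_not_mem (F := F) (m := 2) (i := 0) (j := 1) (by simp) 0 rfl
      simpa using this
    · exact hbig h4
  · exact hbig h4

end Cfsg.Agent.S0269
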