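import Cfsg.Statements.S0272
import Cfsg.Agent.S0258

set_option autoImplicit false
open Cfsg

namespace Cfsg.Agent.S0272

/-- The normaliser in GL_2(q) of a Sylow p-subgroup, p the characteristic, has order q (q-1)^2. -/
theorem result {F : Type*} [Field F] [Fintype F] {q : ℕ} (hF : Fintype.card F = q) (p : ℕ) [Fact p.Prime] [CharP F p] (P : Sylow p (Matrix.GeneralLinearGroup (Fin 2) F)) : Nat.card (Subgroup.normalizer ((P : Subgroup (Matrix.GeneralLinearGroup (Fin 2) F)) : Set (Matrix.GeneralLinearGroup (Fin 2) F))) = q * (q - 1) ^ 2 := by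
  subst hF
  have hq2 : 2 ≤ Fintype.card F := Fintype.one_lt_card
  obtain ⟨k, hk⟩ : ∃ k, Fintype.card F = k + 1 := ⟨Fintype.card F - 1, by omega⟩
  have h1 := Cfsg.Agent.S0258.card_sylow (F := F) p
  rw [Sylow.card_eq_index_normalizer P] at h1
  have h1' : (Subgroup.normalizer ((P : Subgroup (Matrix.GeneralLinearGroup (Fin 2) F)) :
      Set (Matrix.GeneralLinearGroup (Fin 2) F))).index = Fintype.card F + 1 := h1
  have h2 := Subgroup.index_mul_card
    (Subgroup.normalizer ((P : Subgroup (Matrix.GeneralLinearGroup (Fin 2) F)) :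
      Set (Matrix.GeneralLinearGroup (Fin 2) F)))
  rw [h1', Cfsg.Agent.S0258.card_GL2' k hk, hk] at h2
  rw [hk, Nat.add_sub_cancel]
  have h' : (k + 1 + 1) * Nat.card (Subgroup.normalizer
      ((P : Subgroup (Matrix.GeneralLinearGroup (Fin 2) F)) :
      Set (Matrix.GeneralLinearGroup (Fin 2) F))) = (k + 1 + 1) * ((k + 1) * k ^ 2) := by
    rw [h2]
    ring
  exact Nat.eq_of_mul_eq_mul_left (by positivity) h'

end Cfsg.Agent.S0272
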