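import Cfsg.Statements.S0281
import Cfsg.Agent.S0278
import Cfsg.Agent.Lib_helper6_FieldEmb
import Cfsg.Agent.Lib_helper6_SUCenter
import Cfsg.Agent.Lib_helper6_SL2Classes

open Cfsg.Agent.H6 Cfsg.Agent.H6.GL2C

set_option autoImplicit false
open Cfsg

namespace Cfsg.Agent.S0281

/-- SU_2(q) is isomorphic to SL_2(q). -/
theorem result {F K : Type*} [Field F] [Fintype F] [Field K] [Fintype K] {q : ℕ} (hF : Fintype.card F = q ^ 2) (hK : Fintype.card K = q) : Nonempty (Cfsg.SU 2 F q ≃* Matrix.SpecialLinearGroup (Fin 2) K) := by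
  classical
  have hq2 := two_le_of_card_sq hF
  obtain ⟨ι⟩ := exists_ringHom_of_card_pow (K := K) (F := F) 2 (by rw [hF, hK])
  have hιq : ∀ k : K, (ι k) ^ q = ι k := by
    intro k
    rw [← map_pow, ← hK, FiniteField.pow_card]
  obtain ⟨θ, hθ⟩ : ∃ θ : F, θ ^ q ≠ θ := by
    by_contra hcon
    push_neg at hcon
    exact frobQ_ne_id hF (RingHom.ext hcon)
  have hneg : (-1 : F) ^ q = -1 := by
    have := map_neg (frobQ hF) 1
    simpa [frobQ_apply] using this
  obtain ⟨ε, hε0, hε⟩ := norm_surj hF (μ := (-1 : F)) (by simp) hneg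
  have hκ0 : θ ^ q - θ ≠ 0 := sub_ne_zero.mpr hθ
  obtain ⟨Pm, hPm⟩ : ∃ Pm : GL (Fin 2) F,
      (Pm : Matrix (Fin 2) (Fin 2) F) = !![1, θ; ε, ε * θ ^ q] :=
    ⟨Matrix.GeneralLinearGroup.mkOfDetNeZero !![1, θ; ε, ε * θ ^ q] (by
      rw [Matrix.det_fin_two]
      simp only [Matrix.of_apply, Matrix.cons_val_zero, Matrix.cons_val_one, Matrix.cons_val',
        Matrix.cons_val_fin_one]
      intro h
      have : ε * (θ ^ q - θ) = 0 := by linear_combination h
      rcases mul_eq_zero.mp this with h | h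
      · exact hε0 h
      · exact hκ0 h), rfl⟩
  have hθq2 : (θ ^ q) ^ q = θ := pow_q_pow_q hF θ
  have hgram : ∀ u v : Fin 2 → F, Cfsg.hermForm 2 F q ((Pm : Matrix (Fin 2) (Fin 2) F).mulVec u)
      ((Pm : Matrix (Fin 2) (Fin 2) F).mulVec v) =
        (θ ^ q - θ) * (u 0 * v 1 ^ q - u 1 * v 0 ^ q) := by
    intro u v
    rw [hPm]
    simp only [Cfsg.hermForm, Fin.sum_univ_two, Matrix.mulVec, dotProduct, Matrix.of_apply,
      Matrix.cons_val_zero, Matrix.cons_val_one, Matrix.cons_val', Matrix.cons_val_fin_one]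
    simp only [add_pow_q hF, mul_pow, one_pow, hθq2]
    linear_combination ((u 0 + θ ^ q * u 1) * (v 0 ^ q + θ * v 1 ^ q)) * hε
  have hpres : ∀ A : Matrix.SpecialLinearGroup (Fin 2) K, ∀ u v : Fin 2 → F,
      Cfsg.hermForm 2 F q (((Pm : Matrix (Fin 2) (Fin 2) F) *
        (A : Matrix (Fin 2) (Fin 2) K).map ι * ((Pm⁻¹ : GL (Fin 2) F) :
          Matrix (Fin 2) (Fin 2) F)).mulVec u)
        (((Pm : Matrix (Fin 2) (Fin 2) F) *
        (A : Matrix (Fin 2) (Fin 2) K).map ι * ((Pm⁻¹ : GL (Fin 2) F) :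
          Matrix (Fin 2) (Fin 2) F)).mulVec v) = Cfsg.hermForm 2 F q u v := by
    intro A u v
    have hx2 : ∀ w : Fin 2 → F, w = (Pm : Matrix (Fin 2) (Fin 2) F).mulVec
        (((Pm⁻¹ : GL (Fin 2) F) : Matrix (Fin 2) (Fin 2) F).mulVec w) := by
      intro w
      rw [Matrix.mulVec_mulVec, ← Units.val_mul, mul_inv_cancel]
      simp
    rw [← Matrix.mulVec_mulVec, ← Matrix.mulVec_mulVec, ← Matrix.mulVec_mulVec,
      ← Matrix.mulVec_mulVec, hgram]
    conv_rhs => rw [hx2 u, hx2 v, hgram]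
    generalize (((Pm⁻¹ : GL (Fin 2) F) : Matrix (Fin 2) (Fin 2) F).mulVec u) = a
    generalize (((Pm⁻¹ : GL (Fin 2) F) : Matrix (Fin 2) (Fin 2) F).mulVec v) = b
    have hdet : ι ((A : Matrix (Fin 2) (Fin 2) K) 0 0) * ι ((A : Matrix (Fin 2) (Fin 2) K) 1 1) -
        ι ((A : Matrix (Fin 2) (Fin 2) K) 0 1) * ι ((A : Matrix (Fin 2) (Fin 2) K) 1 0) = 1 := by
      have := A.2
      rw [Matrix.det_fin_two] at this
      rw [← map_mul, ← map_mul, ← map_sub, this, map_one]
    simp only [Matrix.mulVec, dotProduct, Fin.sum_univ_two, Matrix.map_apply]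
    simp only [add_pow_q hF, mul_pow, hιq]
    linear_combination ((θ ^ q - θ) * (a 0 * b 1 ^ q - a 1 * b 0 ^ q)) * hdet
  have hdetc : ∀ A : Matrix.SpecialLinearGroup (Fin 2) K, ((Pm : Matrix (Fin 2) (Fin 2) F) *
        (A : Matrix (Fin 2) (Fin 2) K).map ι * ((Pm⁻¹ : GL (Fin 2) F) :
          Matrix (Fin 2) (Fin 2) F)).det = 1 := by
    intro A
    rw [Matrix.det_units_conj]
    have := RingHom.map_det ι (A : Matrix (Fin 2) (Fin 2) K)
    rw [A.2, map_one] at this
    exact this.symm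
  let Φ : Matrix.SpecialLinearGroup (Fin 2) K →* Cfsg.SU 2 F q :=
    { toFun := fun A => mkSU _ (hdetc A) (hpres A)
      map_one' := by
        apply suMat_injective
        rw [suMat_mkSU]
        show _ = (1 : Matrix (Fin 2) (Fin 2) F)
        rw [Matrix.SpecialLinearGroup.coe_one, Matrix.map_one _ (map_zero ι) (map_one ι), mul_one,
          ← Units.val_mul, mul_inv_cancel]
        rfl
      map_mul' := by
        intro A B
        apply suMat_injective
        rw [suMat_mul, suMat_mkSU, suMat_mkSU, suMat_mkSU, Matrix.SpecialLinearGroup.coe_mul,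
          Matrix.map_mul]
        have h1 : ((Pm⁻¹ : GL (Fin 2) F) : Matrix (Fin 2) (Fin 2) F) *
            (Pm : Matrix (Fin 2) (Fin 2) F) = 1 := by
          rw [← Units.val_mul, inv_mul_cancel]
          rfl
        calc _ = (Pm : Matrix (Fin 2) (Fin 2) F) * (A : Matrix (Fin 2) (Fin 2) K).map ι * 1 *
              (B : Matrix (Fin 2) (Fin 2) K).map ι * ((Pm⁻¹ : GL (Fin 2) F) :
              Matrix (Fin 2) (Fin 2) F) := by rw [mul_one]; simp only [mul_assoc]
          _ = _ := by rw [← h1]; simp only [mul_assoc] }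
  have hinj : Function.Injective Φ := by
    intro A B hAB
    have h1 := congrArg suMat hAB
    change suMat (mkSU _ (hdetc A) (hpres A)) = suMat (mkSU _ (hdetc B) (hpres B)) at h1
    rw [suMat_mkSU, suMat_mkSU] at h1
    have h2 : (A : Matrix (Fin 2) (Fin 2) K).map ι = (B : Matrix (Fin 2) (Fin 2) K).map ι := by
      have h3 := congrArg (fun M => ((Pm⁻¹ : GL (Fin 2) F) : Matrix (Fin 2) (Fin 2) F) * M *
        (Pm : Matrix (Fin 2) (Fin 2) F)) h1
      have h4 : ((Pm⁻¹ : GL (Fin 2) F) : Matrix (Fin 2) (Fin 2) F) *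
            (Pm : Matrix (Fin 2) (Fin 2) F) = 1 := by
          rw [← Units.val_mul, inv_mul_cancel]
          rfl
      simp only [mul_assoc, h4, mul_one] at h3
      simp only [← mul_assoc, h4, one_mul] at h3
      exact h3
    apply Subtype.ext
    ext i j
    have := congrFun (congrFun h2 i) j
    simp only [Matrix.map_apply] at this
    exact ι.injective this
  have hcard : Nat.card (Matrix.SpecialLinearGroup (Fin 2) K) = Nat.card (Cfsg.SU 2 F q) := by
    have h1 := Cfsg.Agent.S0278.result hF 2 (by norm_num)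
    simp [Finset.prod_range_succ, -Nat.card_eq_fintype_card] at h1
    rw [card_SL2, hK]
    have h2 : (q + 1) * Nat.card (Cfsg.SU 2 F q) = (q + 1) * (q * (q ^ 2 - 1)) := by
      rw [h1]; ring
    exact (Nat.eq_of_mul_eq_mul_left (by omega) h2).symm
  have hbij : Function.Bijective Φ := (Nat.bijective_iff_injective_and_card Φ).mpr ⟨hinj, hcard⟩
  exact ⟨(MulEquiv.ofBijective Φ hbij).symm⟩

end Cfsg.Agent.S0281
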