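import Cfsg.Statements.S0286
import Cfsg.Agent.Lib_helper6_QuadStd

set_option autoImplicit false
open Cfsg

namespace Cfsg.Agent.S0286

/-- |GO_{2m+1}(q)| = 2 q^(m^2) prod_{i=1}^{m} (q^(2i) - 1) for q odd. -/
theorem result {F : Type*} [Field F] [Fintype F] {q : ℕ} (hF : Fintype.card F = q) (hodd : Odd q) (m : ℕ) : Nat.card (Cfsg.isometryGroup F (Cfsg.quadFormOdd m F)) = 2 * q ^ (m ^ 2) * ∏ i ∈ Finset.range m, (q ^ (2 * (i + 1)) - 1) := by
  have h2 : (2 : F) ≠ 0 := by
    intro h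
    have : CharP F 2 := CharTwo.of_one_ne_zero_of_two_eq_zero one_ne_zero h
    have hev : Even (Fintype.card F) := by
      have := FiniteField.even_card_of_char_two (F := F) (ringChar.eq F 2)
      exact Nat.even_iff.mpr this
    rw [hF] at hev
    exact (Nat.not_even_iff_odd.mpr hodd) hev
  rw [Cfsg.Agent.H6.Quad.card_isometryGroup_odd h2, Nat.card_eq_fintype_card, hF, mul_assoc]
  congr 1
  have hq : 1 ≤ q := by rw [← hF]; exact Fintype.card_pos
  induction m with
  | zero => simp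
  | succ k ih =>
    rw [Finset.prod_range_succ, ih, Finset.prod_range_succ (fun i => q ^ (2 * (i + 1)) - 1)]
    have h1 := Cfsg.Agent.H6.Quad.sub_one_mul_add_one (q ^ (k + 1)) (Nat.one_le_pow _ _ hq)
    have h2 : q ^ (2 * (k + 1)) - 1 = (q ^ (k + 1) - 1) * (q ^ (k + 1) + 1) := by
      rw [h1, ← pow_mul, mul_comm 2]
    rw [h2]
    have h3 : q ^ ((k + 1) ^ 2) = q ^ (k ^ 2) * q ^ (2 * k + 1) := by
      rw [← pow_add]; congr 1; ring
    rw [h3]
    ring

end Cfsg.Agent.S0286
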