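import Cfsg.Statements.S0289
import Cfsg.Agent.Lib_helper6_QuadCount

set_option autoImplicit false
open Cfsg

namespace Cfsg.Agent.S0289

/-- The hyperbolic quadratic form on F^(2m), m at least 1, has q^(2m-1) + q^m - q^(m-1) zeros (that is, (q^m - 1)(q^(m-1) + 1) non-zero isotropic vectors). -/
theorem result {F : Type*} [Field F] [Fintype F] {q : ℕ} (hF : Fintype.card F = q) (m : ℕ) (hm : 1 ≤ m) : Nat.card {v : Fin m ⊕ Fin m → F // Cfsg.quadFormPlus m F v = 0} = q ^ (2 * m - 1) + q ^ m - q ^ (m - 1) := by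
  have e : {v : Fin m ⊕ Fin m → F // Cfsg.quadFormPlus m F v = 0} ≃
      {p : (Fin m → F) × (Fin m → F) × Unit // p.1 ⬝ᵥ p.2.1 + (fun _ => (0 : F)) p.2.2 = 0} :=
    ⟨fun v => ⟨(fun i => v.1 (.inl i), fun i => v.1 (.inr i), ()), by
        simpa [Cfsg.quadFormPlus, dotProduct] using v.2⟩,
      fun p => ⟨Sum.elim p.1.1 p.1.2.1, by simpa [Cfsg.quadFormPlus, dotProduct] using p.2⟩,
      fun v => Subtype.ext (by ext (i | i) <;> rfl), fun p => rfl⟩
  rw [Nat.card_congr e, Cfsg.Agent.H6.card_zeros_dot (fun _ : Unit => (0 : F)), Nat.card_eq_fintype_card (α := F), hF,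
    Fintype.card_fin]
  have h1 : Nat.card {t : Unit // (fun _ => (0 : F)) t = 0} = 1 := by
    have : Unique {t : Unit // (fun _ => (0 : F)) t = 0} := ⟨⟨⟨(), rfl⟩⟩, fun _ => rfl⟩
    exact Nat.card_unique
  rw [h1, Nat.card_unique, mul_one, mul_one]
  obtain ⟨k, rfl⟩ : ∃ k, m = k + 1 := ⟨m - 1, by omega⟩
  have hq : 1 ≤ q := by rw [← hF]; exact Fintype.card_pos
  have e1 : 2 * (k + 1) - 1 = (k + 1) + k := by omega
  rw [e1, Nat.add_sub_cancel, Nat.sub_mul, one_mul, ← pow_add]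
  have h2 : q ^ k ≤ q ^ (k + 1 + k) := Nat.pow_le_pow_right hq (by omega)
  omega

end Cfsg.Agent.S0289
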