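import Cfsg.Statements.S0291
import Cfsg.Agent.Lib_helper6_QuadCount

set_option autoImplicit false
open Cfsg

namespace Cfsg.Agent.S0291

/-- For q odd, the form x_0^2 + sum_{i<m} x_i y_i on F^(2m+1) has exactly q^(2m) zeros. -/
theorem result {F : Type*} [Field F] [Fintype F] {q : ℕ} (hF : Fintype.card F = q) (hodd : Odd q) (m : ℕ) : Nat.card {v : Unit ⊕ (Fin m ⊕ Fin m) → F // Cfsg.quadFormOdd m F v = 0} = q ^ (2 * m) := by
  have e : {v : Unit ⊕ (Fin m ⊕ Fin m) → F // Cfsg.quadFormOdd m F v = 0} ≃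
      {p : (Fin m → F) × (Fin m → F) × F // p.1 ⬝ᵥ p.2.1 + (fun t : F => t ^ 2) p.2.2 = 0} :=
    ⟨fun v => ⟨(fun i => v.1 (.inr (.inl i)), fun i => v.1 (.inr (.inr i)), v.1 (.inl ())), by
        have := v.2
        simp only [Cfsg.quadFormOdd] at this
        simp only [dotProduct]
        rw [add_comm]; exact this⟩,
      fun p => ⟨Sum.elim (fun _ => p.1.2.2) (Sum.elim p.1.1 p.1.2.1), by
        have := p.2
        simp only [dotProduct] at this
        simp only [Cfsg.quadFormOdd, Sum.elim_inl, Sum.elim_inr]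
        rw [add_comm]; exact this⟩,
      fun v => Subtype.ext (by ext (i | i | i) <;> rfl), fun p => rfl⟩
  rw [Nat.card_congr e, Cfsg.Agent.H6.card_zeros_dot (fun t : F => t ^ 2), Nat.card_eq_fintype_card (α := F), hF,
    Fintype.card_fin]
  have h1 : Nat.card {t : F // (fun t : F => t ^ 2) t = 0} = 1 := by
    have : Unique {t : F // (fun t : F => t ^ 2) t = 0} := ⟨⟨⟨0, by simp⟩⟩, fun t =>
      Subtype.ext (by simpa using t.2)⟩
    exact Nat.card_unique
  rw [h1, mul_one]
  have hq : 1 ≤ q := by rw [← hF]; exact Fintype.card_pos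
  rcases Nat.eq_zero_or_pos m with rfl | hm
  · simp
  · have e1 : q ^ (m - 1) * q = q ^ m := by rw [← pow_succ, Nat.sub_add_cancel hm]
    rw [mul_assoc, e1, Nat.sub_mul, one_mul, ← pow_add, two_mul]
    have h2 : q ^ m ≤ q ^ (m + m) := Nat.pow_le_pow_right hq (by omega)
    omega

end Cfsg.Agent.S0291
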