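import Cfsg.Statements.S0292
import Cfsg.Agent.Lib_helper6_OmegaCenter
import Cfsg.Agent.S0286

set_option autoImplicit false
open Cfsg

namespace Cfsg.Agent.S0292

/-- 2 |PΩ_{2m+1}(q)| = q^(m^2) prod_{i=1}^{m} (q^(2i) - 1), for q odd and m at least 3 (type B_m). -/
theorem result {F : Type*} [Field F] [Fintype F] {q : ℕ} (hF : Fintype.card F = q) (hodd : Odd q) (m : ℕ) (hm : 3 ≤ m) : 2 * Nat.card (Cfsg.POmega F (Cfsg.quadFormOdd m F)) = q ^ (m ^ 2) * ∏ i ∈ Finset.range m, (q ^ (2 * (i + 1)) - 1) := by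
  classical
  have h2 := H6.Quad.two_ne_zero_of_odd hF hodd
  have hQ := H6.Quad.nondeg_qOdd h2 m
  have hcard : Fintype.card (Unit ⊕ (Fin m ⊕ Fin m)) = 2 * m + 1 := by simp; ring
  have h := H6.Quad.card_POmega_mul (F := F) (Cfsg.quadFormOdd m F)
  rw [H6.Quad.index_Omega_odd h2 (H6.Quad.qOdd m F) hQ (by rw [hcard]; omega) _
    (H6.Quad.qOdd_apply m), Cfsg.Agent.S0286.result hF hodd m,
    H6.Quad.card_center_Omega_of_not_mem (H6.Quad.qOdd m F) hQ (by rw [hcard]; omega) _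
    (H6.Quad.qOdd_apply m) (Or.inr (by
      rintro ⟨g, hg, hgv⟩
      have h1 := H6.Quad.dickM_eq_one_of_mem (H6.Quad.qOdd m F) hQ _ (H6.Quad.qOdd_apply m) hg
      rw [H6.Quad.dickM_eq_one_iff_det h2, hgv, Matrix.det_neg, Matrix.det_one, hcard,
        pow_succ, pow_mul] at h1
      simp at h1
      apply h2
      linear_combination -h1))] at h
  have e : 2 * q ^ m ^ 2 * ∏ i ∈ Finset.range m, (q ^ (2 * (i + 1)) - 1) =
      2 * (q ^ m ^ 2 * ∏ i ∈ Finset.range m, (q ^ (2 * (i + 1)) - 1)) := by ring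
  rw [e] at h
  omega

end Cfsg.Agent.S0292
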