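import Cfsg.Statements.S0790
import Cfsg.Agent.Lib_helper6_Spinor3

set_option autoImplicit false
open Cfsg

namespace Cfsg.Agent.S0790

/-- −1 ∈ Ω⁺_2m(q) iff q^m ≡ 1 (mod 4), for q odd and m ≥ 1 (so that in the other case SO⁺_2m(q) = 2 × Ω⁺_2m(q)). -/
theorem result {F : Type*} [Field F] [Fintype F] {q : ℕ} (hF : Fintype.card F = q) (hodd : Odd q) (m : ℕ) (hm : 1 ≤ m) : (∃ g : ↥(Cfsg.isometryGroup F (Cfsg.quadFormPlus m F)), g ∈ Cfsg.Omega F (Cfsg.quadFormPlus m F) ∧ ((g : Matrix.GeneralLinearGroup (Fin m ⊕ Fin m) F) : Matrix (Fin m ⊕ Fin m) (Fin m ⊕ Fin m) F) = -1) ↔ q ^ m % 4 = 1 := by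
  classical
  have h2 := H6.Quad.two_ne_zero_of_odd hF hodd
  obtain ⟨α, hα⟩ := FiniteField.exists_nonsquare (F := F) (by
    intro hchar
    apply h2
    have := ringChar.Nat.cast_ringChar (R := F)
    rw [hchar] at this
    exact_mod_cast this)
  obtain ⟨d, hd1, hd2, hd3, hd4⟩ := H6.Quad.exists_negPairs h2 (H6.Quad.nondeg_qPlus (F := F) m) hα
    (fun j : Fin m => (Sum.inl j : Fin m ⊕ Fin m)) (fun j => Sum.inr j)
    (by
      rintro (j | j) (j' | j') h <;> simp_all)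
    (fun j => by rw [H6.Quad.qPlus_apply]; simp [Cfsg.quadFormPlus])
    (fun j => by rw [H6.Quad.qPlus_apply]; simp [Cfsg.quadFormPlus])
    (fun x j => by rw [H6.Quad.pol_qPlus]; simp [Pi.single_apply])
    (fun x j => by rw [H6.Quad.pol_qPlus]; simp [Pi.single_apply]) m le_rfl
  rw [H6.Quad.exists_mem_Omega_iff (H6.Quad.qPlus m F) _ (H6.Quad.qPlus_apply m) d]
  · exact H6.Quad.negPairs_mem_iff hF hodd (H6.Quad.nondeg_qPlus m) (by simp; omega) hα d hd3 hd4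
  · intro x
    funext k
    rw [Matrix.neg_mulVec, Matrix.one_mulVec, hd1 x k (by
        rcases k with j | j
        · exact ⟨j, j.2, Or.inl rfl⟩
        · exact ⟨j, j.2, Or.inr rfl⟩)]
    rfl

end Cfsg.Agent.S0790
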