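import Cfsg.Statements.S0791
import Cfsg.Agent.Lib_helper6_Spinor3

set_option autoImplicit false
open Cfsg

namespace Cfsg.Agent.S0791

/-- −1 ∈ Ω⁻_2m(q) iff q^m ≡ −1 (mod 4), for q odd and m ≥ 1; for the minus-type form quadFormMinus (m−1) with anisotropic binary part. -/
theorem result {F : Type*} [Field F] [Fintype F] {q : ℕ} (hF : Fintype.card F = q) (hodd : Odd q) (m : ℕ) (hm : 1 ≤ m) (a b : F) (hab : ∀ z₁ z₂ : F, z₁ ^ 2 + a * z₁ * z₂ + b * z₂ ^ 2 = 0 → z₁ = 0 ∧ z₂ = 0) : (∃ g : ↥(Cfsg.isometryGroup F (Cfsg.quadFormMinus (m - 1) F a b)), g ∈ Cfsg.Omega F (Cfsg.quadFormMinus (m - 1) F a b) ∧ ((g : Matrix.GeneralLinearGroup ((Fin (m - 1) ⊕ Fin (m - 1)) ⊕ Fin 2) F) : Matrix ((Fin (m - 1) ⊕ Fin (m - 1)) ⊕ Fin 2) ((Fin (m - 1) ⊕ Fin (m - 1)) ⊕ Fin 2) F) = -1) ↔ q ^ m % 4 = 3 := by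
  classical
  have h2 := H6.Quad.two_ne_zero_of_odd hF hodd
  obtain ⟨α, hα⟩ := FiniteField.exists_nonsquare (F := F) (by
    intro hchar
    apply h2
    have := ringChar.Nat.cast_ringChar (R := F)
    rw [hchar] at this
    exact_mod_cast this)
  set Q := H6.Quad.qMinus (m - 1) F a b with hQdef
  have hQ : (H6.Quad.pol Q).Nondegenerate := H6.Quad.nondeg_qMinus (m - 1) a b hab
  obtain ⟨d, hd1, hd2, hd3, hd4⟩ := H6.Quad.exists_negPairs h2 hQ hα
    (fun j : Fin (m - 1) => (Sum.inl (Sum.inl j) : (Fin (m - 1) ⊕ Fin (m - 1)) ⊕ Fin 2))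
    (fun j => Sum.inl (Sum.inr j))
    (by
      rintro (j | j) (j' | j') h
      · simpa using h
      · simp at h
      · simp at h
      · simpa using h)
    (fun j => by rw [hQdef, H6.Quad.qMinus_apply]; simp [Cfsg.quadFormMinus])
    (fun j => by rw [hQdef, H6.Quad.qMinus_apply]; simp [Cfsg.quadFormMinus])
    (fun x j => by rw [hQdef, H6.Quad.pol_qMinus]; simp [Pi.single_apply])
    (fun x j => by rw [hQdef, H6.Quad.pol_qMinus]; simp [Pi.single_apply]) (m - 1) le_rfl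
  set z : (Fin (m - 1) ⊕ Fin (m - 1)) ⊕ Fin 2 → F := Pi.single (Sum.inr 0) 1 with hz
  set w : (Fin (m - 1) ⊕ Fin (m - 1)) ⊕ Fin 2 → F :=
    Pi.single (Sum.inr 0) (-a) + Pi.single (Sum.inr 1) 2 with hw
  have hQz : Q z = 1 := by
    rw [hQdef, H6.Quad.qMinus_apply]; simp [Cfsg.quadFormMinus, hz]
  have hQw : Q w = 4 * b - a ^ 2 := by
    rw [hQdef, H6.Quad.qMinus_apply]; simp [Cfsg.quadFormMinus, hw]
    ring
  have hBz : ∀ x, H6.Quad.pol Q x z = 2 * x (Sum.inr 0) + a * x (Sum.inr 1) := by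
    intro x
    rw [hQdef, H6.Quad.pol_qMinus]; simp [hz]
  have hBw : ∀ x, H6.Quad.pol Q x w = (4 * b - a ^ 2) * x (Sum.inr 1) := by
    intro x
    rw [hQdef, H6.Quad.pol_qMinus]; simp [hw]
    ring
  have hns : ¬ IsSquare (a ^ 2 - 4 * b) := by
    rintro ⟨s, hs⟩
    have := hab ((-a + s) / 2) 1 (by
      field_simp
      linear_combination -hs)
    exact one_ne_zero this.2
  have hw0 : Q w ≠ 0 := by
    rw [hQw]
    intro h
    apply hns
    have : a ^ 2 - 4 * b = 0 := by linear_combination -h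
    rw [this]; exact IsSquare.zero
  have hz0 : Q z ≠ 0 := by rw [hQz]; exact one_ne_zero
  have hsqw : IsSquare (Q w) ↔ ¬ IsSquare (-1 : F) := by
    have : Q w = (a ^ 2 - 4 * b) * (-1) := by rw [hQw]; ring
    rw [this]
    exact H6.Quad.isSquare_mul_iff_of_not_sq hns (neg_ne_zero.mpr one_ne_zero)
  set d' := d * (H6.Quad.Rf hQ z hz0 * H6.Quad.Rf hQ w hw0) with hd'
  have hRR : ∀ x, (H6.Quad.Rf hQ z hz0 * H6.Quad.Rf hQ w hw0).1 x =
      x - x (Sum.inr 1) • w - (2 * x (Sum.inr 0) + a * x (Sum.inr 1)) • z := by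
    intro x
    change (H6.Quad.Rf hQ z hz0).1 ((H6.Quad.Rf hQ w hw0).1 x) = _
    rw [H6.Quad.Rf_apply, H6.Quad.Rf_apply, hBw, hQz, hBz, hQw]
    have e1 : (4 * b - a ^ 2) * x (Sum.inr 1) / (4 * b - a ^ 2) = x (Sum.inr 1) := by
      rw [hQw] at hw0
      field_simp
    rw [e1]
    congr 2
    simp [hw]
    ring
  rw [H6.Quad.exists_mem_Omega_iff Q _ (H6.Quad.qMinus_apply (m - 1) a b) d' (-1)]
  · rw [H6.Quad.mem_commutator_iff h2 hQ (by simp) hα, hd', map_mul, map_mul, map_mul, map_mul]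
    obtain ⟨z1, z2⟩ := H6.Quad.chi_Rf_of_sq h2 hQ hα z hz0 (by rw [hQz]; exact IsSquare.one)
    have h4 := H6.Quad.pow_mod_four_iff hF hodd m
    have hodd' : q ^ m % 4 = 1 ∨ q ^ m % 4 = 3 := by
      obtain ⟨k, hk⟩ := hodd.pow (n := m)
      omega
    by_cases hs : IsSquare (-1 : F)
    · obtain ⟨a1, a2⟩ := hd3 hs
      obtain ⟨w1, w2⟩ := H6.Quad.chi_Rf_of_not_sq h2 hQ hα w hw0 (by rw [hsqw]; simpa using hs)
      rw [a1, a2, z1, z2, w1, w2]
      have : q ^ m % 4 = 1 := h4.mpr (Or.inl hs)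
      rw [this]
      decide
    · obtain ⟨a1, a2⟩ := hd4 hs
      obtain ⟨w1, w2⟩ := H6.Quad.chi_Rf_of_sq h2 hQ hα w hw0 (hsqw.mpr hs)
      rw [a1, a2, z1, z2, w1, w2]
      simp only [mul_neg, mul_one, neg_neg, and_self]
      rw [neg_one_pow_eq_one_iff_even (by decide)]
      simp only [hs, false_or] at h4
      constructor
      · intro he
        have : ¬ Even m := by
          intro hm'
          obtain ⟨k, hk⟩ := he
          obtain ⟨k', hk'⟩ := hm'
          omega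
        rcases hodd' with h | h
        · exact absurd (h4.mp h) this
        · exact h
      · intro h
        have : ¬ Even m := fun hm' => by
          rw [h4.mpr hm'] at h
          omega
        rw [Nat.not_even_iff_odd] at this
        obtain ⟨k, hk⟩ := this
        exact ⟨k, by omega⟩
  · intro x
    funext k
    rw [Matrix.neg_mulVec, Matrix.one_mulVec, hd']
    change d.1 ((H6.Quad.Rf hQ z hz0 * H6.Quad.Rf hQ w hw0).1 x) k = _
    rcases k with (j | j) | j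
    · rw [hd1 _ _ ⟨j, j.2, Or.inl rfl⟩, hRR]
      simp [hw, hz]
    · rw [hd1 _ _ ⟨j, j.2, Or.inr rfl⟩, hRR]
      simp [hw, hz]
    · rw [hd2 _ _ (by rintro ⟨j', _, h | h⟩ <;> cases h), hRR]
      fin_cases j
      · simp [hw, hz]
        ring
      · simp [hw, hz]
        ring

end Cfsg.Agent.S0791
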