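import Cfsg.Statements.S0294
import Cfsg.Agent.Lib_helper6_OmegaCenter
import Cfsg.Agent.S0288
import Cfsg.Agent.S0791

set_option autoImplicit false
open Cfsg

namespace Cfsg.Agent.S0294

/-- gcd(4, q^m + 1) |PΩ^-_{2m}(q)| = q^(m(m-1)) (q^m + 1) prod_{i=1}^{m-1} (q^(2i) - 1), m at least 4 (type ²D_m). -/
theorem result {F : Type*} [Field F] [Fintype F] {q : ℕ} (hF : Fintype.card F = q) (m : ℕ) (hm : 4 ≤ m) (a b : F) (hab : ∀ z₁ z₂ : F, z₁ ^ 2 + a * z₁ * z₂ + b * z₂ ^ 2 = 0 → z₁ = 0 ∧ z₂ = 0) : Nat.gcd 4 (q ^ m + 1) * Nat.card (Cfsg.POmega F (Cfsg.quadFormMinus (m - 1) F a b)) = q ^ (m * (m - 1)) * (q ^ m + 1) * ∏ i ∈ Finset.range (m - 1), (q ^ (2 * (i + 1)) - 1) := by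
  classical
  have hQ := H6.Quad.nondeg_qMinus (m - 1) a b hab
  have hcard : Fintype.card ((Fin (m - 1) ⊕ Fin (m - 1)) ⊕ Fin 2) = 2 * m := by simp; omega
  have : Nonempty ((Fin (m - 1) ⊕ Fin (m - 1)) ⊕ Fin 2) := ⟨Sum.inr 0⟩
  have h := H6.Quad.card_POmega_mul (F := F) (Cfsg.quadFormMinus (m - 1) F a b)
  rw [Cfsg.Agent.S0288.result hF m (by omega) a b hab] at h
  set Y := q ^ (m * (m - 1)) * (q ^ m + 1) * ∏ i ∈ Finset.range (m - 1), (q ^ (2 * (i + 1)) - 1)
    with hY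
  have e : 2 * q ^ (m * (m - 1)) * (q ^ m + 1) * ∏ i ∈ Finset.range (m - 1),
      (q ^ (2 * (i + 1)) - 1) = 2 * Y := by rw [hY]; ring
  rw [e] at h
  have hq1 : 1 ≤ q ^ m := Nat.one_le_pow _ _ (by rw [← hF]; exact Fintype.card_pos)
  rcases Nat.even_or_odd q with hq | hq
  · have h2 : (2 : F) = 0 := by
      have hc : ringChar F = 2 := (FiniteField.even_card_iff_char_two).mpr (by
        rw [hF]; exact Nat.even_iff.mp hq)
      have := ringChar.Nat.cast_ringChar (R := F)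
      rw [hc] at this
      exact_mod_cast this
    rw [H6.Quad.index_Omega_char_two h2 (H6.Quad.qMinus (m - 1) F a b) hQ
      (Or.inr (by rw [hcard]; omega))
      (by rw [hcard]; omega) _ (H6.Quad.qMinus_apply (m - 1) a b),
      H6.Quad.card_center_Omega_of_not_mem (H6.Quad.qMinus (m - 1) F a b) hQ
      (by rw [hcard]; omega) _ (H6.Quad.qMinus_apply (m - 1) a b) (Or.inl h2)] at h
    have hg : Nat.gcd 4 (q ^ m + 1) = 1 := by
      have he : Even (q ^ m) := hq.pow_of_ne_zero (by omega)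
      obtain ⟨k, hk⟩ := he
      have : (q ^ m + 1) % 4 = 1 ∨ (q ^ m + 1) % 4 = 3 := by omega
      rw [Nat.gcd_rec]
      rcases this with h' | h' <;> rw [h'] <;> decide
    rw [hg]
    omega
  · have h2 := H6.Quad.two_ne_zero_of_odd hF hq
    rw [H6.Quad.index_Omega_odd h2 (H6.Quad.qMinus (m - 1) F a b) hQ (by rw [hcard]; omega) _
      (H6.Quad.qMinus_apply (m - 1) a b)] at h
    have hmem := Cfsg.Agent.S0791.result hF hq m (by omega) a b hab
    have h4 : q ^ m % 4 = 1 ∨ q ^ m % 4 = 3 := by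
      obtain ⟨k, hk⟩ := hq.pow (n := m)
      omega
    rcases h4 with h4 | h4
    · rw [H6.Quad.card_center_Omega_of_not_mem (H6.Quad.qMinus (m - 1) F a b) hQ
        (by rw [hcard]; omega) _
        (H6.Quad.qMinus_apply (m - 1) a b) (Or.inr (by rw [hmem, h4]; decide))] at h
      have hg : Nat.gcd 4 (q ^ m + 1) = 2 := by
        have : (q ^ m + 1) % 4 = 2 := by omega
        rw [Nat.gcd_rec, this]; decide
      rw [hg]
      omega
    · rw [H6.Quad.card_center_Omega_of_mem h2 (H6.Quad.qMinus (m - 1) F a b) hQ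
        (by rw [hcard]; omega) _
        (H6.Quad.qMinus_apply (m - 1) a b) (hmem.mpr h4)] at h
      have hg : Nat.gcd 4 (q ^ m + 1) = 4 := by
        have : (q ^ m + 1) % 4 = 0 := by omega
        rw [Nat.gcd_rec, this]; decide
      rw [hg]
      omega

end Cfsg.Agent.S0294
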