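import Cfsg.Statements.S0304
import Cfsg.Agent.Lib_helper6_QuadStd
import Cfsg.Agent.Lib_helper6_AltIso

set_option autoImplicit false
open Cfsg

namespace Cfsg.Agent.S0304

open H6 H6.Quad

variable {F : Type*} [Field F] {m : ℕ}

/-- The radical vector. -/
def e0 (m : ℕ) (F : Type*) [Field F] : Unit ⊕ (Fin m ⊕ Fin m) → F := Sum.elim (fun _ => 1) 0

/-- Projection. -/
def prj (m : ℕ) (F : Type*) [Field F] :
    (Unit ⊕ (Fin m ⊕ Fin m) → F) →ₗ[F] (Fin m ⊕ Fin m → F) := LinearMap.funLeft F F Sum.inr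

/-- Section. -/
def sec (m : ℕ) (F : Type*) [Field F] :
    (Fin m ⊕ Fin m → F) →ₗ[F] (Unit ⊕ (Fin m ⊕ Fin m) → F) where
  toFun w := Sum.elim 0 w
  map_add' w w' := by funext i; rcases i with i | i <;> simp
  map_smul' c w := by funext i; rcases i with i | i <;> simp

theorem prj_apply (v : Unit ⊕ (Fin m ⊕ Fin m) → F) (i : Fin m ⊕ Fin m) :
    prj m F v i = v (.inr i) := rfl

theorem prj_sec (w : Fin m ⊕ Fin m → F) : prj m F (sec m F w) = w := rfl

theorem prj_e0 : prj m F (e0 m F) = 0 := rfl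

theorem sec_inl (w : Fin m ⊕ Fin m → F) : sec m F w (.inl ()) = 0 := rfl

theorem e0_inl : e0 m F (.inl ()) = 1 := rfl

theorem decomp (v : Unit ⊕ (Fin m ⊕ Fin m) → F) :
    v = v (.inl ()) • e0 m F + sec m F (prj m F v) := by
  funext i
  rcases i with i | i
  · simp [e0, sec]
  · simp [e0, sec, prj]

theorem Q_eq (v : Unit ⊕ (Fin m ⊕ Fin m) → F) :
    qOdd m F v = v (.inl ()) ^ 2 + qPlus m F (prj m F v) := by
  rw [qOdd_apply, qPlus_apply]; rfl

theorem pol_eq [CharP F 2] (v w : Unit ⊕ (Fin m ⊕ Fin m) → F) :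
    pol (qOdd m F) v w = pol (qPlus m F) (prj m F v) (prj m F w) := by
  rw [pol_qOdd, pol_qPlus, CharTwo.two_eq_zero]
  simp [prj_apply]

theorem fix_e0 [CharP F 2] {g : (Unit ⊕ (Fin m ⊕ Fin m) → F) ≃ₗ[F] (Unit ⊕ (Fin m ⊕ Fin m) → F)}
    (hg : g ∈ IsomOf (F := F) (bet (qOdd m F))) : g (e0 m F) = e0 m F := by
  have hg' := mem_IsomOf_iff.mp hg
  have h1 : prj m F (g (e0 m F)) = 0 := by
    apply (nondeg_qPlus (F := F) m).1
    intro w
    obtain ⟨v, hv⟩ := g.surjective (sec m F w)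
    have := pol_map (T := g.toLinearMap) hg' (e0 m F) v
    simp only [LinearEquiv.coe_coe] at this
    rw [pol_eq, pol_eq, hv, prj_sec, prj_e0, map_zero, LinearMap.zero_apply] at this
    exact this
  have h2 := hg' (e0 m F)
  rw [Q_eq, Q_eq, h1, prj_e0, map_zero, add_zero, add_zero, e0_inl, one_pow] at h2
  have h3 : g (e0 m F) (.inl ()) = 1 := by
    have : (g (e0 m F) (.inl ()) + 1) ^ 2 = 0 := by
      rw [CharTwo.add_sq, h2, one_pow, CharTwo.add_self_eq_zero]
    have := pow_eq_zero_iff (two_ne_zero) |>.mp this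
    exact CharTwo.add_eq_zero.mp this
  rw [decomp (g (e0 m F)), h1, h3, map_zero, one_smul, add_zero]

theorem prj_map [CharP F 2]
    {g : (Unit ⊕ (Fin m ⊕ Fin m) → F) ≃ₗ[F] (Unit ⊕ (Fin m ⊕ Fin m) → F)}
    (hg : g ∈ IsomOf (F := F) (bet (qOdd m F))) (v : Unit ⊕ (Fin m ⊕ Fin m) → F) :
    prj m F (g (sec m F (prj m F v))) = prj m F (g v) := by
  conv_rhs => rw [decomp v, map_add, map_smul, fix_e0 hg, map_add, map_smul, prj_e0, smul_zero,
    zero_add]

/-- The induced endomorphism. -/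
def phiEnd [CharP F 2] : IsomOf (F := F) (bet (qOdd m F)) →* Module.End F (Fin m ⊕ Fin m → F) where
  toFun g := prj m F ∘ₗ g.1.toLinearMap ∘ₗ sec m F
  map_one' := by
    ext1 w
    rfl
  map_mul' g g' := by
    apply LinearMap.ext
    intro w
    change prj m F (g.1 (g'.1 (sec m F w))) = prj m F (g.1 (sec m F (prj m F (g'.1 (sec m F w)))))
    rw [prj_map g.2]

/-- The induced automorphism. -/
noncomputable def phiLin [CharP F 2] :
    IsomOf (F := F) (bet (qOdd m F)) →* ((Fin m ⊕ Fin m → F) ≃ₗ[F] (Fin m ⊕ Fin m → F)) :=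
  (LinearMap.GeneralLinearGroup.generalLinearEquiv F (Fin m ⊕ Fin m → F)).toMonoidHom.comp
    phiEnd.toHomUnits

theorem phiLin_apply [CharP F 2] (g : IsomOf (F := F) (bet (qOdd m F))) (w : Fin m ⊕ Fin m → F) :
    phiLin g w = prj m F (g.1 (sec m F w)) := rfl

theorem phiLin_mem [CharP F 2] (g : IsomOf (F := F) (bet (qOdd m F))) :
    phiLin g ∈ Alt.Isom (pol (qPlus m F)) := by
  intro u v
  rw [phiLin_apply, phiLin_apply, ← pol_eq]
  have := pol_map (T := g.1.toLinearMap) (mem_IsomOf_iff.mp g.2) (sec m F u) (sec m F v)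
  simp only [LinearEquiv.coe_coe] at this
  rw [this, pol_eq, prj_sec, prj_sec]

/-- The homomorphism to the symplectic group. -/
noncomputable def phi [CharP F 2] :
    IsomOf (F := F) (bet (qOdd m F)) →* Alt.Isom (pol (qPlus m F)) :=
  phiLin.codRestrict _ phiLin_mem

theorem phi_injective [CharP F 2] : Function.Injective (phi (F := F) (m := m)) := by
  rw [injective_iff_map_eq_one]
  intro g hg
  have h1 : ∀ w, prj m F (g.1 (sec m F w)) = w := by
    intro w
    have := congrArg (fun x : Alt.Isom (pol (qPlus m F)) => x.1 w) hg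
    exact this
  have h2 : ∀ w, g.1 (sec m F w) = sec m F w := by
    intro w
    have h3 := mem_IsomOf_iff.mp g.2 (sec m F w)
    rw [Q_eq, Q_eq, h1, prj_sec, sec_inl] at h3
    have h4 : g.1 (sec m F w) (.inl ()) = 0 := by
      have : g.1 (sec m F w) (.inl ()) ^ 2 = 0 := by
        have := add_right_cancel h3
        simpa using this
      exact pow_eq_zero_iff (two_ne_zero) |>.mp this
    rw [decomp (g.1 (sec m F w)), h1, h4, zero_smul, zero_add]
  apply Subtype.ext
  apply LinearEquiv.ext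
  intro v
  rw [decomp v, map_add, map_smul, fix_e0 g.2, h2]
  rfl

theorem phi_surjective [CharP F 2] [Finite F] : Function.Surjective (phi (F := F) (m := m)) := by
  intro h
  have hh : ∀ u v, pol (qPlus m F) (h.1 u) (h.1 v) = pol (qPlus m F) u v := h.2
  set sq : F ≃+* F := (frobeniusEquiv F 2).symm with hsq
  have hsq2 : ∀ x, sq x ^ 2 = x := fun x => frobeniusEquiv_symm_pow_p F 2 x
  have hsq3 : ∀ x, sq (x * x) = x := fun x => by
    rw [← pow_two]
    exact frobeniusEquiv_symm_apply_frobenius F 2 x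
  let μ : (Fin m ⊕ Fin m → F) →ₗ[F] F :=
    { toFun := fun w => sq (qPlus m F w + qPlus m F (h.1 w))
      map_add' := by
        intro w w'
        rw [← map_add sq]
        congr 1
        rw [map_add h.1, Q_add, Q_add, hh]
        have := CharTwo.add_self_eq_zero (pol (qPlus m F) w w')
        linear_combination this
      map_smul' := by
        intro c w
        rw [map_smul h.1, Q_smul, Q_smul, ← mul_add, map_mul sq, hsq3]
        rfl }
  have hμ : ∀ w, μ w ^ 2 = qPlus m F w + qPlus m F (h.1 w) := fun w => hsq2 _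
  let T : (Unit ⊕ (Fin m ⊕ Fin m) → F) →ₗ[F] (Unit ⊕ (Fin m ⊕ Fin m) → F) :=
    (LinearMap.proj (Sum.inl ()) + μ ∘ₗ prj m F).smulRight (e0 m F) +
      sec m F ∘ₗ h.1.toLinearMap ∘ₗ prj m F
  have hT : ∀ v, T v = (v (.inl ()) + μ (prj m F v)) • e0 m F + sec m F (h.1 (prj m F v)) :=
    fun v => rfl
  have hT1 : ∀ v, prj m F (T v) = h.1 (prj m F v) := by
    intro v
    rw [hT, map_add, map_smul, prj_e0, smul_zero, zero_add, prj_sec]
  have hT0 : ∀ v, T v (.inl ()) = v (.inl ()) + μ (prj m F v) := by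
    intro v
    rw [hT, Pi.add_apply, Pi.smul_apply, e0_inl, sec_inl]
    simp
  have hinj : Function.Injective T := by
    rw [← LinearMap.ker_eq_bot, LinearMap.ker_eq_bot']
    intro v hv
    have h1 : prj m F v = 0 := by
      have := hT1 v
      rw [hv, map_zero] at this
      exact (LinearEquiv.map_eq_zero_iff h.1).mp this.symm
    have h0 := hT0 v
    rw [hv, h1, map_zero, add_zero] at h0
    rw [decomp v, h1, ← h0]
    simp
  have hQ : ∀ v, qOdd m F (T v) = qOdd m F v := by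
    intro v
    rw [Q_eq, Q_eq, hT0, hT1, CharTwo.add_sq, hμ]
    have := CharTwo.add_self_eq_zero (qPlus m F (h.1 (prj m F v)))
    linear_combination this
  refine ⟨⟨LinearEquiv.ofInjectiveEndo T hinj, mem_IsomOf_iff.mpr hQ⟩, ?_⟩
  apply Subtype.ext
  apply LinearEquiv.ext
  intro w
  change prj m F (T (sec m F w)) = h.1 w
  rw [hT1, prj_sec]

/-- In characteristic 2, O_{2m+1}(q) is isomorphic to Sp_{2m}(q). -/
theorem result {F : Type*} [Field F] [Fintype F] [CharP F 2] (m : ℕ) : Nonempty (Cfsg.isometryGroup F (Cfsg.quadFormOdd m F) ≃* Matrix.symplecticGroup (Fin m) F) := by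
  have hA : (pol (qPlus m F)).IsAlt := fun x => by
    rw [pol_self, CharTwo.two_eq_zero, zero_mul]
  obtain ⟨e⟩ := Alt.nonempty_isom_mulEquiv_symp (nondeg_qPlus (F := F) m) hA (k := m) (by
    simp; ring)
  exact ⟨((isometryGroupEquiv (qOdd m F) _ (qOdd_apply m)).trans
    (MulEquiv.ofBijective phi ⟨phi_injective, phi_surjective⟩)).trans e⟩

end Cfsg.Agent.S0304
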