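import Cfsg.Statements.S0305
import Cfsg.Agent.Lib_helper6_GO2
import Cfsg.Agent.Lib_helper6_SL2Tori
import Cfsg.Agent.S0287

set_option autoImplicit false
open Cfsg

namespace Cfsg.Agent.S0305

open H6.GL2C H6.GO2 Matrix

/-- GO^+_2(q) is dihedral of order 2(q-1). -/
theorem result {F : Type*} [Field F] [Fintype F] {q : ℕ} (hF : Fintype.card F = q) : Nonempty (Cfsg.isometryGroup F (Cfsg.quadFormPlus 1 F) ≃* DihedralGroup (q - 1)) := by
  classical
  have hq : 2 ≤ q := by rw [← hF]; exact Fintype.one_lt_card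
  set e : Fin 1 ⊕ Fin 1 ≃ Fin 2 := finSumFinEquiv with he
  have he0 : e.symm 0 = Sum.inl 0 := rfl
  have he1 : e.symm 1 = Sum.inr 0 := rfl
  have hQ : ∀ v : Fin 1 ⊕ Fin 1 → F, Cfsg.quadFormPlus 1 F v =
      (fun x y : F => x * y) (v (e.symm 0)) (v (e.symm 1)) := by
    intro v
    rw [he0, he1]
    simp [Cfsg.quadFormPlus]
  obtain ⟨γ, hγ⟩ := IsCyclic.exists_generator (α := Fˣ)
  have hord : orderOf γ = q - 1 := by
    rw [orderOf_eq_card_of_forall_mem_zpowers hγ, Nat.card_units, Nat.card_eq_fintype_card, hF]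
  set D : Fˣ →* GL (Fin 2) F := (Matrix.SpecialLinearGroup.toGL).comp diagSL with hD
  have hDval : ∀ u : Fˣ, ((D u : GL (Fin 2) F) : Matrix (Fin 2) (Fin 2) F) =
      !![(u : F), 0; 0, ((u⁻¹ : Fˣ) : F)] := fun u => diagSL_val u
  have hDinj : Function.Injective D := by
    intro u v huv
    apply diagSL_injective
    apply Subtype.ext
    exact congrArg Units.val huv
  obtain ⟨Y, hY⟩ : ∃ Y : GL (Fin 2) F, (Y : Matrix (Fin 2) (Fin 2) F) = !![0, 1; 1, 0] :=
    ⟨Matrix.GeneralLinearGroup.mkOfDetNeZero !![0, 1; 1, 0] (by simp [Matrix.det_fin_two]), rfl⟩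
  have hYY : Y * Y = 1 := by
    apply Units.ext
    rw [Units.val_mul, hY, Matrix.mul_fin_two]
    ext i j
    fin_cases i <;> fin_cases j <;> simp
  have hYD : Y * D γ * Y = (D γ)⁻¹ := by
    rw [← map_inv]
    apply Units.ext
    rw [Units.val_mul, Units.val_mul, hY, hDval, hDval, Matrix.mul_fin_two, Matrix.mul_fin_two]
    simp
  have hDmem : tr e (D γ) ∈ Cfsg.isometryGroup F (Cfsg.quadFormPlus 1 F) := by
    apply tr_mem e _ _ hQ
    intro x y
    rw [hDval]
    simp only [Matrix.of_apply, Matrix.cons_val_zero, Matrix.cons_val_one, Matrix.cons_val',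
      Matrix.cons_val_fin_one]
    have : (γ : F) * ((γ⁻¹ : Fˣ) : F) = 1 := by rw [← Units.val_mul, mul_inv_cancel, Units.val_one]
    linear_combination x * y * this
  have hYmem : tr e Y ∈ Cfsg.isometryGroup F (Cfsg.quadFormPlus 1 F) := by
    apply tr_mem e _ _ hQ
    intro x y
    rw [hY]
    simp [mul_comm]
  apply dihedral_iso (q - 1) (⟨tr e (D γ), hDmem⟩ : Cfsg.isometryGroup F (Cfsg.quadFormPlus 1 F))
    ⟨tr e Y, hYmem⟩
  · rw [Subgroup.orderOf_mk, orderOf_injective _ (tr_injective e), orderOf_injective _ hDinj, hord]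
  · apply Subtype.ext
    show tr e Y * tr e (D γ) * tr e Y = (tr e (D γ))⁻¹
    rw [← map_mul, ← map_mul, hYD, map_inv]
  · apply Subtype.ext
    show tr e Y * tr e Y = 1
    rw [← map_mul, hYY, map_one]
  · rw [S0287.result hF 1 le_rfl]
    simp
  · intro hmem
    obtain ⟨k, hk⟩ := Subgroup.mem_zpowers_iff.mp hmem
    have h1 : tr e (D (γ ^ k)) = tr e Y := by
      have := congrArg Subtype.val hk
      rw [map_zpow, map_zpow]
      simpa using this
    have h2 := congrArg Units.val (tr_injective e h1)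
    have h3 := congrFun (congrFun h2 0) 1
    rw [hDval, hY] at h3
    simp at h3

end Cfsg.Agent.S0305
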