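import Cfsg.Statements.S0306
import Cfsg.Agent.Lib_helper6_GO2
import Cfsg.Agent.Lib_helper6_SL2Tori
import Cfsg.Agent.S0288

set_option autoImplicit false
open Cfsg

namespace Cfsg.Agent.S0306

open H6 H6.GL2C H6.GO2 Matrix

/-- GO^-_2(q) is dihedral of order 2(q+1). -/
theorem result {F : Type*} [Field F] [Fintype F] {q : ℕ} (hF : Fintype.card F = q) (a b : F) (hab : ∀ z₁ z₂ : F, z₁ ^ 2 + a * z₁ * z₂ + b * z₂ ^ 2 = 0 → z₁ = 0 ∧ z₂ = 0) : Nonempty (Cfsg.isometryGroup F (Cfsg.quadFormMinus 0 F a b) ≃* DihedralGroup (q + 1)) := by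
  classical
  have hq : 2 ≤ q := by rw [← hF]; exact Fintype.one_lt_card
  set e : (Fin 0 ⊕ Fin 0) ⊕ Fin 2 ≃ Fin 2 := Equiv.emptySum (Fin 0 ⊕ Fin 0) (Fin 2) with he
  have he0 : e.symm 0 = Sum.inr 0 := rfl
  have he1 : e.symm 1 = Sum.inr 1 := rfl
  have hQ : ∀ v : (Fin 0 ⊕ Fin 0) ⊕ Fin 2 → F, Cfsg.quadFormMinus 0 F a b v =
      (fun x y : F => x ^ 2 + a * x * y + b * y ^ 2) (v (e.symm 0)) (v (e.symm 1)) := by
    intro v
    rw [he0, he1]
    simp [Cfsg.quadFormMinus]
  have hb0 : b ≠ 0 := by
    intro h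
    have := hab 0 1 (by rw [h]; ring)
    exact one_ne_zero this.2
  have haniso : ∀ x y : F, nrm a b x y = 0 → x = 0 ∧ y = 0 := by
    intro x y h
    apply hab
    unfold nrm at h
    linear_combination h
  obtain ⟨g, hg⟩ : ∃ g : GL (Fin 2) F, (g : Matrix (Fin 2) (Fin 2) F) = !![0, -b; 1, a] :=
    ⟨Matrix.GeneralLinearGroup.mkOfDetNeZero !![0, -b; 1, a] (by simpa [Matrix.det_fin_two] using hb0),
      rfl⟩
  have hns : NonScalar (g : Matrix (Fin 2) (Fin 2) F) := Or.inr (Or.inl (by rw [hg]; simp))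
  have htr : (g : Matrix (Fin 2) (Fin 2) F).trace = a := by rw [hg]; simp [Matrix.trace_fin_two]
  have hdet : (g : Matrix (Fin 2) (Fin 2) F).det = b := by rw [hg]; simp [Matrix.det_fin_two]
  have hcardC : Nat.card (Subgroup.centralizer ({g} : Set (GL (Fin 2) F))) = q ^ 2 - 1 := by
    rw [card_centralizer_GL g hns, htr, hdet, card_nrm_ne_zero_aniso haniso, hF]
  have hcyc : IsCyclic (Subgroup.centralizer ({g} : Set (GL (Fin 2) F))) := by
    have hirr : IrredEnd (Matrix.toLin' (g : Matrix (Fin 2) (Fin 2) F)) :=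
      irredEnd_of_no_eigenvector (no_eigenvector_of_aniso (by rw [htr, hdet]; exact haniso))
    let f : Subgroup.centralizer ({g} : Set (GL (Fin 2) F)) →* Module.End F (Fin 2 → F) :=
      { toFun := fun x => Matrix.toLin' ((x : GL (Fin 2) F) : Matrix (Fin 2) (Fin 2) F)
        map_one' := by simp [Module.End.one_eq_id]
        map_mul' := by
          intro x y
          simp [Matrix.toLin'_mul, Module.End.mul_eq_comp] }
    refine hirr.isCyclic f ?_ ?_
    · intro x y hxy
      apply Subtype.ext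
      apply Units.ext
      exact Matrix.toLin'.injective hxy
    · intro x
      have hx := Subgroup.mem_centralizer_singleton_iff.mp x.2
      change Matrix.toLin' _ * Matrix.toLin' _ = Matrix.toLin' _ * Matrix.toLin' _
      rw [Module.End.mul_eq_comp, Module.End.mul_eq_comp, ← Matrix.toLin'_mul, ← Matrix.toLin'_mul]
      congr 1
      exact congrArg Units.val hx
  obtain ⟨γ, hγ⟩ := IsCyclic.exists_generator (α := Subgroup.centralizer ({g} : Set (GL (Fin 2) F)))
  have hordγ : orderOf γ = (q + 1) * (q - 1) := by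
    rw [orderOf_eq_card_of_forall_mem_zpowers hγ, hcardC, sq_sub_one_eq q (by omega)]
  set u : GL (Fin 2) F := ((γ ^ (q - 1) : Subgroup.centralizer ({g} : Set (GL (Fin 2) F))) :
    GL (Fin 2) F) with hu
  have hordu : orderOf u = q + 1 := by
    rw [hu, Subgroup.orderOf_coe, orderOf_pow_of_dvd (by omega) (by rw [hordγ]; exact dvd_mul_left _ _),
      hordγ, Nat.mul_div_cancel _ (by omega)]
  have hug : u * g = g * u :=
    Subgroup.mem_centralizer_singleton_iff.mp (γ ^ (q - 1)).2
  have hdetu : (u : Matrix (Fin 2) (Fin 2) F).det = 1 := by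
    have h1 : Matrix.GeneralLinearGroup.det u = 1 := by
      rw [hu, Subgroup.coe_pow, map_pow]
      have := pow_card_eq_one (x := Matrix.GeneralLinearGroup.det (γ : GL (Fin 2) F))
      rwa [Fintype.card_units, hF] at this
    exact congrArg Units.val h1
  obtain ⟨α, β, hαβ⟩ := exists_eq_of_commute hns (congrArg Units.val hug)
  have hn : nrm a b α β = 1 := by
    rw [← hdetu, hαβ, det_lin, htr, hdet]
  have huval : (u : Matrix (Fin 2) (Fin 2) F) = !![α, -(β * b); β, α + β * a] := by
    rw [hαβ, hg]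
    unfold lin
    simp
  unfold nrm at hn
  obtain ⟨Y, hY⟩ : ∃ Y : GL (Fin 2) F, (Y : Matrix (Fin 2) (Fin 2) F) = !![1, a; 0, -1] :=
    ⟨Matrix.GeneralLinearGroup.mkOfDetNeZero !![1, a; 0, -1] (by simp [Matrix.det_fin_two]), rfl⟩
  have hYY : Y * Y = 1 := by
    apply Units.ext
    rw [Units.val_mul, hY, Matrix.mul_fin_two]
    ext i j
    fin_cases i <;> fin_cases j <;> simp
  have hYu : Y * u * Y = u⁻¹ := by
    apply eq_inv_of_mul_eq_one_left
    apply Units.ext
    rw [Units.val_mul, Units.val_mul, Units.val_mul, hY, huval, Matrix.mul_fin_two,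
      Matrix.mul_fin_two, Matrix.mul_fin_two]
    ext i j
    fin_cases i <;> fin_cases j <;> simp
    · linear_combination hn
    · ring
    · ring
    · linear_combination hn
  have humem : tr e u ∈ Cfsg.isometryGroup F (Cfsg.quadFormMinus 0 F a b) := by
    apply tr_mem e _ (fun x y : F => x ^ 2 + a * x * y + b * y ^ 2) hQ
    intro x y
    rw [huval]
    simp only [Matrix.of_apply, Matrix.cons_val_zero, Matrix.cons_val_one, Matrix.cons_val',
      Matrix.cons_val_fin_one]
    linear_combination (x ^ 2 + a * x * y + b * y ^ 2) * hn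
  have hYmem : tr e Y ∈ Cfsg.isometryGroup F (Cfsg.quadFormMinus 0 F a b) := by
    apply tr_mem e _ (fun x y : F => x ^ 2 + a * x * y + b * y ^ 2) hQ
    intro x y
    rw [hY]
    simp only [Matrix.of_apply, Matrix.cons_val_zero, Matrix.cons_val_one, Matrix.cons_val',
      Matrix.cons_val_fin_one]
    ring
  apply dihedral_iso (q + 1) (⟨tr e u, humem⟩ : Cfsg.isometryGroup F (Cfsg.quadFormMinus 0 F a b))
    ⟨tr e Y, hYmem⟩
  · rw [Subgroup.orderOf_mk, orderOf_injective _ (tr_injective e), hordu]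
  · apply Subtype.ext
    show tr e Y * tr e u * tr e Y = (tr e u)⁻¹
    rw [← map_mul, ← map_mul, hYu, map_inv]
  · apply Subtype.ext
    show tr e Y * tr e Y = 1
    rw [← map_mul, hYY, map_one]
  · have h : Nat.card (Cfsg.isometryGroup F (Cfsg.quadFormMinus 0 F a b)) = _ :=
      S0288.result hF 1 le_rfl a b hab
    rw [h]
    simp
  · intro hmem
    obtain ⟨k, hk⟩ := Subgroup.mem_zpowers_iff.mp hmem
    have h1 : tr e (u ^ k) = tr e Y := by
      have := congrArg Subtype.val hk
      rw [map_zpow]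
      simpa using this
    have h2 : u ^ k = Y := tr_injective e h1
    have h3 : Y * g = g * Y := by
      rw [← h2]
      exact ((show Commute u g from hug).zpow_left k).eq
    have h4 := congrArg Units.val h3
    rw [Units.val_mul, Units.val_mul, hY, hg, Matrix.mul_fin_two, Matrix.mul_fin_two] at h4
    have h00 := congrFun (congrFun h4 0) 0
    have h10 := congrFun (congrFun h4 1) 0
    simp at h00 h10
    have h20 : (2 : F) = 0 := by linear_combination -h10
    have hchar : ringChar F = 2 := by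
      have h' : ((2 : ℕ) : F) = 0 := by exact_mod_cast h20
      have := ringChar.dvd h'
      rcases (Nat.dvd_prime Nat.prime_two).mp this with h1 | h1
      · exact absurd h1 (CharP.ringChar_ne_one)
      · exact h1
    obtain ⟨c, hc⟩ := FiniteField.isSquare_of_char_two hchar b
    have := hab c 1 (by rw [h00, hc]; linear_combination c * c * h20)
    exact one_ne_zero this.2

end Cfsg.Agent.S0306
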