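import Cfsg.Statements.S0307
import Cfsg.Agent.Lib_helper6_SLCard

set_option autoImplicit false
open Cfsg

namespace Cfsg.Agent.S0307

theorem nonempty_mulEquiv_zmod {G : Type*} [Group G] [IsCyclic G] {d : ℕ} (h : Nat.card G = d) :
    Nonempty (G ≃* Multiplicative (ZMod d)) := by
  subst h
  exact ⟨(zmodCyclicMulEquiv inferInstance).symm⟩


/-- PSL_n(q) is normal in PGL_n(q) with cyclic quotient of order gcd(n, q-1): the image of the natural map PSL_n → PGL_n is the kernel of a surjective homomorphism onto the cyclic group of that order. -/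
theorem result {F : Type*} [Field F] [Fintype F] {q : ℕ} (hF : Fintype.card F = q) (n : ℕ) (hn : 1 ≤ n) : ∃ g : Matrix.ProjGenLinGroup (Fin n) F →* Multiplicative (ZMod (Nat.gcd n (q - 1))), Function.Surjective g ∧ g.ker = (Matrix.ProjectiveSpecialLinearGroup.toPGL : Matrix.ProjectiveSpecialLinearGroup (Fin n) F →* Matrix.ProjGenLinGroup (Fin n) F).range := by
  classical
  subst hF
  have : Nonempty (Fin n) := ⟨⟨0, hn⟩⟩
  set R : Subgroup Fˣ := (powMonoidHom n : Fˣ →* Fˣ).range with hR
  have hcard : Nat.card (Fˣ ⧸ R) = Nat.gcd n (Fintype.card F - 1) := by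
    change R.index = _
    rw [hR, IsCyclic.index_powMonoidHom_range, Cfsg.Agent.H6.card_units_field, Nat.gcd_comm]
  obtain ⟨e⟩ := nonempty_mulEquiv_zmod hcard
  let f : Matrix.GeneralLinearGroup (Fin n) F →* Fˣ ⧸ R :=
    (QuotientGroup.mk' R).comp Matrix.GeneralLinearGroup.det
  have hf : f.comp (Matrix.GeneralLinearGroup.scalar (Fin n)) = 1 := by
    ext u
    simp only [f, MonoidHom.comp_apply, Matrix.GeneralLinearGroup.det_scalar, MonoidHom.one_apply,
      QuotientGroup.mk'_apply, QuotientGroup.eq_one_iff, Fintype.card_fin]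
    exact ⟨u, rfl⟩
  refine ⟨e.toMonoidHom.comp (Matrix.ProjGenLinGroup.lift f hf), ?_, ?_⟩
  · refine e.surjective.comp ?_
    intro x
    obtain ⟨u, rfl⟩ := QuotientGroup.mk'_surjective R x
    obtain ⟨A, rfl⟩ := Matrix.GeneralLinearGroup.det_surjective (n := Fin n) u
    exact ⟨Matrix.ProjGenLinGroup.mk A, rfl⟩
  · ext x
    obtain ⟨A, rfl⟩ := Matrix.ProjGenLinGroup.mk_surjective x
    rw [MonoidHom.mem_ker]
    simp only [MonoidHom.comp_apply, Matrix.ProjGenLinGroup.lift_mk, MulEquiv.coe_toMonoidHom,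
      EmbeddingLike.map_eq_one_iff, f, QuotientGroup.mk'_apply, QuotientGroup.eq_one_iff]
    constructor
    · rintro ⟨u, hu⟩
      have hu' : u ^ n = Matrix.GeneralLinearGroup.det A := hu
      have hker : A * (Matrix.GeneralLinearGroup.scalar (Fin n) u)⁻¹ ∈
          (Matrix.GeneralLinearGroup.det : Matrix.GeneralLinearGroup (Fin n) F →* Fˣ).ker := by
        rw [MonoidHom.mem_ker, map_mul, map_inv, Matrix.GeneralLinearGroup.det_scalar,
          Fintype.card_fin, hu', mul_inv_cancel]
      rw [← Cfsg.Agent.H6.range_toGL_eq_ker_det] at hker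
      obtain ⟨s, hs⟩ := hker
      refine ⟨QuotientGroup.mk s, ?_⟩
      change Matrix.ProjGenLinGroup.mk (Matrix.SpecialLinearGroup.toGL s) = _
      rw [hs, map_mul, map_inv, Matrix.ProjGenLinGroup.mk_scalar, inv_one, mul_one]
    · rintro ⟨y, hy⟩
      obtain ⟨s, rfl⟩ := QuotientGroup.mk_surjective y
      have hy' : Matrix.ProjGenLinGroup.mk (Matrix.SpecialLinearGroup.toGL s)
          = Matrix.ProjGenLinGroup.mk A := hy
      rw [Matrix.ProjGenLinGroup.mk_eq_mk_iff] at hy'
      obtain ⟨u, hu⟩ := hy'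
      refine ⟨u, ?_⟩
      have hs : Matrix.GeneralLinearGroup.det (Matrix.SpecialLinearGroup.toGL s) = 1 := by
        have : Matrix.SpecialLinearGroup.toGL s ∈
            (Matrix.GeneralLinearGroup.det : Matrix.GeneralLinearGroup (Fin n) F →* Fˣ).ker := by
          rw [← Cfsg.Agent.H6.range_toGL_eq_ker_det]
          exact ⟨s, rfl⟩
        exact this
      rw [← hu, map_mul, hs, one_mul, Matrix.GeneralLinearGroup.det_scalar, Fintype.card_fin]
      rfl

end Cfsg.Agent.S0307
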