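import Cfsg.Statements.S0308
import Mathlib

set_option autoImplicit false
open Cfsg

namespace Cfsg.Agent.S0308

/-- Bruhat decomposition, existence part: every element of a group with a (B,N)-pair lies in some double
coset `B n B` with `n ∈ N`. -/
theorem result {G : Type*} [Group G] (P : Cfsg.BNPair G) (g : G) :
    ∃ n ∈ P.N, g ∈ DoubleCoset.doubleCoset n (P.B : Set G) P.B := by
  have htop : (⊤ : Subgroup G) ≤ Subgroup.closure ((P.B : Set G) ∪ P.S) := by
    rw [← P.sup_eq_top, sup_le_iff]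
    have hB : P.B ≤ Subgroup.closure ((P.B : Set G) ∪ P.S) := fun x hx =>
      Subgroup.subset_closure (Or.inl hx)
    refine ⟨hB, ?_⟩
    rw [← P.closure_sup, sup_le_iff]
    exact ⟨Subgroup.closure_mono Set.subset_union_right, inf_le_left.trans hB⟩
  -- left multiplication by an element of `S`
  have hS : ∀ s ∈ P.S, ∀ y : G, (∃ n ∈ P.N, y ∈ DoubleCoset.doubleCoset n (P.B : Set G) P.B) →
      ∃ n ∈ P.N, s * y ∈ DoubleCoset.doubleCoset n (P.B : Set G) P.B := by
    rintro s hs y ⟨n, hn, hy⟩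
    obtain ⟨b, hb, b', hb', rfl⟩ := DoubleCoset.mem_doubleCoset.mp hy
    rcases P.mul_mem_union s hs n hn b hb with h | h
    · obtain ⟨c, hc, c', hc', h⟩ := DoubleCoset.mem_doubleCoset.mp h
      refine ⟨s * n, P.N.mul_mem (P.subset hs) hn, DoubleCoset.mem_doubleCoset.mpr
        ⟨c, hc, c' * b', P.B.mul_mem hc' hb', ?_⟩⟩
      calc s * (b * n * b') = (s * b * n) * b' := by group
        _ = c * (s * n) * (c' * b') := by rw [h]; group
    · obtain ⟨c, hc, c', hc', h⟩ := DoubleCoset.mem_doubleCoset.mp h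
      refine ⟨n, hn, DoubleCoset.mem_doubleCoset.mpr ⟨c, hc, c' * b', P.B.mul_mem hc' hb', ?_⟩⟩
      calc s * (b * n * b') = (s * b * n) * b' := by group
        _ = c * n * (c' * b') := by rw [h]; group
  have hBm : ∀ x ∈ P.B, ∀ y : G, (∃ n ∈ P.N, y ∈ DoubleCoset.doubleCoset n (P.B : Set G) P.B) →
      ∃ n ∈ P.N, x * y ∈ DoubleCoset.doubleCoset n (P.B : Set G) P.B := by
    rintro x hx y ⟨n, hn, hy⟩
    obtain ⟨b, hb, b', hb', rfl⟩ := DoubleCoset.mem_doubleCoset.mp hy
    exact ⟨n, hn, DoubleCoset.mem_doubleCoset.mpr ⟨x * b, P.B.mul_mem hx hb, b', hb', by group⟩⟩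
  have hg : g ∈ Subgroup.closure ((P.B : Set G) ∪ P.S) := htop (Subgroup.mem_top g)
  induction hg using Subgroup.closure_induction_left with
  | one => exact ⟨1, P.N.one_mem, DoubleCoset.mem_doubleCoset.mpr ⟨1, P.B.one_mem, 1, P.B.one_mem, by simp⟩⟩
  | mul_left x hx y hy ih =>
    rcases hx with hx | hx
    · exact hBm x hx y ih
    · exact hS x hx y ih
  | inv_mul_cancel x hx y hy ih =>
    rcases hx with hx | hx
    · exact hBm x⁻¹ (P.B.inv_mem hx) y ih
    · have h1 : x⁻¹ * y = x * ((x * x)⁻¹ * y) := by group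
      rw [h1]
      exact hS x hx _ (hBm _ (P.B.inv_mem (P.sq_mem x hx)) y ih)

end Cfsg.Agent.S0308
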