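import Cfsg.Statements.S0315
import Mathlib
import Cfsg.Agent.Lib_lead_BN2

set_option autoImplicit false
open Cfsg

namespace Cfsg.Agent.S0315

/-- Standard parabolic subgroups intersect as the index sets do: `P_J ⊓ P_K = P_{J ∩ K}`. -/
theorem result {G : Type*} [Group G] (P : Cfsg.BNPair G) {J K : Set G}
    (hJ : J ⊆ P.S) (hK : K ⊆ P.S) : P.parabolic J ⊓ P.parabolic K = P.parabolic (J ∩ K) := by
  apply le_antisymm
  · have hB : P.B ≤ P.parabolic J ⊓ P.parabolic K :=
      le_inf (LeadBN.B_le_parabolic J) (LeadBN.B_le_parabolic K)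
    rw [LeadBN.eq_parabolic _ hB]
    apply LeadBN.parabolic_mono
    rintro s ⟨hs, h1, h2⟩
    exact ⟨LeadBN.mem_of_mem_parabolic hJ hs h1, LeadBN.mem_of_mem_parabolic hK hs h2⟩
  · exact le_inf (LeadBN.parabolic_mono Set.inter_subset_left)
      (LeadBN.parabolic_mono Set.inter_subset_right)

end Cfsg.Agent.S0315
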