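import Cfsg.Statements.S0319
import Mathlib
import Cfsg.Agent.Lib_lead_BN2

set_option autoImplicit false
open Cfsg

namespace Cfsg.Agent.S0319

/-- Simplicity criterion for groups with a (B,N)-pair: if the distinguished generators admit no
splitting into two non-empty mutually commuting parts, `B` is solvable, `G` is perfect and the intersection
of all conjugates of `B` is trivial, then `G` is simple. -/
theorem result {G : Type*} [Group G] [Nontrivial G]
    (P : Cfsg.BNPair G) (hirr : P.Irreducible) (hsolv : Group.IsSolvable P.B) (hperf : commutator G = ⊤)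
    (hcore : P.B.normalCore = ⊥) : IsSimpleGroup G := by
  refine ⟨fun H hH => ?_⟩
  have hBM : P.B ≤ P.B ⊔ H := le_sup_left
  have hHM : H ≤ P.B ⊔ H := le_sup_right
  have hM := LeadBN.eq_parabolic (P.B ⊔ H) hBM
  have hcomm : ∀ s1 ∈ {s | s ∈ P.S ∧ s ∈ P.B ⊔ H}, ∀ s2 ∈ P.S \ {s | s ∈ P.S ∧ s ∈ P.B ⊔ H},
      s1 * s2 * s1⁻¹ * s2⁻¹ ∈ P.B := by
    rintro s1 ⟨hs1, hs1M⟩ s2 ⟨hs2, hs2X⟩
    have hs2M : s2 ∉ P.B ⊔ H := fun h => hs2X ⟨hs2, h⟩
    obtain ⟨b, hb, h, hh, e⟩ := Subgroup.mem_sup_of_normal_right.1 hs1M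
    have hN12 : s1 * s2 ∈ P.N := P.N.mul_mem (P.subset hs1) (P.subset hs2)
    by_cases hPs : LeadBN.Ps P s2 (s1 * s2)
    · exfalso
      have h1 := hPs b⁻¹ (P.B.inv_mem hb)
      have h2 : s2 * b⁻¹ * (s1 * s2) ∈ P.B ⊔ H := by
        have e2 : s2 * b⁻¹ * (s1 * s2) = (s2 * h * s2⁻¹) * (s2 * s2) := by
          rw [← e]; group
        rw [e2]
        exact Subgroup.mul_mem _ (hHM (hH.conj_mem h hh s2)) (hBM (P.sq_mem s2 hs2))
      have h3 : s2 * (s1 * s2) ∈ P.B ⊔ H := LeadBN.mem_of_R hBM h1.symm h2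
      have h4 : ¬ LeadBN.Ps P s2 (s2 * (s1 * s2)) := fun h5 =>
        LeadBN.not_Ps_both hs2 hN12 hPs h5
      unfold LeadBN.Ps at h4
      push Not at h4
      obtain ⟨b', hb', hnR⟩ := h4
      rcases LeadBN.T3 hs2 (P.N.mul_mem (P.subset hs2) hN12) hb' (LeadBN.R.refl _) with h6 | h6
      · exact hnR h6
      · have h7 := LeadBN.mem_of_R hBM h6 h3
        apply hs2M
        have e3 : s2 = (s2 * b' * (s2 * (s1 * s2))) * (s2 * (s1 * s2))⁻¹ * b'⁻¹ := by group
        rw [e3]
        exact Subgroup.mul_mem _ (Subgroup.mul_mem _ h7 (Subgroup.inv_mem _ h3))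
          (Subgroup.inv_mem _ (hBM hb'))
    · obtain ⟨L', h1, h2, h3⟩ := LeadBN.exchange hs2 [s1, s2] (by
        intro x hx
        simp only [List.mem_cons, List.not_mem_nil, or_false] at hx
        rcases hx with rfl | rfl
        · exact hs1
        · exact hs2) (by simpa using hPs)
      have h4 : L'.length = 1 := by simpa using h2
      obtain ⟨x, rfl⟩ := List.length_eq_one_iff.1 h4
      have hx := h1 x (by simp)
      simp only [List.mem_cons, List.not_mem_nil, or_false] at hx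
      simp only [List.prod_cons, List.prod_nil, mul_one] at h3
      rcases hx with rfl | rfl
      · have ht : (s2 * (x * s2))⁻¹ * x ∈ P.B ⊓ P.N :=
          ⟨h3, P.N.mul_mem (P.N.inv_mem (P.N.mul_mem (P.subset hs2) hN12)) (P.subset hs1)⟩
        have h5 := P.conj_mem (x * s2) hN12 _ ht
        have h6 := P.B.inv_mem (P.B.mul_mem (P.sq_mem s2 hs2) h5)
        have e4 : (s2 * s2 * (x * s2 * ((s2 * (x * s2))⁻¹ * x) * (x * s2)⁻¹))⁻¹
            = x * s2 * x⁻¹ * s2⁻¹ := by group
        rwa [e4] at h6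
      · exfalso
        have h5 : s1⁻¹ * x ∈ P.B := by
          have e5 : s1⁻¹ * x = (s1 * s1)⁻¹ * ((x * (s1 * x))⁻¹ * x)⁻¹ := by group
          rw [e5]
          exact P.B.mul_mem (P.B.inv_mem (P.sq_mem s1 hs1)) (P.B.inv_mem h3)
        have := P.inj s1 hs1 x hs2 h5
        exact hs2M (this ▸ hs1M)
  by_cases hX : {s | s ∈ P.S ∧ s ∈ P.B ⊔ H} = P.S
  · right
    rw [hX, LeadBN.parabolic_S] at hM
    by_contra hne
    have hsurj : Function.Surjective ((QuotientGroup.mk' H).comp P.B.subtype) := by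
      intro q
      induction q using QuotientGroup.induction_on with | H g => ?_
      have hg : g ∈ P.B ⊔ H := by rw [hM]; trivial
      obtain ⟨b, hb, h, hh, e⟩ := Subgroup.mem_sup_of_normal_right.1 hg
      refine ⟨⟨b, hb⟩, ?_⟩
      show ((b : G) : G ⧸ H) = (g : G ⧸ H)
      rw [QuotientGroup.eq, ← e]
      simpa using hh
    have hsQ : Group.IsSolvable (G ⧸ H) := Group.isSolvable_of_surjective hsurj
    have hnt : Nontrivial (G ⧸ H) := by
      rw [← not_subsingleton_iff_nontrivial]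
      intro hsub
      exact hne (QuotientGroup.subgroup_eq_top_of_subsingleton H hsub)
    have h1 := Group.IsSolvable.commutator_lt_top_of_nontrivial (G := G ⧸ H)
    apply h1.ne
    have h2 : (commutator G).map (QuotientGroup.mk' H) = commutator (G ⧸ H) := by
      rw [commutator_def, commutator_def, Subgroup.map_commutator,
        ← MonoidHom.range_eq_map, MonoidHom.range_eq_top.2 (QuotientGroup.mk'_surjective H)]
    rw [← h2, hperf, ← MonoidHom.range_eq_map,
      MonoidHom.range_eq_top.2 (QuotientGroup.mk'_surjective H)]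
  · left
    have hsub : {s | s ∈ P.S ∧ s ∈ P.B ⊔ H} ⊆ P.S := fun s hs => hs.1
    have hne2 : (P.S \ {s | s ∈ P.S ∧ s ∈ P.B ⊔ H}).Nonempty := by
      by_contra hcon
      rw [Set.not_nonempty_iff_eq_empty, Set.sdiff_eq_empty] at hcon
      exact hX (Set.Subset.antisymm hsub hcon)
    have hemp : {s | s ∈ P.S ∧ s ∈ P.B ⊔ H} = (∅ : Set G) := by
      by_contra hcon
      obtain ⟨s, hs, s', hs', hn⟩ := hirr _ hsub (Set.nonempty_iff_ne_empty.2 hcon) hne2
      exact hn (hcomm s hs s' hs')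
    rw [hemp] at hM
    have h3 : P.parabolic (∅ : Set G) = P.B := by
      unfold Cfsg.BNPair.parabolic
      simp
    rw [h3] at hM
    have hHB : H ≤ P.B := hM ▸ hHM
    have := (Subgroup.normal_le_normalCore (H := P.B) (N := H)).2 hHB
    rw [hcore] at this
    exact le_bot_iff.1 this

end Cfsg.Agent.S0319
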