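import Cfsg.Statements.S0321
import Mathlib
import Cfsg.Agent.Lib_lead_BN2

set_option autoImplicit false
open Cfsg

namespace Cfsg.Agent.S0321

/-- For `n ∈ N` not in `B`, the union `B ∪ B n B` is (the underlying set of) a subgroup exactly when `n` agrees
modulo `B ⊓ N` with one of the distinguished representatives; thus the distinguished involutions are
determined by `B` and `N`. -/
theorem result {G : Type*} [Group G] (P : Cfsg.BNPair G) {n : G}
    (hn : n ∈ P.N) (hnB : n ∉ P.B) :
    (∃ H : Subgroup G, (H : Set G) = (P.B : Set G) ∪ DoubleCoset.doubleCoset n (P.B : Set G) P.B) ↔ ∃ s ∈ P.S, s⁻¹ * n ∈ P.B := by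
  constructor
  · rintro ⟨H, hH⟩
    have hBH : P.B ≤ H := by
      intro x hx
      have : x ∈ (H : Set G) := by rw [hH]; exact Or.inl hx
      exact this
    have hnH : n ∈ H := by
      have : n ∈ (H : Set G) := by
        rw [hH]; exact Or.inr (DoubleCoset.mem_doubleCoset_self _ _ n)
      exact this
    have hne : ∃ s, s ∈ P.S ∧ s ∈ H := by
      by_contra hcon
      push Not at hcon
      have h1 := LeadBN.eq_parabolic H hBH
      have h2 : {s | s ∈ P.S ∧ s ∈ H} = (∅ : Set G) := by
        ext s
        simp only [Set.mem_ofPred_eq, Set.mem_empty_iff_false, iff_false, not_and]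
        exact hcon s
      rw [h2] at h1
      have h3 : P.parabolic (∅ : Set G) = P.B := by
        unfold Cfsg.BNPair.parabolic
        simp
      rw [h3] at h1
      exact hnB (h1 ▸ hnH)
    obtain ⟨s, hs, hsH⟩ := hne
    refine ⟨s, hs, ?_⟩
    have : s ∈ (H : Set G) := hsH
    rw [hH] at this
    rcases this with h | h
    · exact absurd h (LeadBN.not_mem_B hs)
    · exact LeadBN.bruhat (P.subset hs) hn (LeadBN.R_iff.2 h)
  · rintro ⟨s, hs, hE⟩
    refine ⟨P.parabolic {s}, ?_⟩
    ext g
    rw [SetLike.mem_coe, LeadBN.mem_parabolic_singleton hs, Set.mem_union, SetLike.mem_coe,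
      ← LeadBN.R_iff]
    have hR : LeadBN.R P s n := LeadBN.R_of_E hE
    exact or_congr Iff.rfl ⟨fun h => h.trans hR, fun h => h.trans hR.symm⟩

end Cfsg.Agent.S0321
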