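import Cfsg.Statements.S0322
import Mathlib
import Cfsg.Agent.Lib_lead_BN2

set_option autoImplicit false
open Cfsg

namespace Cfsg.Agent.S0322

/-- A group with a (B,N)-pair of rank one acts doubly transitively on the left cosets of `B`. -/
theorem result {G : Type*} [Group G] (P : Cfsg.BNPair G) (h : P.rank = 1) : MulAction.IsMultiplyPretransitive G (G ⧸ P.B) 2 := by
  have hS : ∃ s, P.S = {s} := by
    have h1 : Nat.card P.S = 1 := h
    obtain ⟨x, hx⟩ := Nat.card_eq_one_iff_exists.1 h1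
    refine ⟨x, ?_⟩
    ext y
    constructor
    · intro hy
      have := hx ⟨y, hy⟩
      exact congrArg Subtype.val this
    · intro hy
      rw [Set.mem_singleton_iff] at hy
      rw [hy]; exact x.2
  obtain ⟨s, hS⟩ := hS
  have hs : s ∈ P.S := by rw [hS]; rfl
  have key : ∀ g : G, g ∉ P.B → LeadBN.R P g s := by
    intro g hg
    have : g ∈ P.parabolic {s} := by
      rw [← hS, LeadBN.parabolic_S]; trivial
    rcases (LeadBN.mem_parabolic_singleton hs).1 this with h | h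
    · exact absurd h hg
    · exact h
  rw [MulAction.is_two_pretransitive_iff]
  intro a b c d hab hcd
  induction a using QuotientGroup.induction_on with | H x => ?_
  induction b using QuotientGroup.induction_on with | H y => ?_
  induction c using QuotientGroup.induction_on with | H z => ?_
  induction d using QuotientGroup.induction_on with | H w => ?_
  have h1 : x⁻¹ * y ∉ P.B := fun hh => hab (QuotientGroup.eq.2 hh)
  have h2 : z⁻¹ * w ∉ P.B := fun hh => hcd (QuotientGroup.eq.2 hh)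
  obtain ⟨b1, hb1, b2, hb2, e1⟩ := key _ h1
  obtain ⟨b3, hb3, b4, hb4, e2⟩ := key _ h2
  refine ⟨z * b3 * b1⁻¹ * x⁻¹, ?_, ?_⟩
  · show ((z * b3 * b1⁻¹ * x⁻¹ * x : G) : G ⧸ P.B) = (z : G ⧸ P.B)
    rw [QuotientGroup.eq]
    have e : (z * b3 * b1⁻¹ * x⁻¹ * x)⁻¹ * z = b1 * b3⁻¹ := by group
    rw [e]
    exact P.B.mul_mem hb1 (P.B.inv_mem hb3)
  · show ((z * b3 * b1⁻¹ * x⁻¹ * y : G) : G ⧸ P.B) = (w : G ⧸ P.B)
    rw [QuotientGroup.eq]
    have e : (z * b3 * b1⁻¹ * x⁻¹ * y)⁻¹ * w = b2⁻¹ * b4 := by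
      calc (z * b3 * b1⁻¹ * x⁻¹ * y)⁻¹ * w = (x⁻¹ * y)⁻¹ * b1 * b3⁻¹ * (z⁻¹ * w) := by group
        _ = b2⁻¹ * b4 := by rw [e1, e2]; group
    rw [e]
    exact P.B.mul_mem (P.B.inv_mem hb2) hb4

end Cfsg.Agent.S0322
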