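import Cfsg.Statements.S0323
import Mathlib

set_option autoImplicit false
open scoped Pointwise
open Cfsg

namespace Cfsg.Agent.S0323

/-- A doubly transitive action on a set with at least three points yields a (B,N)-pair of rank one:
`B` is the stabiliser of a point `x`, `N` the setwise stabiliser of a pair `{x, y}`. -/
theorem result {G Ω : Type*} [Group G] [MulAction G Ω]
    (h2 : MulAction.IsMultiplyPretransitive G Ω 2) {x y z : Ω} (hxy : x ≠ y) (hyz : y ≠ z) (hxz : x ≠ z) :
    ∃ P : Cfsg.BNPair G, P.B = MulAction.stabilizer G x ∧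
      P.N = MulAction.stabilizer G ({x, y} : Set Ω) ∧ P.rank = 1 := by
  classical
  rw [MulAction.is_two_pretransitive_iff] at h2
  obtain ⟨s, hsx, hsy⟩ := h2 hxy hxy.symm
  set B := MulAction.stabilizer G x with hB
  set N := MulAction.stabilizer G ({x, y} : Set Ω) with hN
  have memB : ∀ g : G, g ∈ B ↔ g • x = x := fun g => MulAction.mem_stabilizer_iff
  have memN : ∀ g : G, g ∈ N ↔ g • ({x, y} : Set Ω) = {x, y} := fun g => MulAction.mem_stabilizer_iff
  have hsN : s ∈ N := by
    rw [memN, Set.smul_set_insert, Set.smul_set_singleton, hsx, hsy, Set.pair_comm]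
  have hNx : ∀ n ∈ N, n • x = x ∨ n • x = y := by
    intro n hn
    have h1 : n • x ∈ n • ({x, y} : Set Ω) := Set.smul_mem_smul_set (by simp)
    rw [(memN n).mp hn] at h1
    simpa using h1
  have hNy : ∀ n ∈ N, n • y = x ∨ n • y = y := by
    intro n hn
    have h1 : n • y ∈ n • ({x, y} : Set Ω) := Set.smul_mem_smul_set (by simp)
    rw [(memN n).mp hn] at h1
    simpa using h1
  -- double coset criterion
  have hdc : ∀ g h : G, (g • x = x ↔ h • x = x) → g ∈ DoubleCoset.doubleCoset h (B : Set G) B := by
    intro g h hgh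
    rw [DoubleCoset.mem_doubleCoset]
    by_cases hg : g • x = x
    · have hh := hgh.mp hg
      refine ⟨1, B.one_mem, h⁻¹ * g, ?_, by group⟩
      show h⁻¹ * g ∈ B
      rw [memB, mul_smul, hg, inv_smul_eq_iff, hh]
    · have hh : h • x ≠ x := fun e => hg (hgh.mpr e)
      obtain ⟨b, hb1, hb2⟩ := h2 (Ne.symm hh) (Ne.symm hg)
      refine ⟨b, (memB b).mpr hb1, (b * h)⁻¹ * g, ?_, by group⟩
      show (b * h)⁻¹ * g ∈ B
      rw [memB, mul_smul, inv_smul_eq_iff, mul_smul, hb2]
  have hBN : ∀ t ∈ B ⊓ N, t • x = x ∧ t • y = y := by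
    intro t ht
    have h1 := (memB t).mp ht.1
    refine ⟨h1, ?_⟩
    rcases hNy t ht.2 with h | h
    · exact absurd (smul_left_cancel t (h1.trans h.symm)) hxy
    · exact h
  refine ⟨{ B := B, N := N, S := {s}, sup_eq_top := ?_, conj_mem := ?_, subset := ?_, sq_mem := ?_,
            inj := ?_, closure_sup := ?_, mul_mem_union := ?_, conj_ne := ?_ }, rfl, rfl, ?_⟩
  · -- sup_eq_top
    rw [eq_top_iff]
    intro g _
    by_cases hg : g • x = x
    · exact Subgroup.mem_sup_left ((memB g).mpr hg)
    · have h1 := hdc g s (by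
        constructor
        · intro e; exact absurd e hg
        · intro e; rw [hsx] at e; exact absurd e.symm hxy)
      rw [DoubleCoset.mem_doubleCoset] at h1
      obtain ⟨b, hb, b', hb', rfl⟩ := h1
      exact Subgroup.mul_mem _ (Subgroup.mul_mem _ (Subgroup.mem_sup_left hb)
        (Subgroup.mem_sup_right hsN)) (Subgroup.mem_sup_left hb')
  · -- conj_mem
    intro n hn t ht
    obtain ⟨h1, h2'⟩ := hBN t ht
    rw [memB, mul_smul, mul_smul]
    rcases hNx n⁻¹ (N.inv_mem hn) with h | h
    · rw [h, h1]
      exact (inv_smul_eq_iff.mp h).symm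
    · rw [h, h2']
      exact (inv_smul_eq_iff.mp h).symm
  · -- subset
    intro a ha
    rw [Set.mem_singleton_iff] at ha
    rw [ha]; exact hsN
  · -- sq_mem
    intro a ha
    rw [Set.mem_singleton_iff] at ha
    rw [ha, memB, mul_smul, hsx, hsy]
  · -- inj
    intro a ha a' ha' _
    rw [Set.mem_singleton_iff] at ha ha'
    rw [ha, ha']
  · -- closure_sup
    apply le_antisymm
    · apply sup_le
      · rw [Subgroup.closure_le]
        intro a ha
        rw [Set.mem_singleton_iff] at ha
        rw [ha]; exact hsN
      · exact inf_le_right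
    · intro n hn
      rcases hNx n hn with h | h
      · exact Subgroup.mem_sup_right ⟨(memB n).mpr h, hn⟩
      · have h1 : s⁻¹ * n ∈ B ⊓ N := by
          refine ⟨?_, N.mul_mem (N.inv_mem hsN) hn⟩
          show s⁻¹ * n ∈ B
          rw [memB, mul_smul, h, inv_smul_eq_iff, hsx]
        have h2' : n = s * (s⁻¹ * n) := by group
        rw [h2']
        exact Subgroup.mul_mem _ (Subgroup.mem_sup_left (Subgroup.subset_closure rfl))
          (Subgroup.mem_sup_right h1)
  · -- mul_mem_union
    intro a ha n hn b hb
    rw [Set.mem_singleton_iff] at ha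
    subst ha
    by_cases hg : (a * b * n) • x = x
    · rcases hNx n hn with h | h
      · right
        exact hdc _ _ ⟨fun _ => h, fun _ => hg⟩
      · left
        apply hdc
        refine ⟨fun _ => ?_, fun _ => hg⟩
        rw [mul_smul, h, hsy]
    · rcases hNx n hn with h | h
      · left
        apply hdc
        constructor
        · intro e; exact absurd e hg
        · intro e
          rw [mul_smul, h, hsx] at e
          exact absurd e.symm hxy
      · right
        apply hdc
        constructor
        · intro e; exact absurd e hg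
        · intro e
          rw [h] at e
          exact absurd e.symm hxy
  · -- conj_ne
    intro a ha
    rw [Set.mem_singleton_iff] at ha
    subst ha
    intro heq
    obtain ⟨b, hb1, hb2⟩ := h2 hxy hxz
    have h1 : a * b * a ∈ (fun b : G => a * b * a) '' (B : Set G) := ⟨b, (memB b).mpr hb1, rfl⟩
    rw [heq] at h1
    have h3 : (a * b * a) • x = x := (memB _).mp h1
    rw [mul_smul, mul_smul, hsx, hb2] at h3
    exact hyz (smul_left_cancel a (hsy.trans h3.symm))
  · -- rank
    show Nat.card ({s} : Set G) = 1
    simp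

end Cfsg.Agent.S0323
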