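import Mathlib
import Cfsg.Statements.S0351

set_option autoImplicit false
open Cfsg

namespace Cfsg.Agent.S0351

open Finset in

/-- Derived design: removing a point p from the blocks through p of an S(t+1, k+1, v) yields an S(t, k, v-1) on the points other than p. -/
theorem result {α : Type*} [Fintype α] [DecidableEq α] {t k : ℕ} {B : Set (Finset α)} (hB : Cfsg.IsSteinerSystem (t + 1) (k + 1) B) (p : α) : Cfsg.IsSteinerSystem t k {b' : Finset {a : α // a ≠ p} | ∃ b ∈ B, p ∈ b ∧ b' = Finset.subtype (fun a => a ≠ p) b} := by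
  constructor
  · rintro b' ⟨b, hb, hpb, rfl⟩
    rw [card_subtype]
    have h1 : b.filter (fun a => a ≠ p) = b.erase p := by
      ext x; simp only [mem_filter, mem_erase]; tauto
    rw [h1, card_erase_of_mem hpb, hB.1 b hb]; rfl
  · intro s hs
    have hpn : p ∉ s.map (Function.Embedding.subtype (fun a => a ≠ p)) := by
      rw [mem_map]
      rintro ⟨⟨a, ha⟩, -, h⟩
      exact ha h
    have hS : (insert p (s.map (Function.Embedding.subtype (fun a => a ≠ p)))).card = t + 1 := by
      rw [card_insert_of_notMem hpn, card_map, hs]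
    obtain ⟨b, ⟨hb, hSb⟩, hu⟩ := hB.2 _ hS
    have hpb : p ∈ b := hSb (mem_insert_self _ _)
    refine ⟨Finset.subtype (fun a => a ≠ p) b, ⟨⟨b, hb, hpb, rfl⟩, ?_⟩, ?_⟩
    · intro x hx
      rw [mem_subtype]
      apply hSb
      apply mem_insert_of_mem
      rw [mem_map]
      exact ⟨x, hx, rfl⟩
    · rintro c' ⟨⟨c, hc, hpc, rfl⟩, hsc⟩
      have : c = b := by
        apply hu c ⟨hc, ?_⟩
        intro x hx
        rw [mem_insert] at hx
        rcases hx with rfl | hx
        · exact hpc
        · rw [mem_map] at hx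
          obtain ⟨y, hy, rfl⟩ := hx
          exact mem_subtype.mp (hsc hy)
      rw [this]

end Cfsg.Agent.S0351
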