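import Mathlib
import Cfsg.Statements.S0352
import Cfsg.Agent.Lib_helper1_Steiner2

set_option autoImplicit false
open Cfsg

namespace Cfsg.Agent.S0352

open Cfsg.Agent.H1 in

/-- In a Steiner system S(5, 8, 24), two distinct blocks intersect in 0, 2 or 4 points. -/
theorem result {α : Type*} [Fintype α] [DecidableEq α] (hα : Fintype.card α = 24) {B : Set (Finset α)} (hB : Cfsg.IsSteinerSystem 5 8 B) {b c : Finset α} (hb : b ∈ B) (hc : c ∈ B) (hbc : b ≠ c) : (b ∩ c).card = 0 ∨ (b ∩ c).card = 2 ∨ (b ∩ c).card = 4 := by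
  obtain ⟨h0, h1, h2, h3, h4, h5, h6, h7, h8⟩ := s5824_cnt hα hB hb
  have hle := card_inter_le hB hb c
  rw [Finset.inter_comm b c]
  have hne : (c ∩ b).card ≠ 8 := fun h => hbc (eq_of_card_inter hB hb hc h).symm
  have hnz : ∀ j, (c ∩ b).card = j → cnt B ∅ b j ≠ 0 := fun j hj => cnt_ne_zero hc (Finset.empty_subset c) hj
  generalize (c ∩ b).card = j at *
  interval_cases j
  · left; rfl
  · exact absurd h1 (hnz 1 rfl)
  · right; left; rfl
  · exact absurd h3 (hnz 3 rfl)
  · right; right; rfl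
  · exact absurd h5 (hnz 5 rfl)
  · exact absurd h6 (hnz 6 rfl)
  · exact absurd h7 (hnz 7 rfl)
  · exact absurd rfl hne

end Cfsg.Agent.S0352
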