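import Mathlib
import Cfsg.Statements.S0353
import Cfsg.Agent.Lib_helper1_Steiner2
import Cfsg.Agent.S0352

set_option autoImplicit false
open Cfsg

namespace Cfsg.Agent.S0353

open Cfsg.Agent.H1 Finset in

/-- In an S(5, 8, 24), the symmetric difference of two blocks meeting in four points is a block. -/
theorem result {α : Type*} [Fintype α] [DecidableEq α] (hα : Fintype.card α = 24) {B : Set (Finset α)} (hB : Cfsg.IsSteinerSystem 5 8 B) {b c : Finset α} (hb : b ∈ B) (hc : c ∈ B) (h4 : (b ∩ c).card = 4) : symmDiff b c ∈ B := by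
  have hbc8 : b.card = 8 := hB.1 b hb
  have hcc8 : c.card = 8 := hB.1 c hc
  have heven : ∀ d ∈ B, ∀ e ∈ B, Even (d ∩ e).card := by
    intro d hd e he
    by_cases hde : d = e
    · subst hde
      rw [inter_self, hB.1 d hd]; decide
    · rcases Cfsg.Agent.S0352.result hα hB hd he hde with h | h | h <;> rw [h] <;> decide
  have hsplit : ∀ d : Finset α, (d ∩ symmDiff b c).card + 2 * ((d ∩ b) ∩ c).card =
      (d ∩ b).card + (d ∩ c).card := by
    intro d
    have h1 := card_sdiff_add_card_inter (d ∩ b) c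
    have h2 := card_sdiff_add_card_inter (d ∩ c) b
    have h3 : (d ∩ c) ∩ b = (d ∩ b) ∩ c := by ext x; simp only [mem_inter]; tauto
    have h4 : d ∩ symmDiff b c = ((d ∩ b) \ c) ∪ ((d ∩ c) \ b) := by
      ext x; simp only [mem_inter, mem_symmDiff, mem_union, mem_sdiff]; tauto
    have h5 : Disjoint ((d ∩ b) \ c) ((d ∩ c) \ b) := by
      rw [disjoint_left]
      intro x hx hx'
      simp only [mem_inter, mem_sdiff] at hx hx'
      exact hx.2 hx'.1.2
    rw [h4, card_union_of_disjoint h5]
    rw [h3] at h2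
    omega
  have hX : (symmDiff b c).card = 8 := by
    have h1 := hsplit univ
    simp only [univ_inter] at h1
    omega
  have hpar : ∀ d ∈ B, Even (d ∩ symmDiff b c).card := by
    intro d hd
    have h1 := hsplit d
    obtain ⟨u, hu⟩ := heven d hd b hb
    obtain ⟨v, hv⟩ := heven d hd c hc
    rw [Nat.even_iff]
    omega
  have hz : ∀ j, ¬ Even j → cnt B ∅ (symmDiff b c) j = 0 := by
    intro j hj
    rw [cnt, card_eq_zero, filter_eq_empty_iff]
    intro d hd hd'
    rw [mem_blocks] at hd
    exact hj (hd'.2 ▸ hpar d hd)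
  have hs : (∅ : Finset α).card = 0 := card_empty
  have hd : Disjoint (∅ : Finset α) (symmDiff b c) := disjoint_empty_left _
  have e5 := steiner_moment hB ∅ (symmDiff b c) hd 5 (by simp) 8 hX.le
  rw [hα, hX, hs] at e5
  simp only [sum_range_succ, sum_range_zero] at e5
  norm_num [Nat.choose] at e5
  have z5 := hz 5 (by decide)
  have z7 := hz 7 (by decide)
  have hpos : 0 < cnt B ∅ (symmDiff b c) 8 := by omega
  rw [cnt, card_pos] at hpos
  obtain ⟨d, hd⟩ := hpos
  rw [mem_filter, mem_blocks] at hd
  obtain ⟨hdB, -, hd8⟩ := hd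
  have h1 : d ∩ symmDiff b c = d := eq_of_subset_of_card_le inter_subset_left (by rw [hd8, hB.1 d hdB])
  have h2 : d ∩ symmDiff b c = symmDiff b c := eq_of_subset_of_card_le inter_subset_right (by rw [hd8, hX])
  rw [← h2, h1]; exact hdB

end Cfsg.Agent.S0353
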