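import Mathlib
import Cfsg.Statements.S0357
import Cfsg.Agent.Lib_helper1_Steiner2

set_option autoImplicit false
open Cfsg

namespace Cfsg.Agent.S0357

open Cfsg.Agent.H1 in

/-- In a Steiner system S(5, 6, 12), the complement of every block is again a block. -/
theorem result {α : Type*} [Fintype α] [DecidableEq α] (hα : Fintype.card α = 12) {B : Set (Finset α)} (hB : Cfsg.IsSteinerSystem 5 6 B) {b : Finset α} (hb : b ∈ B) : bᶜ ∈ B := by
  obtain ⟨h0, -⟩ := s5612_cnt hα hB hb
  have hpos : 0 < cnt B ∅ b 0 := by rw [h0]; exact Nat.one_pos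
  rw [cnt, Finset.card_pos] at hpos
  obtain ⟨c, hc⟩ := hpos
  rw [Finset.mem_filter, mem_blocks] at hc
  obtain ⟨hcB, -, hc0⟩ := hc
  rw [Finset.card_eq_zero, ← Finset.disjoint_iff_inter_eq_empty] at hc0
  have h1 : c ⊆ bᶜ := by
    intro x hx
    rw [Finset.mem_compl]
    exact fun hxb => (Finset.disjoint_left.mp hc0 hx) hxb
  have h2 : c = bᶜ := by
    apply Finset.eq_of_subset_of_card_le h1
    rw [Finset.card_compl, hα, hB.1 b hb, hB.1 c hcB]
  rw [← h2]; exact hcB

end Cfsg.Agent.S0357
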