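import Cfsg.Statements.S0358
import Cfsg.Agent.Lib_H9_Golay

set_option autoImplicit false
open Cfsg

namespace Cfsg.Agent.S0358

/-- The length-24 code built from the squares modulo 23 has dimension 12 over the field with two elements. -/
theorem result : Module.finrank (ZMod 2) Cfsg.golayCode = 12 := by
  have h := Module.natCard_eq_pow_finrank (K := ZMod 2) (V := Cfsg.golayCode)
  rw [Cfsg.Agent.H9.natCard_golayCode, Nat.card_zmod] at h
  exact (Nat.pow_right_injective (le_refl 2) (h.symm.trans (by norm_num : (4096 : ℕ) = 2 ^ 12)))

end Cfsg.Agent.S0358
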