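import Cfsg.Statements.S0359
import Cfsg.Agent.Lib_H9_Golay

set_option autoImplicit false
open Cfsg

namespace Cfsg.Agent.S0359

set_option maxRecDepth 100000 in
theorem weight_check : Cfsg.Agent.H9.allBelow (fun i =>
    let k := Cfsg.Agent.H9.pop (Cfsg.Agent.H9.enc i)
    k == 0 || k == 8 || k == 12 || k == 16 || k == 24) 4096 = true := by
  decide +kernel


/-- The weight of every word of the length-24 code is one of 0, 8, 12, 16, 24. -/
theorem result (w : Cfsg.GolayPt → ZMod 2) (hw : w ∈ Cfsg.golayCode) : hammingNorm w = 0 ∨ hammingNorm w = 8 ∨ hammingNorm w = 12 ∨ hammingNorm w = 16 ∨ hammingNorm w = 24 := by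
  have key : ∀ s ∈ Cfsg.Agent.H9.CC, s.card = 0 ∨ s.card = 8 ∨ s.card = 12 ∨ s.card = 16 ∨ s.card = 24 := by
    rw [Cfsg.Agent.H9.forall_CC]
    intro i hi
    rw [← Cfsg.Agent.H9.pop_eq (Cfsg.Agent.H9.enc_lt i)]
    have h := (Cfsg.Agent.H9.allBelow_iff _ _).mp weight_check i hi
    simpa [or_assoc] using h
  exact key _ ⟨w, hw, rfl⟩

end Cfsg.Agent.S0359
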