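import Cfsg.Statements.S0365
import Cfsg.Agent.Lib_H9_Simple4

set_option autoImplicit false
open Cfsg

namespace Cfsg.Agent.S0365

open Cfsg.Agent.H9

/-- The permutation group preserving the length-24 code is simple. -/
theorem result : IsSimpleGroup Cfsg.M24 := by
  have e : (⊤ : Subgroup M24) ≃* SG Finset.univ ∅ := toPermSub _ _ (by
    intro g
    rw [mem_SG]
    constructor
    · rintro ⟨h1, _, _⟩; exact ⟨h1, trivial⟩
    · rintro ⟨h1, _⟩; exact ⟨h1, Finset.smul_finset_univ, by simp⟩)
  exact (Subgroup.topEquiv.symm.trans e).isSimpleGroup_congr.mpr simple24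

end Cfsg.Agent.S0365
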