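import Cfsg.Statements.S0369
import Cfsg.Agent.Lib_H9_Rank

set_option autoImplicit false
open Cfsg

namespace Cfsg.Agent.S0369

open Cfsg.Agent.H9
open scoped Pointwise

def aT : ℕ := 192562678692489684007293861954004404608386950793075396603788555298073976931557604116679124692337335089140840408440184556744149132037724646297273100107206974948998153501941775
def bT : ℕ := 23793271845215338983532538568061260872797505597794105149731305697502979337097098185316392071135226729147516560317565730685093737856653986180932905555336130182148060898988880

theorem dec_ok : allBelow (fun j => isOct (fld aT 24 16777215 j) && isOct (fld bT 24 16777215 j) &&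
    (Nat.beq (Nat.xor (fld aT 24 16777215 j) (fld bT 24 16777215 j)) (gen j) ||
     (isOct 2101096 && Nat.beq (Nat.xor (Nat.xor (fld aT 24 16777215 j) (fld bT 24 16777215 j)) 2101096) (gen j)))) 24 = true := by
  decide +kernel

theorem smul_symmDiff (σ : Equiv.Perm GolayPt) (a b : Finset GolayPt) :
    σ • symmDiff a b = symmDiff (σ • a) (σ • b) :=
  Finset.smul_finset_symmDiff


/-- The group of the length-24 code coincides with the automorphism group of its octad system. -/
theorem result : Cfsg.M24 = Cfsg.setSystemAut Cfsg.octads := by
  apply le_antisymm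
  · intro g hg
    rw [MulAction.mem_stabilizer_iff]
    ext o
    rw [Set.mem_smul_set_iff_inv_smul_mem]
    exact smul_mem_octads_iff (M24.inv_mem hg)
  · intro σ hσ
    rw [MulAction.mem_stabilizer_iff] at hσ
    have key : ∀ o ∈ octads, σ • o ∈ CC := by
      intro o ho
      have : σ • o ∈ σ • octads := Set.smul_mem_smul_set ho
      rw [hσ] at this
      exact this.1
    apply mem_M24_of_gens
    intro j hj
    have := (allBelow_iff _ _).mp dec_ok j hj
    simp only [Bool.and_eq_true, Bool.or_eq_true] at this
    obtain ⟨⟨ha, hb⟩, h | ⟨hc, h⟩⟩ := this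
    · rw [← Nat.eq_of_beq_eq_true h]
      show σ • ofMask (_ ^^^ _) ∈ CC
      rw [ofMask_xor, smul_symmDiff]
      exact symmDiff_mem_CC (key _ (isOct_spec ha).2) (key _ (isOct_spec hb).2)
    · rw [← Nat.eq_of_beq_eq_true h]
      show σ • ofMask ((_ ^^^ _) ^^^ _) ∈ CC
      rw [ofMask_xor, ofMask_xor, smul_symmDiff, smul_symmDiff]
      exact symmDiff_mem_CC (symmDiff_mem_CC (key _ (isOct_spec ha).2) (key _ (isOct_spec hb).2))
        (key _ (isOct_spec hc).2)

end Cfsg.Agent.S0369
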