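import Cfsg.Statements.S0370
import Cfsg.Agent.Lib_H9_Perm

set_option autoImplicit false
open Cfsg

namespace Cfsg.Agent.S0370

theorem chk : Cfsg.Agent.H9.inM24 956302485175575353788796878166559809 = true := by decide +kernel

set_option maxRecDepth 100000 in
theorem pts : ∀ i < 24, (Equiv.optionCongr (Equiv.addRight (1 : ZMod 23))) (Cfsg.Agent.H9.pt i) = Cfsg.Agent.H9.pt (Cfsg.Agent.H9.app 956302485175575353788796878166559809 i) := by
  decide +kernel


/-- The permutation x ↦ x + 1 of the residues modulo 23, fixing the extra point, lies in the group of the length-24 code. -/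
theorem result : Equiv.optionCongr (Equiv.addRight (1 : ZMod 23)) ∈ Cfsg.M24 := by
  rw [Cfsg.Agent.H9.eq_permOf (Cfsg.Agent.H9.inM24_isPerm chk) pts]
  exact Cfsg.Agent.H9.permOf_mem_M24 chk

end Cfsg.Agent.S0370
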