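import Cfsg.Statements.S0371
import Cfsg.Agent.Lib_H9_Perm

set_option autoImplicit false
open Cfsg

namespace Cfsg.Agent.S0371

def tab : ℕ := 161473188447189505877915256307437816980449541979222794359115355185782786377244092881986611972148676072938789661351199323455626869176535002463190467979621334629834398068430066554919137749132993216176425075246081497453743135956292210063798180482534789014149765785237345224347985393413954295294400648076647825994827942370501554059490264950466197736159427909280347296061319295825281404578076773695635134360062804722548451842224072858297791651652848571860826859955860792818828005151227086258520215242628116379588243324295228134919276809011812806658179014169716495330767330088123847230217525723740030030598377726309489064710459782276367260292099090344235112164821424538713250375653686572482560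

def cd (a : ℕ) : ℕ := Nat.land (Nat.shiftRight tab (Nat.mul 120 a)) (2 ^ 120 - 1)

set_option maxRecDepth 100000 in
theorem chk : ∀ u : (ZMod 23)ˣ, IsSquare u → (Cfsg.Agent.H9.inM24 (cd (u : ZMod 23).val) = true ∧
    ∀ i < 24, (Equiv.optionCongr (Units.mulLeft u)) (Cfsg.Agent.H9.pt i) =
      Cfsg.Agent.H9.pt (Cfsg.Agent.H9.app (cd (u : ZMod 23).val) i)) := by
  decide +kernel


/-- Multiplication by a nonzero square residue modulo 23, fixing the extra point, lies in the group of the length-24 code. -/
theorem result (u : (ZMod 23)ˣ) (hu : IsSquare u) : Equiv.optionCongr (Units.mulLeft u) ∈ Cfsg.M24 := by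
  obtain ⟨h1, h2⟩ := chk u hu
  rw [Cfsg.Agent.H9.eq_permOf (Cfsg.Agent.H9.inM24_isPerm h1) h2]
  exact Cfsg.Agent.H9.permOf_mem_M24 h1

end Cfsg.Agent.S0371
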