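import Cfsg.Statements.S0372
import Cfsg.Agent.Lib_H9_Perm

set_option autoImplicit false
open Cfsg

namespace Cfsg.Agent.S0372

theorem chk : Cfsg.Agent.H9.inM24 1795248432537898728475572672376535 = true := by decide +kernel

set_option maxRecDepth 100000 in
theorem pts : ∀ i < 24, (Cfsg.projInv) (Cfsg.Agent.H9.pt i) = Cfsg.Agent.H9.pt (Cfsg.Agent.H9.app 1795248432537898728475572672376535 i) := by
  decide +kernel


/-- The involution x ↦ -1/x of the projective line over ZMod 23 lies in the group of the length-24 code. -/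
theorem result : Cfsg.projInv ∈ Cfsg.M24 := by
  rw [Cfsg.Agent.H9.eq_permOf (Cfsg.Agent.H9.inM24_isPerm chk) pts]
  exact Cfsg.Agent.H9.permOf_mem_M24 chk

end Cfsg.Agent.S0372
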