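import Cfsg.Statements.S0373
import Cfsg.Agent.Lib_H9_Perm

set_option autoImplicit false
open Cfsg

namespace Cfsg.Agent.S0373

theorem chk : Cfsg.Agent.H9.inM24 974380510768821363662145534143076928 = true := by decide +kernel

set_option maxRecDepth 100000 in
theorem pts : ∀ i < 24, (Cfsg.cubeTwist) (Cfsg.Agent.H9.pt i) = Cfsg.Agent.H9.pt (Cfsg.Agent.H9.app 974380510768821363662145534143076928 i) := by
  decide +kernel


/-- The cube-twist permutation (squares t ↦ t^3/9, non-squares t ↦ 9t^3, extra point fixed) lies in the group of the length-24 code. -/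
theorem result : Cfsg.cubeTwist ∈ Cfsg.M24 := by
  rw [Cfsg.Agent.H9.eq_permOf (Cfsg.Agent.H9.inM24_isPerm chk) pts]
  exact Cfsg.Agent.H9.permOf_mem_M24 chk

end Cfsg.Agent.S0373
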