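import Cfsg.Statements.S0376
import Cfsg.Agent.Lib_H9_M24b

set_option autoImplicit false
open Cfsg

namespace Cfsg.Agent.S0376

/-- A point stabiliser in the group of the length-24 code has order 10200960 = 2^7·3^2·5·7·11·23. -/
theorem result (p : Cfsg.GolayPt) : Nat.card (MulAction.stabilizer Cfsg.M24 p) = 10200960 := by
  have h := Cfsg.Agent.H9.card_fixing_mul (k := 1) (by norm_num) {p} (Set.ncard_singleton p)
  have e : fixingSubgroup Cfsg.M24 ({p} : Set Cfsg.GolayPt) = MulAction.stabilizer Cfsg.M24 p := by
    ext g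
    simp [mem_fixingSubgroup_iff]
  rw [e] at h
  have h2 : (24 : ℕ).factorial = 24 * (24 - 1).factorial := by decide +kernel
  rw [h2, ← mul_assoc] at h
  have h3 := Nat.eq_of_mul_eq_mul_right (Nat.factorial_pos _) h
  omega

end Cfsg.Agent.S0376
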