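import Cfsg.Statements.S0377
import Cfsg.Agent.Lib_H9_Simple4

set_option autoImplicit false
open Cfsg

namespace Cfsg.Agent.S0377

open Cfsg.Agent.H9

/-- A point stabiliser in the group of the length-24 code is simple. -/
theorem result (p : Cfsg.GolayPt) : IsSimpleGroup (MulAction.stabilizer Cfsg.M24 p) := by
  have e : MulAction.stabilizer Cfsg.M24 p ≃* SG Finset.univ {p} := toPermSub _ _ (by
    intro g
    rw [mem_SG]
    constructor
    · rintro ⟨h1, _, h2⟩; exact ⟨h1, h2 p (Finset.mem_singleton_self p)⟩
    · rintro ⟨h1, h2⟩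
      refine ⟨h1, Finset.smul_finset_univ, ?_⟩
      intro x hx
      rw [Finset.mem_singleton.mp hx]
      exact h2)
  exact e.isSimpleGroup_congr.mpr (simple23 p)

end Cfsg.Agent.S0377
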