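import Cfsg.Statements.S0378
import Cfsg.Agent.Lib_H9_M24b

set_option autoImplicit false
open Cfsg

namespace Cfsg.Agent.S0378

/-- A two-point stabiliser in the group of the length-24 code has order 443520 = 2^7·3^2·5·7·11. -/
theorem result (p q : Cfsg.GolayPt) (hpq : p ≠ q) : Nat.card ↥(MulAction.stabilizer Cfsg.M24 p ⊓ MulAction.stabilizer Cfsg.M24 q) = 443520 := by
  have h := Cfsg.Agent.H9.card_fixing_mul (k := 2) (by norm_num) {p, q} (Set.ncard_pair hpq)
  have e : fixingSubgroup Cfsg.M24 ({p, q} : Set Cfsg.GolayPt) =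
      MulAction.stabilizer Cfsg.M24 p ⊓ MulAction.stabilizer Cfsg.M24 q := by
    ext g
    simp [mem_fixingSubgroup_iff, Subgroup.mem_inf]
  rw [e] at h
  have h2 : (24 : ℕ).factorial = 552 * (24 - 2).factorial := by decide +kernel
  rw [h2, ← mul_assoc] at h
  have h3 := Nat.eq_of_mul_eq_mul_right (Nat.factorial_pos _) h
  omega

end Cfsg.Agent.S0378
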