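import Cfsg.Statements.S0379
import Cfsg.Agent.Lib_H9_Simple4

set_option autoImplicit false
open Cfsg

namespace Cfsg.Agent.S0379

open Cfsg.Agent.H9

/-- A two-point stabiliser in the group of the length-24 code is simple. -/
theorem result (p q : Cfsg.GolayPt) (hpq : p ≠ q) : IsSimpleGroup ↥(MulAction.stabilizer Cfsg.M24 p ⊓ MulAction.stabilizer Cfsg.M24 q) := by
  have e : ↥(MulAction.stabilizer Cfsg.M24 p ⊓ MulAction.stabilizer Cfsg.M24 q) ≃* SG Finset.univ {q, p} :=
    toPermSub _ _ (by
    intro g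
    rw [mem_SG]
    constructor
    · rintro ⟨h1, _, h2⟩
      exact ⟨h1, h2 p (by simp), h2 q (by simp)⟩
    · rintro ⟨h1, h2, h3⟩
      refine ⟨h1, Finset.smul_finset_univ, ?_⟩
      intro x hx
      rcases Finset.mem_insert.mp hx with rfl | hx
      · exact h3
      · rw [Finset.mem_singleton.mp hx]
        exact h2)
  exact e.isSimpleGroup_congr.mpr (simple22 hpq)

end Cfsg.Agent.S0379
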