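import Cfsg.Statements.S0381
import Cfsg.Agent.Lib_H9_Enum

set_option autoImplicit false
open Cfsg

namespace Cfsg.Agent.S0381

open Cfsg.Agent.H9
open scoped Pointwise

theorem chk : allBelow (fun b => !(bit 16771936 b) ||
    (fixesMask (entry trTab6 b) 5279 &&
      allBelow (fun i => Nat.beq (app (entry trTab6 b) (app (entry trTab6 b) i)) i) 24)) 24 = true := by
  decide +kernel

theorem FixM_eq : FixM 5279 = FixM 159 := by
  apply le_antisymm
  · exact FixM_mono ((ofMask_subset_iff (by norm_num)).mpr (by decide))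
  · intro g hg
    obtain ⟨b, hb, hb', rfl⟩ := FixM159_enum hg
    have := (allBelow_iff _ _).mp chk b hb
    rw [bit_eq, hb'] at this
    simp only [Bool.not_true, Bool.false_or, Bool.and_eq_true] at this
    exact mem_FixM.mpr ⟨(mem_FixM.mp hg).1, fixesMask_spec (isPerm6 hb hb') this.1⟩

theorem card_std : Nat.card ↥(Cfsg.M24 ⊓ fixingSubgroup (Equiv.Perm Cfsg.GolayPt)
    ((ofMask 5279 : Finset Cfsg.GolayPt) : Set Cfsg.GolayPt)) = 16 := by
  have : Nat.card (FixM 5279) = 16 := by rw [FixM_eq, card_FixM_159]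
  exact this

theorem sq_std {g : Equiv.Perm Cfsg.GolayPt} (hg : g ∈ Cfsg.M24 ⊓ fixingSubgroup (Equiv.Perm Cfsg.GolayPt)
    ((ofMask 5279 : Finset Cfsg.GolayPt) : Set Cfsg.GolayPt)) : g * g = 1 := by
  have hg' : g ∈ FixM 159 := by rw [← FixM_eq]; exact hg
  obtain ⟨b, hb, hb', rfl⟩ := FixM159_enum hg'
  have := (allBelow_iff _ _).mp chk b hb
  rw [bit_eq, hb'] at this
  simp only [Bool.not_true, Bool.false_or, Bool.and_eq_true] at this
  have hp := isPerm6 hb hb'
  ext1 p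
  rw [Equiv.Perm.mul_apply, permOf_apply hp p, permOf_pt hp (app_lt hp (idx_lt p)),
    Nat.eq_of_beq_eq_true ((allBelow_iff _ _).mp this.2 _ (idx_lt p)), pt_idx]
  rfl

theorem fixing_conj {h : Equiv.Perm Cfsg.GolayPt} (hh : h ∈ Cfsg.M24) (s : Finset Cfsg.GolayPt) :
    (Cfsg.M24 ⊓ fixingSubgroup (Equiv.Perm Cfsg.GolayPt) ((h • s : Finset Cfsg.GolayPt) : Set Cfsg.GolayPt)) =
      (Cfsg.M24 ⊓ fixingSubgroup (Equiv.Perm Cfsg.GolayPt) (s : Set Cfsg.GolayPt)).map
        (MulAut.conj h).toMonoidHom := by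
  ext g
  rw [Subgroup.mem_map_equiv, Subgroup.mem_inf, Subgroup.mem_inf, mem_fixingSubgroup_iff,
    mem_fixingSubgroup_iff, MulAut.conj_symm_apply]
  constructor
  · rintro ⟨h1, h2⟩
    refine ⟨Cfsg.M24.mul_mem (Cfsg.M24.mul_mem (Cfsg.M24.inv_mem hh) h1) hh, fun p hp => ?_⟩
    have := h2 (h p) (by
      rw [Finset.mem_coe]
      exact Finset.smul_mem_smul_finset (Finset.mem_coe.mp hp))
    show (h⁻¹ * g * h) p = p
    rw [Equiv.Perm.mul_apply, Equiv.Perm.mul_apply, Equiv.Perm.inv_eq_iff_eq]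
    exact this
  · rintro ⟨h1, h2⟩
    constructor
    · have := Cfsg.M24.mul_mem (Cfsg.M24.mul_mem hh h1) (Cfsg.M24.inv_mem hh)
      have e : h * (h⁻¹ * g * h) * h⁻¹ = g := by group
      rwa [e] at this
    · intro p hp
      rw [Finset.mem_coe, ← Finset.inv_smul_mem_iff] at hp
      have := h2 (h⁻¹ • p) (Finset.mem_coe.mpr hp)
      have e : (h⁻¹ * g * h) (h⁻¹ p) = h⁻¹ p := this
      rw [Equiv.Perm.mul_apply, Equiv.Perm.mul_apply] at e
      have e2 : h (h⁻¹ p) = p := by simp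
      rw [e2] at e
      exact (h⁻¹).injective e


/-- The pointwise stabiliser of an octad in the group of the length-24 code has order 16 and every element of it squares to the identity. -/
theorem result (o : Finset Cfsg.GolayPt) (ho : o ∈ Cfsg.octads) : Nat.card ↥(Cfsg.M24 ⊓ fixingSubgroup (Equiv.Perm Cfsg.GolayPt) (o : Set Cfsg.GolayPt)) = 16 ∧ ∀ g ∈ Cfsg.M24 ⊓ fixingSubgroup (Equiv.Perm Cfsg.GolayPt) (o : Set Cfsg.GolayPt), g * g = 1 := by
  obtain ⟨h, hh, rfl⟩ := M24_trans_octads (isOct_spec oct5279).2 ho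
  rw [fixing_conj hh]
  constructor
  · rw [Subgroup.card_map_of_injective (MulEquiv.injective _)]
    exact card_std
  · intro g hg
    rw [Subgroup.mem_map] at hg
    obtain ⟨k, hk, rfl⟩ := hg
    have := sq_std hk
    show h * k * h⁻¹ * (h * k * h⁻¹) = 1
    calc h * k * h⁻¹ * (h * k * h⁻¹) = h * (k * k) * h⁻¹ := by group
      _ = 1 := by rw [this]; group

end Cfsg.Agent.S0381
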