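import Cfsg.Statements.S0383
import Cfsg.Agent.Lib_H9_Simple4

set_option autoImplicit false
open scoped Pointwise
open Cfsg

namespace Cfsg.Agent.S0383

open Cfsg.Agent.H9

/-- A dodecad stabiliser in the group of the length-24 code is simple. -/
theorem result (d : Finset Cfsg.GolayPt) (hd : d ∈ Cfsg.dodecads) : IsSimpleGroup (MulAction.stabilizer Cfsg.M24 d) := by
  have e : MulAction.stabilizer Cfsg.M24 d ≃* SG d ∅ := toPermSub _ _ (by
    intro g
    rw [mem_SG]
    constructor
    · rintro ⟨h1, h2, _⟩; exact ⟨h1, h2⟩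
    · rintro ⟨h1, h2⟩; exact ⟨h1, h2, by simp⟩)
  exact e.isSimpleGroup_congr.mpr (simple12 hd)

end Cfsg.Agent.S0383
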