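import Cfsg.Statements.S0384
import Cfsg.Agent.Lib_H9_Card

set_option autoImplicit false
open scoped Pointwise
open Cfsg

namespace Cfsg.Agent.S0384

/-- A dodecad stabiliser is sharply 5-transitive on the dodecad. -/
theorem result (d : Finset Cfsg.GolayPt) (hd : d ∈ Cfsg.dodecads) (x y : Fin 5 ↪ Cfsg.GolayPt) (hx : ∀ i, x i ∈ d) (hy : ∀ i, y i ∈ d) : ∃! g : MulAction.stabilizer Cfsg.M24 d, ∀ i, ((g : Cfsg.M24) : Equiv.Perm Cfsg.GolayPt) (x i) = y i := by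
  obtain ⟨g, hg, hgd, hgxy⟩ := Cfsg.Agent.H9.dod_five hd x y hx hy
  refine ⟨⟨⟨g, hg⟩, hgd⟩, hgxy, ?_⟩
  intro k hk
  have hkd : ((k : Cfsg.M24) : Equiv.Perm Cfsg.GolayPt) • d = d := k.2
  have h1 : (g⁻¹ * ((k : Cfsg.M24) : Equiv.Perm Cfsg.GolayPt)) = 1 := by
    apply Cfsg.Agent.H9.dod_sharp hd x hx (Cfsg.M24.mul_mem (Cfsg.M24.inv_mem hg) (k : Cfsg.M24).2)
    · rw [mul_smul, hkd, inv_smul_eq_iff, hgd]
    · intro i
      rw [Equiv.Perm.mul_apply, hk i, Equiv.Perm.inv_eq_iff_eq, hgxy i]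
  have h2 : ((k : Cfsg.M24) : Equiv.Perm Cfsg.GolayPt) = g := (inv_mul_eq_one.mp h1).symm
  exact Subtype.ext (Subtype.ext h2)

end Cfsg.Agent.S0384
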