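import Mathlib
import Cfsg.Statements.S0385
import Cfsg.Agent.Lib_H9_Aut8

set_option autoImplicit false
open Cfsg

namespace Cfsg.Agent.S0385

open Finset in

/-- The 6-point intersections of octads with a fixed dodecad form a Steiner system S(5, 6, 12) on the dodecad. -/
theorem result (d : Finset Cfsg.GolayPt) (hd : d ∈ Cfsg.dodecads) : Cfsg.IsSteinerSystem 5 6 {h : Finset {p : Cfsg.GolayPt // p ∈ d} | ∃ o ∈ Cfsg.octads, (o ∩ d).card = 6 ∧ h = Finset.subtype (fun p => p ∈ d) o} := by
  have hSt := Cfsg.Agent.H9.octads_steiner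
  constructor
  · rintro h ⟨o, ho, ho6, rfl⟩
    rw [card_subtype, filter_mem_eq_inter, ho6]
  · intro s hs
    have hS : (s.map (Function.Embedding.subtype (fun p => p ∈ d))).card = 5 := by
      rw [card_map, hs]
    have hSd : s.map (Function.Embedding.subtype (fun p => p ∈ d)) ⊆ d := by
      intro x hx
      rw [mem_map] at hx
      obtain ⟨y, -, rfl⟩ := hx
      exact y.2
    obtain ⟨o, ⟨ho, hSo⟩, hu⟩ := hSt.2 _ hS
    have h5 : 5 ≤ (o ∩ d).card := by
      rw [← hS]; exact card_le_card (subset_inter hSo hSd)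
    have hev := Cfsg.Agent.H9.even_inter ho.1 hd.1
    have hsd := Cfsg.Agent.H9.card_symmDiff_add o d
    rw [ho.2, hd.2] at hsd
    have h6 : (o ∩ d).card = 6 := by
      by_contra hne
      have h7 : 7 ≤ (o ∩ d).card := by
        rw [Nat.even_iff] at hev
        omega
      have h8 := Cfsg.Agent.H9.eq_empty_of_card_lt (Cfsg.Agent.H9.symmDiff_mem_CC ho.1 hd.1) (by omega)
      have h9 : o = d := symmDiff_eq_bot.mp h8
      have := ho.2
      rw [h9, hd.2] at this
      omega
    refine ⟨Finset.subtype (fun p => p ∈ d) o, ⟨⟨o, ho, h6, rfl⟩, ?_⟩, ?_⟩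
    · intro x hx
      rw [mem_subtype]
      apply hSo
      rw [mem_map]
      exact ⟨x, hx, rfl⟩
    · rintro c' ⟨⟨c, hc, -, rfl⟩, hsc⟩
      have : c = o := by
        apply hu c ⟨hc, ?_⟩
        intro x hx
        rw [mem_map] at hx
        obtain ⟨y, hy, rfl⟩ := hx
        exact mem_subtype.mp (hsc hy)
      rw [this]

end Cfsg.Agent.S0385
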