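import Cfsg.Statements.S0386
import Cfsg.Agent.Lib_H9_Flags

set_option autoImplicit false
open Cfsg

namespace Cfsg.Agent.S0386

open Cfsg.Agent.H9
open scoped Pointwise

set_option maxRecDepth 100000 in
theorem cnt6 : countBelow (fun i => cntG 8 0 0 340831 6 (enc i)) 4096 = 132 := by decide +kernel
set_option maxRecDepth 100000 in
theorem cnt2 : countBelow (fun i => cntG 8 0 0 340831 2 (enc i)) 4096 = 132 := by decide +kernel
set_option maxRecDepth 100000 in
theorem cnt4 : countBelow (fun i => cntG 8 0 0 340831 4 (enc i)) 4096 = 495 := by decide +kernel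

theorem fam_iff (h : Equiv.Perm Cfsg.GolayPt) (s : Finset Cfsg.GolayPt) :
    (s ∈ CC ∧ (s.card = 8 ∧ h • ofMask 0 ⊆ s ∧ Disjoint (h • ofMask 0) s)) ↔ s ∈ Cfsg.octads := by
  rw [smul_ofMask_zero, mem_octads_iff]
  simp only [Finset.disjoint_empty_left, Finset.empty_subset, and_true]


/-- For a fixed dodecad, 132 octads meet it in 6 points, 132 in 2 points and 495 in 4 points. -/
theorem result (d : Finset Cfsg.GolayPt) (hd : d ∈ Cfsg.dodecads) : {o : Finset Cfsg.GolayPt | o ∈ Cfsg.octads ∧ (o ∩ d).card = 6}.ncard = 132 ∧ {o : Finset Cfsg.GolayPt | o ∈ Cfsg.octads ∧ (o ∩ d).card = 2}.ncard = 132 ∧ {o : Finset Cfsg.GolayPt | o ∈ Cfsg.octads ∧ (o ∩ d).card = 4}.ncard = 495 := by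
  obtain ⟨h, hh, rfl⟩ := dodecad_orbit hd
  refine ⟨?_, ?_, ?_⟩
  · refine (congrArg Set.ncard (Set.ext fun s => ?_)).trans (count_general (by norm_num) (by norm_num) (by norm_num) cnt6 hh)
    show (_ ∧ _) ↔ (_ ∧ _ ∧ _)
    rw [← and_assoc, fam_iff, Finset.inter_comm]
  · refine (congrArg Set.ncard (Set.ext fun s => ?_)).trans (count_general (by norm_num) (by norm_num) (by norm_num) cnt2 hh)
    show (_ ∧ _) ↔ (_ ∧ _ ∧ _)
    rw [← and_assoc, fam_iff, Finset.inter_comm]
  · refine (congrArg Set.ncard (Set.ext fun s => ?_)).trans (count_general (by norm_num) (by norm_num) (by norm_num) cnt4 hh)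
    show (_ ∧ _) ↔ (_ ∧ _ ∧ _)
    rw [← and_assoc, fam_iff, Finset.inter_comm]

end Cfsg.Agent.S0386
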