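import Cfsg.Statements.S0388
import Cfsg.Agent.Lib_H9_Simple4

set_option autoImplicit false
open scoped Pointwise
open Cfsg

namespace Cfsg.Agent.S0388

open Cfsg.Agent.H9

/-- The stabiliser of a dodecad and a point on it is simple. -/
theorem result (d : Finset Cfsg.GolayPt) (hd : d ∈ Cfsg.dodecads) (p : Cfsg.GolayPt) (hp : p ∈ d) : IsSimpleGroup ↥(MulAction.stabilizer Cfsg.M24 d ⊓ MulAction.stabilizer Cfsg.M24 p) := by
  have e : ↥(MulAction.stabilizer Cfsg.M24 d ⊓ MulAction.stabilizer Cfsg.M24 p) ≃* SG d {p} :=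
    toPermSub _ _ (by
    intro g
    rw [mem_SG]
    constructor
    · rintro ⟨h1, h2, h3⟩
      exact ⟨h1, h2, h3 p (by simp)⟩
    · rintro ⟨h1, h2, h3⟩
      refine ⟨h1, h2, ?_⟩
      intro x hx
      rw [Finset.mem_singleton.mp hx]
      exact h3)
  exact e.isSimpleGroup_congr.mpr (simple11 hd hp)

end Cfsg.Agent.S0388
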