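import Cfsg.Statements.S0390
import Cfsg.Agent.Lib_H9_Leech2

set_option autoImplicit false
open Cfsg

namespace Cfsg.Agent.S0390

/-- The set leechSet is the carrier of an additive subgroup (hence equals leechLattice). -/
theorem result : ∃ L : AddSubgroup (Cfsg.GolayPt → ℤ), (L : Set (Cfsg.GolayPt → ℤ)) = Cfsg.leechSet := by
  exact ⟨Cfsg.Agent.H9.LSub, Cfsg.Agent.H9.leechSet_eq.symm⟩

end Cfsg.Agent.S0390
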