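import Cfsg.Statements.S0404
import Cfsg.Agent.Lib_H9_SimpL
import Cfsg.Agent.Lib_H9_CfgG

set_option autoImplicit false
open Cfsg

namespace Cfsg.Agent.S0404

open Cfsg.Agent.H9

set_option maxRecDepth 100000 in
theorem dotsM : ∀ y ∈ S3 (VpM : V) WpM WpM 0 16 16,
    dotInt (X3L : V) y = 0 ∨ dotInt (X3L : V) y = 16 ∨ dotInt (X3L : V) y = 8 ∨ dotInt (X3L : V) y = 32 := by
  rw [← tabM_eq]
  refine tab_forall _ (fun a => dotIs rtM 0 0 a || (dotIs rtM 0 16 a ||
    (dotIs rtM 0 8 a || dotIs rtM 0 32 a))) ?_ (by decide +kernel)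
  intro a ha
  rw [Bool.or_eq_true, Bool.or_eq_true, Bool.or_eq_true,
    dotIs_spec (s := 0) (by decide +kernel), dotIs_spec (s := 16) (by decide +kernel),
    dotIs_spec (s := 8) (by decide +kernel), dotIs_spec (s := 32) (by decide +kernel)] at ha
  exact ha

theorem UsE_eq : UsE = WpM + VpM := by
  have : UsE = UsF := rfl
  rw [this, WpM_eq, VpM_eq, sub_add_cancel]

theorem VpL_eq : VpL = VpM := rfl

theorem std : IsMcL ↥(MulAction.stabilizer Co0 VpM ⊓ MulAction.stabilizer Co0 WpM) := by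
  have := finite_Co0
  obtain ⟨⟨_, nx⟩, dx1, dx2, _⟩ := mem_S3.mp X3L_mem
  have hx : sqNorm (X3L : V) = 32 ∧ dotInt (VpM : V) (X3L : V) = 0 ∧ dotInt (WpM : V) (X3L : V) = 16 :=
    ⟨nx, dx1, dx2⟩
  have hm := cfg2 (tab_cardg tbM_ok) tabM_orb X3L_mem cntM 1
  simp only [one_smul] at hm
  obtain ⟨horb, hco, hnn⟩ := cfg_coatom (MulAction.stabilizer Co0 VpM ⊓ MulAction.stabilizer Co0 WpM)
    VpM WpM X3L (fun _ => Iff.rfl) 0 16 {32, 0, 16, 8}
    (fun j => if j = 32 then 1 else if j = 0 then 330 else if j = 16 then 462 else 1232) hx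
    (fun y hy => hm.2 X3L y hx hy)
    (fun y hy => by
      rcases dotsM (y : V) (mem_S3.mpr ⟨⟨y.2, hy.1⟩, hy.2.1, hy.2.2, hy.2.2⟩) with h | h | h | h <;>
        rw [h] <;> decide)
    (fun j hj hne => by
      simp only [Finset.mem_insert, Finset.mem_singleton] at hj
      rcases hj with rfl | rfl | rfl | rfl
      · exact absurd rfl hne
      · have := cfg_main (tab_cardg tbN1_ok) tabN1_orb RN1L_mem cntN1 1
        simp only [one_smul] at this
        exact this
      · have := cfg_main (tab_cardg tbN2_ok) tabN2_orb RN2L_mem cntN2 1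
        simp only [one_smul] at this
        exact this
      · have := cfg_main (tab_cardg tbN3_ok) tabN3_orb RN3L_mem cntN3 1
        simp only [one_smul] at this
        exact this)
    rfl (by decide) ⟨0, by decide, by decide, by decide⟩
  obtain ⟨hs, hcs⟩ := simple_stab_of_M22L (MulAction.stabilizer Co0 VpM ⊓ MulAction.stabilizer Co0 WpM) X3L
    (fun g => by
      rw [mem_M22L_M]
      exact ⟨fun h => ⟨h.1.1, h.1.2, h.2⟩, fun h => ⟨⟨h.1, h.2.1⟩, h.2.2⟩⟩)
  have hidx : (MulAction.stabilizer ↥(MulAction.stabilizer Co0 VpM ⊓ MulAction.stabilizer Co0 WpM) X3L).index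
      = 2025 := by
    rw [MulAction.index_stabilizer, horb]
    exact hm.1
  have hcard : Nat.card ↥(MulAction.stabilizer Co0 VpM ⊓ MulAction.stabilizer Co0 WpM) = 898128000 := by
    rw [← Subgroup.index_mul_card (MulAction.stabilizer
      ↥(MulAction.stabilizer Co0 VpM ⊓ MulAction.stabilizer Co0 WpM) X3L), hidx, hcs]
  -- the action on 275 points
  obtain ⟨⟨_, nx1⟩, ex1, ex2, _⟩ := mem_S3.mp X1L_mem
  have hx1 : sqNorm (X1L : V) = 32 ∧ dotInt (UsE : V) (X1L : V) = 24 ∧ dotInt (VpL : V) (X1L : V) = 16 :=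
    ⟨nx1, ex1, ex2⟩
  have hm1 := mainE UsE VpL norm_UsE norm_Vp dot_UsVp
  obtain ⟨horb1, hco1, _⟩ := cfg_coatom (MulAction.stabilizer Co0 VpM ⊓ MulAction.stabilizer Co0 WpM)
    UsE VpL X1L (fun g => by
      constructor
      · rintro ⟨h1, h2⟩
        have h1' : g • VpM = VpM := h1
        have h2' : g • WpM = WpM := h2
        exact ⟨by rw [UsE_eq, Co0_add, h1', h2'], by rw [VpL_eq, h1']⟩
      · rintro ⟨h1, h2⟩
        rw [VpL_eq] at h2
        have e : WpM = UsE - VpM := by rw [UsE_eq, add_sub_cancel_right]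
        exact ⟨h2, show g • WpM = WpM by rw [e, Co0_sub, h1, h2]⟩) 24 16 {32, 8, 16}
    (fun j => if j = 32 then 1 else if j = 8 then 112 else 162) hx1
    (fun y hy => hm1.2 X1L y hx1 hy)
    (fun y hy => by
      rcases dotsG (y : V) (mem_S3.mpr ⟨⟨y.2, hy.1⟩, hy.2.1, hy.2.2, hy.2.2⟩) with h | h | h <;>
        rw [h] <;> decide)
    (fun j hj hne => by
      simp only [Finset.mem_insert, Finset.mem_singleton] at hj
      rcases hj with rfl | rfl | rfl
      · exact absurd rfl hne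
      · have := cfg_main (tab_cardg tbG1_ok) tabG1_orb RG1L_mem cntG1 1
        simp only [one_smul] at this
        exact this
      · have := cfg_main (tab_cardg tbG2_ok) tabG2_orb RG2L_mem cntG2 1
        simp only [one_smul] at this
        exact this)
    rfl (by decide) ⟨8, by decide, by decide, by decide⟩
  have hidx1 : (MulAction.stabilizer ↥(MulAction.stabilizer Co0 VpM ⊓ MulAction.stabilizer Co0 WpM) X1L).index
      = 275 := by
    rw [MulAction.index_stabilizer, horb1]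
    exact hm1.1
  have hcU : Nat.card (MulAction.stabilizer ↥(MulAction.stabilizer Co0 VpM ⊓ MulAction.stabilizer Co0 WpM) X1L)
      = 3265920 := by
    have := Subgroup.index_mul_card (MulAction.stabilizer
      ↥(MulAction.stabilizer Co0 VpM ⊓ MulAction.stabilizer Co0 WpM) X1L)
    rw [hidx1, hcard] at this
    omega
  refine ⟨simple_of_coatom _ hco hs hnn ?_, hcard⟩
  intro N hN _ hc
  rw [hidx] at hc
  by_cases hle : N ≤ MulAction.stabilizer ↥(MulAction.stabilizer Co0 VpM ⊓ MulAction.stabilizer Co0 WpM) X1L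
  · have := Subgroup.card_dvd_of_le hle
    rw [hc, hcU] at this
    revert this
    decide
  · have hsup : N ⊔ MulAction.stabilizer ↥(MulAction.stabilizer Co0 VpM ⊓ MulAction.stabilizer Co0 WpM) X1L
        = ⊤ := by
      apply hco1.2
      exact lt_of_le_of_ne le_sup_right (fun e => hle (by rw [e]; exact le_sup_left))
    have := index_dvd_of_sup_top N _ hN hsup
    rw [hidx1, hc] at this
    revert this
    decide


/-- Joint stabiliser of two minimal vectors with coordinate dot product −8 is simple of order 898128000. -/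
theorem result (v w : Cfsg.leechLattice) (hv : Cfsg.sqNorm (v : Cfsg.GolayPt → ℤ) = 32) (hw : Cfsg.sqNorm (w : Cfsg.GolayPt → ℤ) = 32) (hvw : Cfsg.dotInt (v : Cfsg.GolayPt → ℤ) (w : Cfsg.GolayPt → ℤ) = -8) : Cfsg.IsMcL ↥(MulAction.stabilizer Cfsg.Co0 v ⊓ MulAction.stabilizer Cfsg.Co0 w) := by
  obtain ⟨g, rfl, rfl⟩ : ∃ g0 : Co0, g0 • VpM = v ∧ g0 • WpM = w := by
    obtain ⟨ga, a1, a2⟩ := pair_trans Y_all.2.1 v w hv hw hvw
    obtain ⟨gb, b1, b2⟩ := pair_trans Y_all.2.1 VpM WpM norm_VpM norm_WpM dot_VpWp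
    exact ⟨ga * gb⁻¹, by rw [mul_smul, ← b1, inv_smul_smul, a1], by rw [mul_smul, ← b2, inv_smul_smul, a2]⟩
  obtain ⟨h1, h2⟩ := std
  exact ⟨(stab2Conj g VpM WpM).isSimpleGroup_congr.mp h1, by
    rw [← Nat.card_congr (stab2Conj g VpM WpM).toEquiv]; exact h2⟩

end Cfsg.Agent.S0404
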