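import Cfsg.Statements.S0405
import Cfsg.Agent.Lib_H9_SimpL
import Cfsg.Agent.Lib_H9_CfgH

set_option autoImplicit false
open Cfsg

namespace Cfsg.Agent.S0405

open Cfsg.Agent.H9

theorem std : IsHS ↥(MulAction.stabilizer Co0 UsF ⊓ MulAction.stabilizer Co0 WsL) := by
  have := finite_Co0
  obtain ⟨⟨_, nx⟩, dx1, dx2, _⟩ := mem_S3.mp X2L_mem
  have hx : sqNorm (X2L : V) = 32 ∧ dotInt (UsF : V) (X2L : V) = 24 ∧ dotInt (WsL : V) (X2L : V) = -24 :=
    ⟨nx, dx1, dx2⟩
  have hm := mainF UsF WsL norm_UsF norm_Ws dot_UsWs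
  obtain ⟨horb, hco, hnn⟩ := cfg_coatom (MulAction.stabilizer Co0 UsF ⊓ MulAction.stabilizer Co0 WsL)
    UsF WsL X2L (fun _ => Iff.rfl) 24 (-24) {32, 8, 16}
    (fun j => if j = 32 then 1 else if j = 8 then 22 else 77) hx (fun y hy => hm.2 X2L y hx hy)
    (fun y hy => by
      rcases dotsH (y : V) (mem_S3.mpr ⟨⟨y.2, hy.1⟩, hy.2.1, hy.2.2, hy.2.2⟩) with h | h | h <;> rw [h] <;> decide)
    (fun j hj hne => by
      simp only [Finset.mem_insert, Finset.mem_singleton] at hj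
      rcases hj with rfl | rfl | rfl
      · exact absurd rfl hne
      · have := cfg_main (tab_cardg tbH1_ok) tabH1_orb RH1L_mem cntH1 1
        simp only [one_smul] at this
        exact this
      · have := cfg_main (tab_cardg tbH2_ok) tabH2_orb RH2L_mem cntH2 1
        simp only [one_smul] at this
        exact this)
    rfl (by decide) ⟨8, by decide, by decide, by decide⟩
  obtain ⟨hs, hcs⟩ := simple_stab_of_M22L (MulAction.stabilizer Co0 UsF ⊓ MulAction.stabilizer Co0 WsL) X2L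
    (fun g => by
      rw [mem_M22L_F]
      exact ⟨fun h => ⟨h.1.1, h.1.2, h.2⟩, fun h => ⟨⟨h.1, h.2.1⟩, h.2.2⟩⟩)
  have hidx : (MulAction.stabilizer ↥(MulAction.stabilizer Co0 UsF ⊓ MulAction.stabilizer Co0 WsL) X2L).index
      = 100 := by
    rw [MulAction.index_stabilizer, horb]
    exact hm.1
  have hcard : Nat.card ↥(MulAction.stabilizer Co0 UsF ⊓ MulAction.stabilizer Co0 WsL) = 44352000 := by
    rw [← Subgroup.index_mul_card (MulAction.stabilizer
      ↥(MulAction.stabilizer Co0 UsF ⊓ MulAction.stabilizer Co0 WsL) X2L), hidx, hcs]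
  refine ⟨simple_of_coatom _ hco hs hnn ?_, hcard⟩
  intro N hN _ hc
  rw [hidx] at hc
  obtain ⟨P, hP, _, hPc⟩ := normal_25_of_100 N hN hc
  rcases normal_trichotomy _ hco hs hnn P hP with h | h | h
  · rw [h, Subgroup.card_bot] at hPc
    omega
  · rw [h, Subgroup.card_top, hcard] at hPc
    omega
  · rw [h.2, hidx] at hPc
    omega


/-- Joint stabiliser of two vectors of sum of squares 48 with coordinate dot product −32 is simple of order 44352000. -/
theorem result (v w : Cfsg.leechLattice) (hv : Cfsg.sqNorm (v : Cfsg.GolayPt → ℤ) = 48) (hw : Cfsg.sqNorm (w : Cfsg.GolayPt → ℤ) = 48) (hvw : Cfsg.dotInt (v : Cfsg.GolayPt → ℤ) (w : Cfsg.GolayPt → ℤ) = -32) : Cfsg.IsHS ↥(MulAction.stabilizer Cfsg.Co0 v ⊓ MulAction.stabilizer Cfsg.Co0 w) := by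
  obtain ⟨g, rfl, rfl⟩ := pair48 UsF WsL v w norm_UsF norm_Ws dot_UsWs hv hw hvw
  obtain ⟨h1, h2⟩ := std
  exact ⟨(stab2Conj g UsF WsL).isSimpleGroup_congr.mp h1, by
    rw [← Nat.card_congr (stab2Conj g UsF WsL).toEquiv]; exact h2⟩

end Cfsg.Agent.S0405
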