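import Cfsg.Statements.S0403
import Cfsg.Agent.S0405
import Cfsg.Agent.S0404
import Cfsg.Agent.Lib_H9_CfgK

set_option autoImplicit false
open Cfsg

namespace Cfsg.Agent.S0403

open Cfsg.Agent.H9

theorem no_normal_of_simple {G : Type*} [Group G] [Finite G] (M N : Subgroup G) (hM : IsSimpleGroup M)
    (hN : N.Normal) (h1 : Nat.card N < Nat.card M) (h2 : Nat.card G < Nat.card N * Nat.card M) : False := by
  have hn' : (N.subgroupOf M).Normal := hN.subgroupOf M
  rcases hM.eq_bot_or_eq_top_of_normal _ hn' with h | h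
  · rw [Subgroup.subgroupOf_eq_bot] at h
    have := card_mul_le_of_inf_bot N M (disjoint_iff.mp h)
    omega
  · rw [Subgroup.subgroupOf_eq_top] at h
    have := Nat.le_of_dvd Nat.card_pos (Subgroup.card_dvd_of_le h)
    omega

def stab1Conj {A X : Type*} [Group A] [MulAction A X] (g : A) (a : X) :
    ↥(MulAction.stabilizer A a) ≃* ↥(MulAction.stabilizer A (g • a)) where
  toFun h := ⟨g * h.1 * g⁻¹, by
    have h1 : h.1 • a = a := h.2
    exact show (g * h.1 * g⁻¹) • g • a = g • a by rw [mul_smul, mul_smul, inv_smul_smul, h1]⟩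
  invFun h := ⟨g⁻¹ * h.1 * g, by
    have h1 : h.1 • g • a = g • a := h.2
    exact show (g⁻¹ * h.1 * g) • a = a by rw [mul_smul, mul_smul, h1, inv_smul_smul]⟩
  left_inv h := Subtype.ext (by simp [mul_assoc])
  right_inv h := Subtype.ext (by simp [mul_assoc])
  map_mul' h k := Subtype.ext (by simp [mul_assoc])

theorem UsL_eq : UsL = UsF := rfl

theorem XsL_eq : XsL = -UsF - WsL := by
  apply Subtype.ext
  funext p
  have h : ∀ k, k < 24 → (fl4 rtD k : ℤ) - 8 = -((fl4 faF k : ℤ) - 8) - ((fl4 fbF k : ℤ) - 8) := by decide +kernel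
  exact h _ (idx_lt p)

theorem std : IsCo3 ↥(MulAction.stabilizer Co0 UsL) := by
  have := finite_Co0
  obtain ⟨⟨_, nx⟩, dx1, _, _⟩ := mem_S3.mp XsL_mem
  have hx : sqNorm (XsL : V) = 32 ∧ dotInt (UsL : V) (XsL : V) = -16 ∧ dotInt (UsL : V) (XsL : V) = -16 :=
    ⟨nx, dx1, dx1⟩
  have hm := mainD UsL norm_Us
  obtain ⟨horb, hco, hnn⟩ := cfg_coatom (MulAction.stabilizer Co0 UsL)
    UsL UsL XsL (fun g => ⟨fun h => ⟨h, h⟩, fun h => h.1⟩) (-16) (-16) {32, -8, 16, 0, 8}
    (fun j => if j = 32 then 1 else if j = -8 then 352 else if j = 16 then 1100 else if j = 0 then 4125 else 5600)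
    hx
    (fun y hy => by
      obtain ⟨g, h1, h2⟩ := hm.2 XsL y ⟨hx.1, hx.2.1⟩ ⟨hy.1, hy.2.1⟩
      exact ⟨g, h1, h1, h2⟩)
    (fun y hy => by
      rcases dotsK (y : V) (mem_S3.mpr ⟨⟨y.2, hy.1⟩, hy.2.1, hy.2.2, hy.2.2⟩) with h | h | h | h | h <;>
        rw [h] <;> decide)
    (fun j hj hne => by
      simp only [Finset.mem_insert, Finset.mem_singleton] at hj
      rcases hj with rfl | rfl | rfl | rfl | rfl
      · exact absurd rfl hne
      · have := cfg_main (tab_cardg tbK1_ok) tabK1_orb RK1L_mem cntK1 1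
        simp only [one_smul] at this
        exact this
      · have := cfg_main (tab_cardg tbK2_ok) tabK2_orb RK2L_mem cntK2 1
        simp only [one_smul] at this
        exact this
      · have := cfg_main (tab_cardg tbK3_ok) tabK3_orb RK3L_mem cntK3 1
        simp only [one_smul] at this
        exact this
      · have := cfg_main (tab_cardg tbK4_ok) tabK4_orb RK4L_mem cntK4 1
        simp only [one_smul] at this
        exact this)
    rfl (by decide) ⟨0, by decide, by decide, by decide⟩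
  -- the point stabiliser is the Higman-Sims group
  have hKH : MulAction.stabilizer Co0 UsL ⊓ MulAction.stabilizer Co0 XsL =
      MulAction.stabilizer Co0 UsF ⊓ MulAction.stabilizer Co0 WsL := by
    ext g
    constructor
    · rintro ⟨h1, h2⟩
      have h1' : g • UsF = UsF := h1
      have h2' : g • XsL = XsL := h2
      have e : WsL = -UsF - XsL := by rw [XsL_eq]; abel
      exact ⟨h1, show g • WsL = WsL by rw [e, Co0_sub, Co0_neg, h1', h2']⟩
    · rintro ⟨h1, h2⟩
      have h1' : g • UsF = UsF := h1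
      have h2' : g • WsL = WsL := h2
      exact ⟨h1, show g • XsL = XsL by rw [XsL_eq, Co0_sub, Co0_neg, h1', h2']⟩
  have hs : IsSimpleGroup ↥(MulAction.stabilizer ↥(MulAction.stabilizer Co0 UsL) XsL) := by
    rw [(stabSubEquiv (MulAction.stabilizer Co0 UsL) XsL).isSimpleGroup_congr, hKH]
    exact S0405.std.1
  have hcs : Nat.card ↥(MulAction.stabilizer ↥(MulAction.stabilizer Co0 UsL) XsL) = 44352000 := by
    rw [Nat.card_congr (stabSubEquiv (MulAction.stabilizer Co0 UsL) XsL).toEquiv, hKH]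
    exact S0405.std.2
  have hidx : (MulAction.stabilizer ↥(MulAction.stabilizer Co0 UsL) XsL).index = 11178 := by
    rw [MulAction.index_stabilizer, horb, ← hm.1]
    congr 1
    ext y
    exact ⟨fun h => ⟨h.1, h.2.1⟩, fun h => ⟨h.1, h.2, h.2⟩⟩
  have hcard : Nat.card ↥(MulAction.stabilizer Co0 UsL) = 495766656000 := by
    rw [← Subgroup.index_mul_card (MulAction.stabilizer ↥(MulAction.stabilizer Co0 UsL) XsL), hidx, hcs]
  -- the McLaughlin subgroup
  have hKM : MulAction.stabilizer Co0 UsL ⊓ MulAction.stabilizer Co0 VpM =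
      MulAction.stabilizer Co0 VpM ⊓ MulAction.stabilizer Co0 WpM := by
    ext g
    have eU : UsL = WpM + VpM := S0404.UsE_eq
    constructor
    · rintro ⟨h1, h2⟩
      have h1' : g • UsL = UsL := h1
      have h2' : g • VpM = VpM := h2
      have e : WpM = UsL - VpM := by rw [eU, add_sub_cancel_right]
      exact ⟨h2, show g • WpM = WpM by rw [e, Co0_sub, h1', h2']⟩
    · rintro ⟨h1, h2⟩
      have h1' : g • VpM = VpM := h1
      have h2' : g • WpM = WpM := h2
      exact ⟨show g • UsL = UsL by rw [eU, Co0_add, h1', h2'], h1⟩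
  have hsM : IsSimpleGroup ↥(MulAction.stabilizer ↥(MulAction.stabilizer Co0 UsL) VpM) := by
    rw [(stabSubEquiv (MulAction.stabilizer Co0 UsL) VpM).isSimpleGroup_congr, hKM]
    exact S0404.std.1
  have hcM : Nat.card ↥(MulAction.stabilizer ↥(MulAction.stabilizer Co0 UsL) VpM) = 898128000 := by
    rw [Nat.card_congr (stabSubEquiv (MulAction.stabilizer Co0 UsL) VpM).toEquiv, hKM]
    exact S0404.std.2
  refine ⟨simple_of_coatom _ hco hs hnn ?_, hcard⟩
  intro N hN _ hc
  rw [hidx] at hc
  exact no_normal_of_simple _ N hsM hN (by rw [hc, hcM]; norm_num) (by rw [hc, hcM, hcard]; norm_num)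


/-- Stabiliser of a vector of sum of squares 48 is simple of order 495766656000. -/
theorem result (v : Cfsg.leechLattice) (hv : Cfsg.sqNorm (v : Cfsg.GolayPt → ℤ) = 48) : Cfsg.IsCo3 (MulAction.stabilizer Cfsg.Co0 v) := by
  obtain ⟨g, rfl⟩ := trans33 UsL v norm_Us hv
  obtain ⟨h1, h2⟩ := std
  exact ⟨(stab1Conj g UsL).isSimpleGroup_congr.mp h1, by
    rw [← Nat.card_congr (stab1Conj g UsL).toEquiv]; exact h2⟩

end Cfsg.Agent.S0403
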