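import Cfsg.Statements.S0402
import Cfsg.Agent.S0403
import Cfsg.Agent.Lib_H9_SimpG2
import Cfsg.Agent.Lib_H9_CfgP

set_option autoImplicit false
open Cfsg

namespace Cfsg.Agent.S0402

open Cfsg.Agent.H9

set_option maxRecDepth 100000 in
theorem arith : ∀ J ∈ ({32, 16, -16, 8, 0, -8} : Finset ℤ).powerset, (32 : ℤ) ∈ J →
    (∑ j ∈ J, (fun j : ℤ => if j = 32 then 1 else if j = 16 then 2025 else if j = -16 then 275 else
      if j = 8 then 15400 else if j = 0 then 22275 else 7128) j) ∣
    (∑ j ∈ ({32, 16, -16, 8, 0, -8} : Finset ℤ), (fun j : ℤ => if j = 32 then 1 else if j = 16 then 2025 else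
      if j = -16 then 275 else if j = 8 then 15400 else if j = 0 then 22275 else 7128) j) →
    J = {32} ∨ J = {32, 16, -16, 8, 0, -8} := by decide +kernel

theorem std : IsCo2 ↥(MulAction.stabilizer Co0 VpM) := by
  have := finite_Co0
  obtain ⟨⟨_, nx⟩, dx1, _, _⟩ := mem_S3.mp WpM_memQ
  have hx : sqNorm (WpM : V) = 32 ∧ dotInt (VpM : V) (WpM : V) = -8 ∧ dotInt (VpM : V) (WpM : V) = -8 :=
    ⟨nx, dx1, dx1⟩
  have hm := cfg1 (tab_cardg tbQ_ok) tabQ_orb WpM_memQ cntQ 1
  simp only [one_smul] at hm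
  obtain ⟨horb, hco, hnn⟩ := cfg_coatom (MulAction.stabilizer Co0 VpM)
    VpM VpM WpM (fun g => ⟨fun h => ⟨h, h⟩, fun h => h.1⟩) (-8) (-8) {32, 16, -16, 8, 0, -8}
    (fun j => if j = 32 then 1 else if j = 16 then 2025 else if j = -16 then 275 else
      if j = 8 then 15400 else if j = 0 then 22275 else 7128)
    hx
    (fun y hy => by
      obtain ⟨g, h1, h2⟩ := hm.2 WpM y ⟨hx.1, hx.2.1⟩ ⟨hy.1, hy.2.1⟩
      exact ⟨g, h1, h1, h2⟩)
    (fun y hy => by
      rcases dotsP (y : V) (mem_S3.mpr ⟨⟨y.2, hy.1⟩, hy.2.1, hy.2.2, hy.2.2⟩) with h | h | h | h | h | h <;>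
        rw [h] <;> decide)
    (fun j hj hne => by
      simp only [Finset.mem_insert, Finset.mem_singleton] at hj
      rcases hj with rfl | rfl | rfl | rfl | rfl | rfl
      · exact absurd rfl hne
      · have := cfg_main (tab_cardg tbP1_ok) tabP1_orb RP1L_mem cntP1 1
        simp only [one_smul] at this
        exact this
      · have := cfg_main (tab_cardg tbP2_ok) tabP2_orb RP2L_mem cntP2 1
        simp only [one_smul] at this
        exact this
      · have := cfg_main (tab_cardg tbP3_ok) tabP3_orb RP3L_mem cntP3 1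
        simp only [one_smul] at this
        exact this
      · have := cfg_main (tab_cardg tbP4_ok) tabP4_orb RP4L_mem cntP4 1
        simp only [one_smul] at this
        exact this
      · have := cfg_main (tab_cardg tbP5_ok) tabP5_orb RP5L_mem cntP5 1
        simp only [one_smul] at this
        exact this)
    rfl arith ⟨0, by decide, by decide, by decide⟩
  have hs : IsSimpleGroup ↥(MulAction.stabilizer ↥(MulAction.stabilizer Co0 VpM) WpM) := by
    rw [(stabSubEquiv (MulAction.stabilizer Co0 VpM) WpM).isSimpleGroup_congr]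
    exact S0404.std.1
  have hcs : Nat.card ↥(MulAction.stabilizer ↥(MulAction.stabilizer Co0 VpM) WpM) = 898128000 := by
    rw [Nat.card_congr (stabSubEquiv (MulAction.stabilizer Co0 VpM) WpM).toEquiv]
    exact S0404.std.2
  have hidx : (MulAction.stabilizer ↥(MulAction.stabilizer Co0 VpM) WpM).index = 47104 := by
    rw [MulAction.index_stabilizer, horb, ← hm.1]
    congr 1
    ext y
    exact ⟨fun h => ⟨h.1, h.2.1⟩, fun h => ⟨h.1, h.2, h.2⟩⟩
  have hcard : Nat.card ↥(MulAction.stabilizer Co0 VpM) = 42305421312000 := by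
    rw [← Subgroup.index_mul_card (MulAction.stabilizer ↥(MulAction.stabilizer Co0 VpM) WpM), hidx, hcs]
  -- a Higman-Sims subgroup
  obtain ⟨⟨_, nXs⟩, _, _, _⟩ := mem_S3.mp XsL_mem
  obtain ⟨g, hg⟩ := trans2 XsL VpM nXs norm_VpM
  have hV : VpM = -(g • UsF) - g • WsL := by
    rw [← hg, S0403.XsL_eq, Co0_sub, Co0_neg]
  have hKH : MulAction.stabilizer Co0 VpM ⊓ MulAction.stabilizer Co0 (g • UsF) =
      MulAction.stabilizer Co0 (g • UsF) ⊓ MulAction.stabilizer Co0 (g • WsL) := by
    ext k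
    constructor
    · rintro ⟨h1, h2⟩
      have h1' : k • VpM = VpM := h1
      have h2' : k • g • UsF = g • UsF := h2
      have e : g • WsL = -(g • UsF) - VpM := by rw [hV]; abel
      exact ⟨h2, show k • g • WsL = g • WsL by rw [e, Co0_sub, Co0_neg, h1', h2']⟩
    · rintro ⟨h1, h2⟩
      have h1' : k • g • UsF = g • UsF := h1
      have h2' : k • g • WsL = g • WsL := h2
      exact ⟨show k • VpM = VpM by rw [hV, Co0_sub, Co0_neg, h1', h2'], h1⟩
  have hHS := S0405.result (g • UsF) (g • WsL) (by rw [Co0_norm]; exact norm_UsF)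
    (by rw [Co0_norm]; exact norm_Ws) (by rw [Co0_dot]; exact dot_UsWs)
  have hsM : IsSimpleGroup ↥(MulAction.stabilizer ↥(MulAction.stabilizer Co0 VpM) (g • UsF)) := by
    rw [(stabSubEquiv (MulAction.stabilizer Co0 VpM) (g • UsF)).isSimpleGroup_congr, hKH]
    exact hHS.1
  have hcM : Nat.card ↥(MulAction.stabilizer ↥(MulAction.stabilizer Co0 VpM) (g • UsF)) = 44352000 := by
    rw [Nat.card_congr (stabSubEquiv (MulAction.stabilizer Co0 VpM) (g • UsF)).toEquiv, hKH]
    exact hHS.2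
  refine ⟨simple_of_coatom _ hco hs hnn ?_, hcard⟩
  intro N hN _ hc
  rw [hidx] at hc
  exact no_normal_of_simple_dvd _ N hsM hN (by rw [hc, hcM]; norm_num) (by rw [hc, hcM, hcard]; norm_num)


/-- Stabiliser of a minimal vector is simple of order 42305421312000. -/
theorem result (v : Cfsg.leechLattice) (hv : Cfsg.sqNorm (v : Cfsg.GolayPt → ℤ) = 32) : Cfsg.IsCo2 (MulAction.stabilizer Cfsg.Co0 v) := by
  obtain ⟨g, rfl⟩ := trans2 VpM v norm_VpM hv
  obtain ⟨h1, h2⟩ := std
  exact ⟨(S0403.stab1Conj g VpM).isSimpleGroup_congr.mp h1, by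
    rw [← Nat.card_congr (S0403.stab1Conj g VpM).toEquiv]; exact h2⟩

end Cfsg.Agent.S0402
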