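import Cfsg.Statements.S0399
import Cfsg.Agent.S0402
import Cfsg.Agent.Lib_H9_Co1a

set_option autoImplicit false
open Cfsg

namespace Cfsg.Agent.S0399

open Cfsg.Agent.H9

theorem SS_not_normal : ¬ SS.Normal := by
  intro hN
  obtain ⟨g, hg⟩ := link_B
  have hcard : 1 < (Y (-8)).card := by rw [Y_all.2.2.2.2.1]; norm_num
  obtain ⟨w', hw', hne⟩ := Finset.exists_mem_ne hcard (rBL : V)
  obtain ⟨hwL, hwn, hwd⟩ := mem_Y.mp hw'
  obtain ⟨h, h1, h2⟩ := transT rBL ⟨w', hwL⟩ norm_rB hwn (by rw [dot_rB]; exact hwd.symm)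
  have hmem : g⁻¹ * h * g⁻¹⁻¹ ∈ SS := hN.conj_mem h (Or.inl h1) g⁻¹
  rw [inv_inv] at hmem
  rcases hmem with e | e
  · rw [mul_smul, mul_smul, hg, h2, inv_smul_eq_iff, hg] at e
    exact hne (congrArg Subtype.val e)
  · rw [mul_smul, mul_smul, hg, h2, inv_smul_eq_iff, Co0_neg, hg] at e
    have h3 := congrArg (fun t : leechLattice => dotInt (v0L : V) (t : V)) e
    simp only [neg_coe, dotInt_neg_right, dot_rB] at h3
    rw [hwd] at h3
    norm_num at h3

theorem v0_ne_neg : v0L ≠ -v0L := by
  intro e
  have h3 := congrArg (fun t : leechLattice => dotInt (v0L : V) (t : V)) e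
  simp only [neg_coe, dotInt_neg_right, dotInt_self, norm_v0] at h3
  norm_num at h3

theorem card_SS : Nat.card SS = 2 * Nat.card (MulAction.stabilizer Co0 v0L) := by
  have h := card_inf_stab SS v0L
  rw [inf_eq_right.mpr stab_le_SS] at h
  have horb : MulAction.orbit SS v0L = {v0L, -v0L} := by
    ext y
    constructor
    · rintro ⟨⟨g, hg⟩, rfl⟩
      rcases hg with e | e
      · left; exact e
      · right; exact e
    · rintro (rfl | rfl)
      · exact MulAction.mem_orbit_self _
      · exact ⟨⟨negC, negC_mem_SS⟩, negC_smul _⟩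
  rw [horb, Set.ncard_pair v0_ne_neg] at h
  exact h

theorem main (N : Subgroup Co0) (hN : N.Normal) (hZ : Subgroup.center Co0 ≤ N) :
    N = Subgroup.center Co0 ∨ N = ⊤ := by
  have := finite_Co0
  obtain ⟨hHs, hHc⟩ := S0402.result v0L norm_v0
  have hneg : negC ∈ N := hZ negC_center
  have hn' : (N.subgroupOf (MulAction.stabilizer Co0 v0L)).Normal := hN.subgroupOf _
  rcases hHs.eq_bot_or_eq_top_of_normal _ hn' with h | h
  · rw [Subgroup.subgroupOf_eq_bot] at h
    have hinf : N ⊓ MulAction.stabilizer Co0 v0L = ⊥ := disjoint_iff.mp h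
    by_cases hle : N ≤ SS
    · left
      apply le_antisymm _ hZ
      intro n hn
      rcases SS_cases (hle hn) with e | e
      · have h1 : n ∈ N ⊓ MulAction.stabilizer Co0 v0L := ⟨hn, e⟩
        rw [hinf, Subgroup.mem_bot] at h1
        rw [h1]; exact Subgroup.one_mem _
      · have h1 : negC * n ∈ N ⊓ MulAction.stabilizer Co0 v0L := ⟨N.mul_mem hneg hn, e⟩
        rw [hinf, Subgroup.mem_bot] at h1
        have h2 : n = negC⁻¹ := eq_inv_of_mul_eq_one_right h1
        rw [h2]; exact Subgroup.inv_mem _ negC_center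
    · exfalso
      have hsup : N ⊔ SS = ⊤ :=
        SS_coatom.2 _ (lt_of_le_of_ne le_sup_right (fun e => hle (by rw [e]; exact le_sup_left)))
      have h1 := index_dvd_of_sup_top N SS hN hsup
      have hidx : SS.index = 98280 := by
        have h0 := SS.index_mul_card
        rw [card_SS, hHc, card_Co0] at h0
        have h00 : SS.index * (2 * 42305421312000) = 98280 * (2 * 42305421312000) := h0.trans (by norm_num)
        exact Nat.eq_of_mul_eq_mul_right (by norm_num) h00
      rw [hidx] at h1
      obtain ⟨hMs, hMc⟩ := S0403.result UsL norm_Us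
      have hn2 : (N.subgroupOf (MulAction.stabilizer Co0 UsL)).Normal := hN.subgroupOf _
      have hd1 := card_mul_dvd_of_inf_bot N _ hN hinf
      rcases hMs.eq_bot_or_eq_top_of_normal _ hn2 with h2 | h2
      · rw [Subgroup.subgroupOf_eq_bot] at h2
        have hd2 := card_mul_dvd_of_inf_bot N _ hN (disjoint_iff.mp h2)
        rw [hMc, card_Co0] at hd2
        have h4 := (Nat.mul_dvd_mul_right h1 _).trans hd2
        revert h4
        norm_num
      · rw [Subgroup.subgroupOf_eq_top] at h2
        have h3 := Subgroup.card_dvd_of_le h2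
        rw [hMc] at h3
        rw [hHc, card_Co0] at hd1
        have h4 := (Nat.mul_dvd_mul_right h3 _).trans hd1
        revert h4
        norm_num
  · rw [Subgroup.subgroupOf_eq_top] at h
    right
    have hSN : SS ≤ N := by
      intro g hg
      rcases SS_cases hg with e | e
      · exact h e
      · have h1 := N.mul_mem (N.inv_mem hneg) (h e)
        rwa [inv_mul_cancel_left] at h1
    rcases eq_or_lt_of_le hSN with e | l
    · exact absurd (e ▸ hN) SS_not_normal
    · exact SS_coatom.2 _ l


/-- Automorphism group of the lattice modulo its centre is simple of order 4157776806543360000. -/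
theorem result : Cfsg.IsCo1 (Cfsg.Co0 ⧸ Subgroup.center Cfsg.Co0) := by
  refine ⟨simple_quotient _ ?_ main, ?_⟩
  · intro h
    have h1 := S0398.result
    rw [h, Subgroup.card_top, card_Co0] at h1
    norm_num at h1
  · have h1 := Subgroup.card_eq_card_quotient_mul_card_subgroup (Subgroup.center Co0)
    rw [card_Co0, S0398.result] at h1
    have h00 : Nat.card (Co0 ⧸ Subgroup.center Co0) * 2 = 4157776806543360000 * 2 := h1.symm.trans (by norm_num)
    exact Nat.eq_of_mul_eq_mul_right (by norm_num) h00

end Cfsg.Agent.S0399
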