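import Mathlib
import Cfsg.Statements.S0427
import Cfsg.Agent.Lib_helper1_Steiner3

set_option autoImplicit false
open Cfsg

namespace Cfsg.Agent.S0427

open Cfsg.Agent.H1 Finset in

/-- The block graph (adjacent = disjoint) of an S(3, 6, 22) is strongly regular with parameters (77, 16, 0, 4). -/
theorem result {α : Type*} [Fintype α] (hα : Fintype.card α = 22) {B : Set (Finset α)} (hB : Cfsg.IsSteinerSystem 3 6 B) [Fintype B] [DecidableRel (Cfsg.blockGraph B).Adj] : (Cfsg.blockGraph B).IsSRGWith 77 16 0 4 := by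
  classical
  have hadj : ∀ v w : ↥B, (Cfsg.blockGraph B).Adj v w ↔ Disjoint (v : Finset α) (w : Finset α) := by
    intro v w
    rw [Cfsg.blockGraph, SimpleGraph.fromRel_adj]
    constructor
    · rintro ⟨-, h | h⟩
      · exact h
      · exact h.symm
    · intro h
      refine ⟨?_, Or.inl h⟩
      intro hvw
      rw [hvw, disjoint_self_iff_empty] at h
      have := hB.1 w w.2
      rw [h] at this
      simp at this
  have hcommon : ∀ v w : ↥B, Fintype.card ((Cfsg.blockGraph B).commonNeighbors v w) =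
      cnt B ∅ ((v : Finset α) ∪ w) 0 := by
    intro v w
    rw [card_eq_ncard_image, cnt_eq_ncard]
    congr 1
    ext d
    simp only [Set.mem_image, SimpleGraph.mem_commonNeighbors, hadj, Set.mem_setOf_eq, empty_subset,
      true_and, card_eq_zero, ← disjoint_iff_inter_eq_empty, disjoint_union_right]
    constructor
    · rintro ⟨u, ⟨h1, h2⟩, rfl⟩
      exact ⟨u.2, h1.symm, h2.symm⟩
    · rintro ⟨h1, h2, h3⟩
      exact ⟨⟨d, h1⟩, ⟨h2.symm, h3.symm⟩, rfl⟩
  refine ⟨?_, ?_, ?_, ?_⟩
  · rw [Fintype.card_of_subtype (blocks B) (fun x => mem_blocks)]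
    exact s3622_card hα hB
  · intro v
    rw [← SimpleGraph.card_neighborSet_eq_degree, card_eq_ncard_image,
      ← (s3622_cnt hα hB v.2).1, cnt_eq_ncard]
    congr 1
    ext d
    simp only [Set.mem_image, SimpleGraph.mem_neighborSet, hadj, Set.mem_setOf_eq, empty_subset,
      true_and, card_eq_zero, ← disjoint_iff_inter_eq_empty]
    constructor
    · rintro ⟨u, h1, rfl⟩
      exact ⟨u.2, h1.symm⟩
    · rintro ⟨h1, h2⟩
      exact ⟨⟨d, h1⟩, h2.symm, rfl⟩
  · intro v w hvw
    rw [hcommon]
    exact s3622_disjoint hα hB v.2 w.2 ((hadj v w).mp hvw)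
  · intro v w hne hvw
    rw [hcommon]
    exact s3622_meeting hα hB v.2 w.2 (fun h => hne (Subtype.ext h)) (fun h => hvw ((hadj v w).mpr h))

end Cfsg.Agent.S0427
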