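import Mathlib
import Cfsg.Statements.S0439

set_option autoImplicit false
open Cfsg

namespace Cfsg.Agent.S0439

theorem same_case {α : Type*} [Fintype α] [DecidableEq α] (a b c : α) (hab : a ≠ b) (hac : a ≠ c) :
    (Equiv.swap a b * Equiv.swap a c) ^ 2 = 1 ∨ (Equiv.swap a b * Equiv.swap a c) ^ 3 = 1 := by
  by_cases hbc : b = c
  · subst hbc
    left
    simp
  · right
    have h := (Equiv.Perm.isThreeCycle_swap_mul_swap_same hab hac hbc).orderOf
    rw [← h]
    exact pow_orderOf_eq_one _

/-- In the symmetric group of degree n ≥ 2, the set of transpositions is a conjugacy class of 3-transpositions which generates the group. -/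
theorem result (n : ℕ) (hn : 2 ≤ n) : Cfsg.IsThreeTranspositionClass {σ : Equiv.Perm (Fin n) | σ.IsSwap} := by
  classical
  refine ⟨⟨?_, ?_⟩, ?_, Equiv.Perm.closure_isSwap⟩
  · intro d hd
    exact Equiv.Perm.IsSwap.orderOf hd
  · rintro d ⟨a, b, hab, rfl⟩ e ⟨c, f, hcf, rfl⟩
    by_cases h1 : a = c
    · subst h1
      exact same_case a b f hab hcf
    by_cases h2 : a = f
    · subst h2
      rw [Equiv.swap_comm c a]
      exact same_case a b c hab hcf.symm
    by_cases h3 : b = c
    · subst h3
      rw [Equiv.swap_comm a b]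
      exact same_case b a f hab.symm hcf
    by_cases h4 : b = f
    · subst h4
      rw [Equiv.swap_comm a b, Equiv.swap_comm c b]
      exact same_case b a c hab.symm hcf.symm
    left
    have hd : Equiv.Perm.Disjoint (Equiv.swap a b) (Equiv.swap c f) := by
      apply Equiv.Perm.disjoint_swap_swap
      simp [hab, h1, h2, h3, h4, hcf]
    rw [hd.commute.mul_pow]
    simp [sq]
  · obtain ⟨m, rfl⟩ : ∃ m, n = m + 2 := ⟨n - 2, by omega⟩
    have h01 : (0 : Fin (m + 2)) ≠ 1 := by
      intro h
      have := congrArg Fin.val h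
      simp at this
    refine ⟨Equiv.swap 0 1, ⟨0, 1, h01, rfl⟩, ?_⟩
    ext σ
    show σ.IsSwap ↔ IsConj (Equiv.swap 0 1) σ
    constructor
    · rintro ⟨a, b, hab, rfl⟩
      exact Equiv.Perm.isConj_swap h01 hab
    · intro h
      obtain ⟨c, hc⟩ := isConj_iff.1 h
      rw [← hc, ← Equiv.swap_apply_apply]
      exact ⟨c 0, c 1, fun h => h01 (c.injective h), rfl⟩

end Cfsg.Agent.S0439
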