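import Cfsg.Statements.S0440
import Cfsg.Agent.Lib_helper6_ThreeTransp

set_option autoImplicit false
open Cfsg

namespace Cfsg.Agent.S0440

/-- In the symplectic group in dimension 2n ≥ 2 over the field with two elements, the elements g for which g - 1 has rank one (the symplectic transvections) form a conjugacy class of 3-transpositions generating the group. -/
theorem result (n : ℕ) (hn : 1 ≤ n) : Cfsg.IsThreeTranspositionClass {g : Matrix.symplecticGroup (Fin n) (ZMod 2) | ((g : Matrix (Fin n ⊕ Fin n) (Fin n ⊕ Fin n) (ZMod 2)) - 1).rank = 1} := by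
  classical
  have hB := H6.sympB_nondegenerate (m := n) (F := ZMod 2)
  have hA := H6.sympB_isAlt (m := n) (F := ZMod 2)
  have hF : ∀ c : ZMod 2, c = 0 ∨ c = 1 := by decide
  have hmain := H6.Alt.threeTransp hF hB hA (H6.Alt.Isom (H6.sympB n (ZMod 2))) le_rfl {v | v ≠ 0}
    ⟨Pi.single (Sum.inl ⟨0, by omega⟩) 1, by
      intro h
      have := congrFun h (Sum.inl ⟨0, by omega⟩)
      simp at this⟩
    (fun v hv => ⟨fun _ => hv, fun _ => H6.Alt.transv_mem hA v 1⟩) (fun v hv => hv)
    (fun u hu v hv => by
      obtain ⟨k, hk, -, hkv⟩ := H6.Alt.exists_fix_map hB hA ⊥ (x := v) (y := u) (by simpa using hv)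
        (by simpa using hu) (by
          intro y hy
          rw [(Submodule.mem_bot _).mp hy]; simp)
      exact ⟨k, hk, hkv⟩)
    (H6.Alt.le_of_transv hB hA _ (fun v c => by
      by_cases hv : v = 0
      · subst hv
        have : H6.Alt.transv hA 0 c = 1 := by
          ext1 x
          rw [H6.Alt.transv_apply]; simp
        rw [this]; exact one_mem _
      rcases hF c with rfl | rfl
      · rw [H6.Alt.transv_zero]; exact one_mem _
      · exact Subgroup.subset_closure ⟨v, hv, rfl⟩))
  refine H6.isThreeTranspositionClass_of_equiv H6.sympEquivIsom _ _ (fun g => ?_) hmain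
  rw [Set.mem_ofPred_eq, Set.mem_ofPred_eq, H6.rank_sub_one_eq _ _ (H6.sympEquivIsom_apply g)]

end Cfsg.Agent.S0440
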