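import Mathlib
import Cfsg.Statements.S0442
import Mathlib

set_option autoImplicit false
open Cfsg

namespace Cfsg.Agent.S0442

theorem conj_left {G : Type*} [Group G] {a b : G} (ha : a * a = 1) (hb : b * b = 1) (n : ℕ) :
    a * (a * b) ^ n * a⁻¹ = ((a * b) ^ n)⁻¹ := by
  rw [← conj_pow, ← inv_pow]
  congr 1
  have h1 : a⁻¹ = a := inv_eq_of_mul_eq_one_left ha
  have h2 : b⁻¹ = b := inv_eq_of_mul_eq_one_left hb
  rw [mul_inv_rev, h1, h2, ← mul_assoc, ha, one_mul]

theorem conj_right {G : Type*} [Group G] {a b : G} (ha : a * a = 1) (hb : b * b = 1) (n : ℕ) :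
    b * (a * b) ^ n * b⁻¹ = ((a * b) ^ n)⁻¹ := by
  rw [← conj_pow, ← inv_pow]
  congr 1
  have h1 : a⁻¹ = a := inv_eq_of_mul_eq_one_left ha
  have h2 : b⁻¹ = b := inv_eq_of_mul_eq_one_left hb
  rw [mul_inv_rev, h1, h2, mul_assoc, mul_assoc, hb, mul_one]

theorem commute_half {G : Type*} [Group G] {a b : G} (ha : a * a = 1) (hb : b * b = 1) (m : ℕ)
    (h : (a * b) ^ (2 * m) = 1) : Commute ((a * b) ^ m) a := by
  have h1 := conj_left ha hb m
  have h2 : ((a * b) ^ m)⁻¹ = (a * b) ^ m := by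
    apply inv_eq_of_mul_eq_one_left
    rw [← pow_add, ← two_mul, h]
  rw [h2] at h1
  have h3 : a * (a * b) ^ m = (a * b) ^ m * a := by
    calc a * (a * b) ^ m = (a * (a * b) ^ m * a⁻¹) * a := by group
      _ = (a * b) ^ m * a := by rw [h1]
  exact h3.symm

/-- A standard trick for producing elements of an involution centraliser: for an involution a and an element g, let b be the conjugate g⁻¹ * a * g. If a * b has odd order 2m + 1 then g * (a * b) ^ m commutes with a; if a * b has even order 2m then (a * b) ^ m and (a * (g * a * g⁻¹)) ^ m commute with a. -/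
theorem result {G : Type*} [Group G] (a g : G) (ha : orderOf a = 2) : (∀ m : ℕ, orderOf (a * (g⁻¹ * a * g)) = 2 * m + 1 → Commute (g * (a * (g⁻¹ * a * g)) ^ m) a) ∧ (∀ m : ℕ, orderOf (a * (g⁻¹ * a * g)) = 2 * m → Commute ((a * (g⁻¹ * a * g)) ^ m) a ∧ Commute ((a * (g * a * g⁻¹)) ^ m) a) := by
  have ha2 : a * a = 1 := by rw [← sq, ← ha, pow_orderOf_eq_one]
  have hb2 : (g⁻¹ * a * g) * (g⁻¹ * a * g) = 1 := by
    calc (g⁻¹ * a * g) * (g⁻¹ * a * g) = g⁻¹ * (a * a) * g := by group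
      _ = 1 := by rw [ha2]; group
  have hb2' : (g * a * g⁻¹) * (g * a * g⁻¹) = 1 := by
    calc (g * a * g⁻¹) * (g * a * g⁻¹) = g * (a * a) * g⁻¹ := by group
      _ = 1 := by rw [ha2]; group
  have hai : a⁻¹ = a := inv_eq_of_mul_eq_one_left ha2
  constructor
  · intro m hm
    set b := g⁻¹ * a * g with hb
    have hbi : b⁻¹ = b := inv_eq_of_mul_eq_one_left hb2
    have h1 := conj_right ha2 hb2 m
    have h2 : (a * b) ^ (2 * m + 1) = 1 := by rw [← hm, pow_orderOf_eq_one]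
    have h3 : b * (a * b) ^ m = ((a * b) ^ m)⁻¹ * b := by
      calc b * (a * b) ^ m = (b * (a * b) ^ m * b⁻¹) * b := by group
        _ = ((a * b) ^ m)⁻¹ * b := by rw [h1]
    have h4 : a * g = g * b := by rw [hb]; group
    have h5 : (a * b) ^ m * a = ((a * b) ^ m)⁻¹ * b := by
      have h6 : (a * b) ^ m * (a * b) ^ m * (a * b) = 1 := by
        rw [← pow_add, ← two_mul, ← pow_succ, h2]
      have h7 : (a * b) ^ m * a = ((a * b) ^ m)⁻¹ * ((a * b) ^ m * (a * b) ^ m * (a * b)) * b⁻¹ := by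
        group
      rw [h7, h6, hbi, mul_one]
    change g * (a * b) ^ m * a = a * (g * (a * b) ^ m)
    calc g * (a * b) ^ m * a = g * ((a * b) ^ m * a) := mul_assoc _ _ _
      _ = g * (b * (a * b) ^ m) := by rw [h5, h3]
      _ = (g * b) * (a * b) ^ m := (mul_assoc _ _ _).symm
      _ = (a * g) * (a * b) ^ m := by rw [h4]
      _ = a * (g * (a * b) ^ m) := mul_assoc _ _ _
  · intro m hm
    have h2 : (a * (g⁻¹ * a * g)) ^ (2 * m) = 1 := by rw [← hm, pow_orderOf_eq_one]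
    refine ⟨commute_half ha2 hb2 m h2, commute_half ha2 hb2' m ?_⟩
    have h3 : a * (g * a * g⁻¹) = g * (a * (g⁻¹ * a * g))⁻¹ * g⁻¹ := by
      have : (a * (g⁻¹ * a * g))⁻¹ = g⁻¹ * a⁻¹ * g * a⁻¹ := by group
      rw [this, hai]; group
    rw [h3, conj_pow, inv_pow, h2]; group

end Cfsg.Agent.S0442
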