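import Mathlib
import Cfsg.Statements.S0443
import Mathlib
import Cfsg.Agent.Lib_helper1_PNilp2

set_option autoImplicit false
open Cfsg

namespace Cfsg.Agent.S0443

open Cfsg.Agent.H1

/-- Two definitions of a 2-central involution agree: an element t of order 2 of a finite group lies in the centre of some Sylow 2-subgroup if and only if its centraliser contains some Sylow 2-subgroup. -/
theorem result {G : Type*} [Group G] [Finite G] (t : G) (ht : orderOf t = 2) : Cfsg.IsTwoCentralInvolution t ↔ ∃ P : Sylow 2 G, (P : Subgroup G) ≤ Subgroup.centralizer ({t} : Set G) := by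
  constructor
  · rintro ⟨_, P, _, hP⟩
    refine ⟨P, fun x hx => ?_⟩
    rw [Subgroup.mem_centralizer_singleton_iff]
    exact hP x hx
  · rintro ⟨P, hP⟩
    have hc : ∀ x ∈ (P : Subgroup G), x * t = t * x := by
      intro x hx
      have := hP hx
      rwa [Subgroup.mem_centralizer_singleton_iff] at this
    refine ⟨ht, P, ?_, hc⟩
    apply mem_sylow_of_mem_normalizer P (k := 1)
    · rw [Subgroup.mem_normalizer_iff]
      intro x
      constructor
      · intro hx
        have : t * x * t⁻¹ = x := by rw [← hc x hx]; group
        rw [this]; exact hx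
      · intro hx
        have h1 := hc _ hx
        have : x = t * x * t⁻¹ := by
          calc x = t⁻¹ * (t * x * t⁻¹ * t) := by group
            _ = t⁻¹ * (t * (t * x * t⁻¹)) := by rw [h1]
            _ = t * x * t⁻¹ := by group
        rw [this]; exact hx
    · rw [pow_one, ← ht, pow_orderOf_eq_one]

end Cfsg.Agent.S0443
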