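import Mathlib
import Cfsg.Statements.S0444
import Cfsg.Agent.Lib_helper5_Dihedral

set_option autoImplicit false
open Cfsg

namespace Cfsg.Agent.S0444

theorem dih3 : Nonempty (DihedralGroup 3 ≃* Equiv.Perm (Fin 3)) := by
  have hx : orderOf (Equiv.swap (0 : Fin 3) 1) = 2 := Equiv.Perm.IsSwap.orderOf ⟨0, 1, by decide, rfl⟩
  have hy : orderOf (Equiv.swap (0 : Fin 3) 2) = 2 := Equiv.Perm.IsSwap.orderOf ⟨0, 2, by decide, rfl⟩
  have h3 : orderOf (Equiv.swap (0 : Fin 3) 1 * Equiv.swap (0 : Fin 3) 2) = 3 :=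
    (Equiv.Perm.isThreeCycle_swap_mul_swap_same (by decide) (by decide) (by decide)).orderOf
  obtain ⟨e⟩ := Cfsg.Agent.H5.nonempty_dihedral_of_invol hx hy
  rw [h3] at e
  have hc : Nat.card (Subgroup.closure ({Equiv.swap (0 : Fin 3) 1, Equiv.swap (0 : Fin 3) 2} : Set (Equiv.Perm (Fin 3)))) = 6 := by
    rw [Nat.card_congr e.toEquiv, DihedralGroup.nat_card]
  have htop : Subgroup.closure ({Equiv.swap (0 : Fin 3) 1, Equiv.swap (0 : Fin 3) 2} : Set (Equiv.Perm (Fin 3))) = ⊤ := by
    apply Subgroup.eq_top_of_card_eq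
    rw [hc, Nat.card_eq_fintype_card, Fintype.card_perm]
    rfl
  exact ⟨e.symm.trans ((MulEquiv.subgroupCongr htop).trans Subgroup.topEquiv)⟩

/-- Two members of a set of 3-transpositions which do not commute generate a subgroup isomorphic to the symmetric group on three letters. -/
theorem result {G : Type*} [Group G] {E : Set G} (hE : Cfsg.IsThreeTranspositionSet E) {d e : G} (hd : d ∈ E) (he : e ∈ E) (h : ¬ Commute d e) : Nonempty (Subgroup.closure ({d, e} : Set G) ≃* Equiv.Perm (Fin 3)) := by
  have hd2 := hE.1 d hd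
  have he2 := hE.1 e he
  have hdd : d * d = 1 := by rw [← sq, ← hd2]; exact pow_orderOf_eq_one d
  have hee : e * e = 1 := by rw [← sq, ← he2]; exact pow_orderOf_eq_one e
  have h3 : (d * e) ^ 3 = 1 := by
    rcases hE.2 d hd e he with h2 | h3
    · exfalso
      apply h
      have h4 : d * e * (d * e) = 1 := by rw [← sq]; exact h2
      show d * e = e * d
      calc d * e = d * e * (d * e * (e * d)) := by
            rw [show d * e * (e * d) = d * (e * e) * d by group, hee, mul_one, hdd, mul_one]
        _ = (d * e * (d * e)) * (e * d) := by group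
        _ = e * d := by rw [h4, one_mul]
    · exact h3
  have hne : d * e ≠ 1 := by
    intro h1
    apply h
    have : d = e := by
      calc d = d * (e * e) := by rw [hee, mul_one]
        _ = (d * e) * e := by group
        _ = e := by rw [h1, one_mul]
    rw [this]
  haveI : Fact (Nat.Prime 3) := ⟨by norm_num⟩
  have ho : orderOf (d * e) = 3 := orderOf_eq_prime h3 hne
  obtain ⟨f⟩ := Cfsg.Agent.H5.nonempty_dihedral_of_invol hd2 he2
  rw [ho] at f
  obtain ⟨g⟩ := dih3
  exact ⟨f.trans g⟩

end Cfsg.Agent.S0444
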