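import Cfsg.Statements.S0445
import Cfsg.Agent.Lib_helper6_TransvCent
import Cfsg.Agent.Lib_helper6_SqZero

set_option autoImplicit false
open Cfsg

namespace Cfsg.Agent.S0445

/-- In the special linear group of dimension 5 over the field with two elements, the centraliser of a transvection has order 21504 = 2 ^ 7 · 168 (it is an extension of an extraspecial group of order 2 ^ 7 by the simple group of order 168). -/
theorem result (s : Matrix.SpecialLinearGroup (Fin 5) (ZMod 2)) (hs : (s : Matrix (Fin 5) (Fin 5) (ZMod 2)) = Matrix.transvection 0 1 1) : Nat.card (Subgroup.centralizer ({s} : Set (Matrix.SpecialLinearGroup (Fin 5) (ZMod 2)))) = 21504 := by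
  have hsub : (s : Matrix (Fin 5) (Fin 5) (ZMod 2)) - 1 = Matrix.single 0 1 1 := by
    rw [hs, Matrix.transvection, add_sub_cancel_left]
  have hsq : ((s : Matrix (Fin 5) (Fin 5) (ZMod 2)) - 1) *
      ((s : Matrix (Fin 5) (Fin 5) (ZMod 2)) - 1) = 0 := by
    rw [hsub, Matrix.single_mul_single_of_ne _ _ _ _ (by decide)]
  have hrk : ((s : Matrix (Fin 5) (Fin 5) (ZMod 2)) - 1).rank = 1 := by
    apply le_antisymm
    · rw [hsub, Matrix.single_eq_single_vecMulVec_single]
      exact Matrix.rank_vecMulVec_le _ _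
    · rw [Nat.one_le_iff_ne_zero]
      intro h0
      have h1 := H6.eq_zero_of_rank_eq_zero _ h0
      rw [hsub] at h1
      have h2 := congrFun (congrFun h1 0) 1
      simp at h2
  have h := H6.TC.card_centralizer_GL (F := ZMod 2) (n := 5) (by norm_num)
    (Matrix.SpecialLinearGroup.toGL s) hrk hsq
  have hval : Fintype.card (ZMod 2) ^ (2 * 5 - 3) * (Fintype.card (ZMod 2) - 1) *
      ∏ i : Fin (5 - 2), (Fintype.card (ZMod 2) ^ (5 - 2) - Fintype.card (ZMod 2) ^ (i : ℕ))
      = 21504 := by
    rw [ZMod.card]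
    decide
  rw [← hval, ← h]
  apply Nat.card_congr
  have hbij : Function.Bijective
      (Matrix.SpecialLinearGroup.toGL : Matrix.SpecialLinearGroup (Fin 5) (ZMod 2) →* _) := by
    constructor
    · intro a b hab
      apply Subtype.ext
      exact congrArg (fun x : GL (Fin 5) (ZMod 2) => (x : Matrix (Fin 5) (Fin 5) (ZMod 2))) hab
    · intro g
      have hdet : (g : Matrix (Fin 5) (Fin 5) (ZMod 2)).det = 1 := by
        have h1 : (g : Matrix (Fin 5) (Fin 5) (ZMod 2)).det ≠ 0 :=
          (Matrix.GeneralLinearGroup.det g).ne_zero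
        generalize (g : Matrix (Fin 5) (Fin 5) (ZMod 2)).det = d at h1
        revert d
        decide
      obtain ⟨a, ha⟩ : ∃ a : Matrix.SpecialLinearGroup (Fin 5) (ZMod 2),
          (a : Matrix (Fin 5) (Fin 5) (ZMod 2)) = g := ⟨⟨g, hdet⟩, rfl⟩
      refine ⟨a, ?_⟩
      apply Units.ext
      rw [Matrix.SpecialLinearGroup.coe_GL_coe_matrix, ha]
  refine Equiv.subtypeEquiv (Equiv.ofBijective _ hbij) ?_
  intro a
  rw [Subgroup.mem_centralizer_singleton_iff, Subgroup.mem_centralizer_singleton_iff]
  change _ ↔ Matrix.SpecialLinearGroup.toGL a * Matrix.SpecialLinearGroup.toGL s =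
    Matrix.SpecialLinearGroup.toGL s * Matrix.SpecialLinearGroup.toGL a
  rw [← map_mul, ← map_mul]
  exact ⟨fun h => by rw [h], fun h => hbij.1 h⟩

end Cfsg.Agent.S0445
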