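import Cfsg.Statements.S0481
import Cfsg.Agent.Lib_helper7_SE

set_option autoImplicit false
open Cfsg

namespace Cfsg.Agent.S0481

open Subgroup
open scoped Pointwise

/-- Large extraspecial subgroups: let z be an involution of a finite group G whose centraliser C contains a normal 2-subgroup Q with centre of order 2 and all squares central, such that every element of G centralising Q lies in Q. Then C contains a Sylow 2-subgroup of G, and any involution of G whose centraliser contains a Sylow 2-subgroup of G is conjugate to z. -/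
theorem result {G : Type*} [Group G] [Finite G] (z : G) (hz : orderOf z = 2) (Q : Subgroup G) (hQC : Q ≤ Subgroup.centralizer ({z} : Set G)) (hQn : ∀ g ∈ Subgroup.centralizer ({z} : Set G), ∀ q ∈ Q, g * q * g⁻¹ ∈ Q) (hQ2 : IsPGroup 2 Q) (hZ : Nat.card (Subgroup.center Q) = 2) (hsq : ∀ x : Q, x ^ 2 ∈ Subgroup.center Q) (hlarge : Subgroup.centralizer (Q : Set G) ≤ Q) : (∃ P : Sylow 2 G, (P : Subgroup G) ≤ Subgroup.centralizer ({z} : Set G)) ∧ ∀ u : G, orderOf u = 2 → (∃ P : Sylow 2 G, (P : Subgroup G) ≤ Subgroup.centralizer ({u} : Set G)) → IsConj z u := by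
  have hz1 : z ≠ 1 := by
    rintro rfl
    rw [orderOf_one] at hz
    norm_num at hz
  have hQz : ∀ q ∈ Q, z * q = q * z := fun q hq => (mem_centralizer_iff.1 (hQC hq)) z rfl
  have hzQ : z ∈ Q := hlarge (by
    rw [mem_centralizer_iff]
    intro q hq
    exact (hQz q hq).symm)
  have hb : ∀ c ∈ centralizer (Q : Set G), c = 1 ∨ c = z := by
    intro c hc
    have hcQ : c ∈ Q := hlarge hc
    have hcen : ∀ (d : G) (hd : d ∈ Q), (∀ q ∈ Q, q * d = d * q) →
        (⟨d, hd⟩ : ↥Q) ∈ center ↥Q := by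
      intro d hd h
      rw [Subgroup.mem_center_iff]
      intro q
      exact Subtype.ext (h q.1 q.2)
    obtain ⟨y, -, hy⟩ := (Nat.card_eq_two_iff' (1 : center ↥Q)).1 hZ
    by_cases hc1 : c = 1
    · exact Or.inl hc1
    right
    have e1 := hy ⟨⟨c, hcQ⟩, hcen c hcQ (mem_centralizer_iff.1 hc)⟩ (by
      intro h; apply hc1
      exact congrArg (fun t : center ↥Q => ((t : ↥Q) : G)) h)
    have e2 := hy ⟨⟨z, hzQ⟩, hcen z hzQ (fun q hq => (hQz q hq).symm)⟩ (by
      intro h; apply hz1
      exact congrArg (fun t : center ↥Q => ((t : ↥Q) : G)) h)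
    exact congrArg (fun t : center ↥Q => ((t : ↥Q) : G)) (e1.trans e2.symm)
  obtain ⟨P, hQP⟩ := hQ2.exists_le_sylow
  have hP1 : (P : Subgroup G) ≠ ⊥ := by
    intro h
    apply hz1
    have := hQP hzQ
    rw [h, mem_bot] at this
    exact this
  obtain ⟨w, hwP, hw1, hw⟩ := Cfsg.Agent.H7.exists_center_ne_one P.2 hP1
  have hwz : w = z := (hb w (by
    rw [mem_centralizer_iff]
    intro q hq
    exact hw q (hQP hq))).resolve_left hw1
  rw [hwz] at hw
  have hPC : (P : Subgroup G) ≤ centralizer ({z} : Set G) := by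
    intro x hx
    rw [mem_centralizer_iff]
    rintro _ rfl
    exact (hw x hx).symm
  refine ⟨⟨P, hPC⟩, ?_⟩
  rintro u hu ⟨P', hP'⟩
  obtain ⟨g, rfl⟩ := MulAction.exists_smul_eq G P P'
  have hu1 : u ≠ 1 := by
    rintro rfl
    rw [orderOf_one] at hu
    norm_num at hu
  have hv : g⁻¹ * u * g ∈ centralizer (Q : Set G) := by
    rw [mem_centralizer_iff]
    intro q hq
    have h1 : g * q * g⁻¹ ∈ ((g • P : Sylow 2 G) : Subgroup G) := by
      change _ ∈ MulAut.conj g • (P : Subgroup G)
      exact Subgroup.smul_mem_pointwise_smul q (MulAut.conj g) _ (hQP hq)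
    have h2 : u * (g * q * g⁻¹) = (g * q * g⁻¹) * u := (mem_centralizer_iff.1 (hP' h1)) u rfl
    calc q * (g⁻¹ * u * g) = g⁻¹ * ((g * q * g⁻¹) * u) * g := by group
      _ = g⁻¹ * (u * (g * q * g⁻¹)) * g := by rw [h2]
      _ = g⁻¹ * u * g * q := by group
  rcases hb _ hv with h | h
  · exfalso
    apply hu1
    calc u = g * (g⁻¹ * u * g) * g⁻¹ := by group
      _ = 1 := by rw [h]; group
  · rw [isConj_iff]
    exact ⟨g, by rw [← h]; group⟩

end Cfsg.Agent.S0481
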