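import Mathlib
import Cfsg.Statements.S0499
import Cfsg.Agent.Lib_helper1_MinAct2

set_option autoImplicit false
open Cfsg

namespace Cfsg.Agent.S0499

open Cfsg.Agent.H1

/-- A non-abelian finite simple group of even order has order divisible by 12, 16 or 56. -/
theorem result {G : Type*} [Group G] [Finite G] [IsSimpleGroup G]
    (hG : ¬ IsMulCommutative G) (h2 : Even (Nat.card G)) :
    12 ∣ Nat.card G ∨ 16 ∣ Nat.card G ∨ 56 ∣ Nat.card G := by
  have : Fact (Nat.Prime 2) := ⟨Nat.prime_two⟩
  have hcon : ¬ Cfsg.HasNormalPComplement 2 G := by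
    rintro ⟨P, N, hN, hc⟩
    have h1 := hc.card_mul_card
    rcases hN.eq_bot_or_eq_top with rfl | rfl
    · rw [Subgroup.card_bot, one_mul] at h1
      have hP : (P : Subgroup G) = ⊤ := Subgroup.eq_top_of_card_eq _ h1
      have hpg : IsPGroup 2 G := by
        have := P.2
        rw [hP] at this
        exact this.of_equiv Subgroup.topEquiv
      have hnil := hpg.isNilpotent
      have hsol : Group.IsSolvable G := inferInstance
      apply hG
      exact ⟨⟨IsSimpleGroup.comm_iff_isSolvable.mpr hsol⟩⟩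
    · rw [Subgroup.card_top] at h1
      have h3 : Nat.card (P : Subgroup G) = 1 := by
        have hpos : 0 < Nat.card G := Nat.card_pos
        exact Nat.eq_of_mul_eq_mul_left hpos (by rw [h1, mul_one])
      rw [Subgroup.card_eq_one] at h3
      exact P.ne_bot_of_dvd_card h2.two_dvd h3
  obtain ⟨U, y, hm⟩ := exists_minAct hcon
  obtain ⟨q, hq, hqy, j, hj1, hqj, hjd⟩ := hm.exists_prime
  have hjG : 2 ^ j ∣ Nat.card G :=
    hjd.trans ((Subgroup.index_dvd_card _).trans (Subgroup.card_subgroup_dvd_card U))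
  have hqG : q ∣ Nat.card G := hqy.trans (orderOf_dvd_natCard y)
  by_cases h16 : 16 ∣ Nat.card G
  · exact Or.inr (Or.inl h16)
  have hj3 : j ≤ 3 := by
    by_contra hlt
    push Not at hlt
    apply h16
    exact (pow_dvd_pow 2 hlt : 2 ^ 4 ∣ 2 ^ j).trans hjG
  interval_cases j
  · simp at hqj
    exact absurd hqj hq.one_lt.ne'
  · left
    have h3 : q = 3 := (Nat.prime_dvd_prime_iff_eq hq Nat.prime_three).mp (by simpa using hqj)
    subst h3
    exact (Nat.Coprime.mul_dvd_of_dvd_of_dvd (by norm_num) hjG hqG : 2 ^ 2 * 3 ∣ Nat.card G)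
  · right; right
    have h7 : q = 7 := (Nat.prime_dvd_prime_iff_eq hq (by norm_num)).mp (by simpa using hqj)
    subst h7
    exact (Nat.Coprime.mul_dvd_of_dvd_of_dvd (by norm_num) hjG hqG : 2 ^ 3 * 7 ∣ Nat.card G)

end Cfsg.Agent.S0499
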