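import Cfsg.Statements.S0514
import Cfsg.Agent.Lib_helper7_DihSyl
import Cfsg.Agent.S0071

set_option autoImplicit false
open Cfsg

namespace Cfsg.Agent.S0514

/-- In a finite group whose Sylow 2-subgroups are dihedral of order at least 4, the centralizer of any involution has a
normal subgroup of odd order whose index in the centralizer is a power of 2. -/
theorem result {X : Type*} [Group X] [Finite X]
    (S : Sylow 2 X) (n : ℕ) (hn : 2 ≤ n) (hS : Nonempty ((S : Subgroup X) ≃* DihedralGroup n)) (t : X)
    (ht : orderOf t = 2) :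
    ∃ N : Subgroup (Subgroup.centralizer ({t} : Set X)), N.Normal ∧ Odd (Nat.card N) ∧ ∃ k : ℕ, N.index = 2 ^ k := by
  haveI : Fact (Nat.Prime 2) := ⟨Nat.prime_two⟩
  obtain ⟨eS⟩ := hS
  have htC : t ∈ Subgroup.centralizer ({t} : Set X) := Subgroup.mem_centralizer_singleton_iff.2 rfl
  obtain ⟨t', ht'⟩ : ∃ t' : Subgroup.centralizer ({t} : Set X), t' = ⟨t, htC⟩ := ⟨_, rfl⟩
  have ht'c : ∀ c : Subgroup.centralizer ({t} : Set X), c * t' = t' * c := fun c => by
    rw [ht']; exact Subtype.ext (Subgroup.mem_centralizer_singleton_iff.1 c.2)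
  have ht'o : orderOf t' = 2 := by rw [ht', Subgroup.orderOf_mk, ht]
  have ht'2 : t' ^ 2 = 1 := by rw [← ht'o, pow_orderOf_eq_one]
  have ht'1 : t' ≠ 1 := by
    intro h
    rw [h, orderOf_one] at ht'o
    norm_num at ht'o
  have hzp : IsPGroup 2 (Subgroup.zpowers t') :=
    IsPGroup.of_card (n := 1) (by rw [Nat.card_zpowers, ht'o]; norm_num)
  obtain ⟨T, hT⟩ := hzp.exists_le_sylow
  have hTX : IsPGroup 2 ((T : Subgroup (Subgroup.centralizer ({t} : Set X))).map
      (Subgroup.centralizer ({t} : Set X)).subtype) := T.2.map _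
  obtain ⟨S', hS'⟩ := hTX.exists_le_sylow
  obtain ⟨r, hD⟩ := H7.dihLike_of_equiv (S' : Subgroup X) n ((Sylow.equiv S' S).trans eS)
  haveI hZn : (Subgroup.zpowers t').Normal := by
    constructor
    rintro _ ⟨i, rfl⟩ c
    have : c * t' ^ i * c⁻¹ = t' ^ i := by
      rw [((show Commute c t' from ht'c c).zpow_right i).eq, mul_inv_cancel_right]
    show c * t' ^ i * c⁻¹ ∈ _
    rw [this]
    exact zpow_mem (Subgroup.mem_zpowers _) i
  obtain ⟨N, hNn, hNT⟩ := (S0071.result T).2 (by
    intro Q hQT g hg hodd
    have hQS : Q.map (Subgroup.centralizer ({t} : Set X)).subtype ≤ S' :=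
      (Subgroup.map_mono hQT).trans hS'
    by_cases hK : IsKleinFour (Q.map (Subgroup.centralizer ({t} : Set X)).subtype)
    · have hQ4 : Nat.card Q = 4 := by
        have := hK.card_four
        rwa [Subgroup.card_map_of_injective (Subgroup.subtype_injective _)] at this
      have hQ2 : ∀ q ∈ Q, q ^ 2 = 1 := by
        intro q hq
        have h1 := Monoid.pow_exponent_eq_one
          (⟨(q : X), ⟨q, hq, rfl⟩⟩ : Q.map (Subgroup.centralizer ({t} : Set X)).subtype)
        rw [hK.exponent_two] at h1
        exact Subtype.ext (by simpa using congrArg Subtype.val h1)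
      have hB4 : Nat.card (Q ⊔ Subgroup.zpowers t' : Subgroup _) ≤ 4 := by
        rw [← Subgroup.card_map_of_injective (Subgroup.subtype_injective
          (Subgroup.centralizer ({t} : Set X)))]
        apply H7.card_le_four_of_dihLike hD ((Subgroup.map_mono (sup_le hQT hT)).trans hS')
        rintro _ ⟨b, hb, rfl⟩
        obtain ⟨q, hq, _, ⟨i, rfl⟩, rfl⟩ := Subgroup.mem_sup_of_normal_right.1 hb
        have hc : Commute q (t' ^ i) := (show Commute q t' from ht'c q).zpow_right i
        have h1 : (q * t' ^ i) ^ 2 = 1 := by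
          rw [hc.mul_pow, hQ2 q hq, one_mul, ← zpow_natCast, ← zpow_mul, mul_comm, zpow_mul,
            zpow_natCast, ht'2, one_zpow]
        simpa using congrArg Subtype.val h1
      have hBQ : Q = Q ⊔ Subgroup.zpowers t' :=
        Subgroup.eq_of_le_of_card_ge le_sup_left (by rw [hQ4]; exact hB4)
      have htQ : t' ∈ Q := by
        rw [hBQ]; exact Subgroup.mem_sup_right (Subgroup.mem_zpowers t')
      obtain ⟨q, hqQ, hqz⟩ : ∃ q ∈ Q, q ∉ Subgroup.zpowers t' := by
        by_contra hcon
        push Not at hcon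
        have := Subgroup.card_le_of_le (show Q ≤ Subgroup.zpowers t' from hcon)
        rw [hQ4, Nat.card_zpowers, ht'o] at this
        omega
      have hq1 : q ≠ 1 := fun h => hqz (h ▸ one_mem _)
      have hqt : q ≠ t' := fun h => hqz (h ▸ Subgroup.mem_zpowers _)
      have hel := H7.four_elems Q hQ4 htQ hqQ ht'1 ht'2 hq1 hqt
      have hgq : g * q * g⁻¹ ∈ Q := ((Subgroup.mem_normalizer_iff.1 hg) q).1 hqQ
      have hcomm : Commute g q := by
        rcases hel _ hgq with h | h | h | h
        · exfalso; apply hq1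
          have : q = g⁻¹ * (g * q * g⁻¹) * g := by group
          rw [this, h]; group
        · exfalso; apply hqt
          have : q = g⁻¹ * (g * q * g⁻¹) * g := by group
          rw [this, h, mul_assoc, ← ht'c g, inv_mul_cancel_left]
        · exact mul_inv_eq_iff_eq_mul.1 h
        · have h2 : Commute (g ^ 2) q := by
            have : g ^ 2 * q * (g ^ 2)⁻¹ = q := by
              calc g ^ 2 * q * (g ^ 2)⁻¹ = g * (g * q * g⁻¹) * g⁻¹ := by rw [pow_two]; group
                _ = g * (q * t') * g⁻¹ := by rw [h]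
                _ = (g * q * g⁻¹) * (g * t' * g⁻¹) := by group
                _ = q * t' * t' := by rw [h, ht'c g, mul_inv_cancel_right]
                _ = q := by rw [mul_assoc, ← pow_two, ht'2, mul_one]
            exact mul_inv_eq_iff_eq_mul.1 this
          obtain ⟨j, hj⟩ := Nat.coprime_two_right.1 hodd
          have h3 : (g ^ 2) ^ (j + 1) = g := by
            rw [← pow_mul]
            have : 2 * (j + 1) = orderOf g + 1 := by omega
            rw [this, pow_succ, pow_orderOf_eq_one, one_mul]
          rw [← h3]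
          exact h2.pow_left _
      rw [Subgroup.mem_centralizer_iff]
      intro v hv
      rcases hel v hv with rfl | rfl | rfl | rfl
      · simp
      · exact (ht'c g).symm
      · exact hcomm.eq.symm
      · exact (hcomm.mul_right (ht'c g)).eq.symm
    · have hgN : (g : X) ∈ Subgroup.normalizer
          ((Q.map (Subgroup.centralizer ({t} : Set X)).subtype : Subgroup X) : Set X) := by
        rw [Subgroup.mem_normalizer_iff]
        intro x
        constructor
        · rintro ⟨y, hy, rfl⟩
          exact ⟨g * y * g⁻¹, ((Subgroup.mem_normalizer_iff.1 hg) y).1 hy, rfl⟩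
        · rintro ⟨y, hy, hyx⟩
          have hyx' : (y : X) = (g : X) * x * (g : X)⁻¹ := hyx
          refine ⟨g⁻¹ * y * g, ?_, ?_⟩
          · apply ((Subgroup.mem_normalizer_iff.1 hg) _).2
            have : g * (g⁻¹ * y * g) * g⁻¹ = y := by group
            rw [this]; exact hy
          · show (g : X)⁻¹ * (y : X) * (g : X) = x
            rw [hyx']; group
      have hodd' : Nat.Coprime (orderOf (g : X)) 2 := by rwa [Subgroup.orderOf_coe]
      have h1 := H7.centralizes_of_dihLike S'.2 hD hQS hK hgN hodd'
      rw [Subgroup.mem_centralizer_iff] at h1 ⊢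
      intro v hv
      exact Subtype.ext (h1 (v : X) ⟨v, hv, rfl⟩))
  refine ⟨N, hNn, ?_, ?_⟩
  · rw [← hNT.index_eq_card, ← Nat.not_even_iff_odd, even_iff_two_dvd]
    exact T.not_dvd_index
  · obtain ⟨k, hk⟩ := T.2.exists_card_eq
    exact ⟨k, by rw [← hk]; exact hNT.symm.index_eq_card⟩

end Cfsg.Agent.S0514
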