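import Cfsg.Statements.S0519
import Cfsg.Agent.Lib_helper7_NoV4
import Cfsg.Agent.Lib_helper7_CycIdx2
import Cfsg.Agent.Lib_helper7_Quat2
import Cfsg.Agent.Lib_helper7_MaxClass2

set_option autoImplicit false
open Cfsg

namespace Cfsg.Agent.S0519

/-- Let P be a finite p-group in which every abelian normal subgroup is cyclic, but which has a non-cyclic abelian
subgroup. Then p = 2 and P is generalized quaternion, dihedral of order at least 16, or quasi-dihedral. -/
theorem result {P : Type*} [Group P] [Finite P] (p : ℕ) [Fact p.Prime]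
    (hP : IsPGroup p P) (hn : ∀ A : Subgroup P, A.Normal → IsMulCommutative A → IsCyclic A)
    (hm : ∃ B : Subgroup P, IsMulCommutative B ∧ ¬ IsCyclic B) :
    p = 2 ∧ ((∃ n : ℕ, Nonempty (P ≃* QuaternionGroup n)) ∨ (∃ n : ℕ, 8 ≤ n ∧ Nonempty (P ≃* DihedralGroup n)) ∨
      Cfsg.IsQuasiDihedral P) := by
  haveI : Fact (Nat.Prime 2) := ⟨Nat.prime_two⟩
  obtain ⟨B, hBc, hBn⟩ := hm
  have hPnc : ¬ IsCyclic P := fun h => hBn inferInstance
  have hp2 : p = 2 := by
    by_contra hp2
    obtain ⟨A, -, hAn, hAe, hAc⟩ := H7.exists_normal_elemAb_sq hp2 hP ⊤ inferInstance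
      (fun h => hPnc (isCyclic_of_surjective Subgroup.topEquiv.toMonoidHom
        Subgroup.topEquiv.surjective))
    have hc := hn A hAn hAe.1
    obtain ⟨g, hg⟩ := hc.exists_ofOrder_eq_natCard
    have hgp : (g : P) ^ p = 1 := hAe.2 g g.2
    rw [← Subgroup.orderOf_coe, hAc] at hg
    rw [← orderOf_dvd_iff_pow_eq_one, hg] at hgp
    have h1 := Nat.le_of_dvd (Fact.out : p.Prime).pos hgp
    have h2 := (Fact.out : p.Prime).two_le
    nlinarith
  subst hp2
  refine ⟨rfl, ?_⟩
  obtain ⟨A, ⟨hAn, hAc⟩, hAmax⟩ := (Set.toFinite {B : Subgroup P | B.Normal ∧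
    IsMulCommutative B}).exists_maximal ⟨⊥, inferInstance, inferInstance⟩
  have hAcyc := hn A hAn hAc
  obtain ⟨a, ha⟩ := H7.exists_zpowers_eq_of_isCyclic A hAcyc
  have hAtop : A < ⊤ := by
    rw [lt_top_iff_ne_top]
    rintro rfl
    exact hPnc (isCyclic_of_surjective Subgroup.topEquiv.toMonoidHom Subgroup.topEquiv.surjective)
  have hrel : ∀ {B D : Subgroup P}, B ≤ D → Nat.card D = Nat.card B * 2 → B.relIndex D = 2 := by
    intro B D hBD hcard
    have h1 := Cfsg.Agent.H1.relIndex_mul_card' hBD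
    rw [hcard, mul_comm] at h1
    exact Nat.eq_of_mul_eq_mul_left Nat.card_pos h1
  have hle : A ≤ Subgroup.centralizer (A : Set P) := by
    intro u hu
    rw [Subgroup.mem_centralizer_iff]
    intro v hv
    have := hAc.is_comm.comm ⟨v, hv⟩ ⟨u, hu⟩
    simpa using congrArg Subtype.val this
  have hCA : Subgroup.centralizer (A : Set P) ≤ A := by
    by_contra hcon
    have hlt : A < Subgroup.centralizer (A : Set P) := lt_of_le_not_ge hle hcon
    obtain ⟨D, hDn, hAD, hDC, hDc⟩ := H7.exists_normal_cover hP hAn inferInstance hlt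
    have hDcomm : IsMulCommutative D :=
      H7.isMulCommutative_of_cover (p := 2) hAn (hrel hAD.le hDc) hDC
    exact not_le_of_gt hAD (hAmax ⟨hDn, hDcomm⟩ hAD.le)
  subst ha
  have hCU : Subgroup.centralizer (Subgroup.zpowers a : Set P) = Subgroup.zpowers a :=
    le_antisymm hCA hle
  obtain ⟨m, hm⟩ := (IsPGroup.iff_orderOf.1 hP) a
  have hN : (orderOf a : ℤ) = 2 ^ m := by rw [hm]; push_cast; rfl
  obtain ⟨x, -, hxU⟩ := SetLike.exists_of_lt hAtop
  have hm2 : 2 ≤ m := by
    by_contra hlt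
    have hac : a ∈ Subgroup.center P := by
      rcases (by omega : m = 0 ∨ m = 1) with rfl | rfl
      · have : a = 1 := by rwa [pow_zero, orderOf_eq_one_iff] at hm
        rw [this]; exact one_mem _
      · exact H7.le_center_of_normal_of_card_two hAn (by rw [Nat.card_zpowers, hm]; norm_num)
          (Subgroup.mem_zpowers a)
    apply hxU
    exact H7.mem_zpowers_of_commute hCU (Subgroup.mem_center_iff.1 hac x)
  have hidx := H7.index_eq_two_of_noV4 hP hn hAn hCU hm hm2 hxU
  have hcard : Nat.card P = 2 ^ (m + 1) := by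
    have := Subgroup.card_mul_index (Subgroup.zpowers a)
    rw [hidx, Nat.card_zpowers, hm] at this
    rw [← this, pow_succ]
  obtain ⟨r, hr⟩ := hAn.conj_mem a (Subgroup.mem_zpowers a) x
  obtain ⟨k, hk⟩ := H7.sq_mem_of_noV4 hP hn hAn hCU hm hm2 x
  have hnc : x * a ≠ a * x := fun h => hxU (H7.mem_zpowers_of_commute hCU h)
  obtain ⟨h1, h2, h3⟩ := H7.idx2_dichotomy a x m hm r k hr.symm hk.symm hnc
  rcases h3 with ⟨t, ht⟩ | ⟨h5, h6, -⟩
  · have hyU : x * a ^ t ∉ Subgroup.zpowers a := by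
      intro hmem
      apply hxU
      have := mul_mem hmem (zpow_mem (Subgroup.mem_zpowers a) (-t))
      rwa [mul_assoc, ← zpow_add, add_neg_cancel, zpow_zero, mul_one] at this
    have hyr : x * a ^ t * a * (x * a ^ t)⁻¹ = a ^ r := by
      calc x * a ^ t * a * (x * a ^ t)⁻¹ = x * a * x⁻¹ := by group
        _ = a ^ r := hr.symm
    have hy1 : x * a ^ t ≠ 1 := fun h => hyU (h ▸ one_mem _)
    have hoy : orderOf (x * a ^ t) = 2 := orderOf_eq_prime ht hy1
    rcases H7.two_adic_class m r h1 h2 with h | ⟨hm3, h | h⟩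
    · right; left
      have hinv : x * a ^ t * a * (x * a ^ t)⁻¹ = a⁻¹ := by
        rw [hyr, ← zpow_neg_one]
        apply H7.zpow_eq_zpow_of_dvd hN
        have e : r - -1 = r + 1 := by ring
        rw [e]; exact h
      have hm3 : 3 ≤ m := by
        by_contra hlt
        have hm' : m = 2 := by omega
        subst hm'
        obtain ⟨how, hwc⟩ := H7.invol_mem_center hAn hm (by norm_num)
        have hne : x * a ^ t ∉ Subgroup.zpowers (a ^ 2 ^ (2 - 1)) := fun h =>
          hyU (Subgroup.zpowers_le.2 (pow_mem (Subgroup.mem_zpowers a) _) h)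
        apply H7.klein_contra hn hoy how hwc hne
        apply Subgroup.normal_of_index_eq_two
        obtain ⟨hc, -⟩ := H7.sup_zpowers_central hoy how hwc hne
        have := Subgroup.card_mul_index
          (Subgroup.zpowers (x * a ^ t) ⊔ Subgroup.zpowers (a ^ 2 ^ (2 - 1)))
        rw [hc, hcard] at this
        omega
      refine ⟨2 ^ m, ?_, H7.dihedral_iso _ a _ hm hinv ht (by rw [hcard]; ring) hyU⟩
      calc 8 = 2 ^ 3 := by norm_num
        _ ≤ 2 ^ m := Nat.pow_le_pow_right (by norm_num) hm3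
    · exact (H7.no_modular hn hAn hCU hm hm3 hyU ht hyr h).elim
    · right; right
      refine ⟨m, hm3, hcard, a, x * a ^ t, hm, hoy, ?_⟩
      rw [hyr, ← zpow_natCast]
      apply H7.zpow_eq_zpow_of_dvd hN
      rw [Nat.cast_sub Nat.one_le_two_pow]
      push_cast
      exact h
  · left
    have e : 2 ^ m = 2 * 2 ^ (m - 1) := by rw [← pow_succ']; congr 1; omega
    refine ⟨2 ^ (m - 1), H7.quaternion_iso _ (by positivity) a x (by rw [hm, e]) h5 h6 ?_ hxU⟩
    rw [hcard, pow_succ, e]; ring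

end Cfsg.Agent.S0519
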