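import Mathlib
import Cfsg.Statements.S0525
import Cfsg.Agent.Lib_helper1_SS

set_option autoImplicit false
open Cfsg

namespace Cfsg.Agent.S0525

open Cfsg.Agent.H1 Subgroup

theorem normal_map_inl {G H : Type*} [Group G] [Group H] (X : Subgroup G) (hX : X.Normal) :
    (X.map (MonoidHom.inl G H)).Normal := by
  refine ⟨?_⟩
  rintro _ ⟨x, hx, rfl⟩ ⟨a, b⟩
  exact ⟨a * x * a⁻¹, hX.conj_mem x hx a, by simp [Prod.ext_iff]⟩

theorem reach_map_inl {G H : Type*} [Group G] [Group H] {B : Subgroup G}
    (h : Reach (⊥ : Subgroup G) B) : Reach (⊥ : Subgroup (G × H)) (B.map (MonoidHom.inl G H)) := by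
  induction h with
  | refl => rw [Subgroup.map_bot]; exact Reach.refl
  | @step B g _ hn ih =>
    have e : (B ⊔ zpowers g).map (MonoidHom.inl G H) =
        B.map (MonoidHom.inl G H) ⊔ zpowers (MonoidHom.inl G H g) := by
      rw [Subgroup.map_sup, MonoidHom.map_zpowers]
    rw [e]
    exact Reach.step _ ih (e ▸ normal_map_inl _ hn)


/-- A direct product of two finite supersolvable groups is supersolvable. -/
theorem result {G H : Type*} [Group G] [Group H] [Finite G] [Finite H] (hG : Cfsg.IsSupersolvable G) (hH : Cfsg.IsSupersolvable H) : Cfsg.IsSupersolvable (G × H) := by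
  rw [isSupersolvable_iff] at hG hH ⊢
  have h1 := reach_map_inl (H := H) hG
  have h2 := hH.comap (MonoidHom.snd G H) (fun y => ⟨(1, y), rfl⟩)
  rw [MonoidHom.comap_bot, comap_top] at h2
  have e : (⊤ : Subgroup G).map (MonoidHom.inl G H) = (MonoidHom.snd G H).ker := by
    ext ⟨x, y⟩
    rw [MonoidHom.mem_ker, Subgroup.mem_map]
    constructor
    · rintro ⟨a, -, ha⟩
      have := congrArg Prod.snd ha
      simpa using this.symm
    · intro h
      refine ⟨x, Subgroup.mem_top _, ?_⟩
      have h' : y = 1 := h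
      simp [h']
  rw [e] at h1
  exact h1.trans h2

end Cfsg.Agent.S0525
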