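import Mathlib
import Cfsg.Statements.S0526
import Cfsg.Agent.Lib_helper1_SS5

set_option autoImplicit false
open Cfsg

namespace Cfsg.Agent.S0526

open Subgroup Cfsg.Agent.H1
open scoped Pointwise

theorem aux.{u} : ∀ (n : ℕ) (G : Type u) [Group G] [Finite G], Nat.card G = n →
    Cfsg.IsSupersolvable G → Group.IsNilpotent (commutator G) := by
  intro n
  induction n using Nat.strong_induction_on with
  | _ n ih =>
    intro G _ _ hn hG
    by_cases h1 : (⊤ : Subgroup G) = ⊥
    · have : Subsingleton G := Subgroup.subsingleton_iff.mp ⟨fun a b => by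
        have ha : a = ⊥ := le_bot_iff.mp (h1 ▸ le_top)
        have hb : b = ⊥ := le_bot_iff.mp (h1 ▸ le_top)
        rw [ha, hb]⟩
      infer_instance
    obtain ⟨Z, hZn, -, hZp⟩ := ss_exists_normal_prime_le hG ⊤ inferInstance h1
    haveI : Fact (Nat.card Z).Prime := ⟨hZp⟩
    have hnil : Group.IsNilpotent (commutator (G ⧸ Z)) :=
      ih _ (by rw [← hn]; exact card_quotient_lt (ne_bot_of_card_prime hZp)) (G ⧸ Z) rfl
        (ss_quotient hG Z)
    have hcen : commutator G ≤ centralizer (Z : Set G) := by
      rw [_root_.commutator_def, commutator_le]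
      intro a _ b _
      exact (prime_normal_comm Z rfl a b).1
    have hle : (commutator G).map (QuotientGroup.mk' Z) ≤ commutator (G ⧸ Z) := by
      rw [_root_.commutator_def, map_commutator, _root_.commutator_def]
      exact commutator_mono le_top le_top
    have hmap : ∀ x : commutator G, QuotientGroup.mk' Z (x : G) ∈ commutator (G ⧸ Z) :=
      fun x => hle (mem_map_of_mem _ x.2)
    let f : commutator G →* commutator (G ⧸ Z) :=
      ((QuotientGroup.mk' Z).comp (commutator G).subtype).codRestrict _ hmap
    apply Subgroup.isNilpotent_of_ker_le_center f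
    intro x hx
    rw [MonoidHom.mem_ker] at hx
    have hxZ : (x : G) ∈ Z := by
      rw [← QuotientGroup.eq_one_iff]
      exact congrArg (fun y : commutator (G ⧸ Z) => (y : G ⧸ Z)) hx
    rw [mem_center_iff]
    intro y
    apply Subtype.ext
    exact ((mem_centralizer_iff.mp (hcen y.2)) x hxZ).symm

/-- In a finite supersolvable group the commutator subgroup is nilpotent. -/
theorem result {G : Type*} [Group G] [Finite G] (hG : Cfsg.IsSupersolvable G) : Group.IsNilpotent (commutator G) := by
  exact aux _ G rfl hG

end Cfsg.Agent.S0526
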