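import Mathlib
import Cfsg.Statements.S0529
import Cfsg.Agent.Lib_helper1_SS4

set_option autoImplicit false
open Cfsg

namespace Cfsg.Agent.S0529

open Cfsg.Agent.H1 Subgroup
open scoped Pointwise

theorem aux.{u} : ∀ (k : ℕ) (G : Type u) [Group G] [Finite G], Nat.card G = k →
    Cfsg.IsSupersolvable G →
    ∃ (n : ℕ) (H : Fin (n + 1) → Subgroup G), H 0 = ⊥ ∧ H (Fin.last n) = ⊤ ∧ (∀ i, (H i).Normal) ∧
      (∀ i : Fin n, H i.castSucc ≤ H i.succ ∧ ((H i.castSucc).relIndex (H i.succ)).Prime) ∧
      ∀ i j : Fin n, i ≤ j →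
        (H j.castSucc).relIndex (H j.succ) ≤ (H i.castSucc).relIndex (H i.succ) := by
  intro k
  induction k using Nat.strong_induction_on with
  | _ k ih =>
    intro G _ _ hk hG
    by_cases h1 : Nat.card G = 1
    · have hs : (⊥ : Subgroup G) = ⊤ := by
        apply eq_top_of_card_eq
        rw [card_bot, h1]
      exact ⟨0, fun _ => ⊥, rfl, hs, fun _ => inferInstance, fun i => i.elim0, fun i => i.elim0⟩
    have hgt : 1 < Nat.card G := by
      have : 0 < Nat.card G := Nat.card_pos
      omega
    obtain ⟨p, hp, hpd, hmax⟩ := exists_largest_prime_dvd hgt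
    have : Fact p.Prime := ⟨hp⟩
    obtain ⟨P⟩ : Nonempty (Sylow p G) := inferInstance
    have hPn := ss_sylow_normal_of_largest hG hmax P
    obtain ⟨N, hNn, hNP, hNp⟩ := ss_exists_normal_prime_le hG P hPn (P.ne_bot_of_dvd_card hpd)
    have hNcard : Nat.card N = p := by
      obtain ⟨a, ha⟩ := P.2.exists_card_eq
      have h2 : Nat.card N ∣ p ^ a := ha ▸ card_dvd_of_le hNP
      exact (Nat.prime_dvd_prime_iff_eq hNp hp).mp (hNp.dvd_of_dvd_pow h2)
    obtain ⟨m, Hb, hb0, hbl, hbn, hbs, hbm⟩ := ih _ (hk ▸ card_quotient_lt (ne_bot_of_card_prime hNp))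
      (G ⧸ N) rfl (ss_quotient hG N)
    have hs := QuotientGroup.mk'_surjective N
    refine ⟨m + 1, Fin.cons ⊥ (fun i => (Hb i).comap (QuotientGroup.mk' N)), rfl, ?_, ?_, ?_, ?_⟩
    · rw [← Fin.succ_last, Fin.cons_succ, hbl, comap_top]
    · intro i
      refine Fin.cases ?_ (fun j => ?_) i
      · rw [Fin.cons_zero]; infer_instance
      · rw [Fin.cons_succ]; exact (hbn j).comap _
    all_goals
      have rel0 : ((Fin.cons ⊥ (fun i => (Hb i).comap (QuotientGroup.mk' N)) :
          Fin (m + 1 + 1) → Subgroup G) (0 : Fin (m + 1)).castSucc).relIndex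
          ((Fin.cons ⊥ (fun i => (Hb i).comap (QuotientGroup.mk' N)) :
          Fin (m + 1 + 1) → Subgroup G) (0 : Fin (m + 1)).succ) = p := by
        rw [Fin.castSucc_zero, Fin.cons_zero, Fin.cons_succ, hb0, MonoidHom.comap_bot,
          QuotientGroup.ker_mk', relIndex_bot_left, hNcard]
      have rels : ∀ j : Fin m, ((Fin.cons ⊥ (fun i => (Hb i).comap (QuotientGroup.mk' N)) :
          Fin (m + 1 + 1) → Subgroup G) j.succ.castSucc).relIndex
          ((Fin.cons ⊥ (fun i => (Hb i).comap (QuotientGroup.mk' N)) :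
          Fin (m + 1 + 1) → Subgroup G) j.succ.succ) = (Hb j.castSucc).relIndex (Hb j.succ) := by
        intro j
        rw [← Fin.succ_castSucc, Fin.cons_succ, Fin.cons_succ, relIndex_comap,
          map_comap_eq_self_of_surjective hs]
    · intro i
      refine Fin.cases ?_ (fun j => ?_) i
      · refine ⟨?_, rel0 ▸ hp⟩
        rw [Fin.castSucc_zero, Fin.cons_zero]; exact bot_le
      · refine ⟨?_, (rels j).symm ▸ (hbs j).2⟩
        rw [← Fin.succ_castSucc, Fin.cons_succ, Fin.cons_succ]
        exact comap_mono (hbs j).1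
    · have hle : ∀ j : Fin m, (Hb j.castSucc).relIndex (Hb j.succ) ≤ p := by
        intro j
        apply hmax _ (hbs j).2
        refine (relIndex_dvd_card _ _).trans ((card_subgroup_dvd_card _).trans ?_)
        exact ⟨Nat.card N, (card_quotient_mul_card N).symm⟩
      intro i j
      refine Fin.cases ?_ (fun i' => ?_) i
      · intro _
        rw [rel0]
        refine Fin.cases ?_ (fun j' => ?_) j
        · rw [rel0]
        · rw [rels]; exact hle j'
      · refine Fin.cases ?_ (fun j' => ?_) j
        · intro h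
          exact absurd h (by simp [Fin.le_def])
        · intro h
          rw [rels, rels]
          exact hbm i' j' (Fin.succ_le_succ_iff.mp h)

/-- A finite supersolvable group has a chain of normal subgroups, from the trivial subgroup to the whole group, in which every step has prime index and the primes occurring are non-increasing as one goes up the chain. -/
theorem result {G : Type*} [Group G] [Finite G] (hG : Cfsg.IsSupersolvable G) : ∃ (n : ℕ) (H : Fin (n + 1) → Subgroup G), H 0 = ⊥ ∧ H (Fin.last n) = ⊤ ∧ (∀ i, (H i).Normal) ∧ (∀ i : Fin n, H i.castSucc ≤ H i.succ ∧ ((H i.castSucc).relIndex (H i.succ)).Prime) ∧ ∀ i j : Fin n, i ≤ j → (H j.castSucc).relIndex (H j.succ) ≤ (H i.castSucc).relIndex (H i.succ) := by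
  exact aux _ G rfl hG

end Cfsg.Agent.S0529
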