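import Mathlib
import Cfsg.Statements.S0530
import Cfsg.Agent.Lib_helper1_SS3

set_option autoImplicit false
open Cfsg

namespace Cfsg.Agent.S0530

open Cfsg.Agent.H1 Subgroup
open scoped Pointwise

theorem exists_normal_card_p {G : Type*} [Group G] [Finite G] (p n : ℕ) [hp : Fact p.Prime]
    (hp2 : p ≠ 2) (hG : Nat.card G = 2 * p ^ (n + 1)) :
    ∃ N : Subgroup G, N.Normal ∧ Nat.card N = p := by
  obtain ⟨P⟩ : Nonempty (Sylow p G) := inferInstance
  have hcop : Nat.Coprime 2 p := (Nat.coprime_primes Nat.prime_two hp.out).mpr (Ne.symm hp2)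
  have hPcard : Nat.card (P : Subgroup G) = p ^ (n + 1) := by
    rw [P.card_eq_multiplicity, hG, Nat.factorization_mul (by norm_num) (pow_ne_zero _ hp.out.ne_zero),
      Nat.factorization_pow]
    simp [Nat.factorization_eq_zero_of_not_dvd (fun h => hp2 ((Nat.prime_dvd_prime_iff_eq hp.out Nat.prime_two).mp h)),
      hp.out.factorization_self]
  have hPidx : (P : Subgroup G).index = 2 := by
    have h1 := (P : Subgroup G).index_mul_card
    rw [hPcard, hG] at h1
    exact Nat.eq_of_mul_eq_mul_right (pow_pos hp.out.pos _) h1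
  have hPn : (P : Subgroup G).Normal := normal_of_index_eq_two hPidx
  have : Fact (Nat.Prime 2) := ⟨Nat.prime_two⟩
  obtain ⟨t, ht⟩ := exists_prime_orderOf_dvd_card' (G := G) 2 (hG ▸ Dvd.intro _ rfl)
  have htop : (P : Subgroup G) ⊔ zpowers t = ⊤ := by
    apply eq_top_of_card_eq
    apply Nat.dvd_antisymm (card_subgroup_dvd_card _)
    rw [hG]
    apply Nat.Coprime.mul_dvd_of_dvd_of_dvd (Nat.Coprime.pow_right _ hcop)
    · rw [← ht, ← Nat.card_zpowers]; exact card_dvd_of_le le_sup_right
    · rw [← hPcard]; exact card_dvd_of_le le_sup_left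
  have hZn : ((P : Subgroup G) ⊓ centralizer ((P : Subgroup G) : Set G)).Normal := inferInstance
  have hZp : IsPGroup p ((P : Subgroup G) ⊓ centralizer ((P : Subgroup G) : Set G) : Subgroup G) :=
    P.2.to_le inf_le_left
  have hZne : (P : Subgroup G) ⊓ centralizer ((P : Subgroup G) : Set G) ≠ ⊥ := by
    have hnt : Nontrivial (P : Subgroup G) := by
      rw [← Finite.one_lt_card_iff_nontrivial, hPcard]
      exact Nat.one_lt_pow (by omega) hp.out.one_lt
    have h1 := P.2.center_nontrivial
    obtain ⟨z, hz⟩ := exists_ne (1 : center (P : Subgroup G))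
    intro hb
    apply hz
    have h2 : ((z : (P : Subgroup G)) : G) ∈ (P : Subgroup G) ⊓ centralizer ((P : Subgroup G) : Set G) := by
      refine Subgroup.mem_inf.mpr ⟨(z : (P : Subgroup G)).2, ?_⟩
      rw [mem_centralizer_iff]
      intro y hy
      exact congrArg Subtype.val (mem_center_iff.mp z.2 ⟨y, hy⟩)
    rw [hb, mem_bot] at h2
    exact Subtype.ext (Subtype.ext h2)
  have hpd : p ∣ Nat.card ((P : Subgroup G) ⊓ centralizer ((P : Subgroup G) : Set G) : Subgroup G) := by
    obtain ⟨k, hk⟩ := hZp.exists_card_eq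
    rw [hk]
    apply dvd_pow_self
    rintro rfl
    exact hZne (card_eq_one.mp (by rw [hk, pow_zero]))
  obtain ⟨z, hz⟩ := exists_prime_orderOf_dvd_card' p hpd
  have hzo : orderOf (z : G) = p := by rw [orderOf_coe, hz]
  have hzZ := z.2
  have hcommZ : ∀ a ∈ (P : Subgroup G) ⊓ centralizer ((P : Subgroup G) : Set G),
      ∀ b ∈ (P : Subgroup G), b * a = a * b := by
    intro a ha b hb
    exact mem_centralizer_iff.mp ha.2 b hb
  -- any y in Z(P) of order p with t y t⁻¹ in zpowers y generates a normal subgroup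
  have key : ∀ y ∈ (P : Subgroup G) ⊓ centralizer ((P : Subgroup G) : Set G), orderOf y = p →
      t * y * t⁻¹ ∈ zpowers y → ∃ N : Subgroup G, N.Normal ∧ Nat.card N = p := by
    intro y hy hyo hty
    refine ⟨zpowers y, ?_, by rw [Nat.card_zpowers, hyo]⟩
    apply normalizer_eq_top_iff.mp
    rw [eq_top_iff, ← htop]
    refine sup_le ?_ ?_
    · apply le_normalizer_of_forall
      intro g hg x hx
      obtain ⟨i, rfl⟩ := mem_zpowers_iff.mp hx
      have h1 : g * y ^ i * g⁻¹ = y ^ i := by
        have h2 : Commute g y := hcommZ y hy g hg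
        rw [(h2.zpow_right i).eq]; group
      rw [h1]; exact zpow_mem (mem_zpowers y) i
    · apply le_normalizer_of_forall
      intro g hg x hx
      obtain ⟨j, rfl⟩ := mem_zpowers_iff.mp hg
      obtain ⟨i, rfl⟩ := mem_zpowers_iff.mp hx
      have h1 : ∀ u ∈ zpowers y, t * u * t⁻¹ ∈ zpowers y := by
        intro u hu
        obtain ⟨k, rfl⟩ := mem_zpowers_iff.mp hu
        have : t * y ^ k * t⁻¹ = (t * y * t⁻¹) ^ k := by rw [conj_zpow]
        rw [this]; exact zpow_mem hty k
      have h2 : t ∈ normalizer ((zpowers y : Subgroup G) : Set G) := by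
        have h3 : zpowers t ≤ normalizer ((zpowers y : Subgroup G) : Set G) := by
          rw [zpowers_le, ← conj_smul_eq_iff_mem_normalizer]
          apply Subgroup.eq_of_le_of_card_ge _ (card_conj_smul t _).ge
          intro u hu
          rw [mem_conj_smul] at hu
          have h4 := h1 _ hu
          have h5 : t * (t⁻¹ * u * t) * t⁻¹ = u := by group
          rwa [h5] at h4
        exact h3 (mem_zpowers t)
      exact (mem_normalizer_iff.mp (zpow_mem h2 j) _).mp (zpow_mem (mem_zpowers y) i)
  have hz' : t * (z : G) * t⁻¹ ∈ (P : Subgroup G) ⊓ centralizer ((P : Subgroup G) : Set G) :=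
    hZn.conj_mem _ hzZ t
  have ht2 : t * t = 1 := by
    have := pow_orderOf_eq_one t
    rwa [ht, pow_two] at this
  have htinv : t⁻¹ = t := inv_eq_of_mul_eq_one_left ht2
  have hcz : Commute (z : G) (t * (z : G) * t⁻¹) := hcommZ _ hz' _ hzZ.1
  by_cases hw : (z : G) * (t * (z : G) * t⁻¹) = 1
  · apply key (z : G) hzZ hzo
    have : t * (z : G) * t⁻¹ = (z : G)⁻¹ := (inv_eq_of_mul_eq_one_right hw).symm
    rw [this]; exact inv_mem (mem_zpowers _)
  · apply key _ (mul_mem hzZ hz')
    · apply orderOf_eq_prime _ hw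
      have hzp : (z : G) ^ p = 1 := by
        have := pow_orderOf_eq_one (z : G)
        rwa [hzo] at this
      rw [hcz.mul_pow, conj_pow, hzp]; group
    · have : t * ((z : G) * (t * (z : G) * t⁻¹)) * t⁻¹ = (z : G) * (t * (z : G) * t⁻¹) := by
        have h3 : t * ((z : G) * (t * (z : G) * t⁻¹)) * t⁻¹
            = (t * (z : G) * t⁻¹) * ((t * t) * (z : G) * (t * t)⁻¹) := by group
        rw [h3, ht2, one_mul, inv_one, mul_one]
        exact hcz.eq.symm
      rw [this]; exact mem_zpowers _

theorem aux.{u} (p : ℕ) [hp : Fact p.Prime] (hp2 : p ≠ 2) : ∀ (n : ℕ) (G : Type u) [Group G]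
    [Finite G], Nat.card G = 2 * p ^ n → Cfsg.IsSupersolvable G := by
  intro n
  induction n with
  | zero =>
    intro G _ _ hG
    have : Fact (Nat.Prime 2) := ⟨Nat.prime_two⟩
    have h1 : IsPGroup 2 G := IsPGroup.of_card (n := 1) (by rw [hG]; norm_num)
    exact ss_of_nilpotent h1.isNilpotent
  | succ n ih =>
    intro G _ _ hG
    obtain ⟨N, hNn, hN⟩ := exists_normal_card_p p n hp2 hG
    have hc : IsCyclic N := isCyclic_of_prime_card hN
    apply Cfsg.Agent.S0528.result N
    apply ih
    have h1 := card_quotient_mul_card N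
    rw [hN, hG, pow_succ, ← mul_assoc] at h1
    exact Nat.eq_of_mul_eq_mul_right hp.out.pos h1

/-- A finite group whose order is twice a prime power is supersolvable. -/
theorem result {G : Type*} [Group G] [Finite G] (p n : ℕ) (hp : p.Prime) (hG : Nat.card G = 2 * p ^ n) : Cfsg.IsSupersolvable G := by
  have : Fact p.Prime := ⟨hp⟩
  by_cases hp2 : p = 2
  · subst hp2
    have h1 : IsPGroup 2 G := IsPGroup.of_card (n := n + 1) (by rw [hG, pow_succ, mul_comm])
    exact ss_of_nilpotent h1.isNilpotent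
  · exact aux p hp2 n G hG

end Cfsg.Agent.S0530
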