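import Mathlib
import Cfsg.Statements.S0532
import Cfsg.Agent.Lib_helper1_SS3

set_option autoImplicit false
open Cfsg

namespace Cfsg.Agent.S0532

open Cfsg.Agent.H1 Subgroup
open scoped Pointwise

theorem clt_congr {A B : Type*} [Group A] [Group B] (e : A ≃* B)
    (h : Cfsg.HasSubgroupOfEveryOrder A) : Cfsg.HasSubgroupOfEveryOrder B := by
  intro d hd
  rw [← Nat.card_congr e.toEquiv] at hd
  obtain ⟨K, hK⟩ := h d hd
  exact ⟨K.map e.toMonoidHom, by rw [card_map_of_injective e.injective, hK]⟩

theorem aux.{u} (p : ℕ) [hp : Fact p.Prime] : ∀ (n : ℕ) (G : Type u) [Group G] [Finite G],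
    Nat.card G = n → (∀ H : Subgroup G, Cfsg.HasSubgroupOfEveryOrder H) → p ∣ Nat.card G →
    (∀ q : ℕ, q.Prime → q ∣ Nat.card G → q ≤ p) → ∀ P : Sylow p G, (P : Subgroup G).Normal := by
  intro n
  induction n using Nat.strong_induction_on with
  | _ n ih =>
    intro G _ _ hn h hdvd hmax P
    have hne1 : Nat.card G ≠ 1 := by
      intro h1
      rw [h1] at hdvd
      exact hp.out.one_lt.ne' (Nat.dvd_one.mp hdvd)
    have hqp : (Nat.card G).minFac.Prime := Nat.minFac_prime hne1
    have hqd : (Nat.card G).minFac ∣ Nat.card G := Nat.minFac_dvd _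
    by_cases hq : (Nat.card G).minFac = p
    · have h1 : IsPGroup p G := by
        have h2 : Nat.card G = p ^ (Nat.card G).primeFactorsList.length := by
          apply Nat.eq_prime_pow_of_unique_prime_dvd Nat.card_pos.ne'
          intro r hr hrd
          apply le_antisymm (hmax r hr hrd)
          rw [← hq]
          exact Nat.minFac_le_of_dvd hr.two_le hrd
        exact IsPGroup.of_card h2
      have h2 : (P : Subgroup G) = ⊤ := by
        have h3 : IsPGroup p (⊤ : Subgroup G) := h1.of_equiv topEquiv.symm
        exact (P.3 h3 le_top).symm ▸ rfl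
      rw [h2]; infer_instance
    · obtain ⟨M0, hM0⟩ := h ⊤ (Nat.card G / (Nat.card G).minFac) (by
        rw [card_top]; exact Nat.div_dvd_of_dvd hqd)
      have hMcard : Nat.card (M0.map (⊤ : Subgroup G).subtype) = Nat.card G / (Nat.card G).minFac := by
        rw [card_map_of_injective (subtype_injective _), hM0]
      obtain ⟨M, hM⟩ : ∃ M : Subgroup G, M = M0.map (⊤ : Subgroup G).subtype := ⟨_, rfl⟩
      rw [← hM] at hMcard
      have hmul : (Nat.card G).minFac * Nat.card M = Nat.card G := by
        rw [hMcard]; exact Nat.mul_div_cancel' hqd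
      have hMidx : M.index = (Nat.card G).minFac := by
        have h1 := M.index_mul_card
        rw [← hmul] at h1
        exact Nat.eq_of_mul_eq_mul_right Nat.card_pos h1
      have hMn : M.Normal := normal_of_index_eq_minFac_card hMidx
      have hcop : Nat.Coprime p (Nat.card G).minFac :=
        (Nat.coprime_primes hp.out hqp).mpr (Ne.symm hq)
      have hPM : (P : Subgroup G) ≤ M := by
        apply le_normal_of_coprime_index
        obtain ⟨a, ha⟩ := P.2.exists_card_eq
        rw [ha, hMidx]
        exact Nat.Coprime.pow_left _ hcop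
      have hlt : Nat.card M < n := by
        rw [← hn, ← hmul]
        have := hqp.two_le
        have h2 : 0 < Nat.card M := Nat.card_pos
        nlinarith
      have h1 := ih _ hlt M rfl (fun H' =>
        clt_congr (H'.equivMapOfInjective M.subtype M.subtype_injective).symm (h _))
        (by
          rw [← hmul] at hdvd
          exact Nat.Coprime.dvd_of_dvd_mul_left hcop hdvd)
        (fun r hr hrd => hmax r hr (hrd.trans (card_subgroup_dvd_card M))) (P.subtype hPM)
      have h2 := normal_of_normal_hall_of_normal M ((P.subtype hPM : Sylow p M) : Subgroup M) (by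
        obtain ⟨b, hb⟩ := (P.subtype hPM).2.exists_card_eq
        rw [hb]
        exact Nat.Coprime.pow_left _
          ((Nat.Prime.coprime_iff_not_dvd hp.out).mpr (P.subtype hPM).not_dvd_index))
      rw [Sylow.coe_subtype, subgroupOf_map_subtype, inf_of_le_left hPM] at h2
      exact h2

/-- If each subgroup of a finite group satisfies the converse of Lagrange's theorem, then a Sylow subgroup for the largest prime dividing the group order is normal. -/
theorem result {G : Type*} [Group G] [Finite G] (h : ∀ H : Subgroup G, Cfsg.HasSubgroupOfEveryOrder H) (p : ℕ) [Fact p.Prime] (hdvd : p ∣ Nat.card G) (hmax : ∀ q : ℕ, q.Prime → q ∣ Nat.card G → q ≤ p) (P : Sylow p G) : (P : Subgroup G).Normal := by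
  exact aux p _ G rfl h hdvd hmax P

end Cfsg.Agent.S0532
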