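import Mathlib
import Cfsg.Statements.S0579
import Cfsg.Agent.Lib_helper1_SS7

set_option autoImplicit false
open Cfsg

namespace Cfsg.Agent.S0579

open Subgroup Cfsg.Agent.H1
open scoped Pointwise

theorem exists_largest_prime {n : ℕ} (hn : 1 < n) :
    ∃ p, p.Prime ∧ p ∣ n ∧ ∀ q, q.Prime → q ∣ n → q ≤ p := by
  have hne : n.primeFactors.Nonempty := by
    rw [Nat.nonempty_primeFactors]; exact hn
  refine ⟨n.primeFactors.max' hne, ?_, ?_, ?_⟩
  · exact Nat.prime_of_mem_primeFactors (Finset.max'_mem _ hne)
  · exact Nat.dvd_of_mem_primeFactors (Finset.max'_mem _ hne)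
  · intro q hq hqd
    exact Finset.le_max' _ q (Nat.mem_primeFactors.mpr ⟨hq, hqd, by omega⟩)

theorem le_normalizer_inf_centralizer {G : Type*} [Group G] (P K K₀ : Subgroup G) [hP : P.Normal]
    (h : K ≤ normalizer (K₀ : Set G)) :
    K ≤ normalizer ((P ⊓ centralizer (K₀ : Set G) : Subgroup G) : Set G) := by
  apply le_normalizer_of_forall
  intro k hk x hx
  refine mem_inf.mpr ⟨hP.conj_mem x hx.1 k, ?_⟩
  rw [mem_centralizer_iff]
  intro y hy
  have h1 := conj_mem_of_le_normalizer' h hk hy
  have h2 := (mem_centralizer_iff.mp hx.2) _ h1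
  calc y * (k * x * k⁻¹) = k * ((k⁻¹ * y * k) * x) * k⁻¹ := by group
    _ = k * (x * (k⁻¹ * y * k)) * k⁻¹ := by rw [h2]
    _ = k * x * k⁻¹ * y := by group

theorem aux.{u} : ∀ (n : ℕ) (G : Type u) [Group G] [Finite G], Nat.card G = n →
    (∀ M : Subgroup G, IsCoatom M → M.index.Prime) → Cfsg.IsSupersolvable G := by
  intro n
  induction n using Nat.strong_induction_on with
  | _ n ih =>
    intro G _ _ hn h
    by_cases h1 : Nat.card G = 1
    · have : Subsingleton G := (Nat.card_eq_one_iff_unique.mp h1).1
      exact ss_of_subsingleton G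
    obtain ⟨p, hp, hpd, hmax⟩ := exists_largest_prime (n := Nat.card G) (by
      have := Nat.card_pos (α := G); omega)
    haveI : Fact p.Prime := ⟨hp⟩
    let P : Sylow p G := default
    have hPn : (P : Subgroup G).Normal := sylow_normal_of_largest_of_coatom_index_prime h hmax P
    have hPne : (P : Subgroup G) ≠ ⊥ := P.ne_bot_of_dvd_card hpd
    have hss : Cfsg.IsSupersolvable (G ⧸ (P : Subgroup G)) := by
      apply ih _ (by rw [← hn]; exact card_quotient_lt hPne) _ rfl
      intro L hL
      have := h _ (isCoatom_comap_mk _ hL)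
      rwa [index_comap_of_surjective _ (QuotientGroup.mk'_surjective _)] at this
    obtain ⟨K, hK⟩ := exists_right_complement'_of_coprime (N := (P : Subgroup G))
      P.card_coprime_index
    have hPK : (P : Subgroup G) ⊔ K = ⊤ := hK.sup_eq_top
    have e2 : Nat.card (P : Subgroup G) * Nat.card K = Nat.card G := hK.card_mul_card
    have hKi : Nat.card K = (P : Subgroup G).index := by
      have e3 := (P : Subgroup G).card_mul_index
      rw [← e2] at e3
      exact (Nat.eq_of_mul_eq_mul_left Nat.card_pos e3).symm
    apply ss_of_cK _ G p P K rfl P.2 hPK ?_ hss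
    by_contra hnot
    set K₀ := cK p K with hK₀
    set C := (P : Subgroup G) ⊓ centralizer (K₀ : Set G) with hC
    have hKC : K ≤ normalizer (C : Set G) :=
      le_normalizer_inf_centralizer _ K K₀ (le_normalizer_cK p K)
    have hCne : C ≠ (P : Subgroup G) := by
      intro he
      apply hnot
      rw [le_centralizer_iff]
      rw [← he]
      exact inf_le_right
    have hCK : C ⊔ K ≠ ⊤ := by
      intro htop
      have e1 := card_sup_mul_card_inf' C K hKC
      rw [htop, card_top] at e1
      have h3 : Nat.card (P : Subgroup G) ≤ Nat.card C := by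
        have : Nat.card (P : Subgroup G) * Nat.card K ≤ Nat.card C * Nat.card K := by
          rw [e2, ← e1]; exact Nat.le_mul_of_pos_right _ Nat.card_pos
        exact Nat.le_of_mul_le_mul_right this Nat.card_pos
      exact hCne (eq_of_le_of_card_ge inf_le_left h3)
    obtain ⟨M, hM, hle⟩ := (eq_top_or_exists_le_coatom _).resolve_left hCK
    have hPM : (P : Subgroup G) ⊔ M = ⊤ :=
      eq_top_iff.mpr (hPK ▸ sup_le_sup_left (le_sup_right.trans hle) _)
    have hMp : M.index = p := by
      have e := card_sup_mul_card_inf M (P : Subgroup G)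
      rw [sup_comm, hPM, card_top, ← M.index_mul_card] at e
      have e' : M.index * Nat.card (M ⊓ (P : Subgroup G) : Subgroup G)
          = Nat.card (P : Subgroup G) := by
        have : Nat.card M * (M.index * Nat.card (M ⊓ (P : Subgroup G) : Subgroup G))
            = Nat.card M * Nat.card (P : Subgroup G) := by rw [← e]; ring
        exact Nat.eq_of_mul_eq_mul_left Nat.card_pos this
      have hd : M.index ∣ Nat.card (P : Subgroup G) := ⟨_, e'.symm⟩
      obtain ⟨m, hm⟩ := P.2.exists_card_eq
      rw [hm] at hd
      exact (Nat.prime_dvd_prime_iff_eq (h M hM) hp).mp ((h M hM).dvd_of_dvd_pow hd)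
    have h2 := commutator_cK_le_of_index (P : Subgroup G) M K P.2 hPM hMp
    have h3 := coprime_comm_sup_centralizer K₀ (P : Subgroup G)
      (by rw [normalizer_eq_top_iff.mpr hPn]; exact le_top)
      (Nat.Coprime.coprime_dvd_left (card_dvd_of_le (cK_le p K))
        (by rw [hKi]; exact P.card_coprime_index.symm))
      (Or.inr (isSolvable_of_isPGroup P.2))
    have h4 : (P : Subgroup G) ≤ M := by
      rw [← h3]
      exact sup_le (h2.trans inf_le_left) (le_sup_left.trans hle)
    exact hM.1 (eq_top_iff.mpr (hPM ▸ sup_le h4 le_rfl))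

/-- Huppert's supersolvability criterion: if every maximal subgroup of a finite group has prime index, then the group is supersolvable. -/
theorem result {G : Type*} [Group G] [Finite G] (h : ∀ M : Subgroup G, IsCoatom M → M.index.Prime) : Cfsg.IsSupersolvable G := by
  exact aux _ G rfl h

end Cfsg.Agent.S0579
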