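import Mathlib
import Cfsg.Statements.S0533
import Cfsg.Agent.Lib_helper1_SS7
import Cfsg.Agent.Lib_helper1_Coprime
import Cfsg.Agent.S0579

set_option autoImplicit false
open Cfsg

namespace Cfsg.Agent.S0533

open Subgroup Cfsg.Agent.H1
open scoped Pointwise

theorem clt_of_mulEquiv {A B : Type*} [Group A] [Group B] (e : A ≃* B)
    (h : Cfsg.HasSubgroupOfEveryOrder A) : Cfsg.HasSubgroupOfEveryOrder B := by
  intro d hd
  obtain ⟨H, hH⟩ := h d (by rwa [Nat.card_congr e.toEquiv])
  exact ⟨H.map e.toMonoidHom, by
    rw [← hH]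
    exact (Nat.card_congr (H.equivMapOfInjective _ e.injective).toEquiv).symm⟩

theorem sup_eq_top_of_index_prime {G : Type*} [Group G] {P L : Subgroup G} (hL : L.index.Prime)
    (hPL : ¬ P ≤ L) : P ⊔ L = ⊤ := by
  have hd : (P ⊔ L).index ∣ L.index := index_dvd_of_le le_sup_right
  rcases (Nat.dvd_prime hL).mp hd with h1 | h1
  · exact index_eq_one.mp h1
  · exfalso
    have h2 := relIndex_mul_index (le_sup_right : L ≤ P ⊔ L)
    rw [h1] at h2
    have h3 : L.relIndex (P ⊔ L) = 1 := by
      have : L.relIndex (P ⊔ L) * L.index = 1 * L.index := by rw [h2, one_mul]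
      exact Nat.eq_of_mul_eq_mul_right hL.pos this
    exact hPL (le_sup_left.trans (relIndex_eq_one.mp h3))

theorem aux.{u} : ∀ (n : ℕ) (G : Type u) [Group G] [Finite G], Nat.card G = n →
    (∀ H : Subgroup G, Cfsg.HasSubgroupOfEveryOrder H) → Cfsg.IsSupersolvable G := by
  intro n
  induction n using Nat.strong_induction_on with
  | _ n ih =>
    intro G _ _ hn h
    have hsub : ∀ L : Subgroup G, L ≠ ⊤ → Cfsg.IsSupersolvable L := by
      intro L hL
      apply ih _ (by rw [← hn]; exact card_lt_of_ne_top hL) L rfl
      intro H'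
      exact clt_of_mulEquiv (H'.equivMapOfInjective _ L.subtype_injective).symm
        (h (H'.map L.subtype))
    have hG : Cfsg.HasSubgroupOfEveryOrder G := clt_of_mulEquiv Subgroup.topEquiv (h ⊤)
    by_cases h1 : Nat.card G = 1
    · have : Subsingleton G := (Nat.card_eq_one_iff_unique.mp h1).1
      exact ss_of_subsingleton G
    obtain ⟨p, hp, hpd, hmax⟩ := Cfsg.Agent.S0579.exists_largest_prime (n := Nat.card G) (by
      have := Nat.card_pos (α := G); omega)
    haveI : Fact p.Prime := ⟨hp⟩
    set q := (Nat.card G).minFac with hq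
    have hqp : q.Prime := Nat.minFac_prime h1
    have hqd : q ∣ Nat.card G := Nat.minFac_dvd _
    by_cases hpq : p = q
    · -- p-group
      have hc : Nat.card G = p ^ (Nat.card G).primeFactorsList.length := by
        apply Nat.eq_prime_pow_of_unique_prime_dvd Nat.card_pos.ne'
        intro d hd hdd
        have h2 : q ≤ d := Nat.minFac_le_of_dvd hd.two_le hdd
        have h3 : d ≤ p := hmax d hd hdd
        omega
      exact ss_of_nilpotent (IsPGroup.of_card hc).isNilpotent
    let P : Sylow p G := default
    have hPnd : ¬ p ∣ (P : Subgroup G).index := P.not_dvd_index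
    have hPn : (P : Subgroup G).Normal := by
      obtain ⟨H, hH⟩ := hG (Nat.card G / q) (Nat.div_dvd_of_dvd hqd)
      have hHi : H.index = q := by
        have e1 := H.index_mul_card
        rw [hH] at e1
        have e2 : q * (Nat.card G / q) = Nat.card G := Nat.mul_div_cancel' hqd
        have hpos : 0 < Nat.card G / q := Nat.div_pos (Nat.le_of_dvd Nat.card_pos hqd) hqp.pos
        exact Nat.eq_of_mul_eq_mul_right hpos (e1.trans e2.symm)
      have hHn : H.Normal := normal_of_index_eq_minFac_card hHi
      have hHne : H ≠ ⊤ := by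
        intro ht
        rw [ht, index_top] at hHi
        exact hqp.one_lt.ne hHi
      have hHss := hsub H hHne
      have hPH : (P : Subgroup G) ≤ H := le_of_isPGroup_of_not_dvd_index P.2 (by
        rw [hHi]
        intro hd
        exact hpq ((Nat.prime_dvd_prime_iff_eq hp hqp).mp hd))
      obtain ⟨P', hP', -⟩ := exists_sylow_of_relIndex hPH P.2
        (fun hd => hPnd (hd.trans (relIndex_dvd_index_of_le hPH)))
      have hP'n : (P' : Subgroup H).Normal := ss_sylow_normal_of_largest hHss
        (fun r hr hrd => hmax r hr (hrd.trans (card_subgroup_dvd_card H))) P'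
      refine ⟨fun x hx g => ?_⟩
      have hU : IsPGroup p ((MulAut.conj g • (P : Subgroup G)).subgroupOf H) :=
        isPGroup_subgroupOf (P.2.map (MulAut.conj g).toMonoidHom) H
      have hle := le_of_isPGroup_of_not_dvd_index (N := (P' : Subgroup H)) hU P'.not_dvd_index
      have hmem : (⟨g * x * g⁻¹, hHn.conj_mem x (hPH hx) g⟩ : H) ∈
          (MulAut.conj g • (P : Subgroup G)).subgroupOf H := by
        rw [mem_subgroupOf]
        exact ⟨x, hx, rfl⟩
      have := hle hmem
      rw [hP', mem_subgroupOf] at this
      exact this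
    obtain ⟨L, hL⟩ := hG (Nat.card G / p) (Nat.div_dvd_of_dvd hpd)
    have hLi : L.index = p := by
      have e1 := L.index_mul_card
      rw [hL] at e1
      have e2 : p * (Nat.card G / p) = Nat.card G := Nat.mul_div_cancel' hpd
      have hpos : 0 < Nat.card G / p := Nat.div_pos (Nat.le_of_dvd Nat.card_pos hpd) hp.pos
      exact Nat.eq_of_mul_eq_mul_right hpos (e1.trans e2.symm)
    have hLne : L ≠ ⊤ := by
      intro ht
      rw [ht, index_top] at hLi
      exact hp.one_lt.ne hLi
    have hLss := hsub L hLne
    have hPL : (P : Subgroup G) ⊔ L = ⊤ := sup_eq_top_of_index_prime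
      (by rw [hLi]; exact hp) (fun hle => hPnd (by
        have h9 := index_dvd_of_le hle
        rwa [hLi] at h9))
    have hri : (P : Subgroup G).relIndex L = (P : Subgroup G).index := by
      rw [← relIndex_sup_left, hPL, relIndex_top_right]
    obtain ⟨m, hm⟩ := (isPGroup_subgroupOf P.2 L).exists_card_eq
    obtain ⟨K', hK'⟩ := exists_right_complement'_of_coprime (N := (P : Subgroup G).subgroupOf L) (by
      rw [hm]
      apply Nat.Coprime.pow_left
      rw [Nat.Prime.coprime_iff_not_dvd hp]
      show ¬ p ∣ (P : Subgroup G).relIndex L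
      rw [hri]; exact hPnd)
    set K := K'.map L.subtype with hK
    have hK'c : (Nat.card K').Coprime p := by
      have e3 : Nat.card K' = ((P : Subgroup G).subgroupOf L).index := by
        have e4 := hK'.card_mul_card
        have e5 := ((P : Subgroup G).subgroupOf L).card_mul_index
        rw [← e4] at e5
        exact (Nat.eq_of_mul_eq_mul_left Nat.card_pos e5).symm
      rw [e3, Nat.coprime_comm, Nat.Prime.coprime_iff_not_dvd hp]
      show ¬ p ∣ (P : Subgroup G).relIndex L
      rw [hri]; exact hPnd
    have hKc : (Nat.card K).Coprime p := Nat.Coprime.coprime_dvd_left (card_map_dvd _ _) hK'c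
    have hPK : (P : Subgroup G) ⊔ K = ⊤ := by
      have e6 := congrArg (Subgroup.map L.subtype) hK'.sup_eq_top
      rw [Subgroup.map_sup, subgroupOf_map_subtype, ← MonoidHom.range_eq_map, range_subtype] at e6
      rw [eq_top_iff, ← hPL]
      refine sup_le le_sup_left ?_
      rw [← e6]
      exact sup_le (inf_le_left.trans le_sup_left) le_sup_right
    have hc1 : cK p K ≤ centralizer ((L ⊓ (P : Subgroup G) : Subgroup G) : Set G) := by
      have h5 := ss_cK _ L p ((P : Subgroup G).subgroupOf L) K' rfl hLss
        (isPGroup_subgroupOf P.2 L) hK'c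
      have h6 := map_le_centralizer_map L.subtype h5
      rw [map_cK, subgroupOf_map_subtype, inf_comm] at h6
      exact h6
    have hc2 := commutator_cK_le_of_index (P : Subgroup G) L K P.2 hPL hLi
    obtain ⟨m', hm'⟩ := P.2.exists_card_eq
    have hC : cK p K ≤ centralizer ((P : Subgroup G) : Set G) :=
      centralizes_of_stab_chain (cK p K) P (L ⊓ (P : Subgroup G))
        (by rw [normalizer_eq_top_iff.mpr hPn]; exact le_top)
        (by
          rw [hm']
          exact Nat.Coprime.pow_right m'
            (Nat.Coprime.coprime_dvd_left (card_dvd_of_le (cK_le p K)) hKc))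
        (Or.inr (isSolvable_of_isPGroup P.2)) hc2 hc1
    have hss : Cfsg.IsSupersolvable (G ⧸ (P : Subgroup G)) := by
      refine ss_of_surjective ((QuotientGroup.mk' (P : Subgroup G)).comp L.subtype) ?_ hLss
      have e7 := congrArg (Subgroup.map (QuotientGroup.mk' (P : Subgroup G))) hPL
      rw [Subgroup.map_sup, QuotientGroup.map_mk'_self, bot_sup_eq,
        map_top_of_surjective _ (QuotientGroup.mk'_surjective _)] at e7
      intro y
      have hy : y ∈ L.map (QuotientGroup.mk' (P : Subgroup G)) := by rw [e7]; trivial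
      obtain ⟨l, hl, rfl⟩ := hy
      exact ⟨⟨l, hl⟩, rfl⟩
    exact ss_of_cK _ G p P K rfl P.2 hPK hC hss

/-- If every subgroup of a finite group has subgroups of all orders dividing its order, then the group is supersolvable. -/
theorem result {G : Type*} [Group G] [Finite G] (h : ∀ H : Subgroup G, Cfsg.HasSubgroupOfEveryOrder H) : Cfsg.IsSupersolvable G := by
  exact aux _ G rfl h

end Cfsg.Agent.S0533
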