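import Mathlib
import Cfsg.Statements.S0534
import Cfsg.Agent.Lib_helper1_SS3

set_option autoImplicit false
open Cfsg

namespace Cfsg.Agent.S0534

open Cfsg.Agent.H1 Subgroup

theorem arith (g a d : ℕ) (hg : g ≠ 0) (ha : a ≠ 0) (hd : d ∣ g * a)
    (hexp : ∀ p : ℕ, p.Prime → p ∣ g → a.factorization p + 1 = g.factorization p) :
    ∃ m e : ℕ, d = m * e ∧ m ∣ g ∧ m.Coprime (g / m) ∧ e ∣ a := by
  classical
  have hd0 : d ≠ 0 := by
    rintro rfl
    exact (mul_ne_zero hg ha) (zero_dvd_iff.mp hd)
  set f := g.factorization.filter (fun p => a.factorization p < d.factorization p) with hfdef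
  have hf : ∀ p ∈ f.support, p.Prime := by
    intro p hp
    rw [hfdef, Finsupp.support_filter, Finset.mem_filter] at hp
    exact Nat.prime_of_mem_primeFactors (by simpa using hp.1)
  set m := f.prod (· ^ ·) with hmdef
  have hm : m.factorization = f := Nat.prod_pow_factorization_eq_self hf
  have hm0 : m ≠ 0 := by
    rw [hmdef, Finsupp.prod]
    exact Finset.prod_ne_zero_iff.mpr (fun p hp => pow_ne_zero _ (hf p hp).ne_zero)
  have hfp : ∀ p, m.factorization p =
      if a.factorization p < d.factorization p then g.factorization p else 0 := by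
    intro p
    rw [hm, hfdef, Finsupp.filter_apply]
  have hmg : m ∣ g := by
    rw [← Nat.factorization_le_iff_dvd hm0 hg]
    intro p
    rw [hfp]
    split_ifs <;> omega
  have hdle : ∀ p, d.factorization p ≤ g.factorization p + a.factorization p := by
    intro p
    have := (Nat.factorization_le_iff_dvd hd0 (mul_ne_zero hg ha)).mpr hd p
    rwa [Nat.factorization_mul hg ha] at this
  have hmd : m ∣ d := by
    rw [← Nat.factorization_le_iff_dvd hm0 hd0]
    intro p
    rw [hfp]
    split_ifs with h
    · by_cases hp : p.Prime ∧ p ∣ g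
      · have := hexp p hp.1 hp.2
        omega
      · have : g.factorization p = 0 := by
          by_contra h0
          apply hp
          have h1 : p ∈ g.primeFactors := by
            rw [← Nat.support_factorization]; exact Finsupp.mem_support_iff.mpr h0
          exact ⟨Nat.prime_of_mem_primeFactors h1, Nat.dvd_of_mem_primeFactors h1⟩
        omega
    · omega
  refine ⟨m, d / m, (Nat.mul_div_cancel' hmd).symm, hmg, ?_, ?_⟩
  · apply Nat.coprime_of_dvd
    intro k hk hkm hkg
    have h1 : 1 ≤ m.factorization k := (Nat.Prime.dvd_iff_one_le_factorization hk hm0).mp hkm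
    have hgm0 : g / m ≠ 0 := by
      have := Nat.div_pos (Nat.le_of_dvd (Nat.pos_of_ne_zero hg) hmg) (Nat.pos_of_ne_zero hm0)
      omega
    have h2 : 1 ≤ (g / m).factorization k := (Nat.Prime.dvd_iff_one_le_factorization hk hgm0).mp hkg
    rw [Nat.factorization_div hmg] at h2
    have h3 : (g.factorization - m.factorization) k = g.factorization k - m.factorization k := rfl
    rw [h3] at h2
    rw [hfp] at h1 h2
    split_ifs at h1 h2 <;> omega
  · have hdm0 : d / m ≠ 0 := by
      have := Nat.div_pos (Nat.le_of_dvd (Nat.pos_of_ne_zero hd0) hmd) (Nat.pos_of_ne_zero hm0)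
      omega
    rw [← Nat.factorization_le_iff_dvd hdm0 ha]
    intro p
    rw [Nat.factorization_div hmd]
    have h3 : (d.factorization - m.factorization) p = d.factorization p - m.factorization p := rfl
    rw [h3, hfp]
    have := hdle p
    split_ifs <;> omega

/-- Let G be a finite solvable group and A a finite abelian group such that every prime dividing the order of A divides the order of G and, for each prime p dividing the order of G, the exponent of p in the order of A is one less than its exponent in the order of G. Then G × A has a subgroup of every order dividing its order. -/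
theorem result {G A : Type*} [Group G] [CommGroup A] [Finite G] [Finite A] [Group.IsSolvable G] (hA : ∀ p : ℕ, p.Prime → p ∣ Nat.card A → p ∣ Nat.card G) (hexp : ∀ p : ℕ, p.Prime → p ∣ Nat.card G → (Nat.card A).factorization p + 1 = (Nat.card G).factorization p) : Cfsg.HasSubgroupOfEveryOrder (G × A) := by
  intro d hd
  rw [Nat.card_prod] at hd
  obtain ⟨m, e, rfl, hmg, hcop, hea⟩ := arith (Nat.card G) (Nat.card A) d Nat.card_pos.ne'
    Nat.card_pos.ne' hd hexp
  obtain ⟨H, hH, -⟩ := (hall_aux _ G m (Nat.card G / m) rfl (Nat.mul_div_cancel' hmg).symm hcop).1 ⊥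
    (by rw [card_bot]; exact Nat.coprime_one_left _)
  have hAnil : Group.IsNilpotent A := inferInstance
  obtain ⟨B, hB⟩ := clt_of_nilpotent hAnil hea
  refine ⟨H.prod B, ?_⟩
  rw [Nat.card_congr (Subgroup.prodEquiv H B).toEquiv, Nat.card_prod, hH, hB]

end Cfsg.Agent.S0534
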