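import Mathlib
import Cfsg.Statements.S0535
import Cfsg.Agent.S0006

set_option autoImplicit false
open Cfsg

namespace Cfsg.Agent.S0535

open Cfsg.Agent.H1 Subgroup

theorem index_eq_pow_factorization {G : Type*} [Group G] [Finite G] {p k : ℕ} (hp : p.Prime)
    {H : Subgroup G} (hidx : H.index = p ^ k) (hpH : ¬ p ∣ Nat.card H) :
    H.index = p ^ (Nat.card G).factorization p := by
  rw [hidx]
  congr 1
  have hmul := H.index_mul_card
  have hfac : (Nat.card G).factorization p =
      H.index.factorization p + (Nat.card H).factorization p := by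
    rw [← hmul, Nat.factorization_mul index_ne_zero_of_finite Nat.card_pos.ne']
    rfl
  rw [Nat.factorization_eq_zero_of_not_dvd hpH, add_zero] at hfac
  rw [hfac, hidx, Nat.factorization_pow, Finsupp.smul_apply, hp.factorization_self, smul_eq_mul,
    mul_one]


/-- Suppose that for every nontrivial subgroup H of a finite group and every prime p dividing the order of H there is a proper subgroup of H whose index in H is a power of p. Then the group is solvable. -/
theorem result {G : Type*} [Group G] [Finite G] (h : ∀ H : Subgroup G, H ≠ ⊥ → ∀ p : ℕ, p.Prime → p ∣ Nat.card H → ∃ K : Subgroup H, K ≠ ⊤ ∧ ∃ k : ℕ, K.index = p ^ k) : Group.IsSolvable G := by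
  apply Cfsg.Agent.S0006.result
  intro p hp
  have key : ∀ H : Subgroup G, ∃ K : Subgroup G, K ≤ H ∧ ¬ p ∣ Nat.card K ∧
      ∃ k : ℕ, K.relIndex H = p ^ k := by
    intro H
    induction H using WellFoundedLT.induction with
    | ind H ih =>
    by_cases hpH : p ∣ Nat.card H
    · have hne : H ≠ ⊥ := by
        rintro rfl
        rw [card_bot] at hpH
        exact hp.one_lt.ne' (Nat.dvd_one.mp hpH)
      obtain ⟨K', hK', k, hk⟩ := h H hne p hp hpH
      have hlt : K'.map H.subtype < H := by
        refine lt_of_le_of_ne (map_subtype_le _) ?_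
        intro heq
        apply hK'
        rw [eq_top_iff]
        intro x _
        have : (x : G) ∈ K'.map H.subtype := by rw [heq]; exact x.2
        obtain ⟨y, hy, hyx⟩ := this
        rwa [← Subtype.ext hyx]
      obtain ⟨K, hK1, hK2, j, hj⟩ := ih _ hlt
      refine ⟨K, hK1.trans hlt.le, hK2, j + k, ?_⟩
      rw [← relIndex_mul_relIndex K _ H hK1 hlt.le, hj, pow_add]
      congr 1
      rw [← hk]
      have : (K'.map H.subtype).subgroupOf H = K' :=
        comap_map_eq_self_of_injective H.subtype_injective _
      rw [relIndex, this]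
    · exact ⟨H, le_rfl, hpH, 0, by rw [relIndex_self, pow_zero]⟩
  obtain ⟨K, -, hK, k, hk⟩ := key ⊤
  rw [relIndex_top_right] at hk
  exact ⟨K, index_eq_pow_factorization hp hk hK⟩

end Cfsg.Agent.S0535
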