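import Mathlib
import Cfsg.Statements.S0537
import Cfsg.Agent.Lib_helper1_Wielandt

set_option autoImplicit false
open Cfsg

namespace Cfsg.Agent.S0537

open Cfsg.Agent.H1 Subgroup
open scoped Pointwise

theorem le_centralizer_of_comm {G : Type*} [Group G] {X Y S : Subgroup G}
    (hS : IsMulCommutative S) (hX : X ≤ S) (hY : Y ≤ S) : X ≤ centralizer (Y : Set G) := by
  intro x hx
  rw [mem_centralizer_iff]
  intro y hy
  exact congrArg Subtype.val (mul_comm' (⟨y, hY hy⟩ : S) ⟨x, hX hx⟩)

theorem eq_top_of_forall_sylow_le {G : Type*} [Group G] [Finite G] (C : Subgroup G)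
    (h : ∀ (r : ℕ) [Fact r.Prime], ∃ R : Sylow r G, (R : Subgroup G) ≤ C) : C = ⊤ := by
  rw [← index_eq_one]
  apply Nat.eq_one_iff_not_exists_prime_dvd.mpr
  intro r hr hdvd
  have : Fact r.Prime := ⟨hr⟩
  obtain ⟨R, hR⟩ := h r
  exact R.not_dvd_index (hdvd.trans (index_dvd_of_le hR))

theorem nilpotent_case {G : Type*} [Group G] [Finite G] (hna : ¬ IsMulCommutative G)
    (h : ∀ H : Subgroup G, H ≠ ⊤ → IsMulCommutative H) (hnil : Group.IsNilpotent G) :
    ∃ p : ℕ, p.Prime ∧ IsPGroup p G := by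
  by_contra hcon
  push Not at hcon
  apply hna
  have hnorm : ∀ (r : ℕ) [Fact r.Prime] (R : Sylow r G), (R : Subgroup G).Normal :=
    fun r hr R => (Group.isNilpotent_of_finite_tfae.out 0 3 rfl rfl).mp hnil r hr R
  have hab : ∀ (r : ℕ) [Fact r.Prime] (R : Sylow r G), IsMulCommutative (R : Subgroup G) := by
    intro r hr R
    apply h
    intro ht
    apply hcon r hr.out
    have := R.2
    rw [ht] at this
    exact this.of_equiv topEquiv
  have hcent : ∀ (r : ℕ) [Fact r.Prime] (R : Sylow r G), (R : Subgroup G) ≤ center G := by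
    intro r hr R
    have h1 : centralizer ((R : Subgroup G) : Set G) = ⊤ := by
      apply eq_top_of_forall_sylow_le
      intro s hs
      by_cases hrs : r = s
      · subst hrs
        exact ⟨R, le_centralizer_of_comm (hab r R) le_rfl le_rfl⟩
      · obtain ⟨S⟩ : Nonempty (Sylow s G) := inferInstance
        refine ⟨S, ?_⟩
        have := hnorm r R
        have := hnorm s S
        have h2 : Disjoint (S : Subgroup G) (R : Subgroup G) :=
          disjoint_of_coprime_natCard (IsPGroup.coprime_card_of_ne s r (Ne.symm hrs) _ _ S.2 R.2)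
        rw [← commutator_eq_bot_iff_le_centralizer]
        exact commutator_eq_bot_of_disjoint h2
    exact centralizer_eq_top_iff_subset.mp h1
  have h2 : center G = ⊤ := by
    apply eq_top_of_forall_sylow_le
    intro s hs
    obtain ⟨S⟩ : Nonempty (Sylow s G) := inferInstance
    exact ⟨S, hcent s S⟩
  exact ⟨⟨fun a b => (mem_center_iff.mp (h2 ▸ mem_top b) a)⟩⟩


/-- A finite non-abelian group in which every proper subgroup is abelian is either of prime-power order, or is generated by a cyclic Sylow p-subgroup and a normal Sylow q-subgroup that is elementary abelian, for distinct primes p and q. -/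
theorem result {G : Type*} [Group G] [Finite G] (hna : ¬ IsMulCommutative G) (h : ∀ H : Subgroup G, H ≠ ⊤ → IsMulCommutative H) : (∃ p : ℕ, p.Prime ∧ IsPGroup p G) ∨ ∃ p q : ℕ, p.Prime ∧ q.Prime ∧ p ≠ q ∧ ∃ (P : Sylow p G) (Q : Sylow q G), IsCyclic P ∧ (Q : Subgroup G).Normal ∧ Cfsg.IsElementaryAbelian q (Q : Subgroup G) ∧ (P : Subgroup G) ⊔ Q = ⊤ := by
  by_cases hnil : Group.IsNilpotent G
  · exact Or.inl (nilpotent_case hna h hnil)
  right
  have hmin : Cfsg.IsMinimalNonNilpotent G := by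
    refine ⟨hnil, fun H hH => ?_⟩
    have := h H hH
    exact ⟨1, Subgroup.upperCentralSeries_one_eq_top_iff.mpr this⟩
  obtain ⟨p, q, hp, hq, hpq, P, Q, hPc, hQn, htop, hPn⟩ := schmidt_structure hmin
  have : Fact p.Prime := ⟨hp⟩
  have : Fact q.Prime := ⟨hq⟩
  refine ⟨p, q, hp, hq, hpq, P, Q, hPc, hQn, ?_, htop⟩
  have hcop : (Nat.card (P : Subgroup G)).Coprime (Nat.card (Q : Subgroup G)) :=
    IsPGroup.coprime_card_of_ne p q hpq _ _ P.2 Q.2
  have hdisj : (P : Subgroup G) ⊓ Q = ⊥ := (disjoint_of_coprime_natCard hcop).eq_bot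
  have hQtop : (Q : Subgroup G) ≠ ⊤ := by
    intro ht
    apply hnil
    have h1 := Q.2
    rw [ht] at h1
    exact (h1.of_equiv topEquiv).isNilpotent
  have hQab : IsMulCommutative (Q : Subgroup G) := h _ hQtop
  have hPQ : (P : Subgroup G) ≤ normalizer ((Q : Subgroup G) : Set G) :=
    normalizer_eq_top_iff.mpr hQn ▸ le_top
  have hsolv : Group.IsSolvable (P : Subgroup G) ∨ Group.IsSolvable (Q : Subgroup G) :=
    Or.inl (isSolvable_of_isPGroup P.2)
  -- a normal subgroup X of G inside Q with P ⊔ X = ⊤ is Q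
  have heq : ∀ X : Subgroup G, X.Normal → X ≤ Q → (P : Subgroup G) ⊔ X = ⊤ → X = Q := by
    intro X hXn hXQ hX
    apply le_antisymm hXQ
    intro y hy
    have hy' : y ∈ (P : Subgroup G) ⊔ X := hX ▸ mem_top y
    obtain ⟨a, ha, x, hx, rfl⟩ := mem_sup_of_normal_right.mp hy'
    have haQ : a ∈ (Q : Subgroup G) := by
      have := mul_mem hy (inv_mem (hXQ hx))
      simpa using this
    have ha1 : a ∈ (P : Subgroup G) ⊓ Q := Subgroup.mem_inf.mpr ⟨ha, haQ⟩
    rw [hdisj, mem_bot] at ha1
    rw [ha1, one_mul]; exact hx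
  have hnormal : ∀ X : Subgroup G, X ≤ Q → (P : Subgroup G) ≤ normalizer (X : Set G) → X.Normal := by
    intro X hXQ hPX
    apply normalizer_eq_top_iff.mp
    rw [eq_top_iff, ← htop]
    refine sup_le hPX ?_
    exact (le_centralizer_of_comm hQab le_rfl hXQ).trans (centralizer_le_normalizer _)
  have hRQ : ⁅(Q : Subgroup G), (P : Subgroup G)⁆ ≤ Q := commutator_le_of_le_normalizer hPQ
  have hR : ⁅(Q : Subgroup G), (P : Subgroup G)⁆ = Q := by
    apply heq _ (hnormal _ hRQ (le_normalizer_commutator hPQ)) hRQ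
    by_contra hne
    have hab := h _ hne
    have h1 : ⁅⁅(Q : Subgroup G), (P : Subgroup G)⁆, (P : Subgroup G)⁆ = ⊥ :=
      commutator_eq_bot_iff_le_centralizer.mpr (le_centralizer_of_comm hab le_sup_right le_sup_left)
    rw [coprime_comm_comm _ _ hPQ hcop hsolv] at h1
    apply hPn
    apply normalizer_eq_top_iff.mp
    rw [eq_top_iff, ← htop]
    exact sup_le le_normalizer
      ((commutator_eq_bot_iff_le_centralizer.mp h1).trans (centralizer_le_normalizer _))
  have hCQ : (Q : Subgroup G) ⊓ centralizer ((P : Subgroup G) : Set G) = ⊥ := by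
    have h1 := abelian_decomp_inf (Q : Subgroup G) ⊤ le_top (by
      rw [relIndex_top_right]
      obtain ⟨b, hb⟩ := Q.2.exists_card_eq
      rw [hb]
      exact Nat.Coprime.pow_left _ ((Nat.Prime.coprime_iff_not_dvd hq).mpr Q.not_dvd_index))
    rw [eq_bot_iff, ← h1]
    refine le_inf (le_inf inf_le_left ?_) ?_
    · have h2 := inf_centralizer_le_centralizer_sup (Q : Subgroup G) (P : Subgroup G)
      rw [sup_comm, htop] at h2
      exact h2
    · refine inf_le_left.trans ?_
      conv_lhs => rw [← hR]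
      exact commutator_mono le_rfl le_top
  have hcommQ : ∀ a ∈ (Q : Subgroup G), ∀ b ∈ (Q : Subgroup G), a * b = b * a := by
    intro a ha b hb
    exact congrArg Subtype.val (mul_comm' (⟨a, ha⟩ : (Q : Subgroup G)) ⟨b, hb⟩)
  let Ω : Subgroup G :=
    { carrier := {x | x ∈ (Q : Subgroup G) ∧ x ^ q = 1}
      one_mem' := ⟨one_mem _, one_pow _⟩
      mul_mem' := by
        rintro a b ⟨ha, ha'⟩ ⟨hb, hb'⟩
        refine ⟨mul_mem ha hb, ?_⟩
        rw [(show Commute a b from hcommQ a ha b hb).mul_pow, ha', hb', one_mul]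
      inv_mem' := by
        rintro a ⟨ha, ha'⟩
        exact ⟨inv_mem ha, by rw [inv_pow, ha', inv_one]⟩ }
  have hΩQ : Ω ≤ Q := fun x hx => hx.1
  have hΩn : Ω.Normal := by
    refine ⟨fun x hx g => ⟨hQn.conj_mem x hx.1 g, ?_⟩⟩
    rw [conj_pow, hx.2]; group
  have hΩ : Ω = Q := by
    apply heq Ω hΩn hΩQ
    by_contra hne
    have hab := h _ hne
    have h1 : Ω ≤ (Q : Subgroup G) ⊓ centralizer ((P : Subgroup G) : Set G) :=
      le_inf hΩQ (le_centralizer_of_comm hab le_sup_right le_sup_left)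
    rw [hCQ] at h1
    have hQne : Nat.card (Q : Subgroup G) ≠ 1 := by
      intro h2
      rw [card_eq_one] at h2
      apply hPn
      rw [h2, sup_bot_eq] at htop
      rw [htop]; infer_instance
    obtain ⟨b, hb⟩ := Q.2.exists_card_eq
    have hqd : q ∣ Nat.card (Q : Subgroup G) := by
      rw [hb]
      apply dvd_pow_self
      rintro rfl
      exact hQne (by rw [hb, pow_zero])
    obtain ⟨x, hx⟩ := exists_prime_orderOf_dvd_card' q hqd
    have hxΩ : (x : G) ∈ Ω := ⟨x.2, by
      have := pow_orderOf_eq_one x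
      rw [hx] at this
      exact_mod_cast congrArg Subtype.val this⟩
    have h3 := h1 hxΩ
    rw [mem_bot] at h3
    have h4 : x = 1 := Subtype.ext h3
    rw [h4, orderOf_one] at hx
    exact hq.one_lt.ne hx
  refine ⟨hQab, fun a ha => ?_⟩
  have : a ∈ Ω := hΩ ▸ ha
  exact this.2

end Cfsg.Agent.S0537
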