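import Cfsg.Statements.S0541
import Cfsg.Agent.Lib_helper7_Alperin

set_option autoImplicit false
open Pointwise
open Cfsg

namespace Cfsg.Agent.S0541

open Subgroup Cfsg.Agent.H7
open scoped Pointwise

/-- Let Z and Y be subgroups of a finite group G and p a prime. Suppose that for every g in G the subgroup generated by the conjugates of g Z g⁻¹ under Y is a p-group. Then there is a Sylow p-subgroup P of G such that Y normalizes the subgroup generated by all conjugates of Z contained in P. -/
theorem result {G : Type*} [Group G] [Finite G] (p : ℕ) [Fact p.Prime] (Z Y : Subgroup G) (h : ∀ g : G, IsPGroup p ↥(⨆ y ∈ Y, MulAut.conj (y * g) • Z)) : ∃ P : Sylow p G, Y ≤ Subgroup.normalizer ((⨆ g ∈ {g : G | MulAut.conj g • Z ≤ (P : Subgroup G)}, MulAut.conj g • Z : Subgroup G) : Set G) := by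
  classical
  let c : G → Subgroup G := fun g => MulAut.conj g • Z
  have hc_mul : ∀ x g, MulAut.conj x • c g = c (x * g) := by
    intro x g
    change MulAut.conj x • MulAut.conj g • Z = MulAut.conj (x * g) • Z
    rw [smul_smul, ← map_mul]
  have hnorm_iff : ∀ (x : G) (U : Subgroup G), MulAut.conj x • U ≤ U → x ∈ normalizer (U : Set G) := by
    intro x U hle
    rw [← map_conj_eq_self_iff]
    apply eq_of_le_of_card_ge hle
    exact (card_map_conj U x).ge
  have hnorm_smul : ∀ (x : G) (U : Subgroup G), x ∈ normalizer (U : Set G) → MulAut.conj x • U = U := by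
    intro x U hx
    exact map_conj_eq_self_iff.mpr hx
  let Gen : Subgroup G → Prop := fun U => ∀ K : Subgroup G, (∀ g, c g ≤ U → c g ≤ K) → U ≤ K
  let V : G → Subgroup G := fun g => ⨆ y ∈ Y, c (y * g)
  have hVle : ∀ g, ∀ y ∈ Y, c (y * g) ≤ V g := fun g y hy => le_iSup₂ (f := fun y (_ : y ∈ Y) => c (y * g)) y hy
  have hVp : ∀ g, IsPGroup p (V g) := h
  have hVgen : ∀ g, Gen (V g) := by
    intro g K hK
    exact iSup₂_le (fun y hy => hK _ (hVle g y hy))
  have hVY : ∀ g, Y ≤ normalizer ((V g : Subgroup G) : Set G) := by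
    intro g x hx
    apply hnorm_iff
    rw [pointwise_smul_subset_iff]
    apply iSup₂_le
    intro y hy
    rw [← pointwise_smul_subset_iff, hc_mul, ← mul_assoc]
    exact hVle g (x * y) (mul_mem hx hy)
  let F : Set (Subgroup G) := {U | IsPGroup p U ∧ Y ≤ normalizer (U : Set G) ∧ Gen U}
  obtain ⟨U, ⟨hUp, hUY, hUgen⟩, hUmax⟩ := wellFounded_gt.has_min F ⟨V 1, hVp 1, hVY 1, hVgen 1⟩
  obtain ⟨P, hUP⟩ := hUp.exists_le_sylow
  have claim : ∀ g, c g ≤ P → c g ≤ U := by
    by_contra hcon
    push Not at hcon
    obtain ⟨g₀, hg₀P, hg₀U⟩ := hcon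
    have stepA : ∃ g, c g ≤ (P : Subgroup G) ⊓ normalizer (U : Set G) ∧ ¬ c g ≤ U := by
      by_contra hno
      push Not at hno
      have hN1 : (P : Subgroup G) ⊓ normalizer (U : Set G) = P := by
        by_contra hne
        have hlt : (P : Subgroup G) ⊓ normalizer (U : Set G) < P := lt_of_le_of_ne inf_le_left hne
        obtain ⟨x, hx, hxN⟩ := SetLike.exists_of_lt (lt_inf_normalizer P.2 hlt)
        apply hxN
        refine ⟨hx.1, ?_⟩
        apply hnorm_iff
        rw [pointwise_smul_subset_iff]
        apply hUgen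
        intro g hg
        rw [← pointwise_smul_subset_iff, hc_mul]
        apply hno
        rw [← hc_mul, ← hnorm_smul x _ hx.2]
        exact pointwise_smul_le_pointwise_smul_iff.mpr (hg.trans (le_inf hUP le_normalizer))
      apply hg₀U
      apply hno
      rw [hN1]
      exact hg₀P
    obtain ⟨g, hg, hgU⟩ := stepA
    have hVN : V g ≤ normalizer (U : Set G) := by
      apply iSup₂_le
      intro y hy
      rw [← hc_mul]
      have h1 : MulAut.conj y • c g ≤ MulAut.conj y • normalizer (U : Set G) :=
        pointwise_smul_le_pointwise_smul_iff.mpr (hg.trans inf_le_right)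
      refine h1.trans ?_
      have h2 : MulAut.conj y • normalizer (U : Set G) =
          normalizer ((MulAut.conj y • U : Subgroup G) : Set G) := (normalizer_map_conj U y).symm
      rw [h2, hnorm_smul y U (hUY hy)]
    apply hUmax (U ⊔ V g)
    · refine ⟨IsPGroup.to_sup_of_normal_left' hUp (hVp g) hVN, ?_, ?_⟩
      · intro y hy
        apply hnorm_iff
        rw [show MulAut.conj y • (U ⊔ V g) = MulAut.conj y • U ⊔ MulAut.conj y • V g from
          Subgroup.map_sup _ _ _, hnorm_smul y U (hUY hy), hnorm_smul y _ (hVY g hy)]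
      · intro K hK
        apply sup_le
        · exact hUgen K (fun g' hg' => hK g' (hg'.trans le_sup_left))
        · exact hVgen g K (fun g' hg' => hK g' (hg'.trans le_sup_right))
    · refine lt_of_le_of_ne le_sup_left ?_
      intro heq
      apply hgU
      rw [heq]
      refine le_trans ?_ le_sup_right
      have := hVle g 1 (one_mem _)
      rwa [one_mul] at this
  refine ⟨P, ?_⟩
  have hW : (⨆ g ∈ {g : G | MulAut.conj g • Z ≤ (P : Subgroup G)}, MulAut.conj g • Z : Subgroup G) = U := by
    apply le_antisymm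
    · apply iSup₂_le
      intro g hg
      exact claim g hg
    · apply hUgen
      intro g hg
      exact le_iSup₂ (f := fun g (_ : g ∈ {g : G | MulAut.conj g • Z ≤ (P : Subgroup G)}) => MulAut.conj g • Z) g (hg.trans hUP)
  rw [hW]
  exact hUY

end Cfsg.Agent.S0541
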