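import Cfsg.Statements.S0542
import Mathlib
import Cfsg.Agent.Lib_lead_SylNum

set_option autoImplicit false
open Cfsg

namespace Cfsg.Agent.S0542

/-- A Sylow p-subgroup of a finite group meets every subnormal subgroup H in a Sylow p-subgroup of H. -/
theorem result {G : Type*} [Group G] [Finite G] (p : ℕ) [Fact p.Prime] (H : Subgroup G) (hH : H.IsSubnormal) (S : Sylow p G) : ∃ Q : Sylow p H, (Q : Subgroup H) = (S : Subgroup G).subgroupOf H := by
  have key : ¬ p ∣ (S : Subgroup G).relIndex H := by
    induction hH with
    | top => rw [Subgroup.relIndex_top_right]; exact S.not_dvd_index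
    | step H K hle _ hN ih =>
      have h1 := LeadSyl.relIndex_sup_eq ((S : Subgroup G).subgroupOf K) (H.subgroupOf K)
      rw [Subgroup.relIndex_subgroupOf hle] at h1
      rw [← h1]
      intro hdvd
      apply ih
      exact hdvd.trans (Subgroup.relIndex_dvd_index_of_le le_sup_left)
  exact ⟨(S.2.comap_subtype).toSylow key, rfl⟩

end Cfsg.Agent.S0542
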