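import Mathlib
import Cfsg.Statements.S0543
import Cfsg.Agent.Lib_helper1_CompSys

set_option autoImplicit false
open Pointwise
open Cfsg

namespace Cfsg.Agent.S0543

open Pointwise
open Cfsg.Agent.H1 Subgroup

/-- In a finite solvable group any two Hall complement systems are simultaneously conjugate: one element conjugates every member of the first system to the corresponding member of the second. -/
theorem result {G : Type*} [Group G] [Finite G] [Group.IsSolvable G] (K L : Nat.Primes → Subgroup G) (hK : Cfsg.IsComplementSystem K) (hL : Cfsg.IsComplementSystem L) : ∃ g : G, ∀ p : Nat.Primes, MulAut.conj g • K p = L p := by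
  classical
  obtain ⟨T0, hT0⟩ := exists_finset_primes (Nat.card G) Nat.card_pos.ne'
  have hcardKL : ∀ p : Nat.Primes, Nat.card (K p) = Nat.card (L p) := by
    intro p
    have h1 := (K p).index_mul_card
    have h2 := (L p).index_mul_card
    rw [hK p] at h1
    rw [hL p] at h2
    exact Nat.eq_of_mul_eq_mul_left (pow_pos p.2.pos _) (h1.trans h2.symm)
  have key : ∀ T : Finset Nat.Primes, ∃ g : G, ∀ p ∈ T, MulAut.conj g • K p = L p := by
    intro T
    induction T using Finset.induction_on with
    | empty => exact ⟨1, by simp⟩
    | insert b T hb ih =>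
      obtain ⟨g, hg⟩ := ih
      obtain ⟨x, hx⟩ : ∃ x : G, MulAut.conj x • (MulAut.conj g • K b) = L b := by
        apply Cfsg.Agent.S0004.result (Nat.card (L b)) (L b).index
        · rw [mul_comm]; exact ((L b).index_mul_card).symm
        · rw [hL b]
          exact Nat.Coprime.pow_right _
            ((Nat.Prime.coprime_iff_not_dvd b.2).mpr (cs_not_dvd_card hL b)).symm
        · rw [card_conj_smul, hcardKL]
        · rfl
      set M : Subgroup G := T.inf (fun p => normalizer (L p : Set G)) with hM
      have hLM : T.inf L ≤ M := by
        apply Finset.le_inf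
        intro p hp
        exact (Finset.inf_le hp).trans le_normalizer
      have hcop : (normalizer (L b : Set G)).index.Coprime M.index := by
        apply Nat.Coprime.coprime_dvd_left (index_dvd_of_le le_normalizer)
        apply Nat.Coprime.coprime_dvd_right (index_dvd_of_le hLM)
        rw [cs_index_inf hL]
        apply Nat.Coprime.prod_right
        intro q hq
        exact cs_coprime_index hL (fun h => hb (h ▸ hq))
      obtain ⟨n, hn, m, hm, hxnm⟩ := (Cfsg.Agent.S0007.result _ _ hcop).2 x
      refine ⟨m * g, fun p hp => ?_⟩
      rw [map_mul, mul_smul]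
      rcases Finset.mem_insert.mp hp with rfl | hpT
      · rw [hxnm, map_mul, mul_smul] at hx
        have h1 : MulAut.conj n • L p = L p := conj_smul_eq_iff_mem_normalizer.mpr hn
        rw [← h1] at hx
        exact smul_left_cancel _ hx
      · rw [hg p hpT]
        apply conj_smul_eq_iff_mem_normalizer.mpr
        exact (Finset.inf_le (f := fun p => normalizer (L p : Set G)) hpT) hm
  obtain ⟨g, hg⟩ := key T0
  refine ⟨g, fun p => ?_⟩
  by_cases hp : p ∈ T0
  · exact hg p hp
  · rw [cs_eq_top hK p (fun h => hp ((hT0 p).mpr h)), cs_eq_top hL p (fun h => hp ((hT0 p).mpr h))]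
    apply conj_smul_eq_iff_mem_normalizer.mpr
    rw [normalizer_eq_top]
    trivial

end Cfsg.Agent.S0543
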