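import Mathlib
import Cfsg.Statements.S0544
import Cfsg.Agent.Lib_helper1_CompSys

set_option autoImplicit false
open Cfsg

namespace Cfsg.Agent.S0544

open Pointwise
open Cfsg.Agent.H1 Subgroup

theorem nilpotent_of_pnilpotent {X : Type*} [Group X] [Finite X]
    (h : ∀ p : ℕ, p.Prime → Nat.Coprime (Nat.card (Cfsg.pResidual p X)) p) :
    Group.IsNilpotent X := by
  apply (Group.isNilpotent_of_finite_tfae.out 0 3 rfl rfl).mpr
  intro p hp P
  set M : Subgroup X := ⨅ q : {q : ℕ // q.Prime ∧ q ≠ p}, Cfsg.pResidual q.1 X with hM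
  have hMn : M.Normal := Subgroup.normal_iInf_normal fun q => pResidual_normal q.1
  have hPM : (P : Subgroup X) ≤ M := by
    apply le_iInf
    rintro ⟨q, hq, hqp⟩ x hx
    apply mem_pResidual_of_coprime
    obtain ⟨i, hi⟩ := (IsPGroup.iff_orderOf.mp P.2) ⟨x, hx⟩
    rw [Subgroup.orderOf_mk] at hi
    rw [hi]
    apply Nat.Coprime.pow_left
    rw [Nat.coprime_primes hp.out hq]
    exact fun h => hqp h.symm
  have hMpg : IsPGroup p M := by
    have hpow := Nat.eq_prime_pow_of_unique_prime_dvd (n := Nat.card M) (p := p) Nat.card_pos.ne'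
      (fun {d} hd hdM => by
        by_contra hdp
        have h1 : M ≤ Cfsg.pResidual d X :=
          iInf_le _ (⟨d, hd, hdp⟩ : {q : ℕ // q.Prime ∧ q ≠ p})
        exact (Nat.Prime.coprime_iff_not_dvd hd).mp (h d hd).symm (hdM.trans (card_dvd_of_le h1)))
    exact IsPGroup.of_card hpow
  rw [← P.3 hMpg hPM]
  exact hMn


/-- In a finite solvable group the intersection of the normalizers of the members of a Hall complement system is a nilpotent subgroup. -/
theorem result {G : Type*} [Group G] [Finite G] [Group.IsSolvable G] (K : Nat.Primes → Subgroup G) (hK : Cfsg.IsComplementSystem K) : Group.IsNilpotent (Cfsg.systemNormalizer K) := by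
  apply nilpotent_of_pnilpotent
  intro p hp
  obtain ⟨pp, hpp⟩ : ∃ pp : Nat.Primes, (pp : ℕ) = p := ⟨⟨p, hp⟩, rfl⟩
  subst hpp
  haveI : Fact (pp : ℕ).Prime := ⟨pp.2⟩
  set D := Cfsg.systemNormalizer K with hD
  have hDN : D ≤ normalizer (K pp : Set G) := iInf_le _ pp
  have hle : Cfsg.pResidual (pp : ℕ) D ≤ (K pp).subgroupOf D := by
    unfold Cfsg.pResidual
    rw [closure_le]
    intro x hx
    change Nat.Coprime (orderOf x) pp at hx
    rw [SetLike.mem_coe, mem_subgroupOf]
    haveI : ((K pp).subgroupOf (normalizer (K pp : Set G))).Normal := normal_in_normalizer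
    have h1 : zpowers (⟨(x : G), hDN x.2⟩ : normalizer (K pp : Set G)) ≤
        (K pp).subgroupOf (normalizer (K pp : Set G)) := by
      apply le_normal_of_coprime_index
      rw [Nat.card_zpowers, Subgroup.orderOf_mk, Subgroup.orderOf_coe]
      have h2 : ((K pp).subgroupOf (normalizer (K pp : Set G))).index ∣
          (pp : ℕ) ^ (Nat.card G).factorization pp := by
        rw [← hK pp]
        exact relIndex_dvd_index_of_le le_normalizer
      exact Nat.Coprime.coprime_dvd_right h2 (Nat.Coprime.pow_right _ hx)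
    exact h1 (mem_zpowers _)
  have h3 : Nat.card ((K pp).subgroupOf D) ∣ Nat.card (K pp) := by
    rw [← inf_subgroupOf_right, card_subgroupOf_of_le inf_le_right]
    exact card_dvd_of_le inf_le_left
  exact Nat.Coprime.coprime_dvd_left ((card_dvd_of_le hle).trans h3)
    ((Nat.Prime.coprime_iff_not_dvd pp.2).mpr (cs_not_dvd_card hK pp)).symm

end Cfsg.Agent.S0544
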