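import Mathlib
import Cfsg.Statements.S0545
import Cfsg.Agent.Lib_helper1_CompSys
import Cfsg.Agent.Lib_helper1_Coprime
import Cfsg.Agent.S0007

set_option autoImplicit false
open Cfsg

namespace Cfsg.Agent.S0545

open Subgroup Cfsg.Agent.H1
open scoped Pointwise

theorem relIndex_dvd_index_of_normal' {G : Type*} [Group G] [Finite G] (H N : Subgroup G)
    [N.Normal] : H.relIndex N ∣ H.index := by
  have h1 := relIndex_mul_card_inf H N
  have h2 := card_sup_mul_card_inf H N
  have h3 := relIndex_mul_card' (le_sup_left : H ≤ H ⊔ N)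
  have h4 : H.relIndex N = H.relIndex (H ⊔ N) := by
    have hpos : 0 < Nat.card (H ⊓ N : Subgroup G) := Nat.card_pos
    have hposH : 0 < Nat.card H := Nat.card_pos
    have h5 : Nat.card (H ⊔ N : Subgroup G) = Nat.card H * H.relIndex N := by
      apply Nat.eq_of_mul_eq_mul_right hpos
      rw [h2, ← h1]; ring
    rw [h5, mul_comm] at h3
    exact (Nat.eq_of_mul_eq_mul_left hposH h3).symm
  rw [h4]
  exact relIndex_dvd_index_of_le le_sup_left

theorem sup_eq_of_map_eq {G : Type*} [Group G] (N : Subgroup G) [N.Normal] {H K : Subgroup G}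
    (h : H.map (QuotientGroup.mk' N) = K.map (QuotientGroup.mk' N)) : H ⊔ N = K ⊔ N := by
  have := congrArg (Subgroup.comap (QuotientGroup.mk' N)) h
  rwa [comap_map_eq, comap_map_eq, QuotientGroup.ker_mk'] at this

theorem cs_map {G : Type*} [Group G] [Finite G] (K : Nat.Primes → Subgroup G)
    (hK : Cfsg.IsComplementSystem K) (N : Subgroup G) [N.Normal] :
    Cfsg.IsComplementSystem (fun p => (K p).map (QuotientGroup.mk' N)) := by
  intro p
  have h1 : ((K p).map (QuotientGroup.mk' N)).index ∣ (K p).index :=
    index_map_dvd _ (QuotientGroup.mk'_surjective N)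
  rw [hK p] at h1
  obtain ⟨k, -, hk⟩ := (Nat.dvd_prime_pow p.2).mp h1
  exact index_eq_pow_factorization' p.2 hk
    (fun hd => cs_not_dvd_card hK p (hd.trans (card_map_dvd _ _)))

theorem index_conj_smul {G : Type*} [Group G] (x : G) (H : Subgroup G) :
    (MulAut.conj x • H).index = H.index :=
  index_map_equiv H (MulAut.conj x)

theorem cs_conj {G : Type*} [Group G] [Finite G] (K : Nat.Primes → Subgroup G)
    (hK : Cfsg.IsComplementSystem K) (x : G) :
    Cfsg.IsComplementSystem (fun p => MulAut.conj x • K p) := by
  intro p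
  show (MulAut.conj x • K p).index = _
  rw [index_conj_smul]
  exact hK p

theorem key {G : Type*} [Group G] [Finite G] [Group.IsSolvable G] (K L : Nat.Primes → Subgroup G)
    (hK : Cfsg.IsComplementSystem K) (hL : Cfsg.IsComplementSystem L) (N : Subgroup G) [N.Normal]
    (hKL : ∀ p, (K p).map (QuotientGroup.mk' N) = (L p).map (QuotientGroup.mk' N))
    (T : Finset Nat.Primes) : ∃ n ∈ N, ∀ p ∈ T, MulAut.conj n • K p = L p := by
  classical
  have hcardKL : ∀ p : Nat.Primes, Nat.card (K p) = Nat.card (L p) := by
    intro p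
    have h1 := (K p).index_mul_card
    have h2 := (L p).index_mul_card
    rw [hK p] at h1
    rw [hL p] at h2
    exact Nat.eq_of_mul_eq_mul_left (pow_pos p.2.pos _) (h1.trans h2.symm)
  induction T using Finset.induction_on with
  | empty => exact ⟨1, N.one_mem, by simp⟩
  | insert b T hb ih =>
    obtain ⟨n, hn, hg⟩ := ih
    set K' := MulAut.conj n • K b with hK'
    have hK'map : K'.map (QuotientGroup.mk' N) = (L b).map (QuotientGroup.mk' N) := by
      rw [hK', map_conj_smul, ← hKL b]
      have : QuotientGroup.mk' N n = 1 := (QuotientGroup.eq_one_iff n).mpr hn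
      rw [this, map_one, one_smul]
    have hsup : K' ⊔ N = L b ⊔ N := sup_eq_of_map_eq N hK'map
    have hcK' : Nat.card K' = Nat.card (L b) := by rw [hK', card_conj_smul, hcardKL]
    obtain ⟨l, hl, hlK⟩ := hall_conj_internal (L b ⊔ N) K' (L b) (inferInstance)
      (hsup ▸ le_sup_left) le_sup_left hcK' (by
        have h1 : K'.relIndex (L b ⊔ N) ∣ K'.index := relIndex_dvd_index_of_le (hsup ▸ le_sup_left)
        have h2 : K'.index = (b : ℕ) ^ (Nat.card G).factorization b := by
          rw [hK', index_conj_smul]; exact hK b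
        rw [h2] at h1
        apply Nat.Coprime.coprime_dvd_right h1
        apply Nat.Coprime.pow_right
        rw [hcK', Nat.coprime_comm]
        exact (Nat.Prime.coprime_iff_not_dvd b.2).mpr (cs_not_dvd_card hL b))
    -- l = y * k
    obtain ⟨y, hy, k, hk, hlyk⟩ : ∃ y ∈ N, ∃ k ∈ K', l = y * k := by
      rw [← hsup, sup_comm] at hl
      have : l ∈ ((N ⊔ K' : Subgroup G) : Set G) := hl
      rw [normal_mul] at this
      obtain ⟨y, hy, k, hk, h⟩ := Set.mem_mul.mp this
      exact ⟨y, hy, k, hk, h.symm⟩
    have hyK : MulAut.conj y • K' = L b := by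
      rw [← hlK, hlyk, map_mul, mul_smul, conj_smul_eq_self_of_mem hk]
    set M : Subgroup G := T.inf (fun p => normalizer (L p : Set G)) with hM
    have hLM : T.inf L ≤ M := by
      apply Finset.le_inf
      intro p hp
      exact (Finset.inf_le hp).trans le_normalizer
    have hcop : ((normalizer (L b : Set G)).subgroupOf N).index.Coprime (M.subgroupOf N).index := by
      show ((normalizer (L b : Set G)).relIndex N).Coprime (M.relIndex N)
      apply Nat.Coprime.coprime_dvd_left
        ((relIndex_dvd_of_le_left N le_normalizer).trans (relIndex_dvd_index_of_normal' (L b) N))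
      apply Nat.Coprime.coprime_dvd_right
        ((relIndex_dvd_of_le_left N hLM).trans (relIndex_dvd_index_of_normal' _ N))
      rw [cs_index_inf hL]
      apply Nat.Coprime.prod_right
      intro q hq
      exact cs_coprime_index hL (fun h => hb (h ▸ hq))
    obtain ⟨n', hn', m, hm, hynm⟩ := (Cfsg.Agent.S0007.result _ _ hcop).2 ⟨y, hy⟩
    rw [mem_subgroupOf] at hn' hm
    have hynm' : y = (n' : G) * (m : G) := congrArg Subtype.val hynm
    refine ⟨(m : G) * n, N.mul_mem m.2 hn, fun p hp => ?_⟩
    rw [map_mul, mul_smul]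
    rcases Finset.mem_insert.mp hp with rfl | hpT
    · rw [hynm', map_mul, mul_smul] at hyK
      have h1 : MulAut.conj (n' : G) • L p = L p := conj_smul_eq_iff_mem_normalizer.mpr hn'
      rw [← h1] at hyK
      exact smul_left_cancel _ hyK
    · rw [hg p hpT]
      apply conj_smul_eq_iff_mem_normalizer.mpr
      exact (Finset.inf_le (f := fun p => normalizer (L p : Set G)) hpT) hm

/-- Let K be a Hall complement system of a finite solvable group G and N a normal subgroup. Then the images of the K p in G modulo N form a Hall complement system of the quotient, and its system normalizer is the image of the system normalizer of K. -/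
theorem result {G : Type*} [Group G] [Finite G] [Group.IsSolvable G] (K : Nat.Primes → Subgroup G) (hK : Cfsg.IsComplementSystem K) (N : Subgroup G) [N.Normal] : Cfsg.IsComplementSystem (fun p => (K p).map (QuotientGroup.mk' N)) ∧ Cfsg.systemNormalizer (fun p => (K p).map (QuotientGroup.mk' N)) = (Cfsg.systemNormalizer K).map (QuotientGroup.mk' N) := by
  classical
  refine ⟨cs_map K hK N, ?_⟩
  apply le_antisymm
  · intro xb hxb
    obtain ⟨x, rfl⟩ := QuotientGroup.mk'_surjective N xb
    have hx : ∀ p : Nat.Primes, QuotientGroup.mk' N x ∈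
        normalizer (((K p).map (QuotientGroup.mk' N) : Subgroup (G ⧸ N)) : Set (G ⧸ N)) := by
      intro p
      exact (iInf_le (fun p : Nat.Primes =>
        normalizer (((K p).map (QuotientGroup.mk' N) : Subgroup (G ⧸ N)) : Set (G ⧸ N))) p) hxb
    obtain ⟨T0, hT0⟩ := exists_finset_primes (Nat.card G) Nat.card_pos.ne'
    obtain ⟨n, hn, hnK⟩ := key K (fun p => MulAut.conj x • K p) hK (cs_conj K hK x) N (by
      intro p
      rw [map_conj_smul, conj_smul_eq_iff_mem_normalizer.mpr (hx p)]) T0
    have hall : ∀ p : Nat.Primes, MulAut.conj n • K p = MulAut.conj x • K p := by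
      intro p
      by_cases hp : p ∈ T0
      · exact hnK p hp
      · rw [cs_eq_top hK p (fun h => hp ((hT0 p).mpr h))]
        simp
    refine ⟨n⁻¹ * x, ?_, ?_⟩
    · show n⁻¹ * x ∈ Cfsg.systemNormalizer K
      rw [Cfsg.systemNormalizer, mem_iInf]
      intro p
      rw [← conj_smul_eq_iff_mem_normalizer, map_mul, mul_smul, ← hall p, ← mul_smul, ← map_mul,
        inv_mul_cancel, map_one, one_smul]
    · have h1 : QuotientGroup.mk' N n = 1 := (QuotientGroup.eq_one_iff n).mpr hn
      rw [map_mul, map_inv, h1, inv_one, one_mul]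
  · rw [Cfsg.systemNormalizer, Cfsg.systemNormalizer]
    apply le_iInf
    intro p
    exact (map_mono (iInf_le _ p)).trans (le_normalizer_map _)

end Cfsg.Agent.S0545
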