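import Mathlib
import Cfsg.Statements.S0546
import Cfsg.Agent.S0545

set_option autoImplicit false
open Cfsg

namespace Cfsg.Agent.S0546

open Subgroup Cfsg.Agent.H1
open scoped Pointwise commutatorElement

theorem sysnorm_top_of_comm {Q : Type*} [Group Q] (hc : ∀ x y : Q, x * y = y * x)
    (K : Nat.Primes → Subgroup Q) : Cfsg.systemNormalizer K = ⊤ := by
  rw [Cfsg.systemNormalizer, eq_top_iff]
  apply le_iInf
  intro p x _
  rw [mem_normalizer_iff]
  intro h
  rw [hc x h, mul_assoc, mul_inv_cancel, mul_one]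

/-- The normal closure of a system normalizer of a finite solvable group is the whole group. -/
theorem result {G : Type*} [Group G] [Finite G] [Group.IsSolvable G] (K : Nat.Primes → Subgroup G) (hK : Cfsg.IsComplementSystem K) : Subgroup.normalClosure ((Cfsg.systemNormalizer K : Subgroup G) : Set G) = ⊤ := by
  by_contra hne
  set D := Cfsg.systemNormalizer K with hD
  set N := Subgroup.normalClosure (D : Set G) with hN
  have hnt : Nontrivial (G ⧸ N) := QuotientGroup.nontrivial_iff.mpr hne
  have hlt := Group.IsSolvable.commutator_lt_top_of_nontrivial (G ⧸ N)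
  set N₂ := (commutator (G ⧸ N)).comap (QuotientGroup.mk' N) with hN₂
  have hN₂n : N₂.Normal := inferInstance
  have hN₂ne : N₂ ≠ ⊤ := by
    intro h
    apply hlt.ne
    rw [← map_comap_eq_self_of_surjective (QuotientGroup.mk'_surjective N) (commutator (G ⧸ N)),
      ← hN₂, h, map_top_of_surjective _ (QuotientGroup.mk'_surjective N)]
  have hDN₂ : D ≤ N₂ := by
    intro d hd
    have h1 : d ∈ N := Subgroup.subset_normalClosure hd
    show QuotientGroup.mk' N d ∈ commutator (G ⧸ N)
    have h0 : QuotientGroup.mk' N d = 1 := (QuotientGroup.eq_one_iff d).mpr h1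
    rw [h0]
    exact one_mem _
  have h2 := (Cfsg.Agent.S0545.result K hK N₂).2
  have hcomm : ∀ x y : G ⧸ N₂, x * y = y * x := by
    intro x y
    obtain ⟨a, rfl⟩ := QuotientGroup.mk'_surjective N₂ x
    obtain ⟨b, rfl⟩ := QuotientGroup.mk'_surjective N₂ y
    rw [← commutatorElement_eq_one_iff_mul_comm, ← map_commutatorElement]
    apply (QuotientGroup.eq_one_iff _).mpr
    show QuotientGroup.mk' N ⁅a, b⁆ ∈ commutator (G ⧸ N)
    rw [map_commutatorElement, _root_.commutator_def]
    exact commutator_mem_commutator (mem_top _) (mem_top _)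
  rw [sysnorm_top_of_comm hcomm] at h2
  have h3 : D.map (QuotientGroup.mk' N₂) = ⊥ := by
    rw [Subgroup.map_eq_bot_iff, QuotientGroup.ker_mk']
    exact hDN₂
  rw [h3] at h2
  apply hN₂ne
  have h4 : Subsingleton (G ⧸ N₂) := by
    refine ⟨fun a b => ?_⟩
    have ha : a ∈ (⊤ : Subgroup (G ⧸ N₂)) := mem_top a
    have hb : b ∈ (⊤ : Subgroup (G ⧸ N₂)) := mem_top b
    rw [h2, mem_bot] at ha hb
    rw [ha, hb]
  exact QuotientGroup.subsingleton_iff.mp h4

end Cfsg.Agent.S0546
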