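import Mathlib
import Cfsg.Statements.S0547
import Cfsg.Agent.Lib_helper1_Prim2

set_option autoImplicit false
open Cfsg

namespace Cfsg.Agent.S0547


/-- Let a finite solvable group G act faithfully and primitively on a set, and let M be a minimal normal subgroup of G. Then M is transitive with trivial point stabilizers, and the number of points equals the order of M, which is a prime power p ^ d with d ≥ 1. -/
theorem result {G : Type*} [Group G] [Finite G] [Group.IsSolvable G] {Ω : Type*} [Nonempty Ω] [MulAction G Ω] [FaithfulSMul G Ω] (hprim : MulAction.IsPreprimitive G Ω) (M : Subgroup G) [M.Normal] (hM : M ≠ ⊥) (hmin : ∀ K : Subgroup G, K.Normal → K ≤ M → K = ⊥ ∨ K = M) : MulAction.IsPretransitive M Ω ∧ (∀ ω : Ω, MulAction.stabilizer M ω = ⊥) ∧ ∃ p d : ℕ, p.Prime ∧ 0 < d ∧ Nat.card Ω = p ^ d ∧ Nat.card M = p ^ d := by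
  have hMt := H1.trans_of_normal_of_prim hprim M hM
  obtain ⟨p, hp, hMp, hMc⟩ := H1.minimal_normal_solvable M hM hmin
  have hreg : ∀ ω : Ω, MulAction.stabilizer M ω = ⊥ := by
    intro ω
    rw [eq_bot_iff]
    intro m hm
    rw [Subgroup.mem_bot]
    apply Subtype.ext
    exact H1.eq_one_of_fix_of_centralizes M hMt ω (g := (m : G)) hm (fun n hn => hMc m m.2 n hn)
  refine ⟨hMt, hreg, ?_⟩
  obtain ⟨ω⟩ := ‹Nonempty Ω›
  have hcard : Nat.card Ω = Nat.card M := by
    symm
    apply Nat.card_congr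
    refine Equiv.ofBijective (fun m : M => m • ω) ⟨?_, ?_⟩
    · intro m n hmn
      have h1 : n⁻¹ * m ∈ MulAction.stabilizer M ω := by
        rw [MulAction.mem_stabilizer_iff, mul_smul, inv_smul_eq_iff]
        exact hmn
      rw [hreg ω, Subgroup.mem_bot] at h1
      exact (inv_mul_eq_one.1 h1).symm
    · intro y
      exact hMt.exists_smul_eq ω y
  haveI : Fact p.Prime := ⟨hp⟩
  obtain ⟨d, hd⟩ := IsPGroup.iff_card.1 hMp
  refine ⟨p, d, hp, ?_, by rw [hcard, hd], hd⟩
  rcases Nat.eq_zero_or_pos d with rfl | h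
  · rw [pow_zero] at hd
    exact absurd (Subgroup.card_eq_one.1 hd) hM
  · exact h

end Cfsg.Agent.S0547
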