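import Mathlib
import Cfsg.Statements.S0548
import Cfsg.Agent.Lib_helper1_Prim2

set_option autoImplicit false
open Cfsg

namespace Cfsg.Agent.S0548


/-- Let a finite solvable group G act faithfully and primitively on a set, let M be a minimal normal subgroup and H the stabilizer of a point. Then H is a complement to M, no non-identity element of H centralizes M, and the only subgroups of M normalized by H are the trivial subgroup and M. -/
theorem result {G : Type*} [Group G] [Finite G] [Group.IsSolvable G] {Ω : Type*} [MulAction G Ω] [FaithfulSMul G Ω] (hprim : MulAction.IsPreprimitive G Ω) (M : Subgroup G) [M.Normal] (hM : M ≠ ⊥) (hmin : ∀ K : Subgroup G, K.Normal → K ≤ M → K = ⊥ ∨ K = M) (ω : Ω) : Subgroup.IsComplement' M (MulAction.stabilizer G ω) ∧ MulAction.stabilizer G ω ⊓ Subgroup.centralizer (M : Set G) = ⊥ ∧ ∀ K : Subgroup G, K ≤ M → MulAction.stabilizer G ω ≤ Subgroup.normalizer (K : Set G) → K = ⊥ ∨ K = M := by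
  have hMt := H1.trans_of_normal_of_prim hprim M hM
  obtain ⟨p, hp, hMp, hMc⟩ := H1.minimal_normal_solvable M hM hmin
  have hsup := H1.sup_stabilizer_eq_top M hMt ω
  refine ⟨?_, ?_, ?_⟩
  · apply Subgroup.isComplement'_of_disjoint_and_mul_eq_univ
    · rw [disjoint_iff, eq_bot_iff]
      intro m hm
      rw [Subgroup.mem_bot]
      exact H1.eq_one_of_fix_of_centralizes M hMt ω hm.2 (fun n hn => hMc m hm.1 n hn)
    · rw [← Subgroup.normal_mul, hsup, Subgroup.coe_top]
  · rw [eq_bot_iff]
    intro g hg
    rw [Subgroup.mem_bot]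
    exact H1.eq_one_of_fix_of_centralizes M hMt ω hg.1
      (fun n hn => (Subgroup.mem_centralizer_iff.1 hg.2 n hn).symm)
  · intro K hKM hK
    apply hmin K _ hKM
    rw [← Subgroup.normalizer_eq_top_iff, eq_top_iff, ← hsup]
    apply sup_le _ hK
    intro m hm
    rw [Subgroup.mem_normalizer_iff]
    intro k
    constructor
    · intro hk
      rw [hMc m hm k (hKM hk), mul_inv_cancel_right]; exact hk
    · intro hk
      have h1 : m * k * m⁻¹ ∈ M := hKM hk
      have h2 : k ∈ M := by
        have : k = m⁻¹ * (m * k * m⁻¹) * m := by group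
        rw [this]; exact mul_mem (mul_mem (inv_mem hm) h1) hm
      rw [hMc m hm k h2, mul_inv_cancel_right] at hk; exact hk

end Cfsg.Agent.S0548
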