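import Cfsg.Statements.S0549
import Mathlib
import Cfsg.Agent.Lib_helper1_Max

set_option autoImplicit false
open Cfsg

namespace Cfsg.Agent.S0549

theorem sup_top {G : Type*} [Group G] {U : Subgroup G} (hU : IsCoatom U) (hcore : U.normalCore = ⊥)
    (N : Subgroup G) [N.Normal] (hN : N ≠ ⊥) : U ⊔ N = ⊤ := by
  apply H1.sup_eq_top_of_coatom_not_le hU
  intro hle
  have := (Subgroup.normal_le_normalCore).mpr hle
  rw [hcore, le_bot_iff] at this
  exact hN this

theorem eq_bot_of_normal_le {G : Type*} [Group G] {U : Subgroup G} (hcore : U.normalCore = ⊥)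
    (D : Subgroup G) [D.Normal] (hD : D ≤ U) : D = ⊥ := by
  have := (Subgroup.normal_le_normalCore).mpr hD
  rwa [hcore, le_bot_iff] at this

theorem centralizer_inf {G : Type*} [Group G] {U : Subgroup G} (hU : IsCoatom U) (hcore : U.normalCore = ⊥)
    (N : Subgroup G) [N.Normal] (hN : N ≠ ⊥) : Subgroup.centralizer (N : Set G) ⊓ U = ⊥ := by
  have hsup := sup_top hU hcore N hN
  have hn : (Subgroup.centralizer (N : Set G) ⊓ U).Normal := by
    constructor
    intro d hd g
    have hg : g ∈ U ⊔ N := by rw [hsup]; trivial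
    obtain ⟨u, hu, n, hn, rfl⟩ := Subgroup.mem_sup_of_normal_right.mp hg
    have h1 : n * d = d * n := Subgroup.mem_centralizer_iff.mp hd.1 n hn
    have h2 : u * n * d * (u * n)⁻¹ = u * d * u⁻¹ := by
      calc u * n * d * (u * n)⁻¹ = u * (n * d) * n⁻¹ * u⁻¹ := by group
        _ = u * d * u⁻¹ := by rw [h1]; group
    rw [h2]
    exact ⟨Subgroup.Normal.conj_mem inferInstance _ hd.1 u, U.mul_mem (U.mul_mem hu hd.2) (U.inv_mem hu)⟩
  exact eq_bot_of_normal_le hcore _ inf_le_right


/-- Let U be a maximal subgroup of a finite group G whose normal core is trivial, and N a nontrivial normal subgroup with centralizer C. Then C ∩ U = 1, and either C = 1 or C is a minimal normal subgroup of G. -/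
theorem result {G : Type*} [Group G] [Finite G] (U : Subgroup G) (hU : IsCoatom U) (hcore : U.normalCore = ⊥) (N : Subgroup G) [N.Normal] (hN : N ≠ ⊥) : Subgroup.centralizer (N : Set G) ⊓ U = ⊥ ∧ (Subgroup.centralizer (N : Set G) = ⊥ ∨ (Subgroup.centralizer (N : Set G) ≠ ⊥ ∧ ∀ K : Subgroup G, K.Normal → K ≤ Subgroup.centralizer (N : Set G) → K = ⊥ ∨ K = Subgroup.centralizer (N : Set G))) := by
  have h1 := centralizer_inf hU hcore N hN
  refine ⟨h1, ?_⟩
  by_cases hC : Subgroup.centralizer (N : Set G) = ⊥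
  · exact Or.inl hC
  · right
    refine ⟨hC, ?_⟩
    intro K hKn hK
    by_cases hK1 : K = ⊥
    · exact Or.inl hK1
    · right
      apply le_antisymm hK
      have hsup := sup_top hU hcore K hK1
      intro c hc
      have hc' : c ∈ U ⊔ K := by rw [hsup]; trivial
      obtain ⟨u, hu, k, hk, rfl⟩ := Subgroup.mem_sup_of_normal_right.mp hc'
      have hu' : u ∈ Subgroup.centralizer (N : Set G) ⊓ U := by
        refine ⟨?_, hu⟩
        have := (Subgroup.centralizer (N : Set G)).mul_mem hc ((Subgroup.centralizer (N : Set G)).inv_mem (hK hk))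
        simpa using this
      rw [h1, Subgroup.mem_bot] at hu'
      rw [hu', one_mul]; exact hk

end Cfsg.Agent.S0549
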