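import Cfsg.Statements.S0703
import Mathlib
import Cfsg.Agent.Lib_lead_Perm

set_option autoImplicit false
open Cfsg

namespace Cfsg.Agent.S0703

theorem comm_of' {G : Type*} [Group G] {A : Subgroup G} (hA : IsMulCommutative A) {a b : G} (ha : a ∈ A) (hb : b ∈ A) :
    a * b = b * a := by
  have := mul_comm' (⟨a, ha⟩ : A) ⟨b, hb⟩
  exact congrArg Subtype.val this

/-- two normal subgroups meeting trivially commute -/
theorem comm_of_inf_bot {G : Type*} [Group G] (L M : Subgroup G) [L.Normal] [M.Normal] (h : L ⊓ M = ⊥)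
    {x y : G} (hx : x ∈ L) (hy : y ∈ M) : x * y = y * x := by
  have h1 : x * y * x⁻¹ * y⁻¹ ∈ L ⊓ M := by
    refine ⟨?_, ?_⟩
    · have : y * x⁻¹ * y⁻¹ ∈ L := Subgroup.Normal.conj_mem inferInstance _ (L.inv_mem hx) y
      have h2 := L.mul_mem hx this
      have e : x * y * x⁻¹ * y⁻¹ = x * (y * x⁻¹ * y⁻¹) := by group
      rw [e]; exact h2
    · have : x * y * x⁻¹ ∈ M := Subgroup.Normal.conj_mem inferInstance _ hy x
      exact M.mul_mem this (M.inv_mem hy)
  rw [h, Subgroup.mem_bot] at h1
  calc x * y = (x * y * x⁻¹ * y⁻¹) * (y * x) := by group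
    _ = y * x := by rw [h1, one_mul]


/-- An abelian transitive minimal normal subgroup `M` of a permutation group on a finite set is self-centralising in the symmetric group, regular, elementary abelian, and is the unique minimal normal subgroup. -/
theorem result {α : Type*} [Finite α] (G : Subgroup (Equiv.Perm α)) (M : Subgroup G) [M.Normal] (hM : M ≠ ⊥) (hmin : ∀ L : Subgroup G, L.Normal → L ≤ M → L = ⊥ ∨ L = M) (hab : IsMulCommutative M) (htrans : MulAction.IsPretransitive M α) : Subgroup.centralizer ((M.map G.subtype : Subgroup (Equiv.Perm α)) : Set (Equiv.Perm α)) = M.map G.subtype ∧ (∀ a : α, MulAction.stabilizer M a = ⊥) ∧ (∃ p : ℕ, p.Prime ∧ ∀ m ∈ M, m ^ p = 1) ∧ ∀ L : Subgroup G, L.Normal → L ≠ ⊥ → (∀ L' : Subgroup G, L'.Normal → L' ≤ L → L' = ⊥ ∨ L' = L) → L = M := by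
  classical
  have ht := LeadPerm.trans_map_of_pretransitive G M
  have hcomm : M.map G.subtype ≤ Subgroup.centralizer ((M.map G.subtype : Subgroup (Equiv.Perm α)) : Set (Equiv.Perm α)) := by
    rintro _ ⟨x, hx, rfl⟩
    rw [Subgroup.mem_centralizer_iff]
    rintro _ ⟨y, hy, rfl⟩
    have := comm_of' hab hy hx
    exact congrArg Subtype.val this
  have h1 := LeadPerm.centralizer_eq_of_le ht ht hcomm
  refine ⟨h1, ?_, ?_, ?_⟩
  · intro a
    rw [eq_bot_iff]
    intro m hm
    have hm' : ((m : G) : Equiv.Perm α) a = a := hm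
    have := LeadPerm.semireg_of_commute ht hcomm (h := ((m : G) : Equiv.Perm α)) ⟨(m : G), m.2, rfl⟩ hm'
    rw [Subgroup.mem_bot]
    exact Subtype.ext (Subtype.ext this)
  · have hcard : Nat.card M ≠ 1 := by
      intro h
      exact hM ((Subgroup.card_eq_one).mp h)
    obtain ⟨p, hp, hpd⟩ := Nat.exists_prime_and_dvd hcard
    have := Fact.mk hp
    refine ⟨p, hp, ?_⟩
    let Ω : Subgroup G :=
      { carrier := {g | g ∈ M ∧ g ^ p = 1}
        one_mem' := ⟨M.one_mem, one_pow _⟩
        mul_mem' := by
          rintro a b ⟨ha, ha'⟩ ⟨hb, hb'⟩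
          refine ⟨M.mul_mem ha hb, ?_⟩
          rw [(show Commute a b from comm_of' hab ha hb).mul_pow, ha', hb', one_mul]
        inv_mem' := by
          rintro a ⟨ha, ha'⟩
          exact ⟨M.inv_mem ha, by rw [inv_pow, ha', inv_one]⟩ }
    have hΩn : Ω.Normal := by
      constructor
      rintro a ⟨ha, ha'⟩ g
      refine ⟨Subgroup.Normal.conj_mem inferInstance _ ha g, ?_⟩
      rw [conj_pow, ha']; group
    have hΩle : Ω ≤ M := fun a ha => ha.1
    obtain ⟨x, hx⟩ := exists_prime_orderOf_dvd_card' p hpd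
    have hΩne : Ω ≠ ⊥ := by
      intro h
      have hxm : (x : G) ∈ Ω := by
        refine ⟨x.2, ?_⟩
        have := pow_orderOf_eq_one x
        rw [hx] at this
        exact_mod_cast congrArg Subtype.val this
      rw [h, Subgroup.mem_bot] at hxm
      have : x = 1 := Subtype.ext hxm
      rw [this, orderOf_one] at hx
      exact hp.one_lt.ne hx
    rcases hmin Ω hΩn hΩle with h | h
    · exact absurd h hΩne
    · intro m hm
      rw [← h] at hm
      exact hm.2
  · intro L hLn hL hLmin
    by_contra hne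
    have := hLn
    have hinf : L ⊓ M = ⊥ := by
      rcases hLmin (L ⊓ M) inferInstance inf_le_left with h | h
      · exact h
      · exfalso
        have hle : L ≤ M := by rw [← h]; exact inf_le_right
        rcases hmin L hLn hle with h' | h'
        · exact hL h'
        · exact hne h'
    have hLM : L ≤ M := by
      intro x hx
      have hxc : (x : Equiv.Perm α) ∈ Subgroup.centralizer ((M.map G.subtype : Subgroup (Equiv.Perm α)) : Set (Equiv.Perm α)) := by
        rw [Subgroup.mem_centralizer_iff]
        rintro _ ⟨y, hy, rfl⟩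
        have := comm_of_inf_bot L M hinf hx hy
        exact (congrArg Subtype.val this).symm
      rw [h1] at hxc
      obtain ⟨y, hy, hyx⟩ := hxc
      have : y = x := Subtype.ext hyx
      rwa [← this]
    apply hL
    rw [← hinf]
    exact (inf_eq_left.mpr hLM).symm

end Cfsg.Agent.S0703
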