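import Cfsg.Statements.S0704
import Mathlib
import Cfsg.Agent.Lib_lead_Perm
import Cfsg.Agent.S0703

set_option autoImplicit false
open Cfsg

namespace Cfsg.Agent.S0704

theorem eq_of_smul_eq {H α : Type*} [Group H] [MulAction H α] {a : α} (h : MulAction.stabilizer H a = ⊥)
    {x y : H} (hxy : x • a = y • a) : x = y := by
  have : y⁻¹ * x ∈ MulAction.stabilizer H a := by
    rw [MulAction.mem_stabilizer_iff, mul_smul, hxy, inv_smul_smul]
  rw [h, Subgroup.mem_bot] at this
  calc x = y * (y⁻¹ * x) := by group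
    _ = y := by rw [this, mul_one]

theorem inf_bot_of_min {G : Type*} [Group G] (L M : Subgroup G) [L.Normal] [M.Normal] (hL : L ≠ ⊥)
    (hLmin : ∀ K : Subgroup G, K.Normal → K ≤ L → K = ⊥ ∨ K = L)
    (hMmin : ∀ K : Subgroup G, K.Normal → K ≤ M → K = ⊥ ∨ K = M) (hne : L ≠ M) : L ⊓ M = ⊥ := by
  rcases hLmin (L ⊓ M) inferInstance inf_le_left with h | h
  · exact h
  · exfalso
    have hle : L ≤ M := by rw [← h]; exact inf_le_right
    rcases hMmin L inferInstance hle with h' | h'
    · exact hL h'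
    · exact hne h'


/-- Two distinct transitive minimal normal subgroups `M`, `N` of a permutation group are regular, non-abelian, isomorphic, each other's centraliser in the symmetric group, and the only minimal normal subgroups. -/
theorem result {α : Type*} (G : Subgroup (Equiv.Perm α)) (M N : Subgroup G) [M.Normal] [N.Normal] (hM : M ≠ ⊥) (hN : N ≠ ⊥) (hMmin : ∀ L : Subgroup G, L.Normal → L ≤ M → L = ⊥ ∨ L = M) (hNmin : ∀ L : Subgroup G, L.Normal → L ≤ N → L = ⊥ ∨ L = N) (hMN : M ≠ N) (hMt : MulAction.IsPretransitive M α) (hNt : MulAction.IsPretransitive N α) : (∀ a : α, MulAction.stabilizer M a = ⊥) ∧ (∀ a : α, MulAction.stabilizer N a = ⊥) ∧ ¬ IsMulCommutative M ∧ Nonempty (M ≃* N) ∧ Subgroup.centralizer ((M.map G.subtype : Subgroup (Equiv.Perm α)) : Set (Equiv.Perm α)) = N.map G.subtype ∧ Subgroup.centralizer ((N.map G.subtype : Subgroup (Equiv.Perm α)) : Set (Equiv.Perm α)) = M.map G.subtype ∧ ∀ L : Subgroup G, L.Normal → L ≠ ⊥ → (∀ L' : Subgroup G, L'.Normal → L' ≤ L → L' =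 ⊥ ∨ L' = L) → L = M ∨ L = N := by
  classical
  have htM := LeadPerm.trans_map_of_pretransitive G M
  have htN := LeadPerm.trans_map_of_pretransitive G N
  have hinf : M ⊓ N = ⊥ := inf_bot_of_min M N hM hMmin hNmin hMN
  have hcomm : ∀ x ∈ M, ∀ y ∈ N, x * y = y * x := fun x hx y hy => S0703.comm_of_inf_bot M N hinf hx hy
  have hNc : N.map G.subtype ≤ Subgroup.centralizer ((M.map G.subtype : Subgroup (Equiv.Perm α)) : Set (Equiv.Perm α)) := by
    rintro _ ⟨y, hy, rfl⟩
    rw [Subgroup.mem_centralizer_iff]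
    rintro _ ⟨x, hx, rfl⟩
    exact congrArg Subtype.val (hcomm x hx y hy)
  have hMc : M.map G.subtype ≤ Subgroup.centralizer ((N.map G.subtype : Subgroup (Equiv.Perm α)) : Set (Equiv.Perm α)) := by
    rintro _ ⟨x, hx, rfl⟩
    rw [Subgroup.mem_centralizer_iff]
    rintro _ ⟨y, hy, rfl⟩
    exact (congrArg Subtype.val (hcomm x hx y hy)).symm
  have cM := LeadPerm.centralizer_eq_of_le htM htN hNc
  have cN := LeadPerm.centralizer_eq_of_le htN htM hMc
  have sM : ∀ a : α, MulAction.stabilizer M a = ⊥ := by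
    intro a
    rw [eq_bot_iff]
    intro m hm
    have hm' : ((m : G) : Equiv.Perm α) a = a := hm
    have := LeadPerm.semireg_of_commute htN hMc (h := ((m : G) : Equiv.Perm α)) ⟨(m : G), m.2, rfl⟩ hm'
    rw [Subgroup.mem_bot]
    exact Subtype.ext (Subtype.ext this)
  have sN : ∀ a : α, MulAction.stabilizer N a = ⊥ := by
    intro a
    rw [eq_bot_iff]
    intro m hm
    have hm' : ((m : G) : Equiv.Perm α) a = a := hm
    have := LeadPerm.semireg_of_commute htM hNc (h := ((m : G) : Equiv.Perm α)) ⟨(m : G), m.2, rfl⟩ hm'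
    rw [Subgroup.mem_bot]
    exact Subtype.ext (Subtype.ext this)
  have hle_of : ∀ L : Subgroup G, (∀ x ∈ L, ∀ y ∈ M, x * y = y * x) → L ≤ N := by
    intro L hL x hx
    have hxc : (x : Equiv.Perm α) ∈ Subgroup.centralizer ((M.map G.subtype : Subgroup (Equiv.Perm α)) : Set (Equiv.Perm α)) := by
      rw [Subgroup.mem_centralizer_iff]
      rintro _ ⟨y, hy, rfl⟩
      exact (congrArg Subtype.val (hL x hx y hy)).symm
    rw [cM] at hxc
    obtain ⟨y, hy, hyx⟩ := hxc
    have : y = x := Subtype.ext hyx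
    rwa [← this]
  refine ⟨sM, sN, ?_, ?_, cM, cN, ?_⟩
  · intro hab
    have hle : M ≤ N := hle_of M (fun x hx y hy => S0703.comm_of' hab hx hy)
    rcases hNmin M inferInstance hle with h | h
    · exact hM h
    · exact hMN h
  · -- the isomorphism
    have hne : Nonempty α := by
      by_contra hne
      apply hM
      rw [eq_bot_iff]
      intro m _
      rw [Subgroup.mem_bot]
      apply Subtype.ext
      ext b
      exact (hne ⟨b⟩).elim
    obtain ⟨a⟩ := hne
    have hex : ∀ m : M, ∃ n : N, n • a = m⁻¹ • a := fun m => MulAction.exists_smul_eq N a (m⁻¹ • a)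
    choose φ hφ using hex
    have hsw : ∀ (m : M) (n : N) (x : α), m • n • x = n • m • x := by
      intro m n x
      have := hcomm m m.2 n n.2
      change ((m : G) : Equiv.Perm α) (((n : G) : Equiv.Perm α) x) = ((n : G) : Equiv.Perm α) (((m : G) : Equiv.Perm α) x)
      have h2 : (((m : G) * (n : G) : G) : Equiv.Perm α) x = (((n : G) * (m : G) : G) : Equiv.Perm α) x := by rw [this]
      simpa using h2
    have hmul : ∀ m m' : M, φ (m * m') = φ m * φ m' := by
      intro m m'
      apply eq_of_smul_eq (sN a)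
      rw [hφ, mul_smul, hφ, ← hsw, hφ, mul_inv_rev, mul_smul]
    let f : M →* N := MonoidHom.mk' φ hmul
    refine ⟨MulEquiv.ofBijective f ⟨?_, ?_⟩⟩
    · intro m m' h
      have h' : φ m = φ m' := h
      have h2 : m⁻¹ • a = m'⁻¹ • a := by rw [← hφ, ← hφ, h']
      exact inv_injective (eq_of_smul_eq (sM a) h2)
    · intro n
      obtain ⟨m0, hm0⟩ := MulAction.exists_smul_eq M a (n • a)
      refine ⟨m0⁻¹, ?_⟩
      change φ m0⁻¹ = n
      apply eq_of_smul_eq (sN a)
      rw [hφ, inv_inv, hm0]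
  · intro L hLn hL hLmin
    by_cases hLM : L = M
    · exact Or.inl hLM
    · right
      have := hLn
      have hinf' : L ⊓ M = ⊥ := inf_bot_of_min L M hL hLmin hMmin hLM
      have hle : L ≤ N := hle_of L (fun x hx y hy => S0703.comm_of_inf_bot L M hinf' hx hy)
      rcases hNmin L hLn hle with h | h
      · exact absurd h hL
      · exact h

end Cfsg.Agent.S0704
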