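import Cfsg.Statements.S0550
import Mathlib
import Cfsg.Agent.S0549
import Cfsg.Agent.S0703
import Cfsg.Agent.S0704

set_option autoImplicit false
open Cfsg

namespace Cfsg.Agent.S0550

theorem iso_aux {G : Type*} [Group G] (A B U : Subgroup G) [A.Normal] [B.Normal] (hAB : A ⊓ B = ⊥)
    (hUB : U ⊓ B = ⊥) (hsup : U ⊔ B = ⊤) : Nonempty (A ≃* ↥((A ⊔ B) ⊓ U)) := by
  let f : A →* G ⧸ B := (QuotientGroup.mk' B).comp A.subtype
  let g : ↥((A ⊔ B) ⊓ U) →* G ⧸ B := (QuotientGroup.mk' B).comp ((A ⊔ B) ⊓ U).subtype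
  have hf : Function.Injective f := by
    rw [injective_iff_map_eq_one]
    intro a ha
    have ha' : (a : G) ∈ B := (QuotientGroup.eq_one_iff _).mp ha
    have : (a : G) ∈ A ⊓ B := ⟨a.2, ha'⟩
    rw [hAB, Subgroup.mem_bot] at this
    exact Subtype.ext this
  have hg : Function.Injective g := by
    rw [injective_iff_map_eq_one]
    intro a ha
    have ha' : (a : G) ∈ B := (QuotientGroup.eq_one_iff _).mp ha
    have : (a : G) ∈ U ⊓ B := ⟨a.2.2, ha'⟩
    rw [hUB, Subgroup.mem_bot] at this
    exact Subtype.ext this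
  have hr : f.range = g.range := by
    ext x
    constructor
    · rintro ⟨a, rfl⟩
      have ha : (a : G) ∈ U ⊔ B := by rw [hsup]; trivial
      obtain ⟨u, hu, b, hb, hub⟩ := Subgroup.mem_sup_of_normal_right.mp ha
      have hu' : u ∈ (A ⊔ B) ⊓ U := by
        refine ⟨?_, hu⟩
        have : u = (a : G) * b⁻¹ := by rw [← hub]; group
        rw [this]
        exact Subgroup.mul_mem_sup a.2 (B.inv_mem hb)
      refine ⟨⟨u, hu'⟩, ?_⟩
      change (QuotientGroup.mk u : G ⧸ B) = QuotientGroup.mk (a : G)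
      rw [QuotientGroup.eq, ← hub]
      simpa using hb
    · rintro ⟨d, rfl⟩
      obtain ⟨a, ha, b, hb, hab⟩ := Subgroup.mem_sup_of_normal_right.mp d.2.1
      refine ⟨⟨a, ha⟩, ?_⟩
      change (QuotientGroup.mk a : G ⧸ B) = QuotientGroup.mk (d : G)
      rw [QuotientGroup.eq, ← hab]
      simpa using hb
  exact ⟨(MonoidHom.ofInjective hf).trans ((MulEquiv.subgroupCongr hr).trans (MonoidHom.ofInjective hg).symm)⟩


/-- Let U be a maximal subgroup with trivial normal core in a finite group G, and A ≠ B two minimal normal subgroups. Then A is the centralizer of B and B that of A, U complements each of them, A and B are non-abelian, and A, B and (A ⊔ B) ∩ U are pairwise isomorphic. -/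
theorem result {G : Type*} [Group G] [Finite G] (U : Subgroup G) (hU : IsCoatom U) (hcore : U.normalCore = ⊥) (A B : Subgroup G) [A.Normal] [B.Normal] (hA : A ≠ ⊥) (hB : B ≠ ⊥) (hAmin : ∀ K : Subgroup G, K.Normal → K ≤ A → K = ⊥ ∨ K = A) (hBmin : ∀ K : Subgroup G, K.Normal → K ≤ B → K = ⊥ ∨ K = B) (hAB : A ≠ B) : Subgroup.centralizer (B : Set G) = A ∧ Subgroup.centralizer (A : Set G) = B ∧ Subgroup.IsComplement' A U ∧ Subgroup.IsComplement' B U ∧ ¬ IsMulCommutative A ∧ Nonempty (A ≃* B) ∧ Nonempty (A ≃* ↥((A ⊔ B) ⊓ U)) := by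
  have hinf : A ⊓ B = ⊥ := S0704.inf_bot_of_min A B hA hAmin hBmin hAB
  have hcomm : ∀ x ∈ A, ∀ y ∈ B, x * y = y * x := fun x hx y hy => S0703.comm_of_inf_bot A B hinf hx hy
  have hAle : A ≤ Subgroup.centralizer (B : Set G) := by
    intro x hx
    rw [Subgroup.mem_centralizer_iff]
    intro y hy
    exact (hcomm x hx y hy).symm
  have hBle : B ≤ Subgroup.centralizer (A : Set G) := by
    intro y hy
    rw [Subgroup.mem_centralizer_iff]
    intro x hx
    exact hcomm x hx y hy
  have cB : Subgroup.centralizer (B : Set G) = A := by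
    rcases (S0549.result U hU hcore B hB).2 with h | ⟨_, h⟩
    · exfalso; apply hA; rw [eq_bot_iff, ← h]; exact hAle
    · rcases h A inferInstance hAle with h' | h'
      · exact absurd h' hA
      · exact h'.symm
  have cA : Subgroup.centralizer (A : Set G) = B := by
    rcases (S0549.result U hU hcore A hA).2 with h | ⟨_, h⟩
    · exfalso; apply hB; rw [eq_bot_iff, ← h]; exact hBle
    · rcases h B inferInstance hBle with h' | h'
      · exact absurd h' hB
      · exact h'.symm
  have hAU : A ⊓ U = ⊥ := by rw [← cB]; exact S0549.centralizer_inf hU hcore B hB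
  have hBU : B ⊓ U = ⊥ := by rw [← cA]; exact S0549.centralizer_inf hU hcore A hA
  have hsA := S0549.sup_top hU hcore A hA
  have hsB := S0549.sup_top hU hcore B hB
  have e1 := iso_aux A B U hinf (by rw [inf_comm]; exact hBU) hsB
  have e2 := iso_aux B A U (by rw [inf_comm]; exact hinf) (by rw [inf_comm]; exact hAU) hsA
  rw [sup_comm] at e2
  refine ⟨cB, cA, ?_, ?_, ?_, ?_, e1⟩
  · apply Subgroup.isComplement'_of_disjoint_and_mul_eq_univ (disjoint_iff.mpr hAU)
    rw [← Subgroup.normal_mul, sup_comm, hsA]; rfl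
  · apply Subgroup.isComplement'_of_disjoint_and_mul_eq_univ (disjoint_iff.mpr hBU)
    rw [← Subgroup.normal_mul, sup_comm, hsB]; rfl
  · intro hab
    have hle : A ≤ B := by
      rw [← cA]
      intro x hx
      rw [Subgroup.mem_centralizer_iff]
      intro y hy
      exact S0703.comm_of' hab hy hx
    apply hA
    rw [← hinf]
    exact (inf_eq_left.mpr hle).symm
  · obtain ⟨e1⟩ := e1
    obtain ⟨e2⟩ := e2
    exact ⟨e1.trans e2.symm⟩

end Cfsg.Agent.S0550
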