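import Mathlib
import Cfsg.Statements.S0551
import Cfsg.Agent.Lib_helper1_Misc2

set_option autoImplicit false
open Pointwise
open Cfsg

namespace Cfsg.Agent.S0551

open Cfsg.Agent.H1 Subgroup
open scoped Pointwise

theorem facts {G : Type*} [Group G] [Finite G] (W : Subgroup G) (hW : IsCoatom W)
    (hc : W.normalCore = ⊥) (N : Subgroup G) [hNn : N.Normal] (hNab : IsMulCommutative N)
    (hNne : N ≠ ⊥) (hmin : ∀ M : Subgroup G, M.Normal → M ≤ N → M = ⊥ ∨ M = N) :
    W ⊔ N = ⊤ ∧ W ⊓ N = ⊥ ∧ centralizer (N : Set G) ≤ N := by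
  have hle : ∀ X : Subgroup G, X.Normal → X ≤ W → X = ⊥ := by
    intro X hX hXW
    have := (normal_le_normalCore (H := W) (N := X)).mpr hXW
    rw [hc] at this
    exact le_bot_iff.mp this
  have hNW : ¬ N ≤ W := fun h => hNne (hle N hNn h)
  have htop : W ⊔ N = ⊤ := sup_eq_top_of_coatom_not_le hW hNW
  have hnormal : ∀ X : Subgroup G, W ≤ normalizer (X : Set G) → N ≤ normalizer (X : Set G) →
      X.Normal := by
    intro X h1 h2
    apply normalizer_eq_top_iff.mp
    rw [eq_top_iff, ← htop]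
    exact sup_le h1 h2
  have hcomm : ∀ a ∈ N, ∀ b ∈ N, a * b = b * a := by
    intro a ha b hb
    exact congrArg Subtype.val (mul_comm' (⟨a, ha⟩ : N) ⟨b, hb⟩)
  have hinf : W ⊓ N = ⊥ := by
    have h1 : (W ⊓ N).Normal := by
      apply hnormal
      · exact le_normalizer_inf_normal W N
      · apply le_normalizer_of_forall
        intro n hn x hx
        have : n * x * n⁻¹ = x := by rw [hcomm n hn x hx.2]; group
        rw [this]; exact hx
    exact hle _ h1 inf_le_left
  refine ⟨htop, hinf, ?_⟩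
  have hCn : (centralizer (N : Set G)).Normal := inferInstance
  have h2 : W ⊓ centralizer (N : Set G) = ⊥ := by
    have h1 : (W ⊓ centralizer (N : Set G)).Normal := by
      apply hnormal
      · exact le_normalizer_inf_normal W _
      · apply le_normalizer_of_forall
        intro n hn x hx
        have h3 := mem_centralizer_iff.mp hx.2 n hn
        have : n * x * n⁻¹ = x := by rw [h3]; group
        rw [this]; exact hx
    exact hle _ h1 inf_le_left
  have hNC : N ≤ centralizer (N : Set G) := by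
    intro x hx
    rw [mem_centralizer_iff]
    intro y hy
    exact hcomm y hy x hx
  intro x hx
  have hx' : x ∈ W ⊔ N := htop ▸ mem_top x
  obtain ⟨w, hw, n, hn, rfl⟩ := mem_sup_of_normal_right.mp hx'
  have hwC : w ∈ centralizer (N : Set G) := by
    have := mul_mem hx (inv_mem (hNC hn))
    simpa using this
  have hw1 : w ∈ W ⊓ centralizer (N : Set G) := Subgroup.mem_inf.mpr ⟨hw, hwC⟩
  rw [h2, mem_bot] at hw1
  rw [hw1, one_mul]; exact hn

theorem card_inf {G : Type*} [Group G] [Finite G] (W N K : Subgroup G) [N.Normal]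
    (htop : W ⊔ N = ⊤) (hinf : W ⊓ N = ⊥) (hNK : N ≤ K) :
    Nat.card (W ⊓ K : Subgroup G) * Nat.card N = Nat.card K := by
  have h1 : (W ⊓ K) ⊔ N = K := by
    apply le_antisymm (sup_le inf_le_right hNK)
    intro x hx
    have hx' : x ∈ W ⊔ N := htop ▸ mem_top x
    obtain ⟨w, hw, n, hn, rfl⟩ := mem_sup_of_normal_right.mp hx'
    have hwK : w ∈ K := by
      have := mul_mem hx (inv_mem (hNK hn))
      simpa using this
    exact mul_mem (mem_sup_left (Subgroup.mem_inf.mpr ⟨hw, hwK⟩)) (mem_sup_right hn)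
  have h2 := card_sup_mul_card_inf (W ⊓ K) N
  have h3 : (W ⊓ K) ⊓ N = ⊥ := by
    rw [eq_bot_iff, ← hinf]
    exact le_inf (inf_le_left.trans inf_le_left) inf_le_right
  rw [h1, h3, card_bot, mul_one] at h2
  exact h2.symm

theorem eq_normalizer {G : Type*} [Group G] [Finite G] (W : Subgroup G) (hW : IsCoatom W)
    (hc : W.normalCore = ⊥) (K : Subgroup G) [K.Normal] (hne : W ⊓ K ≠ ⊥) :
    normalizer ((W ⊓ K : Subgroup G) : Set G) = W := by
  have h1 : W ≤ normalizer ((W ⊓ K : Subgroup G) : Set G) := le_normalizer_inf_normal W K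
  by_contra hne'
  have h2 := hW.2 _ (lt_of_le_of_ne h1 (Ne.symm hne'))
  have h3 : (W ⊓ K).Normal := normalizer_eq_top_iff.mp h2
  have := (normal_le_normalCore (H := W) (N := W ⊓ K)).mpr inf_le_left
  rw [hc] at this
  exact hne (le_bot_iff.mp this)


/-- In a finite solvable group all core-free maximal subgroups are conjugate. -/
theorem result {G : Type*} [Group G] [Finite G] [Group.IsSolvable G] (U V : Subgroup G) (hU : IsCoatom U) (hV : IsCoatom V) (hUc : U.normalCore = ⊥) (hVc : V.normalCore = ⊥) : ∃ g : G, MulAut.conj g • U = V := by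
  have hnt : Nontrivial G := by
    by_contra h
    rw [not_nontrivial_iff_subsingleton] at h
    exact hU.1 (Subsingleton.elim _ _)
  obtain ⟨p, hp, P0, hP0c, hP0p, hP0ne, hP0ab⟩ := exists_normal_pgroup_of_solvable G
  have : Fact p.Prime := ⟨hp⟩
  obtain ⟨N, hNn, hNne, hNP0, hmin⟩ := exists_minimal_normal_le P0 inferInstance hP0ne
  have hNab : IsMulCommutative N := by
    refine ⟨⟨fun a b => ?_⟩⟩
    have := mul_comm' (⟨a, hNP0 a.2⟩ : P0) ⟨b, hNP0 b.2⟩
    exact Subtype.ext (congrArg (fun z : P0 => (z : G)) this)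
  have hNp : IsPGroup p N := hP0p.to_le hNP0
  obtain ⟨hU1, hU2, hCN⟩ := facts U hU hUc N hNab hNne hmin
  obtain ⟨hV1, hV2, -⟩ := facts V hV hVc N hNab hNne hmin
  by_cases hNtop : N = ⊤
  · refine ⟨1, ?_⟩
    rw [hNtop, inf_top_eq] at hU2 hV2
    rw [hU2, hV2]; simp
  have : Nontrivial (G ⧸ N) := QuotientGroup.nontrivial_iff.mpr hNtop
  obtain ⟨q, hq, Q, hQc, hQq, hQne, -⟩ := exists_normal_pgroup_of_solvable (G ⧸ N)
  have : Fact q.Prime := ⟨hq⟩
  have hKn : (Q.comap (QuotientGroup.mk' N)).Normal := Normal.comap inferInstance _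
  have hNK : N ≤ Q.comap (QuotientGroup.mk' N) := by
    conv_lhs => rw [← QuotientGroup.ker_mk' N]
    exact ker_le_comap _ _
  have hcardK := card_comap_mk N Q
  obtain ⟨b, hb⟩ := hQq.exists_card_eq
  obtain ⟨a, ha⟩ := hNp.exists_card_eq
  have hb0 : b ≠ 0 := by
    intro h0
    rw [h0, pow_zero] at hb
    exact hQne (card_eq_one.mp hb)
  have hpq : p ≠ q := by
    intro hpq
    subst hpq
    have hKp : IsPGroup p (Q.comap (QuotientGroup.mk' N)) := by
      apply IsPGroup.of_card (n := b + a)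
      rw [hcardK, hb, ha, pow_add]
    have h1 := commutator_lt_of_pgroups hNp hKp (normalizer_eq_top_iff.mpr hNn ▸ le_top) hNne
    have h2 : ⁅N, Q.comap (QuotientGroup.mk' N)⁆ = ⊥ :=
      (hmin _ inferInstance h1.le).resolve_right h1.ne
    have h3 : Q.comap (QuotientGroup.mk' N) ≤ centralizer (N : Set G) := by
      rw [commutator_comm] at h2
      exact commutator_eq_bot_iff_le_centralizer.mp h2
    have h4 : Q.comap (QuotientGroup.mk' N) = N := le_antisymm (h3.trans hCN) hNK
    rw [h4, hb, ha] at hcardK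
    have h5 : 0 < p ^ a := pow_pos hp.pos a
    have h6 : p ^ b = 1 := by nlinarith
    exact hb0 ((Nat.pow_eq_one.mp h6).resolve_left (by have := hp.two_le; omega))
  have hcU := card_inf U N _ hU1 hU2 hNK
  have hcV := card_inf V N _ hV1 hV2 hNK
  have hNpos : 0 < Nat.card N := Nat.card_pos
  have hcU' : Nat.card (U ⊓ Q.comap (QuotientGroup.mk' N) : Subgroup G) = q ^ b := by
    rw [hcardK, hb] at hcU
    exact Nat.eq_of_mul_eq_mul_right hNpos hcU
  have hcV' : Nat.card (V ⊓ Q.comap (QuotientGroup.mk' N) : Subgroup G) = q ^ b := by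
    rw [hcardK, hb] at hcV
    exact Nat.eq_of_mul_eq_mul_right hNpos hcV
  have hne : ∀ X : Subgroup G, Nat.card X = q ^ b → X ≠ ⊥ := by
    intro X hX hbot
    rw [hbot, card_bot] at hX
    exact hb0 ((Nat.pow_eq_one.mp hX.symm).resolve_left (by have := hq.two_le; omega))
  have hKsol : Group.IsSolvable (Q.comap (QuotientGroup.mk' N)) := inferInstance
  obtain ⟨k, -, hk⟩ := hall_conj_internal (Q.comap (QuotientGroup.mk' N))
    (U ⊓ Q.comap (QuotientGroup.mk' N)) (V ⊓ Q.comap (QuotientGroup.mk' N)) hKsol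
    inf_le_right inf_le_right (hcU'.trans hcV'.symm) (by
      have h1 := relIndex_mul_card' (inf_le_right : U ⊓ Q.comap (QuotientGroup.mk' N) ≤ _)
      rw [← hcU] at h1
      have h2 : (U ⊓ Q.comap (QuotientGroup.mk' N)).relIndex (Q.comap (QuotientGroup.mk' N))
          = Nat.card N := by
        have h3 : 0 < Nat.card (U ⊓ Q.comap (QuotientGroup.mk' N) : Subgroup G) := Nat.card_pos
        nlinarith
      rw [h2, hcU', ha]
      exact Nat.Coprime.pow _ _ ((Nat.coprime_primes hq hp).mpr (Ne.symm hpq)))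
  have hnU := eq_normalizer U hU hUc _ (hne _ hcU')
  have hnV := eq_normalizer V hV hVc _ (hne _ hcV')
  refine ⟨k, ?_⟩
  have h1 : MulAut.conj k • U ≤ V := by
    rw [← hnV, conj_smul_le_normalizer_iff, ← hk, smul_smul, ← map_mul]
    simp only [inv_mul_cancel, map_one, one_smul]
    exact hnU.ge
  apply Subgroup.eq_of_le_of_card_ge h1
  rw [card_conj_smul]
  have h2 := card_inf U N ⊤ hU1 hU2 le_top
  have h3 := card_inf V N ⊤ hV1 hV2 le_top
  rw [inf_top_eq] at h2 h3
  have h4 : Nat.card V * Nat.card N = Nat.card U * Nat.card N := h3.trans h2.symm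
  exact (Nat.eq_of_mul_eq_mul_right hNpos h4).le

end Cfsg.Agent.S0551
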