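import Mathlib
import Cfsg.Statements.S0553
import Cfsg.Agent.Lib_helper1_Misc

set_option autoImplicit false
open Cfsg

namespace Cfsg.Agent.S0553

open Cfsg.Agent.H1 Subgroup

theorem aux.{u} : ∀ (n : ℕ) (G : Type u) [Group G] [Finite G] [Group.IsSolvable G] [Nontrivial G],
    Nat.card G = n → (∀ M : Subgroup G, IsCoatom M → (Nat.card M).Coprime M.index) →
    ∃ p : ℕ, p.Prime ∧ p ∣ Nat.card G ∧ ∀ P : Sylow p G, (P : Subgroup G).Normal := by
  intro n
  induction n using Nat.strong_induction_on with
  | _ n ih =>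
    intro G _ _ _ _ hn h
    obtain ⟨p, hp, N, hNc, hNp, hNne, -⟩ := exists_normal_pgroup_of_solvable G
    have : Fact p.Prime := ⟨hp⟩
    have hNn : N.Normal := inferInstance
    by_cases hNF : N ≤ frattini G
    · have hNtop : N ≠ ⊤ := by
        intro ht
        have h1 : (⊥ : Subgroup G) ⊔ frattini G = ⊤ := by
          rw [bot_sup_eq, eq_top_iff, ← ht]; exact hNF
        exact bot_ne_top (frattini_nongenerating h1)
      have : Nontrivial (G ⧸ N) := QuotientGroup.nontrivial_iff.mpr hNtop
      obtain ⟨q, hq, hqd, hQ⟩ := ih _ (hn ▸ card_quotient_lt hNne) (G ⧸ N) rfl (by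
        intro L hL
        have h1 := h _ (isCoatom_comap_mk _ hL)
        rw [index_comap_of_surjective _ (QuotientGroup.mk'_surjective _), card_comap_mk] at h1
        exact Nat.Coprime.coprime_mul_right h1)
      have : Fact q.Prime := ⟨hq⟩
      refine ⟨q, hq, hqd.trans ⟨Nat.card N, (card_quotient_mul_card N).symm⟩, fun Q => ?_⟩
      have h1 := hQ (Q.mapSurjective (QuotientGroup.mk'_surjective N))
      rw [Sylow.coe_mapSurjective] at h1
      exact sylow_normal_of_sup_normal_of_le_frattini Q N hNF (sup_normal_of_map_mk_normal _ _ h1)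
    · obtain ⟨M, hM, hNM⟩ := exists_coatom_not_le hNF
      have h1 := index_mul_card_inf_of_sup_eq_top (sup_eq_top_of_coatom_not_le hM hNM)
      have h2 := h M hM
      obtain ⟨k, hk⟩ := hNp.exists_card_eq
      have h5 : M.index ∣ p ^ k := hk ▸ Dvd.intro _ h1
      obtain ⟨j, -, hj⟩ := (Nat.dvd_prime_pow hp).mp h5
      have hj0 : j ≠ 0 := by
        intro h0
        rw [h0, pow_zero] at hj
        exact hM.1 (index_eq_one.mp hj)
      have h7 : (Nat.card M).Coprime p := by
        rw [hj] at h2
        exact (Nat.coprime_pow_right_iff (Nat.pos_of_ne_zero hj0) _ _).mp h2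
      have h3 : Nat.card (M ⊓ N : Subgroup G) = 1 := by
        have h4 : Nat.card (M ⊓ N : Subgroup G) ∣ Nat.card M := card_dvd_of_le inf_le_left
        have h6 : Nat.card (M ⊓ N : Subgroup G) ∣ p ^ k := hk ▸ Dvd.intro_left _ h1
        have h8 : (Nat.card (M ⊓ N : Subgroup G)).Coprime (p ^ k) :=
          Nat.Coprime.pow_right _ (Nat.Coprime.coprime_dvd_left h4 h7)
        exact Nat.Coprime.eq_one_of_dvd h8 h6
      rw [h3, mul_one] at h1
      have hpN : p ∣ Nat.card N := by
        rw [← h1, hj]; exact dvd_pow_self p hj0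
      refine ⟨p, hp, hpN.trans (card_subgroup_dvd_card N), fun P => ?_⟩
      have h9 : N ≤ (P : Subgroup G) := hNp.le_sylow_of_normal P
      obtain ⟨a, ha⟩ := P.2.exists_card_eq
      have h10 : Nat.card (P : Subgroup G) ∣ M.index := by
        have h11 : Nat.card (P : Subgroup G) ∣ M.index * Nat.card M := by
          rw [M.index_mul_card]; exact card_subgroup_dvd_card _
        refine Nat.Coprime.dvd_of_dvd_mul_right ?_ h11
        rw [ha]
        exact Nat.Coprime.pow_left _ h7.symm
      have h12 : N = (P : Subgroup G) :=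
        Subgroup.eq_of_le_of_card_ge h9 (h1 ▸ Nat.le_of_dvd (Nat.pos_of_ne_zero M.index_ne_zero_of_finite) h10)
      rw [← h12]; exact hNn

/-- Let G be a nontrivial finite solvable group in which every maximal subgroup has order coprime to its index. Then for some prime p dividing the order of G the Sylow p-subgroups of G are normal. -/
theorem result {G : Type*} [Group G] [Finite G] [Group.IsSolvable G] [Nontrivial G] (h : ∀ M : Subgroup G, IsCoatom M → (Nat.card M).Coprime M.index) : ∃ p : ℕ, p.Prime ∧ p ∣ Nat.card G ∧ ∀ P : Sylow p G, (P : Subgroup G).Normal := by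
  exact aux _ G rfl h

end Cfsg.Agent.S0553
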