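import Cfsg.Statements.S0554
import Mathlib
import Cfsg.Agent.Lib_helper1_Basic

set_option autoImplicit false
open Cfsg

namespace Cfsg.Agent.S0554

universe u

theorem move {G : Type*} [Group G] (N : Subgroup G) [hN : N.Normal] : ∀ (t : ℕ) (s : Fin t → G) (j : Fin t)
    (n : G), n ∈ N → ∃ n' ∈ N, (List.ofFn s).prod * n
      = (List.ofFn (Function.update s j (s j * n'))).prod := by
  intro t
  induction t with
  | zero => intro s j; exact j.elim0
  | succ t ih =>
    intro s j n hn
    induction j using Fin.cases with
    | zero =>
      refine ⟨(List.ofFn fun i => s i.succ).prod * n * ((List.ofFn fun i => s i.succ).prod)⁻¹,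
        hN.conj_mem n hn _, ?_⟩
      rw [List.ofFn_succ, List.ofFn_succ, List.prod_cons, List.prod_cons]
      have h1 : (fun i : Fin t => Function.update s 0
          (s 0 * ((List.ofFn fun i => s i.succ).prod * n * ((List.ofFn fun i => s i.succ).prod)⁻¹)) i.succ)
          = fun i => s i.succ := by
        funext i
        rw [Function.update_of_ne (Fin.succ_ne_zero i)]
      rw [h1, Function.update_self]
      group
    | succ j =>
      obtain ⟨n', hn', h⟩ := ih (fun i => s i.succ) j n hn
      refine ⟨n', hn', ?_⟩
      rw [List.ofFn_succ, List.ofFn_succ, List.prod_cons, List.prod_cons, mul_assoc, h]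
      have h1 : (fun i : Fin t => Function.update s j.succ (s j.succ * n') i.succ)
          = Function.update (fun i => s i.succ) j (s j.succ * n') := by
        funext i
        by_cases hij : i = j
        · subst hij; rw [Function.update_self, Function.update_self]
        · rw [Function.update_of_ne hij, Function.update_of_ne (fun h => hij (Fin.succ_injective _ h))]
      rw [h1, Function.update_of_ne (Fin.succ_ne_zero j).symm]

theorem main (n : ℕ) : ∀ (G : Type u) [Group G] [Finite G] [Group.IsSolvable G], Nat.card G = n →
    ∀ (t : ℕ) (p : Fin t → ℕ) (_ : ∀ i, (p i).Prime)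
      (_ : ∀ q : ℕ, q.Prime → q ∣ Nat.card G → ∃ i, p i = q) (S : (i : Fin t) → Sylow (p i) G),
      ∀ g : G, ∃ s : (i : Fin t) → G, (∀ i, s i ∈ (S i : Subgroup G)) ∧ g = (List.ofFn s).prod := by
  induction n using Nat.strong_induction_on with
  | _ n ih =>
    intro G _ _ _ hcard t p hp hall S g
    haveI : ∀ i, Fact (p i).Prime := fun i => ⟨hp i⟩
    rcases subsingleton_or_nontrivial G with hs | hnt
    · refine ⟨fun _ => 1, fun i => (S i : Subgroup G).one_mem, ?_⟩
      exact Subsingleton.elim _ _
    · obtain ⟨q, hq, P, hchar, hPp, hPne, -⟩ := H1.exists_normal_pgroup_of_solvable G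
      haveI : Fact q.Prime := ⟨hq⟩
      haveI hPn : P.Normal := inferInstance
      have hqd : q ∣ Nat.card G := by
        obtain ⟨k, hk⟩ := hPp.exists_card_eq
        have hk0 : k ≠ 0 := by
          rintro rfl
          rw [pow_zero] at hk
          exact hPne (Subgroup.card_eq_one.1 hk)
        exact (dvd_pow_self q hk0).trans (hk ▸ Subgroup.card_subgroup_dvd_card P)
      obtain ⟨j, rfl⟩ := hall q hq hqd
      have hPS : P ≤ S j := hPp.le_sylow_of_normal (S j)
      have hlt : Nat.card (G ⧸ P) < n := by
        have h1 := Subgroup.card_eq_card_quotient_mul_card_subgroup P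
        have h2 : 1 < Nat.card P := by
          rcases Nat.lt_or_ge 1 (Nat.card P) with h | h
          · exact h
          · exfalso
            have : Nat.card P = 1 := le_antisymm h Nat.card_pos
            exact hPne (Subgroup.card_eq_one.1 this)
        have h3 : 0 < Nat.card (G ⧸ P) := Nat.card_pos
        rw [← hcard, h1]
        nlinarith
      have hsurj : Function.Surjective (QuotientGroup.mk' P) := QuotientGroup.mk'_surjective P
      obtain ⟨sb, hsb, hg⟩ := ih _ hlt (G ⧸ P) rfl t p hp (by
        intro r hr hrd
        exact hall r hr (hrd.trans (Subgroup.card_quotient_dvd_card P)))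
        (fun i => (S i).mapSurjective hsurj) (QuotientGroup.mk' P g)
      have hsb' : ∀ i, ∃ x ∈ (S i : Subgroup G), QuotientGroup.mk' P x = sb i := by
        intro i
        have := hsb i
        rw [Sylow.coe_mapSurjective] at this
        exact this
      choose s hs hss using hsb'
      have hprod : QuotientGroup.mk' P ((List.ofFn s).prod) = (List.ofFn sb).prod := by
        rw [map_list_prod, List.map_ofFn]
        congr 2
        funext i
        exact hss i
      have hn : ((List.ofFn s).prod)⁻¹ * g ∈ P := by
        rw [← QuotientGroup.eq]
        have : QuotientGroup.mk' P ((List.ofFn s).prod) = QuotientGroup.mk' P g := by rw [hprod, hg]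
        exact this
      obtain ⟨n', hn', h⟩ := move P t s j _ hn
      refine ⟨Function.update s j (s j * n'), ?_, ?_⟩
      · intro i
        by_cases hij : i = j
        · subst hij
          rw [Function.update_self]
          exact (S i : Subgroup G).mul_mem (hs i) (hPS hn')
        · rw [Function.update_of_ne hij]
          exact hs i
      · rw [← h]; group

/-- Let G be a finite solvable group and let S assign to each of t distinct primes, including every prime divisor of the order of G, a Sylow subgroup of G. Then every element of G is a product s_0 s_1 ⋯ s_(t-1) with s_i in S i, the factors taken in the given order. -/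
theorem result {G : Type*} [Group G] [Finite G] [Group.IsSolvable G] (t : ℕ) (p : Fin t → ℕ) (hp : ∀ i, (p i).Prime) (hinj : Function.Injective p) (hall : ∀ q : ℕ, q.Prime → q ∣ Nat.card G → ∃ i, p i = q) (S : (i : Fin t) → Sylow (p i) G) : ∀ g : G, ∃ s : (i : Fin t) → G, (∀ i, s i ∈ (S i : Subgroup G)) ∧ g = (List.ofFn s).prod := by
  exact main _ G rfl t p hp hall S

end Cfsg.Agent.S0554
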