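import Mathlib
import Cfsg.Statements.S0555

set_option autoImplicit false
open Cfsg

namespace Cfsg.Agent.S0555


/-- Let i ≥ 1. If in the derived series of a group the quotient of the i-th term by the (i+1)-st and the quotient of the (i+1)-st by the (i+2)-nd are both cyclic, then the (i+1)-st and (i+2)-nd terms coincide. -/
theorem result {G : Type*} [Group G] (i : ℕ) (hi : 1 ≤ i) (h₁ : IsCyclic (↥(derivedSeries G i) ⧸ (derivedSeries G (i + 1)).subgroupOf (derivedSeries G i))) (h₂ : IsCyclic (↥(derivedSeries G (i + 1)) ⧸ (derivedSeries G (i + 2)).subgroupOf (derivedSeries G (i + 1)))) : derivedSeries G (i + 1) = derivedSeries G (i + 2) := by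
  set D := derivedSeries G (i + 2) with hD
  set π := QuotientGroup.mk' D with hπ
  have hπs : Function.Surjective π := QuotientGroup.mk'_surjective D
  set A := derivedSeries G i with hA
  set B := derivedSeries G (i + 1) with hB
  have hAm : A.map π = derivedSeries (G ⧸ D) i := map_derivedSeries_eq hπs i
  have hBm : B.map π = derivedSeries (G ⧸ D) (i + 1) := map_derivedSeries_eq hπs (i + 1)
  have hDB : D ≤ B := derivedSeries_antitone G (by omega)
  haveI hBn : (B.map π).Normal := by rw [hBm]; infer_instance
  haveI hBc : IsCyclic ↥(B.map π) := by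
    let f : ↥B ⧸ D.subgroupOf B →* ↥(B.map π) :=
      QuotientGroup.lift (D.subgroupOf B) (π.subgroupMap B) (by
        intro x hx
        apply Subtype.ext
        exact (QuotientGroup.eq_one_iff (x : G)).2 hx)
    have hf : Function.Surjective f := by
      intro y
      obtain ⟨x, hx⟩ := π.subgroupMap_surjective B y
      exact ⟨QuotientGroup.mk x, hx⟩
    exact isCyclic_of_surjective f hf
  let φ : (G ⧸ D) →* (ZMod (Nat.card ↥(B.map π)))ˣ :=
    (IsCyclic.mulAutMulEquiv ↥(B.map π)).toMonoidHom.comp MulAut.conjNormal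
  have hker : commutator (G ⧸ D) ≤ φ.ker := Abelianization.commutator_subset_ker φ
  have hcent : ∀ x ∈ A.map π, ∀ y ∈ B.map π, x * y = y * x := by
    intro x hx y hy
    have hx1 : x ∈ commutator (G ⧸ D) := by
      rw [hAm] at hx
      rw [← derivedSeries_one]
      exact derivedSeries_antitone (G ⧸ D) hi hx
    have h1 := hker hx1
    rw [MonoidHom.mem_ker, MonoidHom.comp_apply] at h1
    have h2 : MulAut.conjNormal x = (1 : MulAut ↥(B.map π)) :=
      (IsCyclic.mulAutMulEquiv ↥(B.map π)).injective (by rw [map_one]; exact h1)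
    have h3 := congrArg (fun σ : MulAut ↥(B.map π) => ((σ ⟨y, hy⟩ : ↥(B.map π)) : G ⧸ D)) h2
    simp only [MulAut.conjNormal_apply, MulAut.one_apply] at h3
    exact mul_inv_eq_iff_eq_mul.1 h3
  have hcomm : IsMulCommutative ↥(A.map π) := by
    set B' := (B.map π).subgroupOf (A.map π) with hB'
    haveI : IsCyclic (↥(A.map π) ⧸ B') := by
      let f : ↥A ⧸ B.subgroupOf A →* ↥(A.map π) ⧸ B' :=
        QuotientGroup.map (B.subgroupOf A) B' (π.subgroupMap A) (by
          intro x hx
          exact ⟨x, hx, rfl⟩)
      have hf : Function.Surjective f := by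
        intro y
        obtain ⟨y', rfl⟩ := QuotientGroup.mk_surjective y
        obtain ⟨x, rfl⟩ := π.subgroupMap_surjective A y'
        exact ⟨QuotientGroup.mk x, rfl⟩
      exact isCyclic_of_surjective f hf
    apply (QuotientGroup.mk' B').isMulCommutative_of_isCyclic_of_ker_le_center
    rw [QuotientGroup.ker_mk']
    intro y hy
    rw [Subgroup.mem_center_iff]
    intro x
    exact Subtype.ext (hcent x x.2 y hy)
  have hbot : B.map π = ⊥ := by
    rw [hBm, derivedSeries_succ, ← hAm, Subgroup.commutator_eq_bot_iff_le_centralizer]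
    intro x hx
    rw [Subgroup.mem_centralizer_iff]
    intro y hy
    exact congrArg Subtype.val (mul_comm' (⟨y, hy⟩ : ↥(A.map π)) ⟨x, hx⟩)
  apply le_antisymm _ hDB
  intro b hb
  have h1 : π b ∈ B.map π := ⟨b, hb, rfl⟩
  rw [hbot, Subgroup.mem_bot] at h1
  exact (QuotientGroup.eq_one_iff b).1 h1

end Cfsg.Agent.S0555
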