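import Cfsg.Statements.S0556
import Cfsg.Agent.Lib_helper7_Alperin
import Cfsg.Agent.Lib_helper1_Coprime
import Cfsg.Agent.Lib_helper1_PQ
import Cfsg.Agent.Lib_helper1_Max

set_option autoImplicit false
open Cfsg

namespace Cfsg.Agent.S0556

open Subgroup Cfsg.Agent.H7
open scoped Pointwise commutatorElement

theorem case_normal {G : Type*} [Group G] (M : Subgroup G) (hM : IsCoatom M)
    (hc : ∀ x ∈ M, ∀ y ∈ M, x * y = y * x) (hn : M.Normal) : derivedSeries G 2 = ⊥ := by
  obtain ⟨x, hx⟩ : ∃ x : G, x ∉ M := by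
    by_contra hcon
    push Not at hcon
    exact hM.1 (eq_top_iff.2 fun g _ => hcon g)
  have htop : M ⊔ zpowers x = ⊤ := by
    apply hM.2
    refine lt_of_le_of_ne le_sup_left ?_
    intro he
    apply hx
    rw [he]
    exact mem_sup_right (mem_zpowers x)
  haveI : IsCyclic (G ⧸ M) := by
    refine ⟨QuotientGroup.mk' M x, ?_⟩
    intro y
    obtain ⟨g, rfl⟩ := QuotientGroup.mk'_surjective M y
    have hg : g ∈ M ⊔ zpowers x := by rw [htop]; exact mem_top g
    rw [Subgroup.mem_sup_of_normal_left] at hg
    obtain ⟨m, hm, z, ⟨k, rfl⟩, rfl⟩ := hg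
    refine ⟨k, ?_⟩
    show (QuotientGroup.mk' M x) ^ k = QuotientGroup.mk' M (m * x ^ k)
    have hm1 : QuotientGroup.mk' M m = 1 := (QuotientGroup.eq_one_iff m).2 hm
    rw [map_mul, map_zpow, hm1, one_mul]
  letI := IsCyclic.commGroup (α := G ⧸ M)
  have h1 : _root_.commutator G ≤ M := by
    have := Abelianization.commutator_subset_ker (QuotientGroup.mk' M)
    rwa [QuotientGroup.ker_mk'] at this
  rw [derivedSeries_succ, derivedSeries_one, eq_bot_iff, Subgroup.commutator_le]
  intro a ha b hb
  rw [mem_bot, commutatorElement_eq_one_iff_mul_comm]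
  exact hc a (h1 ha) b (h1 hb)

theorem case_TI {G : Type*} [Group G] [Finite G] (M : Subgroup G) (hM : IsCoatom M)
    (hc : ∀ x ∈ M, ∀ y ∈ M, x * y = y * x)
    (hTI : ∀ g : G, g ∉ M → ∀ x ∈ M, g * x * g⁻¹ ∈ M → x = 1) : derivedSeries G 2 = ⊥ := by
  by_cases hn : M.Normal
  · exact case_normal M hM hc hn
  set K := _root_.commutator G with hK
  haveI hKn : K.Normal := inferInstance
  have hMK : M ≤ normalizer (K : Set G) := by rw [normalizer_eq_top]; exact le_top
  have claimA : ∀ p : ℕ, p.Prime → p ∣ Nat.card M → ¬ p ∣ Nat.card K := by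
    intro p hp hpM
    haveI := Fact.mk hp
    obtain ⟨P₀⟩ : Nonempty (Sylow p M) := inferInstance
    set P := (P₀ : Subgroup M).map M.subtype with hP
    have hPs : IsSylowIn p P M := Sylow_isSylowIn P₀
    have hPne : P ≠ ⊥ := by
      intro h
      rw [hP, Subgroup.map_eq_bot_iff_of_injective _ M.subtype_injective] at h
      have h1 := P₀.not_dvd_index
      rw [h, index_bot] at h1
      exact h1 hpM
    have hNP : normalizer (P : Set G) ≤ M := by
      intro g hg
      by_contra hgM
      apply hPne
      rw [eq_bot_iff]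
      intro x hx
      rw [mem_bot]
      exact hTI g hgM x (hPs.1 hx) (hPs.1 ((mem_normalizer_iff.1 hg x).1 hx))
    obtain ⟨S, hPS⟩ := hPs.2.1.exists_le_sylow
    have hPS' : P = (S : Subgroup G) := by
      by_contra hne
      have hlt : P < (S : Subgroup G) := lt_of_le_of_ne hPS hne
      have h1 := lt_inf_normalizer S.2 hlt
      have h2 := hPs.eq_of_le (S.2.to_le inf_le_left) (inf_le_right.trans hNP) h1.le
      exact h1.ne h2
    have hSM : (S : Subgroup G) ≤ M := hPS' ▸ hPs.1
    have hN : normalizer ((S : Subgroup G) : Set G) ≤ centralizer ((S : Subgroup G) : Set G) := by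
      intro g hg
      rw [← hPS'] at hg
      rw [mem_centralizer_iff]
      intro s hs
      exact hc s (hSM hs) g (hNP hg)
    have hcompl := MonoidHom.ker_transferSylow_isComplement' S hN
    have h1 : K ≤ (MonoidHom.transferSylow S hN).ker := by
      rw [hK, commutator_def, Subgroup.commutator_le]
      intro a _ b _
      rw [MonoidHom.mem_ker, map_commutatorElement, commutatorElement_eq_one_iff_mul_comm]
      apply Subtype.ext
      exact hc _ (hSM (Subtype.mem _)) _ (hSM (Subtype.mem _))
    have h2 : (S : Subgroup G).index = Nat.card (MonoidHom.transferSylow S hN).ker :=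
      hcompl.index_eq_card
    intro hpK
    apply S.not_dvd_index
    rw [h2]
    exact hpK.trans (Subgroup.card_dvd_of_le h1)
  have hcop : (Nat.card M).Coprime (Nat.card K) := Nat.coprime_of_dvd claimA
  have hKM : K ⊓ M = ⊥ := (disjoint_of_coprime_natCard hcop.symm).eq_bot
  have hD2 : derivedSeries G 2 = ⁅K, K⁆ := by rw [derivedSeries_succ, derivedSeries_one]
  rw [hD2]
  -- subgroups of `K` normalized by `M`
  have key : ∀ L : Subgroup G, L ≤ K → M ≤ normalizer (L : Set G) → L ≠ ⊥ → L = K := by
    intro L hLK hML hL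
    have hLM : L ⊓ M = ⊥ := eq_bot_iff.2 ((inf_le_inf hLK le_rfl).trans hKM.le)
    have hnle : ¬ L ≤ M := by
      intro h
      apply hL
      rw [← hLM]; exact (inf_eq_left.2 h).symm
    have htop : L ⊔ M = ⊤ := by
      apply hM.2
      refine lt_of_le_of_ne le_sup_right ?_
      intro he
      apply hnle
      rw [he]; exact le_sup_left
    have htop' : K ⊔ M = ⊤ := eq_top_iff.2 (htop ▸ sup_le_sup hLK le_rfl)
    have c1 := Cfsg.Agent.H1.card_sup_mul_card_inf' L M hML
    have c2 := Cfsg.Agent.H1.card_sup_mul_card_inf' K M hMK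
    rw [htop, hLM] at c1
    rw [htop', hKM] at c2
    have c3 : Nat.card L = Nat.card K :=
      Nat.eq_of_mul_eq_mul_right Nat.card_pos (c1.symm.trans c2)
    exact Subgroup.eq_of_le_of_card_ge hLK c3.ge
  by_cases hK1 : K = ⊥
  · rw [hK1]; exact Subgroup.commutator_bot_left _
  have hcard : Nat.card K ≠ 1 := by
    intro h
    exact hK1 (card_eq_one.1 h)
  set q := (Nat.card K).minFac with hq
  haveI : Fact q.Prime := ⟨Nat.minFac_prime hcard⟩
  have hMsolv : Group.IsSolvable M :=
    Group.isSolvable_of_comm (fun a b => Subtype.ext (hc a a.2 b b.2))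
  obtain ⟨Q₀, hQ₀⟩ := Cfsg.Agent.H1.coprime_invariant_sylow_exists M K hMK hcop (Or.inl hMsolv) q
  have hQne : (Q₀ : Subgroup K).map K.subtype ≠ ⊥ := by
    intro h
    rw [Subgroup.map_eq_bot_iff_of_injective _ K.subtype_injective] at h
    have h1 := Q₀.not_dvd_index
    rw [h, index_bot] at h1
    exact h1 (Nat.minFac_dvd _)
  have hQK := key _ (map_subtype_le _) hQ₀ hQne
  have hKq : IsPGroup q K := by
    have : IsPGroup q ((Q₀ : Subgroup K).map K.subtype) := Q₀.2.map _
    rwa [hQK] at this
  by_contra hne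
  have h1 := key ⁅K, K⁆ (Subgroup.commutator_le_left K K)
    (by rw [normalizer_eq_top]; exact le_top) hne
  exact (Cfsg.Agent.H1.commutator_lt_of_pgroups hKq hKq le_normalizer hK1).ne h1

/-- If a finite group has a maximal subgroup that is abelian, then the third term of its derived series is trivial (so the group is solvable of derived length at most three). -/
theorem result {G : Type*} [Group G] [Finite G] (A : Subgroup G) (hA : IsCoatom A) [IsMulCommutative A] : derivedSeries G 3 = ⊥ := by
  have hc : ∀ x ∈ A, ∀ y ∈ A, x * y = y * x := by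
    intro x hx y hy
    exact congrArg Subtype.val (mul_comm' (⟨x, hx⟩ : A) ⟨y, hy⟩)
  have fin : ∀ D : Subgroup G, D ≤ center G → ⁅D, D⁆ = ⊥ := by
    intro D hD
    rw [eq_bot_iff, Subgroup.commutator_le]
    intro a ha b _
    rw [mem_bot, commutatorElement_eq_one_iff_mul_comm]
    exact ((mem_center_iff.1 (hD ha)) b).symm
  rw [derivedSeries_succ]
  apply fin
  by_cases hn : A.Normal
  · rw [case_normal A hA hc hn]; exact bot_le
  have hNA : normalizer (A : Set G) = A := by
    by_contra hne
    have h1 := hA.2 _ (lt_of_le_of_ne le_normalizer (Ne.symm hne))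
    exact hn (normalizer_eq_top_iff.1 h1)
  have hZA : center G ≤ A := by
    rw [← hNA]
    intro z hz
    rw [mem_normalizer_iff]
    intro h
    have : z * h * z⁻¹ = h := by rw [← (mem_center_iff.1 hz) h]; group
    rw [this]
  have hTI0 : ∀ g : G, g ∉ A → ∀ x ∈ A, g * x * g⁻¹ ∈ A → x ∈ center G := by
    intro g hg x hx hgx
    -- `x` commutes with `A` and with `g⁻¹ A g`
    set B := MulAut.conj g⁻¹ • A with hB
    have hBne : ¬ B ≤ A := by
      intro h
      have h2 : B = A := by
        apply Subgroup.eq_of_le_of_card_ge h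
        rw [hB, ← map_conj_eq_smul, card_map_conj]
      apply hg
      rw [← hNA]
      have h3 : g⁻¹ ∈ normalizer (A : Set G) := by
        rw [← map_conj_eq_self_iff, map_conj_eq_smul]; exact h2
      simpa using inv_mem h3
    have htop : A ⊔ B = ⊤ := by
      apply hA.2
      refine lt_of_le_of_ne le_sup_left ?_
      intro he
      apply hBne
      rw [he]; exact le_sup_right
    have h1 : A ⊔ B ≤ centralizer {x} := by
      apply sup_le
      · intro a ha
        rw [mem_centralizer_singleton_iff]
        exact hc a ha x hx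
      · intro b hb
        rw [hB, ← map_conj_eq_smul, mem_map_conj, inv_inv] at hb
        have hb' : g * b * g⁻¹ ∈ A := hb
        rw [mem_centralizer_singleton_iff]
        have h2 := hc _ hb' _ hgx
        have h3 : g * (b * x) * g⁻¹ = g * (x * b) * g⁻¹ := by
          calc g * (b * x) * g⁻¹ = (g * b * g⁻¹) * (g * x * g⁻¹) := by group
            _ = (g * x * g⁻¹) * (g * b * g⁻¹) := h2
            _ = g * (x * b) * g⁻¹ := by group
        exact mul_left_cancel (mul_right_cancel h3)
    rw [htop, top_le_iff] at h1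
    rw [mem_center_iff]
    intro y
    have : y ∈ centralizer {x} := by rw [h1]; exact mem_top y
    rw [mem_centralizer_singleton_iff] at this
    exact this
  set π := QuotientGroup.mk' (center G) with hπ
  have hcoatom : IsCoatom (A.map π) := Cfsg.Agent.H1.isCoatom_map_mk_of_le hZA hA
  have hmem : ∀ g : G, π g ∈ A.map π → g ∈ A := by
    intro g hg
    obtain ⟨a, ha, hag⟩ := hg
    have h1 : a⁻¹ * g ∈ center G := by
      rw [← QuotientGroup.eq_one_iff, ← QuotientGroup.mk'_apply, ← hπ, map_mul, map_inv, hag,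
        inv_mul_cancel]
    have := mul_mem ha (hZA h1)
    rwa [mul_inv_cancel_left] at this
  have h2 : derivedSeries (G ⧸ center G) 2 = ⊥ := by
    apply case_TI (A.map π) hcoatom
    · rintro _ ⟨x, hx, rfl⟩ _ ⟨y, hy, rfl⟩
      rw [← map_mul, ← map_mul, hc x hx y hy]
    · intro g' hg' x' hx' hgx'
      obtain ⟨g, rfl⟩ := QuotientGroup.mk'_surjective (center G) g'
      obtain ⟨x, hx, rfl⟩ := hx'
      have h3 : g * x * g⁻¹ ∈ A := by
        apply hmem
        rw [map_mul, map_mul, map_inv]; exact hgx'
      have h4 : g ∉ A := fun h => hg' ⟨g, h, rfl⟩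
      exact (QuotientGroup.eq_one_iff x).2 (hTI0 g h4 x hx h3)
  have h3 := map_derivedSeries_le_derivedSeries π 2
  rw [h2, le_bot_iff, Subgroup.map_eq_bot_iff, QuotientGroup.ker_mk'] at h3
  exact h3

end Cfsg.Agent.S0556
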