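import Mathlib
import Cfsg.Statements.S0557
import Cfsg.Agent.Lib_helper1_PNilp3

set_option autoImplicit false
open Cfsg

namespace Cfsg.Agent.S0557

open Cfsg.Agent.H1 Subgroup
open scoped commutatorElement

theorem focal_mono {G : Type*} [Group G] : Monotone (fun K : Subgroup G => K.focalSubgroup) := by
  intro K K' h
  simp only [focalSubgroup_def]
  apply Subgroup.closure_mono
  rintro g ⟨hg, x, hx, u, rfl⟩
  exact ⟨h hg, x, h hx, u, rfl⟩

theorem map_focal_le {G : Type*} [Group G] (L : Subgroup G) (K : Subgroup L) :
    (K.focalSubgroup).map L.subtype ≤ (K.map L.subtype).focalSubgroup := by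
  rw [focalSubgroup_def, MonoidHom.map_closure, closure_le]
  rintro _ ⟨g, ⟨hg, x, hx, u, rfl⟩, rfl⟩
  apply Subgroup.subset_closure
  exact ⟨⟨_, hg, rfl⟩, x, ⟨x, hx, rfl⟩, u, by simp [commutatorElement_def]⟩

theorem map_iterate_focal_le {G : Type*} [Group G] (L : Subgroup G) (n : ℕ) :
    ∀ K : Subgroup L, ((fun K : Subgroup L => K.focalSubgroup)^[n] K).map L.subtype ≤
      (fun K : Subgroup G => K.focalSubgroup)^[n] (K.map L.subtype) := by
  induction n with
  | zero => intro K; exact le_rfl
  | succ n ih =>
    intro K
    rw [Function.iterate_succ_apply, Function.iterate_succ_apply]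
    exact (ih _).trans (focal_mono.iterate n (map_focal_le L K))

theorem aux.{u} : ∀ (n : ℕ) (G : Type u) [Group G] [Finite G] (H : Subgroup G),
    (Nat.card H).Coprime H.index → (fun K : Subgroup G => K.focalSubgroup)^[n] H = ⊥ →
    ∃ N : Subgroup G, N.Normal ∧ IsComplement' N H := by
  intro n
  induction n with
  | zero =>
    intro G _ _ H _ h
    have hH : H = ⊥ := h
    subst hH
    exact ⟨⊤, inferInstance, isComplement'_top_bot⟩
  | succ n ih =>
    intro G _ _ H hHall h
    rw [Function.iterate_succ_apply] at h
    set N₁ := H.transferFocal.ker with hN₁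
    have hc := focal_coprime_of_hall H hHall
    have hinf : N₁ ⊓ H = H.focalSubgroup := ker_transferFocal_inf H hc
    have hsup : N₁ ⊔ H = ⊤ := ker_transferFocal_sup H hc
    have hH₁N : H.focalSubgroup ≤ N₁ := hinf ▸ inf_le_left
    have hidx : (H.focalSubgroup.subgroupOf N₁).index = H.index := by
      have h1 := card_sup_mul_card_inf H N₁
      have h2 := relIndex_mul_card' hH₁N
      rw [sup_comm, hsup, inf_comm, hinf, card_top, ← h2, ← H.index_mul_card] at h1
      have hpos1 : 0 < Nat.card H := Nat.card_pos
      have hpos2 : 0 < Nat.card H.focalSubgroup := Nat.card_pos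
      have h3 : H.index * (Nat.card H * Nat.card H.focalSubgroup) =
          H.focalSubgroup.relIndex N₁ * (Nat.card H * Nat.card H.focalSubgroup) := by
        nlinarith [h1]
      exact (Nat.eq_of_mul_eq_mul_right (Nat.mul_pos hpos1 hpos2) h3).symm
    have hcard1 : Nat.card (H.focalSubgroup.subgroupOf N₁) ∣ Nat.card H := by
      rw [card_subgroupOf_of_le hH₁N]
      exact card_dvd_of_le H.focalSubgroup_le
    obtain ⟨K', hK'n, hK'⟩ := ih N₁ (H.focalSubgroup.subgroupOf N₁)
      (by rw [hidx]; exact Nat.Coprime.coprime_dvd_left hcard1 hHall)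
      (by
        have h1 := map_iterate_focal_le N₁ n (H.focalSubgroup.subgroupOf N₁)
        rw [map_subgroupOf_eq_of_le hH₁N, h, le_bot_iff] at h1
        exact (Subgroup.map_eq_bot_iff_of_injective _ N₁.subtype_injective).mp h1)
    have hcK : Nat.card K' = H.index := by rw [← hidx, hK'.index_eq_card]
    have hKn : (K'.map N₁.subtype).Normal := by
      apply normal_of_normal_hall_of_normal
      rw [hcK, hK'.symm.index_eq_card]
      exact (Nat.Coprime.coprime_dvd_left hcard1 hHall).symm
    refine ⟨K'.map N₁.subtype, hKn, ?_⟩
    apply isComplement'_of_coprime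
    · rw [card_map_of_injective N₁.subtype_injective, hcK, H.index_mul_card]
    · rw [card_map_of_injective N₁.subtype_injective, hcK]
      exact hHall.symm


/-- Let H be a subgroup of a finite group G with order coprime to its index. If iterating the focal-subgroup construction starting from H reaches the trivial subgroup after finitely many steps, then H has a normal complement in G. -/
theorem result {G : Type*} [Group G] [Finite G] (H : Subgroup G) (hHall : (Nat.card H).Coprime H.index) (n : ℕ) (hfoc : (fun K : Subgroup G => Subgroup.focalSubgroup K)^[n] H = ⊥) : ∃ N : Subgroup G, N.Normal ∧ Subgroup.IsComplement' N H := by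
  exact aux n G H hHall hfoc

end Cfsg.Agent.S0557
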