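import Mathlib
import Cfsg.Statements.S0558
import Cfsg.Agent.Lib_helper1_PNilp3
import Cfsg.Agent.Lib_helper1_FrobNPC

set_option autoImplicit false
open Cfsg

namespace Cfsg.Agent.S0558

open Pointwise
open Cfsg.Agent.H1 Subgroup

/-- Let H be a subgroup of a finite group G that is not a Sylow subgroup of G for any prime, and suppose that for every prime p dividing the order of H and every Sylow p-subgroup P of H the normalizer of P in G is exactly H. Then some normal subgroup of G is a complement to H. -/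
theorem result {G : Type*} [Group G] [Finite G] (H : Subgroup G) (hnot : ∀ p : ℕ, p.Prime → ∀ P : Sylow p G, (P : Subgroup G) ≠ H) (hnorm : ∀ p : ℕ, p.Prime → p ∣ Nat.card H → ∀ P : Sylow p H, Subgroup.normalizer (((P : Subgroup H).map H.subtype : Subgroup G) : Set G) = H) : ∃ N : Subgroup G, N.Normal ∧ Subgroup.IsComplement' N H := by
  -- H is nilpotent
  have hnil : Group.IsNilpotent H := by
    apply (Group.isNilpotent_of_finite_tfae.out 0 3 rfl rfl).mpr
    intro p hp P
    by_cases hpd : p ∣ Nat.card H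
    · have h1 := hnorm p hp.out hpd P
      have h2 : (((P : Subgroup H).map H.subtype).subgroupOf H).Normal := by
        rw [normal_subgroupOf_iff_le_normalizer (map_subtype_le _), h1]
      have h3 : ((P : Subgroup H).map H.subtype).subgroupOf H = P :=
        comap_map_eq_self_of_injective H.subtype_injective _
      rwa [h3] at h2
    · have : (P : Subgroup H) = ⊥ := by
        obtain ⟨k, hk⟩ := IsPGroup.iff_card.mp P.2
        have h1 : p ^ k ∣ Nat.card H := hk ▸ card_subgroup_dvd_card _
        rcases Nat.eq_zero_or_pos k with rfl | hpos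
        · rw [pow_zero] at hk
          exact card_eq_one.mp hk
        · exact absurd ((dvd_pow_self p hpos.ne').trans h1) hpd
      rw [this]
      infer_instance
  -- H is a Hall subgroup
  have hHall : Nat.Coprime (Nat.card H) H.index := by
    apply Nat.coprime_of_dvd
    intro p hp hpH hpi
    haveI : Fact p.Prime := ⟨hp⟩
    obtain ⟨P₀⟩ : Nonempty (Sylow p H) := inferInstance
    set P := (P₀ : Subgroup H).map H.subtype with hP
    have hPpg : IsPGroup p P := P₀.2.map _
    obtain ⟨S, hS⟩ := hPpg.exists_le_sylow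
    have hne : P ≠ S := by
      intro heq
      apply S.not_dvd_index
      rw [← heq, hP, index_map_subtype]
      exact Dvd.dvd.mul_left hpi _
    have hlt := lt_inf_normalizer_of_nilpotent S.2.isNilpotent (lt_of_le_of_ne hS hne)
    rw [hnorm p hp hpH P₀] at hlt
    have h1 : IsPGroup p (((S : Subgroup G) ⊓ H).subgroupOf H) :=
      isPGroup_subgroupOf (S.2.to_le inf_le_left) H
    have h2 : (P₀ : Subgroup H) ≤ ((S : Subgroup G) ⊓ H).subgroupOf H := by
      intro x hx
      rw [mem_subgroupOf]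
      exact hlt.le ⟨x, hx, rfl⟩
    have h3 := P₀.3 h1 h2
    apply hlt.not_ge
    intro x hx
    have h4 : (⟨x, hx.2⟩ : H) ∈ ((S : Subgroup G) ⊓ H).subgroupOf H := hx
    rw [h3] at h4
    exact ⟨_, h4, rfl⟩
  apply exists_normal_complement_of_hall_of_pnilpotent H hHall
  intro p hp hpH
  haveI : Fact p.Prime := ⟨hp⟩
  -- another prime
  obtain ⟨q, hq, hqH, hqp⟩ : ∃ q : ℕ, q.Prime ∧ q ∣ Nat.card H ∧ q ≠ p := by
    by_contra hcon
    push Not at hcon
    have hcard := Nat.eq_prime_pow_of_unique_prime_dvd (n := Nat.card H) (p := p)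
      Nat.card_pos.ne' (fun {d} hd hdH => hcon d hd hdH)
    have hpg : IsPGroup p H := IsPGroup.of_card hcard
    have hidx : ¬ p ∣ H.index :=
      (Nat.Prime.coprime_iff_not_dvd hp).mp (Nat.Coprime.coprime_dvd_left hpH hHall)
    exact hnot p hp (hpg.toSylow hidx) (IsPGroup.toSylow_coe _ _)
  haveI : Fact q.Prime := ⟨hq⟩
  obtain ⟨P₀⟩ : Nonempty (Sylow p H) := inferInstance
  obtain ⟨Q₀⟩ : Nonempty (Sylow q H) := inferInstance
  obtain ⟨P, hP⟩ := exists_sylow_eq_map_of_hall H hHall p hpH P₀
  obtain ⟨Q, hQ⟩ := exists_sylow_eq_map_of_hall H hHall q hqH Q₀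
  have hNP : normalizer ((P : Subgroup G) : Set G) = H := by rw [hP]; exact hnorm p hp hpH P₀
  have hNQ : normalizer ((Q : Subgroup G) : Set G) = H := by rw [hQ]; exact hnorm q hq hqH Q₀
  have hPH : (P : Subgroup G) ≤ H := hNP ▸ le_normalizer
  have hQH : (Q : Subgroup G) ≤ H := hNQ ▸ le_normalizer
  have hcomm : ⁅(P : Subgroup G), (Q : Subgroup G)⁆ = ⊥ :=
    commutator_eq_bot_of_nilpotent_coprime hnil hPH hQH (hQH.trans hNP.ge)
      (IsPGroup.coprime_card_of_ne q p hqp _ _ Q.2 P.2) (Or.inr (isSolvable_of_isPGroup P.2))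
  rw [commutator_eq_bot_iff_le_centralizer] at hcomm
  apply coprime_card_pResidual_of_control p _ G P rfl
  rintro x hx y hy ⟨g, hg⟩
  have hQy : (Q : Subgroup G) ≤ centralizer {y} := by
    intro z hz
    rw [mem_centralizer_singleton_iff]
    exact mem_centralizer_iff.mp (hcomm hy) z hz
  have hgQy : ((g • Q : Sylow q G) : Subgroup G) ≤ centralizer {y} := by
    intro z hz
    rw [Sylow.coe_subgroup_smul, mem_conj_smul] at hz
    rw [mem_centralizer_singleton_iff]
    have h1 : (g⁻¹ * z * g) * x = x * (g⁻¹ * z * g) := mem_centralizer_iff.mp (hcomm hx) _ hz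
    rw [← hg]
    calc z * (g * x * g⁻¹) = g * ((g⁻¹ * z * g) * x) * g⁻¹ := by group
      _ = g * (x * (g⁻¹ * z * g)) * g⁻¹ := by rw [h1]
      _ = g * x * g⁻¹ * z := by group
  obtain ⟨c, hc, hcQ⟩ := sylow_conj_of_le (g • Q) Q _ hgQy hQy
  rw [Sylow.coe_subgroup_smul, smul_smul, ← map_mul] at hcQ
  have hcg : c * g ∈ H := hNQ ▸ conj_smul_eq_iff_mem_normalizer.mp hcQ
  obtain ⟨a, ha, hax⟩ := control_of_control_nilpotent P H hnil hPH hNP.ge hx hcg
  refine ⟨a, ha, ?_⟩
  rw [hax]
  rw [mem_centralizer_singleton_iff] at hc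
  calc c * g * x * (c * g)⁻¹ = c * (g * x * g⁻¹) * c⁻¹ := by group
    _ = y := by rw [hg, hc, mul_inv_cancel_right]

end Cfsg.Agent.S0558
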