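import Mathlib
import Cfsg.Statements.S0560
import Cfsg.Agent.Lib_helper1_Hall
import Cfsg.Agent.Lib_helper1_CompSys

set_option autoImplicit false
open Pointwise
open Cfsg

namespace Cfsg.Agent.S0560


/-- Let the finite group G be the product HK of two subgroups and p a prime. Then there are Sylow p-subgroups P of H and Q of K and a Sylow p-subgroup R of G whose underlying set is the product set of P and Q. -/
theorem result {G : Type*} [Group G] [Finite G] (H K : Subgroup G) (hHK : ∀ g : G, ∃ h ∈ H, ∃ k ∈ K, g = h * k) (p : ℕ) [Fact p.Prime] : ∃ (P : Sylow p H) (Q : Sylow p K) (R : Sylow p G), ((R : Subgroup G) : Set G) = (((P : Subgroup H).map H.subtype : Subgroup G) : Set G) * (((Q : Subgroup K).map K.subtype : Subgroup G) : Set G) := by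
  have hp : p.Prime := Fact.out
  let P0 : Sylow p H := default
  let Q0 : Sylow p K := default
  obtain ⟨R1, hR1⟩ := (P0.2.map H.subtype).exists_le_sylow
  obtain ⟨R2, hR2⟩ := (Q0.2.map K.subtype).exists_le_sylow
  obtain ⟨g, hg⟩ := MulAction.exists_smul_eq G R2 R1
  obtain ⟨h, hh, k, hk, hghk⟩ := hHK g
  let P : Sylow p H := (⟨h, hh⟩ : H)⁻¹ • P0
  let Q : Sylow p K := (⟨k, hk⟩ : K) • Q0
  let R : Sylow p G := h⁻¹ • R1
  have hPm : (P : Subgroup H).map H.subtype =
      MulAut.conj h⁻¹ • ((P0 : Subgroup H).map H.subtype) := by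
    change (MulAut.conj (⟨h, hh⟩ : H)⁻¹ • (P0 : Subgroup H)).map H.subtype = _
    rw [H1.map_conj_smul]
    rfl
  have hQm : (Q : Subgroup K).map K.subtype =
      MulAut.conj k • ((Q0 : Subgroup K).map K.subtype) := by
    change (MulAut.conj (⟨k, hk⟩ : K) • (Q0 : Subgroup K)).map K.subtype = _
    rw [H1.map_conj_smul]
    rfl
  have hRc : (R : Subgroup G) = MulAut.conj h⁻¹ • (R1 : Subgroup G) := rfl
  have hPR : (P : Subgroup H).map H.subtype ≤ R := by
    rw [hPm, hRc]
    exact Subgroup.pointwise_smul_le_pointwise_smul_iff.2 hR1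
  have hQR : (Q : Subgroup K).map K.subtype ≤ R := by
    rw [hQm, hRc]
    have h1 : (R1 : Subgroup G) = MulAut.conj g • (R2 : Subgroup G) := by rw [← hg]; rfl
    rw [h1, hghk, map_mul, mul_smul, map_inv, inv_smul_smul]
    exact Subgroup.pointwise_smul_le_pointwise_smul_iff.2 hR2
  refine ⟨P, Q, R, ?_⟩
  apply H1.coe_eq_mul_of_card hPR hQR
  set A := (P : Subgroup H).map H.subtype with hA
  set B := (Q : Subgroup K).map K.subtype with hB
  have hAH : A ≤ H := Subgroup.map_subtype_le _
  have hBK : B ≤ K := Subgroup.map_subtype_le _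
  have hAc : Nat.card A = p ^ (Nat.card H).factorization p := by
    rw [hA, Subgroup.card_map_of_injective H.subtype_injective, Sylow.card_eq_multiplicity]
  have hBc : Nat.card B = p ^ (Nat.card K).factorization p := by
    rw [hB, Subgroup.card_map_of_injective K.subtype_injective, Sylow.card_eq_multiplicity]
  have hRcard : Nat.card (R : Subgroup G) = p ^ (Nat.card G).factorization p :=
    Sylow.card_eq_multiplicity R
  apply le_antisymm
  · have hIp : IsPGroup p (A ⊓ B : Subgroup G) := R.2.to_le (inf_le_left.trans hPR)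
    obtain ⟨c, hc⟩ := IsPGroup.iff_card.1 hIp
    have h1 : p ^ c ∣ Nat.card (H ⊓ K : Subgroup G) := by
      rw [← hc]
      exact Subgroup.card_dvd_of_le (inf_le_inf hAH hBK)
    have h2 : c ≤ (Nat.card (H ⊓ K : Subgroup G)).factorization p :=
      (Nat.Prime.pow_dvd_iff_le_factorization hp Nat.card_pos.ne').1 h1
    have h3 := H1.IsFact.card_mul_card_inf (H := H) (K := K) hHK
    have h4 := congrArg (fun n => n.factorization p) h3
    beta_reduce at h4
    rw [Nat.factorization_mul Nat.card_pos.ne' Nat.card_pos.ne',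
      Nat.factorization_mul Nat.card_pos.ne' Nat.card_pos.ne'] at h4
    simp only [Finsupp.add_apply] at h4
    rw [hRcard, hc, hAc, hBc, ← pow_add, ← pow_add, ← h4]
    exact Nat.pow_le_pow_right hp.pos (by omega)
  · have h1 := H1.relIndex_mul_card_inf A B
    have h2 := H1.relIndex_mul_card' hPR
    have h3 : A.relIndex B ≤ A.relIndex R :=
      Subgroup.relIndex_le_of_le_right hQR (by
        intro h0; rw [h0, zero_mul] at h2; exact Nat.card_pos.ne' h2.symm)
    rw [← h1, ← h2]
    calc Nat.card A * (A.relIndex B * Nat.card (A ⊓ B : Subgroup G))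
        = A.relIndex B * (Nat.card A * Nat.card (A ⊓ B : Subgroup G)) := by ring
      _ ≤ A.relIndex R * (Nat.card A * Nat.card (A ⊓ B : Subgroup G)) :=
          Nat.mul_le_mul_right _ h3
      _ = _ := by ring

end Cfsg.Agent.S0560
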