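import Mathlib
import Cfsg.Statements.S0561
import Cfsg.Agent.Lib_helper1_Hall
import Cfsg.Agent.Lib_helper1_CompSys

set_option autoImplicit false
open Pointwise
open Cfsg

namespace Cfsg.Agent.S0561

open Subgroup H1 in
theorem hall_prod {G : Type*} [Group G] [Finite G] [Group.IsSolvable G] (H K A B : Subgroup G)
    (hHK : IsFact H K) (hAn : H ≤ normalizer (A : Set G)) (hBn : K ≤ normalizer (B : Set G))
    (hAh : (Nat.card A).Coprime A.index) (hBh : (Nat.card B).Coprime B.index) :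
    ∃ S : Subgroup G, (S : Set G) = (A : Set G) * (B : Set G) := by
  have hNa := A.card_mul_index
  have hNb := B.card_mul_index
  set a := Nat.card A with ha
  set a' := A.index with ha'
  set b := Nat.card B with hb
  set b' := B.index with hb'
  set N := Nat.card G with hN
  have hNpos : 0 < N := Nat.card_pos
  have hapos : 0 < a := Nat.card_pos
  have hbpos : 0 < b := Nat.card_pos
  -- the intersection
  have hae : a = Nat.gcd a b * Nat.gcd a b' := by
    rw [← Nat.Coprime.gcd_mul a hBh, hNb, Nat.gcd_eq_left (Dvd.intro _ hNa)]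
  have hcop1 : (Nat.gcd a b).Coprime (Nat.gcd a b') :=
    Nat.Coprime.coprime_dvd_left (Nat.gcd_dvd_right a b)
      (Nat.Coprime.coprime_dvd_right (Nat.gcd_dvd_right a b') hBh)
  obtain ⟨E', hE', -⟩ := (hall_aux _ ↥A (Nat.gcd a b) (Nat.gcd a b') rfl hae hcop1).1 ⊥ (by simp)
  set E := E'.map A.subtype with hE
  have hEcard : Nat.card E = Nat.gcd a b := by
    rw [hE, card_map_of_injective A.subtype_injective, hE']
  have hEA : E ≤ A := map_subtype_le E'
  obtain ⟨B2, hB2, hEB2⟩ := (hall_aux _ G b b' rfl hNb.symm hBh).1 E (by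
    rw [hEcard]; exact Nat.Coprime.coprime_dvd_left (Nat.gcd_dvd_right a b) hBh)
  obtain ⟨g, hg⟩ := (hall_aux _ G b b' rfl hNb.symm hBh).2 B2 B hB2 rfl
  obtain ⟨k, hk, h, hh, hgkh⟩ := hHK.symm g
  have h1 : MulAut.conj h • E ≤ A := by
    rw [← conj_smul_eq_iff_mem_normalizer.2 (hAn hh)]
    exact Subgroup.pointwise_smul_le_pointwise_smul_iff.2 hEA
  have h2 : MulAut.conj h • E ≤ B := by
    have h3 : MulAut.conj g • E ≤ B := by
      rw [← hg]
      exact Subgroup.pointwise_smul_le_pointwise_smul_iff.2 hEB2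
    rw [hgkh, map_mul, mul_smul] at h3
    rw [← conj_smul_eq_iff_mem_normalizer.2 (hBn hk)] at h3
    exact Subgroup.pointwise_smul_le_pointwise_smul_iff.1 h3
  have hinf : Nat.card (A ⊓ B : Subgroup G) = Nat.gcd a b := by
    apply Nat.dvd_antisymm
    · exact Nat.dvd_gcd (card_dvd_of_le inf_le_left) (card_dvd_of_le inf_le_right)
    · rw [← hEcard, ← card_conj_smul h E]
      exact card_dvd_of_le (le_inf h1 h2)
  -- the join
  have hlN : Nat.lcm a b ∣ N := Nat.lcm_dvd (Dvd.intro _ hNa) (Dvd.intro _ hNb)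
  obtain ⟨c, hc⟩ := hlN
  have hca : c ∣ a' := by
    obtain ⟨t, ht⟩ := Nat.dvd_lcm_left a b
    rw [ht, ← hNa, mul_assoc] at hc
    exact Dvd.intro_left _ (Nat.eq_of_mul_eq_mul_left hapos hc).symm
  have hcb : c ∣ b' := by
    obtain ⟨t, ht⟩ := Nat.dvd_lcm_right a b
    rw [ht, ← hNb, mul_assoc] at hc
    exact Dvd.intro_left _ (Nat.eq_of_mul_eq_mul_left hbpos hc).symm
  have hac : a.Coprime c := Nat.Coprime.coprime_dvd_right hca hAh
  have hbc : b.Coprime c := Nat.Coprime.coprime_dvd_right hcb hBh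
  have hlc : (Nat.lcm a b).Coprime c :=
    Nat.Coprime.coprime_dvd_left (Nat.lcm_dvd_mul a b) (Nat.Coprime.mul_left hac hbc)
  obtain ⟨D, hD, hAD⟩ := (hall_aux _ G _ c rfl hc hlc).1 A hac
  obtain ⟨D2, hD2, hBD2⟩ := (hall_aux _ G _ c rfl hc hlc).1 B hbc
  obtain ⟨g', hg'⟩ := (hall_aux _ G _ c rfl hc hlc).2 D2 D hD2 hD
  obtain ⟨h', hh', k', hk', hghk⟩ := hHK g'
  have h4 : MulAut.conj h' • B ≤ D := by
    have h5 : MulAut.conj g' • B ≤ D := by
      rw [← hg']
      exact Subgroup.pointwise_smul_le_pointwise_smul_iff.2 hBD2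
    rwa [hghk, map_mul, mul_smul, conj_smul_eq_iff_mem_normalizer.2 (hBn hk')] at h5
  have h6 : MulAut.conj h' • A ≤ D := by
    rw [conj_smul_eq_iff_mem_normalizer.2 (hAn hh')]; exact hAD
  refine ⟨MulAut.conj h'⁻¹ • D, ?_⟩
  apply coe_eq_mul_of_card
  · rw [← Subgroup.pointwise_smul_le_pointwise_smul_iff (a := MulAut.conj h'), map_inv,
      smul_inv_smul]
    exact h6
  · rw [← Subgroup.pointwise_smul_le_pointwise_smul_iff (a := MulAut.conj h'), map_inv,
      smul_inv_smul]
    exact h4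
  · rw [card_conj_smul, hD, hinf, mul_comm, Nat.gcd_mul_lcm]

/-- Let the finite solvable group G be the product HK of subgroups, and let A be normal in H and B normal in K, where A and B are Hall subgroups of G (order coprime to index). Then for all x, y the product set of xAx⁻¹ and yBy⁻¹ is a subgroup of G. -/
theorem result {G : Type*} [Group G] [Finite G] [Group.IsSolvable G] (H K A B : Subgroup G) (hHK : ∀ g : G, ∃ h ∈ H, ∃ k ∈ K, g = h * k) (hA : A ≤ H) (hAn : (A.subgroupOf H).Normal) (hB : B ≤ K) (hBn : (B.subgroupOf K).Normal) (hAh : (Nat.card A).Coprime A.index) (hBh : (Nat.card B).Coprime B.index) (x y : G) : ∃ S : Subgroup G, (S : Set G) = ((MulAut.conj x • A : Subgroup G) : Set G) * ((MulAut.conj y • B : Subgroup G) : Set G) := by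
  open Subgroup H1 in
  have hAn' : H ≤ normalizer (A : Set G) := (normal_subgroupOf_iff_le_normalizer hA).1 hAn
  have hBn' : K ≤ Subgroup.normalizer (B : Set G) :=
    (Subgroup.normal_subgroupOf_iff_le_normalizer hB).1 hBn
  obtain ⟨S, hS⟩ := hall_prod H K A B hHK hAn' hBn' hAh hBh
  obtain ⟨h, hh, k, hk, hxy⟩ := hHK (x⁻¹ * y)
  have hgx : MulAut.conj x • A = MulAut.conj (x * h) • A := by
    rw [map_mul, mul_smul, H1.conj_smul_eq_iff_mem_normalizer.2 (hAn' hh)]
  have hgy : MulAut.conj y • B = MulAut.conj (x * h) • B := by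
    have : y = x * h * k := by rw [mul_assoc, ← hxy]; group
    rw [this, map_mul, mul_smul, H1.conj_smul_eq_iff_mem_normalizer.2 (hBn' hk)]
  refine ⟨MulAut.conj (x * h) • S, ?_⟩
  rw [hgx, hgy]
  ext z
  rw [SetLike.mem_coe, H1.mem_conj_smul, ← SetLike.mem_coe, hS]
  constructor
  · rintro ⟨a, ha, b, hb, hab⟩
    refine ⟨(x * h) * a * (x * h)⁻¹, ?_, (x * h) * b * (x * h)⁻¹, ?_, ?_⟩
    · rw [SetLike.mem_coe, H1.mem_conj_smul]
      have : (x * h)⁻¹ * ((x * h) * a * (x * h)⁻¹) * (x * h) = a := by group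
      rw [this]; exact ha
    · rw [SetLike.mem_coe, H1.mem_conj_smul]
      have : (x * h)⁻¹ * ((x * h) * b * (x * h)⁻¹) * (x * h) = b := by group
      rw [this]; exact hb
    · have : (x * h) * a * (x * h)⁻¹ * ((x * h) * b * (x * h)⁻¹) = (x * h) * (a * b) * (x * h)⁻¹ := by
        group
      change a * b = _ at hab
      change (x * h) * a * (x * h)⁻¹ * ((x * h) * b * (x * h)⁻¹) = z
      rw [this, hab]; group
  · rintro ⟨a, ha, b, hb, hab⟩
    rw [SetLike.mem_coe, H1.mem_conj_smul] at ha hb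
    refine ⟨_, ha, _, hb, ?_⟩
    change a * b = z at hab
    change (x * h)⁻¹ * a * (x * h) * ((x * h)⁻¹ * b * (x * h)) = _
    rw [← hab]; group

end Cfsg.Agent.S0561
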