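import Cfsg.Statements.S0562
import Mathlib
import Cfsg.Agent.Lib_helper1_Basic

set_option autoImplicit false
open Cfsg

namespace Cfsg.Agent.S0562

open scoped Pointwise


/-- Let the finite group G be the product HK of subgroups, A normal in H, B normal in K, and L the normalizer of the subgroup generated by A and B. Then every element of L is a product of an element of L ∩ H and an element of L ∩ K. -/
theorem result {G : Type*} [Group G] [Finite G] (H K A B : Subgroup G) (hHK : ∀ g : G, ∃ h ∈ H, ∃ k ∈ K, g = h * k) (hA : A ≤ H) (hAn : (A.subgroupOf H).Normal) (hB : B ≤ K) (hBn : (B.subgroupOf K).Normal) : ∀ g ∈ Subgroup.normalizer ((A ⊔ B : Subgroup G) : Set G), ∃ h ∈ Subgroup.normalizer ((A ⊔ B : Subgroup G) : Set G) ⊓ H, ∃ k ∈ Subgroup.normalizer ((A ⊔ B : Subgroup G) : Set G) ⊓ K, g = h * k := by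
  intro g hg
  obtain ⟨h, hh, k, hk, rfl⟩ := hHK g
  set X := A ⊔ B with hX
  have hgX : MulAut.conj (h * k) • X = X := H1.conj_smul_eq_iff_mem_normalizer.mpr hg
  have hkh : MulAut.conj k • X = MulAut.conj h⁻¹ • X := by
    rw [map_mul, mul_smul] at hgX
    calc MulAut.conj k • X = MulAut.conj h⁻¹ • (MulAut.conj h • (MulAut.conj k • X)) := by
          rw [← mul_smul, ← map_mul]; simp
      _ = MulAut.conj h⁻¹ • X := by rw [hgX]
  have hB' : B ≤ MulAut.conj k • X := by
    intro b hb
    rw [H1.mem_conj_smul]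
    apply (le_sup_right : B ≤ X)
    have := hBn.conj_mem ⟨b, hB hb⟩ (Subgroup.mem_subgroupOf.mpr hb) (⟨k, hk⟩⁻¹ : K)
    have h2 := Subgroup.mem_subgroupOf.mp this
    simpa using h2
  have hA' : A ≤ MulAut.conj k • X := by
    rw [hkh]
    intro a ha
    rw [H1.mem_conj_smul]
    apply (le_sup_left : A ≤ X)
    have := hAn.conj_mem ⟨a, hA ha⟩ (Subgroup.mem_subgroupOf.mpr ha) (⟨h, hh⟩ : H)
    have h2 := Subgroup.mem_subgroupOf.mp this
    simpa using h2
  have hle : X ≤ MulAut.conj k • X := sup_le hA' hB'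
  have heq : X = MulAut.conj k • X := by
    apply Subgroup.eq_of_le_of_card_ge hle
    rw [H1.card_conj_smul]
  have hkN : k ∈ Subgroup.normalizer (X : Set G) := H1.conj_smul_eq_iff_mem_normalizer.mp heq.symm
  have hhN : h ∈ Subgroup.normalizer (X : Set G) := by
    have := (Subgroup.normalizer (X : Set G)).mul_mem hg ((Subgroup.normalizer (X : Set G)).inv_mem hkN)
    simpa using this
  exact ⟨h, ⟨hhN, hh⟩, k, ⟨hkN, hk⟩, rfl⟩

end Cfsg.Agent.S0562
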