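import Cfsg.Statements.S0566
import Mathlib
import Cfsg.Agent.Lib_helper1_Fact

set_option autoImplicit false
open Pointwise
open Cfsg

namespace Cfsg.Agent.S0566

open Subgroup Pointwise

/-- if `X`, `Y` each permute with `Z`, so does `X ⊔ Y`. -/
theorem sup_perm {G : Type*} [Group G] {X Y Z : Subgroup G}
    (hX : (X : Set G) * (Z : Set G) = (Z : Set G) * (X : Set G))
    (hY : (Y : Set G) * (Z : Set G) = (Z : Set G) * (Y : Set G)) :
    ((X ⊔ Y : Subgroup G) : Set G) * (Z : Set G) = (Z : Set G) * ((X ⊔ Y : Subgroup G) : Set G) := by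
  have key : ∀ w ∈ X ⊔ Y, (∀ z ∈ Z, ∃ z' ∈ Z, ∃ w' ∈ X ⊔ Y, w * z = z' * w') ∧
      (∀ z ∈ Z, ∃ z' ∈ Z, ∃ w' ∈ X ⊔ Y, z * w = w' * z') := by
    intro w hw
    rw [sup_eq_closure] at hw
    induction hw using closure_induction with
    | mem x hx =>
      rcases hx with hx | hx
      · constructor
        · intro z hz
          have h1 : x * z ∈ (X : Set G) * (Z : Set G) := ⟨x, hx, z, hz, rfl⟩
          rw [hX] at h1
          obtain ⟨z', hz', x', hx', h⟩ := h1
          exact ⟨z', hz', x', mem_sup_left hx', h.symm⟩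
        · intro z hz
          have h1 : z * x ∈ (Z : Set G) * (X : Set G) := ⟨z, hz, x, hx, rfl⟩
          rw [← hX] at h1
          obtain ⟨x', hx', z', hz', h⟩ := h1
          exact ⟨z', hz', x', mem_sup_left hx', h.symm⟩
      · constructor
        · intro z hz
          have h1 : x * z ∈ (Y : Set G) * (Z : Set G) := ⟨x, hx, z, hz, rfl⟩
          rw [hY] at h1
          obtain ⟨z', hz', x', hx', h⟩ := h1
          exact ⟨z', hz', x', mem_sup_right hx', h.symm⟩
        · intro z hz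
          have h1 : z * x ∈ (Z : Set G) * (Y : Set G) := ⟨z, hz, x, hx, rfl⟩
          rw [← hY] at h1
          obtain ⟨x', hx', z', hz', h⟩ := h1
          exact ⟨z', hz', x', mem_sup_right hx', h.symm⟩
    | one =>
      exact ⟨fun z hz => ⟨z, hz, 1, one_mem _, by simp⟩, fun z hz => ⟨z, hz, 1, one_mem _, by simp⟩⟩
    | mul a b _ _ ha hb =>
      constructor
      · intro z hz
        obtain ⟨z1, hz1, b1, hb1, h1⟩ := hb.1 z hz
        obtain ⟨z2, hz2, a1, ha1, h2⟩ := ha.1 z1 hz1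
        exact ⟨z2, hz2, a1 * b1, mul_mem ha1 hb1, by
          rw [mul_assoc, h1, ← mul_assoc, h2, mul_assoc]⟩
      · intro z hz
        obtain ⟨z1, hz1, a1, ha1, h1⟩ := ha.2 z hz
        obtain ⟨z2, hz2, b1, hb1, h2⟩ := hb.2 z1 hz1
        exact ⟨z2, hz2, a1 * b1, mul_mem ha1 hb1, by
          rw [← mul_assoc, h1, mul_assoc, h2, ← mul_assoc]⟩
    | inv a _ ha =>
      constructor
      · intro z hz
        obtain ⟨z1, hz1, a1, ha1, h1⟩ := ha.2 z⁻¹ (inv_mem hz)
        refine ⟨z1⁻¹, inv_mem hz1, a1⁻¹, inv_mem ha1, ?_⟩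
        rw [← mul_inv_rev, ← h1]; simp
      · intro z hz
        obtain ⟨z1, hz1, a1, ha1, h1⟩ := ha.1 z⁻¹ (inv_mem hz)
        refine ⟨z1⁻¹, inv_mem hz1, a1⁻¹, inv_mem ha1, ?_⟩
        rw [← mul_inv_rev, ← h1]; simp
  ext g
  constructor
  · rintro ⟨w, hw, z, hz, rfl⟩
    obtain ⟨z', hz', w', hw', h⟩ := (key w hw).1 z hz
    exact ⟨z', hz', w', hw', h.symm⟩
  · rintro ⟨z, hz, w, hw, rfl⟩
    obtain ⟨z', hz', w', hw', h⟩ := (key w hw).2 z hz
    exact ⟨w', hw', z', hz', h.symm⟩

theorem conj_perm {G : Type*} [Group G] {H K : Subgroup G} (c : G)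
    (h : (H : Set G) * (K : Set G) = (K : Set G) * (H : Set G)) :
    ((MulAut.conj c • H : Subgroup G) : Set G) * ((MulAut.conj c • K : Subgroup G) : Set G)
      = ((MulAut.conj c • K : Subgroup G) : Set G) * ((MulAut.conj c • H : Subgroup G) : Set G) := by
  rw [coe_pointwise_smul, coe_pointwise_smul, ← smul_mul', h, smul_mul']

theorem kegel_aux {G : Type*} [Group G] [Finite G] (B : Subgroup G)
    (hBn : normalClosure (B : Set G) = ⊤) :
    ∀ (n : ℕ) (A : Subgroup G), Nat.card G - Nat.card A = n → normalClosure (A : Set G) = ⊤ →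
      (∀ x : G, ∃ S : Subgroup G, S ≠ ⊤ ∧
        (S : Set G) = (A : Set G) * ((MulAut.conj x • B : Subgroup G) : Set G)) → False := by
  intro n
  induction n using Nat.strong_induction_on with
  | _ n ih =>
  intro A hn hAn h
  have hperm : ∀ g : G, (A : Set G) * ((MulAut.conj g • B : Subgroup G) : Set G)
      = ((MulAut.conj g • B : Subgroup G) : Set G) * (A : Set G) := fun g => by
    obtain ⟨S, -, hS⟩ := h g
    exact H1.mul_comm_of_coe_eq_mul hS
  have hAnn : ¬ A.Normal := by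
    intro hnor
    rw [normalClosure_eq_self] at hAn
    obtain ⟨S, hS1, hS2⟩ := h 1
    apply hS1
    rw [eq_top_iff, ← hAn]
    intro a ha
    change a ∈ (S : Set G)
    rw [hS2]
    exact ⟨a, ha, 1, one_mem _, mul_one a⟩
  have hNA : normalizer (A : Set G) ≠ ⊤ := fun h' => hAnn (normalizer_eq_top_iff.1 h')
  have hex : ∃ x : G, ¬ (MulAut.conj x • B ≤ normalizer (A : Set G)) := by
    by_contra hcon
    push Not at hcon
    apply hNA
    rw [eq_top_iff, ← hBn, normalClosure, closure_le]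
    intro y hy
    rw [Group.mem_conjugatesOfSet_iff] at hy
    obtain ⟨β, hβ, hβy⟩ := hy
    obtain ⟨c, hc⟩ := isConj_iff.1 hβy
    apply hcon c
    rw [H1.mem_conj_smul, ← hc]
    have : c⁻¹ * (c * β * c⁻¹) * c = β := by group
    rw [this]
    exact hβ
  obtain ⟨x, hx⟩ := hex
  obtain ⟨b, hbB, hbN⟩ := SetLike.not_le_iff_exists.1 hx
  set A₁ : Subgroup G := A ⊔ MulAut.conj b • A with hA₁
  have hlt : A < A₁ := by
    refine lt_of_le_of_ne le_sup_left ?_
    intro heq
    apply hbN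
    rw [← H1.conj_smul_eq_iff_mem_normalizer]
    apply eq_of_le_of_card_ge
    · calc MulAut.conj b • A ≤ A₁ := le_sup_right
        _ = A := heq.symm
    · rw [H1.card_conj_smul]
  have hcard : Nat.card A < Nat.card A₁ := H1.card_lt_card_of_lt hlt
  have hperm₁ : ∀ g : G, (A₁ : Set G) * ((MulAut.conj g • B : Subgroup G) : Set G)
      = ((MulAut.conj g • B : Subgroup G) : Set G) * (A₁ : Set G) := fun g => by
    apply sup_perm (hperm g)
    have h1 := conj_perm b (hperm (b⁻¹ * g))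
    rwa [smul_smul, ← map_mul, mul_inv_cancel_left] at h1
  by_cases hall : ∀ g : G, (A₁ : Set G) * ((MulAut.conj g • B : Subgroup G) : Set G) ≠ Set.univ
  · refine ih (Nat.card G - Nat.card A₁) ?_ A₁ rfl ?_ ?_
    · have := card_le_card_group A₁
      omega
    · rw [eq_top_iff, ← hAn]
      exact normalClosure_mono hlt.le
    · intro g
      refine ⟨A₁ ⊔ MulAut.conj g • B, ?_, H1.coe_sup_of_mul_comm (hperm₁ g)⟩
      intro htop
      apply hall g
      rw [← H1.coe_sup_of_mul_comm (hperm₁ g), htop, coe_top]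
  · push Not at hall
    obtain ⟨g, hg⟩ := hall
    obtain ⟨H, hH1, hH2⟩ := h x
    have hAH : A ≤ H := by
      intro a ha
      change a ∈ (H : Set G)
      rw [hH2]
      exact ⟨a, ha, 1, one_mem _, mul_one a⟩
    have hBH : MulAut.conj x • B ≤ H := by
      intro a ha
      change a ∈ (H : Set G)
      rw [hH2]
      exact ⟨1, one_mem _, a, ha, one_mul a⟩
    have hA₁H : A₁ ≤ H := by
      refine sup_le hAH ?_
      calc MulAut.conj b • A ≤ MulAut.conj b • H := pointwise_smul_le_pointwise_smul_iff.2 hAH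
        _ = H := conj_smul_eq_self_of_mem (hBH hbB)
    have hs : (g * x⁻¹)⁻¹ ∈ (A₁ : Set G) * ((MulAut.conj g • B : Subgroup G) : Set G) := by
      rw [hg]; trivial
    obtain ⟨a₁, ha₁, b₁, hb₁, hab⟩ := hs
    have hgeq : g = b₁⁻¹ * a₁⁻¹ * x := by
      have h1 : a₁ * b₁ = (g * x⁻¹)⁻¹ := hab
      have h2 : g * x⁻¹ = (a₁ * b₁)⁻¹ := by rw [h1, inv_inv]
      calc g = g * x⁻¹ * x := by group
        _ = (a₁ * b₁)⁻¹ * x := by rw [h2]
        _ = b₁⁻¹ * a₁⁻¹ * x := by group
    have e1 : MulAut.conj g • B = MulAut.conj b₁⁻¹ • MulAut.conj a₁⁻¹ • MulAut.conj x • B := by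
      rw [smul_smul, smul_smul, ← map_mul, ← map_mul, ← hgeq]
    have e2 : MulAut.conj b₁⁻¹ • (MulAut.conj g • B) = MulAut.conj g • B :=
      conj_smul_eq_self_of_mem (inv_mem hb₁)
    have e3 : MulAut.conj g • B = MulAut.conj a₁⁻¹ • MulAut.conj x • B := by
      apply smul_left_cancel (MulAut.conj b₁⁻¹)
      rw [e2, ← e1]
    have hBgH : MulAut.conj g • B ≤ H := by
      rw [e3]
      calc MulAut.conj a₁⁻¹ • MulAut.conj x • B ≤ MulAut.conj a₁⁻¹ • H :=
            pointwise_smul_le_pointwise_smul_iff.2 hBH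
        _ = H := conj_smul_eq_self_of_mem (inv_mem (hA₁H ha₁))
    apply hH1
    rw [eq_top_iff]
    intro y _
    have hy : y ∈ (A₁ : Set G) * ((MulAut.conj g • B : Subgroup G) : Set G) := by rw [hg]; trivial
    obtain ⟨u, hu, v, hv, rfl⟩ := hy
    exact mul_mem (hA₁H hu) (hBgH hv)

/-- Let A and B be nontrivial subgroups of a finite group G such that for every x the product set of A and xBx⁻¹ is a proper subgroup of G. Then there is a proper normal subgroup of G containing A or containing B. -/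
theorem result {G : Type*} [Group G] [Finite G] (A B : Subgroup G) (hA : A ≠ ⊥) (hB : B ≠ ⊥) (h : ∀ x : G, ∃ S : Subgroup G, S ≠ ⊤ ∧ (S : Set G) = (A : Set G) * ((MulAut.conj x • B : Subgroup G) : Set G)) : ∃ N : Subgroup G, N.Normal ∧ N ≠ ⊤ ∧ (A ≤ N ∨ B ≤ N) := by
  by_cases hAn : Subgroup.normalClosure (A : Set G) = ⊤
  · by_cases hBn : Subgroup.normalClosure (B : Set G) = ⊤
    · exact (kegel_aux B hBn _ A rfl hAn h).elim
    · exact ⟨Subgroup.normalClosure (B : Set G), inferInstance, hBn, Or.inr Subgroup.le_normalClosure⟩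
  · exact ⟨Subgroup.normalClosure (A : Set G), inferInstance, hAn, Or.inl Subgroup.le_normalClosure⟩

end Cfsg.Agent.S0566
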