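import Cfsg.Statements.S0567
import Mathlib

set_option autoImplicit false
open Cfsg

namespace Cfsg.Agent.S0567

open scoped commutatorElement


/-- A subgroup H of a group G is subnormal exactly when, for some m, the subgroup obtained from G by taking the commutator with H m times in succession is contained in H. -/
theorem result {G : Type*} [Group G] (H : Subgroup G) : H.IsSubnormal ↔ ∃ m : ℕ, (fun K : Subgroup G => ⁅K, H⁆)^[m] ⊤ ≤ H := by
  constructor
  · intro hH
    have key : ∀ K : Subgroup G, K.IsSubnormal → ∀ H : Subgroup G, H ≤ K →
        ∃ m : ℕ, (fun K : Subgroup G => ⁅K, H⁆)^[m] ⊤ ≤ K := by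
      intro K hK
      induction hK with
      | top => intro H _; exact ⟨0, le_top⟩
      | step H' K' hle _ hN ih =>
        intro H hHH'
        obtain ⟨m, hm⟩ := ih H (hHH'.trans hle)
        refine ⟨m + 1, ?_⟩
        rw [Function.iterate_succ_apply']
        refine (Subgroup.commutator_mono hm hHH').trans ?_
        rw [Subgroup.commutator_le]
        intro k hk h hh
        have h1 := (Subgroup.normal_subgroupOf_iff hle).mp hN h k hh hk
        exact H'.mul_mem h1 (H'.inv_mem hh)
    exact key H hH H le_rfl
  · rintro ⟨m, hm⟩
    have hstep : ∀ K : Subgroup G, ((⁅K, H⁆ ⊔ H).subgroupOf (K ⊔ H)).Normal ∧ ⁅K, H⁆ ⊔ H ≤ K ⊔ H := by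
      intro K
      have hle : ⁅K, H⁆ ⊔ H ≤ K ⊔ H := by
        refine sup_le ?_ le_sup_right
        rw [Subgroup.commutator_le]
        intro k hk h hh
        exact (K ⊔ H).mul_mem ((K ⊔ H).mul_mem ((K ⊔ H).mul_mem (Subgroup.mem_sup_left hk)
          (Subgroup.mem_sup_right hh)) ((K ⊔ H).inv_mem (Subgroup.mem_sup_left hk)))
          ((K ⊔ H).inv_mem (Subgroup.mem_sup_right hh))
      refine ⟨?_, hle⟩
      rw [Subgroup.normal_subgroupOf_iff hle]
      have hK : ∀ k ∈ K, ⁅K, H⁆ ⊔ H ≤ (⁅K, H⁆ ⊔ H).comap (MulAut.conj k).toMonoidHom := by
        intro k hk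
        refine sup_le ?_ ?_
        · rw [Subgroup.commutator_le]
          intro k' hk' h hh
          rw [Subgroup.mem_comap]
          show k * ⁅k', h⁆ * k⁻¹ ∈ ⁅K, H⁆ ⊔ H
          have e : k * ⁅k', h⁆ * k⁻¹ = ⁅k * k', h⁆ * ⁅k, h⁆⁻¹ := by
            simp only [commutatorElement_def]; group
          rw [e]
          exact Subgroup.mem_sup_left (Subgroup.mul_mem _
            (Subgroup.commutator_mem_commutator (K.mul_mem hk hk') hh)
            (Subgroup.inv_mem _ (Subgroup.commutator_mem_commutator hk hh)))
        · intro h hh
          rw [Subgroup.mem_comap]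
          show k * h * k⁻¹ ∈ ⁅K, H⁆ ⊔ H
          have e : k * h * k⁻¹ = ⁅k, h⁆ * h := by simp only [commutatorElement_def]; group
          rw [e]
          exact Subgroup.mul_mem _ (Subgroup.mem_sup_left (Subgroup.commutator_mem_commutator hk hh))
            (Subgroup.mem_sup_right hh)
      have hall : K ⊔ H ≤ { carrier := {g | ∀ x ∈ ⁅K, H⁆ ⊔ H, g * x * g⁻¹ ∈ ⁅K, H⁆ ⊔ H ∧
            g⁻¹ * x * g ∈ ⁅K, H⁆ ⊔ H}
                            mul_mem' := by
                              intro a b ha hb x hx
                              constructor
                              · have := (ha _ ((hb x hx).1)).1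
                                convert this using 1; group
                              · have := (hb _ ((ha x hx).2)).2
                                convert this using 1; group
                            one_mem' := by intro x hx; simpa using hx
                            inv_mem' := by
                              intro a ha x hx
                              constructor
                              · have := (ha x hx).2
                                simpa using this
                              · have := (ha x hx).1
                                simpa using this : Subgroup G } := by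
        refine sup_le ?_ ?_
        · intro k hk x hx
          refine ⟨hK k hk hx, ?_⟩
          have := hK k⁻¹ (K.inv_mem hk) hx
          have h2 : k⁻¹ * x * k⁻¹⁻¹ ∈ ⁅K, H⁆ ⊔ H := this
          simpa using h2
        · intro h hh x hx
          have hh' : h ∈ ⁅K, H⁆ ⊔ H := Subgroup.mem_sup_right hh
          exact ⟨Subgroup.mul_mem _ (Subgroup.mul_mem _ hh' hx) (Subgroup.inv_mem _ hh'),
            Subgroup.mul_mem _ (Subgroup.mul_mem _ (Subgroup.inv_mem _ hh') hx) hh'⟩
      intro x g hx hg
      exact (hall hg x hx).1
    have hsub : ∀ i : ℕ, ((fun K : Subgroup G => ⁅K, H⁆)^[i] ⊤ ⊔ H).IsSubnormal := by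
      intro i
      induction i with
      | zero => simp
      | succ i ih =>
        rw [Function.iterate_succ_apply']
        obtain ⟨h1, h2⟩ := hstep ((fun K : Subgroup G => ⁅K, H⁆)^[i] ⊤)
        exact Subgroup.IsSubnormal.step _ _ h2 ih h1
    have := hsub m
    rwa [sup_eq_right.mpr hm] at this

end Cfsg.Agent.S0567
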