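import Mathlib
import Cfsg.Statements.S0568
import Cfsg.Agent.S0545
import Cfsg.Agent.Lib_helper1_PQ
import Cfsg.Agent.Lib_helper1_Max

set_option autoImplicit false
open Cfsg

namespace Cfsg.Agent.S0568

open Subgroup Cfsg.Agent.H1
open scoped Pointwise commutatorElement

/-- a minimal normal subgroup of a finite solvable group is a `p`-group. -/
theorem minimal_normal_pgroup {G : Type*} [Group G] [Finite G] [Group.IsSolvable G]
    (B : Subgroup G) [hBn : B.Normal] (hne : B ≠ ⊥)
    (hmin : ∀ M : Subgroup G, M.Normal → M ≤ B → M = ⊥ ∨ M = B) :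
    ∃ p : ℕ, p.Prime ∧ IsPGroup p B := by
  haveI : Nontrivial B := (nontrivial_iff_ne_bot B).mpr hne
  obtain ⟨p, hp, P, hPc, hP, hPne, -⟩ := exists_normal_pgroup_of_solvable B
  refine ⟨p, hp, ?_⟩
  have h1 : (P.map B.subtype).Normal := by
    apply normalizer_eq_top_iff.mp
    rw [eq_top_iff, ← normalizer_eq_top_iff.mpr hBn]
    exact normalizer_le_normalizer_map_of_characteristic B P
  have h2 : P.map B.subtype ≤ B := map_subtype_le P
  have h3 : P.map B.subtype ≠ ⊥ := by
    intro h
    apply hPne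
    rwa [Subgroup.map_eq_bot_iff, ker_subtype, le_bot_iff] at h
  have h4 := (hmin _ h1 h2).resolve_left h3
  rw [← h4]
  exact hP.map _

/-- if `R ≤ C ⊔ H` where `C` centralises the normal subgroup `B` then `[B,R] ≤ [B,H]`. -/
theorem commutator_le_of_le_sup_centralizer {G : Type*} [Group G] (B R H : Subgroup G)
    [hBn : B.Normal] (h : R ≤ centralizer (B : Set G) ⊔ H) : ⁅B, R⁆ ≤ ⁅B, H⁆ := by
  rw [commutator_le]
  intro b hb g hg
  have h1 : g ∈ ((centralizer (B : Set G) ⊔ H : Subgroup G) : Set G) := h hg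
  rw [normal_mul] at h1
  obtain ⟨c, hc, s, hs, rfl⟩ := Set.mem_mul.mp h1
  have hc' : ∀ x ∈ B, x * c = c * x := fun x hx => (mem_centralizer_iff.mp hc) x hx
  have h2 : ⁅b, s⁆ ∈ B := by
    rw [commutatorElement_def]
    have := hBn.conj_mem b⁻¹ (B.inv_mem hb) s
    have h3 := B.mul_mem hb this
    convert h3 using 1
    group
  have h4 : ⁅b, c * s⁆ = ⁅b, s⁆ := by
    have e1 : ⁅b, c * s⁆ = (b * c) * (s * b⁻¹ * s⁻¹) * c⁻¹ := by
      rw [commutatorElement_def]; group
    have e2 : (c * b) * (s * b⁻¹ * s⁻¹) * c⁻¹ = (c * ⁅b, s⁆) * c⁻¹ := by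
      rw [commutatorElement_def]; group
    rw [e1, hc' b hb, e2, ← hc' _ h2]
    group
  rw [h4]
  exact commutator_mem_commutator hb hs

theorem avoid {G : Type*} [Group G] [Finite G] [Group.IsSolvable G] (K : Nat.Primes → Subgroup G)
    (hK : Cfsg.IsComplementSystem K) (B : Subgroup G) [hBn : B.Normal] (hne : B ≠ ⊥)
    (hmin : ∀ M : Subgroup G, M.Normal → M ≤ B → M = ⊥ ∨ M = B)
    (hecc : centralizer (B : Set G) ≠ ⊤) : B ⊓ Cfsg.systemNormalizer K = ⊥ := by
  obtain ⟨p, hp, hBp⟩ := minimal_normal_pgroup B hne hmin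
  haveI : Fact p.Prime := ⟨hp⟩
  set C := centralizer (B : Set G) with hC
  have hCn : C.Normal := inferInstance
  haveI : Nontrivial (G ⧸ C) := QuotientGroup.nontrivial_iff.mpr hecc
  obtain ⟨r, hr, Rb, hRc, hRr, hRne, -⟩ := exists_normal_pgroup_of_solvable (G ⧸ C)
  haveI : Fact r.Prime := ⟨hr⟩
  have hRbn : Rb.Normal := inferInstance
  set R := Rb.comap (QuotientGroup.mk' C) with hR
  have hRn : R.Normal := inferInstance
  have hRC : ¬ R ≤ C := by
    intro h
    apply hRne
    rw [← map_comap_eq_self_of_surjective (QuotientGroup.mk'_surjective C) Rb, ← hR,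
      Subgroup.map_eq_bot_iff, QuotientGroup.ker_mk']
    exact h
  have hle : ∀ H : Subgroup G, ¬ r ∣ H.index → R ≤ C ⊔ H := by
    intro H hH
    have h1 : Rb ≤ H.map (QuotientGroup.mk' C) := normal_pgroup_le_of_coprime_index hRr
      (fun hd => hH (hd.trans (index_map_dvd _ (QuotientGroup.mk'_surjective C))))
    have h2 := comap_mono (f := QuotientGroup.mk' C) h1
    rw [comap_map_eq, QuotientGroup.ker_mk', sup_comm] at h2
    exact h2
  have hBR : ⁅B, R⁆ = B := by
    have h1 : ⁅B, R⁆ ≤ B := commutator_le_left B R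
    refine (hmin _ inferInstance h1).resolve_left (fun h => hRC ?_)
    rw [commutator_comm, commutator_eq_bot_iff_le_centralizer] at h
    exact h
  have hrp : r ≠ p := by
    rintro rfl
    let S : Sylow r G := default
    have h1 := commutator_le_of_le_sup_centralizer B R S (hle S S.not_dvd_index)
    have h2 : ⁅B, (S : Subgroup G)⁆ < B := commutator_lt_of_pgroups hBp S.2
      (by rw [normalizer_eq_top_iff.mpr hBn]; exact le_top) hne
    rw [hBR] at h1
    exact absurd h1 (not_le_of_gt h2)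
  set pp : Nat.Primes := ⟨p, hp⟩ with hpp
  set Q := K pp with hQ
  have hQi : ¬ r ∣ Q.index := by
    rw [hQ, hK pp]
    intro hd
    exact hrp ((Nat.prime_dvd_prime_iff_eq hr hp).mp (hr.dvd_of_dvd_pow hd))
  have hRQ := hle Q hQi
  have hBQ : B ⊓ Q = ⊥ := by
    apply inf_eq_bot_of_coprime
    obtain ⟨m, hm⟩ := hBp.exists_card_eq
    rw [hm]
    apply Nat.Coprime.pow_left
    exact (Nat.Prime.coprime_iff_not_dvd hp).mpr (cs_not_dvd_card hK pp)
  -- C_B(R) = ⊥
  have hCBR : B ⊓ centralizer (R : Set G) = ⊥ := by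
    refine (hmin _ inferInstance inf_le_left).resolve_right (fun h => hRC ?_)
    have h1 : B ≤ centralizer (R : Set G) := by rw [← h]; exact inf_le_right
    exact le_centralizer_iff.mp h1
  rw [eq_bot_iff, ← hCBR]
  intro x hx
  obtain ⟨hxB, hxD⟩ := mem_inf.mp hx
  refine mem_inf.mpr ⟨hxB, ?_⟩
  have hxN : x ∈ normalizer (Q : Set G) := (iInf_le _ pp : Cfsg.systemNormalizer K ≤ _) hxD
  have hxQ : ∀ k ∈ Q, k * x = x * k := by
    intro k hk
    have h1 : x * k * x⁻¹ * k⁻¹ ∈ B ⊓ Q := by
      refine mem_inf.mpr ⟨?_, ?_⟩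
      · have := B.mul_mem hxB (hBn.conj_mem x⁻¹ (B.inv_mem hxB) k)
        convert this using 1
        group
      · exact Q.mul_mem ((mem_normalizer_iff.mp hxN k).mp hk) (Q.inv_mem hk)
    rw [hBQ, mem_bot] at h1
    calc k * x = (x * k * x⁻¹ * k⁻¹)⁻¹ * (x * k) := by group
      _ = x * k := by rw [h1, inv_one, one_mul]
  rw [mem_centralizer_iff]
  intro g hg
  have h1 : g ∈ ((C ⊔ Q : Subgroup G) : Set G) := hRQ hg
  rw [normal_mul] at h1
  obtain ⟨c, hc, k, hk, rfl⟩ := Set.mem_mul.mp h1
  have hcx : x * c = c * x := (mem_centralizer_iff.mp hc) x hxB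
  rw [mul_assoc, hxQ k hk, ← mul_assoc, ← hcx, mul_assoc]

/-- Let D be the system normalizer of a Hall complement system of a finite solvable group G, and let A < B be normal subgroups with no normal subgroup of G strictly between them (a chief factor). If G centralizes B modulo A then B ≤ A ⊔ D (D covers the factor); otherwise B ∩ D ≤ A (D avoids it). -/
theorem result {G : Type*} [Group G] [Finite G] [Group.IsSolvable G] (K : Nat.Primes → Subgroup G) (hK : Cfsg.IsComplementSystem K) (A B : Subgroup G) [A.Normal] [B.Normal] (hAB : A < B) (hchief : ∀ N : Subgroup G, N.Normal → A ≤ N → N ≤ B → N = A ∨ N = B) : (⁅B, (⊤ : Subgroup G)⁆ ≤ A → B ≤ A ⊔ Cfsg.systemNormalizer K) ∧ (¬ ⁅B, (⊤ : Subgroup G)⁆ ≤ A → B ⊓ Cfsg.systemNormalizer K ≤ A) := by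
  set D := Cfsg.systemNormalizer K with hD
  obtain ⟨hcs, hDmap⟩ := Cfsg.Agent.S0545.result K hK A
  set Kb : Nat.Primes → Subgroup (G ⧸ A) := fun p => (K p).map (QuotientGroup.mk' A) with hKb
  set Bb := B.map (QuotientGroup.mk' A) with hBb
  have hBbn : Bb.Normal := Normal.map inferInstance _ (QuotientGroup.mk'_surjective A)
  constructor
  · intro hcen
    have h1 : Bb ≤ Cfsg.systemNormalizer Kb := by
      rw [Cfsg.systemNormalizer]
      apply le_iInf
      intro p
      rintro _ ⟨b, hb, rfl⟩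
      rw [mem_normalizer_iff]
      intro y
      obtain ⟨g, rfl⟩ := QuotientGroup.mk'_surjective A y
      have h2 : ⁅b, g⁆ ∈ A := hcen (commutator_mem_commutator hb (mem_top g))
      have h3 : QuotientGroup.mk' A b * QuotientGroup.mk' A g * (QuotientGroup.mk' A b)⁻¹
          = QuotientGroup.mk' A g := by
        have h4 : QuotientGroup.mk' A ⁅b, g⁆ = 1 := (QuotientGroup.eq_one_iff _).mpr h2
        rw [map_commutatorElement, commutatorElement_def] at h4
        calc _ = (QuotientGroup.mk' A b * QuotientGroup.mk' A g * (QuotientGroup.mk' A b)⁻¹ *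
              (QuotientGroup.mk' A g)⁻¹) * QuotientGroup.mk' A g := by group
          _ = _ := by rw [h4, one_mul]
      rw [h3]
    rw [hDmap] at h1
    have h5 := comap_mono (f := QuotientGroup.mk' A) h1
    rw [comap_map_eq, comap_map_eq, QuotientGroup.ker_mk'] at h5
    rw [sup_comm]
    exact le_sup_left.trans h5
  · intro hecc
    have hBbne : Bb ≠ ⊥ := by
      intro h
      rw [hBb, Subgroup.map_eq_bot_iff, QuotientGroup.ker_mk'] at h
      exact absurd h (not_le_of_gt hAB)
    have hminb : ∀ M : Subgroup (G ⧸ A), M.Normal → M ≤ Bb → M = ⊥ ∨ M = Bb := by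
      intro M hMn hMB
      have h1 : A ≤ M.comap (QuotientGroup.mk' A) := by
        conv_lhs => rw [← QuotientGroup.ker_mk' A]
        exact ker_le_comap _ _
      have h2 : M.comap (QuotientGroup.mk' A) ≤ B := by
        have := comap_mono (f := QuotientGroup.mk' A) hMB
        rwa [hBb, comap_map_eq, QuotientGroup.ker_mk', sup_eq_left.mpr hAB.le] at this
      rcases hchief _ inferInstance h1 h2 with h | h
      · left
        rw [← map_comap_eq_self_of_surjective (QuotientGroup.mk'_surjective A) M, h,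
          Subgroup.map_eq_bot_iff, QuotientGroup.ker_mk']
      · right
        rw [← map_comap_eq_self_of_surjective (QuotientGroup.mk'_surjective A) M, h]
    have heccb : centralizer (Bb : Set (G ⧸ A)) ≠ ⊤ := by
      intro h
      apply hecc
      rw [commutator_le]
      intro b hb g _
      rw [← QuotientGroup.eq_one_iff]
      show QuotientGroup.mk' A ⁅b, g⁆ = 1
      rw [map_commutatorElement, commutatorElement_eq_one_iff_mul_comm]
      have h1 : QuotientGroup.mk' A g ∈ centralizer (Bb : Set (G ⧸ A)) := by rw [h]; trivial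
      exact (mem_centralizer_iff.mp h1) _ (mem_map_of_mem _ hb)
    have h6 := avoid Kb hcs Bb hBbne hminb heccb
    intro x hx
    obtain ⟨hxB, hxD⟩ := mem_inf.mp hx
    have h7 : QuotientGroup.mk' A x ∈ Bb ⊓ Cfsg.systemNormalizer Kb := by
      refine mem_inf.mpr ⟨mem_map_of_mem _ hxB, ?_⟩
      rw [hDmap]
      exact mem_map_of_mem _ hxD
    rw [h6, mem_bot] at h7
    exact (QuotientGroup.eq_one_iff x).mp h7

end Cfsg.Agent.S0568
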