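import Mathlib
import Cfsg.Statements.S0573
import Cfsg.Agent.S0572
import Cfsg.Agent.Lib_helper1_Max

set_option autoImplicit false
open Cfsg

namespace Cfsg.Agent.S0573

open Subgroup Cfsg.Agent.H1
open scoped Pointwise commutatorElement

theorem comm_of {G : Type*} [Group G] (A : Subgroup G) [h : IsMulCommutative A] {a b : G}
    (ha : a ∈ A) (hb : b ∈ A) : a * b = b * a :=
  congrArg Subtype.val (h.is_comm.comm ⟨a, ha⟩ ⟨b, hb⟩)

/-- `A ∩ C_G(G')` is normal in `G = AB` if `B` contains no nontrivial normal subgroup. -/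
theorem key {G : Type*} [Group G] (A B : Subgroup G) [IsMulCommutative A] [IsMulCommutative B]
    (hAB : ∀ g : G, ∃ a ∈ A, ∃ b ∈ B, g = a * b)
    (hB : ∀ N : Subgroup G, N.Normal → N ≤ B → N = ⊥) :
    (A ⊓ centralizer (commutator G : Set G)).Normal := by
  refine ⟨fun d hd g => ?_⟩
  obtain ⟨hdA, hdV⟩ := mem_inf.mp hd
  have hdV' : ∀ v ∈ commutator G, v * d = d * v := fun v hv => (mem_centralizer_iff.mp hdV) v hv
  have hVn : (commutator G).Normal := inferInstance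
  set z := g * d * g⁻¹ with hz
  have hzV : z ∈ centralizer (commutator G : Set G) := by
    rw [mem_centralizer_iff]
    intro v hv
    have h1 := hdV' (g⁻¹ * v * g) (by
      have := hVn.conj_mem v hv g⁻¹
      rwa [inv_inv] at this)
    calc v * z = g * ((g⁻¹ * v * g) * d) * g⁻¹ := by rw [hz]; group
      _ = g * (d * (g⁻¹ * v * g)) * g⁻¹ := by rw [h1]
      _ = z * v := by rw [hz]; group
  have hzA : ∀ a ∈ A, a * z = z * a := by
    intro a ha
    have hc : ⁅a⁻¹, g⁻¹⁆ ∈ commutator G := by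
      rw [_root_.commutator_def]
      exact commutator_mem_commutator (mem_top _) (mem_top _)
    have h1 := hdV' _ hc
    have h2 := comm_of A ha hdA
    have h3 : g⁻¹ * a * g = a * ⁅a⁻¹, g⁻¹⁆ := by rw [commutatorElement_def]; group
    have h4 : (a * ⁅a⁻¹, g⁻¹⁆) * d = d * (a * ⁅a⁻¹, g⁻¹⁆) := by
      rw [mul_assoc, h1, ← mul_assoc, h2, mul_assoc]
    calc a * z = g * ((g⁻¹ * a * g) * d) * g⁻¹ := by rw [hz]; group
      _ = g * (d * (g⁻¹ * a * g)) * g⁻¹ := by rw [h3, h4]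
      _ = z * a := by rw [hz]; group
  obtain ⟨a₁, ha₁, b₁, hb₁, hzab⟩ := hAB z
  have hb₁e : b₁ = a₁⁻¹ * z := by rw [hzab]; group
  have hb₁A : ∀ a ∈ A, a * b₁ = b₁ * a := by
    intro a ha
    have h1 := hzA a ha
    have h2 := comm_of A ha (A.inv_mem ha₁)
    calc a * b₁ = (a * a₁⁻¹) * z := by rw [hb₁e, mul_assoc]
      _ = a₁⁻¹ * (a * z) := by rw [h2, mul_assoc]
      _ = a₁⁻¹ * (z * a) := by rw [h1]
      _ = b₁ * a := by rw [hb₁e]; exact (mul_assoc _ _ _).symm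
  have hb₁c : ∀ x : G, x * b₁ = b₁ * x := by
    intro x
    obtain ⟨a, ha, b, hb, rfl⟩ := hAB x
    rw [mul_assoc, comm_of B hb hb₁, ← mul_assoc, hb₁A a ha, mul_assoc]
  have hn : (zpowers b₁).Normal := by
    refine ⟨fun y hy x => ?_⟩
    obtain ⟨k, rfl⟩ := mem_zpowers_iff.mp hy
    have : x * b₁ ^ k * x⁻¹ = b₁ ^ k := by
      have hcm : Commute x b₁ := hb₁c x
      rw [(hcm.zpow_right k).eq]; group
    rw [this]
    exact zpow_mem (mem_zpowers b₁) k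
  have h5 := hB _ hn (by rw [zpowers_le]; exact hb₁)
  rw [zpowers_eq_bot] at h5
  refine mem_inf.mpr ⟨?_, hzV⟩
  rw [hzab, h5, mul_one]
  exact ha₁


/-- If a nontrivial finite group G is the product AB of abelian subgroups A and B, then some nontrivial normal subgroup of G is contained in A or in B. -/
theorem result {G : Type*} [Group G] [Finite G] [Nontrivial G] (A B : Subgroup G) [IsMulCommutative A] [IsMulCommutative B] (hAB : ∀ g : G, ∃ a ∈ A, ∃ b ∈ B, g = a * b) : ∃ N : Subgroup G, N.Normal ∧ N ≠ ⊥ ∧ (N ≤ A ∨ N ≤ B) := by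
  by_contra hcon
  push Not at hcon
  have hA0 : ∀ N : Subgroup G, N.Normal → N ≤ A → N = ⊥ := fun N hN hNA => by
    by_contra hne
    exact (hcon N hN hne).1 hNA
  have hB0 : ∀ N : Subgroup G, N.Normal → N ≤ B → N = ⊥ := fun N hN hNB => by
    by_contra hne
    exact (hcon N hN hne).2 hNB
  have hBA : ∀ g : G, ∃ b ∈ B, ∃ a ∈ A, g = b * a := by
    intro g
    obtain ⟨a, ha, b, hb, h⟩ := hAB g⁻¹
    exact ⟨b⁻¹, B.inv_mem hb, a⁻¹, A.inv_mem ha, by rw [← mul_inv_rev, ← h, inv_inv]⟩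
  set V := commutator G with hV
  have hVn : V.Normal := inferInstance
  have hVab : ∀ u ∈ V, ∀ v ∈ V, u * v = v * u := by
    have h1 := Cfsg.Agent.S0572.result A B hAB
    rw [show (2 : ℕ) = 1 + 1 from rfl, derivedSeries_succ, derivedSeries_one,
      commutator_eq_bot_iff_le_centralizer] at h1
    intro u hu v hv
    exact ((mem_centralizer_iff.mp (h1 hv)) u hu)
  have hDA : A ⊓ centralizer (V : Set G) = ⊥ := hA0 _ (key A B hAB hB0) inf_le_left
  have hDB : B ⊓ centralizer (V : Set G) = ⊥ := hB0 _ (key B A hBA hA0) inf_le_left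
  have hVne : V ≠ ⊥ := by
    intro hbot
    have hcomm : ∀ x y : G, x * y = y * x := by
      intro x y
      have : ⁅x, y⁆ ∈ V := by
        rw [hV, _root_.commutator_def]
        exact commutator_mem_commutator (mem_top _) (mem_top _)
      rw [hbot, mem_bot, commutatorElement_eq_one_iff_mul_comm] at this
      exact this
    have hnor : ∀ H : Subgroup G, H.Normal := fun H => ⟨fun y hy x => by
      rw [hcomm x y, mul_assoc, mul_inv_cancel, mul_one]; exact hy⟩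
    have hAb := hA0 A (hnor A) le_rfl
    have hBb := hB0 B (hnor B) le_rfl
    obtain ⟨x, hx⟩ := exists_ne (1 : G)
    obtain ⟨a, ha, b, hb, rfl⟩ := hAB x
    rw [hAb, mem_bot] at ha
    rw [hBb, mem_bot] at hb
    rw [ha, hb, one_mul] at hx
    exact hx rfl
  obtain ⟨W, hWn, hWne, hWV, hmin⟩ := exists_minimal_normal_le V hVn hVne
  obtain ⟨⟨w, hw⟩, hw1⟩ := (W.ne_bot_iff_exists_ne_one).mp hWne
  have hw1' : w ≠ 1 := fun h => hw1 (Subtype.ext h)
  obtain ⟨y, hy, b, hb, hwyb⟩ := hAB w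
  -- y = w * β
  set β := b⁻¹ with hβ
  have hβB : β ∈ B := B.inv_mem hb
  have hyw : y = w * β := by rw [hwyb, hβ]; group
  have hcV : ∀ u ∈ V, u ∈ centralizer (V : Set G) := fun u hu => by
    rw [mem_centralizer_iff]
    intro v hv
    exact hVab v hv u hu
  have hy1 : y ≠ 1 := by
    intro h1
    have : w ∈ B ⊓ centralizer (V : Set G) := by
      refine mem_inf.mpr ⟨?_, hcV w (hWV hw)⟩
      rw [hwyb, h1, one_mul]; exact hb
    rw [hDB, mem_bot] at this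
    exact hw1' this
  have hyV : ∀ v ∈ V, y * v * y⁻¹ ∈ V := fun v hv => hVn.conj_mem v hv y
  have hwV : w ∈ V := hWV hw
  have hid : ∀ v ∈ V, ∃ x ∈ A, y * v * y⁻¹ * v⁻¹ = x * w * x⁻¹ * w⁻¹ := by
    intro v hv
    obtain ⟨x, hx, b', hb', hvx⟩ := hAB v
    refine ⟨x, hx, ?_⟩
    obtain ⟨β₁, hβ₁, hx'⟩ : ∃ β₁ ∈ B, x = v * β₁ := ⟨b'⁻¹, B.inv_mem hb', by rw [hvx]; group⟩
    obtain ⟨p, hp, hpe⟩ : ∃ p ∈ V, p = β₁ * w * β₁⁻¹ := ⟨_, hVn.conj_mem w hwV β₁, rfl⟩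
    obtain ⟨q, hq, hqe⟩ : ∃ q ∈ V, q = β * v * β⁻¹ := ⟨_, hVn.conj_mem v hv β, rfl⟩
    have e1 : v * p = w * q := by
      have hxy := comm_of A hx hy
      rw [hx', hyw] at hxy
      have hbb := comm_of B hβ₁ hβB
      have l : v * p * (β₁ * β) = w * q * (β₁ * β) := by
        calc v * p * (β₁ * β) = (v * β₁) * (w * β) := by rw [hpe]; group
          _ = (w * β) * (v * β₁) := hxy
          _ = w * q * (β * β₁) := by rw [hqe]; group
          _ = w * q * (β₁ * β) := by rw [hbb]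
      exact mul_right_cancel l
    have e2 : y * v * y⁻¹ = q := by
      calc y * v * y⁻¹ = w * q * w⁻¹ := by rw [hyw, hqe]; group
        _ = q := by rw [hVab w hwV q hq]; group
    have e3 : x * w * x⁻¹ = p := by
      calc x * w * x⁻¹ = v * p * v⁻¹ := by rw [hx', hpe]; group
        _ = p := by rw [hVab v hv p hp]; group
    rw [e2, e3]
    calc q * v⁻¹ = w⁻¹ * (w * q) * v⁻¹ := by group
      _ = w⁻¹ * (v * p) * v⁻¹ := by rw [e1]
      _ = w⁻¹ * (p * v) * v⁻¹ := by rw [hVab v hv p hp]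
      _ = w⁻¹ * p := by group
      _ = p * w⁻¹ := hVab _ (V.inv_mem hwV) _ hp
  let U : Subgroup G :=
    { carrier := {u | ∃ v ∈ V, u = y * v * y⁻¹ * v⁻¹}
      mul_mem' := by
        rintro _ _ ⟨v₁, hv₁, rfl⟩ ⟨v₂, hv₂, rfl⟩
        refine ⟨v₁ * v₂, V.mul_mem hv₁ hv₂, ?_⟩
        have h1 := hVab v₁⁻¹ (V.inv_mem hv₁) (y * v₂ * y⁻¹) (hyV v₂ hv₂)
        have h2 := hVab v₁⁻¹ (V.inv_mem hv₁) v₂⁻¹ (V.inv_mem hv₂)
        calc y * v₁ * y⁻¹ * v₁⁻¹ * (y * v₂ * y⁻¹ * v₂⁻¹)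
            = y * v₁ * y⁻¹ * (v₁⁻¹ * (y * v₂ * y⁻¹)) * v₂⁻¹ := by group
          _ = y * v₁ * y⁻¹ * ((y * v₂ * y⁻¹) * v₁⁻¹) * v₂⁻¹ := by rw [h1]
          _ = y * (v₁ * v₂) * y⁻¹ * (v₁⁻¹ * v₂⁻¹) := by group
          _ = y * (v₁ * v₂) * y⁻¹ * (v₁ * v₂)⁻¹ := by rw [h2, mul_inv_rev]
      one_mem' := ⟨1, V.one_mem, by group⟩
      inv_mem' := by
        rintro _ ⟨v, hv, rfl⟩
        refine ⟨v⁻¹, V.inv_mem hv, ?_⟩
        have h1 := hVab v hv (y * v⁻¹ * y⁻¹) (hyV _ (V.inv_mem hv))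
        calc (y * v * y⁻¹ * v⁻¹)⁻¹ = v * (y * v⁻¹ * y⁻¹) := by group
          _ = y * v⁻¹ * y⁻¹ * v := h1
          _ = y * v⁻¹ * y⁻¹ * v⁻¹⁻¹ := by rw [inv_inv] }
  have hUn : U.Normal := by
    refine ⟨fun u hu g => ?_⟩
    obtain ⟨v, hv, rfl⟩ := hu
    obtain ⟨v', hv', hve⟩ : ∃ v' ∈ V, v' = g * v * g⁻¹ := ⟨_, hVn.conj_mem v hv g, rfl⟩
    refine ⟨v', hv', ?_⟩
    obtain ⟨c, hc, hce⟩ : ∃ c ∈ V, c = g * y * g⁻¹ * y⁻¹ := ⟨⁅g, y⁆, by
      rw [hV, _root_.commutator_def]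
      exact commutator_mem_commutator (mem_top _) (mem_top _), rfl⟩
    have h1 := hVab c hc (y * v' * y⁻¹) (hyV v' hv')
    calc g * (y * v * y⁻¹ * v⁻¹) * g⁻¹ = (c * (y * v' * y⁻¹)) * c⁻¹ * v'⁻¹ := by
          rw [hce, hve]; group
      _ = y * v' * y⁻¹ * v'⁻¹ := by rw [h1]; group
  have hUW : U ≤ W := by
    rintro _ ⟨v, hv, rfl⟩
    obtain ⟨x, -, hx⟩ := hid v hv
    rw [hx]
    exact W.mul_mem (hWn.conj_mem w hw x) (W.inv_mem hw)
  have hUne : U ≠ ⊥ := by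
    intro hbot
    apply hy1
    have : y ∈ A ⊓ centralizer (V : Set G) := by
      refine mem_inf.mpr ⟨hy, ?_⟩
      rw [mem_centralizer_iff]
      intro v hv
      have h1 : y * v * y⁻¹ * v⁻¹ ∈ U := ⟨v, hv, rfl⟩
      rw [hbot, mem_bot] at h1
      calc v * y = (y * v * y⁻¹ * v⁻¹)⁻¹ * (y * v) := by group
        _ = y * v := by rw [h1, inv_one, one_mul]
    rw [hDA, mem_bot] at this
    exact this
  have hUeq := (hmin U hUn hUW).resolve_left hUne
  have hwU : w⁻¹ ∈ U := by rw [hUeq]; exact W.inv_mem hw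
  obtain ⟨v, hv, hwv⟩ := hwU
  obtain ⟨x, -, hx⟩ := hid v hv
  rw [hx] at hwv
  apply hw1'
  have h2 : x * w * x⁻¹ = 1 := by
    calc x * w * x⁻¹ = (x * w * x⁻¹ * w⁻¹) * w := by group
      _ = 1 := by rw [← hwv]; group
  calc w = x⁻¹ * (x * w * x⁻¹) * x := by group
    _ = 1 := by rw [h2]; group

end Cfsg.Agent.S0573
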