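import Mathlib
import Cfsg.Statements.S0571
import Cfsg.Agent.S0573
import Cfsg.Agent.S0528
import Cfsg.Agent.Lib_helper1_SS4

set_option autoImplicit false
open Cfsg

namespace Cfsg.Agent.S0571

open Subgroup Cfsg.Agent.H1
open scoped Pointwise

theorem isCyclic_of_le' {G : Type*} [Group G] {N A : Subgroup G} [IsCyclic A] (h : N ≤ A) :
    IsCyclic N :=
  isCyclic_of_injective (inclusion h) (inclusion_injective h)

theorem comm_inst {G : Type*} [Group G] (A : Subgroup G) [IsCyclic A] : IsMulCommutative A :=
  ⟨⟨fun a b => IsCyclic.commGroup.mul_comm a b⟩⟩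

theorem aux.{u} : ∀ (n : ℕ) (G : Type u) [Group G] [Finite G] (A B : Subgroup G) [IsCyclic A]
    [IsCyclic B], Nat.card G = n → (∀ g : G, ∃ a ∈ A, ∃ b ∈ B, g = a * b) →
    Cfsg.IsSupersolvable G := by
  intro n
  induction n using Nat.strong_induction_on with
  | _ n ih =>
    intro G _ _ A B _ _ hn hAB
    by_cases h1 : Subsingleton G
    · exact ss_of_subsingleton G
    have : Nontrivial G := not_subsingleton_iff_nontrivial.mp h1
    have := comm_inst A
    have := comm_inst B
    obtain ⟨N, hNn, hNne, hN⟩ := Cfsg.Agent.S0573.result A B hAB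
    have hc : IsCyclic N := by
      rcases hN with h | h
      · exact isCyclic_of_le' h
      · exact isCyclic_of_le' h
    apply Cfsg.Agent.S0528.result N
    have hA' : IsCyclic (A.map (QuotientGroup.mk' N)) :=
      isCyclic_of_surjective _ ((QuotientGroup.mk' N).subgroupMap_surjective A)
    have hB' : IsCyclic (B.map (QuotientGroup.mk' N)) :=
      isCyclic_of_surjective _ ((QuotientGroup.mk' N).subgroupMap_surjective B)
    refine ih _ (by rw [← hn]; exact card_quotient_lt hNne) (G ⧸ N) (A.map (QuotientGroup.mk' N))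
      (B.map (QuotientGroup.mk' N)) rfl ?_
    intro x
    obtain ⟨g, rfl⟩ := QuotientGroup.mk'_surjective N x
    obtain ⟨a, ha, b, hb, rfl⟩ := hAB g
    exact ⟨_, mem_map_of_mem _ ha, _, mem_map_of_mem _ hb, map_mul _ a b⟩

/-- If a finite group G is the product AB of two cyclic subgroups (every element is a product ab), then G is supersolvable. -/
theorem result {G : Type*} [Group G] [Finite G] (A B : Subgroup G) [IsCyclic A] [IsCyclic B] (hAB : ∀ g : G, ∃ a ∈ A, ∃ b ∈ B, g = a * b) : Cfsg.IsSupersolvable G := by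
  exact aux _ G A B rfl hAB

end Cfsg.Agent.S0571
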