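import Mathlib
import Cfsg.Statements.S0576
import Cfsg.Agent.Lib_helper1_Frattini

set_option autoImplicit false
open Cfsg

namespace Cfsg.Agent.S0576

open Cfsg.Agent.H1

/-- Let H be a normal subgroup of a finite group G with H contained in the Frattini subgroup of G. Then the group of inner automorphisms of H is contained in the Frattini subgroup of the automorphism group of H. -/
theorem result {G : Type*} [Group G] [Finite G] (H : Subgroup G) [H.Normal] (hH : H ≤ frattini G) : (MulAut.conj : ↥H →* MulAut ↥H).range ≤ frattini (MulAut ↥H) := by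
  rw [le_frattini_iff]
  intro M hM
  by_contra hcon
  have hsup : (MulAut.conj : ↥H →* MulAut ↥H).range ⊔ M = ⊤ := by
    apply hM.2
    refine lt_of_le_of_ne le_sup_right ?_
    intro h
    apply hcon
    rw [h]
    exact le_sup_left
  have hφ : ∀ h : H, (MulAut.conjNormal (h : G) : MulAut H) = MulAut.conj h := by
    intro h
    ext x
    simp [MulAut.conjNormal_apply]
  have htop : M.comap (MulAut.conjNormal : G →* MulAut H) ⊔ frattini G = ⊤ := by
    rw [eq_top_iff]
    intro g _
    have hg : (MulAut.conjNormal g : MulAut H) ∈ (MulAut.conj : ↥H →* MulAut ↥H).range ⊔ M := by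
      rw [hsup]; trivial
    have hn : (MulAut.conj : ↥H →* MulAut ↥H).range.Normal := by
      refine ⟨?_⟩
      rintro _ ⟨h, rfl⟩ α
      refine ⟨α h, ?_⟩
      ext x
      simp
    rw [Subgroup.mem_sup_of_normal_left] at hg
    obtain ⟨a, ⟨h, rfl⟩, m, hm, hmul⟩ := hg
    have h1 : (MulAut.conjNormal ((h : G)⁻¹ * g) : MulAut H) = m := by
      rw [map_mul, map_inv, hφ, ← hmul]
      group
    have h2 : (h : G)⁻¹ * g ∈ M.comap (MulAut.conjNormal : G →* MulAut H) := by
      rw [Subgroup.mem_comap, h1]; exact hm
    have h3 : g = (h : G) * ((h : G)⁻¹ * g) := by group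
    rw [h3]
    exact mul_mem (Subgroup.mem_sup_right (hH h.2)) (Subgroup.mem_sup_left h2)
  have h4 := frattini_nongenerating htop
  apply hcon
  rintro _ ⟨h, rfl⟩
  have : (h : G) ∈ M.comap (MulAut.conjNormal : G →* MulAut H) := by rw [h4]; trivial
  rw [Subgroup.mem_comap, hφ] at this
  exact this

end Cfsg.Agent.S0576
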