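import Mathlib
import Cfsg.Statements.S0577
import Cfsg.Agent.Lib_helper1_Wielandt

set_option autoImplicit false
open Cfsg

namespace Cfsg.Agent.S0577

open Cfsg.Agent.H1 Subgroup
open scoped Pointwise commutatorElement

/-- Let G be a finite minimal non-nilpotent group and Q a normal Sylow q-subgroup of G, and let D be the commutator subgroup of Q regarded in G (a normal subgroup). Then G modulo D is non-abelian and all its proper subgroups are abelian. -/
theorem result {G : Type*} [Group G] [Finite G] (hG : Cfsg.IsMinimalNonNilpotent G) (q : ℕ) [Fact q.Prime] (hq : q ∣ Nat.card G) (Q : Sylow q G) (hQ : (Q : Subgroup G).Normal) (D : Subgroup G) [D.Normal] (hD : D = (commutator ↥(Q : Subgroup G)).map (Q : Subgroup G).subtype) : ¬ IsMulCommutative (G ⧸ D) ∧ ∀ K : Subgroup (G ⧸ D), K ≠ ⊤ → IsMulCommutative K := by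
  obtain ⟨p, q0, hp, hq0, hpq, P, Q0, hPc, hQ0n, htop0, hPn⟩ := schmidt_structure hG
  have : Fact p.Prime := ⟨hp⟩
  have : Fact q0.Prime := ⟨hq0⟩
  have hqq : Nat.Prime q := Fact.out
  have hcop0 : (Nat.card (P : Subgroup G)).Coprime (Nat.card (Q0 : Subgroup G)) :=
    IsPGroup.coprime_card_of_ne p q0 hpq _ _ P.2 Q0.2
  have hcardG : Nat.card G = Nat.card (P : Subgroup G) * Nat.card (Q0 : Subgroup G) := by
    have h1 := card_sup_mul_card_inf (P : Subgroup G) (Q0 : Subgroup G)
    rw [htop0, (disjoint_of_coprime_natCard hcop0).eq_bot, card_bot, mul_one, card_top] at h1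
    exact h1
  have hqp : q ≠ p := by
    rintro rfl
    apply hPn
    obtain ⟨g, hg⟩ := MulAction.exists_smul_eq G Q P
    rw [Sylow.smul_eq_of_normal] at hg
    rw [← hg]; exact hQ
  have hqq0 : q = q0 := by
    obtain ⟨a, ha⟩ := P.2.exists_card_eq
    obtain ⟨b, hb⟩ := Q0.2.exists_card_eq
    rw [hcardG, ha, hb] at hq
    rcases (Nat.Prime.dvd_mul hqq).mp hq with h1 | h1
    · exact absurd ((Nat.prime_dvd_prime_iff_eq hqq hp).mp (hqq.dvd_of_dvd_pow h1)) hqp
    · exact (Nat.prime_dvd_prime_iff_eq hqq hq0).mp (hqq.dvd_of_dvd_pow h1)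
  subst hqq0
  have hQQ0 : Q0 = Q := by
    obtain ⟨g, hg⟩ := MulAction.exists_smul_eq G Q Q0
    rw [Sylow.smul_eq_of_normal] at hg
    exact hg.symm
  subst hQQ0
  have hdisj : (P : Subgroup G) ⊓ Q0 = ⊥ := (disjoint_of_coprime_natCard hcop0).eq_bot
  have hDQ : D ≤ Q0 := by rw [hD]; exact map_subtype_le _
  have hmemD : ∀ u ∈ (Q0 : Subgroup G), ∀ v ∈ (Q0 : Subgroup G), u * v * u⁻¹ * v⁻¹ ∈ D := by
    intro u hu v hv
    rw [hD]
    refine ⟨⁅(⟨u, hu⟩ : (Q0 : Subgroup G)), ⟨v, hv⟩⁆, ?_, ?_⟩
    · exact commutator_mem_commutator (mem_top _) (mem_top _)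
    · simp [commutatorElement_def]
  have heq : ∀ X : Subgroup G, X.Normal → X ≤ Q0 → (P : Subgroup G) ⊔ X = ⊤ → X = Q0 := by
    intro X hXn hXQ hX
    apply le_antisymm hXQ
    intro y hy
    have hy' : y ∈ (P : Subgroup G) ⊔ X := hX ▸ mem_top y
    obtain ⟨a, ha, x, hx, rfl⟩ := mem_sup_of_normal_right.mp hy'
    have haQ : a ∈ (Q0 : Subgroup G) := by
      have := mul_mem hy (inv_mem (hXQ hx))
      simpa using this
    have ha1 : a ∈ (P : Subgroup G) ⊓ Q0 := Subgroup.mem_inf.mpr ⟨ha, haQ⟩
    rw [hdisj, mem_bot] at ha1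
    rw [ha1, one_mul]; exact hx
  have hQne : (Q0 : Subgroup G) ≠ ⊥ := by
    intro h2
    apply hPn
    rw [h2, sup_bot_eq] at htop0
    rw [htop0]; infer_instance
  have hDne : D ≠ Q0 := by
    intro he
    have hnt : Nontrivial (Q0 : Subgroup G) := (nontrivial_iff_ne_bot _).mpr hQne
    have hsol : Group.IsSolvable (Q0 : Subgroup G) := isSolvable_of_isPGroup Q0.2
    have h1 := Group.IsSolvable.commutator_lt_top_of_nontrivial (Q0 : Subgroup G)
    apply h1.ne
    have h2 : (commutator (Q0 : Subgroup G)).map (Q0 : Subgroup G).subtype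
        = (⊤ : Subgroup (Q0 : Subgroup G)).map (Q0 : Subgroup G).subtype := by
      rw [← hD, he, ← MonoidHom.range_eq_map, range_subtype]
    exact map_injective (Q0 : Subgroup G).subtype_injective h2
  constructor
  · intro hcomm
    have hcD : commutator G ≤ D := by
      rw [commutator_def, commutator_le]
      intro a _ b _
      rw [← QuotientGroup.eq_one_iff, commutatorElement_def]
      have := mul_comm' (a : G ⧸ D) (b : G ⧸ D)
      rw [QuotientGroup.mk_mul, QuotientGroup.mk_mul, QuotientGroup.mk_mul, QuotientGroup.mk_inv,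
        QuotientGroup.mk_inv, this]
      group
    have hSn : ((P : Subgroup G) ⊔ D).Normal :=
      Subgroup.Normal.of_commutator_le G (hcD.trans le_sup_right)
    have hSne : (P : Subgroup G) ⊔ D ≠ ⊤ := fun ht => hDne (heq D inferInstance hDQ ht)
    have hSnil := hG.2 _ hSne
    have hPS : (P : Subgroup G) ≤ (P : Subgroup G) ⊔ D := le_sup_left
    have h1 : ((P.subtype hPS : Sylow p _) : Subgroup ((P : Subgroup G) ⊔ D : Subgroup G)).Normal :=
      (Group.isNilpotent_of_finite_tfae.out 0 3 rfl rfl).mp hSnil p inferInstance _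
    have h2 := normal_of_normal_hall_of_normal ((P : Subgroup G) ⊔ D)
      ((P.subtype hPS : Sylow p _) : Subgroup ((P : Subgroup G) ⊔ D : Subgroup G)) (by
      obtain ⟨b, hb⟩ := (P.subtype hPS).2.exists_card_eq
      rw [hb]
      exact Nat.Coprime.pow_left _
        ((Nat.Prime.coprime_iff_not_dvd hp).mpr (P.subtype hPS).not_dvd_index))
    rw [Sylow.coe_subtype, subgroupOf_map_subtype, inf_of_le_left hPS] at h2
    exact hPn h2
  · intro K hK
    have hs := QuotientGroup.mk'_surjective D
    have hLne : K.comap (QuotientGroup.mk' D) ≠ ⊤ := by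
      intro ht
      apply hK
      rw [← map_comap_eq_self_of_surjective hs K, ht, map_top_of_surjective _ hs]
    have hLnil := hG.2 _ hLne
    obtain ⟨L, hL⟩ : ∃ L : Subgroup G, L = K.comap (QuotientGroup.mk' D) := ⟨_, rfl⟩
    rw [← hL] at hLnil hLne
    obtain ⟨Xs⟩ : Nonempty (Sylow p L) := inferInstance
    have hXL : (Xs : Subgroup L).map L.subtype ≤ L := map_subtype_le _
    have hXp : IsPGroup p ((Xs : Subgroup L).map L.subtype) := Xs.2.map _
    have hidxQ : (Q0 : Subgroup G).index = Nat.card (P : Subgroup G) := by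
      have h1 := (Q0 : Subgroup G).index_mul_card
      rw [hcardG] at h1
      exact Nat.eq_of_mul_eq_mul_right Nat.card_pos h1
    have htopL : (Xs : Subgroup L) ⊔ (Q0 : Subgroup G).subgroupOf L = ⊤ := by
      rw [← index_eq_one]
      have h3 : ((Xs : Subgroup L) ⊔ (Q0 : Subgroup G).subgroupOf L).index ∣ (Xs : Subgroup L).index :=
        index_dvd_of_le le_sup_left
      have h4 : ((Xs : Subgroup L) ⊔ (Q0 : Subgroup G).subgroupOf L).index
          ∣ Nat.card (P : Subgroup G) := by
        rw [← hidxQ]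
        exact (index_dvd_of_le le_sup_right).trans (relIndex_dvd_index_of_normal _ _)
      obtain ⟨a, ha⟩ := P.2.exists_card_eq
      rw [ha] at h4
      have h5 : ((Xs : Subgroup L).index).Coprime (p ^ a) :=
        Nat.Coprime.pow_right _ ((Nat.Prime.coprime_iff_not_dvd hp).mpr Xs.not_dvd_index).symm
      exact Nat.eq_one_of_dvd_coprimes h5 h3 h4
    have hLeq : L = (Xs : Subgroup L).map L.subtype ⊔ (L ⊓ Q0) := by
      have h1 := congrArg (Subgroup.map L.subtype) htopL
      rw [Subgroup.map_sup, subgroupOf_map_subtype, ← MonoidHom.range_eq_map, range_subtype,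
        inf_comm] at h1
      exact h1.symm
    obtain ⟨n, -, hn⟩ := pgroup_conj_into_sylow_of_le P ⊤ _ le_top le_top hXp
    have hPcomm : ∀ u ∈ (P : Subgroup G), ∀ v ∈ (P : Subgroup G), u * v = v * u := by
      intro u hu v hv
      have := IsCyclic.commGroup.mul_comm (⟨u, hu⟩ : (P : Subgroup G)) ⟨v, hv⟩
      exact congrArg Subtype.val this
    have hXcomm : ∀ u ∈ (Xs : Subgroup L).map L.subtype, ∀ v ∈ (Xs : Subgroup L).map L.subtype,
        u * v = v * u := by
      intro u hu v hv
      have hu' : n * u * n⁻¹ ∈ (P : Subgroup G) := hn (by rw [mem_conj_smul]; simpa [mul_assoc] using hu)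
      have hv' : n * v * n⁻¹ ∈ (P : Subgroup G) := hn (by rw [mem_conj_smul]; simpa [mul_assoc] using hv)
      have h1 := hPcomm _ hu' _ hv'
      have h2 := congrArg (fun z => n⁻¹ * z * n) h1
      simpa [mul_assoc] using h2
    have hXY : ⁅L ⊓ (Q0 : Subgroup G), (Xs : Subgroup L).map L.subtype⁆ = ⊥ := by
      apply commutator_eq_bot_of_nilpotent_coprime hLnil inf_le_left hXL
        (hXL.trans (le_normalizer_inf_normal L _))
      · exact IsPGroup.coprime_card_of_ne p q hpq _ _ hXp (Q0.2.to_le inf_le_right)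
      · exact Or.inl (isSolvable_of_isPGroup hXp)
    have hXY' := commutator_eq_bot_iff_le_centralizer.mp hXY
    have hKeq : K = closure ((QuotientGroup.mk' D) ''
        ((((Xs : Subgroup L).map L.subtype : Subgroup G) : Set G) ∪ ((L ⊓ Q0 : Subgroup G) : Set G))) := by
      rw [← MonoidHom.map_closure, Subgroup.closure_union, Subgroup.closure_eq, Subgroup.closure_eq, ← hLeq, hL,
        map_comap_eq_self_of_surjective hs]
    rw [hKeq]
    apply Subgroup.isMulCommutative_closure
    rintro _ ⟨u, hu, rfl⟩ _ ⟨v, hv, rfl⟩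
    rw [← map_mul, ← map_mul]
    rcases hu with hu | hu <;> rcases hv with hv | hv
    · rw [hXcomm u hu v hv]
    · rw [mem_centralizer_iff.mp (hXY' hv) u hu]
    · rw [mem_centralizer_iff.mp (hXY' hu) v hv]
    · have h1 := hmemD u hu.2 v hv.2
      have h2 : QuotientGroup.mk' D (u * v * u⁻¹ * v⁻¹) = 1 := (QuotientGroup.eq_one_iff _).mpr h1
      have h3 : u * v = (u * v * u⁻¹ * v⁻¹) * (v * u) := by group
      rw [h3, map_mul, h2, one_mul]

end Cfsg.Agent.S0577
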