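import Cfsg.Statements.S0578
import Cfsg.Agent.Lib_helper7_Sylow
import Cfsg.Agent.Lib_helper1_Frattini

set_option autoImplicit false
open Cfsg

namespace Cfsg.Agent.S0578

open Subgroup

universe u

theorem comm_of_sup {G : Type*} [Group G] (K P : Subgroup G) (hsup : K ⊔ P = ⊤)
    (hK : ∀ k ∈ K, ∀ g : G, g * k = k * g) (hP : IsMulCommutative P) : IsMulCommutative G := by
  have hcen : center G = ⊤ := by
    rw [eq_top_iff, ← hsup]
    refine sup_le (fun k hk => mem_center_iff.mpr (hK k hk)) ?_
    intro e he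
    rw [mem_center_iff]
    have htop : centralizer ({e} : Set G) = ⊤ := by
      rw [eq_top_iff, ← hsup]
      refine sup_le (fun k hk => mem_centralizer_singleton_iff.mpr (hK k hk e).symm) ?_
      intro t ht
      rw [mem_centralizer_singleton_iff]
      exact congrArg Subtype.val (hP.is_comm.comm ⟨t, ht⟩ ⟨e, he⟩)
    intro g
    exact mem_centralizer_singleton_iff.mp (htop ▸ mem_top g)
  exact ⟨⟨fun a b => by
    have : b ∈ center G := hcen ▸ mem_top b
    exact mem_center_iff.mp this a⟩⟩

theorem inherit {G : Type*} [Group G]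
    (h : ∀ A : Subgroup G, IsMulCommutative A → normalizer (A : Set G) ≤ centralizer (A : Set G))
    (K : Subgroup G) : ∀ A : Subgroup K, IsMulCommutative A →
      normalizer (A : Set K) ≤ centralizer (A : Set K) := by
  intro A hA k hk
  have hA' : IsMulCommutative (A.map K.subtype) := by
    refine ⟨⟨?_⟩⟩
    rintro ⟨_, a, ha, rfl⟩ ⟨_, b, hb, rfl⟩
    apply Subtype.ext
    exact congrArg (fun t : A => ((t : K) : G)) (hA.is_comm.comm ⟨a, ha⟩ ⟨b, hb⟩)
  have h1 : (k : G) ∈ normalizer ((A.map K.subtype : Subgroup G) : Set G) := by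
    rw [mem_normalizer_iff]
    intro x
    constructor
    · rintro ⟨a, ha, rfl⟩
      exact ⟨k * a * k⁻¹, (mem_normalizer_iff.mp hk a).mp ha, rfl⟩
    · rintro ⟨b, hb, hbx⟩
      have hxK : x ∈ K := by
        have : x = (k : G)⁻¹ * ((k : G) * x * (k : G)⁻¹) * (k : G) := by group
        rw [this, ← hbx]
        exact K.mul_mem (K.mul_mem (K.inv_mem k.2) b.2) k.2
      refine ⟨⟨x, hxK⟩, ?_, rfl⟩
      rw [SetLike.mem_coe, mem_normalizer_iff.mp hk ⟨x, hxK⟩]
      have : k * ⟨x, hxK⟩ * k⁻¹ = b := Subtype.ext hbx.symm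
      rw [this]; exact hb
  have h2 := h _ hA' h1
  rw [mem_centralizer_iff] at h2 ⊢
  intro a ha
  exact Subtype.ext (h2 (a : G) ⟨a, ha, rfl⟩)

theorem aux (n : ℕ) : ∀ (G : Type u) [Group G] [Finite G], Nat.card G = n →
    (∀ A : Subgroup G, IsMulCommutative A → normalizer (A : Set G) ≤ centralizer (A : Set G)) →
    IsMulCommutative G := by
  induction n using Nat.strong_induction_on with
  | _ n ih =>
  intro G _ _ hn h
  have hsub : ∀ K : Subgroup G, K ≠ ⊤ → IsMulCommutative K := by
    intro K hK
    refine ih (Nat.card K) ?_ K rfl (inherit h K)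
    rw [← hn]
    exact Cfsg.Agent.H7.card_lt_of_lt (lt_top_iff_ne_top.mpr hK) |>.trans_eq card_top
  have hcentral : ∀ K : Subgroup G, K.Normal → K ≠ ⊤ → ∀ k ∈ K, ∀ g : G, g * k = k * g := by
    intro K hKn hK k hk g
    have h1 := h K (hsub K hK)
    rw [normalizer_eq_top] at h1
    exact (mem_centralizer_iff.mp (h1 (mem_top g)) k hk).symm
  by_cases h1 : Nat.card G = 1
  · haveI : Subsingleton G := (Nat.card_eq_one_iff_unique.mp h1).1
    exact ⟨⟨fun a b => Subsingleton.elim _ _⟩⟩
  haveI : Fact (Nat.card G).minFac.Prime := ⟨Nat.minFac_prime h1⟩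
  set p := (Nat.card G).minFac with hp
  let P : Sylow p G := default
  by_cases hP : (P : Subgroup G) = ⊤
  · haveI : Group.IsNilpotent G := by
      have h2 : IsPGroup p G := by
        have := P.isPGroup'
        rw [hP] at this
        exact this.of_equiv topEquiv
      exact h2.isNilpotent
    haveI : Nontrivial G := by
      by_contra hnt
      rw [not_nontrivial_iff_subsingleton] at hnt
      exact h1 (Nat.card_of_subsingleton 1)
    obtain ⟨M, hM⟩ := (eq_top_or_exists_le_coatom (⊥ : Subgroup G)).resolve_left bot_ne_top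
    have hMn := Cfsg.Agent.H1.coatom_normal_of_nilpotent hM.1
    obtain ⟨x, hx⟩ : ∃ x, x ∉ M := by
      by_contra hcon
      push Not at hcon
      exact hM.1.1 (eq_top_iff.mpr fun y _ => hcon y)
    refine comm_of_sup M (zpowers x) ?_ (hcentral M hMn hM.1.1) ?_
    · apply hM.1.2
      refine lt_of_le_of_ne le_sup_left ?_
      intro heq
      apply hx
      rw [heq]
      exact mem_sup_right (mem_zpowers x)
    · refine ⟨⟨?_⟩⟩
      rintro ⟨_, i, rfl⟩ ⟨_, j, rfl⟩
      apply Subtype.ext
      exact ((Commute.refl x).zpow_zpow i j)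
  · have hPc := hsub P hP
    have hNC := h P hPc
    have hcompl := MonoidHom.ker_transferSylow_isComplement' P hNC
    refine comm_of_sup _ (P : Subgroup G) hcompl.sup_eq_top
      (hcentral _ (MonoidHom.normal_ker _) ?_) hPc
    intro hK
    have h3 := hcompl.disjoint.eq_bot
    rw [hK, top_inf_eq] at h3
    have h4 := P.not_dvd_index
    rw [h3, index_bot] at h4
    exact h4 (Nat.minFac_dvd _)

/-- If in a finite group the normalizer of each abelian subgroup coincides with its centralizer, then the group is abelian. -/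
theorem result {G : Type*} [Group G] [Finite G] (h : ∀ A : Subgroup G, IsMulCommutative A → Subgroup.normalizer (A : Set G) = Subgroup.centralizer (A : Set G)) : IsMulCommutative G := by
  exact aux _ G rfl (fun A hA => (h A hA).le)

end Cfsg.Agent.S0578
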