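import Mathlib
import Cfsg.Statements.S0580
import Cfsg.Agent.Lib_helper1_Misc

set_option autoImplicit false
open Cfsg

namespace Cfsg.Agent.S0580

open Cfsg.Agent.H1 Subgroup

theorem aux.{u} : ∀ (n : ℕ) (G : Type u) [Group G] [Finite G], Nat.card G = n →
    (∀ M : Subgroup G, IsCoatom M → M.index.Prime) → Group.IsSolvable G := by
  intro n
  induction n using Nat.strong_induction_on with
  | _ n ih =>
    intro G _ _ hn h
    rcases subsingleton_or_nontrivial G with hs | hnt
    · exact Group.isSolvable_of_comm (fun a b => Subsingleton.elim _ _)
    have h1 : 1 < Nat.card G := Finite.one_lt_card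
    obtain ⟨p, hp, hpd, hmax⟩ := exists_largest_prime_dvd h1
    haveI : Fact p.Prime := ⟨hp⟩
    obtain ⟨P⟩ : Nonempty (Sylow p G) := inferInstance
    haveI hPn := sylow_normal_of_largest_of_coatom_index_prime h hmax P
    have hPne : (P : Subgroup G) ≠ ⊥ := by
      intro hb
      have := P.card_eq_multiplicity
      rw [hb, card_bot] at this
      have h2 : (Nat.card G).factorization p ≠ 0 := by
        have := (Nat.Prime.dvd_iff_one_le_factorization hp (by omega)).mp hpd
        omega
      exact absurd this.symm (by
        intro h3
        exact h2 ((Nat.pow_eq_one.mp h3).resolve_left (by have := hp.two_le; omega)))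
    have hq : Group.IsSolvable (G ⧸ (P : Subgroup G)) := by
      refine ih _ (hn ▸ card_quotient_lt hPne) _ rfl ?_
      intro L hL
      have := h _ (isCoatom_comap_mk _ hL)
      rwa [index_comap_of_surjective _ (QuotientGroup.mk'_surjective _)] at this
    have hs : Group.IsSolvable (P : Subgroup G) := isSolvable_of_isPGroup P.2
    exact (Group.isSolvable_iff_subgroup_quotient (P : Subgroup G)).mpr ⟨hs, hq⟩

/-- If every maximal subgroup of a finite group has prime index, then the group is solvable. -/
theorem result {G : Type*} [Group G] [Finite G] (h : ∀ M : Subgroup G, IsCoatom M → M.index.Prime) : Group.IsSolvable G := by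
  exact aux _ G rfl h

end Cfsg.Agent.S0580
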