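import Mathlib
import Cfsg.Statements.S0581
import Cfsg.Agent.Lib_helper1_Wielandt

set_option autoImplicit false
open Pointwise
open Cfsg

namespace Cfsg.Agent.S0581

open Cfsg.Agent.H1 Subgroup
open scoped Pointwise

theorem aux {G : Type*} [Group G] [Finite G] (H : Subgroup G) (hH : Group.IsNilpotent H)
    (hHall : (Nat.card H).Coprime H.index) : ∀ (n : ℕ) (K : Subgroup G), Nat.card K = n →
    (∀ p : ℕ, p.Prime → p ∣ Nat.card K → p ∣ Nat.card H) → ∃ x : G, K ≤ MulAut.conj x • H := by
  intro n
  induction n using Nat.strong_induction_on with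
  | _ n ih =>
    intro K hn hK
    by_cases hb : K = ⊥
    · exact ⟨1, hb ▸ bot_le⟩
    have hprop : ∀ M : Subgroup K, M ≠ ⊤ → ∃ x : G, M.map K.subtype ≤ MulAut.conj x • H := by
      intro M hM
      have h1 : Nat.card (M.map K.subtype) = Nat.card M := card_map_of_injective K.subtype_injective
      refine ih _ ?_ _ rfl ?_
      · rw [h1, ← hn]; exact card_lt_of_ne_top hM
      · intro p hp hd
        rw [h1] at hd
        exact hK p hp (hd.trans (card_subgroup_dvd_card M))
    have hsol : Group.IsSolvable K := by
      apply Cfsg.Agent.S0046.result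
      intro M hM
      obtain ⟨x, hx⟩ := hprop M hM.1
      exact isNilpotent_of_map_subtype_le M hx (isNilpotent_conj_smul x hH)
    have hnt : Nontrivial K := (nontrivial_iff_ne_bot K).mpr hb
    obtain ⟨M, hMn, hMp, hMc⟩ := exists_normal_prime_index K
    obtain ⟨x0, hx0⟩ := hprop M hMc.1
    obtain ⟨x, hx⟩ := wielandt_step (MulAut.conj x0 • H) (isNilpotent_conj_smul x0 hH)
      (by rw [card_conj_smul, index_conj_smul]; exact hHall) K hsol M _ hMp rfl hx0
      (by rw [card_conj_smul]; exact hK _ hMp (index_dvd_card M))
    refine ⟨x * x0, ?_⟩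
    rwa [map_mul, mul_smul]

/-- Let H be a nilpotent subgroup of a finite group G whose order is coprime to its index, and K a subgroup every prime divisor of whose order divides the order of H. Then K lies in some conjugate of H. -/
theorem result {G : Type*} [Group G] [Finite G] (H K : Subgroup G) (hH : Group.IsNilpotent H) (hHall : (Nat.card H).Coprime H.index) (hK : ∀ p : ℕ, p.Prime → p ∣ Nat.card K → p ∣ Nat.card H) : ∃ x : G, K ≤ MulAut.conj x • H := by
  exact aux H hH hHall _ K rfl hK

end Cfsg.Agent.S0581
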