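import Mathlib
import Cfsg.Statements.S0582
import Cfsg.Agent.Lib_helper1_SS4
import Cfsg.Agent.Lib_helper1_Wielandt

set_option autoImplicit false
open Pointwise
open Cfsg

namespace Cfsg.Agent.S0582

open Cfsg.Agent.H1 Subgroup
open scoped Pointwise

/-- the normal Sylow subgroup for the largest prime of a supersolvable Hall subgroup -/
theorem exists_sylow {G : Type*} [Group G] [Finite G] (H : Subgroup G)
    (hH : Cfsg.IsSupersolvable H) (hHall : (Nat.card H).Coprime H.index) (p : ℕ) [Fact p.Prime]
    (hp : p ∣ Nat.card H) (hmax : ∀ q : ℕ, q.Prime → q ∣ Nat.card H → q ≤ p) :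
    ∃ P : Sylow p G, (P : Subgroup G) ≤ H ∧ H ≤ normalizer ((P : Subgroup G) : Set G) := by
  obtain ⟨P0⟩ : Nonempty (Sylow p H) := inferInstance
  have hn := ss_sylow_normal_of_largest hH hmax P0
  obtain ⟨P, hP⟩ := exists_sylow_eq_map_of_hall H hHall p hp P0
  refine ⟨P, hP ▸ map_subtype_le _, ?_⟩
  have h2 := map_normalizer_subtype_le H (P0 : Subgroup H)
  rw [normalizer_eq_top_iff.mpr hn, ← MonoidHom.range_eq_map, H.range_subtype, ← hP] at h2
  exact h2

theorem aux.{u} : ∀ (n : ℕ) (G : Type u) [Group G] [Finite G] (H K : Subgroup G),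
    Nat.card H = n → Cfsg.IsSupersolvable H → Cfsg.IsSupersolvable K → Nat.card H = Nat.card K →
    (Nat.card H).Coprime H.index → ∃ x : G, MulAut.conj x • H = K := by
  intro n
  induction n using Nat.strong_induction_on with
  | _ n ih =>
    intro G _ _ H K hn hH hK hcard hHall
    by_cases h1 : Nat.card H = 1
    · refine ⟨1, ?_⟩
      have h2 : H = ⊥ := card_eq_one.mp h1
      have h3 : K = ⊥ := card_eq_one.mp (hcard ▸ h1)
      rw [h2, h3]; simp
    have hgt : 1 < Nat.card H := by
      have : 0 < Nat.card H := Nat.card_pos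
      omega
    obtain ⟨p, hp, hpd, hmax⟩ := exists_largest_prime_dvd hgt
    have : Fact p.Prime := ⟨hp⟩
    have hidx : H.index = K.index := by
      have h2 := H.index_mul_card
      have h3 := K.index_mul_card
      rw [← hcard] at h3
      exact Nat.eq_of_mul_eq_mul_right Nat.card_pos (h2.trans h3.symm)
    obtain ⟨P, hPH, hHP⟩ := exists_sylow H hH hHall p hpd hmax
    obtain ⟨Q, hQK, hKQ⟩ := exists_sylow K hK (hcard ▸ hidx ▸ hHall) p (hcard ▸ hpd) (hcard ▸ hmax)
    obtain ⟨g, hg⟩ := MulAction.exists_smul_eq G Q P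
    have hg' : MulAut.conj g • (Q : Subgroup G) = P := by
      rw [← hg, Sylow.coe_subgroup_smul]
    have hPK1 : (P : Subgroup G) ≤ MulAut.conj g • K := by
      rw [← hg']
      exact Subgroup.pointwise_smul_le_pointwise_smul_iff.mpr hQK
    have hK1P : MulAut.conj g • K ≤ normalizer ((P : Subgroup G) : Set G) := by
      rw [conj_smul_le_normalizer_iff, ← hg', smul_smul, ← map_mul]
      simpa using hKQ
    have hK1 : Cfsg.IsSupersolvable (MulAut.conj g • K : Subgroup G) :=
      ss_of_mulEquiv (Subgroup.equivSMul (MulAut.conj g) K) hK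
    obtain ⟨L, hL⟩ : ∃ L : Subgroup G, L = normalizer ((P : Subgroup G) : Set G) := ⟨_, rfl⟩
    rw [← hL] at hHP hK1P
    have hPL : (P : Subgroup G) ≤ L := hPH.trans hHP
    have hDn : ((P : Subgroup G).subgroupOf L).Normal :=
      (normal_subgroupOf_iff_le_normalizer hPL).mpr hL.le
    have hDH : (P : Subgroup G).subgroupOf L ≤ H.subgroupOf L := subgroupOf_mono L hPH
    have hDK : (P : Subgroup G).subgroupOf L ≤ (MulAut.conj g • K).subgroupOf L :=
      subgroupOf_mono L hPK1
    have hc1 := card_map_mk_of_le hDH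
    have hc2 := card_map_mk_of_le hDK
    rw [card_subgroupOf_of_le hHP, card_subgroupOf_of_le hPL] at hc1
    rw [card_subgroupOf_of_le hK1P, card_subgroupOf_of_le hPL, card_conj_smul] at hc2
    have hPne : (P : Subgroup G) ≠ ⊥ := P.ne_bot_of_dvd_card (hpd.trans (card_subgroup_dvd_card H))
    have hPgt : 1 < Nat.card (P : Subgroup G) := by
      have h2 : Nat.card (P : Subgroup G) ≠ 1 := fun h => hPne (card_eq_one.mp h)
      have : 0 < Nat.card (P : Subgroup G) := Nat.card_pos
      omega
    have hlt : Nat.card ((H.subgroupOf L).map (QuotientGroup.mk' ((P : Subgroup G).subgroupOf L))) < n := by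
      rw [← hn, ← hc1]
      have : 0 < Nat.card ((H.subgroupOf L).map (QuotientGroup.mk' ((P : Subgroup G).subgroupOf L))) :=
        Nat.card_pos
      nlinarith
    obtain ⟨xb, hxb⟩ := ih _ hlt (L ⧸ (P : Subgroup G).subgroupOf L)
      ((H.subgroupOf L).map (QuotientGroup.mk' _))
      (((MulAut.conj g • K).subgroupOf L).map (QuotientGroup.mk' _)) rfl
      (ss_map_mk_subgroupOf hHP _ hH) (ss_map_mk_subgroupOf hK1P _ hK1)
      (Nat.eq_of_mul_eq_mul_right (Nat.card_pos (α := (P : Subgroup G)))
        (hc1.trans (hcard.trans hc2.symm)))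
      (by
        rw [index_map_mk_of_le hDH]
        exact Nat.Coprime.coprime_dvd_left (Dvd.intro _ hc1)
          (Nat.Coprime.coprime_dvd_right (relIndex_dvd_index_of_le hHP) hHall))
    obtain ⟨l, hl⟩ := conj_lift_quotient _ _ _ ⟨xb, hxb⟩
    rw [sup_eq_left.mpr hDK] at hl
    have hDl : (P : Subgroup G).subgroupOf L ≤ MulAut.conj l • H.subgroupOf L := by
      rw [← Normal.conj_smul_eq_self l ((P : Subgroup G).subgroupOf L)]
      exact Subgroup.pointwise_smul_le_pointwise_smul_iff.mpr hDH
    rw [sup_eq_left.mpr hDl] at hl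
    obtain ⟨y, -, hy⟩ := conj_lift_subgroup L hHP hK1P ⟨l, hl⟩
    refine ⟨g⁻¹ * y, ?_⟩
    rw [map_mul, mul_smul, hy, smul_smul, ← map_mul]
    simp

/-- Let H and K be supersolvable subgroups of a finite group G of the same order, that order being coprime to their index. Then H and K are conjugate in G. -/
theorem result {G : Type*} [Group G] [Finite G] (H K : Subgroup G) (hH : Cfsg.IsSupersolvable H) (hK : Cfsg.IsSupersolvable K) (hcard : Nat.card H = Nat.card K) (hHall : (Nat.card H).Coprime H.index) : ∃ x : G, MulAut.conj x • H = K := by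
  exact aux _ G H K rfl hH hK hcard hHall

end Cfsg.Agent.S0582
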