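import Cfsg.Statements.S0583
import Mathlib
import Cfsg.Agent.Lib_helper1_Cores

set_option autoImplicit false
open Cfsg

namespace Cfsg.Agent.S0583

/-- In a finite group the Fitting subgroup is contained in the centralizer of each minimal normal subgroup. -/
theorem result {G : Type*} [Group G] [Finite G] (M : Subgroup G) [M.Normal] (hM : M ≠ ⊥) (hmin : ∀ K : Subgroup G, K.Normal → K ≤ M → K = ⊥ ∨ K = M) : Cfsg.fittingSubgroup G ≤ Subgroup.centralizer (M : Set G) := by
  have hFn : (Cfsg.fittingSubgroup G).Normal := H1.fitting_normal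
  have hnil : Group.IsNilpotent (Cfsg.fittingSubgroup G) := H1.fitting_nilpotent
  obtain ⟨n, hn⟩ := (Subgroup.isNilpotent_iff_lowerCentralSeries _).mp hnil
  have hKn : (⁅M, Cfsg.fittingSubgroup G⁆).Normal := inferInstance
  rcases hmin _ hKn (Subgroup.commutator_le_left _ _) with h | h
  · rw [Subgroup.commutator_comm] at h
    exact Subgroup.commutator_eq_bot_iff_le_centralizer.mp h
  · exfalso
    have : ∀ k, M ≤ (Cfsg.fittingSubgroup G).lowerCentralSeries k := by
      intro k
      induction k with
      | zero => rw [← h]; exact Subgroup.commutator_le_right _ _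
      | succ k ih =>
        rw [Subgroup.lowerCentralSeries_succ]
        calc M = ⁅M, Cfsg.fittingSubgroup G⁆ := h.symm
          _ ≤ _ := Subgroup.commutator_mono ih le_rfl
    apply hM
    rw [eq_bot_iff, ← hn]
    exact this n

end Cfsg.Agent.S0583
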