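import Mathlib
import Cfsg.Statements.S0584

set_option autoImplicit false
open Cfsg

namespace Cfsg.Agent.S0584


/-- Let B ≤ A be normal subgroups of a finite group G with B contained in the Frattini subgroup of G. If A modulo B is nilpotent then A is nilpotent. -/
theorem result {G : Type*} [Group G] [Finite G] (A B : Subgroup G) [A.Normal] [B.Normal] (hBA : B ≤ A) (hB : B ≤ frattini G) (h : Group.IsNilpotent (↥A ⧸ B.subgroupOf A)) : Group.IsNilpotent A := by
  apply (Group.isNilpotent_of_finite_tfae.out 0 3 rfl rfl).mpr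
  intro p hp P
  haveI := hp
  set B' := B.subgroupOf A with hB'
  set f := QuotientGroup.mk' B' with hf
  have hfs : Function.Surjective f := QuotientGroup.mk'_surjective B'
  haveI := h
  have hn1 : ((P.mapSurjective hfs : Sylow p (↥A ⧸ B')) : Subgroup (↥A ⧸ B')).Normal := inferInstance
  rw [Sylow.coe_mapSurjective] at hn1
  have hn2 : (((P : Subgroup A).map f).comap f).Normal := hn1.comap f
  rw [Subgroup.comap_map_eq, hf, QuotientGroup.ker_mk'] at hn2
  haveI := hn2
  have h1 := Sylow.normalizer_sup_eq_top' (N := (P : Subgroup A) ⊔ B') P le_sup_left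
  have h2 : Subgroup.normalizer ((P : Subgroup A) : Set A) ⊔ B' = ⊤ := by
    have h0 : Subgroup.normalizer ((P : Subgroup A) : Set A) ⊔ ((P : Subgroup A) ⊔ B') = ⊤ := h1
    rw [← h0, ← sup_assoc, sup_eq_left.2 (Subgroup.le_normalizer (H := (P : Subgroup A)))]
  have h3 := Sylow.normalizer_sup_eq_top P
  have h4 : A ≤ Subgroup.normalizer (((P : Subgroup A).map A.subtype : Subgroup G) : Set G) ⊔ B := by
    have h5 := congrArg (Subgroup.map A.subtype) h2
    rw [Subgroup.map_sup, ← MonoidHom.range_eq_map, Subgroup.range_subtype, hB',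
      Subgroup.subgroupOf_map_subtype] at h5
    exact h5.symm.le.trans (sup_le_sup (Subgroup.le_normalizer_map _) inf_le_left)
  have h6 : Subgroup.normalizer (((P : Subgroup A).map A.subtype : Subgroup G) : Set G) ⊔
      frattini G = ⊤ := by
    rw [eq_top_iff, ← h3]
    exact sup_le le_sup_left (h4.trans (sup_le_sup le_rfl hB))
  have h7 := frattini_nongenerating h6
  have h8 : ((P : Subgroup A).map A.subtype).Normal := Subgroup.normalizer_eq_top_iff.1 h7
  have h9 : (((P : Subgroup A).map A.subtype).comap A.subtype).Normal := h8.comap _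
  rwa [Subgroup.comap_map_eq_self_of_injective A.subtype_injective] at h9

end Cfsg.Agent.S0584
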