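import Cfsg.Statements.S0586
import Mathlib
import Cfsg.Agent.Lib_helper1_Frattini
import Cfsg.Agent.Lib_helper1_Max
import Cfsg.Agent.Lib_helper1_Cores
import Cfsg.Agent.S0575
import Cfsg.Agent.S0585

set_option autoImplicit false
open Cfsg

namespace Cfsg.Agent.S0586

/-- If the Frattini subgroup of a finite group G is trivial, then the Fitting subgroup of G equals the join of all abelian minimal normal subgroups of G. -/
theorem result {G : Type*} [Group G] [Finite G] (hΦ : frattini G = ⊥) : Cfsg.fittingSubgroup G = sSup {N : Subgroup G | N.Normal ∧ N ≠ ⊥ ∧ IsMulCommutative N ∧ ∀ K : Subgroup G, K.Normal → K ≤ N → K = ⊥ ∨ K = N} := by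
  classical
  open scoped commutatorElement in
  set F := Cfsg.fittingSubgroup G with hF
  have hFn : F.Normal := H1.fitting_normal
  have hnil : Group.IsNilpotent F := H1.fitting_nilpotent
  -- F is abelian
  have hcomF : commutator ↥F ≤ frattini ↥F := by
    rw [H1.le_frattini_iff]
    intro M hM
    have hMn : M.Normal := H1.coatom_normal_of_nilpotent hM
    exact H1.commutator_le_of_index_prime (H1.coatom_normal_index_prime hM)
  have hfr : frattini ↥F = ⊥ := by
    have h1 := S0575.result F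
    rw [hΦ, le_bot_iff] at h1
    exact (Subgroup.map_eq_bot_iff_of_injective _ F.subtype_injective).mp h1
  have hFab : ∀ a ∈ F, ∀ b ∈ F, a * b = b * a := by
    intro a ha b hb
    have h1 : ⁅(⟨a, ha⟩ : F), ⟨b, hb⟩⁆ ∈ commutator ↥F := Subgroup.commutator_mem_commutator (Subgroup.mem_top _) (Subgroup.mem_top _)
    have h2 := hcomF h1
    rw [hfr, Subgroup.mem_bot] at h2
    have h3 := commutatorElement_eq_one_iff_mul_comm.mp h2
    exact congrArg Subtype.val h3
  set 𝒮 := {N : Subgroup G | N.Normal ∧ N ≠ ⊥ ∧ IsMulCommutative N ∧ ∀ K : Subgroup G, K.Normal → K ≤ N → K = ⊥ ∨ K = N} with h𝒮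
  have hSle : sSup 𝒮 ≤ F := by
    apply sSup_le
    intro N hN
    apply H1.le_fitting hN.1
    have := hN.2.2.1
    have : IsMulCommutative N := hN.2.2.1
    letI : CommGroup N := { (inferInstance : Group N) with mul_comm := fun a b => mul_comm' a b }
    exact CommGroup.isNilpotent
  apply le_antisymm _ hSle
  have hSn : (sSup 𝒮).Normal := by
    rw [sSup_eq_iSup']
    have : ∀ N : 𝒮, (N : Subgroup G).Normal := fun N => N.2.1
    exact Subgroup.iSup_normal _
  have hSab : IsMulCommutative (sSup 𝒮 : Subgroup G) :=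
    ⟨⟨fun a b => Subtype.ext (hFab a (hSle a.2) b (hSle b.2))⟩⟩
  obtain ⟨H, hH⟩ := S0585.result hΦ (sSup 𝒮)
  have hdisj : sSup 𝒮 ⊓ H = ⊥ := hH.disjoint.eq_bot
  have hsup : sSup 𝒮 ⊔ H = ⊤ := hH.sup_eq_top
  have hFHn : (F ⊓ H).Normal := by
    constructor
    intro d hd g
    have hg : g ∈ sSup 𝒮 ⊔ H := by rw [hsup]; trivial
    obtain ⟨a, ha, h, hh, rfl⟩ := Subgroup.mem_sup_of_normal_left.mp hg
    have h1 : h * d * h⁻¹ ∈ F ⊓ H :=
      ⟨hFn.conj_mem _ hd.1 h, H.mul_mem (H.mul_mem hh hd.2) (H.inv_mem hh)⟩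
    have h2 : a * (h * d * h⁻¹) = (h * d * h⁻¹) * a := hFab _ (hSle ha) _ h1.1
    have h3 : a * h * d * (a * h)⁻¹ = h * d * h⁻¹ := by
      calc a * h * d * (a * h)⁻¹ = (a * (h * d * h⁻¹)) * a⁻¹ := by group
        _ = h * d * h⁻¹ := by rw [h2]; group
    rw [h3]; exact h1
  have hFH : F ⊓ H = ⊥ := by
    by_contra hne
    obtain ⟨N, hNn, hN1, hNle, hNmin⟩ := H1.exists_minimal_normal_le (F ⊓ H) hFHn hne
    have hN𝒮 : N ∈ 𝒮 := by
      refine ⟨hNn, hN1, ⟨⟨fun a b => Subtype.ext (hFab a (hNle a.2).1 b (hNle b.2).1)⟩⟩, hNmin⟩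
    have h1 : N ≤ sSup 𝒮 ⊓ H := le_inf (le_sSup hN𝒮) (hNle.trans inf_le_right)
    rw [hdisj, le_bot_iff] at h1
    exact hN1 h1
  intro x hx
  have hx' : x ∈ sSup 𝒮 ⊔ H := by rw [hsup]; trivial
  obtain ⟨a, ha, h, hh, rfl⟩ := Subgroup.mem_sup_of_normal_left.mp hx'
  have hhF : h ∈ F := by
    have := F.mul_mem (F.inv_mem (hSle ha)) hx
    simpa using this
  have : h ∈ F ⊓ H := ⟨hhF, hh⟩
  rw [hFH, Subgroup.mem_bot] at this
  rw [this, mul_one]; exact ha

end Cfsg.Agent.S0586
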