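import Cfsg.Statements.S0589
import Mathlib
import Cfsg.Agent.Lib_lead_Frob

set_option autoImplicit false
open Pointwise
open Cfsg

namespace Cfsg.Agent.S0589

open scoped Pointwise


/-- Let H be a Frobenius complement in a finite group G and L a subgroup of G whose order divides the order of H. Then L is contained in some conjugate of H. -/
theorem result {G : Type*} [Group G] [Finite G] (H : Subgroup G) (hH : Cfsg.IsFrobeniusComplement H) (L : Subgroup G) (hL : Nat.card L ∣ Nat.card H) : ∃ x : G, L ≤ MulAut.conj x • H := by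
  obtain ⟨N, hN, hNn, hc⟩ := Cfsg.Agent.H3.frobenius_theorem H hH
  apply Cfsg.Agent.LeadFrob.le_conj_of_frob H L hH
  intro x hx hx1 hxk
  rw [← hN] at hxk
  have h1 : orderOf x ∣ Nat.card N := by
    have := orderOf_dvd_natCard (⟨x, hxk⟩ : N)
    rwa [Subgroup.orderOf_mk] at this
  have h2 : orderOf x ∣ Nat.card H := by
    have := orderOf_dvd_natCard (⟨x, hx⟩ : L)
    rw [Subgroup.orderOf_mk] at this
    exact this.trans hL
  rw [Cfsg.Agent.LeadFrob.card_kernel_subgroup hH hN] at h1
  have h3 := Nat.eq_one_of_dvd_coprimes (Cfsg.Agent.LeadFrob.frob_coprime hH) h1 h2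
  exact hx1 (orderOf_eq_one_iff.1 h3)

end Cfsg.Agent.S0589
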