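import Cfsg.Statements.S0590
import Mathlib
import Cfsg.Agent.Lib_lead_Thompson
import Cfsg.Agent.Lib_lead_CharP

set_option autoImplicit false
open Cfsg

namespace Cfsg.Agent.S0590

open scoped commutatorElement

theorem setup {G : Type*} [Group G] (V H : Subgroup G)
    (hHV : H ≤ Subgroup.normalizer (V : Set G)) (hq : ⁅⁅V, H⁆, H⁆ = ⊥) (a : G) (ha : a ∈ H) (v : G) (hv : v ∈ V) :
    ∃ w ∈ V, a * v * a⁻¹ = v * w ∧ ∀ b ∈ H, b * w = w * b := by
  refine ⟨v⁻¹ * (a * v * a⁻¹), V.mul_mem (V.inv_mem hv) ((Subgroup.mem_normalizer_iff.mp (hHV ha) v).mp hv),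
    by group, ?_⟩
  intro b hb
  have h1 : v⁻¹ * (a * v * a⁻¹) ∈ ⁅V, H⁆ := by
    have : v⁻¹ * (a * v * a⁻¹) = ⁅v⁻¹, a⁆ := by rw [commutatorElement_def]; group
    rw [this]
    exact Subgroup.commutator_mem_commutator (V.inv_mem hv) ha
  rw [Subgroup.commutator_eq_bot_iff_le_centralizer] at hq
  exact (Subgroup.mem_centralizer_iff.mp (hq h1)) b hb


/-- Quadratic action on an elementary abelian p-group forces the acting group modulo the kernel of the action to be elementary abelian. -/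
theorem result {G : Type*} [Group G] [Finite G] {p : ℕ} [Fact p.Prime] (V H : Subgroup G) (hV : Cfsg.IsElementaryAbelian p V) (hHV : H ≤ Subgroup.normalizer (V : Set G)) (hq : ⁅⁅V, H⁆, H⁆ = ⊥) : ⁅H, H⁆ ≤ Subgroup.centralizer (V : Set G) ∧ ∀ a ∈ H, a ^ p ∈ Subgroup.centralizer (V : Set G) := by
  constructor
  · rw [Subgroup.commutator_le]
    intro a ha b hb
    rw [Subgroup.mem_centralizer_iff]
    intro u hu
    -- write u = (b a) v (b a)⁻¹
    obtain ⟨v, hv⟩ : ∃ v, v = (b * a)⁻¹ * u * (b * a) := ⟨_, rfl⟩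
    have hvV : v ∈ V := by
      have h1 : (b * a)⁻¹ ∈ Subgroup.normalizer (V : Set G) := hHV (H.inv_mem (H.mul_mem hb ha))
      have := (Subgroup.mem_normalizer_iff.mp h1 u).mp hu
      rw [inv_inv] at this
      rw [hv]; exact this
    obtain ⟨wa, hwaV, hwa, hwac⟩ := setup V H hHV hq a ha v hvV
    obtain ⟨wb, hwbV, hwb, hwbc⟩ := setup V H hHV hq b hb v hvV
    have e1 : (a * b) * v * (a * b)⁻¹ = v * wa * wb := by
      calc (a * b) * v * (a * b)⁻¹ = a * (b * v * b⁻¹) * a⁻¹ := by group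
        _ = a * (v * wb) * a⁻¹ := by rw [hwb]
        _ = (a * v * a⁻¹) * (a * wb) * a⁻¹ := by group
        _ = v * wa * wb := by rw [hwa, hwbc a ha]; group
    have e2 : (b * a) * v * (b * a)⁻¹ = v * wa * wb := by
      calc (b * a) * v * (b * a)⁻¹ = b * (a * v * a⁻¹) * b⁻¹ := by group
        _ = b * (v * wa) * b⁻¹ := by rw [hwa]
        _ = (b * v * b⁻¹) * (b * wa) * b⁻¹ := by group
        _ = v * wb * wa := by rw [hwb, hwac b hb]; group
        _ = v * wa * wb := by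
            rw [mul_assoc, mul_assoc, Cfsg.Agent.LeadJ.comm_of hV.1 hwbV hwaV]
    have e3 : u = (b * a) * v * (b * a)⁻¹ := by rw [hv]; group
    have e4 : ⁅a, b⁆ * u * ⁅a, b⁆⁻¹ = u := by
      calc ⁅a, b⁆ * u * ⁅a, b⁆⁻¹ = (a * b) * v * (a * b)⁻¹ := by
            rw [e3, commutatorElement_def]; group
        _ = u := by rw [e1, ← e2, ← e3]
    calc u * ⁅a, b⁆ = (⁅a, b⁆ * u * ⁅a, b⁆⁻¹) * ⁅a, b⁆ := by rw [e4]
      _ = ⁅a, b⁆ * u := by group
  · intro a ha
    rw [Subgroup.mem_centralizer_iff]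
    intro v hv
    obtain ⟨w, hwV, hw, hwc⟩ := setup V H hHV hq a ha v hv
    have h1 := Cfsg.Agent.LeadCharP.conj_pow_of_comm hw (hwc a ha) p
    rw [hV.2 w hwV, mul_one] at h1
    calc v * a ^ p = (a ^ p * v * (a ^ p)⁻¹) * a ^ p := by rw [h1]
      _ = a ^ p * v := by group

end Cfsg.Agent.S0590
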