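import Cfsg.Statements.S0591
import Mathlib
import Cfsg.Agent.S0590

set_option autoImplicit false
open Cfsg

namespace Cfsg.Agent.S0591

/-- For a quadratically acting element a on an elementary abelian p-group V, the fixed points C_V(a) have order at least the square root of the order of V. -/
theorem result {G : Type*} [Group G] [Finite G] {p : ℕ} [Fact p.Prime] (V : Subgroup G) (hV : Cfsg.IsElementaryAbelian p V) (a : G) (ha : a ∈ Subgroup.normalizer (V : Set G)) (hq : ⁅⁅V, Subgroup.zpowers a⁆, Subgroup.zpowers a⁆ = ⊥) : Nat.card V ≤ Nat.card ↥(V ⊓ Subgroup.centralizer (Subgroup.zpowers a : Set G)) ^ 2 := by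
  set C := V ⊓ Subgroup.centralizer (Subgroup.zpowers a : Set G) with hC
  have hconj : ∀ v ∈ V, a * v * a⁻¹ ∈ V := fun v hv => (Subgroup.mem_normalizer_iff.mp ha v).mp hv
  have hHV : Subgroup.zpowers a ≤ Subgroup.normalizer (V : Set G) := by
    rw [Subgroup.zpowers_le]; exact ha
  let f : ↥V →* ↥V :=
    { toFun := fun v => ⟨(v : G)⁻¹ * (a * v * a⁻¹), V.mul_mem (V.inv_mem v.2) (hconj v v.2)⟩
      map_one' := by apply Subtype.ext; simp
      map_mul' := by
        intro v w
        apply Subtype.ext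
        simp only [Subgroup.coe_mul]
        have h1 : (w : G)⁻¹ * ((v : G)⁻¹ * (a * v * a⁻¹)) = ((v : G)⁻¹ * (a * v * a⁻¹)) * (w : G)⁻¹ :=
          Cfsg.Agent.LeadJ.comm_of hV.1 (V.inv_mem w.2) (V.mul_mem (V.inv_mem v.2) (hconj v v.2))
        calc ((v : G) * w)⁻¹ * (a * (v * w) * a⁻¹)
            = ((w : G)⁻¹ * ((v : G)⁻¹ * (a * v * a⁻¹))) * (a * w * a⁻¹) := by group
          _ = (v : G)⁻¹ * (a * v * a⁻¹) * ((w : G)⁻¹ * (a * w * a⁻¹)) := by rw [h1]; group }
  have hmemC : ∀ v ∈ V, a * v = v * a → v ∈ C := by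
    intro v hv hav
    refine ⟨hv, ?_⟩
    show v ∈ Subgroup.centralizer (Subgroup.zpowers a : Set G)
    rw [Subgroup.mem_centralizer_iff]
    intro b hb
    obtain ⟨i, rfl⟩ := Subgroup.mem_zpowers_iff.mp hb
    exact ((show Commute a v from hav).zpow_left i).eq
  have hker : f.ker ≤ C.subgroupOf V := by
    intro v hv
    rw [MonoidHom.mem_ker] at hv
    have h1 : (v : G)⁻¹ * (a * v * a⁻¹) = 1 := congrArg Subtype.val hv
    apply hmemC v v.2
    have h2 : a * v * a⁻¹ = v := by
      have := congrArg (fun x => (v : G) * x) h1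
      simpa using this
    calc a * v = (a * v * a⁻¹) * a := by group
      _ = v * a := by rw [h2]
  have hrange : f.range ≤ C.subgroupOf V := by
    rintro _ ⟨v, rfl⟩
    obtain ⟨w, hwV, hw, hwc⟩ := Cfsg.Agent.S0590.setup V (Subgroup.zpowers a) hHV hq a (Subgroup.mem_zpowers a) v v.2
    have h1 : (v : G)⁻¹ * (a * v * a⁻¹) = w := by rw [hw]; group
    show (v : G)⁻¹ * (a * v * a⁻¹) ∈ C
    rw [h1]
    exact hmemC w hwV (hwc a (Subgroup.mem_zpowers a))
  have hcardC : Nat.card (C.subgroupOf V) = Nat.card C := Cfsg.Agent.LeadJ.card_subgroupOf_le inf_le_left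
  have h1 : Nat.card f.ker * Nat.card f.range = Nat.card V := by
    rw [← Subgroup.index_ker, Subgroup.card_mul_index]
  rw [← h1, pow_two, ← hcardC]
  exact Nat.mul_le_mul (Nat.le_of_dvd Nat.card_pos (Subgroup.card_dvd_of_le hker))
    (Nat.le_of_dvd Nat.card_pos (Subgroup.card_dvd_of_le hrange))

end Cfsg.Agent.S0591
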