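import Cfsg.Statements.S0597
import Cfsg.Agent.S0538
import Cfsg.Agent.Lib_helper1_PRed2

set_option autoImplicit false
open Cfsg
open scoped commutatorElement

namespace Cfsg.Agent.S0597

/-- If two subnormal subgroups of a faithful group on an elementary abelian p-group satisfy [V, E₁, E₂] = 1, then their commutator lies in the largest normal p-subgroup. -/
theorem result {G : Type*} [Group G] [Finite G] {p : ℕ} [Fact p.Prime] (V H : Subgroup G) (hV : Cfsg.IsElementaryAbelian p V) (hHV : H ≤ Subgroup.normalizer (V : Set G)) (hf : H ⊓ Subgroup.centralizer (V : Set G) = ⊥) (E₁ E₂ : Subgroup G) (h₁ : E₁ ≤ H) (h₂ : E₂ ≤ H) (hs₁ : (E₁.subgroupOf H).IsSubnormal) (hs₂ : (E₂.subgroupOf H).IsSubnormal) (hc : ⁅⁅V, E₁⁆, E₂⁆ = ⊥) : ⁅E₁, E₂⁆ ≤ (Cfsg.pCore p H).map H.subtype := by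
  classical
  obtain ⟨hVc, hVp⟩ := hV
  have hcomm : ∀ a ∈ V, ∀ b ∈ V, a * b = b * a := by
    intro a ha b hb
    have := hVc.is_comm.comm (⟨a, ha⟩ : V) ⟨b, hb⟩
    exact congrArg Subtype.val this
  set V₁ := ⁅V, E₁⁆ with hV₁
  have hnV : ∀ x ∈ H, ∀ v ∈ V, x * v * x⁻¹ ∈ V := fun x hx v hv =>
    (Subgroup.mem_normalizer_iff.1 (hHV hx) v).1 hv
  -- facts on `E₁`
  have hP1E : ∀ e ∈ E₁, ∀ v ∈ V, e * v * e⁻¹ * v⁻¹ ∈ V₁ := by
    intro e he v hv
    rw [hV₁, Subgroup.commutator_comm]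
    exact Subgroup.commutator_mem_commutator he hv
  have hV₁V : V₁ ≤ V := by
    rw [hV₁, Subgroup.commutator_le]
    intro v hv e he
    have h1 : e * v⁻¹ * e⁻¹ ∈ V := hnV e (h₁ he) _ (inv_mem hv)
    have : ⁅v, e⁆ = v * (e * v⁻¹ * e⁻¹) := by rw [commutatorElement_def]; group
    rw [this]; exact mul_mem hv h1
  have hinvE : ∀ e ∈ E₁, ∀ w ∈ V₁, e * w * e⁻¹ ∈ V₁ := by
    intro e he w hw
    have := mul_mem (hP1E e he w (hV₁V hw)) hw
    simpa using this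
  have hP2E : ∀ e ∈ E₂, ∀ w ∈ V₁, e * w * e⁻¹ = w := by
    intro e he w hw
    have h1 : ⁅w, e⁆ ∈ ⁅V₁, E₂⁆ := Subgroup.commutator_mem_commutator hw he
    rw [hc, Subgroup.mem_bot, commutatorElement_eq_one_iff_mul_comm] at h1
    rw [← h1]; group
  -- the stabilizer of the chain
  let St : Subgroup G :=
    { carrier := {x | (∀ v ∈ V, x * v * x⁻¹ * v⁻¹ ∈ V₁) ∧ ∀ w ∈ V₁, x * w * x⁻¹ = w}
      one_mem' := ⟨fun v _ => by simp, fun w _ => by simp⟩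
      mul_mem' := by
        rintro x y ⟨hx1, hx2⟩ ⟨hy1, hy2⟩
        refine ⟨fun v hv => ?_, fun w hw => ?_⟩
        · have e : x * y * v * (x * y)⁻¹ * v⁻¹ =
              (x * (y * v * y⁻¹ * v⁻¹) * x⁻¹) * (x * v * x⁻¹ * v⁻¹) := by group
          rw [e, hx2 _ (hy1 v hv)]
          exact mul_mem (hy1 v hv) (hx1 v hv)
        · have e : x * y * w * (x * y)⁻¹ = x * (y * w * y⁻¹) * x⁻¹ := by group
          rw [e, hy2 w hw, hx2 w hw]
      inv_mem' := by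
        rintro x ⟨hx1, hx2⟩
        have h2 : ∀ w ∈ V₁, x⁻¹ * w * x⁻¹⁻¹ = w := by
          intro w hw
          have := hx2 w hw
          calc x⁻¹ * w * x⁻¹⁻¹ = x⁻¹ * (x * w * x⁻¹) * x := by rw [this, inv_inv]
            _ = w := by group
        refine ⟨fun v hv => ?_, h2⟩
        have hw := hx1 v hv
        have h3 := h2 _ (inv_mem hw)
        have e : x⁻¹ * v * x⁻¹⁻¹ * v⁻¹ = x⁻¹ * (x * v * x⁻¹ * v⁻¹)⁻¹ * x⁻¹⁻¹ := by group
        rw [e, h3]; exact inv_mem hw }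
  have hmemSt : ∀ x, x ∈ St ↔ (∀ v ∈ V, x * v * x⁻¹ * v⁻¹ ∈ V₁) ∧ ∀ w ∈ V₁, x * w * x⁻¹ = w :=
    fun _ => Iff.rfl
  have hDSt : ⁅E₁, E₂⁆ ≤ St := by
    rw [Subgroup.commutator_le]
    intro a ha b hb
    rw [hmemSt, commutatorElement_def]
    have ha' : a⁻¹ ∈ E₁ := inv_mem ha
    have hb' : b⁻¹ ∈ E₂ := inv_mem hb
    refine ⟨fun v hv => ?_, fun w hw => ?_⟩
    · -- v' = b⁻¹ v b
      have hv' : b⁻¹ * v * b⁻¹⁻¹ ∈ V := hnV _ (h₂ hb') v hv
      set v' := b⁻¹ * v * b⁻¹⁻¹ with hv'def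
      have hw1 := hP1E a⁻¹ ha' v' hv'
      set w1 := a⁻¹ * v' * a⁻¹⁻¹ * v'⁻¹ with hw1def
      have hbw1 := hP2E b hb w1 hw1
      have hw2 := hP1E a ha v hv
      have hw3 := hinvE a ha w1 hw1
      have e : a * b * a⁻¹ * b⁻¹ * v * (a * b * a⁻¹ * b⁻¹)⁻¹ * v⁻¹ =
          (a * (b * w1 * b⁻¹) * a⁻¹) * (a * v * a⁻¹ * v⁻¹) := by
        rw [hw1def, hv'def]; group
      rw [e, hbw1]
      exact mul_mem hw3 hw2
    · have h1 := hP2E b⁻¹ hb' w hw
      have h2 := hinvE a⁻¹ ha' w hw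
      have h3 := hP2E b hb _ h2
      have e : a * b * a⁻¹ * b⁻¹ * w * (a * b * a⁻¹ * b⁻¹)⁻¹ =
          a * (b * (a⁻¹ * (b⁻¹ * w * b⁻¹⁻¹) * a⁻¹⁻¹) * b⁻¹) * a⁻¹ := by group
      rw [e, h1, h3]; group
  have hDH : ⁅E₁, E₂⁆ ≤ H := by
    rw [Subgroup.commutator_le]
    intro a ha b hb
    rw [commutatorElement_def]
    exact mul_mem (mul_mem (mul_mem (h₁ ha) (h₂ hb)) (inv_mem (h₁ ha))) (inv_mem (h₂ hb))
  -- exponent `p`
  have hexp : ∀ d ∈ ⁅E₁, E₂⁆, d ^ p = 1 := by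
    intro d hd
    obtain ⟨hd1, hd2⟩ := (hmemSt d).1 (hDSt hd)
    have hpow : ∀ (k : ℕ), ∀ v ∈ V, d ^ k * v * (d ^ k)⁻¹ = (d * v * d⁻¹ * v⁻¹) ^ k * v := by
      intro k
      induction k with
      | zero => intro v _; simp
      | succ k ih =>
        intro v hv
        have hw := hd1 v hv
        set w := d * v * d⁻¹ * v⁻¹ with hwdef
        have hwk : w ^ k ∈ V₁ := pow_mem hw k
        have e : d ^ (k + 1) * v * (d ^ (k + 1))⁻¹ = d * (d ^ k * v * (d ^ k)⁻¹) * d⁻¹ := by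
          rw [pow_succ']; group
        rw [e, ih v hv]
        have e2 : d * (w ^ k * v) * d⁻¹ = (d * w ^ k * d⁻¹) * (d * v * d⁻¹ * v⁻¹) * v := by group
        rw [e2, hd2 _ hwk, ← hwdef, ← pow_succ]
    have hcen : d ^ p ∈ H ⊓ Subgroup.centralizer (V : Set G) := by
      refine ⟨pow_mem (hDH hd) p, ?_⟩
      show d ^ p ∈ Subgroup.centralizer (V : Set G)
      rw [Subgroup.mem_centralizer_iff]
      intro v hv
      have h1 := hpow p v hv
      rw [hVp _ (hV₁V (hd1 v hv)), one_mul] at h1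
      calc v * d ^ p = (d ^ p * v * (d ^ p)⁻¹) * d ^ p := by rw [h1]
        _ = d ^ p * v := by group
    rw [hf, Subgroup.mem_bot] at hcen
    exact hcen
  -- work inside `H`
  set A := E₁.subgroupOf H with hA
  set B := E₂.subgroupOf H with hB
  have hmapD : (⁅A, B⁆).map H.subtype = ⁅E₁, E₂⁆ := by
    rw [Subgroup.map_commutator, hA, hB, Subgroup.subgroupOf_map_subtype,
      Subgroup.subgroupOf_map_subtype, inf_eq_left.2 h₁, inf_eq_left.2 h₂]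
  have hDp : IsPGroup p (⁅A, B⁆ : Subgroup H) := by
    rintro ⟨d, hd⟩
    refine ⟨1, Subtype.ext (Subtype.ext ?_)⟩
    have : (d : G) ∈ ⁅E₁, E₂⁆ := by rw [← hmapD]; exact ⟨d, hd, rfl⟩
    simpa using hexp _ this
  have hsn : (A ⊔ B).IsSubnormal := Cfsg.Agent.S0538.result A B hs₁ hs₂
  have hle : ⁅A, B⁆ ≤ A ⊔ B := by
    rw [Subgroup.commutator_le]
    intro a ha b hb
    rw [commutatorElement_def]
    exact mul_mem (mul_mem (mul_mem (Subgroup.mem_sup_left ha) (Subgroup.mem_sup_right hb))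
      (inv_mem (Subgroup.mem_sup_left ha))) (inv_mem (Subgroup.mem_sup_right hb))
  have hconjA : ∀ x ∈ A, ∀ d ∈ ⁅A, B⁆, x * d * x⁻¹ ∈ ⁅A, B⁆ := by
    intro x hx
    have : ⁅A, B⁆ ≤ (⁅A, B⁆).comap (MulAut.conj x).toMonoidHom := by
      rw [Subgroup.commutator_le]
      intro a ha b hb
      show x * ⁅a, b⁆ * x⁻¹ ∈ ⁅A, B⁆
      have e : x * ⁅a, b⁆ * x⁻¹ = ⁅x * a, b⁆ * ⁅x, b⁆⁻¹ := by
        simp only [commutatorElement_def]; group
      rw [e]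
      exact mul_mem (Subgroup.commutator_mem_commutator (mul_mem hx ha) hb)
        (inv_mem (Subgroup.commutator_mem_commutator hx hb))
    exact fun d hd => this hd
  have hconjB : ∀ x ∈ B, ∀ d ∈ ⁅A, B⁆, x * d * x⁻¹ ∈ ⁅A, B⁆ := by
    intro x hx
    have : ⁅A, B⁆ ≤ (⁅A, B⁆).comap (MulAut.conj x).toMonoidHom := by
      rw [Subgroup.commutator_le]
      intro a ha b hb
      show x * ⁅a, b⁆ * x⁻¹ ∈ ⁅A, B⁆
      have e : x * ⁅a, b⁆ * x⁻¹ = ⁅a, x⁆⁻¹ * ⁅a, x * b⁆ := by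
        simp only [commutatorElement_def]; group
      rw [e]
      exact mul_mem (inv_mem (Subgroup.commutator_mem_commutator ha hx))
        (Subgroup.commutator_mem_commutator ha (mul_mem hx hb))
    exact fun d hd => this hd
  have hnorm : A ⊔ B ≤ Subgroup.normalizer ((⁅A, B⁆ : Subgroup H) : Set H) := by
    have aux : ∀ (X : Subgroup H), (∀ x ∈ X, ∀ d ∈ ⁅A, B⁆, x * d * x⁻¹ ∈ ⁅A, B⁆) →
        X ≤ Subgroup.normalizer ((⁅A, B⁆ : Subgroup H) : Set H) := by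
      intro X hX x hx
      rw [Subgroup.mem_normalizer_iff]
      intro d
      refine ⟨hX x hx d, fun h => ?_⟩
      have := hX x⁻¹ (inv_mem hx) _ h
      have e : x⁻¹ * (x * d * x⁻¹) * x⁻¹⁻¹ = d := by group
      rwa [e] at this
    exact sup_le (aux A hconjA) (aux B hconjB)
  have hDsn : (⁅A, B⁆ : Subgroup H).IsSubnormal :=
    Subgroup.IsSubnormal.step _ _ hle hsn (Subgroup.normal_subgroupOf_of_le_normalizer hnorm)
  have hfin := H1.subnormal_pgroup_le_pCore hDsn hDp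
  rw [← hmapD]
  exact Subgroup.map_mono hfin

end Cfsg.Agent.S0597
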