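import Cfsg.Statements.S0602
import Mathlib
import Cfsg.Agent.Lib_lead_Thompson

set_option autoImplicit false
open Cfsg

namespace Cfsg.Agent.S0602

/-- The Thompson subgroup is characteristic, and nontrivial as soon as p divides the group order. -/
theorem result {G : Type*} [Group G] [Finite G] {p : ℕ} [Fact p.Prime] : (Cfsg.thompsonSubgroup p G).Characteristic ∧ (p ∣ Nat.card G → Cfsg.thompsonSubgroup p G ≠ ⊥) := by
  constructor
  · rw [Subgroup.characteristic_iff_map_le]
    intro φ
    rw [Subgroup.map_le_iff_le_comap]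
    apply sSup_le
    intro A hA
    rw [← Subgroup.map_le_iff_le_comap]
    exact Cfsg.Agent.LeadJ.le_thompson (Cfsg.Agent.LeadJ.maxEA_map_equiv φ hA)
  · intro hdvd hbot
    obtain ⟨x, hx⟩ := exists_prime_orderOf_dvd_card' p hdvd
    obtain ⟨A, hA⟩ := Cfsg.Agent.LeadJ.exists_maxEA (G := G) p
    have h1 : A ≤ ⊥ := hbot ▸ Cfsg.Agent.LeadJ.le_thompson hA
    have h2 := hA.2 (Subgroup.zpowers x) (Cfsg.Agent.LeadJ.ea_zpowers (by rw [← hx, pow_orderOf_eq_one]))
    rw [Nat.card_zpowers, hx, le_bot_iff.mp h1, Subgroup.card_bot] at h2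
    exact absurd h2 (not_le.mpr (Fact.out : p.Prime).one_lt)

end Cfsg.Agent.S0602
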