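import Cfsg.Statements.S0604
import Mathlib
import Cfsg.Agent.Lib_lead_Thompson

set_option autoImplicit false
open Cfsg

namespace Cfsg.Agent.S0604

/-- The Thompson subgroup of G is the join of the Thompson subgroups of its Sylow p-subgroups. -/
theorem result {G : Type*} [Group G] [Finite G] {p : ℕ} [Fact p.Prime] : Cfsg.thompsonSubgroup p G = ⨆ S : Sylow p G, Cfsg.thompsonSubgroupOf p (S : Subgroup G) := by
  apply le_antisymm
  · apply sSup_le
    intro A hA
    obtain ⟨S, hS⟩ := (Cfsg.Agent.LeadJ.ea_isPGroup hA.1).exists_le_sylow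
    exact (Cfsg.Agent.LeadJ.le_thompsonOf hA hS).trans (le_iSup (fun S : Sylow p G => Cfsg.thompsonSubgroupOf p (S : Subgroup G)) S)
  · apply iSup_le
    intro S
    obtain ⟨A₁, hA₁⟩ := Cfsg.Agent.LeadJ.exists_maxEA (G := G) p
    obtain ⟨S₁, hS₁⟩ := (Cfsg.Agent.LeadJ.ea_isPGroup hA₁.1).exists_le_sylow
    obtain ⟨g, hg⟩ := MulAction.exists_smul_eq G S₁ S
    have hA₀ := Cfsg.Agent.LeadJ.maxEA_map_equiv (MulAut.conj g) hA₁
    apply Cfsg.Agent.LeadJ.thompsonOf_le hA₀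
    rintro _ ⟨a, ha, rfl⟩
    rw [← hg]
    exact Subgroup.smul_mem_pointwise_smul (α := MulAut G) a (MulAut.conj g) _ (hS₁ ha)

end Cfsg.Agent.S0604
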