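import Cfsg.Statements.S0606
import Mathlib
import Cfsg.Agent.Lib_lead_Thompson

set_option autoImplicit false
open Cfsg

namespace Cfsg.Agent.S0606

/-- Elementary abelian p-subgroups of maximal order are best offenders on any normal elementary abelian p-subgroup. -/
theorem result {G : Type*} [Group G] [Finite G] {p : ℕ} [Fact p.Prime] (V : Subgroup G) [V.Normal] (hV : Cfsg.IsElementaryAbelian p V) (A : Subgroup G) (hA : A ∈ Cfsg.maxElementaryAbelianSubgroups p G) : Cfsg.IsBestOffenderOn p V A := by
  refine ⟨?_, ?_, ?_⟩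
  · intro B hBA
    set C := V ⊓ Subgroup.centralizer (B : Set G) with hC
    have hBea : Cfsg.IsElementaryAbelian p B := Cfsg.Agent.LeadJ.ea_mono hBA hA.1
    have hCea : Cfsg.IsElementaryAbelian p C := Cfsg.Agent.LeadJ.ea_mono inf_le_left hV
    have hcomm : ∀ b ∈ B, ∀ c ∈ C, b * c = c * b := by
      intro b hb c hc
      exact (Subgroup.mem_centralizer_iff.mp hc.2) b hb
    have hE := Cfsg.Agent.LeadJ.ea_sup hBea hCea hcomm
    have h1 := hA.2 _ hE
    have hnorm : C ≤ Subgroup.normalizer (B : Set G) := by
      intro c hc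
      rw [Subgroup.mem_normalizer_iff]
      intro b
      constructor
      · intro hb
        have : c * b * c⁻¹ = b := by rw [← hcomm b hb c hc]; group
        rw [this]; exact hb
      · intro hb
        have h2 := hcomm _ hb c hc
        have : b = c * b * c⁻¹ := by
          have h3 : c * b * c⁻¹ * c = c * (c * b * c⁻¹) := h2
          have h4 : c * b = c * (c * b * c⁻¹) := by rw [← h3]; group
          exact mul_left_cancel h4
        rw [this]; exact hb
    have h2 := Cfsg.Agent.H1.card_sup_mul_card_inf' B C hnorm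
    have h3 : B ⊓ C ≤ V ⊓ Subgroup.centralizer (A : Set G) := by
      intro x hx
      refine ⟨hx.2.1, ?_⟩
      show x ∈ Subgroup.centralizer (A : Set G)
      rw [Subgroup.mem_centralizer_iff]
      intro a ha
      exact Cfsg.Agent.LeadJ.comm_of hA.1.1 ha (hBA hx.1)
    have h4 : Nat.card ↥(B ⊓ C) ≤ Nat.card ↥(V ⊓ Subgroup.centralizer (A : Set G)) :=
      Nat.le_of_dvd Nat.card_pos (Subgroup.card_dvd_of_le h3)
    rw [← h2]
    exact Nat.mul_le_mul h1 h4
  · have : ⁅A, A⁆ = ⊥ := by
      rw [Subgroup.commutator_eq_bot_iff_le_centralizer]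
      intro a ha
      rw [Subgroup.mem_centralizer_iff]
      intro b hb
      exact Cfsg.Agent.LeadJ.comm_of hA.1.1 hb ha
    rw [this]
    exact bot_le
  · intro a ha
    rw [hA.1.2 a ha]
    exact Subgroup.one_mem _

end Cfsg.Agent.S0606
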