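import Cfsg.Statements.S0630
import Cfsg.Agent.Lib_helper5_PConstr
import Cfsg.Agent.S1327

set_option autoImplicit false
open Cfsg

namespace Cfsg.Agent.S0630

open Cfsg.Agent.H5

/-- p-constraint passes to and from the quotient by the largest normal subgroup of order prime to p. -/
theorem result {G : Type*} [Group G] [Finite G] {p : ℕ} [Fact p.Prime] : Cfsg.IsPConstrained p G ↔ Cfsg.IsPConstrained p (G ⧸ Cfsg.pPrimeCore p G) := by
  rw [Cfsg.Agent.S1327.result, Cfsg.Agent.S1327.result, pLayer_eq_bot_iff_layer_quotient,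
    pLayer_eq_bot_iff_layer_quotient]
  have h1 : Cfsg.pPrimeCore p (G ⧸ Cfsg.pPrimeCore p G) = ⊥ := H1.pPrimeCore_quotient_eq_bot p
  have hbij : Function.Bijective
      (QuotientGroup.mk' (Cfsg.pPrimeCore p (G ⧸ Cfsg.pPrimeCore p G))) := by
    refine ⟨?_, QuotientGroup.mk'_surjective _⟩
    rw [← MonoidHom.ker_eq_bot_iff, QuotientGroup.ker_mk', h1]
  exact ⟨layer_eq_bot_of_mulEquiv (MulEquiv.ofBijective _ hbij),
    layer_eq_bot_of_mulEquiv (MulEquiv.ofBijective _ hbij).symm⟩

end Cfsg.Agent.S0630
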