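import Cfsg.Statements.S0635
import Cfsg.Agent.Lib_helper7_PSolv2

set_option autoImplicit false
open Cfsg

namespace Cfsg.Agent.S0635

open scoped commutatorElement

/-- The p-length of a p-soluble group is at most the nilpotency class of its Sylow p-subgroups. -/
theorem result {G : Type*} [Group G] [Finite G] {p : ℕ} [Fact p.Prime] (hsol : Cfsg.IsPSolvable p G) (S : Sylow p G) : Cfsg.PLengthLE p (Group.nilpotencyClass ↥(S : Subgroup G)) G := by
  have hpp : p.Prime := Fact.out
  have hnil : Group.IsNilpotent ↥(S : Subgroup G) := S.2.isNilpotent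
  set c := Group.nilpotencyClass ↥(S : Subgroup G) with hc
  have key : ∀ k : ℕ, k ≤ c → (S : Subgroup G).lowerCentralSeries (c - k) ≤
      (Cfsg.upperPSeries p G (2 * k)).1 := by
    intro k
    induction k with
    | zero =>
      intro _
      rw [Nat.sub_zero, ← Subgroup.top_subtype_lowerCentralSeries, hc,
        Subgroup.lowerCentralSeries_nilpotencyClass, Subgroup.map_bot]
      exact bot_le
    | succ k ih =>
      intro hk
      have ih' := ih (Nat.le_of_succ_le hk)
      have hj : c - k = (c - (k + 1)) + 1 := by omega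
      rw [hj] at ih'
      have h1 : (Cfsg.upperPSeries p G (2 * k + 1)).1 =
          (Cfsg.pPrimeCore p (G ⧸ (Cfsg.upperPSeries p G (2 * k)).1)).comap (QuotientGroup.mk' _) :=
        Cfsg.Agent.H7.upperPSeries_succ_even p (even_two_mul k)
      have h2 : (Cfsg.upperPSeries p G (2 * k + 2)).1 =
          (Cfsg.pCore p (G ⧸ (Cfsg.upperPSeries p G (2 * k + 1)).1)).comap (QuotientGroup.mk' _) :=
        Cfsg.Agent.H7.upperPSeries_succ_odd p (by simp)
      have hHH := Cfsg.Agent.H7.hall_higman_quotient hsol _ _ h1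
      intro x hx
      have h3 : 2 * (k + 1) = 2 * k + 2 := by ring
      rw [h3, h2]
      change QuotientGroup.mk' _ (x : G) ∈ Cfsg.pCore p (G ⧸ (Cfsg.upperPSeries p G (2 * k + 1)).1)
      apply hHH
      rw [Subgroup.mem_centralizer_iff]
      intro y hy
      have hy' := Cfsg.Agent.H7.pCore_le_sylow
        (S.mapSurjective (QuotientGroup.mk'_surjective (Cfsg.upperPSeries p G (2 * k + 1)).1)) hy
      obtain ⟨s, hs, rfl⟩ := hy'
      have h4 : ⁅x, s⁆ ∈ (S : Subgroup G).lowerCentralSeries (c - (k + 1) + 1) :=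
        Subgroup.commutator_mem_commutator hx hs
      have h5 : ⁅(x : G), s⁆ ∈ (Cfsg.upperPSeries p G (2 * k + 1)).1 :=
        Cfsg.Agent.H7.upperPSeries_le_succ p (2 * k) (ih' h4)
      have h6 := (QuotientGroup.eq_one_iff _).mpr h5
      rw [← map_mul, ← map_mul]
      have h7 : s * (x : G) = (⁅(x : G), s⁆)⁻¹ * ((x : G) * s) := by
        rw [commutatorElement_def]; group
      rw [h7, map_mul, map_inv]
      have h8 : QuotientGroup.mk' (Cfsg.upperPSeries p G (2 * k + 1)).1 ⁅(x : G), s⁆ = 1 := h6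
      rw [h8, inv_one, one_mul]
  have hS := key c le_rfl
  rw [Nat.sub_self, Subgroup.lowerCentralSeries_zero] at hS
  change (Cfsg.upperPSeries p G (2 * c + 1)).1 = ⊤
  rw [Cfsg.Agent.H7.upperPSeries_succ_even p (even_two_mul c)]
  have h1 : Cfsg.pPrimeCore p (G ⧸ (Cfsg.upperPSeries p G (2 * c)).1) = ⊤ := by
    rw [eq_top_iff]
    apply Cfsg.Agent.H7.le_pPrimeCore inferInstance
    rw [Subgroup.card_top, ← Subgroup.index_eq_card]
    have h2 : ¬ p ∣ (Cfsg.upperPSeries p G (2 * c)).1.index :=
      fun h => S.not_dvd_index (h.trans (Subgroup.index_dvd_of_le hS))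
    exact ((Nat.Prime.coprime_iff_not_dvd hpp).mpr h2).symm
  rw [h1, Subgroup.comap_top]

end Cfsg.Agent.S0635
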