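import Cfsg.Statements.S0638
import Cfsg.Agent.Lib_helper7_CycIdx2

set_option autoImplicit false
open Cfsg

namespace Cfsg.Agent.S0638

/-- For odd p, in a non-cyclic metacyclic p-group the elements of order dividing p generate an elementary abelian subgroup of order p². -/
theorem result {R : Type*} [Group R] [Finite R] {p : ℕ} [Fact p.Prime] (hp : p ≠ 2) (hR : IsPGroup p R) (hm : Cfsg.IsMetacyclic R) (hnc : ¬ IsCyclic R) : Cfsg.IsElementaryAbelian p (Cfsg.omegaOne p (⊤ : Subgroup R)) ∧ Nat.card ↥(Cfsg.omegaOne p (⊤ : Subgroup R)) = p ^ 2 := by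
  classical
  have hpp : p.Prime := Fact.out
  obtain ⟨N, hN, hNc, hQc⟩ := hm
  have hset : {x : R | x ∈ (⊤ : Subgroup R) ∧ x ^ p = 1} = {x : R | x ^ p = 1} := by
    ext x; simp
  unfold Cfsg.omegaOne
  rw [hset]
  -- elements of order dividing `p` in the quotient
  have hQcomm : ∀ x y : R ⧸ N, x * y = y * x := hQc.isMulCommutative.is_comm.comm
  let φ : R ⧸ N →* R ⧸ N := MonoidHom.mk' (fun g => g ^ p) (fun u v => Commute.mul_pow (hQcomm u v) p)
  have hφ : ∀ x, x ∈ φ.ker ↔ x ^ p = 1 := fun x => Iff.rfl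
  have hker : Nat.card φ.ker ∣ p := by
    haveI : IsCyclic φ.ker := inferInstance
    rw [← IsCyclic.exponent_eq_card]
    apply Monoid.exponent_dvd_of_forall_pow_eq_one
    intro y
    apply Subtype.ext
    simpa using (hφ y.1).1 y.2
  set M := φ.ker.comap (QuotientGroup.mk' N) with hM
  have hNM : N ≤ M := by
    intro b hb
    rw [hM, Subgroup.mem_comap]
    have : QuotientGroup.mk' N b = 1 := (QuotientGroup.eq_one_iff b).2 hb
    rw [this]; exact one_mem _
  have hall : ∀ x : R, x ^ p = 1 → x ∈ M := by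
    intro x hx
    rw [hM, Subgroup.mem_comap, hφ, ← map_pow, hx, map_one]
  have hMcard : Nat.card M = Nat.card N * Nat.card φ.ker := by
    rw [Cfsg.Agent.H7.card_eq_card_inf_ker_mul_card_map (QuotientGroup.mk' N) M, hM,
      Subgroup.map_comap_eq_self_of_surjective (QuotientGroup.mk'_surjective N), ← hM,
      QuotientGroup.ker_mk', inf_eq_right.2 hNM]
  -- the elementary abelian subgroup of order `p ^ 2`
  have hnc' : ¬ IsCyclic (⊤ : Subgroup R) := by
    intro h
    exact hnc (isCyclic_of_surjective Subgroup.topEquiv.toMonoidHom Subgroup.topEquiv.surjective)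
  obtain ⟨A, -, -, hAe, hAc⟩ := Cfsg.Agent.H7.exists_normal_elemAb_sq hp hR ⊤ inferInstance hnc'
  have hAM : A ≤ M := fun x hx => hall x (hAe.2 x hx)
  have hMnc : ¬ IsCyclic M := by
    intro h
    haveI := h
    haveI : IsCyclic A := Subgroup.isCyclic_of_le hAM
    have h1 : Nat.card A ∣ p := by
      rw [← IsCyclic.exponent_eq_card]
      apply Monoid.exponent_dvd_of_forall_pow_eq_one
      intro y
      apply Subtype.ext
      simpa using hAe.2 y.1 y.2
    rw [hAc] at h1
    have := Nat.le_of_dvd hpp.pos h1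
    nlinarith [hpp.one_lt]
  have hkp : Nat.card φ.ker = p := by
    rcases (Nat.dvd_prime hpp).1 hker with h | h
    · exfalso
      rw [h, mul_one] at hMcard
      have : M = N := (Subgroup.eq_of_le_of_card_ge hNM hMcard.le).symm
      rw [this] at hMnc
      exact hMnc hNc
    · exact h
  have hcyc' : IsCyclic (N.subgroupOf M) :=
    isCyclic_of_surjective (Subgroup.subgroupOfEquivOfLe hNM).symm.toMonoidHom
      (Subgroup.subgroupOfEquivOfLe hNM).symm.surjective
  obtain ⟨a, ha⟩ := Cfsg.Agent.H7.exists_zpowers_eq_of_isCyclic (N.subgroupOf M) hcyc'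
  have hidx : (Subgroup.zpowers a).index = p := by
    rw [ha]
    have h1 := Cfsg.Agent.H1.relIndex_mul_card' hNM
    rw [hMcard, hkp, mul_comm] at h1
    exact Nat.eq_of_mul_eq_mul_left Nat.card_pos h1
  obtain ⟨E, hE, hEc, -⟩ := Cfsg.Agent.H7.cycIdx_main hp (hR.to_subgroup M) hMnc a hidx
  have hset2 : {x : R | x ^ p = 1} = ((E.map M.subtype : Subgroup R) : Set R) := by
    ext y
    constructor
    · intro hy
      exact ⟨⟨y, hall y hy⟩, (hE _).2 (Subtype.ext (by simpa using hy)), rfl⟩
    · rintro ⟨e, he, rfl⟩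
      have := (hE e).1 he
      simpa using congrArg Subtype.val this
  rw [hset2, Subgroup.closure_eq]
  haveI := IsPGroup.isMulCommutative_of_card_eq_prime_sq hEc
  refine ⟨⟨Subgroup.map_isMulCommutative E M.subtype, ?_⟩, ?_⟩
  · intro y hy
    have : y ∈ ((E.map M.subtype : Subgroup R) : Set R) := hy
    rw [← hset2] at this
    exact this
  · rw [Subgroup.card_map_of_injective M.subtype_injective, hEc]

end Cfsg.Agent.S0638
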