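import Cfsg.Statements.S0641
import Mathlib

set_option autoImplicit false
open Cfsg

namespace Cfsg.Agent.S0641

/-- Regularity of a p-group passes to quotient groups. -/
theorem result {G : Type*} [Group G] {p : ℕ} [Fact p.Prime] (hG : Cfsg.IsRegularPGroup p G) (N : Subgroup G) [N.Normal] : Cfsg.IsRegularPGroup p (G ⧸ N) := by
  refine ⟨hG.1.to_quotient N, ?_⟩
  intro a b n
  obtain ⟨a, rfl⟩ := QuotientGroup.mk_surjective a
  obtain ⟨b, rfl⟩ := QuotientGroup.mk_surjective b
  obtain ⟨c, hc, hab⟩ := hG.2 a b n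
  refine ⟨QuotientGroup.mk' N c, ?_, ?_⟩
  · have h1 : (Subgroup.closure ({a, b} : Set G)).map (QuotientGroup.mk' N) =
        Subgroup.closure ({(QuotientGroup.mk a : G ⧸ N), (QuotientGroup.mk b : G ⧸ N)} : Set (G ⧸ N)) := by
      rw [MonoidHom.map_closure, Set.image_pair]
      rfl
    have h2 : (Cfsg.powerClosure p n ⁅Subgroup.closure ({a, b} : Set G), Subgroup.closure ({a, b} : Set G)⁆).map (QuotientGroup.mk' N) ≤
        Cfsg.powerClosure p n ⁅Subgroup.closure ({(QuotientGroup.mk a : G ⧸ N), (QuotientGroup.mk b : G ⧸ N)} : Set (G ⧸ N)),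
          Subgroup.closure ({(QuotientGroup.mk a : G ⧸ N), (QuotientGroup.mk b : G ⧸ N)} : Set (G ⧸ N))⁆ := by
      unfold Cfsg.powerClosure
      rw [MonoidHom.map_closure, Subgroup.closure_le]
      rintro _ ⟨y, ⟨x, hx, rfl⟩, rfl⟩
      apply Subgroup.subset_closure
      refine ⟨QuotientGroup.mk' N x, ?_, map_pow _ _ _⟩
      rw [← h1, ← Subgroup.map_commutator]
      exact ⟨x, hx, rfl⟩
    exact h2 ⟨c, hc, rfl⟩
  · have := congrArg (QuotientGroup.mk' N) hab
    simpa using this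

end Cfsg.Agent.S0641
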