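import Mathlib
import Cfsg.Statements.S0642

set_option autoImplicit false
open Cfsg

namespace Cfsg.Agent.S0642

open scoped commutatorElement

/-- Among finite 2-groups the regular ones are exactly the abelian ones. -/
theorem result {G : Type*} [Group G] [Finite G] (hG : IsPGroup 2 G) : Cfsg.IsRegularPGroup 2 G ↔ ∀ a b : G, a * b = b * a := by
  constructor
  · rintro ⟨-, hreg⟩
    by_contra hab
    push Not at hab
    obtain ⟨a0, b0, hab0⟩ := hab
    -- nontrivial central quotient
    haveI hnt : Nontrivial (G ⧸ Subgroup.center G) := by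
      refine ⟨⟨(a0 : G ⧸ Subgroup.center G), 1, ?_⟩⟩
      intro h
      rw [QuotientGroup.eq_one_iff, Subgroup.mem_center_iff] at h
      exact hab0 (h b0).symm
    have hq : IsPGroup 2 (G ⧸ Subgroup.center G) := hG.to_quotient _
    haveI := hq.center_nontrivial
    obtain ⟨a', ha'⟩ := exists_ne (1 : Subgroup.center (G ⧸ Subgroup.center G))
    obtain ⟨a, ha⟩ := QuotientGroup.mk_surjective (a' : G ⧸ Subgroup.center G)
    have haZ : a ∉ Subgroup.center G := by
      intro h
      apply ha'
      apply Subtype.ext
      rw [← ha]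
      exact (QuotientGroup.eq_one_iff a).2 h
    have hcen : ∀ x : G, ⁅a, x⁆ ∈ Subgroup.center G := by
      intro x
      rw [← QuotientGroup.eq_one_iff, commutatorElement_def]
      have h1 := (Subgroup.mem_center_iff.1 a'.2) (x : G ⧸ Subgroup.center G)
      rw [← ha] at h1
      simp only [QuotientGroup.mk_mul, QuotientGroup.mk_inv]
      rw [← h1]; group
    have : ∃ b : G, a * b ≠ b * a := by
      by_contra hall
      push Not at hall
      exact haZ (Subgroup.mem_center_iff.2 (fun g => (hall g).symm))
    obtain ⟨b, hb⟩ := this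
    set z := ⁅a, b⁆ with hz
    have hzc : ∀ x : G, x * z = z * x := Subgroup.mem_center_iff.1 (hcen b)
    have hz1 : z ≠ 1 := by
      intro h
      exact hb (commutatorElement_eq_one_iff_mul_comm.1 h)
    have hab : a * b = z * (b * a) := by rw [hz, commutatorElement_def]; group
    set M := Subgroup.zpowers z with hM
    haveI hMn : M.Normal := by
      constructor
      intro n hn g
      obtain ⟨k, rfl⟩ := Subgroup.mem_zpowers_iff.1 hn
      have : g * z ^ k * g⁻¹ = z ^ k := by
        have h1 : Commute g (z ^ k) := (show Commute g z from hzc g).zpow_right k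
        rw [h1.eq, mul_inv_cancel_right]
      rw [this]; exact hn
    set L := Subgroup.closure ({a, b} : Set G) with hL
    have hD : ⁅L, L⁆ ≤ M := by
      have h1 : (⁅L, L⁆).map (QuotientGroup.mk' M) = ⊥ := by
        rw [Subgroup.map_commutator, Subgroup.commutator_eq_bot_iff_le_centralizer, hL,
          MonoidHom.map_closure]
        set s := (QuotientGroup.mk' M) '' ({a, b} : Set G) with hs
        have hcomm : ∀ x ∈ s, ∀ y ∈ s, x * y = y * x := by
          have hq : (QuotientGroup.mk' M) a * (QuotientGroup.mk' M) b =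
              (QuotientGroup.mk' M) b * (QuotientGroup.mk' M) a := by
            rw [← map_mul, ← map_mul, hab, map_mul]
            have : (QuotientGroup.mk' M) z = 1 :=
              (QuotientGroup.eq_one_iff z).2 (Subgroup.mem_zpowers z)
            rw [this, one_mul]
          rintro _ ⟨x, hx, rfl⟩ _ ⟨y, hy, rfl⟩
          rcases hx with rfl | hx <;> rcases hy with rfl | hy
          · rfl
          · rw [Set.mem_singleton_iff.1 hy]; exact hq
          · rw [Set.mem_singleton_iff.1 hx]; exact hq.symm
          · rw [Set.mem_singleton_iff.1 hx, Set.mem_singleton_iff.1 hy]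
        have h1 : Subgroup.closure s ≤ Subgroup.centralizer s :=
          (Subgroup.closure_le _).2
            (fun a ha => Subgroup.mem_centralizer_iff.2 (fun b hb => hcomm b hb a ha))
        exact (Subgroup.closure_le _).2 (fun a ha => Subgroup.mem_centralizer_iff.2
          (fun b hb => (Subgroup.mem_centralizer_iff.1 (h1 hb) a ha).symm))
      intro x hx
      have h2 : (QuotientGroup.mk' M) x ∈ (⁅L, L⁆).map (QuotientGroup.mk' M) := ⟨x, hx, rfl⟩
      rw [h1, Subgroup.mem_bot] at h2
      exact (QuotientGroup.eq_one_iff x).1 h2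
    obtain ⟨c, hc, hreg1⟩ := hreg a b 1
    have hc2 : c ∈ Subgroup.zpowers (z ^ 2) := by
      have h1 : Cfsg.powerClosure 2 1 ⁅L, L⁆ ≤ Subgroup.zpowers (z ^ 2) := by
        unfold Cfsg.powerClosure
        rw [Subgroup.closure_le]
        rintro _ ⟨x, hx, rfl⟩
        obtain ⟨k, rfl⟩ := Subgroup.mem_zpowers_iff.1 (hD hx)
        rw [SetLike.mem_coe, Subgroup.mem_zpowers_iff]
        refine ⟨k, ?_⟩
        rw [pow_one, ← zpow_natCast, ← zpow_natCast, ← zpow_mul, ← zpow_mul, mul_comm]
      exact h1 hc
    obtain ⟨m, hm⟩ := Subgroup.mem_zpowers_iff.1 hc2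
    rw [pow_one] at hreg1
    have hcz : c = z⁻¹ := by
      have h1 : b * a * b = a * b * b * c := by
        have h2 : a * (b * a * b) = a * (a * b * b * c) := by
          calc a * (b * a * b) = (a * b) ^ 2 := by rw [pow_two]; group
            _ = a ^ 2 * b ^ 2 * c := hreg1
            _ = a * (a * b * b * c) := by rw [pow_two, pow_two]; group
        exact mul_left_cancel h2
      have h3 : b * a * b = z * (b * a) * b * c := by rw [h1, hab]
      have h4 : z * (b * a) * b * c = (b * a * b) * (z * c) := by
        calc z * (b * a) * b * c = (z * (b * a * b)) * c := by group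
          _ = ((b * a * b) * z) * c := by rw [hzc (b * a * b)]
          _ = _ := by group
      rw [h4] at h3
      have h5 : z * c = 1 := by
        have := mul_left_cancel (a := b * a * b) (b := 1) (c := z * c) (by rw [mul_one]; exact h3)
        exact this.symm
      exact eq_inv_of_mul_eq_one_right h5
    have hzpow : z ^ (2 * m + 1) = 1 := by
      rw [zpow_add, zpow_mul, zpow_one]
      have : (z ^ (2 : ℤ)) = z ^ 2 := by norm_cast
      rw [this, hm, hcz, inv_mul_cancel]
    obtain ⟨k, hk⟩ := hG z
    have h1 : orderOf z ∣ 2 ^ k := orderOf_dvd_of_pow_eq_one hk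
    obtain ⟨j, -, hj⟩ := (Nat.dvd_prime_pow Nat.prime_two).1 h1
    have h2 : (orderOf z : ℤ) ∣ 2 * m + 1 := orderOf_dvd_iff_zpow_eq_one.2 hzpow
    rcases Nat.eq_zero_or_pos j with rfl | hjpos
    · rw [pow_zero, orderOf_eq_one_iff] at hj
      exact hz1 hj
    · have h3 : (2 : ℤ) ∣ 2 * m + 1 := by
        refine Dvd.dvd.trans ?_ h2
        rw [hj]
        push_cast
        exact dvd_pow_self 2 hjpos.ne'
      omega
  · intro hab
    refine ⟨hG, fun a b n => ⟨1, one_mem _, ?_⟩⟩
    rw [mul_one, (show Commute a b from hab a b).mul_pow]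

end Cfsg.Agent.S0642
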