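import Cfsg.Statements.S0645
import Cfsg.Agent.Lib_helper7_CycIdx
import Cfsg.Agent.Lib_lead_CharP

set_option autoImplicit false
open Cfsg

namespace Cfsg.Agent.S0645

/-- Classification of p-groups with a cyclic maximal subgroup, odd p: a non-abelian one of order p^n has generators a of order p^(n-1) and b of order p, b outside the cyclic subgroup generated by a, with b a b⁻¹ = a^(1 + p^(n-2)). -/
theorem result {G : Type*} [Group G] [Finite G] {p : ℕ} [Fact p.Prime] (hp : p ≠ 2) (n : ℕ) (hn : 3 ≤ n) (hG : Nat.card G = p ^ n) (C : Subgroup G) (hC : IsCyclic C) (hCi : C.index = p) (hna : ∃ x y : G, x * y ≠ y * x) : ∃ a b : G, orderOf a = p ^ (n - 1) ∧ orderOf b = p ∧ b ∉ Subgroup.zpowers a ∧ b * a * b⁻¹ = a ^ (1 + p ^ (n - 2)) := by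
  have hpp : p.Prime := Fact.out
  have hGp : IsPGroup p G := IsPGroup.of_card hG
  obtain ⟨a, rfl⟩ := Cfsg.Agent.H7.exists_zpowers_eq_of_isCyclic C hC
  haveI hn' : (Subgroup.zpowers a).Normal := Cfsg.Agent.H7.normal_of_index_eq_prime hGp _ hCi
  have hnc : ¬ IsCyclic G := by
    intro h
    obtain ⟨x, y, hxy⟩ := hna
    exact hxy (h.isMulCommutative.is_comm.comm x y)
  obtain ⟨E, hE, hcard, hZ⟩ := Cfsg.Agent.H7.cycIdx_main hp hGp hnc a hCi
  have hoa : orderOf a = p ^ (n - 1) := by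
    have h1 := (Subgroup.zpowers a).card_mul_index
    rw [hCi, hG, Nat.card_zpowers] at h1
    have e : p ^ n = p ^ (n - 1) * p := by rw [← pow_succ]; congr 1; omega
    rw [e] at h1
    exact Nat.eq_of_mul_eq_mul_right hpp.pos h1
  -- an element of `E` outside `⟨a⟩`
  obtain ⟨b0, hb0E, hb0A⟩ : ∃ b0 ∈ E, b0 ∉ Subgroup.zpowers a := by
    by_contra hcon
    push Not at hcon
    have hle : E ≤ Cfsg.Agent.H7.omegaZ a p := fun x hx => ⟨hcon x hx, (hE x).1 hx⟩
    have := Subgroup.card_le_of_le hle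
    rw [hcard, hZ, pow_two] at this
    nlinarith [hpp.one_lt]
  set c := b0 * a * b0⁻¹ * a⁻¹ with hc
  have hcZ : c ∈ Cfsg.Agent.H7.omegaZ a p :=
    Cfsg.Agent.H7.comm_mem_omegaZ hp hGp a hCi b0 (Subgroup.mem_zpowers a)
  have hcen : ∀ {y : G}, y ∈ Cfsg.Agent.H7.omegaZ a p → ∀ x, x * y = y * x :=
    fun hy x => Cfsg.Agent.H7.omegaZ_central hp hGp a hCi hy x
  have hc1 : c ≠ 1 := by
    intro h1
    have hcomm : b0 * a = a * b0 := by
      have : b0 * a * b0⁻¹ * a⁻¹ = 1 := h1
      calc b0 * a = (b0 * a * b0⁻¹ * a⁻¹) * (a * b0) := by group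
        _ = a * b0 := by rw [this, one_mul]
    -- the centralizer of `a` is everything
    have hlt : Subgroup.zpowers a < Subgroup.centralizer {a} := by
      refine lt_of_le_of_ne ?_ ?_
      · rw [Subgroup.zpowers_le]
        exact Subgroup.mem_centralizer_singleton_iff.2 rfl
      · intro h
        apply hb0A
        rw [h]
        exact Subgroup.mem_centralizer_singleton_iff.2 hcomm
    have htop : Subgroup.centralizer {a} = ⊤ := by
      have h1 := Subgroup.relIndex_mul_index hlt.le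
      rw [hCi] at h1
      rcases (Nat.dvd_prime hpp).1 (Dvd.intro_left _ h1) with h | h
      · exact Subgroup.index_eq_one.1 h
      · exfalso
        rw [h] at h1
        have h2 : (Subgroup.zpowers a).relIndex (Subgroup.centralizer {a}) = 1 := by
          have : (Subgroup.zpowers a).relIndex (Subgroup.centralizer {a}) * p = 1 * p := by
            rw [h1, one_mul]
          exact Nat.eq_of_mul_eq_mul_right hpp.pos this
        exact not_le_of_gt hlt (Subgroup.relIndex_eq_one.1 h2)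
    haveI : IsCyclic (G ⧸ Subgroup.zpowers a) :=
      isCyclic_of_prime_card (p := p) (by rw [← Subgroup.index_eq_card, hCi])
    have hker : (QuotientGroup.mk' (Subgroup.zpowers a)).ker ≤ Subgroup.center G := by
      rw [QuotientGroup.ker_mk', Subgroup.zpowers_le, Subgroup.mem_center_iff]
      intro g
      have : g ∈ Subgroup.centralizer {a} := by rw [htop]; trivial
      exact Subgroup.mem_centralizer_singleton_iff.1 this
    obtain ⟨x, y, hxy⟩ := hna
    exact hxy ((MonoidHom.isMulCommutative_of_isCyclic_of_ker_le_center _ hker).is_comm.comm x y)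
  set z := a ^ (p ^ (n - 2)) with hz
  have hzZ : z ∈ Cfsg.Agent.H7.omegaZ a p := by
    refine ⟨Subgroup.pow_mem _ (Subgroup.mem_zpowers a) _, ?_⟩
    rw [hz, ← pow_mul, ← pow_succ]
    have : n - 2 + 1 = n - 1 := by omega
    rw [this, ← hoa, pow_orderOf_eq_one]
  have hz1 : z ≠ 1 := by
    intro h
    have h1 : orderOf a ∣ p ^ (n - 2) := orderOf_dvd_of_pow_eq_one h
    rw [hoa] at h1
    have := (Nat.pow_dvd_pow_iff_le_right hpp.one_lt).1 h1
    omega
  -- `z` is a power of `c`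
  obtain ⟨j, hj⟩ : ∃ j : ℕ, c ^ j = z := by
    haveI : Fact (Nat.card (Cfsg.Agent.H7.omegaZ a p)).Prime := ⟨by rw [hZ]; exact hpp⟩
    have hc' : (⟨c, hcZ⟩ : Cfsg.Agent.H7.omegaZ a p) ≠ 1 := by
      intro h; exact hc1 (congrArg Subtype.val h)
    have h1 : (⟨z, hzZ⟩ : Cfsg.Agent.H7.omegaZ a p) ∈ Subgroup.zpowers (⟨c, hcZ⟩ : Cfsg.Agent.H7.omegaZ a p) :=
      mem_zpowers_of_prime_card (p := p) hZ hc'
    obtain ⟨j, hj⟩ := (mem_powers_iff_mem_zpowers).2 h1
    exact ⟨j, by simpa using congrArg Subtype.val hj⟩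
  have hconj : b0 * a * b0⁻¹ = a * c := by
    rw [hcen hcZ a, hc]; group
  have hbj := Cfsg.Agent.LeadCharP.conj_pow_of_comm hconj (hcen hcZ b0) j
  rw [hj] at hbj
  have hbE : (b0 ^ j) ^ p = 1 := by
    rw [← pow_mul, mul_comm, pow_mul, (hE b0).1 hb0E, one_pow]
  have hbA : b0 ^ j ∉ Subgroup.zpowers a := by
    intro h
    obtain ⟨i, hi⟩ := h
    rw [← hi] at hbj
    apply hz1
    have : a ^ i * a * (a ^ i)⁻¹ = a := by group
    rw [this] at hbj
    exact (mul_eq_left.1 hbj.symm)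
  refine ⟨a, b0 ^ j, hoa, ?_, hbA, ?_⟩
  · apply orderOf_eq_prime hbE
    intro h
    exact hbA (h ▸ Subgroup.one_mem _)
  · rw [hbj, pow_add, pow_one]

end Cfsg.Agent.S0645
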