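import Cfsg.Statements.S0646
import Cfsg.Agent.Lib_helper7_Quat

set_option autoImplicit false
open Cfsg

namespace Cfsg.Agent.S0646

/-- Classification of non-abelian 2-groups with a cyclic maximal subgroup: dihedral, generalized quaternion, and for order at least 16 the modular group and the semidihedral group, each given by generators a (of index 2) and b with the stated relations. -/
theorem result {G : Type*} [Group G] [Finite G] (n : ℕ) (hn : 3 ≤ n) (hG : Nat.card G = 2 ^ n) (C : Subgroup G) (hC : IsCyclic C) (hCi : C.index = 2) (hna : ∃ x y : G, x * y ≠ y * x) : ∃ a b : G, orderOf a = 2 ^ (n - 1) ∧ b ∉ Subgroup.zpowers a ∧ ((b ^ 2 = 1 ∧ b * a * b⁻¹ = a⁻¹) ∨ (b ^ 2 = a ^ (2 ^ (n - 2)) ∧ b * a * b⁻¹ = a⁻¹) ∨ (4 ≤ n ∧ b ^ 2 = 1 ∧ b * a * b⁻¹ = a ^ (1 + 2 ^ (n - 2))) ∨ (4 ≤ n ∧ b ^ 2 = 1 ∧ b * a * b⁻¹ = a ^ (2 ^ (n - 2) - 1))) := by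
  have hGp : IsPGroup 2 G := IsPGroup.of_card hG
  obtain ⟨a, rfl⟩ := Cfsg.Agent.H7.exists_zpowers_eq_of_isCyclic C hC
  haveI hn' : (Subgroup.zpowers a).Normal := Cfsg.Agent.H7.normal_of_index_eq_prime hGp _ hCi
  have hoa : orderOf a = 2 ^ (n - 1) := by
    have h1 := (Subgroup.zpowers a).card_mul_index
    rw [hCi, hG, Nat.card_zpowers] at h1
    have e : 2 ^ n = 2 ^ (n - 1) * 2 := by rw [← pow_succ]; congr 1; omega
    rw [e] at h1
    exact Nat.eq_of_mul_eq_mul_right (by norm_num) h1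
  have hN : (orderOf a : ℤ) = 2 ^ (n - 1) := by rw [hoa]; push_cast; rfl
  obtain ⟨x, hx⟩ : ∃ x, x ∉ Subgroup.zpowers a := by
    by_contra hcon
    push Not at hcon
    have : Subgroup.zpowers a = ⊤ := eq_top_iff.2 (fun x _ => hcon x)
    rw [this, Subgroup.index_top] at hCi
    norm_num at hCi
  have hnc : x * a ≠ a * x := by
    intro h
    obtain ⟨u, v, huv⟩ := hna
    exact huv (Cfsg.Agent.H7.comm_of_index_prime_of_commute (p := 2) a x hn' hCi hx h u v)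
  obtain ⟨r, hr⟩ : x * a * x⁻¹ ∈ Subgroup.zpowers a := hn'.conj_mem a (Subgroup.mem_zpowers a) x
  obtain ⟨k, hk⟩ : x ^ 2 ∈ Subgroup.zpowers a := by
    have := Subgroup.pow_index_mem (Subgroup.zpowers a) x
    rwa [hCi] at this
  have hr' : x * a * x⁻¹ = a ^ r := hr.symm
  have hk' : x ^ 2 = a ^ k := hk.symm
  have hsub : n - 1 - 1 = n - 2 := by omega
  obtain ⟨h1, h2, h⟩ := Cfsg.Agent.H7.idx2_dichotomy a x (n - 1) hoa r k hr' hk' hnc
  rcases h with ⟨t, ht⟩ | ⟨h3, h4, h5⟩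
  · have hb : x * a ^ t ∉ Subgroup.zpowers a := by
      intro h1
      apply hx
      have := mul_mem h1 (zpow_mem (Subgroup.mem_zpowers a) (-t))
      rwa [mul_assoc, ← zpow_add, add_neg_cancel, zpow_zero, mul_one] at this
    have hconj : (x * a ^ t) * a * (x * a ^ t)⁻¹ = a ^ r := by rw [← hr']; group
    rcases Cfsg.Agent.H7.two_adic_class (n - 1) r h1 h2 with h6 | ⟨h6, h7 | h7⟩
    · refine ⟨a, x * a ^ t, hoa, hb, Or.inl ⟨ht, ?_⟩⟩
      rw [hconj, ← zpow_neg_one]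
      apply Cfsg.Agent.H7.zpow_eq_zpow_of_dvd hN
      have : r - -1 = r + 1 := by ring
      rw [this]; exact h6
    · refine ⟨a, x * a ^ t, hoa, hb, Or.inr (Or.inr (Or.inl ⟨by omega, ht, ?_⟩))⟩
      rw [hconj, ← zpow_natCast]
      apply Cfsg.Agent.H7.zpow_eq_zpow_of_dvd hN
      push_cast
      rw [hsub] at h7
      exact h7
    · refine ⟨a, x * a ^ t, hoa, hb, Or.inr (Or.inr (Or.inr ⟨by omega, ht, ?_⟩))⟩
      rw [hconj, ← zpow_natCast]
      apply Cfsg.Agent.H7.zpow_eq_zpow_of_dvd hN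
      rw [Nat.cast_sub Nat.one_le_two_pow]
      push_cast
      rw [hsub] at h7
      exact h7
  · refine ⟨a, x, hoa, hx, Or.inr (Or.inl ⟨?_, h3⟩)⟩
    rw [h4, hsub]

end Cfsg.Agent.S0646
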