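import Mathlib
import Cfsg.Statements.S0660
import Cfsg.Agent.Lib_lead_Gas
import Cfsg.Agent.Lib_helper1_Coprime

set_option autoImplicit false
open Cfsg

namespace Cfsg.Agent.S0660


/-- Under a coprime action on an abelian group, an invariant subgroup that is complemented admits an invariant complement. -/
theorem result {G : Type*} [Group G] [Finite G] (V A U : Subgroup G) (hVab : IsMulCommutative V) (hAV : A ≤ Subgroup.normalizer (V : Set G)) (hcop : (Nat.card A).Coprime (Nat.card V)) (hUV : U ≤ V) (hAU : A ≤ Subgroup.normalizer (U : Set G)) (W : Subgroup G) (hWV : W ≤ V) (hUW : U ⊓ W = ⊥) (hUWV : U ⊔ W = V) : ∃ W' : Subgroup G, W' ≤ V ∧ A ≤ Subgroup.normalizer (W' : Set G) ∧ U ⊓ W' = ⊥ ∧ U ⊔ W' = V := by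
  have hVc : ∀ a ∈ V, ∀ b ∈ V, a * b = b * a := by
    intro a ha b hb
    exact congrArg Subtype.val (mul_comm' (⟨a, ha⟩ : V) ⟨b, hb⟩)
  set H := V ⊔ A with hH
  have hVH : V ≤ H := le_sup_left
  have hAH : A ≤ H := le_sup_right
  have hUH : U ≤ H := hUV.trans hVH
  have hWH : W ≤ H := hWV.trans hVH
  have hVU : V ≤ Subgroup.normalizer (U : Set G) := by
    intro v hv
    rw [Subgroup.mem_normalizer_iff]
    intro u
    constructor
    · intro hu
      rw [hVc v hv u (hUV hu), mul_inv_cancel_right]; exact hu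
    · intro hu
      have h1 : v * u * v⁻¹ ∈ V := hUV hu
      have h2 : u ∈ V := by
        have : u = v⁻¹ * (v * u * v⁻¹) * v := by group
        rw [this]; exact mul_mem (mul_mem (inv_mem hv) h1) hv
      rw [hVc v hv u h2, mul_inv_cancel_right] at hu; exact hu
  haveI hKn : (U.subgroupOf H).Normal :=
    (Subgroup.normal_subgroupOf_iff_le_normalizer hUH).2 (sup_le hVU hAU)
  haveI hV'n : (V.subgroupOf H).Normal :=
    (Subgroup.normal_subgroupOf_iff_le_normalizer hVH).2 (sup_le Subgroup.le_normalizer hAV)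
  haveI hKc : IsMulCommutative (U.subgroupOf H) :=
    ⟨⟨fun a b => Subtype.ext (Subtype.ext (hVc _ (hUV a.2) _ (hUV b.2)))⟩⟩
  have hidx : (V.subgroupOf H).index ∣ Nat.card A := by
    have h1 := H1.card_sup_mul_card_inf' V A hAV
    have h2 := H1.relIndex_mul_card' hVH
    rw [← hH, ← h2] at h1
    have h3 : V.relIndex H * Nat.card (V ⊓ A : Subgroup G) = Nat.card A := by
      apply Nat.eq_of_mul_eq_mul_left (Nat.card_pos (α := V))
      rw [← h1]; ring
    exact Dvd.intro _ h3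
  have hcop' : (Nat.card (U.subgroupOf H)).Coprime (V.subgroupOf H).index := by
    rw [H1.card_subgroupOf_of_le hUH]
    exact (Nat.Coprime.coprime_dvd_left hidx
      (Nat.Coprime.coprime_dvd_right (Subgroup.card_dvd_of_le hUV) hcop)).symm
  obtain ⟨X, hX⟩ := LeadGas.gaschutz_exists (K := U.subgroupOf H) (U := V.subgroupOf H)
    (A := W.subgroupOf H) (fun x hx => hUV hx) hcop'
    (by
      rw [eq_bot_iff]
      intro x hx
      have h1 : (x : G) ∈ U ⊓ W := ⟨hx.2, hx.1⟩
      rw [hUW, Subgroup.mem_bot] at h1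
      exact Subgroup.mem_bot.2 (Subtype.ext h1)) (by
      rw [← Subgroup.subgroupOf_sup hUH hWH, hUWV])
  set K := U.subgroupOf H with hK
  set V' := V.subgroupOf H with hV'
  set Y := X ⊓ V' with hY
  have hdec : ∀ h : H, ∃ k ∈ K, ∃ x ∈ X, h = k * x := by
    intro h
    have h1 : h ∈ K ⊔ X := by rw [hX.sup_eq_top]; trivial
    obtain ⟨k, hk, x, hx, rfl⟩ := Subgroup.mem_sup_of_normal_left.1 h1
    exact ⟨k, hk, x, hx, rfl⟩
  have hKV' : K ≤ V' := fun x hx => hUV hx
  have hV'c : ∀ a ∈ V', ∀ b ∈ V', a * b = b * a :=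
    fun a ha b hb => Subtype.ext (hVc _ ha _ hb)
  have hYn : Y.Normal := by
    constructor
    intro y hy h
    obtain ⟨k, hk, x, hx, rfl⟩ := hdec h
    have h1 : x * y * x⁻¹ ∈ Y :=
      Subgroup.mem_inf.2 ⟨X.mul_mem (X.mul_mem hx hy.1) (X.inv_mem hx), hV'n.conj_mem y hy.2 x⟩
    have h2 : k * x * y * (k * x)⁻¹ = k * (x * y * x⁻¹) * k⁻¹ := by group
    rw [h2, hV'c k (hKV' hk) _ h1.2, mul_inv_cancel_right]
    exact h1
  have hKY : K ⊓ Y = ⊥ := by
    rw [eq_bot_iff, ← hX.disjoint.eq_bot]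
    exact inf_le_inf le_rfl inf_le_left
  have hKYs : K ⊔ Y = V' := by
    apply le_antisymm (sup_le hKV' inf_le_right)
    intro v hv
    obtain ⟨k, hk, x, hx, rfl⟩ := hdec v
    have hxV : x ∈ V' := by
      have : x = k⁻¹ * (k * x) := by group
      rw [this]; exact mul_mem (inv_mem (hKV' hk)) hv
    exact mul_mem (Subgroup.mem_sup_left hk) (Subgroup.mem_sup_right ⟨hx, hxV⟩)
  have hKm : K.map H.subtype = U := by
    rw [hK, Subgroup.subgroupOf_map_subtype, inf_eq_left.2 hUH]
  have hVm : V'.map H.subtype = V := by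
    rw [hV', Subgroup.subgroupOf_map_subtype, inf_eq_left.2 hVH]
  refine ⟨Y.map H.subtype, ?_, ?_, ?_, ?_⟩
  · rw [← hVm]; exact Subgroup.map_mono inf_le_right
  · have h1 := Subgroup.le_normalizer_map (H := Y) H.subtype
    rw [Subgroup.normalizer_eq_top_iff.2 hYn, ← MonoidHom.range_eq_map,
      Subgroup.range_subtype] at h1
    exact hAH.trans h1
  · rw [← hKm, ← Subgroup.map_inf _ _ _ H.subtype_injective, hKY, Subgroup.map_bot]
  · rw [← hKm, ← Subgroup.map_sup, hKYs, hVm]

end Cfsg.Agent.S0660
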