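import Cfsg.Statements.S0666
import Mathlib
import Cfsg.Agent.Lib_lead_Frob2

set_option autoImplicit false
open Cfsg

namespace Cfsg.Agent.S0666

open scoped Pointwise IsMulCommutative


/-- A Frobenius group acting on a nontrivial abelian group of order prime to that of its kernel, with the kernel acting without nontrivial fixed points, has a complement with a nontrivial fixed point. -/
theorem result {G : Type*} [Group G] [Finite G] (V F : Subgroup G) (hVab : IsMulCommutative V) (hV1 : V ≠ ⊥) (hFV : F ≤ Subgroup.normalizer (V : Set G)) (H : Subgroup ↥F) (hH : Cfsg.IsFrobeniusComplement H) (hcop : (Nat.card V).Coprime (Nat.card (Cfsg.frobeniusKernel H))) (hCK : V ⊓ Subgroup.centralizer (Subtype.val '' Cfsg.frobeniusKernel H : Set G) = ⊥) : V ⊓ Subgroup.centralizer ((H.map F.subtype : Subgroup G) : Set G) ≠ ⊥ := by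
  classical
  intro hCH
  obtain ⟨N, hN, hNn, hc⟩ := Cfsg.Agent.H3.frobenius_theorem H hH
  let φ : F →* MulAut V := V.normalizerMonoidHom.comp (Subgroup.inclusion hFV)
  have hφ : ∀ (f : F) (v : V), ((φ f v : V) : G) = (f : G) * v * (f : G)⁻¹ := fun f v => rfl
  have hfix : ∀ (f : F) (v : V), φ f v = v → (f : G) * v = v * f := by
    intro f v h
    have h1 := congrArg Subtype.val h
    rw [hφ] at h1
    exact mul_inv_eq_iff_eq_mul.1 h1
  have key := Cfsg.Agent.LeadFrob.pow_card_eq_one_of_action φ N H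
    (by
      intro v hv
      have h1 : (v : G) ∈ V ⊓ Subgroup.centralizer (Subtype.val '' Cfsg.frobeniusKernel H : Set G) := by
        refine Subgroup.mem_inf.2 ⟨v.2, ?_⟩
        rw [Subgroup.mem_centralizer_iff]
        rintro _ ⟨m, hm, rfl⟩
        rw [← hN] at hm
        exact hfix m v (hv m hm)
      rw [hCK, Subgroup.mem_bot] at h1
      exact Subtype.ext h1)
    (by
      intro v hv
      have h1 : (v : G) ∈ V ⊓ Subgroup.centralizer ((H.map F.subtype : Subgroup G) : Set G) := by
        refine Subgroup.mem_inf.2 ⟨v.2, ?_⟩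
        rw [Subgroup.mem_centralizer_iff]
        rintro _ ⟨m, hm, rfl⟩
        exact hfix m v (hv m hm)
      rw [hCH, Subgroup.mem_bot] at h1
      exact Subtype.ext h1)
    (by
      intro b hb hb1 m hm hmb
      have h1 : m ∈ H := by
        apply Cfsg.Agent.H3.frob_mem_of_conj_mem hH hb hb1
        rw [mul_assoc, ← hmb, inv_mul_cancel_left]; exact hb
      have h2 : m ∈ N ⊓ H := ⟨hm, h1⟩
      rw [hc.disjoint.eq_bot, Subgroup.mem_bot] at h2
      exact h2)
  apply hV1
  rw [eq_bot_iff]
  intro x hx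
  rw [Subgroup.mem_bot]
  have h1 := key ⟨x, hx⟩
  have h2 : orderOf (⟨x, hx⟩ : V) ∣ Nat.card N := orderOf_dvd_of_pow_eq_one h1
  have h3 : orderOf (⟨x, hx⟩ : V) ∣ Nat.card V := orderOf_dvd_natCard _
  have h4 : Nat.card N = Nat.card (Cfsg.frobeniusKernel H) := by rw [← hN]; rfl
  rw [h4] at h2
  have h5 := Nat.eq_one_of_dvd_coprimes hcop h3 h2
  have h6 := orderOf_eq_one_iff.1 h5
  exact congrArg Subtype.val h6

end Cfsg.Agent.S0666
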