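import Cfsg.Statements.S0668
import Mathlib

set_option autoImplicit false
open Cfsg

namespace Cfsg.Agent.S0668

/-- The equivariant linear maps between the permutation modules of two finite `G`-sets form a space whose dimension is the number of `G`-orbits on the product of the two sets. -/
theorem result {G : Type*} [Group G] {K : Type*} [Field K] {Ω₁ Ω₂ : Type*} [Fintype Ω₁] [Fintype Ω₂] [MulAction G Ω₁] [MulAction G Ω₂] : Module.finrank K ((Cfsg.permRep K G Ω₁).linHom (Cfsg.permRep K G Ω₂)).invariants = Nat.card (MulAction.orbitRel.Quotient G (Ω₁ × Ω₂)) := by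
  classical
  haveI : Finite (MulAction.orbitRel.Quotient G (Ω₁ × Ω₂)) := Quotient.finite _
  letI : Fintype (MulAction.orbitRel.Quotient G (Ω₁ × Ω₂)) := Fintype.ofFinite _
  let mkQ : Ω₁ × Ω₂ → MulAction.orbitRel.Quotient G (Ω₁ × Ω₂) := Quotient.mk _
  have hmk : ∀ (g : G) (x : Ω₁) (y : Ω₂), mkQ (g • x, g • y) = mkQ (x, y) := by
    intro g x y
    apply Quotient.sound
    show (g • x, g • y) ∈ MulAction.orbit G (x, y)
    exact ⟨g, rfl⟩
  let Ψ : (MulAction.orbitRel.Quotient G (Ω₁ × Ω₂) → K) →ₗ[K] ((Ω₁ → K) →ₗ[K] (Ω₂ → K)) :=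
    LinearMap.mk₂ K (fun c f y => ∑ x, c (mkQ (x, y)) * f x)
      (by intro c c' f; funext y; simp [add_mul, Finset.sum_add_distrib])
      (by intro a c f; funext y; simp [Finset.mul_sum, mul_assoc])
      (by intro c f f'; funext y; simp [mul_add, Finset.sum_add_distrib])
      (by intro a c f; funext y; simp [Finset.mul_sum, mul_left_comm])
  have hΨ : ∀ c f y, Ψ c f y = ∑ x, c (mkQ (x, y)) * f x := fun _ _ _ => rfl
  let δ : Ω₁ → (Ω₁ → K) := fun x j => if x = j then 1 else 0
  have hΨδ : ∀ c x y, Ψ c (δ x) y = c (mkQ (x, y)) := by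
    intro c x y
    rw [hΨ]
    simp [δ]
  have hinj : Function.Injective Ψ := by
    rw [← LinearMap.ker_eq_bot, LinearMap.ker_eq_bot']
    intro c hc
    funext q
    obtain ⟨⟨x, y⟩, rfl⟩ := Quotient.exists_rep q
    have := hΨδ c x y
    rw [hc] at this
    exact this.symm
  have hρδ : ∀ (g : G) (x : Ω₁), Cfsg.permRep K G Ω₁ g (δ x) = δ (g • x) := by
    intro g x
    funext j
    show (if x = g⁻¹ • j then (1 : K) else 0) = if g • x = j then 1 else 0
    simp only [eq_inv_smul_iff]
  have hrange : LinearMap.range Ψ =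
      ((Cfsg.permRep K G Ω₁).linHom (Cfsg.permRep K G Ω₂)).invariants := by
    apply le_antisymm
    · rintro _ ⟨c, rfl⟩
      rw [Representation.mem_invariants]
      intro g
      rw [Representation.linHom_apply]
      apply LinearMap.ext
      intro f
      funext y
      show Ψ c (Cfsg.permRep K G Ω₁ g⁻¹ f) (g⁻¹ • y) = Ψ c f y
      rw [hΨ, hΨ]
      apply Fintype.sum_equiv (MulAction.toPerm g)
      intro x
      show c (mkQ (x, g⁻¹ • y)) * f ((g⁻¹)⁻¹ • x) = c (mkQ (g • x, y)) * f (g • x)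
      rw [inv_inv, ← hmk g x (g⁻¹ • y), smul_inv_smul]
    · intro T hT
      rw [Representation.mem_invariants] at hT
      have hTinv : ∀ (g : G) (x : Ω₁) (y : Ω₂), T (δ (g • x)) (g • y) = T (δ x) y := by
        intro g x y
        have h1 := hT g
        rw [Representation.linHom_apply] at h1
        have h2 := congrFun (congrArg (fun S : (Ω₁ → K) →ₗ[K] (Ω₂ → K) => S (δ (g • x))) h1) (g • y)
        rw [← h2]
        show T (Cfsg.permRep K G Ω₁ g⁻¹ (δ (g • x))) (g⁻¹ • (g • y)) = T (δ x) y
        rw [hρδ, inv_smul_smul, inv_smul_smul]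
      refine ⟨fun q => T (δ q.out.1) q.out.2, ?_⟩
      apply LinearMap.ext
      intro f
      funext y
      rw [hΨ, LinearMap.pi_apply_eq_sum_univ T f, Finset.sum_apply]
      apply Finset.sum_congr rfl
      intro x _
      have h3 : (mkQ (x, y)).out ∈ MulAction.orbit G (x, y) := Quotient.mk_out (s := MulAction.orbitRel G (Ω₁ × Ω₂)) (x, y)
      obtain ⟨g, hg⟩ := h3
      have h4 : T (δ (mkQ (x, y)).out.1) (mkQ (x, y)).out.2 = T (δ x) y := by
        rw [← hg]
        exact hTinv g x y
      rw [h4, Pi.smul_apply, smul_eq_mul, mul_comm]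
  rw [← hrange, LinearMap.finrank_range_of_inj hinj, Module.finrank_fintype_fun_eq_card,
    Nat.card_eq_fintype_card]

end Cfsg.Agent.S0668
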