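import Cfsg.Statements.S0670
import Mathlib
import Cfsg.Agent.Lib_lead_FixV

set_option autoImplicit false
open Cfsg

namespace Cfsg.Agent.S0670

/-- In characteristic `p`, the permutation module of a transitive action of degree `p ^ f` has the line of constant functions as its only irreducible submodule: every non-zero subrepresentation contains it. -/
theorem result {G : Type*} [Group G] [Finite G] {K : Type*} [Field K] {p f : ℕ} [Fact p.Prime] [CharP K p] {Ω : Type*} [Fintype Ω] [MulAction G Ω] [MulAction.IsPretransitive G Ω] (hf : 1 ≤ f) (hcard : Fintype.card Ω = p ^ f) (W : Subrepresentation (Cfsg.permRep K G Ω)) (hW : W.toSubmodule ≠ ⊥) : (Cfsg.permConstants K G Ω).toSubmodule ≤ W.toSubmodule := by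
  classical
  obtain ⟨P⟩ : Nonempty (Sylow p G) := inferInstance
  have horb : ∀ ω : Ω, MulAction.orbit (P : Subgroup G) ω = Set.univ := by
    intro ω
    set S := MulAction.stabilizer G ω with hS
    have h1 : S.index = p ^ f := by
      rw [hS, MulAction.index_stabilizer, MulAction.orbit_eq_univ, Set.ncard_univ,
        Nat.card_eq_fintype_card, hcard]
    have h2 : (S ⊓ (P : Subgroup G)).relIndex P * (P : Subgroup G).index = (S ⊓ (P : Subgroup G)).index :=
      Subgroup.relIndex_mul_index inf_le_right
    rw [Subgroup.inf_relIndex_right] at h2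
    have h3 : S.index ∣ (S ⊓ (P : Subgroup G)).index := Subgroup.index_dvd_of_le inf_le_left
    rw [← h2, h1] at h3
    have h4 : Nat.Coprime (p ^ f) (P : Subgroup G).index := by
      apply Nat.Coprime.pow_left
      exact (Nat.Prime.coprime_iff_not_dvd (Fact.out)).mpr P.not_dvd_index
    have h5 : p ^ f ∣ S.relIndex P := h4.dvd_of_dvd_mul_right h3
    have h6 : MulAction.stabilizer (P : Subgroup G) ω = S.subgroupOf P := by
      ext u
      rw [Subgroup.mem_subgroupOf, MulAction.mem_stabilizer_iff, MulAction.mem_stabilizer_iff]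
      rfl
    have h7 : S.relIndex P = (MulAction.orbit (P : Subgroup G) ω).ncard := by
      rw [← MulAction.index_stabilizer, h6]
      rfl
    rw [h7] at h5
    have h8 : 0 < (MulAction.orbit (P : Subgroup G) ω).ncard := by
      rw [Set.ncard_pos]
      exact MulAction.nonempty_orbit ω
    have h9 := Nat.le_of_dvd h8 h5
    rw [← hcard, ← Nat.card_eq_fintype_card, ← Set.ncard_univ] at h9
    exact Set.eq_of_subset_of_ncard_le (Set.subset_univ _) h9
  obtain ⟨w, hwW, hw0, hwfix⟩ := Cfsg.Agent.LeadBr.fixed_vector p P.isPGroup'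
    (((Cfsg.permRep K G Ω : G →* Module.End K (Ω → K))).comp (P : Subgroup G).subtype) W.toSubmodule hW
    (fun u w hw => W.apply_mem_toSubmodule u hw)
  have hconst : ∀ x y : Ω, w x = w y := by
    intro x y
    have hy : y ∈ MulAction.orbit (P : Subgroup G) x := by rw [horb]; trivial
    obtain ⟨u, rfl⟩ := hy
    have := congrFun (hwfix u⁻¹) x
    rw [← this]
    show w ((((u⁻¹ : (P : Subgroup G)) : G))⁻¹ • x) = w (u • x)
    simp
    rfl
  obtain ⟨x0, hx0⟩ : ∃ x, w x ≠ 0 := by
    by_contra hcon
    push Not at hcon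
    exact hw0 (funext hcon)
  show Submodule.span K {fun _ => 1} ≤ W.toSubmodule
  rw [Submodule.span_le, Set.singleton_subset_iff]
  have : (fun _ : Ω => (1 : K)) = (w x0)⁻¹ • w := by
    funext y
    rw [Pi.smul_apply, smul_eq_mul, hconst y x0, inv_mul_cancel₀ hx0]
  rw [this]
  exact W.toSubmodule.smul_mem _ hwW

end Cfsg.Agent.S0670
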