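import Cfsg.Statements.S0671
import Mathlib
import Cfsg.Agent.S0670

set_option autoImplicit false
open Cfsg

namespace Cfsg.Agent.S0671

theorem dual_aux {G : Type*} [Group G] [Finite G] {K : Type*} [Field K] {p f : ℕ} [Fact p.Prime]
    [CharP K p] {Ω : Type*} [Fintype Ω] [MulAction G Ω] [MulAction.IsPretransitive G Ω] (hf : 1 ≤ f)
    (hcard : Fintype.card Ω = p ^ f) (U : Subrepresentation (Cfsg.permRep K G Ω))
    (hU : U.toSubmodule ≠ ⊤) : U.toSubmodule ≤ (Cfsg.permSumZero K G Ω).toSubmodule := by
  classical
  obtain ⟨ℓ, hℓ0, hℓ⟩ := Submodule.exists_le_ker_of_lt_top U.toSubmodule (lt_top_iff_ne_top.mpr hU)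
  let Uperp : Subrepresentation (Cfsg.permRep K G Ω) :=
    { toSubmodule :=
        { carrier := {f | ∀ u ∈ U.toSubmodule, ∑ x, f x * u x = 0}
          add_mem' := by
            intro f₁ f₂ h₁ h₂ u hu
            simp only [Pi.add_apply, add_mul, Finset.sum_add_distrib]
            rw [h₁ u hu, h₂ u hu, add_zero]
          zero_mem' := by
            intro u _
            simp
          smul_mem' := by
            intro c f hf u hu
            simp only [Pi.smul_apply, smul_eq_mul, mul_assoc, ← Finset.mul_sum]
            rw [hf u hu, mul_zero] }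
      apply_mem_toSubmodule := by
        intro g f hf u hu
        have h1 := hf _ (U.apply_mem_toSubmodule g⁻¹ hu)
        rw [← h1]
        apply Fintype.sum_equiv (MulAction.toPerm g⁻¹)
        intro x
        show f (g⁻¹ • x) * u x = f (g⁻¹ • x) * u ((g⁻¹)⁻¹ • (g⁻¹ • x))
        simp }
  have hform : ∀ u : Ω → K, ℓ u = ∑ x, ℓ (fun j => if x = j then 1 else 0) * u x := by
    intro u
    rw [LinearMap.pi_apply_eq_sum_univ ℓ u]
    apply Finset.sum_congr rfl
    intro x _
    rw [smul_eq_mul, mul_comm]
  have hne : Uperp.toSubmodule ≠ ⊥ := by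
    intro hbot
    have hmem : (fun x => ℓ (fun j => if x = j then 1 else 0)) ∈ Uperp.toSubmodule := by
      intro u hu
      rw [← hform u]
      exact hℓ hu
    rw [hbot, Submodule.mem_bot] at hmem
    apply hℓ0
    apply LinearMap.ext
    intro u
    rw [hform u]
    simp only [congrFun hmem, Pi.zero_apply, zero_mul, Finset.sum_const_zero, LinearMap.zero_apply]
  have h1 := Cfsg.Agent.S0670.result hf hcard Uperp hne
  have h2 : (fun _ : Ω => (1 : K)) ∈ Uperp.toSubmodule :=
    h1 (Submodule.subset_span (Set.mem_singleton _))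
  intro u hu
  have h3 := h2 u hu
  simp only [one_mul] at h3
  exact h3


/-- If the heart of the permutation module in characteristic `p` of a transitive action of degree `p ^ f` has no trivial composition factor, the action is doubly transitive. The hypothesis is phrased without composition series: no invariant subspaces `W < W'` between the constants and the sum-zero functions with trivial action on the quotient. -/
theorem result {G : Type*} [Group G] [Finite G] {K : Type*} [Field K] {p f : ℕ} [Fact p.Prime] [CharP K p] {Ω : Type*} [Fintype Ω] [MulAction G Ω] [MulAction.IsPretransitive G Ω] (hf : 1 ≤ f) (hcard : Fintype.card Ω = p ^ f) (h : ∀ W W' : Subrepresentation (Cfsg.permRep K G Ω), (Cfsg.permConstants K G Ω).toSubmodule ≤ W.toSubmodule → W.toSubmodule < W'.toSubmodule → W'.toSubmodule ≤ (Cfsg.permSumZero K G Ω).toSubmodule → ∃ g : G, ∃ v ∈ W'.toSubmodule, Cfsg.permRep K G Ω g v - v ∉ W.toSubmodule) : MulAction.IsMultiplyPretransitive G Ω 2 := by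
  classical
  rw [MulAction.is_two_pretransitive_iff]
  have key : ∀ a b : Ω, a ≠ b → ∀ y : Ω, y ≠ a → ∃ g : G, g • a = a ∧ g • b = y := by
    intro a b hab y hya
    let A : (Ω → K) →ₗ[K] (Ω → K) :=
      { toFun := fun f x => ∑ y, (if ∃ g : G, g • a = x ∧ g • b = y then f y else 0)
        map_add' := by
          intro f₁ f₂
          funext x
          simp only [Pi.add_apply, ← Finset.sum_add_distrib]
          apply Finset.sum_congr rfl
          intro y _
          split_ifs <;> simp
        map_smul' := by
          intro c f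
          funext x
          simp only [Pi.smul_apply, smul_eq_mul, RingHom.id_apply, Finset.mul_sum]
          apply Finset.sum_congr rfl
          intro y _
          split_ifs <;> simp }
    have hA : ∀ f x, A f x = ∑ y, (if ∃ g : G, g • a = x ∧ g • b = y then f y else 0) :=
      fun _ _ => rfl
    have hAeq : ∀ (g : G) (f : Ω → K),
        A (Cfsg.permRep K G Ω g f) = Cfsg.permRep K G Ω g (A f) := by
      intro g f
      funext x
      show A (Cfsg.permRep K G Ω g f) x = A f (g⁻¹ • x)
      rw [hA, hA]
      apply Fintype.sum_equiv (MulAction.toPerm g⁻¹)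
      intro y
      show (if ∃ h : G, h • a = x ∧ h • b = y then f (g⁻¹ • y) else 0) =
        (if ∃ h : G, h • a = g⁻¹ • x ∧ h • b = g⁻¹ • y then f (g⁻¹ • y) else 0)
      have : (∃ h : G, h • a = x ∧ h • b = y) ↔ (∃ h : G, h • a = g⁻¹ • x ∧ h • b = g⁻¹ • y) := by
        constructor
        · rintro ⟨h, rfl, rfl⟩
          exact ⟨g⁻¹ * h, mul_smul _ _ _, mul_smul _ _ _⟩
        · rintro ⟨h, h1, h2⟩
          refine ⟨g * h, ?_, ?_⟩
          · rw [mul_smul, h1, smul_inv_smul]
          · rw [mul_smul, h2, smul_inv_smul]
      simp only [this]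
    set one : Ω → K := fun _ => 1 with hone
    set d : K := A one a with hd
    have hA1 : A one = d • one := by
      funext x
      obtain ⟨g, rfl⟩ := MulAction.exists_smul_eq G a x
      have h1 := congrFun (hAeq g⁻¹ one) a
      have h2 : Cfsg.permRep K G Ω g⁻¹ one = one := rfl
      rw [h2] at h1
      have h3 : Cfsg.permRep K G Ω g⁻¹ (A one) a = A one (g • a) := by
        show A one ((g⁻¹)⁻¹ • a) = _
        rw [inv_inv]
      rw [h3] at h1
      rw [← h1]
      simp [hone, hd]
    let φ : (Ω → K) →ₗ[K] (Ω → K) := A - d • LinearMap.id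
    have hφ : ∀ f, φ f = A f - d • f := fun _ => rfl
    have hφeq : ∀ (g : G) (f : Ω → K),
        φ (Cfsg.permRep K G Ω g f) = Cfsg.permRep K G Ω g (φ f) := by
      intro g f
      rw [hφ, hφ, hAeq, map_sub, map_smul]
    have hφ1 : φ one = 0 := by rw [hφ, hA1, sub_self]
    let W' : Subrepresentation (Cfsg.permRep K G Ω) :=
      { toSubmodule := LinearMap.range φ
        apply_mem_toSubmodule := by
          rintro g _ ⟨f, rfl⟩
          exact ⟨_, hφeq g f⟩ }
    let W : Subrepresentation (Cfsg.permRep K G Ω) :=
      { toSubmodule := (Cfsg.permSumZero K G Ω).toSubmodule.map φ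
        apply_mem_toSubmodule := by
          rintro g _ ⟨f, hf, rfl⟩
          exact ⟨_, (Cfsg.permSumZero K G Ω).apply_mem_toSubmodule g hf, hφeq g f⟩ }
    let Kr : Subrepresentation (Cfsg.permRep K G Ω) :=
      { toSubmodule := LinearMap.ker φ
        apply_mem_toSubmodule := by
          intro g f hf
          rw [LinearMap.mem_ker] at hf ⊢
          rw [hφeq, hf, map_zero] }
    have hone0 : one ≠ 0 := by
      intro h0
      have := congrFun h0 a
      simp [hone] at this
    have hW'top : W'.toSubmodule ≠ ⊤ := by
      intro htop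
      have hsurj : Function.Surjective φ := LinearMap.range_eq_top.mp htop
      have hinj : Function.Injective φ := LinearMap.injective_iff_surjective.mpr hsurj
      exact hone0 (hinj (by rw [hφ1, map_zero]))
    have hW'S := dual_aux hf hcard W' hW'top
    have hWW' : W.toSubmodule ≤ W'.toSubmodule := by
      rintro _ ⟨f, _, rfl⟩
      exact ⟨f, rfl⟩
    have hsingle : ∀ x : Ω,
        (Pi.single x (1:K) : Ω → K) ∉ (Cfsg.permSumZero K G Ω).toSubmodule := by
      intro x hx
      have : ∑ y, (Pi.single x (1:K) : Ω → K) y = 0 := hx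
      simp at this
    have hφS : ∀ s ∈ (Cfsg.permSumZero K G Ω).toSubmodule, φ s = 0 := by
      by_cases hWbot : W.toSubmodule = ⊥
      · intro s hs
        have : φ s ∈ W.toSubmodule := ⟨s, hs, rfl⟩
        rw [hWbot] at this
        exact (Submodule.mem_bot K).mp this
      · have hCW := Cfsg.Agent.S0670.result hf hcard W hWbot
        by_cases hlt : W.toSubmodule < W'.toSubmodule
        · exfalso
          obtain ⟨g, v, ⟨f, rfl⟩, hv⟩ := h W W' hCW hlt hW'S
          apply hv
          refine ⟨Cfsg.permRep K G Ω g f - f, ?_, ?_⟩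
          · show ∑ x, (f (g⁻¹ • x) - f x) = 0
            rw [Finset.sum_sub_distrib, sub_eq_zero]
            exact Fintype.sum_equiv (MulAction.toPerm g⁻¹) _ _ (fun x => rfl)
          · rw [map_sub, hφeq]
        · have heq : W.toSubmodule = W'.toSubmodule := by
            by_contra hne
            exact hlt (lt_of_le_of_ne hWW' hne)
          have hker : Kr.toSubmodule = ⊤ := by
            by_contra hne
            have hle := dual_aux hf hcard Kr hne
            have h1 : φ (Pi.single a 1) ∈ W.toSubmodule := by rw [heq]; exact ⟨_, rfl⟩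
            obtain ⟨s, hs, hs2⟩ := h1
            have h2 : Pi.single a 1 - s ∈ Kr.toSubmodule := by
              show _ ∈ LinearMap.ker φ
              rw [LinearMap.mem_ker, map_sub, hs2, sub_self]
            have h3 := hle h2
            have h4 := (Cfsg.permSumZero K G Ω).toSubmodule.add_mem h3 hs
            rw [sub_add_cancel] at h4
            exact hsingle a h4
          intro s _
          have : s ∈ Kr.toSubmodule := by rw [hker]; trivial
          exact LinearMap.mem_ker.mp this
    have hAs : ∀ z x : Ω, A (Pi.single z 1) x = if ∃ g : G, g • a = x ∧ g • b = z then 1 else 0 := by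
      intro z x
      rw [hA, Finset.sum_eq_single z]
      · simp
      · intro y' _ hne
        simp [Pi.single_eq_of_ne hne]
      · intro hz
        exact absurd (Finset.mem_univ z) hz
    have h5 := hφS (Pi.single b 1 - Pi.single y 1) (by
      show ∑ x, ((Pi.single b (1:K) : Ω → K) x - (Pi.single y (1:K) : Ω → K) x) = 0
      simp)
    have h6 := congrFun h5 a
    rw [hφ, map_sub] at h6
    simp only [Pi.sub_apply, Pi.smul_apply, hAs, Pi.single_eq_of_ne hab, Pi.single_eq_of_ne hya.symm,
      sub_zero, smul_zero, Pi.zero_apply] at h6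
    have h7 : ∃ g : G, g • a = a ∧ g • b = b := ⟨1, one_smul _ _, one_smul _ _⟩
    rw [if_pos h7] at h6
    by_contra hcon
    rw [if_neg hcon] at h6
    simp at h6
  intro a b c d hab hcd
  obtain ⟨h1, rfl⟩ := MulAction.exists_smul_eq G a c
  have hne : h1 • b ≠ h1 • a := fun e => hab (smul_left_cancel h1 e).symm
  obtain ⟨g, hg1, hg2⟩ := key (h1 • a) (h1 • b) hne.symm d hcd.symm
  exact ⟨g * h1, by rw [mul_smul, hg1], by rw [mul_smul, hg2]⟩

end Cfsg.Agent.S0671
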