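import Cfsg.Statements.S0681
import Mathlib

set_option autoImplicit false
open Cfsg

namespace Cfsg.Agent.S0681

section
variable {F : Type*} [Cfsg.NearField F]

theorem zero_mul' (a : F) : (0 : F) * a = 0 := by
  have h := NearField.right_distrib (0 : F) 0 a
  rw [add_zero] at h
  simpa using h

theorem neg_mul' (x a : F) : (-x) * a = -(x * a) := by
  have h := NearField.right_distrib (-x) x a
  rw [neg_add_cancel, zero_mul'] at h
  exact eq_neg_of_add_eq_zero_left h.symm

theorem mul_ne_zero' {c a : F} (hc : c ≠ 0) (ha : a ≠ 0) : c * a ≠ 0 := by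
  intro h
  obtain ⟨a', ha', -⟩ := NearField.exists_inv a ha
  apply hc
  have : c = (c * a) * a' := by rw [mul_assoc, ha', mul_one]
  rw [this, h, zero_mul']

/-- the affine permutation `x ↦ x * a + b`. -/
def aff (a a' b : F) (h1 : a * a' = 1) (h2 : a' * a = 1) : Equiv.Perm F where
  toFun x := x * a + b
  invFun y := (y + -b) * a'
  left_inv x := by
    show (x * a + b + -b) * a' = x
    rw [add_neg_cancel_right, mul_assoc, h1, mul_one]
  right_inv y := by
    show (y + -b) * a' * a + b = y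
    rw [mul_assoc, h2, mul_one, neg_add_cancel_right]

def affH : Subgroup (Equiv.Perm F) where
  carrier := {σ | ∃ a b : F, a ≠ 0 ∧ ∀ x : F, σ x = x * a + b}
  one_mem' := ⟨1, 0, fun h => NearField.zero_ne_one h.symm, fun x => by simp⟩
  mul_mem' := by
    rintro σ τ ⟨a, b, ha, hσ⟩ ⟨c, d, hc, hτ⟩
    refine ⟨c * a, d * a + b, mul_ne_zero' hc ha, fun x => ?_⟩
    rw [Equiv.Perm.mul_apply, hτ, hσ, NearField.right_distrib, mul_assoc, add_assoc]
  inv_mem' := by
    rintro σ ⟨a, b, ha, hσ⟩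
    obtain ⟨a', h1, h2⟩ := NearField.exists_inv a ha
    have ha' : a' ≠ 0 := by
      rintro rfl
      rw [zero_mul'] at h2
      exact NearField.zero_ne_one h2
    refine ⟨a', (-b) * a', ha', fun x => ?_⟩
    apply σ.injective
    rw [Equiv.Perm.inv_def, Equiv.apply_symm_apply, hσ, NearField.right_distrib, mul_assoc, mul_assoc, h2, mul_one,
      mul_one, neg_add_cancel_right]

end

/-- The affine maps `x ↦ x * a + b`, `a ≠ 0`, of a near-field form a sharply doubly transitive permutation group. -/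
theorem result {F : Type*} [Cfsg.NearField F] : ∃ H : Subgroup (Equiv.Perm F), (∀ σ : Equiv.Perm F, σ ∈ H ↔ ∃ a b : F, a ≠ 0 ∧ ∀ x : F, σ x = x * a + b) ∧ MulAction.IsMultiplyPretransitive H F 2 ∧ ∀ x : Fin 2 ↪ F, MulAction.stabilizer H x = ⊥ := by
  refine ⟨affH, fun σ => Iff.rfl, ?_, ?_⟩
  · rw [MulAction.is_two_pretransitive_iff]
    intro x₁ x₂ y₁ y₂ hx hy
    have hu : x₁ + -x₂ ≠ 0 := by
      intro h
      exact hx (eq_of_sub_eq_zero (by rw [sub_eq_add_neg]; exact h))
    have hv : y₁ + -y₂ ≠ 0 := by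
      intro h
      exact hy (eq_of_sub_eq_zero (by rw [sub_eq_add_neg]; exact h))
    obtain ⟨u', hu1, hu2⟩ := NearField.exists_inv _ hu
    have hu' : u' ≠ 0 := by
      rintro rfl
      rw [zero_mul'] at hu2
      exact NearField.zero_ne_one hu2
    have ha : u' * (y₁ + -y₂) ≠ 0 := mul_ne_zero' hu' hv
    obtain ⟨a', h1, h2⟩ := NearField.exists_inv _ ha
    refine ⟨⟨aff (u' * (y₁ + -y₂)) a' (-(x₂ * (u' * (y₁ + -y₂))) + y₂) h1 h2,
      ⟨_, _, ha, fun x => rfl⟩⟩, ?_, ?_⟩
    · show x₁ * (u' * (y₁ + -y₂)) + (-(x₂ * (u' * (y₁ + -y₂))) + y₂) = y₁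
      rw [← add_assoc, ← neg_mul', ← NearField.right_distrib, ← mul_assoc, hu1, one_mul,
        neg_add_cancel_right]
    · show x₂ * (u' * (y₁ + -y₂)) + (-(x₂ * (u' * (y₁ + -y₂))) + y₂) = y₂
      rw [add_neg_cancel_left]
  · intro x
    rw [eq_bot_iff]
    rintro ⟨σ, a, b, ha, hσ⟩ hfix
    rw [MulAction.mem_stabilizer_iff] at hfix
    have h0 : σ (x 0) = x 0 := congrArg (fun e : Fin 2 ↪ F => e 0) hfix
    have h1 : σ (x 1) = x 1 := congrArg (fun e : Fin 2 ↪ F => e 1) hfix
    rw [hσ] at h0 h1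
    have hne : x 0 ≠ x 1 := fun h => by
      have := x.injective h
      exact absurd this (by decide)
    have hu : x 0 + -x 1 ≠ 0 := by
      intro h
      exact hne (eq_of_sub_eq_zero (by rw [sub_eq_add_neg]; exact h))
    obtain ⟨u', hu1, hu2⟩ := NearField.exists_inv _ hu
    have h2 : (x 0 + -x 1) * a = x 0 + -x 1 := by
      rw [NearField.right_distrib, neg_mul']
      conv_rhs => rw [← h0, ← h1]
      rw [neg_add_rev, ← add_assoc, add_neg_cancel_right]
    have ha1 : a = 1 := by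
      have h3 : u' * ((x 0 + -x 1) * a) = u' * (x 0 + -x 1) := by rw [h2]
      rw [← mul_assoc, hu2, one_mul] at h3
      exact h3
    have hb0 : b = 0 := by
      rw [ha1, mul_one] at h0
      simpa using h0
    rw [Subgroup.mem_bot]
    apply Subtype.ext
    apply Equiv.ext
    intro y
    show σ y = y
    rw [hσ, ha1, hb0, mul_one, add_zero]

end Cfsg.Agent.S0681
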