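import Cfsg.Statements.S0682
import Mathlib

set_option autoImplicit false
open Cfsg

namespace Cfsg.Agent.S0682

/-- A finite near-field has prime-power order; its additive group is commutative of prime exponent. -/
theorem result {F : Type*} [Cfsg.NearField F] [Finite F] : ∃ p j : ℕ, p.Prime ∧ 1 ≤ j ∧ Nat.card F = p ^ j ∧ (∀ x y : F, x + y = y + x) ∧ ∀ x : F, p • x = 0 := by
  have zero_mul' : ∀ a : F, (0 : F) * a = 0 := by
    intro a
    have h := NearField.right_distrib (0 : F) 0 a
    rw [add_zero] at h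
    simpa using h
  have nsmul_mul' : ∀ (n : ℕ) (x a : F), (n • x) * a = n • (x * a) := by
    intro n x a
    induction n with
    | zero => rw [zero_nsmul, zero_nsmul, zero_mul']
    | succ n ih => rw [succ_nsmul, succ_nsmul, NearField.right_distrib, ih]
  haveI : Nontrivial F := ⟨0, 1, NearField.zero_ne_one⟩
  have hcard : 1 < Nat.card F := Finite.one_lt_card
  obtain ⟨p, hp, hpd⟩ := Nat.exists_prime_and_dvd hcard.ne'
  haveI : Fact p.Prime := ⟨hp⟩
  obtain ⟨x₀, hx₀⟩ := exists_prime_addOrderOf_dvd_card' (G := F) p hpd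
  have hx₀ne : x₀ ≠ 0 := by
    rintro rfl
    rw [addOrderOf_zero] at hx₀
    exact hp.one_lt.ne hx₀
  have hpx₀ : p • x₀ = 0 := by rw [← hx₀]; exact addOrderOf_nsmul_eq_zero x₀
  have htrans : ∀ x y : F, x ≠ 0 → ∃ a, x * a = y := by
    intro x y hx
    obtain ⟨b, hb, -⟩ := NearField.exists_inv x hx
    exact ⟨b * y, by rw [← mul_assoc, hb, one_mul]⟩
  have hexp : ∀ x : F, p • x = 0 := by
    intro x
    obtain ⟨a, rfl⟩ := htrans x₀ x hx₀ne
    rw [← nsmul_mul', hpx₀, zero_mul']
  have hPG : IsPGroup p (Multiplicative F) := fun g =>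
    ⟨1, by rw [pow_one]; exact congrArg Multiplicative.ofAdd (hexp g.toAdd)⟩
  obtain ⟨j, hj⟩ := IsPGroup.iff_card.1 hPG
  have hj' : Nat.card F = p ^ j := by
    rw [← hj]; exact Nat.card_congr Multiplicative.ofAdd
  have hj1 : 1 ≤ j := by
    rcases Nat.eq_zero_or_pos j with rfl | h
    · rw [pow_zero] at hj'; omega
    · exact h
  haveI := hPG.center_nontrivial
  obtain ⟨z, hz⟩ := exists_ne (1 : Subgroup.center (Multiplicative F))
  have hz0 : Multiplicative.toAdd (z : Multiplicative F) ≠ 0 := by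
    intro h
    apply hz
    apply Subtype.ext
    exact h
  have hzc : ∀ x : F, x + Multiplicative.toAdd (z : Multiplicative F) =
      Multiplicative.toAdd (z : Multiplicative F) + x := fun x =>
    Subgroup.mem_center_iff.1 z.2 (Multiplicative.ofAdd x)
  refine ⟨p, j, hp, hj1, hj', ?_, hexp⟩
  intro x y
  by_cases hy : y = 0
  · rw [hy, add_zero, zero_add]
  obtain ⟨a, ha⟩ := htrans _ y hz0
  have ha0 : a ≠ 0 := by
    rintro rfl
    rw [NearField.mul_zero] at ha
    exact hy ha.symm
  obtain ⟨b, -, hb⟩ := NearField.exists_inv a ha0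
  have hx : x = (x * b) * a := by rw [mul_assoc, hb, mul_one]
  rw [← ha]
  conv_lhs => rw [hx]
  conv_rhs => rw [hx]
  rw [← NearField.right_distrib, ← NearField.right_distrib, hzc]

end Cfsg.Agent.S0682
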