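import Cfsg.Statements.S0691
import Mathlib
import Cfsg.Agent.Lib_helper7_GL25

set_option autoImplicit false
open Cfsg

namespace Cfsg.Agent.S0691

open Matrix Cfsg.Agent.H7.GL25

/-- An exceptional sharply doubly transitive group of degree 5^2: the listed matrices generate a subgroup of GL(2,5) of order 24 acting regularly on the non-zero vectors. -/
theorem result (A : Matrix.GeneralLinearGroup (Fin 2) (ZMod 5)) (B : Matrix.GeneralLinearGroup (Fin 2) (ZMod 5)) (C : Matrix.GeneralLinearGroup (Fin 2) (ZMod 5)) (hA : (A : Matrix (Fin 2) (Fin 2) (ZMod 5)) = !![2, 0; 0, -2]) (hB : (B : Matrix (Fin 2) (Fin 2) (ZMod 5)) = !![0, -1; 1, 0]) (hC : (C : Matrix (Fin 2) (Fin 2) (ZMod 5)) = !![1, 2; 1, -2]) : Nat.card (Subgroup.closure ({A, B, C} : Set (Matrix.GeneralLinearGroup (Fin 2) (ZMod 5)))) = 24 ∧ ∀ v w : Fin 2 → ZMod 5, v ≠ 0 → w ≠ 0 → ∃! h : Subgroup.closure ({A, B, C} : Set (Matrix.GeneralLinearGroup (Fin 2) (ZMod 5))), Matrix.mulVec ((h : Matrix.GeneralLinearGroup (Fin 2)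 (ZMod 5)) : Matrix (Fin 2) (Fin 2) (ZMod 5)) v = w := by
  classical
  set gG : Fin 3 → Matrix.GeneralLinearGroup (Fin 2) (ZMod 5) := ![A, B, C] with hgG
  have hg : ∀ i, ((gG i : Matrix.GeneralLinearGroup (Fin 2) (ZMod 5)) : M2) = gm i := by
    intro i
    fin_cases i
    · exact hA
    · exact hB
    · exact hC
  have hword : ∀ w : List (Fin 3),
      (((w.map gG).prod : Matrix.GeneralLinearGroup (Fin 2) (ZMod 5)) : M2) = wordMat w := by
    intro w
    induction w with
    | nil => rfl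
    | cons i w ih =>
      simp only [List.map_cons, List.prod_cons, Units.val_mul, ih, hg, wordMat]
  have hwmem : ∀ w : List (Fin 3), (w.map gG).prod ∈
      Subgroup.closure ({A, B, C} : Set (Matrix.GeneralLinearGroup (Fin 2) (ZMod 5))) := by
    intro w
    apply Subgroup.list_prod_mem
    intro x hx
    obtain ⟨i, -, rfl⟩ := List.mem_map.mp hx
    apply Subgroup.subset_closure
    fin_cases i <;> simp [hgG]
  have hchar : ∀ g : Matrix.GeneralLinearGroup (Fin 2) (ZMod 5),
      g ∈ Subgroup.closure ({A, B, C} : Set (Matrix.GeneralLinearGroup (Fin 2) (ZMod 5))) ↔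
        (g : M2) ∈ Lst := by
    intro g
    constructor
    · intro hg'
      induction hg' using Subgroup.closure_induction with
      | mem x hx =>
        rcases hx with rfl | rfl | rfl
        · rw [hA]; exact Lst_gen 0
        · rw [hB]; exact Lst_gen 1
        · rw [hC]; exact Lst_gen 2
      | one => exact Lst_one
      | mul x y _ _ hx hy => rw [Units.val_mul]; exact Lst_mul _ hx _ hy
      | inv x _ hx =>
        obtain ⟨y, hy, hxy, hyx⟩ := Lst_inv _ hx
        have : ((x⁻¹ : Matrix.GeneralLinearGroup (Fin 2) (ZMod 5)) : M2) = y := by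
          calc ((x⁻¹ : Matrix.GeneralLinearGroup (Fin 2) (ZMod 5)) : M2)
              = ((x⁻¹ : Matrix.GeneralLinearGroup (Fin 2) (ZMod 5)) : M2) * ((x : M2) * y) := by
                rw [hxy, mul_one]
            _ = y := by rw [← mul_assoc, Units.inv_mul, one_mul]
        rw [this]; exact hy
    · intro hg'
      obtain ⟨w, -, hw⟩ := Lst_word _ hg'
      have : g = (w.map gG).prod := Units.ext (by rw [hword, hw])
      rw [this]; exact hwmem w
  refine ⟨?_, ?_⟩
  · rw [← Lst_card, ← Fintype.card_coe, ← Nat.card_eq_fintype_card]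
    apply Nat.card_eq_of_bijective
      (fun g : Subgroup.closure ({A, B, C} : Set (Matrix.GeneralLinearGroup (Fin 2) (ZMod 5))) =>
        (⟨((g : Matrix.GeneralLinearGroup (Fin 2) (ZMod 5)) : M2),
          List.mem_toFinset.mpr ((hchar g.1).mp g.2)⟩ : {x // x ∈ Lst.toFinset}))
    constructor
    · intro g₁ g₂ h
      apply Subtype.ext
      apply Units.ext
      exact congrArg Subtype.val h
    · rintro ⟨x, hx⟩
      have hx' := List.mem_toFinset.mp hx
      obtain ⟨y, hy, hxy, hyx⟩ := Lst_inv x hx'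
      exact ⟨⟨⟨x, y, hxy, hyx⟩, (hchar _).mpr hx'⟩, rfl⟩
  · intro v w hv hw
    obtain ⟨x, hx, hxv⟩ := Lst_trans v w hv hw
    obtain ⟨y, hy, hxy, hyx⟩ := Lst_inv x hx
    refine ⟨⟨⟨x, y, hxy, hyx⟩, (hchar _).mpr hx⟩, hxv, ?_⟩
    rintro ⟨h, hh⟩ hhv
    have hhv' : (h : M2) *ᵥ v = w := hhv
    have h1 : (y * (h : M2)) *ᵥ v = v := by
      rw [← mulVec_mulVec, hhv', ← hxv, mulVec_mulVec, hyx, one_mulVec]
    have h2 := Lst_fpf _ (Lst_mul _ hy _ ((hchar h).mp hh)) v hv h1
    apply Subtype.ext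
    apply Units.ext
    change (h : M2) = x
    calc (h : M2) = (x * y) * h := by rw [hxy, one_mul]
      _ = x := by rw [mul_assoc, h2, mul_one]

end Cfsg.Agent.S0691
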