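import Cfsg.Statements.S0692
import Mathlib
import Cfsg.Agent.Lib_helper7_GL211

set_option autoImplicit false
open Cfsg

namespace Cfsg.Agent.S0692

open Matrix Cfsg.Agent.H7.GL211

/-- An exceptional sharply doubly transitive group of degree 11^2: the listed matrices generate a subgroup of GL(2,11) of order 120 acting regularly on the non-zero vectors. -/
theorem result (A : Matrix.GeneralLinearGroup (Fin 2) (ZMod 11)) (B : Matrix.GeneralLinearGroup (Fin 2) (ZMod 11)) (hA : (A : Matrix (Fin 2) (Fin 2) (ZMod 11)) = !![0, -1; 1, 0]) (hB : (B : Matrix (Fin 2) (Fin 2) (ZMod 11)) = !![2, 4; 1, -3]) : Nat.card (Subgroup.closure ({A, B} : Set (Matrix.GeneralLinearGroup (Fin 2) (ZMod 11)))) = 120 ∧ ∀ v w : Fin 2 → ZMod 11, v ≠ 0 → w ≠ 0 → ∃! h : Subgroup.closure ({A, B} : Set (Matrix.GeneralLinearGroup (Fin 2) (ZMod 11))), Matrix.mulVec ((h : Matrix.GeneralLinearGroup (Fin 2) (ZMod 11)) : Matrix (Fin 2) (Fin 2) (ZMod 11)) v = w := by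
  classical
  set gG : Fin 2 → Matrix.GeneralLinearGroup (Fin 2) (ZMod 11) := ![A, B] with hgG
  have hg : ∀ i, ((gG i : Matrix.GeneralLinearGroup (Fin 2) (ZMod 11)) : M2) = gm i := by
    intro i
    fin_cases i
    · exact hA
    · exact hB
  have hginv : ∀ i, (((gG i)⁻¹ : Matrix.GeneralLinearGroup (Fin 2) (ZMod 11)) : M2) = gi i := by
    intro i
    have h1 := gi_gm i
    rw [← hg i] at h1
    calc (((gG i)⁻¹ : Matrix.GeneralLinearGroup (Fin 2) (ZMod 11)) : M2)
        = (gi i * (gG i : M2)) * (((gG i)⁻¹ : Matrix.GeneralLinearGroup (Fin 2) (ZMod 11)) : M2) := by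
          rw [h1, one_mul]
      _ = gi i := by rw [mul_assoc, Units.mul_inv, mul_one]
  have hword : ∀ w : List (Fin 2),
      (((w.map gG).prod : Matrix.GeneralLinearGroup (Fin 2) (ZMod 11)) : M2) = wordMat w := by
    intro w
    induction w with
    | nil => rfl
    | cons i w ih =>
      simp only [List.map_cons, List.prod_cons, Units.val_mul, ih, hg, wordMat]
  have hwmem : ∀ w : List (Fin 2), (w.map gG).prod ∈
      Subgroup.closure ({A, B} : Set (Matrix.GeneralLinearGroup (Fin 2) (ZMod 11))) := by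
    intro w
    apply Subgroup.list_prod_mem
    intro x hx
    obtain ⟨i, -, rfl⟩ := List.mem_map.mp hx
    apply Subgroup.subset_closure
    fin_cases i <;> simp [hgG]
  have hlift : ∀ x ∈ Lst, ∃ h : Matrix.GeneralLinearGroup (Fin 2) (ZMod 11),
      h ∈ Subgroup.closure ({A, B} : Set (Matrix.GeneralLinearGroup (Fin 2) (ZMod 11))) ∧
        (h : M2) = x := by
    intro x hx
    obtain ⟨p, hp, hpx⟩ := List.mem_map.mp hx
    exact ⟨(p.2.map gG).prod, hwmem _, by rw [hword, Pairs_word p hp, hpx]⟩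
  have hchar : ∀ g : Matrix.GeneralLinearGroup (Fin 2) (ZMod 11),
      g ∈ Subgroup.closure ({A, B} : Set (Matrix.GeneralLinearGroup (Fin 2) (ZMod 11))) →
        (g : M2) ∈ Lst := by
    intro g hg'
    induction hg' using Subgroup.closure_induction_left with
    | one => exact Lst_one
    | mul_left x hx y _ ih =>
      rw [Units.val_mul]
      rcases hx with hx | hx
      · rw [hx]
        have := Lst_gm 0 _ ih
        rw [← hg 0] at this
        exact this
      · rw [Set.mem_singleton_iff.mp hx]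
        have := Lst_gm 1 _ ih
        rw [← hg 1] at this
        exact this
    | inv_mul_cancel x hx y _ ih =>
      rw [Units.val_mul]
      rcases hx with hx | hx
      · rw [hx]
        have := Lst_gi 0 _ ih
        rw [← hginv 0] at this
        exact this
      · rw [Set.mem_singleton_iff.mp hx]
        have := Lst_gi 1 _ ih
        rw [← hginv 1] at this
        exact this
  refine ⟨?_, ?_⟩
  · rw [← Lst_card, ← Fintype.card_coe, ← Nat.card_eq_fintype_card]
    apply Nat.card_eq_of_bijective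
      (fun g : Subgroup.closure ({A, B} : Set (Matrix.GeneralLinearGroup (Fin 2) (ZMod 11))) =>
        (⟨((g : Matrix.GeneralLinearGroup (Fin 2) (ZMod 11)) : M2),
          List.mem_toFinset.mpr (hchar g.1 g.2)⟩ : {x // x ∈ Lst.toFinset}))
    constructor
    · intro g₁ g₂ h
      apply Subtype.ext
      apply Units.ext
      exact congrArg Subtype.val h
    · rintro ⟨x, hx⟩
      obtain ⟨h, hh, hhx⟩ := hlift x (List.mem_toFinset.mp hx)
      exact ⟨⟨h, hh⟩, Subtype.ext hhx⟩
  · intro v w hv hw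
    obtain ⟨xv, hxv, hxv'⟩ := Lst_trans v hv
    obtain ⟨xw, hxw, hxw'⟩ := Lst_trans w hw
    obtain ⟨a, ha, rfl⟩ := hlift xv hxv
    obtain ⟨b, hb, rfl⟩ := hlift xw hxw
    have hainv : ((a⁻¹ : Matrix.GeneralLinearGroup (Fin 2) (ZMod 11)) : M2) *ᵥ v = e1 := by
      rw [← hxv', mulVec_mulVec, Units.inv_mul, one_mulVec]
    refine ⟨⟨b * a⁻¹, Subgroup.mul_mem _ hb (Subgroup.inv_mem _ ha)⟩, ?_, ?_⟩
    · change ((b * a⁻¹ : Matrix.GeneralLinearGroup (Fin 2) (ZMod 11)) : M2) *ᵥ v = w
      rw [Units.val_mul, ← mulVec_mulVec, hainv, hxw']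
    · rintro ⟨h, hh⟩ hhv
      have hhv' : (h : M2) *ᵥ v = w := hhv
      have hfix : ((b⁻¹ * h * a : Matrix.GeneralLinearGroup (Fin 2) (ZMod 11)) : M2) *ᵥ e1 = e1 := by
        rw [Units.val_mul, Units.val_mul, ← mulVec_mulVec, ← mulVec_mulVec, hxv', hhv', ← hxw',
          mulVec_mulVec, Units.inv_mul, one_mulVec]
      have hmem : b⁻¹ * h * a ∈
          Subgroup.closure ({A, B} : Set (Matrix.GeneralLinearGroup (Fin 2) (ZMod 11))) :=
        Subgroup.mul_mem _ (Subgroup.mul_mem _ (Subgroup.inv_mem _ hb) hh) ha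
      have h1 := Lst_fix _ (hchar _ hmem) hfix
      have h2 : b⁻¹ * h * a = 1 := Units.ext h1
      apply Subtype.ext
      change h = b * a⁻¹
      have h3 : h = b * (b⁻¹ * h * a) * a⁻¹ := by group
      rw [h3, h2, mul_one]

end Cfsg.Agent.S0692
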