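import Cfsg.Statements.S0695
import Mathlib
import Cfsg.Agent.Lib_helper7_RegNormal

set_option autoImplicit false
open Cfsg

namespace Cfsg.Agent.S0695

/-- A regular normal subgroup of a doubly primitive group of finite degree at least 2 is an elementary abelian 2-group (and the degree is a power of 2), unless the degree is 3. -/
theorem result {G : Type*} [Group G] {X : Type*} [Fintype X] [MulAction G X] (hX : 2 ≤ Fintype.card X) (h2 : MulAction.IsMultiplyPreprimitive G X 2) (N : Subgroup G) [N.Normal] (htrans : MulAction.IsPretransitive N X) (hreg : ∀ x : X, MulAction.stabilizer N x = ⊥) : Fintype.card X = 3 ∨ (IsMulCommutative N ∧ (∀ n ∈ N, n ^ 2 = 1) ∧ ∃ m : ℕ, Fintype.card X = 2 ^ m) := by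
  classical
  haveI : Nonempty X := Fintype.card_pos_iff.1 (by omega)
  obtain ⟨x₀⟩ := ‹Nonempty X›
  have hprim : MulAction.IsPreprimitive (fixingSubgroup G ({x₀} : Set X))
      (SubMulAction.ofFixingSubgroup G ({x₀} : Set X)) :=
    MulAction.IsMultiplyPreprimitive.isPreprimitive_ofFixingSubgroup G 2 (s := {x₀})
      (by rw [Set.encard_singleton]; rfl)
  have hex : ∀ y : X, ∃ n ∈ N, n • x₀ = y := fun y => by
    obtain ⟨n, hn⟩ := htrans.exists_smul_eq x₀ y
    exact ⟨n.1, n.2, hn⟩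
  choose ν hνN hν using hex
  have hνu : ∀ n ∈ N, ν (n • x₀) = n := fun n hn =>
    H7.regular_unique N hreg x₀ (hνN _) hn (hν _)
  let ι : X → X := fun y => (ν y)⁻¹ • x₀
  have hνι : ∀ y, ν (ι y) = (ν y)⁻¹ := fun y => hνu _ (N.inv_mem (hνN y))
  have hιι : ∀ y, ι (ι y) = y := by
    intro y
    show (ν (ι y))⁻¹ • x₀ = y
    rw [hνι, inv_inv, hν]
  have hν0 : ν x₀ = 1 := by
    have := hνu 1 N.one_mem
    rwa [one_smul] at this
  have hι0 : ι x₀ = x₀ := by
    show (ν x₀)⁻¹ • x₀ = x₀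
    rw [hν0]; simp
  have hs : ∀ y, y ∉ ({x₀} : Set X) → ι y ∉ ({x₀} : Set X) := by
    intro y hy h
    apply hy
    rw [Set.mem_singleton_iff] at h ⊢
    rw [← hιι y, h, hι0]
  have heq : ∀ g ∈ fixingSubgroup G ({x₀} : Set X), ∀ y, g • ι y = ι (g • y) := by
    intro g hg y
    have hg0 : g • x₀ = x₀ := (mem_fixingSubgroup_iff G).1 hg x₀ rfl
    have hg0' : g⁻¹ • x₀ = x₀ := by rw [inv_smul_eq_iff, hg0]
    have h1 : ν (g • y) = g * ν y * g⁻¹ := by
      apply H7.regular_unique N hreg x₀ (hνN _) (‹N.Normal›.conj_mem _ (hνN y) g)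
      rw [hν, mul_smul, mul_smul, hg0', hν]
    show g • ((ν y)⁻¹ • x₀) = (ν (g • y))⁻¹ • x₀
    rw [h1]
    have e : (g * ν y * g⁻¹)⁻¹ = g * (ν y)⁻¹ * g⁻¹ := by group
    rw [e, mul_smul, mul_smul, hg0']
  by_cases h3 : Fintype.card X = 3
  · left; exact h3
  right
  have hsq : ∀ n ∈ N, n ^ 2 = 1 := by
    intro n hn
    by_cases hn0 : n • x₀ = x₀
    · have : n = 1 := H7.regular_unique N hreg x₀ hn N.one_mem (by rw [hn0, one_smul])
      rw [this]; simp
    rcases H7.invol_fixing {x₀} hprim ι hιι hs heq (n • x₀) hn0 with h | h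
    · have h4 : n⁻¹ • x₀ = n • x₀ := by
        have h40 : ι (n • x₀) = (ν (n • x₀))⁻¹ • x₀ := rfl
        rw [h40, hνu n hn] at h; exact h
      have h5 : n⁻¹ = n := H7.regular_unique N hreg x₀ (N.inv_mem hn) hn h4
      rw [pow_two]; nth_rewrite 1 [← h5]; simp
    · exfalso
      have h6 := H7.card_ofFixingSubgroup (G := G) ({x₀} : Set X)
      rw [h, Set.ncard_singleton, Nat.card_eq_fintype_card] at h6
      omega
  have hinj : Function.Injective (fun n : N => (n : G) • x₀) := fun n n' h =>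
    Subtype.ext (H7.regular_unique N hreg x₀ n.2 n'.2 h)
  have hsurj : Function.Surjective (fun n : N => (n : G) • x₀) := fun y => ⟨⟨ν y, hνN y⟩, hν y⟩
  haveI : Finite N := Finite.of_injective _ hinj
  refine ⟨⟨⟨fun a b => Subtype.ext ?_⟩⟩, hsq, ?_⟩
  · have ha : (a : G) * a = 1 := by rw [← pow_two]; exact hsq a a.2
    have hb : (b : G) * b = 1 := by rw [← pow_two]; exact hsq b b.2
    have hab : ((a : G) * b) * (a * b) = 1 := by rw [← pow_two]; exact hsq _ (N.mul_mem a.2 b.2)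
    show (a : G) * b = b * a
    symm
    calc (b : G) * a = (a * a) * (b * a) * (b * b) := by rw [ha, hb]; group
      _ = a * ((a * b) * (a * b)) * b := by group
      _ = a * b := by rw [hab]; group
  · haveI : Fact (Nat.Prime 2) := ⟨Nat.prime_two⟩
    have hPG : IsPGroup 2 N := fun n => ⟨1, by rw [pow_one]; exact Subtype.ext (hsq n n.2)⟩
    obtain ⟨m, hm⟩ := IsPGroup.iff_card.1 hPG
    refine ⟨m, ?_⟩
    rw [← hm, ← Nat.card_eq_fintype_card]
    exact (Nat.card_congr (Equiv.ofBijective _ ⟨hinj, hsurj⟩)).symm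

end Cfsg.Agent.S0695
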