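import Cfsg.Statements.S0696
import Mathlib
import Cfsg.Agent.Lib_helper7_RegNormal
import Cfsg.Agent.S0695

set_option autoImplicit false
open Cfsg

namespace Cfsg.Agent.S0696

/-- A triply primitive group of degree at least 3 having a regular normal subgroup has degree 3 or 4. -/
theorem result {G : Type*} [Group G] {X : Type*} [Fintype X] [MulAction G X] (hX : 3 ≤ Fintype.card X) (h3 : MulAction.IsMultiplyPreprimitive G X 3) (N : Subgroup G) [N.Normal] (htrans : MulAction.IsPretransitive N X) (hreg : ∀ x : X, MulAction.stabilizer N x = ⊥) : Fintype.card X = 3 ∨ Fintype.card X = 4 := by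
  classical
  have h2 : MulAction.IsMultiplyPreprimitive G X 2 :=
    MulAction.isMultiplyPreprimitive_of_le G X h3 (by norm_num) (by
      rw [ENat.card_eq_coe_fintype_card]
      exact_mod_cast hX)
  rcases S0695.result (by omega) h2 N htrans hreg with h | ⟨-, hsq, -⟩
  · left; exact h
  right
  haveI : Nonempty X := Fintype.card_pos_iff.1 (by omega)
  obtain ⟨x₀⟩ := ‹Nonempty X›
  obtain ⟨y₁, hy₁⟩ : ∃ y₁ : X, y₁ ≠ x₀ := by
    haveI : Nontrivial X := Fintype.one_lt_card_iff_nontrivial.1 (by omega)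
    exact exists_ne x₀
  obtain ⟨a', ha'⟩ := htrans.exists_smul_eq x₀ y₁
  obtain ⟨a, haN, ha⟩ : ∃ a ∈ N, a • x₀ = y₁ := ⟨a'.1, a'.2, ha'⟩
  have haa : a * a = 1 := by rw [← pow_two]; exact hsq a haN
  have ha1 : a ≠ 1 := by
    rintro rfl
    rw [one_smul] at ha
    exact hy₁ ha.symm
  have hprim : MulAction.IsPreprimitive (fixingSubgroup G ({x₀, y₁} : Set X))
      (SubMulAction.ofFixingSubgroup G ({x₀, y₁} : Set X)) :=
    MulAction.IsMultiplyPreprimitive.isPreprimitive_ofFixingSubgroup G 3 (s := {x₀, y₁})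
      (by rw [Set.encard_pair (Ne.symm hy₁)]; rfl)
  have hιι : ∀ y : X, a • (a • y) = y := by
    intro y; rw [← mul_smul, haa, one_smul]
  have hay₁ : a • y₁ = x₀ := by rw [← ha, hιι]
  have hs : ∀ y, y ∉ ({x₀, y₁} : Set X) → a • y ∉ ({x₀, y₁} : Set X) := by
    intro y hy h
    apply hy
    simp only [Set.mem_insert_iff, Set.mem_singleton_iff] at h ⊢
    rcases h with h | h
    · right; rw [← hιι y, h, ha]
    · left; rw [← hιι y, h, hay₁]
  have heq : ∀ g ∈ fixingSubgroup G ({x₀, y₁} : Set X), ∀ y : X, g • (a • y) = a • (g • y) := by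
    intro g hg y
    have hg0 : g • x₀ = x₀ := (mem_fixingSubgroup_iff G).1 hg x₀ (by simp)
    have hg1 : g • y₁ = y₁ := (mem_fixingSubgroup_iff G).1 hg y₁ (by simp)
    have hg0' : g⁻¹ • x₀ = x₀ := by rw [inv_smul_eq_iff, hg0]
    have h1 : g * a * g⁻¹ = a := by
      apply H7.regular_unique N hreg x₀ (‹N.Normal›.conj_mem _ haN g) haN
      rw [mul_smul, mul_smul, hg0', ha, hg1]
    have h2 : g * a = a * g := by
      calc g * a = (g * a * g⁻¹) * g := by group
        _ = a * g := by rw [h1]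
    rw [← mul_smul, h2, mul_smul]
  have h6 := H7.card_ofFixingSubgroup (G := G) ({x₀, y₁} : Set X)
  rw [Set.ncard_pair (Ne.symm hy₁)] at h6
  have hcX : Nat.card X = Fintype.card X := Nat.card_eq_fintype_card
  have hpos : 0 < Nat.card (SubMulAction.ofFixingSubgroup G ({x₀, y₁} : Set X)) := by omega
  obtain ⟨⟨y, hy⟩⟩ := (Finite.card_pos_iff).1 hpos
  rcases H7.invol_fixing {x₀, y₁} hprim (fun y => a • y) hιι hs heq y hy with h | h
  · exfalso
    exact ha1 (H7.regular_unique N hreg y haN N.one_mem (by rw [one_smul]; exact h))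
  · omega

end Cfsg.Agent.S0696
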