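import Cfsg.Statements.S0701
import Mathlib
import Cfsg.Agent.Lib_lead_Perm

set_option autoImplicit false
open Cfsg

namespace Cfsg.Agent.S0701

/-- The centraliser in the full symmetric group of a transitive permutation group `G` is semiregular, and it is transitive if and only if `G` is regular. -/
theorem result {α : Type*} (G : Subgroup (Equiv.Perm α)) [MulAction.IsPretransitive G α] : (∀ c ∈ Subgroup.centralizer (G : Set (Equiv.Perm α)), ∀ a : α, c a = a → c = 1) ∧ (MulAction.IsPretransitive (Subgroup.centralizer (G : Set (Equiv.Perm α))) α ↔ ∀ a : α, MulAction.stabilizer G a = ⊥) := by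
  classical
  have ht := LeadPerm.trans_of_pretransitive G
  refine ⟨fun c hc a h => LeadPerm.semireg_centralizer ht hc h, ?_, ?_⟩
  · intro hC a
    have hCt := LeadPerm.trans_of_pretransitive (Subgroup.centralizer (G : Set (Equiv.Perm α)))
    rw [eq_bot_iff]
    intro g hg
    have hg' : (g : Equiv.Perm α) a = a := hg
    have hle : G ≤ Subgroup.centralizer ((Subgroup.centralizer (G : Set (Equiv.Perm α)) : Subgroup _) : Set (Equiv.Perm α)) := by
      intro x hx
      rw [Subgroup.mem_centralizer_iff]
      intro c hc
      exact (Subgroup.mem_centralizer_iff.mp hc x hx).symm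
    have := LeadPerm.semireg_of_commute hCt hle g.2 hg'
    rw [Subgroup.mem_bot]
    exact Subtype.ext this
  · intro hreg
    apply LeadPerm.pretransitive_of_trans
    intro a b
    obtain ⟨h, hh, hab⟩ := ht a b
    have hinj : Function.Injective (fun g : G => (g : Equiv.Perm α) a) := by
      intro g g' hgg
      have : g'⁻¹ * g ∈ MulAction.stabilizer G a := by
        rw [MulAction.mem_stabilizer_iff]
        change ((g' : Equiv.Perm α)⁻¹ * (g : Equiv.Perm α)) a = a
        simp only [Equiv.Perm.mul_apply]
        have hgg' : (g : Equiv.Perm α) a = (g' : Equiv.Perm α) a := hgg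
        rw [hgg']; simp
      rw [hreg a, Subgroup.mem_bot] at this
      calc g = g' * (g'⁻¹ * g) := by group
        _ = g' := by rw [this, mul_one]
    have hsurj : Function.Surjective (fun g : G => (g : Equiv.Perm α) a) := by
      intro x
      obtain ⟨g, hg, hx⟩ := ht a x
      exact ⟨⟨g, hg⟩, hx⟩
    let e : G ≃ α := Equiv.ofBijective _ ⟨hinj, hsurj⟩
    have he : ∀ g : G, e g = (g : Equiv.Perm α) a := fun g => rfl
    let c : Equiv.Perm α := e.symm.trans ((Equiv.mulRight (⟨h, hh⟩ : G)).trans e)
    have hc : ∀ g : G, c ((g : Equiv.Perm α) a) = (g : Equiv.Perm α) (h a) := by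
      intro g
      change e (e.symm ((g : Equiv.Perm α) a) * ⟨h, hh⟩) = _
      rw [← he g, Equiv.symm_apply_apply, he]
      rfl
    refine ⟨c, ?_, ?_⟩
    · rw [Subgroup.mem_centralizer_iff]
      intro k hk
      ext x
      obtain ⟨g, rfl⟩ := hsurj x
      simp only [Equiv.Perm.mul_apply]
      rw [hc g]
      have := hc (⟨k, hk⟩ * g)
      simp only [Subgroup.coe_mul, Equiv.Perm.mul_apply] at this
      rw [this]
    · have := hc 1
      simpa [hab] using this

end Cfsg.Agent.S0701
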