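import Cfsg.Statements.S0702
import Mathlib

set_option autoImplicit false
open Cfsg

namespace Cfsg.Agent.S0702

theorem mem_norm_of_map_le {G : Type*} [Group G] [Finite G] (P : Subgroup G) (n : G)
    (h : ∀ q ∈ P, n * q * n⁻¹ ∈ P) : n ∈ Subgroup.normalizer (P : Set G) := by
  have h1 : P.map (MulAut.conj n).toMonoidHom ≤ P := by
    rintro _ ⟨q, hq, rfl⟩
    simpa using h q hq
  have h2 : Nat.card (P.map (MulAut.conj n).toMonoidHom) = Nat.card P :=
    Nat.card_congr (Subgroup.equivMapOfInjective _ _ (MulAut.conj n).injective).symm.toEquiv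
  have h3 := Subgroup.eq_of_le_of_card_ge h1 h2.ge
  rw [Subgroup.mem_normalizer_iff]
  intro q
  refine ⟨h q, fun hq => ?_⟩
  rw [← h3] at hq
  obtain ⟨q', hq', hh⟩ := hq
  have : q' = q := by simpa using hh
  rw [← this]; exact hq'

/-- For a transitive permutation group `G` on a finite set, the centraliser of `G` in the symmetric group is isomorphic to `N_G(G_ω)/G_ω`, and its orbit of `ω` is the set of fixed points of `G_ω`. -/
theorem result {α : Type*} [Finite α] (G : Subgroup (Equiv.Perm α)) [MulAction.IsPretransitive G α] (a : α) : Nonempty (Subgroup.centralizer (G : Set (Equiv.Perm α)) ≃* Subgroup.normalizer ((MulAction.stabilizer G a : Subgroup G) : Set G) ⧸ (MulAction.stabilizer G a).subgroupOf (Subgroup.normalizer ((MulAction.stabilizer G a : Subgroup G) : Set G))) ∧ MulAction.orbit (Subgroup.centralizer (G : Set (Equiv.Perm α))) a = MulAction.fixedPoints (MulAction.stabilizer G a) α := by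
  classical
  choose γ hγ using fun x => MulAction.exists_smul_eq G a x
  -- the twisted map
  let c : G → α → α := fun n x => γ x • n⁻¹ • a
  have hc : ∀ n : G, n ∈ Subgroup.normalizer ((MulAction.stabilizer G a : Subgroup G) : Set G) →
      ∀ g : G, c n (g • a) = g • n⁻¹ • a := by
    intro n hn g
    show γ (g • a) • n⁻¹ • a = g • n⁻¹ • a
    have h1 : g⁻¹ * γ (g • a) ∈ MulAction.stabilizer G a := by
      rw [MulAction.mem_stabilizer_iff, mul_smul, hγ, inv_smul_smul]
    have h2 : n * (g⁻¹ * γ (g • a)) * n⁻¹ ∈ MulAction.stabilizer G a :=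
      (Subgroup.mem_normalizer_iff.1 hn _).1 h1
    rw [MulAction.mem_stabilizer_iff] at h2
    have h3 : γ (g • a) * n⁻¹ = g * n⁻¹ * (n * (g⁻¹ * γ (g • a)) * n⁻¹) := by group
    rw [← mul_smul, h3, mul_smul, h2, mul_smul]
  let act : MulAction ↥(Subgroup.normalizer ((MulAction.stabilizer G a : Subgroup G) : Set G)) α :=
    { smul := fun n x => c n x
      one_smul := by
        intro x
        show c ((1 : ↥(Subgroup.normalizer ((MulAction.stabilizer G a : Subgroup G) : Set G))) : G) x = x
        rw [← hγ x, hc _ (1 : ↥(Subgroup.normalizer ((MulAction.stabilizer G a : Subgroup G) : Set G))).2]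
        simp
      mul_smul := by
        intro n m x
        show c ((n * m : ↥(Subgroup.normalizer ((MulAction.stabilizer G a : Subgroup G) : Set G))) : G) x
          = c n (c m x)
        rw [← hγ x, hc _ (n * m).2, hc _ m.2]
        have h1 : γ x • (m : G)⁻¹ • a = (γ x * (m : G)⁻¹) • a := (mul_smul _ _ _).symm
        rw [h1, hc _ n.2]
        simp [mul_smul] }
  let φ0 : ↥(Subgroup.normalizer ((MulAction.stabilizer G a : Subgroup G) : Set G)) →* Equiv.Perm α :=
    @MulAction.toPermHom _ α _ act
  have hφ0 : ∀ n x, φ0 n x = c n x := fun n x => rfl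
  have hφC : ∀ n, φ0 n ∈ Subgroup.centralizer (G : Set (Equiv.Perm α)) := by
    intro n
    rw [Subgroup.mem_centralizer_iff]
    intro σ hσ
    ext x
    show σ (φ0 n x) = φ0 n (σ x)
    rw [hφ0, hφ0, ← hγ x, hc _ n.2]
    have h1 : σ (γ x • a) = ((⟨σ, hσ⟩ : G) * γ x) • a := by rw [mul_smul]; rfl
    have h2 : σ (γ x • (n : G)⁻¹ • a) = ((⟨σ, hσ⟩ : G) * γ x) • (n : G)⁻¹ • a := by rw [mul_smul]; rfl
    rw [h1, h2, hc _ n.2]
  let φ : ↥(Subgroup.normalizer ((MulAction.stabilizer G a : Subgroup G) : Set G)) →*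
      ↥(Subgroup.centralizer (G : Set (Equiv.Perm α))) := φ0.codRestrict _ hφC
  have hcomm : ∀ z ∈ Subgroup.centralizer (G : Set (Equiv.Perm α)), ∀ (g : G) (x : α),
      z (g • x) = g • z x := by
    intro z hz g x
    have := (Subgroup.mem_centralizer_iff.1 hz) g.1 g.2
    exact (congrArg (fun f : Equiv.Perm α => f x) this).symm
  -- elements of `G` moving `a` to a fixed point of the stabiliser normalise it
  have hfixN : ∀ n0 : G, (∀ h ∈ MulAction.stabilizer G a, h • n0 • a = n0 • a) →
      n0 ∈ Subgroup.normalizer ((MulAction.stabilizer G a : Subgroup G) : Set G) := by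
    intro n0 h
    have : n0⁻¹ ∈ Subgroup.normalizer ((MulAction.stabilizer G a : Subgroup G) : Set G) := by
      apply mem_norm_of_map_le
      intro q hq
      rw [MulAction.mem_stabilizer_iff, inv_inv, mul_smul, mul_smul, h q hq, inv_smul_smul]
    simpa using Subgroup.inv_mem _ this
  have hfixC : ∀ z ∈ Subgroup.centralizer (G : Set (Equiv.Perm α)),
      ∀ h ∈ MulAction.stabilizer G a, h • z a = z a := by
    intro z hz h hh
    rw [← hcomm z hz, MulAction.mem_stabilizer_iff.1 hh]
  have hsurj : Function.Surjective φ := by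
    intro z
    obtain ⟨n0, hn0⟩ := MulAction.exists_smul_eq G a (z.1 a)
    have hn0N : n0 ∈ Subgroup.normalizer ((MulAction.stabilizer G a : Subgroup G) : Set G) := by
      apply hfixN
      intro h hh
      rw [hn0]; exact hfixC z.1 z.2 h hh
    refine ⟨⟨n0⁻¹, Subgroup.inv_mem _ hn0N⟩, ?_⟩
    apply Subtype.ext
    ext x
    show φ0 ⟨n0⁻¹, Subgroup.inv_mem _ hn0N⟩ x = z.1 x
    rw [hφ0, ← hγ x, hc _ (Subgroup.inv_mem _ hn0N), inv_inv, hn0, hcomm z.1 z.2]
  have hker : φ.ker = (MulAction.stabilizer G a).subgroupOf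
      (Subgroup.normalizer ((MulAction.stabilizer G a : Subgroup G) : Set G)) := by
    ext n
    rw [MonoidHom.mem_ker, Subgroup.mem_subgroupOf, MulAction.mem_stabilizer_iff]
    constructor
    · intro h
      have h1 : φ0 n a = a := by
        have := congrArg (fun z : ↥(Subgroup.centralizer (G : Set (Equiv.Perm α))) => z.1 a) h
        exact this
      rw [hφ0] at h1
      have h2 := hc _ n.2 1
      rw [one_smul, one_smul, h1] at h2
      rw [eq_inv_smul_iff] at h2
      exact h2
    · intro h
      apply Subtype.ext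
      ext x
      show φ0 n x = x
      rw [hφ0, ← hγ x, hc _ n.2]
      congr 1
      rw [inv_smul_eq_iff, h]
  constructor
  · exact ⟨((QuotientGroup.quotientMulEquivOfEq hker).symm.trans
      (QuotientGroup.quotientKerEquivOfSurjective φ hsurj)).symm⟩
  · ext x
    constructor
    · rintro ⟨z, rfl⟩
      rw [MulAction.mem_fixedPoints]
      intro h
      exact hfixC z.1 z.2 h.1 h.2
    · intro hx
      rw [MulAction.mem_fixedPoints] at hx
      obtain ⟨n0, rfl⟩ := MulAction.exists_smul_eq G a x
      have hn0N : n0 ∈ Subgroup.normalizer ((MulAction.stabilizer G a : Subgroup G) : Set G) := by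
        apply hfixN
        intro h hh
        exact hx ⟨h, hh⟩
      refine ⟨φ ⟨n0⁻¹, Subgroup.inv_mem _ hn0N⟩, ?_⟩
      show φ0 ⟨n0⁻¹, Subgroup.inv_mem _ hn0N⟩ a = n0 • a
      rw [hφ0]
      have := hc _ (Subgroup.inv_mem _ hn0N) 1
      rw [one_smul, one_smul, inv_inv] at this
      exact this

end Cfsg.Agent.S0702
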