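import Cfsg.Statements.S0705
import Mathlib

set_option autoImplicit false
open scoped Pointwise
open Cfsg

namespace Cfsg.Agent.S0705

open MulAction SubMulAction in
theorem gen_trans : ∀ (k : ℕ) {G : Type*} [Group G] {α : Type*} [MulAction G α] [Finite α],
    k < Nat.card α →
    (∀ s : Set α, s.ncard = k + 1 → ∀ π : Equiv.Perm α, (∀ x ∈ s, π x ∈ s) →
      ∃ g : G, ∀ x ∈ s, g • x = π x) →
    IsMultiplyPretransitive G α k := by
  intro k
  induction k with
  | zero => intro G _ α _ _ _ _; exact is_zero_pretransitive'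
  | succ k ih =>
    intro G _ α _ _ hk h
    classical
    haveI : IsPretransitive G α := by
      refine ⟨fun x y => ?_⟩
      by_cases hxy : x = y
      · exact ⟨1, by rw [hxy, one_smul]⟩
      haveI := Fintype.ofFinite α
      obtain ⟨u, hu1, -, hu2⟩ := Finset.exists_subsuperset_card_eq (s := ({x, y} : Finset α))
        (t := Finset.univ) (n := k + 2) (Finset.subset_univ _)
        (by rw [Finset.card_pair hxy]; omega)
        (by rw [Finset.card_univ, ← Nat.card_eq_fintype_card]; omega)
      obtain ⟨s, hs1, hs2⟩ : ∃ s : Set α, ({x, y} : Set α) ⊆ s ∧ s.ncard = k + 1 + 1 :=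
        ⟨(u : Set α), by
          intro z hz
          apply hu1
          simpa using hz, by rw [Set.ncard_coe_finset, hu2]⟩
      obtain ⟨g, hg⟩ := h s hs2 (Equiv.swap x y) (by
        intro z hz
        by_cases hzx : z = x
        · rw [hzx, Equiv.swap_apply_left]; exact hs1 (by simp)
        by_cases hzy : z = y
        · rw [hzy, Equiv.swap_apply_right]; exact hs1 (by simp)
        rw [Equiv.swap_apply_of_ne_of_ne hzx hzy]; exact hz)
      exact ⟨g, by rw [hg x (hs1 (by simp)), Equiv.swap_apply_left]⟩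
    obtain ⟨a⟩ : Nonempty α := (Finite.card_pos_iff).1 (by omega)
    rw [ofStabilizer.isMultiplyPretransitive (a := a)]
    apply ih
    · have := nat_card_ofStabilizer_add_one_eq G a
      omega
    · intro s' hs' π' hπ'
      have ha' : a ∉ Subtype.val '' s' := by
        intro h; rw [Set.mem_image] at h; obtain ⟨x, hx⟩ := h
        apply x.prop; rw [hx.right]; exact Set.mem_singleton a
      have hanot : ¬ (a ∈ ofStabilizer G a) := by simp [mem_ofStabilizer_iff]
      obtain ⟨g, hg⟩ := h (insert a (Subtype.val '' s')) (by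
        rw [Set.ncard_insert_of_notMem ha', Set.ncard_image_of_injective _ Subtype.val_injective,
          hs']) (Equiv.Perm.ofSubtype π') (by
        intro x hx
        rcases hx with rfl | ⟨z, hz, rfl⟩
        · left; exact Equiv.Perm.ofSubtype_apply_of_not_mem π' hanot
        · right; exact ⟨π' z, hπ' z hz, (Equiv.Perm.ofSubtype_apply_coe π' z).symm⟩)
      have hga : g • a = a := by
        rw [hg a (Set.mem_insert _ _)]
        exact Equiv.Perm.ofSubtype_apply_of_not_mem π' hanot
      refine ⟨⟨g, hga⟩, fun z hz => Subtype.ext ?_⟩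
      show g • (z : α) = π' z
      rw [hg z (Set.mem_insert_of_mem _ ⟨z, hz, rfl⟩), Equiv.Perm.ofSubtype_apply_coe]

/-- A generously `k`-transitive permutation group (every `(k+1)`-subset has its full symmetric group induced by the setwise stabiliser) of degree greater than `k` is `k`-transitive, and for a `k`-subset the setwise and pointwise stabilisers have the same orbits outside it. -/
theorem result {α : Type*} [Fintype α] [DecidableEq α] (G : Subgroup (Equiv.Perm α)) {k : ℕ} (hk : k < Fintype.card α) (hgen : ∀ s : Finset α, s.card = k + 1 → ∀ σ : Equiv.Perm ↥s, ∃ g ∈ G, ∀ x : ↥s, g (x : α) = σ x) : MulAction.IsMultiplyPretransitive G α k ∧ ∀ s : Finset α, s.card = k → ∀ a b : α, a ∉ s → b ∉ s → (∃ g ∈ G, g • s = s ∧ g a = b) → ∃ g ∈ G, (∀ x ∈ s, g x = x) ∧ g a = b := by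
  have hgen' : ∀ s : Finset α, s.card = k + 1 → ∀ π : Equiv.Perm α, (∀ x ∈ s, π x ∈ s) →
      ∃ g ∈ G, ∀ x ∈ s, g x = π x := by
    intro s hs π hπ
    obtain ⟨g, hg, hgx⟩ := hgen s hs (π.subtypePermOfFintype (p := (· ∈ s)) hπ)
    exact ⟨g, hg, fun x hx => by
      have := hgx ⟨x, hx⟩
      rw [this]; rfl⟩
  classical
  refine ⟨?_, ?_⟩
  · apply gen_trans k (by rw [Nat.card_eq_fintype_card]; exact hk)
    intro s hs π hπ
    obtain ⟨g, hg, hgx⟩ := hgen' s.toFinset (by rw [← Set.ncard_eq_toFinset_card']; exact hs) π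
      (by intro x hx; rw [Set.mem_toFinset] at hx ⊢; exact hπ x hx)
    exact ⟨⟨g, hg⟩, fun x hx => hgx x (Set.mem_toFinset.2 hx)⟩
  · rintro s hs a b ha hb ⟨g, hg, hgs, hga⟩
    have hginv : ∀ x ∈ s, g⁻¹ x ∈ s := by
      intro x hx
      rw [← hgs] at hx
      obtain ⟨y, hy, hyx⟩ := Finset.mem_smul_finset.1 hx
      have : g⁻¹ x = y := by rw [← hyx]; simp
      rw [this]; exact hy
    have hgmem : ∀ x ∈ s, g x ∈ s := by
      intro x hx
      have := Finset.smul_mem_smul_finset (a := g) hx
      rw [hgs] at this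
      exact this
    have hsw : ∀ x ∈ s, Equiv.swap a b x = x := fun x hx =>
      Equiv.swap_apply_of_ne_of_ne (fun h => ha (h ▸ hx)) (fun h => hb (h ▸ hx))
    have hgb : g⁻¹ b = a := by rw [← hga]; simp
    have hπb : (Equiv.swap a b * g⁻¹) b = b := by
      rw [Equiv.Perm.mul_apply, hgb, Equiv.swap_apply_left]
    have hπs : ∀ x ∈ s, (Equiv.swap a b * g⁻¹) x = g⁻¹ x := fun x hx => by
      rw [Equiv.Perm.mul_apply, hsw _ (hginv x hx)]
    obtain ⟨τ, hτ, hτx⟩ := hgen' (insert b s) (by rw [Finset.card_insert_of_notMem hb, hs])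
      (Equiv.swap a b * g⁻¹) (by
        intro x hx
        rcases Finset.mem_insert.1 hx with rfl | hx
        · rw [hπb]; exact Finset.mem_insert_self _ _
        · rw [hπs x hx]; exact Finset.mem_insert_of_mem (hginv x hx))
    refine ⟨τ * g, G.mul_mem hτ hg, fun x hx => ?_, ?_⟩
    · rw [Equiv.Perm.mul_apply, hτx _ (Finset.mem_insert_of_mem (hgmem x hx)), hπs _ (hgmem x hx)]
      simp
    · rw [Equiv.Perm.mul_apply, hga, hτx _ (Finset.mem_insert_self _ _), hπb]

end Cfsg.Agent.S0705
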