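import Cfsg.Statements.S0707
import Mathlib

set_option autoImplicit false
open Cfsg

namespace Cfsg.Agent.S0707

theorem prime_card_of_isCoatom_bot {X : Type*} [Group X] (h : IsCoatom (⊥ : Subgroup X)) :
    (Nat.card X).Prime := by
  have hdich : ∀ K : Subgroup X, K = ⊥ ∨ K = ⊤ := fun K =>
    (eq_or_ne K ⊥).imp_right fun hK => h.2 K (bot_lt_iff_ne_bot.2 hK)
  obtain ⟨g, hg⟩ : ∃ g : X, g ≠ 1 := by
    by_contra hcon
    push Not at hcon
    apply h.1
    rw [eq_top_iff]
    intro x _
    rw [Subgroup.mem_bot]; exact hcon x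
  have hz : Subgroup.zpowers g = ⊤ := by
    rcases hdich (Subgroup.zpowers g) with h1 | h1
    · exact absurd (Subgroup.zpowers_eq_bot.1 h1) hg
    · exact h1
  have hfin : IsOfFinOrder g := by
    rcases hdich (Subgroup.zpowers (g ^ 2)) with h1 | h1
    · exact isOfFinOrder_iff_pow_eq_one.2 ⟨2, by norm_num, Subgroup.zpowers_eq_bot.1 h1⟩
    · have h2 : g ∈ Subgroup.zpowers (g ^ 2) := by rw [h1]; trivial
      obtain ⟨k, hk⟩ := Subgroup.mem_zpowers_iff.1 h2
      refine isOfFinOrder_iff_zpow_eq_one.2 ⟨2 * k - 1, by omega, ?_⟩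
      rw [zpow_sub, zpow_mul, zpow_one]
      have h3 : g ^ (2 : ℤ) = g ^ 2 := by norm_cast
      rw [h3, hk, mul_inv_cancel]
  have hcard : Nat.card X = orderOf g := by
    rw [← Nat.card_zpowers, hz, Subgroup.card_top]
  have hpos : 0 < orderOf g := hfin.orderOf_pos
  have hne1 : orderOf g ≠ 1 := fun h1 => hg (orderOf_eq_one_iff.1 h1)
  have hq : (orderOf g).minFac.Prime := Nat.minFac_prime hne1
  have hqd : (orderOf g).minFac ∣ orderOf g := Nat.minFac_dvd _
  rw [hcard]
  rcases hdich (Subgroup.zpowers (g ^ (orderOf g).minFac)) with h1 | h1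
  · have h2 : orderOf g ∣ (orderOf g).minFac := orderOf_dvd_of_pow_eq_one (Subgroup.zpowers_eq_bot.1 h1)
    rcases (Nat.dvd_prime hq).1 h2 with h3 | h3
    · exact absurd h3 hne1
    · rw [h3]; exact hq
  · exfalso
    have h2 : Nat.card (Subgroup.zpowers (g ^ (orderOf g).minFac)) = orderOf g := by
      rw [h1, Subgroup.card_top, hcard]
    rw [Nat.card_zpowers, orderOf_pow_of_dvd hq.ne_zero hqd] at h2
    exact absurd h2 (Nat.div_lt_self hpos hq.one_lt).ne

/-- In a primitive permutation group, distinct points have distinct stabilisers unless the group is regular of prime degree. -/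
theorem result {α : Type*} (G : Subgroup (Equiv.Perm α)) [MulAction.IsPreprimitive G α] (h : ¬ (Nat.card α).Prime ∨ ∃ a : α, MulAction.stabilizer G a ≠ ⊥) {a b : α} (hab : a ≠ b) : MulAction.stabilizer G a ≠ MulAction.stabilizer G b := by
  intro heq
  haveI : Nontrivial α := ⟨a, b, hab⟩
  have hco : ∀ x : α, IsCoatom (MulAction.stabilizer G x) := fun x =>
    (MulAction.isCoatom_stabilizer_iff_preprimitive G x).2 inferInstance
  set H := MulAction.stabilizer G a with hH
  obtain ⟨g, hg⟩ := MulAction.exists_smul_eq G a b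
  have hgH : g ∉ H := by
    intro h1; apply hab; rw [← hg]; exact (MulAction.mem_stabilizer_iff.1 h1).symm
  have hgN : g ∈ Subgroup.normalizer (H : Set G) := by
    have h1 := MulAction.stabilizer_smul_eq_stabilizer_map_conj g a
    rw [hg, ← heq] at h1
    rw [Subgroup.mem_normalizer_iff]
    intro x
    constructor
    · intro hx; rw [h1]; exact ⟨x, hx, rfl⟩
    · intro hx
      rw [h1] at hx
      obtain ⟨y, hy, hyx⟩ := hx
      have hyx' : y = x := by simpa using hyx
      exact hyx' ▸ hy
  have hNtop : Subgroup.normalizer (H : Set G) = ⊤ := by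
    apply (hco a).2
    refine lt_of_le_of_ne Subgroup.le_normalizer (fun h1 => hgH ?_)
    have h10 : H = Subgroup.normalizer (H : Set G) := h1
    rw [h10]; exact hgN
  have hHn : H.Normal := Subgroup.normalizer_eq_top_iff.1 hNtop
  have hHbot : H = ⊥ := by
    rw [eq_bot_iff]
    intro x hx
    rw [Subgroup.mem_bot]
    apply Subtype.ext; apply Equiv.ext; intro c
    obtain ⟨k, hk⟩ := MulAction.exists_smul_eq G a c
    have h2 : k⁻¹ * x * k ∈ H := by
      have h20 := hHn.conj_mem x hx k⁻¹
      simpa using h20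
    have h3 : (k⁻¹ * x * k) • a = a := h2
    have h4 : x • c = c := by
      rw [← hk]
      have h40 : k • ((k⁻¹ * x * k) • a) = k • a := by rw [h3]
      rw [smul_smul] at h40
      have h41 : k * (k⁻¹ * x * k) = x * k := by group
      rw [h41, mul_smul] at h40
      exact h40
    exact h4
  have hall : ∀ c : α, MulAction.stabilizer G c = ⊥ := by
    intro c
    obtain ⟨k, hk⟩ := MulAction.exists_smul_eq G a c
    rw [← hk, MulAction.stabilizer_smul_eq_stabilizer_map_conj, ← hH, hHbot, Subgroup.map_bot]
  rcases h with hnp | ⟨c, hc⟩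
  · apply hnp
    have hbij : Function.Bijective (fun k : G => k • a) := by
      constructor
      · intro k k' hkk
        have h5 : k'⁻¹ * k ∈ H := by
          rw [hH, MulAction.mem_stabilizer_iff, mul_smul]
          have h50 : k • a = k' • a := hkk
          rw [h50, inv_smul_smul]
        rw [hHbot, Subgroup.mem_bot] at h5
        exact (inv_mul_eq_one.1 h5).symm
      · intro c
        exact MulAction.exists_smul_eq G a c
    rw [← Nat.card_congr (Equiv.ofBijective _ hbij)]
    apply prime_card_of_isCoatom_bot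
    rw [← hHbot]; exact hco a
  · exact hc (hall c)

end Cfsg.Agent.S0707
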