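import Cfsg.Statements.S0712
import Mathlib

set_option autoImplicit false
open Cfsg

namespace Cfsg.Agent.S0712

open MulAction SubMulAction in
theorem lemT (k : ℕ) : ∀ (m : ℕ) {G : Type*} [Group G] {α : Type*} [MulAction G α] [Finite α]
    (s : Set α), s.ncard = m → IsMultiplyPretransitive G α m →
    IsMultiplyPretransitive (fixingSubgroup G s) (ofFixingSubgroup G s) k →
    IsMultiplyPretransitive G α (m + k) := by
  intro m
  induction m with
  | zero =>
    intro G _ α _ _ s hs _ hk
    have hs0 : s = ∅ := (Set.ncard_eq_zero (Set.toFinite s)).1 hs
    subst hs0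
    rw [zero_add]
    exact (IsPretransitive.of_embedding_congr of_fixingSubgroupEmpty_mapScalars_surjective
      ofFixingSubgroupEmpty_equivariantMap_bijective).1 hk
  | succ m ih =>
    intro G _ α _ _ s hs hm hk
    have hne : s.Nonempty := by
      rw [← Set.ncard_pos (Set.toFinite s), hs]; exact Nat.succ_pos m
    obtain ⟨a, ha⟩ := hne
    have hst : s = insert a (Subtype.val '' (Subtype.val ⁻¹' s : Set (ofStabilizer G a))) := by
      ext x
      by_cases hx : x = a <;> simp [hx, mem_ofStabilizer_iff, ha]
    set t : Set (ofStabilizer G a) := Subtype.val ⁻¹' s with ht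
    have ha' : a ∉ Subtype.val '' t := by
      intro h; rw [Set.mem_image] at h; obtain ⟨x, hx⟩ := h
      apply x.prop; rw [hx.right]; exact Set.mem_singleton a
    have hcard : m + 1 ≤ Nat.card α := by
      rw [← hs]; exact Set.ncard_le_card s
    haveI : IsPretransitive G α := by
      rw [← is_one_pretransitive_iff]
      exact isMultiplyPretransitive_of_le (n := m + 1) (Nat.succ_le_succ (Nat.zero_le m)) hcard
    have h1 : IsMultiplyPretransitive (stabilizer G a) (ofStabilizer G a) m :=
      (ofStabilizer.isMultiplyPretransitive (a := a)).1 hm
    have h2 : IsMultiplyPretransitive (fixingSubgroup G (insert a (Subtype.val '' t)))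
        (ofFixingSubgroup G (insert a (Subtype.val '' t))) k :=
      (IsPretransitive.of_embedding_congr (MulEquiv.surjective _)
        (ofFixingSubgroup_of_eq_bijective (hst := hst))).1 hk
    have h3 : IsMultiplyPretransitive (fixingSubgroup (stabilizer G a) t)
        (ofFixingSubgroup (stabilizer G a) t) k :=
      (IsPretransitive.of_embedding_congr (fixingSubgroupInsertEquiv a t).surjective
        ofFixingSubgroup_insert_map_bijective).1 h2
    have htc : t.ncard = m := by
      rw [← Set.ncard_image_of_injective t Subtype.val_injective]
      apply Nat.add_right_cancel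
      rw [← Set.ncard_insert_of_notMem ha', ← hst, hs]
    have h4 := ih t htc h1 h3
    rw [Nat.succ_add]
    exact (ofStabilizer.isMultiplyPretransitive (a := a)).2 h4

/-- Jordan: a primitive group in which the pointwise stabiliser of a set `s` is doubly transitive on the complement of `s` (which has at least 2 points) is `(|s| + 2)`-transitive. -/
theorem result {α : Type*} [Fintype α] [DecidableEq α] (G : Subgroup (Equiv.Perm α)) (hG : MulAction.IsPreprimitive G α) (s : Set α) {m : ℕ} (hsm : s.ncard = m) (hm : m + 2 ≤ Fintype.card α) (h2 : MulAction.IsMultiplyPretransitive (fixingSubgroup G s) (SubMulAction.ofFixingSubgroup G s) 2) : MulAction.IsMultiplyPretransitive G α (m + 2) := by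
  have hmt : MulAction.IsMultiplyPretransitive G α m := by
    cases m with
    | zero => exact MulAction.is_zero_pretransitive'
    | succ n =>
      have hprim : MulAction.IsPreprimitive (fixingSubgroup G s) (SubMulAction.ofFixingSubgroup G s) :=
        MulAction.isPreprimitive_of_is_two_pretransitive h2
      have hJ := hG.isMultiplyPreprimitive hsm
        (by rw [Nat.card_eq_fintype_card]; omega) hprim
      haveI : MulAction.IsMultiplyPretransitive G α (n + 2) := inferInstance
      exact MulAction.isMultiplyPretransitive_of_le (n := n + 2) (Nat.le_succ _)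
        (by rw [Nat.card_eq_fintype_card]; omega)
  exact lemT 2 m s hsm hmt h2

end Cfsg.Agent.S0712
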