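import Cfsg.Statements.S0713
import Mathlib

set_option autoImplicit false
open Cfsg

namespace Cfsg.Agent.S0713

open MulAction Equiv.Perm Equiv

theorem swap_apply_eq_iff_or' {α : Type*} [DecidableEq α] (a b x : α) :
    swap a b x = b ∨ swap a b x = a ∨ swap a b x = x := by
  by_cases h1 : x = a
  · left; rw [h1, swap_apply_left]
  · by_cases h2 : x = b
    · right; left; rw [h2, swap_apply_right]
    · right; right; exact swap_apply_of_ne_of_ne h1 h2

theorem multTrans {α : Type*} [Fintype α] [DecidableEq α] (G : Subgroup (Equiv.Perm α))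
    (hG : IsPreprimitive G α) {p : ℕ} (hp : p.Prime)
    (hpn : p + 3 ≤ Fintype.card α) {g : Equiv.Perm α} (hgc : g.IsCycle)
    (hgp : g.support.card = p) (hg : g ∈ G) :
    IsMultiplyPretransitive G α (Fintype.card α - p) := by
  classical
  obtain ⟨n, hn⟩ : ∃ n, Fintype.card α = n + 1 + p := ⟨Fintype.card α - p - 1, by omega⟩
  have h : IsMultiplyPreprimitive G α (n + 2) := by
    apply hG.isMultiplyPreprimitive (s := (g.supportᶜ : Set α))
    · apply Nat.add_left_cancel (n := (g.support : Set α).ncard)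
      rw [Set.ncard_add_ncard_compl, Set.ncard_coe_finset, hgp, Nat.card_eq_fintype_card, hn]
      ring
    · rw [Nat.card_eq_fintype_card]
      have := hp.two_le
      omega
    have := isPretransitive_of_isCycle_mem hgc hg
    apply IsPreprimitive.of_prime_card
    convert! hp
    rw [Nat.card_eq_fintype_card, Fintype.card_subtype, ← hgp]
    apply congr_arg
    ext x
    simp [SubMulAction.mem_ofFixingSubgroup_iff]
  have h2 : IsMultiplyPretransitive G α (n + 2) :=
    IsMultiplyPreprimitive.isMultiplyPretransitive ..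
  rw [show Fintype.card α - p = n + 1 by omega]
  refine isMultiplyPretransitive_of_le (n := n + 2) (by omega) ?_
  rw [Nat.card_eq_fintype_card]
  have := hp.two_le
  omega

theorem exists_agree {α : Type*} [Fintype α] [DecidableEq α] (G : Subgroup (Equiv.Perm α))
    (Δ : Finset α) (k : ℕ) (hk : Δ.card = k) (hG : IsMultiplyPretransitive G α k)
    (τ : Equiv.Perm α) : ∃ h ∈ G, ∀ x ∈ Δ, h x = τ x := by
  let e : Fin k ≃ Δ := (Δ.equivFinOfCardEq hk).symm
  let x : Fin k ↪ α := e.toEmbedding.trans (Function.Embedding.subtype _)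
  let y : Fin k ↪ α := x.trans τ.toEmbedding
  obtain ⟨h, hh⟩ := exists_smul_eq G x y
  refine ⟨h, h.2, fun d hd => ?_⟩
  have := DFunLike.congr_fun hh (e.symm ⟨d, hd⟩)
  simpa [x, y, Subgroup.smul_def] using this

theorem conj_of_order_p {F : Type*} [Group F] [Finite F] (p : ℕ) [Fact p.Prime]
    (hF : ¬ p ^ 2 ∣ Nat.card F) (u v : F) (hu : orderOf u = p) (hv : orderOf v = p) :
    ∃ x : F, x * v * x⁻¹ ∈ Subgroup.zpowers u := by
  have hp : p.Prime := Fact.out
  have hpu : IsPGroup p (Subgroup.zpowers u) :=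
    IsPGroup.of_card (n := 1) (by rw [Nat.card_zpowers, hu, pow_one])
  have hpv : IsPGroup p (Subgroup.zpowers v) :=
    IsPGroup.of_card (n := 1) (by rw [Nat.card_zpowers, hv, pow_one])
  obtain ⟨P, hP⟩ := hpu.exists_le_sylow
  obtain ⟨Q, hQ⟩ := hpv.exists_le_sylow
  have hcard : Nat.card (P : Subgroup F) ≤ p := by
    obtain ⟨k, hk⟩ := IsPGroup.iff_card.mp P.2
    have h1 : p ^ k ∣ Nat.card F := hk ▸ Subgroup.card_subgroup_dvd_card _
    have hk2 : k < 2 := by
      by_contra hc
      push Not at hc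
      exact hF ((pow_dvd_pow p hc).trans h1)
    rw [hk]
    calc p ^ k ≤ p ^ 1 := Nat.pow_le_pow_right hp.pos (by omega)
      _ = p := pow_one p
  have hPu : Subgroup.zpowers u = (P : Subgroup F) :=
    Subgroup.eq_of_le_of_card_ge hP (by rw [Nat.card_zpowers, hu]; exact hcard)
  obtain ⟨x, hx⟩ := MulAction.exists_smul_eq F Q P
  refine ⟨x, ?_⟩
  rw [hPu, ← hx]
  have hvQ : v ∈ (Q : Subgroup F) := hQ (Subgroup.mem_zpowers v)
  have := Subgroup.smul_mem_pointwise_smul v (MulAut.conj x) (Q : Subgroup F) hvQ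
  exact this

theorem exists_normalizing {α : Type*} [Fintype α] [DecidableEq α] (G : Subgroup (Equiv.Perm α))
    {p : ℕ} (hp : p.Prime) {g : Equiv.Perm α} (hgc : g.IsCycle)
    (hgp : g.support.card = p) (hg : g ∈ G)
    (hG : IsMultiplyPretransitive G α (g.supportᶜ).card) (a b : α) (ha : a ∉ g.support)
    (hb : b ∉ g.support) :
    ∃ n ∈ G, n * g * n⁻¹ ∈ Subgroup.zpowers g ∧ (∀ x, x ∉ g.support → n x = swap a b x) ∧
      (∀ x, x ∉ g.support → n⁻¹ x = swap a b x) := by
  haveI : Fact p.Prime := ⟨hp⟩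
  obtain ⟨h, hhG, hh⟩ := exists_agree G (g.supportᶜ) _ rfl hG (swap a b)
  have hsw : ∀ x, x ∉ g.support → swap a b x ∉ g.support := by
    intro x hx
    rcases swap_apply_eq_iff_or' a b x with h1 | h1 | h1
    · rw [h1]; exact hb
    · rw [h1]; exact ha
    · rw [h1]; exact hx
  have hh' : ∀ x, x ∉ g.support → h x = swap a b x := fun x hx => hh x (by simpa using hx)
  have hhinv : ∀ x, x ∉ g.support → h⁻¹ x = swap a b x := by
    intro x hx
    rw [Equiv.Perm.inv_eq_iff_eq, hh' _ (hsw x hx), swap_apply_self]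
  -- the subgroup fixing the complement of the support
  set R : Subgroup (Equiv.Perm α) :=
    (Equiv.Perm.ofSubtype : Equiv.Perm {x // x ∈ g.support} →* Equiv.Perm α).range with hR
  have hmemR : ∀ f : Equiv.Perm α, (∀ x, x ∉ g.support → f x = x) → f ∈ R := by
    intro f hf
    have h2 : ∀ x, f x ≠ x → x ∈ g.support := fun x hx => by
      by_contra hc
      exact hx (hf x hc)
    have h1 : ∀ x, f x ∈ g.support ↔ x ∈ g.support := by
      intro x
      constructor
      · intro hx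
        by_contra hc
        rw [hf x hc] at hx
        exact hc hx
      · intro hx
        by_contra hc
        have := hf _ hc
        have h3 : f x = x := f.injective this
        rw [h3] at hc
        exact hc hx
    exact ⟨Equiv.Perm.subtypePerm f h1, Equiv.Perm.ofSubtype_subtypePerm h1 h2⟩
  have hRfix : ∀ f ∈ R, ∀ x, x ∉ g.support → f x = x := by
    rintro _ ⟨f, rfl⟩ x hx
    exact Equiv.Perm.ofSubtype_apply_of_not_mem f hx
  have hcardR : Nat.card R = p.factorial := by
    rw [hR, Nat.card_congr (MonoidHom.ofInjective Equiv.Perm.ofSubtype_injective).toEquiv.symm,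
      Nat.card_eq_fintype_card, Fintype.card_perm, Fintype.card_coe, hgp]
  set F : Subgroup (Equiv.Perm α) := G ⊓ R with hFdef
  have hcardF : ¬ p ^ 2 ∣ Nat.card F := by
    intro hd
    have h1 : Nat.card F ∣ p.factorial := hcardR ▸ Subgroup.card_dvd_of_le inf_le_right
    have h2 := hd.trans h1
    obtain ⟨q, rfl⟩ : ∃ q, p = q + 1 := ⟨p - 1, by have := hp.pos; omega⟩
    rw [Nat.factorial_succ, pow_two] at h2
    have h3 := (Nat.mul_dvd_mul_iff_left (Nat.succ_pos q)).mp h2
    have := (hp.dvd_factorial).mp h3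
    omega
  have hgF : g ∈ F := ⟨hg, hmemR g fun x hx => by simpa using hx⟩
  have hgF' : h * g * h⁻¹ ∈ F := by
    refine ⟨G.mul_mem (G.mul_mem hhG hg) (G.inv_mem hhG), hmemR _ fun x hx => ?_⟩
    have h1 : h⁻¹ x ∉ g.support := by rw [hhinv x hx]; exact hsw x hx
    have h2 : g (h⁻¹ x) = h⁻¹ x := by simpa using h1
    rw [Equiv.Perm.mul_apply, Equiv.Perm.mul_apply, h2]; exact Equiv.apply_symm_apply h x
  have hord : orderOf g = p := by rw [hgc.orderOf, hgp]
  obtain ⟨x, hx⟩ := conj_of_order_p (F := F) p hcardF ⟨g, hgF⟩ ⟨h * g * h⁻¹, hgF'⟩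
    (by rw [Subgroup.orderOf_mk, hord])
    (by
      rw [Subgroup.orderOf_mk]
      have : h * g * h⁻¹ = MulAut.conj h g := rfl
      rw [this, MulEquiv.orderOf_eq, hord])
  obtain ⟨i, hi⟩ := Subgroup.mem_zpowers_iff.mp hx
  have hi' : g ^ i = (x : Equiv.Perm α) * (h * g * h⁻¹) * (x : Equiv.Perm α)⁻¹ := by
    have := congrArg Subtype.val hi
    simpa using this
  have hxfix := hRfix x x.2.2
  have hxinv : ∀ y, y ∉ g.support → (x : Equiv.Perm α)⁻¹ y = y := by
    intro y hy
    rw [Equiv.Perm.inv_eq_iff_eq, hxfix y hy]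
  refine ⟨x * h, G.mul_mem x.2.1 hhG, ?_, ?_, ?_⟩
  · rw [Subgroup.mem_zpowers_iff]
    refine ⟨i, ?_⟩
    rw [hi']
    group
  · intro y hy
    rw [Equiv.Perm.mul_apply, hh' y hy, hxfix _ (hsw y hy)]
  · intro y hy
    rw [mul_inv_rev, Equiv.Perm.mul_apply, hxinv y hy, hhinv y hy]

/-- Jordan's Theorem: a primitive permutation group of degree `n ≥ 5` containing a `p`-cycle for a prime `p ≤ n - 3` contains the alternating group. -/
theorem result {α : Type*} [Fintype α] [DecidableEq α] (G : Subgroup (Equiv.Perm α)) (hG : MulAction.IsPreprimitive G α) {p : ℕ} (hp : p.Prime) (hn : 5 ≤ Fintype.card α) (hpn : p + 3 ≤ Fintype.card α) {g : Equiv.Perm α} (hgc : g.IsCycle) (hgp : g.support.card = p) (hg : g ∈ G) : alternatingGroup α ≤ G := by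
  have hcardΔ : (g.supportᶜ).card = Fintype.card α - p := by
    rw [Finset.card_compl, hgp]
  have hmt : MulAction.IsMultiplyPretransitive G α (g.supportᶜ).card := by
    rw [hcardΔ]
    exact multTrans G hG hp hpn hgc hgp hg
  have h3 : 2 < (g.supportᶜ).card := by rw [hcardΔ]; omega
  obtain ⟨a, b, c, ha, hb, hc, hab, hac, hbc⟩ := Finset.two_lt_card_iff.mp h3
  have ha' : a ∉ g.support := by simpa using ha
  have hb' : b ∉ g.support := by simpa using hb
  have hc' : c ∉ g.support := by simpa using hc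
  obtain ⟨n₁, hn₁G, hn₁, hn₁a, hn₁b⟩ := exists_normalizing G hp hgc hgp hg hmt a b ha' hb'
  obtain ⟨n₂, hn₂G, hn₂, hn₂a, hn₂b⟩ := exists_normalizing G hp hgc hgp hg hmt a c ha' hc'
  obtain ⟨i₁, hi₁⟩ := Subgroup.mem_zpowers_iff.mp hn₁
  obtain ⟨i₂, hi₂⟩ := Subgroup.mem_zpowers_iff.mp hn₂
  have hsw : ∀ (u v : α), u ∉ g.support → v ∉ g.support → ∀ x, x ∉ g.support →
      swap u v x ∉ g.support := by
    intro u v hu hv x hx
    rcases swap_apply_eq_iff_or' u v x with h1 | h1 | h1
    · rw [h1]; exact hv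
    · rw [h1]; exact hu
    · rw [h1]; exact hx
  set w := n₁⁻¹ * n₂⁻¹ * n₁ * n₂ with hw
  have hwG : w ∈ G :=
    G.mul_mem (G.mul_mem (G.mul_mem (G.inv_mem hn₁G) (G.inv_mem hn₂G)) hn₁G) hn₂G
  have hcomm : Commute w g := by
    have e1 : (n₁ * n₂) * g * (n₁ * n₂)⁻¹ = g ^ (i₁ * i₂) := by
      have : (n₁ * n₂) * g * (n₁ * n₂)⁻¹ = n₁ * (n₂ * g * n₂⁻¹) * n₁⁻¹ := by group
      rw [this, ← hi₂, ← conj_zpow, ← hi₁, ← zpow_mul]
    have e2 : (n₂ * n₁) * g * (n₂ * n₁)⁻¹ = g ^ (i₁ * i₂) := by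
      have : (n₂ * n₁) * g * (n₂ * n₁)⁻¹ = n₂ * (n₁ * g * n₁⁻¹) * n₂⁻¹ := by group
      rw [this, ← hi₁, ← conj_zpow, ← hi₂, ← zpow_mul, mul_comm]
    have e3 := e1.trans e2.symm
    have e4 : w * g = g * w := by
      have : w * g = (n₂ * n₁)⁻¹ * ((n₁ * n₂) * g * (n₁ * n₂)⁻¹) * (n₁ * n₂) := by
        rw [hw]; group
      rw [this, e3, hw]
      group
    exact e4
  obtain ⟨hc1, hc2⟩ := (hgc.commute_iff).mp hcomm
  obtain ⟨i, hi⟩ := Subgroup.mem_zpowers_iff.mp hc2
  set t := swap a b * swap a c * (swap a b * swap a c) with ht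
  have ht3 : t.IsThreeCycle := (isThreeCycle_swap_mul_swap_same hab hac hbc).isThreeCycle_sq
  have hwt : w = g ^ i * t := by
    ext x
    by_cases hx : x ∈ g.support
    · have hxa : x ≠ a := fun h => ha' (h ▸ hx)
      have hxb : x ≠ b := fun h => hb' (h ▸ hx)
      have hxc : x ≠ c := fun h => hc' (h ▸ hx)
      have htx : t x = x := by
        simp [ht, Equiv.Perm.mul_apply, swap_apply_of_ne_of_ne hxa hxb,
          swap_apply_of_ne_of_ne hxa hxc]
      change w x = (g ^ i) (t x)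
      rw [htx, hi, Equiv.Perm.ofSubtype_subtypePerm_of_mem hc1 hx]
    · have h1 := hsw a c ha' hc' x hx
      have h2 := hsw a b ha' hb' _ h1
      have h3 := hsw a c ha' hc' _ h2
      have h4 := hsw a b ha' hb' _ h3
      have hwx : w x = t x := by
        rw [hw, ht]
        simp only [Equiv.Perm.mul_apply]
        rw [hn₂a x hx, hn₁a _ h1, hn₂b _ h2, hn₁b _ h3]
      have htx : t x ∉ g.support := by
        rw [ht]
        simp only [Equiv.Perm.mul_apply]
        exact h4
      change w x = (g ^ i) (t x)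
      rw [hi, Equiv.Perm.ofSubtype_subtypePerm_of_not_mem hc1 htx, hwx]
  have htG : t ∈ G := by
    have : t = (g ^ i)⁻¹ * w := by rw [hwt]; group
    rw [this]
    exact G.mul_mem (G.inv_mem (G.zpow_mem hg i)) hwG
  exact alternatingGroup_le_of_isPreprimitive_of_isThreeCycle_mem hG ht3 htG

end Cfsg.Agent.S0713
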