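import Cfsg.Statements.S0714
import Mathlib

set_option autoImplicit false
open Cfsg

namespace Cfsg.Agent.S0714

/-- Over any field, the permutation module of the alternating group of degree at least 5 has exactly four invariant subspaces: zero, the constant functions, the functions with coordinate sum zero, and everything. -/
theorem result {α : Type*} [Fintype α] [DecidableEq α] (hα : 5 ≤ Fintype.card α) {K : Type*} [Field K] (W : Subrepresentation (Cfsg.permRep K (alternatingGroup α) α)) : W.toSubmodule = ⊥ ∨ W = Cfsg.permConstants K (alternatingGroup α) α ∨ W = Cfsg.permSumZero K (alternatingGroup α) α ∨ W.toSubmodule = ⊤ := by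
  classical
  have hρa : ∀ (g : alternatingGroup α) (f : α → K) (x : α),
      Cfsg.permRep K (alternatingGroup α) α g f x = f ((g : Equiv.Perm α)⁻¹ x) :=
    fun _ _ _ => rfl
  have h2t : MulAction.IsMultiplyPretransitive (alternatingGroup α) α 2 := by
    have := alternatingGroup.isMultiplyPretransitive α
    apply MulAction.isMultiplyPretransitive_of_le (n := Nat.card α - 2)
    · rw [Nat.card_eq_fintype_card]; omega
    · omega
  rw [MulAction.is_two_pretransitive_iff] at h2t
  by_cases hconst : ∀ f ∈ W.toSubmodule, ∀ x y : α, f x = f y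
  · by_cases hbot : W.toSubmodule = ⊥
    · exact Or.inl hbot
    · right; left
      apply Subrepresentation.toSubmodule_injective
      show W.toSubmodule = Submodule.span K {fun _ => 1}
      obtain ⟨f, hfW, hf0⟩ := Submodule.exists_mem_ne_zero_of_ne_bot hbot
      obtain ⟨x0, hx0⟩ : ∃ x, f x ≠ 0 := by
        by_contra hcon
        push Not at hcon
        exact hf0 (funext hcon)
      apply le_antisymm
      · intro u hu
        rw [Submodule.mem_span_singleton]
        refine ⟨u x0, ?_⟩
        funext y
        rw [Pi.smul_apply, smul_eq_mul, mul_one]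
        exact hconst u hu x0 y
      · rw [Submodule.span_le, Set.singleton_subset_iff]
        have : (fun _ : α => (1 : K)) = (f x0)⁻¹ • f := by
          funext y
          rw [Pi.smul_apply, smul_eq_mul, hconst f hfW y x0, inv_mul_cancel₀ hx0]
        rw [this]
        exact W.toSubmodule.smul_mem _ hfW
  · right; right
    push Not at hconst
    obtain ⟨f, hfW, a, b, hab⟩ := hconst
    have hne : a ≠ b := fun e => hab (by rw [e])
    have hcard : 2 < (({a, b} : Finset α)ᶜ).card := by
      rw [Finset.card_compl, Finset.card_pair hne]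
      omega
    obtain ⟨c, d, e, hc, hd, he, hcd, hce, hde⟩ := Finset.two_lt_card_iff.mp hcard
    simp only [Finset.mem_compl, Finset.mem_insert, Finset.mem_singleton, not_or] at hc hd he
    obtain ⟨hca, hcb⟩ := hc
    obtain ⟨hda, hdb⟩ := hd
    obtain ⟨hea, heb⟩ := he
    replace hca : c ≠ a := hca
    replace hcb : c ≠ b := hcb
    replace hda : d ≠ a := hda
    replace hdb : d ≠ b := hdb
    replace hea : e ≠ a := hea
    replace heb : e ≠ b := heb
    -- s = g1⁻¹, t = g2⁻¹
    let s : Equiv.Perm α := Equiv.swap a c * Equiv.swap a b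
    let t : Equiv.Perm α := Equiv.swap a d * Equiv.swap a e
    have hs : s ∈ alternatingGroup α :=
      (Equiv.Perm.isThreeCycle_swap_mul_swap_same (Ne.symm hca) hne hcb).mem_alternatingGroup
    have ht : t ∈ alternatingGroup α :=
      (Equiv.Perm.isThreeCycle_swap_mul_swap_same (Ne.symm hda) (Ne.symm hea) hde).mem_alternatingGroup
    let g1 : alternatingGroup α := ⟨s, hs⟩⁻¹
    let g2 : alternatingGroup α := ⟨t, ht⟩⁻¹
    have hh : f - Cfsg.permRep K (alternatingGroup α) α g1 f ∈ W.toSubmodule :=
      W.toSubmodule.sub_mem hfW (W.apply_mem_toSubmodule g1 hfW)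
    have hk := W.toSubmodule.sub_mem hh (W.apply_mem_toSubmodule g2 hh)
    have hkeq : (f - Cfsg.permRep K (alternatingGroup α) α g1 f) -
        Cfsg.permRep K (alternatingGroup α) α g2 (f - Cfsg.permRep K (alternatingGroup α) α g1 f) =
        (f a - f b) • (Pi.single a (1 : K) - Pi.single d (1 : K)) := by
      funext x
      have e1 : ∀ (u : α → K) (y : α), Cfsg.permRep K (alternatingGroup α) α g1 u y = u (s y) := by
        intro u y
        rw [hρa]
        simp [g1]
      have e2 : ∀ (u : α → K) (y : α), Cfsg.permRep K (alternatingGroup α) α g2 u y = u (t y) := by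
        intro u y
        rw [hρa]
        simp [g2]
      simp only [Pi.sub_apply, Pi.smul_apply, e1, e2, smul_eq_mul]
      have sa : s a = b := by
        simp [s, Equiv.swap_apply_of_ne_of_ne hne.symm hcb.symm]
      have sb : s b = c := by simp [s]
      have sc : s c = a := by simp [s, Equiv.swap_apply_of_ne_of_ne hca hcb]
      have sfix : ∀ y, y ≠ a → y ≠ b → y ≠ c → s y = y := by
        intro y h1 h2 h3
        simp [s, Equiv.swap_apply_of_ne_of_ne h1 h2, Equiv.swap_apply_of_ne_of_ne h1 h3]
      have ta : t a = e := by
        simp [t, Equiv.swap_apply_of_ne_of_ne hea hde.symm]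
      have te : t e = d := by simp [t]
      have td : t d = a := by simp [t, Equiv.swap_apply_of_ne_of_ne hda hde]
      have tfix : ∀ y, y ≠ a → y ≠ d → y ≠ e → t y = y := by
        intro y h1 h2 h3
        simp [t, Equiv.swap_apply_of_ne_of_ne h1 h3, Equiv.swap_apply_of_ne_of_ne h1 h2]
      by_cases hxa : x = a
      · subst hxa
        rw [sa, ta, sfix e hea heb hce.symm, Pi.single_eq_same, Pi.single_eq_of_ne (Ne.symm hda)]
        ring
      by_cases hxb : x = b
      · subst hxb
        rw [sb, tfix x hxa hdb.symm heb.symm, sb, Pi.single_eq_of_ne hxa, Pi.single_eq_of_ne hdb.symm]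
        ring
      by_cases hxc : x = c
      · subst hxc
        rw [sc, tfix x hxa hcd hce, sc, Pi.single_eq_of_ne hxa, Pi.single_eq_of_ne hcd]
        ring
      by_cases hxd : x = d
      · subst hxd
        rw [sfix x hxa hxb hxc, td, sa, Pi.single_eq_of_ne hxa, Pi.single_eq_same]
        ring
      by_cases hxe : x = e
      · subst hxe
        rw [sfix x hxa hxb hxc, te, sfix d hda hdb hcd.symm, Pi.single_eq_of_ne hxa, Pi.single_eq_of_ne hxd]
        ring
      rw [sfix x hxa hxb hxc, tfix x hxa hxd hxe, sfix x hxa hxb hxc, Pi.single_eq_of_ne hxa,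
        Pi.single_eq_of_ne hxd]
      ring
    rw [hkeq] at hk
    have had : (Pi.single a (1 : K) - Pi.single d (1 : K) : α → K) ∈ W.toSubmodule := by
      have h1 := W.toSubmodule.smul_mem (f a - f b)⁻¹ hk
      rwa [smul_smul, inv_mul_cancel₀ (sub_ne_zero.mpr hab), one_smul] at h1
    have hsingle : ∀ (g : alternatingGroup α) (y : α),
        Cfsg.permRep K (alternatingGroup α) α g (Pi.single y (1 : K)) = Pi.single (g • y) (1 : K) := by
      intro g y
      funext x
      show (Pi.single y (1 : K) : α → K) (g⁻¹ • x) = _
      simp only [Pi.single_apply, inv_smul_eq_iff]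
    have hall : ∀ x y : α, (Pi.single x (1 : K) - Pi.single y (1 : K) : α → K) ∈ W.toSubmodule := by
      intro x y
      by_cases hxy : x = y
      · rw [hxy, sub_self]; exact W.toSubmodule.zero_mem
      · obtain ⟨g, hg1, hg2⟩ := h2t (Ne.symm hda) hxy
        have h1 := W.apply_mem_toSubmodule g had
        rwa [map_sub, hsingle, hsingle, hg1, hg2] at h1
    have hSW : (Cfsg.permSumZero K (alternatingGroup α) α).toSubmodule ≤ W.toSubmodule := by
      intro u hu
      have hu0 : ∑ x, u x = 0 := hu
      have : u = ∑ x, u x • (Pi.single x (1 : K) - Pi.single a (1 : K) : α → K) := by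
        funext y
        simp only [Finset.sum_apply, Pi.smul_apply, Pi.sub_apply, smul_eq_mul, mul_sub,
          Finset.sum_sub_distrib, Pi.single_apply,
          mul_ite, mul_one, mul_zero, Finset.sum_ite_eq, Finset.mem_univ, if_true]
        by_cases hya : y = a
        · simp [hya, hu0]
        · simp [hya]
      rw [this]
      exact Submodule.sum_mem _ (fun x _ => W.toSubmodule.smul_mem _ (hall x a))
    by_cases hWS : W.toSubmodule ≤ (Cfsg.permSumZero K (alternatingGroup α) α).toSubmodule
    · left
      apply Subrepresentation.toSubmodule_injective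
      exact le_antisymm hWS hSW
    · right
      obtain ⟨v, hvW, hvS⟩ := Set.not_subset.mp hWS
      have hv0 : ∑ x, v x ≠ 0 := hvS
      rw [eq_top_iff]
      intro m _
      have h1 : m - ((∑ x, m x) / (∑ x, v x)) • v ∈
          (Cfsg.permSumZero K (alternatingGroup α) α).toSubmodule := by
        show ∑ x, (m x - ((∑ x, m x) / (∑ x, v x)) * v x) = 0
        rw [Finset.sum_sub_distrib, ← Finset.mul_sum, div_mul_cancel₀ _ hv0, sub_self]
      have h2 := W.toSubmodule.add_mem (hSW h1) (W.toSubmodule.smul_mem ((∑ x, m x) / (∑ x, v x)) hvW)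
      rwa [sub_add_cancel] at h2

end Cfsg.Agent.S0714
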