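import Cfsg.Statements.S0724
import Mathlib

set_option autoImplicit false
open Cfsg

namespace Cfsg.Agent.S0724

theorem burnside_pow {α : Type*} [Fintype α] [DecidableEq α] (G : Subgroup (Equiv.Perm α))
    [Fintype G] (k : ℕ) :
    (Nat.card G : ℤ) ∣ ∑ g : G, (Nat.card (MulAction.fixedBy α (g : Equiv.Perm α)) : ℤ) ^ k := by
  classical
  haveI : ∀ a : G, Fintype (MulAction.fixedBy (Fin k → α) a) := fun a => Fintype.ofFinite _
  haveI : Fintype (Quotient (MulAction.orbitRel G (Fin k → α))) := Fintype.ofFinite _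
  have h := MulAction.sum_card_fixedBy_eq_card_orbits_mul_card_group G (Fin k → α)
  have h2 : ∀ g : G, Fintype.card (MulAction.fixedBy (Fin k → α) g) =
      (Nat.card (MulAction.fixedBy α (g : Equiv.Perm α))) ^ k := by
    intro g
    rw [← Nat.card_eq_fintype_card]
    have e : MulAction.fixedBy (Fin k → α) g ≃ (Fin k → MulAction.fixedBy α (g : Equiv.Perm α)) :=
      { toFun := fun f i => ⟨f.1 i, congrFun f.2 i⟩
        invFun := fun f => ⟨fun i => (f i).1, funext fun i => (f i).2⟩
        left_inv := fun f => rfl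
        right_inv := fun f => rfl }
    rw [Nat.card_congr e, Nat.card_fun]
    simp
  simp_rw [h2] at h
  have h3 : (∑ g : G, (Nat.card (MulAction.fixedBy α (g : Equiv.Perm α)) : ℤ) ^ k) =
      ((∑ g : G, (Nat.card (MulAction.fixedBy α (g : Equiv.Perm α))) ^ k : ℕ) : ℤ) := by
    push_cast; rfl
  rw [h3, h, Nat.card_eq_fintype_card]
  push_cast
  exact Dvd.intro_left _ rfl

/-- Blichfeldt's Theorem: if a finite set `L` of natural numbers contains the number of fixed points of every non-identity element of a permutation group `G` of degree `n`, then the order of `G` divides `∏ (n - l)` over `l ∈ L`. -/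
theorem result {α : Type*} [Fintype α] [DecidableEq α] (G : Subgroup (Equiv.Perm α)) (L : Finset ℕ) (hL : ∀ g ∈ G, g ≠ 1 → Nat.card (MulAction.fixedBy α g) ∈ L) : Nat.card G ∣ ∏ l ∈ L, (Fintype.card α - l) := by
  classical
  haveI : Fintype G := Fintype.ofFinite G
  by_cases hbig : ∃ l ∈ L, Fintype.card α < l
  · obtain ⟨l, hl, hlt⟩ := hbig
    rw [Finset.prod_eq_zero hl (by omega)]; exact dvd_zero _
  push Not at hbig
  set π : G → ℤ := fun g => (Nat.card (MulAction.fixedBy α (g : Equiv.Perm α)) : ℤ) with hπ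
  have Q : ∀ (M : Finset ℕ) (k : ℕ),
      (Nat.card G : ℤ) ∣ ∑ g : G, (∏ l ∈ M, (π g - (l : ℤ))) * π g ^ k := by
    intro M
    induction M using Finset.induction_on with
    | empty =>
      intro k
      have hb := burnside_pow G k
      simp only [Finset.prod_empty, one_mul]
      exact hb
    | insert l M hl ih =>
      intro k
      have hexp : ∀ g : G, (∏ x ∈ insert l M, (π g - (x : ℤ))) * π g ^ k =
          (∏ x ∈ M, (π g - (x : ℤ))) * π g ^ (k + 1) -
            (l : ℤ) * ((∏ x ∈ M, (π g - (x : ℤ))) * π g ^ k) := by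
        intro g; rw [Finset.prod_insert hl]; ring
      simp_rw [hexp]
      rw [Finset.sum_sub_distrib, ← Finset.mul_sum]
      exact dvd_sub (ih (k + 1)) (Dvd.dvd.mul_left (ih k) _)
  have h0 := Q L 0
  have hsum : ∑ g : G, (∏ l ∈ L, (π g - (l : ℤ))) * π g ^ 0 =
      ∏ l ∈ L, ((Fintype.card α : ℤ) - (l : ℤ)) := by
    rw [Finset.sum_eq_single (1 : G)]
    · have h1 : π 1 = (Fintype.card α : ℤ) := by
        simp [hπ]
      rw [h1]; simp
    · intro g _ hg
      have hmem : Nat.card (MulAction.fixedBy α (g : Equiv.Perm α)) ∈ L :=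
        hL g g.2 (by simpa using hg)
      rw [Finset.prod_eq_zero hmem (by simp [hπ])]; simp
    · simp
  rw [hsum] at h0
  have hcast : ((∏ l ∈ L, (Fintype.card α - l) : ℕ) : ℤ) =
      ∏ l ∈ L, ((Fintype.card α : ℤ) - (l : ℤ)) := by
    rw [Nat.cast_prod]
    refine Finset.prod_congr rfl fun l hl => ?_
    rw [Nat.cast_sub (hbig l hl)]
  rw [← hcast] at h0
  exact Int.natCast_dvd_natCast.1 h0

end Cfsg.Agent.S0724
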