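import Cfsg.Statements.S0726
import Mathlib
import Cfsg.Agent.Lib_lead_Perm

set_option autoImplicit false
open Cfsg

namespace Cfsg.Agent.S0726

/-- The left and right regular permutation representations of a group are each other's centralisers in the symmetric group: the centraliser of the left regular image is the right regular image, and a transitive subgroup centralising the left regular image is the whole right regular image. -/
theorem result {G : Type*} [Group G] : Subgroup.centralizer ((MulAction.toPermHom G G).range : Set (Equiv.Perm G)) = (MulAction.toPermHom Gᵐᵒᵖ G).range ∧ ∀ H : Subgroup (Equiv.Perm G), H ≤ Subgroup.centralizer ((MulAction.toPermHom G G).range : Set (Equiv.Perm G)) → MulAction.IsPretransitive H G → H = (MulAction.toPermHom Gᵐᵒᵖ G).range := by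
  have htL : LeadPerm.Trans (MulAction.toPermHom G G).range := by
    intro a b
    refine ⟨MulAction.toPermHom G G (b * a⁻¹), ⟨_, rfl⟩, ?_⟩
    simp [MulAction.toPermHom_apply]
  have htR : LeadPerm.Trans (MulAction.toPermHom Gᵐᵒᵖ G).range := by
    intro a b
    refine ⟨MulAction.toPermHom Gᵐᵒᵖ G (MulOpposite.op (a⁻¹ * b)), ⟨_, rfl⟩, ?_⟩
    simp [MulAction.toPermHom_apply]
  have hle : (MulAction.toPermHom Gᵐᵒᵖ G).range ≤ Subgroup.centralizer ((MulAction.toPermHom G G).range : Set (Equiv.Perm G)) := by
    rintro _ ⟨x, rfl⟩
    rw [Subgroup.mem_centralizer_iff]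
    rintro _ ⟨g, rfl⟩
    ext y
    simp [MulAction.toPermHom_apply, mul_assoc]
  have h1 := LeadPerm.centralizer_eq_of_le htL htR hle
  refine ⟨h1, ?_⟩
  intro H hH hHt
  have hHt' := LeadPerm.trans_of_pretransitive H
  rw [← h1]
  exact (LeadPerm.centralizer_eq_of_le htL hHt' hH).symm

end Cfsg.Agent.S0726
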