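import Cfsg.Statements.S0733
import Mathlib

set_option autoImplicit false
open Cfsg

namespace Cfsg.Agent.S0733

/-- A permutation group of affine type — generated by the translations of a finite vector space `V` over `ZMod p` together with a group `G₀` of linear automorphisms — is primitive on `V` if and only if `G₀` is irreducible on `V`. -/
theorem result {p : ℕ} [Fact p.Prime] {V : Type*} [AddCommGroup V] [Module (ZMod p) V] [Finite V] [Nontrivial V] (G₀ : Subgroup (V ≃ₗ[ZMod p] V)) (G : Subgroup (Equiv.Perm V)) (hG : ∀ σ : Equiv.Perm V, σ ∈ G ↔ ∃ g ∈ G₀, ∃ b : V, ∀ x : V, σ x = (g : V ≃ₗ[ZMod p] V) x + b) : MulAction.IsPreprimitive G V ↔ ∀ W : Submodule (ZMod p) V, (∀ g ∈ G₀, ∀ v ∈ W, (g : V ≃ₗ[ZMod p] V) v ∈ W) → W = ⊥ ∨ W = ⊤ := by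
  classical
  have htr : ∀ b : V, Equiv.addRight b ∈ G := by
    intro b
    rw [hG]
    exact ⟨1, G₀.one_mem, b, fun x => by simp⟩
  have hlin : ∀ g ∈ G₀, (g : V ≃ₗ[ZMod p] V).toEquiv ∈ G := by
    intro g hg
    rw [hG]
    exact ⟨g, hg, 0, fun x => by simp⟩
  constructor
  · intro hprim W hW
    have hblock : MulAction.IsBlock G (W : Set V) := by
      rw [MulAction.isBlock_iff_smul_eq_of_mem]
      intro σ a ha hσa
      obtain ⟨g, hg, b, hb⟩ := (hG σ.1).1 σ.2
      have hσ : ∀ x : V, σ • x = g x + b := fun x => hb x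
      have hbW : b ∈ W := by
        have h1 : g a + b ∈ W := by rw [← hσ]; exact hσa
        have h2 : g a ∈ W := hW g hg a ha
        have := W.sub_mem h1 h2
        simpa using this
      ext w
      constructor
      · rintro ⟨x, hx, rfl⟩
        show σ • x ∈ W
        rw [hσ]
        exact W.add_mem (hW g hg x hx) hbW
      · intro hw
        refine ⟨g⁻¹ (w - b), hW g⁻¹ (G₀.inv_mem hg) _ (W.sub_mem hw hbW), ?_⟩
        show σ • (g⁻¹ (w - b)) = w
        rw [hσ]
        have : g (g⁻¹ (w - b)) = w - b := by
          have : (g * g⁻¹) (w - b) = w - b := by simp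
          exact this
        rw [this]; abel
    rcases hprim.isTrivialBlock_of_isBlock hblock with h | h
    · left
      rw [eq_bot_iff]
      intro x hx
      exact h hx W.zero_mem
    · right
      rw [eq_top_iff]
      intro x _
      have : x ∈ (W : Set V) := by rw [h]; trivial
      exact this
  · intro hirr
    haveI : MulAction.IsPretransitive G V := by
      refine ⟨fun x y => ⟨⟨Equiv.addRight (y - x), htr _⟩, ?_⟩⟩
      show x + (y - x) = y
      abel
    refine MulAction.IsPreprimitive.of_isTrivialBlock_base (0 : V) ?_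
    intro B h0 hB
    have hmove : ∀ (σ : G) (a : V), a ∈ B → σ • a ∈ B → ∀ x ∈ B, σ • x ∈ B := by
      intro σ a ha hσa x hx
      have := (MulAction.isBlock_iff_smul_eq_of_mem.1 hB) ha hσa
      rw [← this]
      exact ⟨x, hx, rfl⟩
    let A : AddSubgroup V :=
      { carrier := B
        zero_mem' := h0
        add_mem' := by
          intro x y hx hy
          have := hmove ⟨Equiv.addRight y, htr y⟩ 0 h0 (by show (0 : V) + y ∈ B; simpa using hy) x hx
          exact this
        neg_mem' := by
          intro x hx
          have := hmove ⟨Equiv.addRight (-x), htr _⟩ x hx (by show x + -x ∈ B; simpa using h0) 0 h0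
          have h2 : (0 : V) + -x ∈ B := this
          simpa using h2 }
    have hA : ∀ x, x ∈ AddSubgroup.toZModSubmodule p A ↔ x ∈ B := fun x => Iff.rfl
    rcases hirr (AddSubgroup.toZModSubmodule p A) (by
      intro g hg v hv
      rw [hA] at hv ⊢
      exact hmove ⟨g.toEquiv, hlin g hg⟩ 0 h0 (by show g 0 ∈ B; simpa using h0) v hv) with h | h
    · left
      intro x hx y hy
      have hx' : x ∈ AddSubgroup.toZModSubmodule p A := (hA x).2 hx
      have hy' : y ∈ AddSubgroup.toZModSubmodule p A := (hA y).2 hy
      rw [h] at hx' hy'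
      rw [(Submodule.mem_bot _).1 hx', (Submodule.mem_bot _).1 hy']
    · right
      ext x
      constructor
      · intro _; trivial
      · intro _
        rw [← hA, h]; trivial

end Cfsg.Agent.S0733
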