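import Cfsg.Statements.S0734
import Mathlib

set_option autoImplicit false
open Cfsg

namespace Cfsg.Agent.S0734

open scoped Pointwise

/-- Higman's criterion for primitivity: a transitive action on a finite set is primitive if and only if every non-trivial orbital graph (edges = images of a fixed pair of distinct points) is connected. -/
theorem result {G : Type*} [Group G] {Ω : Type*} [Finite Ω] [MulAction G Ω] [MulAction.IsPretransitive G Ω] [Nontrivial Ω] : MulAction.IsPreprimitive G Ω ↔ ∀ a b : Ω, a ≠ b → (SimpleGraph.fromRel fun x y : Ω => ∃ g : G, g • a = x ∧ g • b = y).Connected := by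
  constructor
  · intro hprim a b hab
    set Γ := SimpleGraph.fromRel fun x y : Ω => ∃ g : G, g • a = x ∧ g • b = y with hΓ
    have hadj : ∀ (h : G) (x y : Ω), Γ.Adj x y → Γ.Adj (h • x) (h • y) := by
      intro h x y hxy
      rw [hΓ, SimpleGraph.fromRel_adj] at hxy ⊢
      obtain ⟨hne, hr⟩ := hxy
      refine ⟨fun e => hne (smul_left_cancel h e), ?_⟩
      rcases hr with ⟨g, h1, h2⟩ | ⟨g, h1, h2⟩
      · left; exact ⟨h * g, by rw [mul_smul, h1], by rw [mul_smul, h2]⟩
      · right; exact ⟨h * g, by rw [mul_smul, h1], by rw [mul_smul, h2]⟩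
    have hreach : ∀ (h : G) (x y : Ω), Γ.Reachable x y → Γ.Reachable (h • x) (h • y) := by
      intro h x y hxy
      rw [SimpleGraph.reachable_iff_reflTransGen] at hxy ⊢
      induction hxy with
      | refl => exact Relation.ReflTransGen.refl
      | tail _ hbc ih => exact ih.tail (hadj h _ _ hbc)
    let B : Set Ω := {x | Γ.Reachable a x}
    have hB : MulAction.IsBlock G B := by
      rw [MulAction.isBlock_iff_smul_eq_of_mem]
      intro g x hx hgx
      have hx' : Γ.Reachable a x := hx
      have hgx' : Γ.Reachable a (g • x) := hgx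
      ext y
      constructor
      · rintro ⟨z, hz, rfl⟩
        have hz' : Γ.Reachable a z := hz
        exact hgx'.trans (hreach g x z (hx'.symm.trans hz'))
      · intro hy
        have hy' : Γ.Reachable a y := hy
        refine ⟨g⁻¹ • y, ?_, smul_inv_smul g y⟩
        have h1 : Γ.Reachable (g • x) y := hgx'.symm.trans hy'
        have h2 := hreach g⁻¹ _ _ h1
        rw [inv_smul_smul] at h2
        exact hx'.trans h2
    rcases hprim.isTrivialBlock_of_isBlock hB with hs | hu
    · exfalso; apply hab
      have ha : a ∈ B := SimpleGraph.Reachable.refl a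
      have hb : b ∈ B := SimpleGraph.Adj.reachable (by
        rw [hΓ, SimpleGraph.fromRel_adj]
        exact ⟨hab, Or.inl ⟨1, one_smul _ _, one_smul _ _⟩⟩)
      exact hs ha hb
    · have hall : ∀ x : Ω, Γ.Reachable a x := fun x => by
        have : x ∈ B := by rw [hu]; trivial
        exact this
      exact { preconnected := fun x y => (hall x).symm.trans (hall y), nonempty := ⟨a⟩ }
  · intro h
    refine ⟨fun {B} hB => ?_⟩
    by_cases hsub : B.Subsingleton
    · exact Or.inl hsub
    right
    rw [Set.not_subsingleton_iff] at hsub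
    obtain ⟨a, ha, b, hb, hab⟩ := hsub
    have hconn := h a b hab
    have hstep : ∀ x y : Ω, x ∈ B →
        (SimpleGraph.fromRel fun x y : Ω => ∃ g : G, g • a = x ∧ g • b = y).Adj x y → y ∈ B := by
      intro x y hx hxy
      rw [SimpleGraph.fromRel_adj] at hxy
      rcases hxy.2 with ⟨g, h1, h2⟩ | ⟨g, h1, h2⟩
      · have h3 := hB.smul_eq_of_mem ha (by rw [h1]; exact hx)
        rw [← h3, ← h2]; exact Set.smul_mem_smul_set hb
      · have h3 := hB.smul_eq_of_mem hb (by rw [h2]; exact hx)
        rw [← h3, ← h1]; exact Set.smul_mem_smul_set ha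
    rw [Set.eq_univ_iff_forall]
    intro c
    have hr := hconn.preconnected a c
    rw [SimpleGraph.reachable_iff_reflTransGen] at hr
    induction hr with
    | refl => exact ha
    | tail _ hbc ih => exact hstep _ _ ih hbc

end Cfsg.Agent.S0734
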