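import Cfsg.Statements.S0735
import Mathlib

set_option autoImplicit false
open Cfsg

namespace Cfsg.Agent.S0735

open scoped Pointwise

/-- A 2-homogeneous permutation group (transitive on 2-subsets) of even order is doubly transitive; a non-trivial 2-homogeneous group is primitive. -/
theorem result {α : Type*} [Fintype α] [DecidableEq α] (G : Subgroup (Equiv.Perm α)) (h2 : MulAction.IsPretransitive G (Set.powersetCard α 2)) (hα : 3 ≤ Fintype.card α) : (Even (Nat.card G) → MulAction.IsMultiplyPretransitive G α 2) ∧ (G ≠ ⊥ → MulAction.IsPreprimitive G α) := by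
  have hhom : ∀ a b c d : α, a ≠ b → c ≠ d →
      ∃ g : G, (g • a = c ∧ g • b = d) ∨ (g • a = d ∧ g • b = c) := by
    intro a b c d hab hcd
    obtain ⟨g, hg⟩ := h2.exists_smul_eq (⟨{a, b}, Finset.card_pair hab⟩ : Set.powersetCard α 2)
      ⟨{c, d}, Finset.card_pair hcd⟩
    have hg' : g • ({a, b} : Finset α) = {c, d} := by
      have h0 := congrArg Subtype.val hg
      exact h0
    refine ⟨g, ?_⟩
    have ha : g • a ∈ ({c, d} : Finset α) := by
      rw [← hg']; exact Finset.smul_mem_smul_finset (by simp)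
    have hb : g • b ∈ ({c, d} : Finset α) := by
      rw [← hg']; exact Finset.smul_mem_smul_finset (by simp)
    have hne : g • a ≠ g • b := fun h => hab (smul_left_cancel g h)
    simp only [Finset.mem_insert, Finset.mem_singleton] at ha hb
    rcases ha with ha | ha <;> rcases hb with hb | hb
    · exact absurd (ha.trans hb.symm) hne
    · exact Or.inl ⟨ha, hb⟩
    · exact Or.inr ⟨ha, hb⟩
    · exact absurd (ha.trans hb.symm) hne
  refine ⟨fun heven => ?_, fun _ => ?_⟩
  · haveI : Fact (Nat.Prime 2) := ⟨Nat.prime_two⟩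
    obtain ⟨t, ht⟩ := exists_prime_orderOf_dvd_card' (G := G) 2 heven.two_dvd
    have ht1 : t ≠ 1 := by
      rintro rfl
      rw [orderOf_one] at ht
      omega
    have htt : t * t = 1 := by rw [← pow_two, ← ht]; exact pow_orderOf_eq_one t
    obtain ⟨a, ha⟩ : ∃ a : α, t • a ≠ a := by
      by_contra hcon
      push Not at hcon
      apply ht1
      apply Subtype.ext; apply Equiv.ext; intro x
      exact hcon x
    have htb : t • (t • a) = a := by rw [← mul_smul, htt, one_smul]
    have hfrom : ∀ c d : α, c ≠ d → ∃ g : G, g • a = c ∧ g • (t • a) = d := by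
      intro c d hcd
      obtain ⟨g, hg | hg⟩ := hhom a (t • a) c d (Ne.symm ha) hcd
      · exact ⟨g, hg⟩
      · exact ⟨g * t, by rw [mul_smul]; exact hg.2, by rw [mul_smul, htb]; exact hg.1⟩
    rw [MulAction.is_two_pretransitive_iff]
    intro c d e f hcd hef
    obtain ⟨g₁, h1a, h1b⟩ := hfrom c d hcd
    obtain ⟨g₂, h2a, h2b⟩ := hfrom e f hef
    refine ⟨g₂ * g₁⁻¹, ?_, ?_⟩
    · rw [mul_smul, ← h1a, inv_smul_smul, h2a]
    · rw [mul_smul, ← h1b, inv_smul_smul, h2b]
  · haveI : MulAction.IsPretransitive G α := by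
      refine ⟨fun x y => ?_⟩
      by_cases hxy : x = y
      · exact ⟨1, by rw [hxy, one_smul]⟩
      obtain ⟨z, hz⟩ : ∃ z : α, z ∉ ({x, y} : Finset α) := by
        by_contra hcon
        push Not at hcon
        have h1 : (Finset.univ : Finset α) ⊆ {x, y} := fun z _ => hcon z
        have h3 := Finset.card_le_card h1
        rw [Finset.card_univ, Finset.card_pair hxy] at h3
        omega
      simp only [Finset.mem_insert, Finset.mem_singleton, not_or] at hz
      obtain ⟨g, hg | hg⟩ := hhom x y x z hxy (Ne.symm hz.1)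
      · obtain ⟨g', hg' | hg'⟩ := hhom x y y z hxy (Ne.symm hz.2)
        · exact ⟨g', hg'.1⟩
        · exact ⟨g⁻¹ * g', by rw [mul_smul, hg'.1, ← hg.2, inv_smul_smul]⟩
      · exact ⟨g⁻¹, by rw [← hg.2, inv_smul_smul]⟩
    refine ⟨fun {B} hB => ?_⟩
    by_cases hsub : B.Subsingleton
    · exact Or.inl hsub
    right
    rw [Set.not_subsingleton_iff] at hsub
    obtain ⟨a, ha, b, hb, hab⟩ := hsub
    rw [Set.eq_univ_iff_forall]
    intro c
    by_cases hca : c = a
    · rw [hca]; exact ha
    obtain ⟨g, hg | hg⟩ := hhom a b a c hab (Ne.symm hca)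
    · have h1 := hB.smul_eq_of_mem ha (by rw [hg.1]; exact ha)
      rw [← h1, ← hg.2]
      exact Set.smul_mem_smul_set hb
    · have h1 := hB.smul_eq_of_mem hb (by rw [hg.2]; exact ha)
      rw [← h1, ← hg.1]
      exact Set.smul_mem_smul_set ha

end Cfsg.Agent.S0735
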