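import Cfsg.Statements.S0743
import Mathlib

set_option autoImplicit false
open Cfsg

namespace Cfsg.Agent.S0743

open MulAction SubMulAction

theorem gleason_one {G α : Type*} [Group G] [MulAction G α] [Finite α] {p : ℕ} [Fact p.Prime]
    (h : ∀ b : α, ∃ P : Subgroup G, IsPGroup p P ∧ fixedPoints P α = {b}) :
    IsPretransitive G α := by
  have key : ∀ (a b : α) (P : Subgroup G), IsPGroup p P → fixedPoints P α = {b} →
      (b ∈ orbit G a → Nat.card (orbit G a) ≡ 1 [MOD p]) ∧
      (b ∉ orbit G a → Nat.card (orbit G a) ≡ 0 [MOD p]) := by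
    intro a b P hP hfix
    have h1 := hP.card_modEq_card_fixedPoints (orbit G a)
    have hmem : ∀ z : orbit G a, z ∈ fixedPoints P (orbit G a) ↔ (z : α) = b := by
      intro z
      have h0 : (z : α) ∈ fixedPoints P α ↔ (z : α) = b := by rw [hfix]; rfl
      rw [← h0]
      constructor
      · intro hz g; exact congrArg Subtype.val (hz g)
      · intro hz g; exact Subtype.ext (hz g)
    constructor
    · intro hb
      have h2 : Nat.card (fixedPoints P (orbit G a)) = 1 := by
        rw [Nat.card_eq_one_iff_unique]
        refine ⟨⟨fun z w => Subtype.ext (Subtype.ext ?_)⟩, ⟨⟨⟨b, hb⟩, (hmem _).2 rfl⟩⟩⟩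
        rw [(hmem z.1).1 z.2, (hmem w.1).1 w.2]
      rwa [h2] at h1
    · intro hb
      have h2 : Nat.card (fixedPoints P (orbit G a)) = 0 := by
        haveI : IsEmpty (fixedPoints P (orbit G a)) :=
          ⟨fun z => hb (by rw [← (hmem z.1).1 z.2]; exact z.1.2)⟩
        exact Nat.card_of_isEmpty
      rwa [h2] at h1
  refine ⟨fun a b => ?_⟩
  by_contra hcon
  have hb : b ∉ orbit G a := fun ⟨g, hg⟩ => hcon ⟨g, hg⟩
  obtain ⟨Pa, hPa, hfa⟩ := h a
  obtain ⟨Pb, hPb, hfb⟩ := h b
  have h1 := (key a a Pa hPa hfa).1 (mem_orbit_self a)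
  have h0 := (key a b Pb hPb hfb).2 hb
  have h3 : 1 ≡ 0 [MOD p] := h1.symm.trans h0
  have h2 : p ∣ 1 := (Nat.modEq_zero_iff_dvd.1 h3)
  exact (Fact.out : p.Prime).one_lt.ne' (Nat.dvd_one.1 h2)

theorem gleason {p : ℕ} [Fact p.Prime] : ∀ (k : ℕ) {G : Type*} [Group G] {α : Type*}
    [MulAction G α] [Finite α], k + 1 < Nat.card α →
    (∀ s : Set α, s.ncard = k + 1 → ∃ P : Subgroup G, IsPGroup p P ∧ fixedPoints P α = s) →
    IsMultiplyPretransitive G α (k + 1) := by
  intro k
  induction k with
  | zero =>
    intro G _ α _ _ hk h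
    rw [zero_add, is_one_pretransitive_iff]
    apply gleason_one (p := p)
    intro b
    exact h {b} (Set.ncard_singleton b)
  | succ k ih =>
    intro G _ α _ _ hk h
    have hstab : ∀ a : α, IsMultiplyPretransitive (stabilizer G a) (ofStabilizer G a) (k + 1) := by
      intro a
      apply ih
      · have := nat_card_ofStabilizer_add_one_eq G a
        omega
      · intro s' hs'
        have ha' : a ∉ Subtype.val '' s' := by
          intro h; rw [Set.mem_image] at h; obtain ⟨x, hx⟩ := h
          apply x.prop; rw [hx.right]; exact Set.mem_singleton a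
        obtain ⟨P, hP, hfix⟩ := h (insert a (Subtype.val '' s')) (by
          rw [Set.ncard_insert_of_notMem ha', Set.ncard_image_of_injective _ Subtype.val_injective,
            hs'])
        refine ⟨P.subgroupOf (stabilizer G a),
          hP.comap_of_injective _ (Subgroup.subtype_injective _), ?_⟩
        have hPle : P ≤ stabilizer G a := by
          intro g hg
          have h0 : a ∈ fixedPoints P α := by rw [hfix]; exact Set.mem_insert _ _
          exact h0 ⟨g, hg⟩
        ext y
        constructor
        · intro hy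
          have h1 : (y : α) ∈ fixedPoints P α := by
            intro g
            have h10 := hy ⟨⟨g.1, hPle g.2⟩, g.2⟩
            exact congrArg Subtype.val h10
          rw [hfix] at h1
          rcases h1 with h1 | ⟨z, hz, hzy⟩
          · exact absurd h1 y.2
          · rwa [← Subtype.ext hzy]
        · intro hy g
          have h1 : (y : α) ∈ fixedPoints P α := by
            rw [hfix]; exact Set.mem_insert_of_mem _ ⟨y, hy, rfl⟩
          exact Subtype.ext (h1 ⟨g.1.1, g.2⟩)
    haveI : IsPretransitive G α := by
      refine ⟨fun x y => ?_⟩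
      obtain ⟨a, ha⟩ : ∃ a : α, a ∉ ({x, y} : Set α) := by
        rw [← Set.ne_univ_iff_exists_notMem]
        intro hu
        have h1 : ({x, y} : Set α).ncard ≤ 2 := by
          have h10 := Set.ncard_insert_le x ({y} : Set α)
          rw [Set.ncard_singleton] at h10
          exact h10
        rw [hu, Set.ncard_univ] at h1
        omega
      have hax : x ≠ a := fun h => ha (by rw [h]; simp)
      have hay : y ≠ a := fun h => ha (by rw [h]; simp)
      haveI := hstab a
      haveI : IsPretransitive (stabilizer G a) (ofStabilizer G a) := by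
        rw [← is_one_pretransitive_iff]
        exact isMultiplyPretransitive_of_le (n := k + 1) (by omega) (by
          have := nat_card_ofStabilizer_add_one_eq G a
          omega)
      obtain ⟨g, hg⟩ := exists_smul_eq (stabilizer G a) (⟨x, hax⟩ : ofStabilizer G a) ⟨y, hay⟩
      exact ⟨g.1, congrArg Subtype.val hg⟩
    obtain ⟨a⟩ : Nonempty α := (Finite.card_pos_iff).1 (by omega)
    exact (ofStabilizer.isMultiplyPretransitive (a := a)).2 (hstab a)

/-- Gleason's Lemma: let `p` be a prime and `1 ≤ k < n`; if every `k`-subset of the `n` points is exactly the fixed-point set of some `p`-subgroup of `G`, then `G` is `k`-transitive. -/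
theorem result {α : Type*} [Fintype α] [DecidableEq α] (G : Subgroup (Equiv.Perm α)) {p k : ℕ} (hp : p.Prime) (hk : 1 ≤ k) (hkn : k < Fintype.card α) (h : ∀ s : Finset α, s.card = k → ∃ P : Subgroup G, IsPGroup p P ∧ MulAction.fixedPoints P α = (s : Set α)) : MulAction.IsMultiplyPretransitive G α k := by
  classical
  haveI : Fact p.Prime := ⟨hp⟩
  obtain ⟨k', rfl⟩ : ∃ k', k = k' + 1 := ⟨k - 1, by omega⟩
  apply gleason (p := p) k' (by rw [Nat.card_eq_fintype_card]; exact hkn)
  intro s hs
  obtain ⟨P, hP, hfix⟩ := h s.toFinset (by rw [← Set.ncard_eq_toFinset_card']; exact hs)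
  exact ⟨P, hP, by rw [hfix, Set.coe_toFinset]⟩

end Cfsg.Agent.S0743
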