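import Cfsg.Statements.S0744
import Mathlib
import Cfsg.Agent.S0743
import Cfsg.Agent.Lib_helper1_Hall

set_option autoImplicit false
open Cfsg

namespace Cfsg.Agent.S0744

/-- If for some `k > 1` the pointwise stabilisers of all `(k-1)`-subsets have the same order `> 1` and those of all `k`-subsets have the same order, then the group is `(k-1)`-transitive. -/
theorem result {α : Type*} [Fintype α] [DecidableEq α] (G : Subgroup (Equiv.Perm α)) {k : ℕ} (hk : 1 < k) (hkn : k ≤ Fintype.card α) (l m : ℕ) (hl : 1 < l) (hkm1 : ∀ s : Finset α, s.card = k - 1 → Nat.card (fixingSubgroup G (s : Set α)) = l) (hkm : ∀ s : Finset α, s.card = k → Nat.card (fixingSubgroup G (s : Set α)) = m) : MulAction.IsMultiplyPretransitive G α (k - 1) := by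
  classical
  have hmemF : ∀ (u : Finset α) (g : G), g ∈ fixingSubgroup G (u : Set α) ↔ ∀ y ∈ u, g • y = y := by
    intro u g
    rw [mem_fixingSubgroup_iff]
    simp
  have hle : ∀ (s : Finset α) (x : α),
      fixingSubgroup G ((insert x s : Finset α) : Set α) ≤ fixingSubgroup G (s : Set α) := by
    intro s x g hg
    rw [hmemF] at hg ⊢
    exact fun y hy => hg y (Finset.mem_insert_of_mem hy)
  have hrel : ∀ (s : Finset α) (x : α), s.card = k - 1 → x ∉ s →
      (fixingSubgroup G ((insert x s : Finset α) : Set α)).relIndex (fixingSubgroup G (s : Set α)) * m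
        = l := by
    intro s x hs hx
    have h1 := H1.relIndex_mul_card' (hle s x)
    rw [hkm1 s hs, hkm (insert x s) (by rw [Finset.card_insert_of_notMem hx, hs]; omega)] at h1
    exact h1
  obtain ⟨t, -, ht⟩ := Finset.exists_subset_card_eq (s := (Finset.univ : Finset α)) (n := k)
    (by simpa using hkn)
  obtain ⟨x₀, hx₀⟩ : t.Nonempty := Finset.card_pos.1 (by omega)
  have hs₀ : (t.erase x₀).card = k - 1 := by rw [Finset.card_erase_of_mem hx₀, ht]
  have hx₀' : x₀ ∉ t.erase x₀ := Finset.notMem_erase x₀ t
  set d := (fixingSubgroup G ((insert x₀ (t.erase x₀) : Finset α) : Set α)).relIndex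
    (fixingSubgroup G ((t.erase x₀ : Finset α) : Set α)) with hd
  have hdm : d * m = l := hrel _ _ hs₀ hx₀'
  have hmpos : 0 < m := by
    rcases Nat.eq_zero_or_pos m with h | h
    · rw [h, mul_zero] at hdm; omega
    · exact h
  have hd1 : d ≠ 1 := by
    intro h1
    rw [h1, one_mul] at hdm
    have hbot : fixingSubgroup G ((t.erase x₀ : Finset α) : Set α) = ⊥ := by
      rw [eq_bot_iff]
      intro g hg
      rw [Subgroup.mem_bot]
      apply Subtype.ext; apply Equiv.ext; intro y
      by_cases hy : y ∈ t.erase x₀
      · exact (hmemF _ g).1 hg y hy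
      · have heq : fixingSubgroup G ((insert y (t.erase x₀) : Finset α) : Set α) =
            fixingSubgroup G ((t.erase x₀ : Finset α) : Set α) := by
          apply Subgroup.eq_of_le_of_card_ge (hle _ y)
          rw [hkm1 _ hs₀, hkm (insert y (t.erase x₀))
            (by rw [Finset.card_insert_of_notMem hy, hs₀]; omega), hdm]
        rw [← heq] at hg
        exact (hmemF _ g).1 hg y (Finset.mem_insert_self _ _)
    have h2 := hkm1 _ hs₀
    rw [hbot, Subgroup.card_bot] at h2
    omega
  have hp : d.minFac.Prime := Nat.minFac_prime hd1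
  haveI : Fact d.minFac.Prime := ⟨hp⟩
  apply S0743.result G hp (by omega) (by omega)
  intro s hs
  let Ps : Sylow d.minFac (fixingSubgroup G (s : Set α)) := default
  refine ⟨(Ps : Subgroup (fixingSubgroup G (s : Set α))).map (fixingSubgroup G (s : Set α)).subtype,
    Ps.isPGroup'.map _, ?_⟩
  ext y
  constructor
  · intro hy
    by_contra hys
    have hys' : y ∉ s := hys
    have hPle : (Ps : Subgroup (fixingSubgroup G (s : Set α))) ≤
        (fixingSubgroup G ((insert y s : Finset α) : Set α)).subgroupOf
          (fixingSubgroup G (s : Set α)) := by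
      intro g hg
      rw [Subgroup.mem_subgroupOf, hmemF]
      intro z hz
      rcases Finset.mem_insert.1 hz with rfl | hz
      · exact hy ⟨g.1, ⟨g, hg, rfl⟩⟩
      · exact (hmemF _ g.1).1 g.2 z hz
    have h1 := Subgroup.index_dvd_of_le hPle
    have h2 : ((fixingSubgroup G ((insert y s : Finset α) : Set α)).subgroupOf
          (fixingSubgroup G (s : Set α))).index = d := by
      have h3 := hrel s y hs hys'
      rw [← hdm] at h3
      exact Nat.eq_of_mul_eq_mul_right hmpos h3
    rw [h2] at h1
    exact Ps.not_dvd_index ((Nat.minFac_dvd d).trans h1)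
  · intro hy g
    obtain ⟨g', hg', hgg⟩ := g.2
    have h1 := (hmemF s g'.1).1 g'.2 y hy
    have h2 : (g : G) = g'.1 := hgg.symm
    show (g : G) • y = y
    rw [h2]; exact h1

end Cfsg.Agent.S0744
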