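import Cfsg.Statements.S0757
import Cfsg.Agent.Lib_helper6_Disc3

set_option autoImplicit false
open Cfsg

namespace Cfsg.Agent.S0757

/-- The two diagonal forms Σ x_i^2 and Σ_(i<n) x_i^2 + α x_n^2 on F^(n+1), with α a non-square and 2 ≠ 0 in F, are inequivalent quadratic forms (so over a finite field of odd order there are exactly two classes of non-singular symmetric bilinear forms in each dimension). -/
theorem result {F : Type*} [Field F] (h2 : (2 : F) ≠ 0) (n : ℕ) (α : F) (hα : ¬ IsSquare α) : ¬ (QuadraticMap.weightedSumSquares F (fun _ : Fin (n + 1) => (1 : F))).Equivalent (QuadraticMap.weightedSumSquares F (fun i : Fin (n + 1) => if i = Fin.last n then α else (1 : F))) := by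
  classical
  rintro ⟨e⟩
  have hsq := H6.Quad.isSquare_disc_mul_of_isometry
    (H6.Quad.pol (QuadraticMap.weightedSumSquares F (fun _ : Fin (n + 1) => (1 : F))))
    (H6.Quad.pol (QuadraticMap.weightedSumSquares F
      (fun i : Fin (n + 1) => if i = Fin.last n then α else (1 : F)))) e.toLinearEquiv (by
      intro x y
      simp only [H6.Quad.pol, QuadraticMap.polarBilin_apply_apply, QuadraticMap.polar, ← map_add]
      have : ∀ v, (QuadraticMap.weightedSumSquares F
          (fun i : Fin (n + 1) => if i = Fin.last n then α else (1 : F))) (e.toLinearEquiv v) =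
          (QuadraticMap.weightedSumSquares F (fun _ : Fin (n + 1) => (1 : F))) v := e.map_app
      rw [this, this, this]) (Pi.basisFun F (Fin (n + 1))) (Pi.basisFun F (Fin (n + 1)))
  rw [H6.Quad.det_gram_wSS, H6.Quad.det_gram_wSS] at hsq
  simp only [Finset.prod_const_one, mul_one, Finset.prod_ite_eq', Finset.mem_univ, if_true,
    Fintype.card_fin] at hsq
  rw [← mul_assoc] at hsq
  exact hα ((H6.Quad.isSquare_mul_iff_of_sq (mul_ne_zero (pow_ne_zero _ h2) (pow_ne_zero _ h2))
    ⟨_, rfl⟩).mp hsq)

end Cfsg.Agent.S0757
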