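import Cfsg.Statements.S0758
import Cfsg.Agent.Lib_helper6_Disc3

set_option autoImplicit false
open Cfsg

namespace Cfsg.Agent.S0758

/-- For a finite field F of odd order q and a non-square α: the form x² + y² is isotropic iff q ≡ 1 mod 4, and the form x² + α y² is isotropic iff q ≡ 3 mod 4. -/
theorem result {F : Type*} [Field F] [Fintype F] (h2 : (2 : F) ≠ 0) (α : F) (hα : ¬ IsSquare α) : ((∃ x y : F, (x ≠ 0 ∨ y ≠ 0) ∧ x ^ 2 + y ^ 2 = 0) ↔ Fintype.card F % 4 = 1) ∧ ((∃ x y : F, (x ≠ 0 ∨ y ≠ 0) ∧ x ^ 2 + α * y ^ 2 = 0) ↔ Fintype.card F % 4 = 3) := by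
  classical
  have hα0 : α ≠ 0 := fun h => hα (h ▸ IsSquare.zero)
  have hodd : Fintype.card F % 4 = 1 ∨ Fintype.card F % 4 = 3 := by
    have : Fintype.card F % 2 = 1 := by
      rcases Nat.even_or_odd (Fintype.card F) with he | ho
      · exfalso
        apply h2
        have hc : ringChar F = 2 := (FiniteField.even_card_iff_char_two).mpr (Nat.even_iff.mp he)
        have := ringChar.Nat.cast_ringChar (R := F)
        rw [hc] at this
        exact_mod_cast this
      · exact Nat.odd_iff.mp ho
    omega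
  have key : ∀ c : F, c ≠ 0 → ((∃ x y : F, (x ≠ 0 ∨ y ≠ 0) ∧ x ^ 2 + c * y ^ 2 = 0) ↔ IsSquare (-c)) := by
    intro c hc
    constructor
    · rintro ⟨x, y, hxy, h⟩
      have hy : y ≠ 0 := by
        rintro rfl
        simp at h
        simp [h] at hxy
      refine ⟨x / y, ?_⟩
      field_simp
      linear_combination -h
    · rintro ⟨s, hs⟩
      exact ⟨s, 1, Or.inr one_ne_zero, by linear_combination -hs⟩
  constructor
  · have := key 1 one_ne_zero
    simp only [one_mul] at this
    rw [this, FiniteField.isSquare_neg_one_iff]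
    omega
  · rw [key α hα0]
    have e : -α = α * (-1) := by ring
    rw [e, H6.Quad.isSquare_mul_iff_of_not_sq hα (neg_ne_zero.mpr one_ne_zero),
      FiniteField.isSquare_neg_one_iff]
    omega

end Cfsg.Agent.S0758
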