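import Cfsg.Statements.S0759
import Cfsg.Agent.Lib_helper6_Disc3

set_option autoImplicit false
open Cfsg

namespace Cfsg.Agent.S0759

/-- Type of the orthonormal form: over a finite field of odd order q and for m ≥ 1, the quadratic form Σ_(i<2m) x_i² on F^(2m) admits an m-dimensional subspace on which it vanishes identically if and only if it is not the case that q ≡ 3 (mod 4) and m is odd. -/
theorem result {F : Type*} [Field F] [Fintype F] (h2 : (2 : F) ≠ 0) (m : ℕ) (hm : 1 ≤ m) : (∃ W : Submodule F (Fin (2 * m) → F), Module.finrank F W = m ∧ ∀ w ∈ W, ∑ i, w i ^ 2 = 0) ↔ ¬ (Fintype.card F % 4 = 3 ∧ Odd m) := by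
  classical
  set Q := QuadraticMap.weightedSumSquares F (fun _ : Fin (2 * m) => (1 : F)) with hQ
  have hQa : ∀ w : Fin (2 * m) → F, Q w = ∑ i, w i ^ 2 := by
    intro w
    rw [hQ, QuadraticMap.weightedSumSquares_apply]
    exact Finset.sum_congr rfl fun i _ => by simp [pow_two]
  have hnd : (H6.Quad.pol Q).Nondegenerate := H6.Quad.nondeg_wSS h2 _ fun _ => one_ne_zero
  have h1 : (∃ W : Submodule F (Fin (2 * m) → F), Module.finrank F W = m ∧ ∀ w ∈ W, ∑ i, w i ^ 2 = 0) ↔
      ∃ X : Submodule F (Fin (2 * m) → F), Module.finrank F X = m ∧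
        ∀ x ∈ X, ∀ y ∈ X, H6.Quad.pol Q x y = 0 := by
    apply exists_congr
    intro W
    rw [← H6.Quad.singular_iff_isotropic h2 Q W]
    simp only [hQa]
  rw [h1, H6.Quad.exists_lagrangian_iff h2 (H6.Quad.pol Q) ⟨fun x y => H6.Quad.pol_comm x y⟩ hnd
    (by simp) (Pi.basisFun F (Fin (2 * m))), hQ, H6.Quad.det_gram_wSS,
    ← H6.Quad.isSquare_neg_one_pow_iff m]
  simp only [Finset.prod_const_one, mul_one, Fintype.card_fin]
  rw [mul_comm]
  exact H6.Quad.isSquare_mul_iff_of_sq (pow_ne_zero _ h2) ⟨2 ^ m, by rw [← pow_add]; congr 1; ring⟩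

end Cfsg.Agent.S0759
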