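import Cfsg.Statements.S0761


set_option autoImplicit false
open Cfsg

namespace Cfsg.Agent.S0761

/-- Hyperbolic partners: let B be a non-degenerate bilinear form on a finite-dimensional space, either alternating, or symmetric with 2 ≠ 0. If Z is a subspace on which B vanishes, x ∉ Z is isotropic and orthogonal to Z, then there is an isotropic y with B x y = 1 which is orthogonal to Z. -/
theorem result {F V : Type*} [Field F] [AddCommGroup V] [Module F V] [FiniteDimensional F V] (B : LinearMap.BilinForm F V) (hB : B.Nondegenerate) (hform : B.IsAlt ∨ (B.IsSymm ∧ (2 : F) ≠ 0)) (x : V) (Z : Submodule F V) (hxZ : x ∉ Z) (hx : B x x = 0) (hxz : ∀ z ∈ Z, B x z = 0) (hZ : ∀ z ∈ Z, ∀ z' ∈ Z, B z z' = 0) : ∃ y : V, B y y = 0 ∧ B x y = 1 ∧ ∀ z ∈ Z, B z y = 0 := by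
  have hrefl : B.IsRefl := by
    rcases hform with h | h
    · exact h.isRefl
    · exact h.1.isRefl
  obtain ⟨w, hwZ, hxw⟩ : ∃ w, (∀ z ∈ Z, B z w = 0) ∧ B x w ≠ 0 := by
    by_contra hcon
    push Not at hcon
    apply hxZ
    rw [← LinearMap.BilinForm.orthogonal_orthogonal hB hrefl Z,
      LinearMap.BilinForm.mem_orthogonal_iff]
    intro n hn
    rw [LinearMap.BilinForm.mem_orthogonal_iff] at hn
    exact hrefl _ _ (hcon n hn)
  obtain ⟨v, hvZ, hxv⟩ : ∃ v, (∀ z ∈ Z, B z v = 0) ∧ B x v = 1 :=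
    ⟨(B x w)⁻¹ • w, fun z hz => by rw [map_smul, hwZ z hz, smul_zero],
      by rw [map_smul, smul_eq_mul, inv_mul_cancel₀ hxw]⟩
  rcases hform with hA | ⟨hS, h2⟩
  · exact ⟨v, hA v, hxv, hvZ⟩
  · refine ⟨v - (B v v / 2) • x, ?_, ?_, ?_⟩
    · have hvx : B v x = 1 := by rw [← hxv]; exact hS.eq v x
      simp only [map_sub, map_smul, LinearMap.sub_apply, LinearMap.smul_apply, smul_eq_mul, hx,
        hxv, hvx]
      field_simp
      ring
    · simp only [map_sub, map_smul, smul_eq_mul, hx, hxv]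
      ring
    · intro z hz
      have hzx : B z x = 0 := hrefl _ _ (hxz z hz)
      simp only [map_sub, map_smul, smul_eq_mul, hvZ z hz, hzx]
      ring

end Cfsg.Agent.S0761
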