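import Cfsg.Statements.S0763
import Cfsg.Agent.Lib_helper6_QuadIso

set_option autoImplicit false
open Cfsg

namespace Cfsg.Agent.S0763

open Cfsg.Agent.H6.Quad in
theorem indep_aux {F V : Type*} [Field F] [AddCommGroup V] [Module F V] (Q : QuadraticForm F V)
    (h2 : (2 : F) = 0) {v w : V} (h : pol Q v w = 1) : LinearIndependent F ![v, w] := by
  rw [LinearIndependent.pair_iff]
  intro s t hst
  have h1 : pol Q v (s • v + t • w) = 0 := by rw [hst, map_zero]
  have h3 : pol Q w (s • v + t • w) = 0 := by rw [hst, map_zero]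
  rw [map_add, map_smul, map_smul, pol_self, h2, h] at h1
  rw [map_add, map_smul, map_smul, pol_self, h2, pol_comm, h] at h3
  simp only [zero_mul, smul_eq_mul, mul_zero, zero_add, mul_one, add_zero] at h1 h3
  exact ⟨h3, h1⟩

/-- Binary quadratic forms in characteristic two over a finite field: if Q is a quadratic form on a 2-dimensional space whose polar form is non-degenerate, then either there are vectors v, w with Q v = Q w = 0 and polar value 1 (Q is xy in these coordinates), or there are v, w and μ with Q v = 1, Q w = μ, polar value 1 and x² + x + μ without roots in F (Q is x² + xy + μy²). -/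
theorem result {F V : Type*} [Field F] [Finite F] [CharP F 2] [AddCommGroup V] [Module F V] (Q : QuadraticForm F V) (h2 : Module.finrank F V = 2) (hQ : (QuadraticMap.polarBilin Q).Nondegenerate) : (∃ v w : V, LinearIndependent F ![v, w] ∧ Q v = 0 ∧ Q w = 0 ∧ QuadraticMap.polar Q v w = 1) ∨ (∃ (v w : V) (μ : F), LinearIndependent F ![v, w] ∧ (∀ x : F, x ^ 2 + x + μ ≠ 0) ∧ Q v = 1 ∧ Q w = μ ∧ QuadraticMap.polar Q v w = 1) := by
  have h20 : (2 : F) = 0 := CharTwo.two_eq_zero
  have := Fintype.ofFinite F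
  have hchar : ringChar F = 2 := ringChar.eq F 2
  by_cases hs : ∃ e : V, e ≠ 0 ∧ Q e = 0
  · left
    obtain ⟨e, he, hQe⟩ := hs
    obtain ⟨f, hQf, hef⟩ := Cfsg.Agent.H6.Quad.exists_hyp_partner hQ he hQe
    exact ⟨e, f, indep_aux Q h20 hef, hQe, hQf, hef⟩
  · right
    push Not at hs
    have : Nontrivial V := Module.nontrivial_of_finrank_pos (R := F) (by omega)
    obtain ⟨x, hx⟩ := exists_ne (0 : V)
    have hQx := hs x hx
    obtain ⟨s, hs'⟩ := FiniteField.isSquare_of_char_two hchar (Q x)⁻¹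
    have hQv : Q (s • x) = 1 := by
      rw [Cfsg.Agent.H6.Quad.Q_smul, ← hs', inv_mul_cancel₀ hQx]
    have hv0 : s • x ≠ 0 := by
      intro h
      rw [h, map_zero] at hQv
      exact zero_ne_one hQv
    obtain ⟨w0, hw0⟩ : ∃ w, Cfsg.Agent.H6.Quad.pol Q (s • x) w ≠ 0 := by
      by_contra h
      push Not at h
      exact hv0 (hQ.1 _ h)
    have hvw : Cfsg.Agent.H6.Quad.pol Q (s • x) ((Cfsg.Agent.H6.Quad.pol Q (s • x) w0)⁻¹ • w0) = 1 := by
      rw [map_smul, smul_eq_mul, inv_mul_cancel₀ hw0]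
    generalize (Cfsg.Agent.H6.Quad.pol Q (s • x) w0)⁻¹ • w0 = w at hvw
    generalize s • x = v at hvw hQv hv0
    refine ⟨v, w, Q w, indep_aux Q h20 hvw, fun y hy => ?_, hQv, rfl, hvw⟩
    have h1 : Q (y • v + w) = y ^ 2 + y + Q w := by
      rw [Cfsg.Agent.H6.Quad.Q_add, Cfsg.Agent.H6.Quad.Q_smul, hQv, map_smul,
        LinearMap.smul_apply, hvw, smul_eq_mul]
      ring
    rw [hy] at h1
    have h3 : y • v + w = 0 := by
      by_contra h
      exact hs _ h h1
    have h4 : Cfsg.Agent.H6.Quad.pol Q v (y • v + w) = 0 := by rw [h3, map_zero]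
    rw [map_add, map_smul, Cfsg.Agent.H6.Quad.pol_self, h20, hvw] at h4
    simp at h4

end Cfsg.Agent.S0763
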