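import Cfsg.Statements.S0769
import Mathlib

set_option autoImplicit false
open Cfsg

namespace Cfsg.Agent.S0769

/-- Order of the Borel subgroup of GL_n(q): the invertible lower-triangular n × n matrices over a field with q elements number q^(n(n-1)/2) (q-1)^n (unitriangular part times the diagonal torus). -/
theorem result {F : Type*} [Field F] [Fintype F] {q : ℕ} (hF : Fintype.card F = q) (n : ℕ) : Nat.card {g : Matrix.GeneralLinearGroup (Fin n) F // ∀ i j : Fin n, i < j → (g : Matrix (Fin n) (Fin n) F) i j = 0} = q ^ (n * (n - 1) / 2) * (q - 1) ^ n := by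
  classical
  have hdiag : ∀ g : {g : Matrix.GeneralLinearGroup (Fin n) F //
      ∀ i j : Fin n, i < j → (g : Matrix (Fin n) (Fin n) F) i j = 0}, ∀ i,
      ((g : Matrix.GeneralLinearGroup (Fin n) F) : Matrix (Fin n) (Fin n) F) i i ≠ 0 := by
    intro g i
    have h1 : ((g : Matrix.GeneralLinearGroup (Fin n) F) : Matrix (Fin n) (Fin n) F).det
        = ∏ i, ((g : Matrix.GeneralLinearGroup (Fin n) F) : Matrix (Fin n) (Fin n) F) i i := by
      apply Matrix.det_of_lowerTriangular
      intro a b hab
      exact g.2 a b hab
    have h2 : ((g : Matrix.GeneralLinearGroup (Fin n) F) : Matrix (Fin n) (Fin n) F).det ≠ 0 := by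
      have := (Matrix.GeneralLinearGroup.det (g : Matrix.GeneralLinearGroup (Fin n) F)).ne_zero
      exact this
    rw [h1, Finset.prod_ne_zero_iff] at h2
    exact h2 i (Finset.mem_univ _)
  let f : {g : Matrix.GeneralLinearGroup (Fin n) F //
      ∀ i j : Fin n, i < j → (g : Matrix (Fin n) (Fin n) F) i j = 0} →
      (Fin n → Fˣ) × ((Σ i : Fin n, Fin i) → F) := fun g =>
    (fun i => Units.mk0 _ (hdiag g i),
     fun s => ((g : Matrix.GeneralLinearGroup (Fin n) F) : Matrix (Fin n) (Fin n) F) s.1
       ⟨s.2.val, s.2.2.trans s.1.2⟩)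
  have hf : Function.Bijective f := by
    constructor
    · intro g g' h
      apply Subtype.ext
      apply Units.ext
      ext i j
      rcases lt_trichotomy i j with hij | hij | hij
      · rw [g.2 i j hij, g'.2 i j hij]
      · subst hij
        have := congrArg (fun x => ((x.1 i : Fˣ) : F)) h
        exact this
      · have := congrArg (fun x => x.2 ⟨i, ⟨j.val, hij⟩⟩) h
        exact this
    · rintro ⟨d, l⟩
      let M : Matrix (Fin n) (Fin n) F := fun i j =>
        if h : j.val < i.val then l ⟨i, ⟨j.val, h⟩⟩ else if i = j then (d i : F) else 0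
      have hMtri : ∀ i j : Fin n, i < j → M i j = 0 := by
        intro i j hij
        have h1 : ¬ j.val < i.val := by
          have : i.val < j.val := hij
          omega
        show (if h : j.val < i.val then l ⟨i, ⟨j.val, h⟩⟩ else if i = j then (d i : F) else 0) = 0
        rw [dif_neg h1, if_neg hij.ne]
      have hMd : ∀ i, M i i = d i := by
        intro i
        show (if h : i.val < i.val then l ⟨i, ⟨i.val, h⟩⟩ else if i = i then (d i : F) else 0) = d i
        rw [dif_neg (lt_irrefl _), if_pos rfl]
      have hdet : M.det ≠ 0 := by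
        have h1 : M.det = ∏ i, M i i := by
          apply Matrix.det_of_lowerTriangular
          intro a b hab
          exact hMtri a b hab
        rw [h1, Finset.prod_ne_zero_iff]
        intro i _
        rw [hMd]
        exact (d i).ne_zero
      refine ⟨⟨Matrix.GeneralLinearGroup.mkOfDetNeZero M hdet, hMtri⟩, ?_⟩
      apply Prod.ext
      · funext i
        apply Units.ext
        exact hMd i
      · funext s
        show M s.1 ⟨s.2.val, s.2.2.trans s.1.2⟩ = l s
        show (if h : s.2.val < s.1.val then l ⟨s.1, ⟨s.2.val, h⟩⟩ else _) = l s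
        rw [dif_pos s.2.2]
  rw [Nat.card_congr (Equiv.ofBijective f hf), Nat.card_prod, Nat.card_fun, Nat.card_fun,
    Nat.card_units, Nat.card_eq_fintype_card (α := F), hF, Nat.card_eq_fintype_card (α := Fin n),
    Fintype.card_fin, Nat.card_eq_fintype_card (α := (Σ i : Fin n, Fin i)), Fintype.card_sigma]
  simp only [Fintype.card_fin]
  rw [Fin.sum_univ_eq_sum_range (fun i => i) n, Finset.sum_range_id, mul_comm]

end Cfsg.Agent.S0769
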