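import Cfsg.Statements.S0770


set_option autoImplicit false
open Cfsg

namespace Cfsg.Agent.S0770

theorem mem_T_iff {F : Type*} [Field F] {n : ℕ} (h : Matrix.GeneralLinearGroup (Fin n) F) :
    h ∈ ((Units.map (Matrix.diagonalRingHom (Fin n) F).toMonoidHom).range :
      Subgroup (Matrix.GeneralLinearGroup (Fin n) F)) ↔
      ∀ i j, i ≠ j → (h : Matrix (Fin n) (Fin n) F) i j = 0 := by
  constructor
  · rintro ⟨d, rfl⟩ i j hij
    change Matrix.diagonal (d : Fin n → F) i j = 0
    exact Matrix.diagonal_apply_ne _ hij
  · intro hd
    have hdiag : (h : Matrix (Fin n) (Fin n) F) =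
        Matrix.diagonal (fun i => (h : Matrix (Fin n) (Fin n) F) i i) := by
      ext i j
      by_cases hij : i = j
      · subst hij; simp
      · rw [Matrix.diagonal_apply_ne _ hij, hd i j hij]
    have hne : ∀ i, (h : Matrix (Fin n) (Fin n) F) i i ≠ 0 := by
      have hdet : (h : Matrix (Fin n) (Fin n) F).det ≠ 0 := by
        have := Matrix.GeneralLinearGroup.det h
        exact (Matrix.GeneralLinearGroup.det h).ne_zero
      rw [hdiag, Matrix.det_diagonal] at hdet
      intro i hi
      exact hdet (Finset.prod_eq_zero (Finset.mem_univ i) hi)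
    refine ⟨MulEquiv.piUnits.symm (fun i => Units.mk0 _ (hne i)), ?_⟩
    apply Units.ext
    exact hdiag.symm

theorem mul_inv_val {F : Type*} [Field F] {n : ℕ} (g : Matrix.GeneralLinearGroup (Fin n) F) :
    (g : Matrix (Fin n) (Fin n) F) * ((g⁻¹ : Matrix.GeneralLinearGroup (Fin n) F) :
      Matrix (Fin n) (Fin n) F) = 1 := by
  rw [← Units.val_mul, mul_inv_cancel, Units.val_one]

/-- For a field with at least 3 elements, an invertible matrix normalises the subgroup of invertible diagonal matrices of GL_n if and only if it is monomial (exactly one non-zero entry in each row). -/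
theorem result {F : Type*} [Field F] (hF : ∃ a : F, a ≠ 0 ∧ a ≠ 1) (n : ℕ) (g : Matrix.GeneralLinearGroup (Fin n) F) : g ∈ Subgroup.normalizer ((Units.map (Matrix.diagonalRingHom (Fin n) F).toMonoidHom).range : Subgroup (Matrix.GeneralLinearGroup (Fin n) F)) ↔ ∀ i : Fin n, ∃! j : Fin n, (g : Matrix (Fin n) (Fin n) F) i j ≠ 0 := by
  classical
  rw [Subgroup.mem_normalizer_iff]
  obtain ⟨a, ha0, ha1⟩ := hF
  have hrow : ∀ i : Fin n, ∃ j, (g : Matrix (Fin n) (Fin n) F) i j ≠ 0 := by
    intro i
    by_contra hcon
    push Not at hcon
    have := congrFun (congrFun (mul_inv_val g) i) i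
    rw [Matrix.mul_apply, Matrix.one_apply_eq] at this
    simp only [hcon, zero_mul, Finset.sum_const_zero] at this
    exact zero_ne_one this
  constructor
  · intro hN j
    obtain ⟨i, hi⟩ := hrow j
    refine ⟨i, hi, fun l hl => ?_⟩
    by_contra hli
    -- the diagonal matrix with `a` at position `i`
    have hu : ∀ m, Function.update (1 : Fin n → F) i a m ≠ 0 := by
      intro m
      by_cases hm : m = i
      · subst hm; simpa using ha0
      · rw [Function.update_of_ne hm]; exact one_ne_zero
    set D : Matrix.GeneralLinearGroup (Fin n) F :=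
      Units.map (Matrix.diagonalRingHom (Fin n) F).toMonoidHom
        (MulEquiv.piUnits.symm (fun m => Units.mk0 _ (hu m))) with hD
    have hDval : (D : Matrix (Fin n) (Fin n) F) =
        Matrix.diagonal (Function.update (1 : Fin n → F) i a) := rfl
    have hDT := (hN D).mp ⟨_, rfl⟩
    rw [mem_T_iff] at hDT
    set D' := g * D * g⁻¹ with hD'
    have hrel : (g : Matrix (Fin n) (Fin n) F) * (D : Matrix (Fin n) (Fin n) F) =
        (D' : Matrix (Fin n) (Fin n) F) * (g : Matrix (Fin n) (Fin n) F) := by
      rw [← Units.val_mul, ← Units.val_mul, hD']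
      congr 1
      group
    have hentry : ∀ m, (g : Matrix (Fin n) (Fin n) F) j m * Function.update (1 : Fin n → F) i a m =
        (D' : Matrix (Fin n) (Fin n) F) j j * (g : Matrix (Fin n) (Fin n) F) j m := by
      intro m
      have := congrFun (congrFun hrel j) m
      rw [hDval, Matrix.mul_diagonal, Matrix.mul_apply, Finset.sum_eq_single j] at this
      · exact this
      · intro b _ hb
        rw [hDT j b (Ne.symm hb), zero_mul]
      · intro h; exact absurd (Finset.mem_univ j) h
    have h1 := hentry i
    have h2 := hentry l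
    rw [Function.update_self] at h1
    rw [Function.update_of_ne hli, Pi.one_apply, mul_one] at h2
    have e1 : (D' : Matrix (Fin n) (Fin n) F) j j = a := by
      have : (g : Matrix (Fin n) (Fin n) F) j i * a = (g : Matrix (Fin n) (Fin n) F) j i *
          (D' : Matrix (Fin n) (Fin n) F) j j := by rw [h1, mul_comm]
      exact (mul_left_cancel₀ hi this).symm
    have e2 : (D' : Matrix (Fin n) (Fin n) F) j j = 1 := by
      have : (g : Matrix (Fin n) (Fin n) F) j l * 1 = (g : Matrix (Fin n) (Fin n) F) j l *
          (D' : Matrix (Fin n) (Fin n) F) j j := by rw [mul_one, mul_comm]; exact h2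
      exact (mul_left_cancel₀ hl this).symm
    exact ha1 (e1.symm.trans e2)
  · intro hmono
    choose σ hσ hσu using hmono
    have hzero : ∀ j l, l ≠ σ j → (g : Matrix (Fin n) (Fin n) F) j l = 0 := by
      intro j l hl
      by_contra h
      exact hl (hσu j l h)
    have hinv : ∀ j m, (g : Matrix (Fin n) (Fin n) F) j (σ j) *
        ((g⁻¹ : Matrix.GeneralLinearGroup (Fin n) F) : Matrix (Fin n) (Fin n) F) (σ j) m =
        (1 : Matrix (Fin n) (Fin n) F) j m := by
      intro j m
      have := congrFun (congrFun (mul_inv_val g) j) m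
      rw [Matrix.mul_apply, Finset.sum_eq_single (σ j)] at this
      · exact this
      · intro b _ hb
        rw [hzero j b hb, zero_mul]
      · intro h; exact absurd (Finset.mem_univ _) h
    have hσinj : Function.Injective σ := by
      intro j j' hjj
      by_contra hne
      have h1 := hinv j j
      have h2 := hinv j' j
      rw [Matrix.one_apply_eq] at h1
      rw [Matrix.one_apply_ne (Ne.symm hne), ← hjj] at h2
      rcases mul_eq_zero.mp h2 with h3 | h3
      · rw [hjj] at h3; exact hσ j' h3
      · rw [h3, mul_zero] at h1
        exact zero_ne_one h1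
    have hσbij : Function.Bijective σ := Finite.injective_iff_bijective.mp hσinj
    -- the key relation
    have hkey : ∀ (M M' : Matrix (Fin n) (Fin n) F),
        (g : Matrix (Fin n) (Fin n) F) * M = M' * (g : Matrix (Fin n) (Fin n) F) →
        ((∀ i j, i ≠ j → M i j = 0) ↔ (∀ i j, i ≠ j → M' i j = 0)) := by
      intro M M' hrel
      have hent : ∀ j m, (g : Matrix (Fin n) (Fin n) F) j (σ j) * M (σ j) (σ m) =
          M' j m * (g : Matrix (Fin n) (Fin n) F) m (σ m) := by
        intro j m
        have := congrFun (congrFun hrel j) (σ m)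
        rw [Matrix.mul_apply, Matrix.mul_apply, Finset.sum_eq_single (σ j),
          Finset.sum_eq_single m] at this
        · exact this
        · intro b _ hb
          rw [hzero b (σ m) (fun h => hb (hσinj h).symm), mul_zero]
        · intro h; exact absurd (Finset.mem_univ _) h
        · intro b _ hb
          rw [hzero j b hb, zero_mul]
        · intro h; exact absurd (Finset.mem_univ _) h
      constructor
      · intro hM j m hjm
        have := hent j m
        rw [hM _ _ (fun h => hjm (hσinj h)), mul_zero] at this
        exact (mul_eq_zero.mp this.symm).resolve_right (hσ m)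
      · intro hM' i j hij
        obtain ⟨i', rfl⟩ := hσbij.2 i
        obtain ⟨j', rfl⟩ := hσbij.2 j
        have := hent i' j'
        rw [hM' _ _ (fun h => hij (by rw [h])), zero_mul] at this
        exact (mul_eq_zero.mp this).resolve_left (hσ i')
    intro h
    rw [mem_T_iff, mem_T_iff]
    apply hkey
    rw [← Units.val_mul, ← Units.val_mul]
    congr 1
    group

end Cfsg.Agent.S0770
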