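import Cfsg.Statements.S0772
import Cfsg.Agent.Lib_helper6_GLStab

set_option autoImplicit false
open Cfsg

namespace Cfsg.Agent.S0772

/-- Maximal parabolics are maximal: over a finite field, for 0 < k < n the stabiliser in GL_n of the span of the first k coordinate vectors is a maximal proper subgroup. -/
theorem result {F : Type*} [Field F] [Finite F] (n k : ℕ) (hk0 : 0 < k) (hkn : k < n) : IsCoatom (Cfsg.stabilizing (Cfsg.glToMat (Fin n) F) {v : Fin n → F | ∀ i : Fin n, k ≤ (i : ℕ) → v i = 0}) := by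
  have hc := Cfsg.Agent.H6.GLin.isCoatom_StabOf (Cfsg.Agent.H6.coordSub F n k) (by
    intro h
    have := Cfsg.Agent.H6.finrank_coordSub F hkn.le
    rw [h, finrank_bot] at this
    omega) (by
    intro h
    have := Cfsg.Agent.H6.finrank_coordSub F hkn.le
    rw [h, finrank_top, Module.finrank_fin_fun] at this
    omega)
  have heq : Cfsg.stabilizing (Cfsg.glToMat (Fin n) F)
      {v : Fin n → F | ∀ i : Fin n, k ≤ (i : ℕ) → v i = 0} =
      (Cfsg.Agent.H6.StabOf (Cfsg.Agent.H6.GLin.triv (Fin n → F))
        (Cfsg.Agent.H6.coordSub F n k)).comap (Cfsg.Agent.H6.glEquivLin (Fin n) F).toMonoidHom := by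
    ext g
    constructor
    · intro hg
      exact ⟨fun _ _ => rfl, hg⟩
    · intro hg
      exact hg.2
  rw [heq]
  exact ((Cfsg.Agent.H6.glEquivLin (Fin n) F).comapSubgroup).isCoatom_iff _ |>.mpr hc

end Cfsg.Agent.S0772
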