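import Cfsg.Statements.S0773
import Cfsg.Agent.Lib_helper6_GLStab2

set_option autoImplicit false
open Cfsg

namespace Cfsg.Agent.S0773

/-- The stabilisers in GL_n(F), F finite, of the coordinate subspaces of dimensions k and n − k are isomorphic groups, but when 2k ≠ n (and 0 < k < n) no element of GL_n conjugates one onto the other. -/
theorem result {F : Type*} [Field F] [Finite F] (n k : ℕ) (hk0 : 0 < k) (hkn : k < n) (h2 : 2 * k ≠ n) : Nonempty (↥(Cfsg.stabilizing (Cfsg.glToMat (Fin n) F) {v : Fin n → F | ∀ i : Fin n, k ≤ (i : ℕ) → v i = 0}) ≃* ↥(Cfsg.stabilizing (Cfsg.glToMat (Fin n) F) {v : Fin n → F | ∀ i : Fin n, n - k ≤ (i : ℕ) → v i = 0})) ∧ ∀ g : Matrix.GeneralLinearGroup (Fin n) F, (Cfsg.stabilizing (Cfsg.glToMat (Fin n) F) {v : Fin n → F | ∀ i : Fin n, k ≤ (i : ℕ) → v i = 0}).map (MulAut.conj g).toMonoidHom ≠ Cfsg.stabilizing (Cfsg.glToMat (Fin n) F) {v : Fin n → F | ∀ i : Fin n, n - k ≤ (i : ℕ) → v i = 0} := by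
  refine ⟨⟨Cfsg.Agent.H6.stabCoordEquiv (by omega)⟩, fun g hg => ?_⟩
  set G := Cfsg.Agent.H6.glEquivLin (Fin n) F g with hG
  set W := Cfsg.Agent.H6.coordSub F n k with hW
  set W' := Cfsg.Agent.H6.coordSub F n (n - k) with hW'
  set U : Submodule F (Fin n → F) := W'.comap G.toLinearMap with hU
  have hUfr : Module.finrank F U = n - k := by
    have : U = W'.map G.symm.toLinearMap := by
      rw [hU, Submodule.map_equiv_eq_comap_symm]; rfl
    rw [this]
    exact (LinearEquiv.finrank_map_eq G.symm W').trans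
      (Cfsg.Agent.H6.finrank_coordSub F (by omega))
  have hle : Cfsg.Agent.H6.StabOf (Cfsg.Agent.H6.GLin.triv (Fin n → F)) W ≤
      Cfsg.Agent.H6.StabOf (Cfsg.Agent.H6.GLin.triv (Fin n → F)) U := by
    intro s hs
    set s' := (Cfsg.Agent.H6.glEquivLin (Fin n) F).symm s with hs'
    have hs'e : Cfsg.Agent.H6.glEquivLin (Fin n) F s' = s := MulEquiv.apply_symm_apply _ _
    have h1 : s' ∈ Cfsg.stabilizing (Cfsg.glToMat (Fin n) F)
        {v : Fin n → F | ∀ i : Fin n, k ≤ (i : ℕ) → v i = 0} := by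
      intro v
      have := hs.2 v
      rw [← hs'e] at this
      exact this
    have h2 : g * s' * g⁻¹ ∈ Cfsg.stabilizing (Cfsg.glToMat (Fin n) F)
        {v : Fin n → F | ∀ i : Fin n, n - k ≤ (i : ℕ) → v i = 0} := by
      rw [← hg]
      exact ⟨s', h1, rfl⟩
    refine ⟨fun _ _ => rfl, fun v => ?_⟩
    have h3 := h2 (G v)
    have h4 : (Cfsg.glToMat (Fin n) F (g * s' * g⁻¹)).mulVec (G v) = G (s v) := by
      change Cfsg.Agent.H6.glEquivLin (Fin n) F (g * s' * g⁻¹) (G v) = G (s v)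
      rw [map_mul, map_mul, hs'e, map_inv, ← hG, LinearEquiv.mul_apply, LinearEquiv.mul_apply]
      congr 2
      change (G⁻¹ * G) v = v
      rw [inv_mul_cancel]; rfl
    rw [h4] at h3
    exact h3
  have := Cfsg.Agent.H6.GLin.eq_of_StabOf_le W U (by
    intro h
    rw [h, finrank_bot] at hUfr
    omega) (by
    intro h
    rw [h, finrank_top, Module.finrank_fin_fun] at hUfr
    omega) hle
  rw [this, hW, Cfsg.Agent.H6.finrank_coordSub F hkn.le] at hUfr
  omega

end Cfsg.Agent.S0773
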