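import Cfsg.Statements.S0776
import Cfsg.Agent.Lib_helper6_AltIso

set_option autoImplicit false
open Cfsg

namespace Cfsg.Agent.S0776

/-- If W ≤ F^(2m) is a 2k-dimensional subspace on which the symplectic form is non-degenerate, then the stabiliser of W in Sp_2m(F) is isomorphic to Sp_2k(F) × Sp_(2m−2k)(F). -/
theorem result {F : Type*} [Field F] (m k : ℕ) (hk : k ≤ m) (W : Submodule F (Fin m ⊕ Fin m → F)) (hWk : Module.finrank F W = 2 * k) (hW : ∀ u ∈ W, (∀ v ∈ W, Cfsg.sympForm m F u v = 0) → u = 0) : Nonempty (↥(Cfsg.stabilizing (Cfsg.spToMat m F) (W : Set (Fin m ⊕ Fin m → F))) ≃* Matrix.symplecticGroup (Fin k) F × Matrix.symplecticGroup (Fin (m - k)) F) := by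
  open Cfsg.Agent.H6 in
  have hA : (sympB m F).IsAlt := sympB_isAlt
  have hB : (sympB m F).Nondegenerate := sympB_nondegenerate
  have hdisj : Disjoint W ((sympB m F).orthogonal W) := by
    rw [Submodule.disjoint_def]
    intro x hx hx'
    rw [LinearMap.BilinForm.mem_orthogonal_iff] at hx'
    apply hW x hx
    intro v hv
    rw [← sympB_apply, Alt.swap hA, hx' v hv, neg_zero]
  have hrW : ((sympB m F).restrict W).Nondegenerate :=
    LinearMap.BilinForm.nondegenerate_restrict_of_disjoint_orthogonal _ hA.isRefl hdisj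
  have hc : IsCompl W ((sympB m F).orthogonal W) :=
    LinearMap.BilinForm.isCompl_orthogonal_of_restrict_nondegenerate hA.isRefl hrW
  have hrP : ((sympB m F).restrict ((sympB m F).orthogonal W)).Nondegenerate := by
    apply LinearMap.BilinForm.nondegenerate_restrict_of_disjoint_orthogonal _ hA.isRefl
    rw [LinearMap.BilinForm.orthogonal_orthogonal hB hA.isRefl]
    exact hc.symm.disjoint
  have hdimP : Module.finrank F ((sympB m F).orthogonal W) = 2 * (m - k) := by
    rw [LinearMap.BilinForm.finrank_orthogonal hB, hWk]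
    simp
    omega
  obtain ⟨e1⟩ := Alt.nonempty_isom_mulEquiv_symp hrW (fun x => hA x) hWk
  obtain ⟨e2⟩ := Alt.nonempty_isom_mulEquiv_symp hrP (fun x => hA x) hdimP
  exact ⟨(stabilizingEquivStab W).trans
    ((MulEquiv.ofBijective _ (Alt.stabToProd_bijective hA W hc)).trans (MulEquiv.prodCongr e1 e2))⟩

end Cfsg.Agent.S0776
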