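import Cfsg.Statements.S0778
import Mathlib

set_option autoImplicit false
open Cfsg

namespace Cfsg.Agent.S0778

open Matrix

theorem aux_inv {F : Type*} [Field F] {m : ℕ} (P P' : Matrix (Fin m) (Fin m) F) (h : P' * P = 1)
    (u : Fin m → F) : (∀ i, u i = 0) ↔ ∀ i, (P *ᵥ u) i = 0 := by
  constructor
  · intro hu
    have : u = 0 := funext hu
    subst this
    simp
  · intro hu
    have h1 : P *ᵥ u = 0 := funext hu
    have h2 : u = P' *ᵥ (P *ᵥ u) := by rw [mulVec_mulVec, h, one_mulVec]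
    rw [h1, mulVec_zero] at h2
    intro i
    rw [h2]; rfl

theorem gl_mul_inv {F : Type*} [Field F] {m : ℕ} (X : Matrix.GeneralLinearGroup (Fin m) F) :
    (X : Matrix (Fin m) (Fin m) F) * ((X⁻¹ : Matrix.GeneralLinearGroup (Fin m) F) :
      Matrix (Fin m) (Fin m) F) = 1 := Units.mul_inv X

theorem gl_inv_mul {F : Type*} [Field F] {m : ℕ} (X : Matrix.GeneralLinearGroup (Fin m) F) :
    ((X⁻¹ : Matrix.GeneralLinearGroup (Fin m) F) : Matrix (Fin m) (Fin m) F) *
      (X : Matrix (Fin m) (Fin m) F) = 1 := Units.inv_mul X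

noncomputable def psi {F : Type*} [Field F] (m : ℕ) :
    Matrix.GeneralLinearGroup (Fin m) F →* Matrix.symplecticGroup (Fin m) F where
  toFun X := ⟨fromBlocks (X : Matrix (Fin m) (Fin m) F) 0 0
      ((X⁻¹ : Matrix.GeneralLinearGroup (Fin m) F) : Matrix (Fin m) (Fin m) F)ᵀ, by
    have h1 := gl_mul_inv X
    have h2 : ((X⁻¹ : Matrix.GeneralLinearGroup (Fin m) F) : Matrix (Fin m) (Fin m) F)ᵀ *
        (X : Matrix (Fin m) (Fin m) F)ᵀ = 1 := by rw [← transpose_mul, h1, transpose_one]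
    rw [SymplecticGroup.mem_iff, Matrix.J, fromBlocks_transpose, fromBlocks_multiply,
      fromBlocks_multiply]
    simp only [mul_zero, zero_mul, add_zero, zero_add, mul_one, mul_neg, neg_mul, transpose_zero,
      transpose_transpose, h1, h2, neg_zero]⟩
  map_one' := by
    apply Subtype.ext
    simp
  map_mul' X Y := by
    apply Subtype.ext
    simp [fromBlocks_multiply, transpose_mul]

theorem psi_coe {F : Type*} [Field F] (m : ℕ) (X : Matrix.GeneralLinearGroup (Fin m) F) :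
    ((psi m X : Matrix.symplecticGroup (Fin m) F) : Matrix (Fin m ⊕ Fin m) (Fin m ⊕ Fin m) F) =
      fromBlocks (X : Matrix (Fin m) (Fin m) F) 0 0
      ((X⁻¹ : Matrix.GeneralLinearGroup (Fin m) F) : Matrix (Fin m) (Fin m) F)ᵀ := rfl

theorem psi_injective {F : Type*} [Field F] (m : ℕ) : Function.Injective (psi (F := F) m) := by
  intro X Y h
  have h1 := congrArg Subtype.val h
  rw [psi_coe, psi_coe, fromBlocks_inj] at h1
  exact Units.ext h1.1

theorem psi_range {F : Type*} [Field F] (m : ℕ) : (psi (F := F) m).range =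
    Cfsg.stabilizing (Cfsg.spToMat m F) {v : Fin m ⊕ Fin m → F | ∀ i : Fin m, v (Sum.inr i) = 0} ⊓
    Cfsg.stabilizing (Cfsg.spToMat m F) {v : Fin m ⊕ Fin m → F | ∀ i : Fin m, v (Sum.inl i) = 0} := by
  apply le_antisymm
  · rintro _ ⟨X, rfl⟩
    constructor
    · intro v
      change (∀ i : Fin m, v (Sum.inr i) = 0) ↔
        ∀ i : Fin m, (((psi m X : Matrix.symplecticGroup (Fin m) F) :
          Matrix (Fin m ⊕ Fin m) (Fin m ⊕ Fin m) F) *ᵥ v) (Sum.inr i) = 0
      rw [psi_coe, fromBlocks_mulVec]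
      simp only [Sum.elim_inr, zero_mulVec, zero_add]
      refine aux_inv _ ((X : Matrix (Fin m) (Fin m) F)ᵀ) ?_ (v ∘ Sum.inr)
      rw [← transpose_mul, gl_inv_mul, transpose_one]
    · intro v
      change (∀ i : Fin m, v (Sum.inl i) = 0) ↔
        ∀ i : Fin m, (((psi m X : Matrix.symplecticGroup (Fin m) F) :
          Matrix (Fin m ⊕ Fin m) (Fin m ⊕ Fin m) F) *ᵥ v) (Sum.inl i) = 0
      rw [psi_coe, fromBlocks_mulVec]
      simp only [Sum.elim_inl, zero_mulVec, add_zero]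
      exact aux_inv _ _ (gl_inv_mul X) (v ∘ Sum.inl)
  · rintro A ⟨hW, hU⟩
    set M : Matrix (Fin m ⊕ Fin m) (Fin m ⊕ Fin m) F := A.1 with hM
    have h21 : M.toBlocks₂₁ = 0 := by
      ext i j
      have h := (hW (Pi.single (Sum.inl j) 1)).mp (by intro i; simp) i
      change (M *ᵥ Pi.single (Sum.inl j) 1) (Sum.inr i) = 0 at h
      rw [mulVec_single_one] at h
      exact h
    have h12 : M.toBlocks₁₂ = 0 := by
      ext i j
      have h := (hU (Pi.single (Sum.inr j) 1)).mp (by intro i; simp) i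
      change (M *ᵥ Pi.single (Sum.inr j) 1) (Sum.inl i) = 0 at h
      rw [mulVec_single_one] at h
      exact h
    have hMb : M = fromBlocks M.toBlocks₁₁ 0 0 M.toBlocks₂₂ := by
      conv_lhs => rw [← fromBlocks_toBlocks M, h21, h12]
    have hsp : M * J (Fin m) F * Mᵀ = J (Fin m) F := (SymplecticGroup.mem_iff).mp A.2
    rw [hMb, Matrix.J, fromBlocks_transpose, fromBlocks_multiply, fromBlocks_multiply,
      fromBlocks_inj] at hsp
    have hXY : M.toBlocks₁₁ * M.toBlocks₂₂ᵀ = 1 := by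
      have := hsp.2.1
      simpa using this
    have hYX : M.toBlocks₂₂ᵀ * M.toBlocks₁₁ = 1 := mul_eq_one_comm.mp hXY
    refine ⟨⟨M.toBlocks₁₁, M.toBlocks₂₂ᵀ, hXY, hYX⟩, ?_⟩
    apply Subtype.ext
    rw [psi_coe]
    change fromBlocks M.toBlocks₁₁ 0 0 (M.toBlocks₂₂ᵀ)ᵀ = M
    rw [transpose_transpose, ← hMb]

/-- The elements of Sp_2m(F) stabilising both W = ⟨e_1..e_m⟩ and U = ⟨f_1..f_m⟩ form a subgroup isomorphic to GL_m(F) (block-diagonal matrices diag(X, X^(−ᵀ)) up to the sign convention of J), for m ≥ 1 or m = 0 alike. -/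
theorem result {F : Type*} [Field F] (m : ℕ) : Nonempty (↥(Cfsg.stabilizing (Cfsg.spToMat m F) {v : Fin m ⊕ Fin m → F | ∀ i : Fin m, v (Sum.inr i) = 0} ⊓ Cfsg.stabilizing (Cfsg.spToMat m F) {v : Fin m ⊕ Fin m → F | ∀ i : Fin m, v (Sum.inl i) = 0}) ≃* Matrix.GeneralLinearGroup (Fin m) F) := by
  exact ⟨((MonoidHom.ofInjective (psi_injective (F := F) m)).trans
    (MulEquiv.subgroupCongr (psi_range m))).symm⟩

end Cfsg.Agent.S0778
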