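import Cfsg.Statements.S0779
import Cfsg.Agent.Lib_helper6_UTransv

set_option autoImplicit false
open Cfsg

namespace Cfsg.Agent.S0779

/-- Unitary transvections: let |F| = q², h the standard Hermitian form Σ x_i y_i^q and v ≠ 0 with h(v, v) = 0. The linear map x ↦ x + c h(x, v) v is an isometry of h if and only if c = 0 or c^(q−1) = −1. -/
theorem result {F : Type*} [Field F] [Fintype F] {q : ℕ} (hF : Fintype.card F = q ^ 2) (n : ℕ) (v : Fin n → F) (hv : v ≠ 0) (hv0 : Cfsg.hermForm n F q v v = 0) (c : F) : (∀ x y : Fin n → F, Cfsg.hermForm n F q ((Cfsg.unitaryTransvection n q v c).mulVec x) ((Cfsg.unitaryTransvection n q v c).mulVec y) = Cfsg.hermForm n F q x y) ↔ (c = 0 ∨ c ^ (q - 1) = -1) := by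
  open Cfsg.Agent.H6 in
  have hq := two_le_of_card_sq hF
  have hiff : (c = 0 ∨ c ^ (q - 1) = -1) ↔ c + c ^ q = 0 := by
    have hpow : c ^ q = c ^ (q - 1) * c := by rw [← pow_succ, Nat.sub_add_cancel (by omega)]
    constructor
    · rintro (rfl | h)
      · rw [zero_pow (by omega)]; ring
      · rw [hpow, h]; ring
    · intro h
      by_cases hc : c = 0
      · exact Or.inl hc
      · right
        rw [hpow] at h
        have : c * (1 + c ^ (q - 1)) = 0 := by linear_combination h
        rcases mul_eq_zero.mp this with h1 | h1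
        · exact absurd h1 hc
        · linear_combination h1
  rw [hiff]
  constructor
  · intro h
    obtain ⟨x, hx⟩ : ∃ x, Cfsg.hermForm n F q x v ≠ 0 := by
      by_contra hcon
      push Not at hcon
      exact hv ((hermB_nondegenerate hF n).1 v hcon)
    obtain ⟨y, hy⟩ : ∃ y, Cfsg.hermForm n F q v y ≠ 0 := by
      by_contra hcon
      push Not at hcon
      exact hv ((hermB_nondegenerate hF n).2 v hcon)
    have h1 := h x y
    rw [unitaryTransvection_form hF, hv0] at h1
    have h2 : (Cfsg.hermForm n F q x v * Cfsg.hermForm n F q v y) * (c + c ^ q) = 0 := by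
      linear_combination h1
    rcases mul_eq_zero.mp h2 with h3 | h3
    · exact absurd h3 (mul_ne_zero hx hy)
    · exact h3
  · intro h x y
    rw [unitaryTransvection_form hF, hv0, mul_zero, add_zero, h, mul_zero, add_zero]

end Cfsg.Agent.S0779
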