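import Cfsg.Statements.S0783
import Cfsg.Agent.Lib_helper6_SUCenter

set_option autoImplicit false
open Cfsg

namespace Cfsg.Agent.S0783

open H6 Matrix

theorem exists_hom_cyclic {C : Type*} [CommGroup C] [IsCyclic C] [Finite C] (n N : ℕ)
    (hN : Nat.card C = N) :
    ∃ ψ : C →* Multiplicative (ZMod (Nat.gcd n N)), Function.Surjective ψ ∧
      ψ.ker = (powMonoidHom n : C →* C).range := by
  subst hN
  set R := (powMonoidHom n : C →* C).range with hR
  have hcard : Nat.card (C ⧸ R) = Nat.card (Multiplicative (ZMod (Nat.gcd n (Nat.card C)))) := by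
    rw [← Subgroup.index, IsCyclic.index_powMonoidHom_range,
      Nat.card_congr (Multiplicative.toAdd (α := ZMod (Nat.gcd n (Nat.card C)))), Nat.card_zmod,
      Nat.gcd_comm]
  let E := mulEquivOfCyclicCardEq hcard
  refine ⟨E.toMonoidHom.comp (QuotientGroup.mk' R),
    E.surjective.comp (QuotientGroup.mk'_surjective R), ?_⟩
  ext c
  rw [MonoidHom.mem_ker, MonoidHom.comp_apply]
  show E _ = 1 ↔ _
  rw [EmbeddingLike.map_eq_one_iff, QuotientGroup.mk'_apply, QuotientGroup.eq_one_iff]

theorem scalar_of_commute_SU {F : Type*} [Field F] [Fintype F] {q n : ℕ} {a : F}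
    (ha : a ^ (q + 1) = 1) (ha2 : a ^ 2 ≠ 1)
    (hneg : (-1 : F) ^ (q + 1) = 1) (z : Matrix (Fin n) (Fin n) F)
    (hz : ∀ g : Cfsg.SU n F q, suMat g * z = z * suMat g) (k0 : Fin n) :
    z = Matrix.diagonal (fun _ => z k0 k0) := by
  classical
  have ha0 : a ≠ 0 := by
    rintro rfl
    rw [zero_pow (Nat.succ_ne_zero q)] at ha
    exact zero_ne_one ha
  have hoff : ∀ k l, k ≠ l → z k l = 0 := by
    intro k l hkl
    obtain ⟨g, d, hg, hdk, hdl⟩ := exists_diag_SU (n := n) ha hkl
    have h1 := congrFun (congrFun (hz g) k) l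
    simp only [hg, mul_diagonal, diagonal_mul, hdk, hdl] at h1
    have h2 : (a - a⁻¹) * z k l = 0 := by linear_combination h1
    rcases mul_eq_zero.mp h2 with h | h
    · exfalso
      apply ha2
      have : a = a⁻¹ := sub_eq_zero.mp h
      rw [sq]
      nth_rewrite 2 [this]
      exact mul_inv_cancel₀ ha0
    · exact h
  have hdiag : ∀ k l, k ≠ l → z k k = z l l := by
    intro k l hkl
    obtain ⟨g, hg⟩ := exists_swap_SU (n := n) hneg hkl
    have h1 := congrFun (congrFun (hz g) k) l
    simp only [Matrix.mul_apply] at h1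
    rw [Finset.sum_eq_single l (fun j _ hj => by rw [hoff j l hj, mul_zero]) (by simp),
      Finset.sum_eq_single k (fun j _ hj => by rw [hoff k j (Ne.symm hj), zero_mul]) (by simp)] at h1
    have h2 : suMat g k l * (z l l - z k k) = 0 := by linear_combination h1
    rcases mul_eq_zero.mp h2 with h | h
    · exact absurd h hg
    · exact (sub_eq_zero.mp h).symm
  ext i j
  rw [Matrix.diagonal_apply]
  split_ifs with hij
  · subst hij
    by_cases hi : i = k0
    · rw [hi]
    · exact hdiag i k0 hi
  · exact hoff i j hij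

/-- PGU_n(q)/PSU_n(q) is cyclic of order (n, q+1): for n ≥ 2 and |F| = q² there is a surjective homomorphism from GU_n(q) onto the cyclic group of order gcd(n, q + 1) whose kernel is generated by the determinant-one elements together with the centre. -/
theorem result {F : Type*} [Field F] [Fintype F] {q : ℕ} (hF : Fintype.card F = q ^ 2) (n : ℕ) (hn : 2 ≤ n) : ∃ φ : ↥(Cfsg.GU n F q) →* Multiplicative (ZMod (Nat.gcd n (q + 1))), Function.Surjective φ ∧ φ.ker = (Matrix.GeneralLinearGroup.det : Matrix.GeneralLinearGroup (Fin n) F →* Fˣ).ker.subgroupOf (Cfsg.GU n F q) ⊔ Subgroup.center ↥(Cfsg.GU n F q) := by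
  classical
  have hq := two_le_of_card_sq hF
  have hq0 : q ≠ 0 := by omega
  obtain ⟨ψ, hψs, hψk⟩ := exists_hom_cyclic (C := (powMonoidHom (q + 1) : Fˣ →* Fˣ).ker) n (q + 1)
    (card_ker_norm hF)
  refine ⟨ψ.comp (guDet hF n), hψs.comp (guDet_surjective hF (by omega)), ?_⟩
  have hmem : ∀ g : Cfsg.GU n F q, g ∈ (ψ.comp (guDet hF n)).ker ↔
      ∃ l : (powMonoidHom (q + 1) : Fˣ →* Fˣ).ker, l ^ n = guDet hF n g := by
    intro g
    rw [MonoidHom.mem_ker, MonoidHom.comp_apply, ← MonoidHom.mem_ker, hψk, MonoidHom.mem_range]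
    rfl
  apply le_antisymm
  · intro g hg
    obtain ⟨l, hl⟩ := (hmem g).mp hg
    have hl1 : ((l : Fˣ) : F) ^ (q + 1) = 1 := by
      have := MonoidHom.mem_ker.mp l.2
      rw [powMonoidHom_apply] at this
      have h2 := congrArg Units.val this
      simpa using h2
    let s : Cfsg.GU n F q := ⟨Matrix.GeneralLinearGroup.scalar (Fin n) (l : Fˣ), fun u v => by
      show Cfsg.hermForm n F q ((Matrix.diagonal (fun _ => ((l : Fˣ) : F))) *ᵥ u)
        ((Matrix.diagonal (fun _ => ((l : Fˣ) : F))) *ᵥ v) = _
      rw [const_diagonal_herm, hl1, one_mul]⟩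
    have hs : s ∈ Subgroup.center (Cfsg.GU n F q) := by
      rw [Subgroup.mem_center_iff]
      intro h
      apply Subtype.ext
      exact (Matrix.GeneralLinearGroup.scalar_commute _ _).symm
    have hgs : g * s⁻¹ ∈ (Matrix.GeneralLinearGroup.det :
        Matrix.GeneralLinearGroup (Fin n) F →* Fˣ).ker.subgroupOf (Cfsg.GU n F q) := by
      rw [Subgroup.mem_subgroupOf, MonoidHom.mem_ker]
      simp only [Subgroup.coe_mul, Subgroup.coe_inv, map_mul, map_inv]
      have h1 : Matrix.GeneralLinearGroup.det (s : Matrix.GeneralLinearGroup (Fin n) F) =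
          (l : Fˣ) ^ n := by
        show Matrix.GeneralLinearGroup.det (Matrix.GeneralLinearGroup.scalar (Fin n) (l : Fˣ)) = _
        rw [Matrix.GeneralLinearGroup.det_scalar, Fintype.card_fin]
      have h2 : Matrix.GeneralLinearGroup.det (g : Matrix.GeneralLinearGroup (Fin n) F) =
          (l : Fˣ) ^ n := by
        have := congrArg Subtype.val hl
        exact this.symm
      rw [h1, h2, mul_inv_cancel]
    have : g = (g * s⁻¹) * s := by group
    rw [this]
    exact Subgroup.mul_mem_sup hgs hs
  · apply sup_le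
    · intro g hg
      rw [Subgroup.mem_subgroupOf, MonoidHom.mem_ker] at hg
      rw [hmem]
      refine ⟨1, ?_⟩
      rw [one_pow]
      apply Subtype.ext
      exact hg.symm
    · intro z hz
      rw [hmem]
      obtain ⟨a, ha, ha2⟩ := exists_norm_one_sq_ne_one hF
      have hneg := neg_one_pow_q_add_one hF
      set k0 : Fin n := ⟨0, by omega⟩ with hk0
      set Z : Matrix (Fin n) (Fin n) F :=
        ((z : Matrix.GeneralLinearGroup (Fin n) F) : Matrix (Fin n) (Fin n) F) with hZ
      have hcomm : ∀ g : Cfsg.SU n F q, suMat g * Z = Z * suMat g := by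
        intro g
        have h1 := Subgroup.mem_center_iff.mp hz
          ⟨Matrix.SpecialLinearGroup.toGL g.1, fun u v => g.2 u v⟩
        have h2 := congrArg (fun x : Cfsg.GU n F q =>
          ((x : Matrix.GeneralLinearGroup (Fin n) F) : Matrix (Fin n) (Fin n) F)) h1
        exact h2
      have hscal := scalar_of_commute_SU ha ha2 hneg Z hcomm k0
      have hl1 : Z k0 k0 ^ (q + 1) = 1 := by
        have := z.2 (Pi.single k0 1) (Pi.single k0 1)
        change Cfsg.hermForm n F q (Z *ᵥ _) (Z *ᵥ _) = _ at this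
        rw [hscal, const_diagonal_herm] at this
        have h1 : Cfsg.hermForm n F q (Pi.single k0 1) (Pi.single k0 1) = 1 := by
          unfold Cfsg.hermForm
          simp [Pi.single_apply, hq0]
        rw [h1, mul_one] at this
        simpa using this
      have hl0 : Z k0 k0 ≠ 0 := by
        intro h
        rw [h, zero_pow (Nat.succ_ne_zero q)] at hl1
        exact zero_ne_one hl1
      refine ⟨⟨Units.mk0 (Z k0 k0) hl0, ?_⟩, ?_⟩
      · rw [MonoidHom.mem_ker, powMonoidHom_apply]
        ext
        simpa using hl1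
      · apply Subtype.ext
        ext
        have hdet : Z.det = Z k0 k0 ^ n := by
          conv_lhs => rw [hscal]
          rw [det_diagonal, Finset.prod_const, Finset.card_univ, Fintype.card_fin]
        rw [guDet_apply, ← hZ, hdet]
        simp

end Cfsg.Agent.S0783
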