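import Cfsg.Statements.S0787
import Cfsg.Agent.Lib_helper6_OmegaPerfect

set_option autoImplicit false
open Cfsg

namespace Cfsg.Agent.S0787

open scoped commutatorElement

theorem unique_index_two {G : Type*} [Group G] (S K : Subgroup G) (hKS : K ≤ S)
    (hrel : K.relIndex S = 2)
    (hsq : K ≤ Subgroup.closure {g : G | ∃ s ∈ S, g = s * s}) :
    ∃! H : Subgroup ↥S, H.index = 2 := by
  refine ⟨K.subgroupOf S, hrel, fun H hH => ?_⟩
  have hle : K.subgroupOf S ≤ H := by
    have h1 : Subgroup.closure {g : G | ∃ s ∈ S, g = s * s} ≤ H.map S.subtype := by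
      rw [Subgroup.closure_le]
      rintro _ ⟨s, hs, rfl⟩
      exact ⟨⟨s, hs⟩ * ⟨s, hs⟩, Subgroup.mul_self_mem_of_index_two hH _, rfl⟩
    intro x hx
    obtain ⟨y, hy, hyx⟩ := h1 (hsq (Subgroup.mem_subgroupOf.mp hx))
    have : y = x := Subtype.ext hyx
    rwa [← this]
  have h2 := Subgroup.relIndex_mul_index hle
  have h3 : (K.subgroupOf S).index = 2 := hrel
  rw [hH, h3] at h2
  have h4 : (K.subgroupOf S).relIndex H = 1 := by omega
  exact le_antisymm (Subgroup.relIndex_eq_one.mp h4) hle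

theorem sq_decomp {F V : Type*} [Field F] [AddCommGroup V] [Module F V] {Q : QuadraticForm F V}
    [FiniteDimensional F V] (h2 : (2 : F) ≠ 0) (hQ : (H6.Quad.pol Q).Nondegenerate) (u u' : V)
    (hu : Q u ≠ 0) (hu' : Q u' ≠ 0) (huu : Q u = Q u') :
    ∃ (w : V) (hw : Q w ≠ 0), H6.Quad.Rf hQ u hu * H6.Quad.Rf hQ u' hu' =
      (H6.Quad.Rf hQ u hu * H6.Quad.Rf hQ w hw) * (H6.Quad.Rf hQ u hu * H6.Quad.Rf hQ w hw) := by
  have main : ∀ (w : V) (hw : Q w ≠ 0) (hk : Q ((H6.Quad.Rf hQ w hw).1 u) ≠ 0),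
      H6.Quad.Rf hQ ((H6.Quad.Rf hQ w hw).1 u) hk = H6.Quad.Rf hQ u' hu' →
      H6.Quad.Rf hQ u hu * H6.Quad.Rf hQ u' hu' =
      (H6.Quad.Rf hQ u hu * H6.Quad.Rf hQ w hw) * (H6.Quad.Rf hQ u hu * H6.Quad.Rf hQ w hw) := by
    intro w hw hk h
    rw [← h, ← H6.Quad.conj_Rf hQ u hu (H6.Quad.Rf hQ w hw) hk, H6.Quad.Rf_inv]
    group
  by_cases h1 : Q (u - u') = 0
  · have h3 : Q (u + u') = H6.Quad.pol Q u (u + u') := by
      rw [H6.Quad.Q_add, map_add, H6.Quad.pol_self, ← huu]; ring
    have h4 : Q (u + u') ≠ 0 := by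
      intro h0
      rw [H6.Quad.Q_sub] at h1
      rw [H6.Quad.Q_add] at h0
      have : 2 * 2 * Q u = 0 := by rw [← huu] at h0 h1; linear_combination h0 + h1
      rcases mul_eq_zero.mp this with h | h
      · exact h2 (mul_self_eq_zero.mp h)
      · exact hu h
    have h5 : (H6.Quad.Rf hQ (u + u') h4).1 u = (-1 : F) • u' := by
      rw [H6.Quad.Rf_apply, ← h3, div_self h4]; module
    have hk : Q ((H6.Quad.Rf hQ (u + u') h4).1 u) ≠ 0 := by
      rw [H6.Quad.mem_IsomOf_iff.mp (H6.Quad.Rf hQ (u + u') h4).2]; exact hu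
    have hk' : Q ((-1 : F) • u') ≠ 0 := by rw [← h5]; exact hk
    refine ⟨u + u', h4, main _ h4 hk ?_⟩
    rw [H6.Quad.Rf_congr hQ h5 hk hk', H6.Quad.Rf_smul hQ u' hu' (by simp) hk']
  · have h3 : Q (u - u') = H6.Quad.pol Q u (u - u') := by
      rw [H6.Quad.Q_sub, map_sub, H6.Quad.pol_self, ← huu]; ring
    have h5 : (H6.Quad.Rf hQ (u - u') h1).1 u = u' := by
      rw [H6.Quad.Rf_apply, ← h3, div_self h1]; module
    have hk : Q ((H6.Quad.Rf hQ (u - u') h1).1 u) ≠ 0 := by rw [h5]; exact hu'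
    exact ⟨u - u', h1, main _ h1 hk (H6.Quad.Rf_congr hQ h5 hk hu')⟩

/-- Existence and uniqueness of Ω: if F is finite, n ≥ 2, Q is a quadratic form on F^n with non-degenerate polar form and (|F|, n) ≠ (2, 4), then the group of isometries of determinant one has a unique subgroup of index 2. -/
theorem result {F : Type*} [Field F] [Fintype F] {n : ℕ} (hn : 2 ≤ n) (Q : QuadraticForm F (Fin n → F)) (hQ : (QuadraticMap.polarBilin Q).Nondegenerate) (h : Fintype.card F ≠ 2 ∨ n ≠ 4) : ∃! H : Subgroup ↥(Cfsg.specialIsometryGroup F ⇑Q), H.index = 2 := by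
  classical
  have hex : Nat.card F ≠ 2 ∨ Fintype.card (Fin n) ≠ 4 := by
    simpa [Nat.card_eq_fintype_card] using h
  have hmemSO : ∀ g : ↥(Cfsg.isometryGroup F ⇑Q), g ∈ Cfsg.specialIsometryGroup F ⇑Q ↔
      ((g : Matrix.GeneralLinearGroup (Fin n) F) : Matrix (Fin n) (Fin n) F).det = 1 := by
    intro g
    rw [Cfsg.specialIsometryGroup, MonoidHom.mem_ker]
    constructor
    · intro h1
      exact congrArg Units.val h1
    · intro h1
      exact Units.ext h1
  have hΩSO : Cfsg.Omega F ⇑Q ≤ Cfsg.specialIsometryGroup F ⇑Q := by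
    rw [Cfsg.specialIsometryGroup]
    exact Abelianization.commutator_subset_ker _
  apply unique_index_two (Cfsg.specialIsometryGroup F ⇑Q) (Cfsg.Omega F ⇑Q) hΩSO
  · by_cases h2 : (2 : F) = 0
    · have htop : Cfsg.specialIsometryGroup F ⇑Q = ⊤ := by
        rw [eq_top_iff]
        intro g _
        rw [hmemSO]
        have h1 := H6.Quad.det_mul_det_eq_one hQ
          ((g : Matrix.GeneralLinearGroup (Fin n) F) : Matrix (Fin n) (Fin n) F) (fun v => g.2 v 0)
        have h3 : (((g : Matrix.GeneralLinearGroup (Fin n) F) : Matrix (Fin n) (Fin n) F).det - 1) *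
            (((g : Matrix.GeneralLinearGroup (Fin n) F) : Matrix (Fin n) (Fin n) F).det - 1) = 0 := by
          linear_combination h1 - ((g : Matrix.GeneralLinearGroup (Fin n) F) :
            Matrix (Fin n) (Fin n) F).det * h2 + h2
        exact sub_eq_zero.mp (mul_self_eq_zero.mp h3)
      rw [htop, Subgroup.relIndex_top_right]
      exact H6.Quad.index_Omega_char_two h2 Q hQ hex (by simp; omega) _ (fun _ => rfl)
    · have hker : Cfsg.specialIsometryGroup F ⇑Q =
          (H6.Quad.dickM Q hQ ⇑Q (fun _ => rfl)).ker := by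
        ext g
        rw [hmemSO, MonoidHom.mem_ker, H6.Quad.dickM_eq_one_iff_det h2]
      have hidx : (Cfsg.specialIsometryGroup F ⇑Q).index = 2 := by
        rw [hker, Subgroup.index_ker]
        have hsurj : (H6.Quad.dickM Q hQ ⇑Q (fun _ => rfl)).range = ⊤ := by
          rw [eq_top_iff]
          intro x _
          obtain ⟨u, hu⟩ := H6.Quad.exists_nonsingular hQ (by simp; omega)
          rcases Int.units_eq_one_or x with rfl | rfl
          · exact one_mem _
          · exact ⟨H6.Quad.reflElt Q u hu, H6.Quad.dickM_reflElt Q hQ u hu⟩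
        rw [hsurj, Nat.card_congr Subgroup.topEquiv.toEquiv]
        simp
      have h4 := H6.Quad.index_Omega_odd h2 Q hQ (by simpa using hn) _ (fun _ => rfl)
      have h5 := Subgroup.relIndex_mul_index hΩSO
      rw [hidx, h4] at h5
      omega
  · by_cases h2 : (2 : F) = 0
    · have htop : ∀ g : ↥(Cfsg.isometryGroup F ⇑Q), g ∈ Cfsg.specialIsometryGroup F ⇑Q := by
        intro g
        rw [hmemSO]
        have h1 := H6.Quad.det_mul_det_eq_one hQ
          ((g : Matrix.GeneralLinearGroup (Fin n) F) : Matrix (Fin n) (Fin n) F) (fun v => g.2 v 0)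
        have h3 : (((g : Matrix.GeneralLinearGroup (Fin n) F) : Matrix (Fin n) (Fin n) F).det - 1) *
            (((g : Matrix.GeneralLinearGroup (Fin n) F) : Matrix (Fin n) (Fin n) F).det - 1) = 0 := by
          linear_combination h1 - ((g : Matrix.GeneralLinearGroup (Fin n) F) :
            Matrix (Fin n) (Fin n) F).det * h2 + h2
        exact sub_eq_zero.mp (mul_self_eq_zero.mp h3)
      rw [Cfsg.Omega, commutator_def, Subgroup.commutator_le]
      intro a _ b _
      have : ⁅a, b⁆ = (a * a) * ((a⁻¹ * b) * (a⁻¹ * b)) * (b⁻¹ * b⁻¹) := by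
        rw [commutatorElement_def]; group
      rw [this]
      exact mul_mem (mul_mem (Subgroup.subset_closure ⟨a, htop a, rfl⟩)
        (Subgroup.subset_closure ⟨_, htop _, rfl⟩)) (Subgroup.subset_closure ⟨_, htop _, rfl⟩)
    · set e := H6.Quad.isometryGroupEquiv Q ⇑Q (fun _ => rfl) with he
      set C := Subgroup.closure {g : ↥(Cfsg.isometryGroup F ⇑Q) |
        ∃ s ∈ Cfsg.specialIsometryGroup F ⇑Q, g = s * s} with hC
      have h1 : commutator (H6.IsomOf (F := F) (H6.Quad.bet Q)) ≤ C.map e.toMonoidHom := by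
        apply H6.Quad.commutator_le_of_pairs hQ (by simpa using hex)
        intro u u' hu hu' huu
        obtain ⟨w, hw, hdec⟩ := sq_decomp h2 hQ u u' hu hu' huu
        rw [hdec]
        refine ⟨(H6.Quad.reflElt Q u hu * H6.Quad.reflElt Q w hw) *
          (H6.Quad.reflElt Q u hu * H6.Quad.reflElt Q w hw),
          Subgroup.subset_closure ⟨_, ?_, rfl⟩, ?_⟩
        · rw [hmemSO]
          change (Cfsg.reflectionMatrix ⇑Q u * Cfsg.reflectionMatrix ⇑Q w).det = 1
          rw [Matrix.det_mul, H6.Quad.det_reflectionMatrix Q u hu,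
            H6.Quad.det_reflectionMatrix Q w hw]
          ring
        · change e _ = _
          rw [map_mul, map_mul, he, H6.Quad.equiv_reflElt Q hQ, H6.Quad.equiv_reflElt Q hQ]
      intro g hg
      have h3 : e g ∈ commutator (H6.IsomOf (F := F) (H6.Quad.bet Q)) :=
        (H6.mem_commutator_equiv e g).mp hg
      obtain ⟨y, hy, hyg⟩ := h1 h3
      have : y = g := e.injective hyg
      rwa [← this]

end Cfsg.Agent.S0787
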