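import Cfsg.Statements.S0792
import Cfsg.Agent.Lib_helper6_QuadMat
import Cfsg.Agent.S0786

set_option autoImplicit false
set_option linter.unnecessarySeqFocus false
open Cfsg

namespace Cfsg.Agent.S0792

open Cfsg.Agent.H6.Quad in
theorem refl_mul_self {F : Type*} [Field F] {n : ℕ} (Q : QuadraticForm F (Fin n → F))
    (v : Fin n → F) (hv : Q v ≠ 0) : reflElt Q v hv * reflElt Q v hv = 1 := by
  apply Subtype.ext
  apply Units.ext
  change Cfsg.reflectionMatrix ⇑Q v * Cfsg.reflectionMatrix ⇑Q v = 1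
  rw [Matrix.ext_iff_mulVec]
  intro x
  rw [← Matrix.mulVec_mulVec, reflectionMatrix_mulVec, reflectionMatrix_mulVec, Matrix.one_mulVec]
  simp only [map_sub, map_smul, LinearMap.sub_apply, LinearMap.smul_apply, smul_eq_mul, pol_self]
  match_scalars <;> field_simp <;> ring

/-- For q odd and Q with non-degenerate polar form on F^n, the determinant-one isometries form the subgroup generated by all products r_u r_v of two reflections (Q(u), Q(v) ≠ 0). -/
theorem result {F : Type*} [Field F] [Fintype F] (h2 : (2 : F) ≠ 0) {n : ℕ} (Q : QuadraticForm F (Fin n → F)) (hQ : (QuadraticMap.polarBilin Q).Nondegenerate) : Cfsg.specialIsometryGroup F ⇑Q = Subgroup.closure {g : ↥(Cfsg.isometryGroup F ⇑Q) | ∃ u v : Fin n → F, Q u ≠ 0 ∧ Q v ≠ 0 ∧ ((g : Matrix.GeneralLinearGroup (Fin n) F) : Matrix (Fin n) (Fin n) F) = Cfsg.reflectionMatrix ⇑Q u * Cfsg.reflectionMatrix ⇑Q v} := by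
  set H := Subgroup.closure {g : ↥(Cfsg.isometryGroup F ⇑Q) | ∃ u v : Fin n → F, Q u ≠ 0 ∧
    Q v ≠ 0 ∧ ((g : Matrix.GeneralLinearGroup (Fin n) F) : Matrix (Fin n) (Fin n) F) =
      Cfsg.reflectionMatrix ⇑Q u * Cfsg.reflectionMatrix ⇑Q v} with hH
  have hpair : ∀ u v (hu : Q u ≠ 0) (hv : Q v ≠ 0),
      Cfsg.Agent.H6.Quad.reflElt Q u hu * Cfsg.Agent.H6.Quad.reflElt Q v hv ∈ H :=
    fun u v hu hv => Subgroup.subset_closure ⟨u, v, hu, hv, rfl⟩
  have hdetmem : ∀ g : ↥(Cfsg.isometryGroup F ⇑Q), g ∈ Cfsg.specialIsometryGroup F ⇑Q ↔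
      ((g : Matrix.GeneralLinearGroup (Fin n) F) : Matrix (Fin n) (Fin n) F).det = 1 := by
    intro g
    change Matrix.GeneralLinearGroup.det (g : Matrix.GeneralLinearGroup (Fin n) F) = 1 ↔ _
    rw [Units.ext_iff]
    rfl
  have hHle : H ≤ Cfsg.specialIsometryGroup F ⇑Q := by
    rw [hH, Subgroup.closure_le]
    rintro g ⟨u, v, hu, hv, hg⟩
    change g ∈ Cfsg.specialIsometryGroup F ⇑Q
    rw [hdetmem, hg, Matrix.det_mul, Cfsg.Agent.H6.Quad.det_reflectionMatrix Q u hu,
      Cfsg.Agent.H6.Quad.det_reflectionMatrix Q v hv]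
    ring
  apply le_antisymm _ hHle
  intro g hg
  have hcard : Fintype.card F ≠ 2 := by
    intro h
    apply h2
    have : ((Fintype.card F : ℕ) : F) = 0 := Nat.cast_card_eq_zero F
    rw [h] at this
    exact_mod_cast this
  have htop := Cfsg.Agent.S0786.result Q hQ (Or.inl hcard)
  have hgc : g ∈ Subgroup.closure {g : ↥(Cfsg.isometryGroup F ⇑Q) | ∃ v : Fin n → F, Q v ≠ 0 ∧
      ((g : Matrix.GeneralLinearGroup (Fin n) F) : Matrix (Fin n) (Fin n) F) =
        Cfsg.reflectionMatrix ⇑Q v} := by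
    rw [htop]; exact Subgroup.mem_top g
  by_cases hw : ∃ w, Q w ≠ 0
  · obtain ⟨w, hw⟩ := hw
    set r := Cfsg.Agent.H6.Quad.reflElt Q w hw with hr
    have hgen : ∀ y : ↥(Cfsg.isometryGroup F ⇑Q), (∃ v : Fin n → F, Q v ≠ 0 ∧
        ((y : Matrix.GeneralLinearGroup (Fin n) F) : Matrix (Fin n) (Fin n) F) =
        Cfsg.reflectionMatrix ⇑Q v) → ∃ v, ∃ hv : Q v ≠ 0, y = Cfsg.Agent.H6.Quad.reflElt Q v hv := by
      rintro y ⟨v, hv, hy⟩
      exact ⟨v, hv, Subtype.ext (Units.ext hy)⟩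
    have hstep : ∀ x : ↥(Cfsg.isometryGroup F ⇑Q), (x ∈ H ∨ x * r ∈ H) → ∀ v (hv : Q v ≠ 0),
        (x * Cfsg.Agent.H6.Quad.reflElt Q v hv ∈ H ∨
          x * Cfsg.Agent.H6.Quad.reflElt Q v hv * r ∈ H) := by
      intro x hx v hv
      rcases hx with hx | hx
      · right
        rw [mul_assoc]
        exact mul_mem hx (hpair v w hv hw)
      · left
        have : x * Cfsg.Agent.H6.Quad.reflElt Q v hv =
            (x * r) * (r * Cfsg.Agent.H6.Quad.reflElt Q v hv) := by
          rw [mul_assoc, ← mul_assoc r r, hr, refl_mul_self, one_mul]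
        rw [this]
        exact mul_mem hx (hpair w v hw hv)
    have key' : ∀ g' ∈ Subgroup.closure {g : ↥(Cfsg.isometryGroup F ⇑Q) | ∃ v : Fin n → F,
        Q v ≠ 0 ∧ ((g : Matrix.GeneralLinearGroup (Fin n) F) : Matrix (Fin n) (Fin n) F) =
        Cfsg.reflectionMatrix ⇑Q v}, g' ∈ H ∨ g' * r ∈ H := by
      intro g' hg'
      induction hg' using Subgroup.closure_induction_right with
      | one => exact Or.inl (one_mem _)
      | mul_right x _ y hy ih =>
        obtain ⟨v, hv, rfl⟩ := hgen y hy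
        exact hstep x ih v hv
      | mul_inv_cancel x _ y hy ih =>
        obtain ⟨v, hv, rfl⟩ := hgen y hy
        have : (Cfsg.Agent.H6.Quad.reflElt Q v hv)⁻¹ = Cfsg.Agent.H6.Quad.reflElt Q v hv :=
          inv_eq_of_mul_eq_one_left (refl_mul_self Q v hv)
        rw [this]
        exact hstep x ih v hv
    rcases key' g hgc with h | h
    · exact h
    · exfalso
      have h1 := (hdetmem _).mp (hHle h)
      have h3 := (hdetmem _).mp hg
      have h4 : (((g * r : ↥(Cfsg.isometryGroup F ⇑Q)) : Matrix.GeneralLinearGroup (Fin n) F) :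
          Matrix (Fin n) (Fin n) F) = ((g : Matrix.GeneralLinearGroup (Fin n) F) :
          Matrix (Fin n) (Fin n) F) * Cfsg.reflectionMatrix ⇑Q w := rfl
      rw [h4, Matrix.det_mul, h3, Cfsg.Agent.H6.Quad.det_reflectionMatrix Q w hw] at h1
      apply h2
      linear_combination -h1
  · push Not at hw
    have hempty : {g : ↥(Cfsg.isometryGroup F ⇑Q) | ∃ v : Fin n → F, Q v ≠ 0 ∧
      ((g : Matrix.GeneralLinearGroup (Fin n) F) : Matrix (Fin n) (Fin n) F) =
        Cfsg.reflectionMatrix ⇑Q v} = ∅ := by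
      ext y
      simp [hw]
    rw [hempty, Subgroup.closure_empty, Subgroup.mem_bot] at hgc
    rw [hgc]
    exact one_mem _

end Cfsg.Agent.S0792
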