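import Cfsg.Statements.S0793
import Cfsg.Agent.Lib_helper6_QuadMat

set_option autoImplicit false
open Cfsg

namespace Cfsg.Agent.S0793

/-- Root elements: if Q(u) = Q(v) = 0 and f(u, v) = 0 (f the polar form), then for every c the Siegel matrix T_(u,v)(c) preserves Q, fixes u and v, and T(c) T(d) = T(c + d). -/
theorem result {F : Type*} [Field F] {n : ℕ} (Q : QuadraticForm F (Fin n → F)) (u v : Fin n → F) (hu : Q u = 0) (hv : Q v = 0) (huv : QuadraticMap.polar ⇑Q u v = 0) : (∀ c x, Q ((Cfsg.siegelMatrix ⇑Q u v c).mulVec x) = Q x) ∧ (∀ c, (Cfsg.siegelMatrix ⇑Q u v c).mulVec u = u ∧ (Cfsg.siegelMatrix ⇑Q u v c).mulVec v = v) ∧ ∀ c d, Cfsg.siegelMatrix ⇑Q u v c * Cfsg.siegelMatrix ⇑Q u v d = Cfsg.siegelMatrix ⇑Q u v (c + d) := by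
  have huv' : Cfsg.Agent.H6.Quad.pol Q u v = 0 := huv
  have hvu' : Cfsg.Agent.H6.Quad.pol Q v u = 0 := by rw [Cfsg.Agent.H6.Quad.pol_comm]; exact huv
  have huu : Cfsg.Agent.H6.Quad.pol Q u u = 0 := by
    rw [Cfsg.Agent.H6.Quad.pol_self, hu, mul_zero]
  have hvv : Cfsg.Agent.H6.Quad.pol Q v v = 0 := by
    rw [Cfsg.Agent.H6.Quad.pol_self, hv, mul_zero]
  refine ⟨fun c x => ?_, fun c => ⟨?_, ?_⟩, fun c d => ?_⟩
  · rw [Cfsg.Agent.H6.Quad.siegelMatrix_mulVec, Cfsg.Agent.H6.Quad.Q_add,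
      Cfsg.Agent.H6.Quad.Q_smul, Cfsg.Agent.H6.Quad.Q_sub, Cfsg.Agent.H6.Quad.Q_smul,
      Cfsg.Agent.H6.Quad.Q_smul, hu, hv]
    simp only [map_smul, map_sub, LinearMap.smul_apply, smul_eq_mul, hvu',
      Cfsg.Agent.H6.Quad.pol_comm x u, Cfsg.Agent.H6.Quad.pol_comm x v]
    ring
  · rw [Cfsg.Agent.H6.Quad.siegelMatrix_mulVec, huu, hvu']; simp
  · rw [Cfsg.Agent.H6.Quad.siegelMatrix_mulVec, huv', hvv]; simp
  · rw [Matrix.ext_iff_mulVec]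
    intro x
    rw [← Matrix.mulVec_mulVec, Cfsg.Agent.H6.Quad.siegelMatrix_mulVec,
      Cfsg.Agent.H6.Quad.siegelMatrix_mulVec, Cfsg.Agent.H6.Quad.siegelMatrix_mulVec]
    simp only [map_add, map_smul, map_sub, smul_eq_mul, huv', hvu', huu, hvv]
    module

end Cfsg.Agent.S0793
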