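import Cfsg.Statements.S0795
import Cfsg.Agent.Lib_helper6_LongRoot

set_option autoImplicit false
open Cfsg

namespace Cfsg.Agent.S0795

/-- Generation of Ω by root elements: for q odd, n ≥ 5 and Q with non-degenerate polar form on F^n, the commutator subgroup of the isometry group equals the subgroup generated by the isometries whose matrices are Siegel transformations T_(u,v)(c) with u, v singular and orthogonal. -/
theorem result {F : Type*} [Field F] [Fintype F] (h2 : (2 : F) ≠ 0) {n : ℕ} (hn : 5 ≤ n) (Q : QuadraticForm F (Fin n → F)) (hQ : (QuadraticMap.polarBilin Q).Nondegenerate) : Cfsg.Omega F ⇑Q = Subgroup.closure {g : ↥(Cfsg.isometryGroup F ⇑Q) | ∃ (u v : Fin n → F) (c : F), Q u = 0 ∧ Q v = 0 ∧ QuadraticMap.polar ⇑Q u v = 0 ∧ ((g : Matrix.GeneralLinearGroup (Fin n) F) : Matrix (Fin n) (Fin n) F) = Cfsg.siegelMatrix ⇑Q u v c} := by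
  classical
  set e := H6.Quad.isometryGroupEquiv Q ⇑Q (fun _ => rfl) with he
  apply Subgroup.map_injective (f := e.toMonoidHom) e.injective
  rw [H6.map_commutator_equiv e, MonoidHom.map_closure,
    H6.Quad.commutator_eq_closure_longRoot h2 hQ (by simpa using hn)]
  congr 1
  ext g
  constructor
  · rintro ⟨u, v, c, hu, hv, huv, hg⟩
    refine ⟨e.symm g, ⟨u, v, c, hu, hv, huv, ?_⟩, by simp⟩
    apply Matrix.toLin'.injective
    apply LinearMap.ext
    intro x
    rw [Matrix.toLin'_apply, Matrix.toLin'_apply, H6.Quad.siegelMatrix_mulVec,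
      ← H6.Quad.isometryGroupEquiv_apply Q ⇑Q (fun _ => rfl), ← he, MulEquiv.apply_symm_apply]
    exact hg x
  · rintro ⟨g', ⟨u, v, c, hu, hv, huv, hg⟩, rfl⟩
    refine ⟨u, v, c, hu, hv, huv, fun x => ?_⟩
    change (e g').1 x = _
    rw [he, H6.Quad.isometryGroupEquiv_apply, hg, H6.Quad.siegelMatrix_mulVec]

end Cfsg.Agent.S0795
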