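import Cfsg.Statements.S0797
import Cfsg.Agent.Lib_helper6_DicksonMat
import Cfsg.Agent.Lib_helper6_OmegaCenter

set_option autoImplicit false
open Cfsg

namespace Cfsg.Agent.S0797

open scoped commutatorElement

theorem commutator_le_of_index_two {G : Type*} [Group G] (H : Subgroup G) (h : H.index = 2) :
    commutator G ≤ H := by
  rw [commutator_def, Subgroup.commutator_le]
  intro x _ y _
  rw [commutatorElement_def]
  have e : x * y * x⁻¹ * y⁻¹ = (x * y) * (x⁻¹ * y⁻¹) := by group
  rw [e, Subgroup.mul_mem_iff_of_index_two h, Subgroup.mul_mem_iff_of_index_two h,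
    Subgroup.mul_mem_iff_of_index_two h, inv_mem_iff, inv_mem_iff]

theorem card_index_two_klein {A : Type*} [Group A] (h4 : Nat.card A = 4)
    (hsq : ∀ a : A, a * a = 1) : Nat.card {K : Subgroup A // K.index = 2} = 3 := by
  classical
  have : Finite A := Nat.finite_of_card_ne_zero (by rw [h4]; norm_num)
  have : Fintype A := Fintype.ofFinite A
  have hord : ∀ a : A, a ≠ 1 → orderOf a = 2 := fun a ha =>
    orderOf_eq_prime (by rw [sq]; exact hsq a) ha
  have hidx : ∀ K : Subgroup A, K.index = 2 ↔ Nat.card K = 2 := by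
    intro K
    have := K.index_mul_card
    rw [h4] at this
    constructor
    · intro h; rw [h] at this; omega
    · intro h; rw [h] at this; omega
  have e : {a : A // a ≠ 1} ≃ {K : Subgroup A // K.index = 2} := by
    refine Equiv.ofBijective (fun a => ⟨Subgroup.zpowers a.1, by
      rw [hidx, Nat.card_zpowers, hord a.1 a.2]⟩) ⟨?_, ?_⟩
    · intro a b hab
      have h1 : Subgroup.zpowers a.1 = Subgroup.zpowers b.1 := congrArg Subtype.val hab
      have h2 : b.1 ∈ Subgroup.zpowers a.1 := h1 ▸ Subgroup.mem_zpowers b.1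
      obtain ⟨k, hk⟩ := Subgroup.mem_zpowers_iff.mp h2
      have ha2 : a.1 ^ (2 : ℤ) = 1 := by
        have : a.1 ^ 2 = 1 := by rw [sq]; exact hsq _
        exact_mod_cast this
      apply Subtype.ext
      rcases Int.even_or_odd' k with ⟨i, rfl | rfl⟩
      · exfalso
        rw [zpow_mul, ha2, one_zpow] at hk
        exact b.2 hk.symm
      · rw [zpow_add, zpow_mul, ha2, one_zpow, one_mul, zpow_one] at hk
        exact hk
    · rintro ⟨K, hK⟩
      have hK2 := (hidx K).mp hK
      have hnt : Nontrivial K := by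
        rw [← Finite.one_lt_card_iff_nontrivial, hK2]
        norm_num
      obtain ⟨a, ha⟩ := exists_ne (1 : K)
      have ha1 : (a : A) ≠ 1 := fun h => ha (Subtype.ext h)
      refine ⟨⟨a.1, ha1⟩, Subtype.ext ?_⟩
      apply Subgroup.eq_of_le_of_card_ge
      · rw [Subgroup.zpowers_le]; exact a.2
      · rw [hK2, Nat.card_zpowers, hord _ ha1]
  rw [← Nat.card_congr e, Nat.card_eq_fintype_card, Fintype.card_subtype_compl,
    ← Nat.card_eq_fintype_card, h4]
  simp

theorem card_index_two {G : Type*} [Group G] (h4 : (commutator G).index = 4)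
    (hsq : ∀ g : G, g * g ∈ commutator G) : Nat.card {H : Subgroup G // H.index = 2} = 3 := by
  rw [← card_index_two_klein (A := G ⧸ commutator G) h4 (by
    intro a
    obtain ⟨g, rfl⟩ := QuotientGroup.mk_surjective a
    rw [← QuotientGroup.mk_mul]
    exact (QuotientGroup.eq_one_iff _).mpr (hsq g))]
  symm
  have hs : Function.Surjective (QuotientGroup.mk' (commutator G)) := QuotientGroup.mk'_surjective _
  refine Nat.card_congr (Equiv.ofBijective (fun K => ⟨K.1.comap (QuotientGroup.mk' (commutator G)),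
    by rw [Subgroup.index_comap_of_surjective _ hs]; exact K.2⟩) ⟨?_, ?_⟩)
  · intro K L h
    apply Subtype.ext
    exact Subgroup.comap_injective hs (congrArg Subtype.val h)
  · rintro ⟨H, hH⟩
    have hle : (QuotientGroup.mk' (commutator G)).ker ≤ H := by
      rw [QuotientGroup.ker_mk']
      exact commutator_le_of_index_two H hH
    have hcm := Subgroup.comap_map_eq_self hle
    refine ⟨⟨H.map (QuotientGroup.mk' (commutator G)), ?_⟩, Subtype.ext hcm⟩
    rw [← Subgroup.index_comap_of_surjective _ hs, hcm]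
    exact hH

theorem sq_mem_commutator {G : Type*} [Group G] (S : Set G) (hS : Subgroup.closure S = ⊤)
    (h : ∀ s ∈ S, s * s = 1) (g : G) : g * g ∈ commutator G := by
  let f : G →* Abelianization G := (powMonoidHom 2).comp Abelianization.of
  have hf : f = 1 := by
    apply MonoidHom.eq_of_eqOn_dense hS
    intro s hs
    show (Abelianization.of s) ^ 2 = 1
    rw [← map_pow, sq, h s hs, map_one]
  have h1 : (Abelianization.of g) ^ 2 = 1 := DFunLike.congr_fun hf g
  rw [← map_pow, sq] at h1
  exact (QuotientGroup.eq_one_iff _).mp h1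



/-- O^ε_2m(q) ≅ Ω.2² for q odd: if F is finite of odd characteristic, n ≥ 2 is even and Q has non-degenerate polar form on F^n, the isometry group of Q has exactly three subgroups of index 2. -/
theorem result {F : Type*} [Field F] [Fintype F] (h2 : (2 : F) ≠ 0) {n : ℕ} (hn : 2 ≤ n) (heven : Even n) (Q : QuadraticForm F (Fin n → F)) (hQ : (QuadraticMap.polarBilin Q).Nondegenerate) : Nat.card {H : Subgroup ↥(Cfsg.isometryGroup F ⇑Q) // H.index = 2} = 3 := by
  have hidx : (commutator (Cfsg.isometryGroup F ⇑Q)).index = 4 :=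
    Cfsg.Agent.H6.Quad.index_Omega_odd h2 Q hQ (by simpa using hn) ⇑Q (fun _ => rfl)
  have hcl := Cfsg.Agent.H6.Quad.closure_reflElt Q hQ (Or.inl (Cfsg.Agent.H6.Quad.card_ne_two h2))
  apply card_index_two hidx
  apply sq_mem_commutator _ hcl
  rintro s ⟨v, hv, rfl⟩
  apply (Cfsg.Agent.H6.Quad.isometryGroupEquiv Q ⇑Q (fun _ => rfl)).injective
  rw [map_mul, Cfsg.Agent.H6.Quad.equiv_reflElt Q hQ, Cfsg.Agent.H6.Quad.Rf_mul_self, map_one]

end Cfsg.Agent.S0797
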