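import Cfsg.Statements.S0800
import Cfsg.Agent.Lib_helper6_GL2Norm

set_option autoImplicit false
open Cfsg

namespace Cfsg.Agent.S0800

/-- Tori of SL_2(q): if g ∈ SL_2(q) has order coprime to the characteristic p, then the order of g divides q − 1 or q + 1. -/
theorem result {F : Type*} [Field F] [Fintype F] {q : ℕ} (hF : Fintype.card F = q) (p : ℕ) [Fact p.Prime] [CharP F p] (g : Matrix.SpecialLinearGroup (Fin 2) F) (hg : Nat.Coprime (orderOf g) p) : orderOf g ∣ q - 1 ∨ orderOf g ∣ q + 1 := by
  have hp : p.Prime := Fact.out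
  obtain ⟨n, -, hq⟩ := FiniteField.card F p
  rw [hF] at hq
  have hcop : Nat.Coprime (orderOf g) q := by rw [hq]; exact Nat.Coprime.pow_right _ hg
  -- orders dividing 2
  have key2 : orderOf g ∣ 2 → orderOf g ∣ q - 1 := by
    intro h2
    by_cases hp2 : p = 2
    · subst hp2
      have : orderOf g = 1 := Nat.Coprime.eq_one_of_dvd hg h2
      rw [this]; exact one_dvd _
    · have hodd : Odd q := by rw [hq]; exact (hp.odd_of_ne_two hp2).pow
      refine h2.trans ?_
      obtain ⟨k, hk⟩ := hodd
      exact ⟨k, by omega⟩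
  have hcsq : Nat.card {c : F // c * c = 1} ∣ 2 := by
    by_cases h2 : (2 : F) = 0
    · rw [H6.GL2C.card_sq_eq_one_even h2]; exact one_dvd _
    · rw [H6.GL2C.card_sq_eq_one_odd h2]
  by_cases hns : H6.GL2C.NonScalar (g : Matrix (Fin 2) (Fin 2) F)
  · have hdvd : orderOf g ∣ Nat.card (Subgroup.centralizer
        ({g} : Set (Matrix.SpecialLinearGroup (Fin 2) F))) := by
      have hmem : g ∈ Subgroup.centralizer ({g} : Set (Matrix.SpecialLinearGroup (Fin 2) F)) :=
        Subgroup.mem_centralizer_singleton_iff.mpr rfl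
      have := orderOf_dvd_natCard (⟨g, hmem⟩ : Subgroup.centralizer
        ({g} : Set (Matrix.SpecialLinearGroup (Fin 2) F)))
      rwa [Subgroup.orderOf_mk] at this
    rw [H6.GL2C.card_centralizer_SL g hns] at hdvd
    rcases H6.GL2C.split_or_aniso (g : Matrix (Fin 2) (Fin 2) F).trace 1 with ⟨l, m, ht, hd⟩ | h
    · by_cases hlm : l = m
      · subst hlm
        rw [ht, H6.GL2C.card_nrm_eq_one_double hd.symm, hF] at hdvd
        left
        exact key2 ((hcop.dvd_of_dvd_mul_right hdvd).trans hcsq)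
      · rw [ht, H6.GL2C.card_nrm_eq_one_split hlm hd.symm, hF] at hdvd
        exact Or.inl hdvd
    · rw [H6.GL2C.card_nrm_eq_one_aniso h, hF] at hdvd
      exact Or.inr hdvd
  · left
    apply key2
    apply orderOf_dvd_of_pow_eq_one
    have hg1 := H6.GL2C.eq_smul_one_of_not_nonScalar hns
    have hdet := g.2
    rw [hg1] at hdet
    simp only [Matrix.det_smul, Fintype.card_fin, Matrix.det_one, mul_one] at hdet
    apply Subtype.ext
    rw [Matrix.SpecialLinearGroup.coe_pow, hg1, smul_pow, one_pow, hdet, one_smul]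
    rfl

end Cfsg.Agent.S0800
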