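import Cfsg.Statements.S0803
import Cfsg.Agent.S0808
open Cfsg.Agent.H6 Cfsg.Agent.H6.GL2C Cfsg.Agent.S0807 Cfsg.Agent.S0808

set_option autoImplicit false
open Cfsg

namespace Cfsg.Agent.S0803

theorem S4rec {N : Type*} [Group N] [Finite N] (hN : Nat.card N = 24) (V : Subgroup N)
    [hVn : V.Normal] (hV : IsKleinFour V) (hC : ∀ c : N, (∀ v ∈ V, c * v = v * c) → c ∈ V) :
    Nonempty (N ≃* Equiv.Perm (Fin 4)) := by
  classical
  have : Fact (Nat.Prime 3) := ⟨Nat.prime_three⟩
  have hsq : ∀ v ∈ V, v * v = 1 := fun v hv =>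
    congrArg Subtype.val (IsKleinFour.mul_self (⟨v, hv⟩ : V))
  have S1 : ∀ c : N, c ^ 3 = 1 → c ≠ 1 → ∀ k ∈ V, k ≠ 1 → c * k ≠ k * c := by
    intro c hc3 hc1 k hk hk1 hck
    have hckc : c * k * c⁻¹ = k := by rw [hck, mul_inv_cancel_right]
    have hcV : c ∈ V := by
      apply hC
      intro v hv
      by_cases h1 : v = 1
      · simp [h1]
      by_cases h2 : v = k
      · rw [h2]; exact hck
      have hw : c * v * c⁻¹ ∈ V := hVn.conj_mem v hv c
      by_cases h3 : c * v * c⁻¹ = v
      · exact mul_inv_eq_iff_eq_mul.mp h3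
      · exfalso
        have h4' := IsKleinFour.eq_mul_of_ne_all (G := V) (x := ⟨k, hk⟩) (y := ⟨v, hv⟩)
          (z := ⟨c * v * c⁻¹, hw⟩)
          (fun h => hk1 (congrArg Subtype.val h)) (fun h => h1 (congrArg Subtype.val h))
          (fun h => h2 (congrArg Subtype.val h).symm)
          (fun h => h1 (conj_eq_one_iff.mp (congrArg Subtype.val h)))
          (fun h => by
            have e : c * v * c⁻¹ = k := congrArg Subtype.val h
            rw [← hckc] at e
            exact h2 (mul_left_cancel (mul_right_cancel e)))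
          (fun h => h3 (congrArg Subtype.val h))
        have h4 : c * v * c⁻¹ = k * v := congrArg Subtype.val h4'
        have h5 : c * (k * v) * c⁻¹ = v := by
          calc c * (k * v) * c⁻¹ = (c * k * c⁻¹) * (c * v * c⁻¹) := by group
            _ = k * (k * v) := by rw [hckc, h4]
            _ = v := by rw [← mul_assoc, hsq k hk, one_mul]
        have h6 : c ^ 3 * v * (c ^ 3)⁻¹ = k * v := by
          have e3 : c ^ 3 = c * c * c := by rw [pow_succ, sq]
          calc c ^ 3 * v * (c ^ 3)⁻¹ = c * (c * (c * v * c⁻¹) * c⁻¹) * c⁻¹ := by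
                rw [e3]; group
            _ = k * v := by rw [h4, h5, h4]
        rw [hc3] at h6
        simp only [one_mul, inv_one, mul_one] at h6
        exact hk1 (mul_eq_right.mp h6.symm)
    apply hc1
    calc c = c ^ 3 * (c * c)⁻¹ := by rw [pow_succ, sq]; group
      _ = 1 := by rw [hc3, hsq c hcV]; simp
  have S2 : ∀ k ∈ V, (∀ R : Sylow 3 N, k • R = R) → k = 1 := by
    intro k hk hkR
    by_contra hk1
    obtain ⟨c, hc⟩ := exists_prime_orderOf_dvd_card' (G := N) 3 (by rw [hN]; norm_num)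
    have hc3 : c ^ 3 = 1 := by rw [← hc, pow_orderOf_eq_one]
    have hc1 : c ≠ 1 := by rintro rfl; simp at hc
    have hp : IsPGroup 3 (Subgroup.zpowers c) := by
      apply IsPGroup.of_card (n := 1)
      rw [Nat.card_zpowers, hc, pow_one]
    obtain ⟨R, hR⟩ := hp.exists_le_sylow
    have hcR : c ∈ R := hR (Subgroup.mem_zpowers c)
    have h1 : k * c * k⁻¹ ∈ ((k • R : Sylow 3 N) : Subgroup N) := by
      rw [Sylow.coe_subgroup_smul, Subgroup.mem_smul_pointwise_iff_exists]
      exact ⟨c, hcR, rfl⟩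
    rw [hkR R] at h1
    have hxR : k * c * k⁻¹ * c⁻¹ ∈ (R : Subgroup N) := mul_mem h1 (inv_mem hcR)
    have hxV : k * c * k⁻¹ * c⁻¹ ∈ V := by
      have : k * c * k⁻¹ * c⁻¹ = k * (c * k⁻¹ * c⁻¹) := by group
      rw [this]
      exact mul_mem hk (hVn.conj_mem _ (inv_mem hk) c)
    obtain ⟨j, hj⟩ := R.isPGroup' ⟨_, hxR⟩
    have hj' : (k * c * k⁻¹ * c⁻¹) ^ (3 ^ j) = 1 := congrArg Subtype.val hj
    have h2' : (k * c * k⁻¹ * c⁻¹) ^ 2 = 1 := by rw [sq]; exact hsq _ hxV
    have hd1 := orderOf_dvd_of_pow_eq_one hj'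
    have hd2 := orderOf_dvd_of_pow_eq_one h2'
    have hcop : Nat.Coprime (3 ^ j) 2 := Nat.Coprime.pow_left _ (by norm_num)
    have h1' := Nat.eq_one_of_dvd_coprimes hcop hd1 hd2
    have hx1 := orderOf_eq_one_iff.mp h1'
    apply S1 c hc3 hc1 k hk hk1
    have : k * c = c * k := by
      calc k * c = (k * c * k⁻¹ * c⁻¹) * (c * k) := by group
        _ = c * k := by rw [hx1, one_mul]
    exact this.symm
  have hinj : Function.Injective (MulAction.toPermHom N (Sylow 3 N)) := by
    rw [injective_iff_map_eq_one]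
    intro k hk
    have hkR : ∀ R : Sylow 3 N, k • R = R := by
      intro R
      have := congrArg (fun f : Equiv.Perm (Sylow 3 N) => f R) hk
      simpa using this
    have hkR' : ∀ R : Sylow 3 N, k⁻¹ • R = R := by
      intro R
      rw [inv_smul_eq_iff, hkR]
    have hkV : k ∈ V := by
      apply hC
      intro v hv
      have hx : k * v * k⁻¹ * v⁻¹ = 1 := by
        apply S2
        · exact mul_mem (hVn.conj_mem v hv k) (inv_mem hv)
        · intro R
          rw [mul_smul, mul_smul, mul_smul, hkR', hkR, smul_inv_smul]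
      calc k * v = (k * v * k⁻¹ * v⁻¹) * (v * k) := by group
        _ = v * k := by rw [hx, one_mul]
    exact S2 k hkV hkR
  have hn3 : Nat.card (Sylow 3 N) = 4 := by
    obtain ⟨R⟩ : Nonempty (Sylow 3 N) := inferInstance
    have h1 := card_sylow_modEq_one 3 N
    have h2 : Nat.card (Sylow 3 N) ∣ 24 := by
      rw [← hN]
      exact (Sylow.card_dvd_index R).trans (Subgroup.index_dvd_card _)
    have h3 := Nat.card_le_card_of_injective _ hinj
    rw [hN, Nat.card_perm] at h3
    have h4 : Nat.card (Sylow 3 N) ≤ 24 := Nat.le_of_dvd (by norm_num) h2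
    unfold Nat.ModEq at h1
    generalize Nat.card (Sylow 3 N) = n at h1 h2 h3 h4 ⊢
    have hcases : n = 1 ∨ n = 4 := by
      clear h3
      interval_cases n <;> omega
    rcases hcases with rfl | rfl
    · norm_num [Nat.factorial] at h3
    · rfl
  have hbij : Function.Bijective (MulAction.toPermHom N (Sylow 3 N)) := by
    rw [Nat.bijective_iff_injective_and_card]
    refine ⟨hinj, ?_⟩
    rw [hN, Nat.card_perm, hn3]
    rfl
  have e1 : N ≃* Equiv.Perm (Sylow 3 N) := MulEquiv.ofBijective _ hbij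
  have e2 : Sylow 3 N ≃ Fin 4 := hn3 ▸ Finite.equivFin (Sylow 3 N)
  exact ⟨e1.trans e2.permCongrHom⟩


theorem exists_normalizer_24 {G : Type*} [Group G] [Finite G]
    (h12 : 12 * Nat.card {V : Subgroup G // IsKleinFour V} = Nat.card G)
    (h8 : 8 ∣ Nat.card G)
    (h24 : ∀ V : Subgroup G, IsKleinFour V → Nat.card (Subgroup.normalizer (V : Set G)) ≤ 24) :
    ∃ V : Subgroup G, IsKleinFour V ∧ Nat.card (Subgroup.normalizer (V : Set G)) = 24 := by
  classical
  have : Fintype (Subgroup G) := Fintype.ofFinite _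
  let K : Finset (Subgroup G) := Finset.univ.filter (fun V => IsKleinFour V)
  let cl : Subgroup G → Finset (Subgroup G) := fun V => Finset.univ.filter (fun W => Cj V W)
  have hK : K.card = Nat.card {V : Subgroup G // IsKleinFour V} := by
    rw [Nat.card_eq_fintype_card, Fintype.card_subtype]
  have hcl : ∀ V, (cl V).card = Nat.card {W : Subgroup G // Cj V W} := by
    intro V
    rw [Nat.card_eq_fintype_card, Fintype.card_subtype]
  have hmemK : ∀ V, V ∈ K ↔ IsKleinFour V := by intro V; simp [K]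
  have hmemcl : ∀ V W, W ∈ cl V ↔ Cj V W := by intro V W; simp [cl]
  have hsub : ∀ V ∈ K, cl V ⊆ K := by
    intro V hV W hW
    obtain ⟨g, rfl⟩ := (hmemcl V W).mp hW
    exact (hmemK _).mpr (isKleinFour_map V ((hmemK V).mp hV) g)
  have hGpos : 0 < Nat.card G := Nat.card_pos
  have hKpos : 0 < K.card := by
    rw [hK]
    omega
  have horb : ∀ V, (cl V).card * Nat.card (Subgroup.normalizer (V : Set G)) = Nat.card G := by
    intro V
    rw [hcl]
    exact card_conj_mul_card_normalizer V
  have hbig : ∀ V ∈ K, K.card ≤ 2 * (cl V).card := by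
    intro V hV
    have h1 := horb V
    have h2 := h24 V ((hmemK V).mp hV)
    have h3 : (cl V).card * Nat.card (Subgroup.normalizer (V : Set G)) ≤ (cl V).card * 24 :=
      Nat.mul_le_mul_left _ h2
    rw [hK]
    omega
  obtain ⟨V₁, hV₁⟩ := Finset.card_pos.mp hKpos
  have hne : cl V₁ ≠ K := by
    intro he
    have h1 := horb V₁
    rw [he, ← h12, ← hK, mul_comm 12] at h1
    have h2 := Nat.eq_of_mul_eq_mul_left hKpos h1
    have h3 : 2 ^ (2 + 1) ∣ Nat.card (Subgroup.normalizer (V₁ : Set G)) :=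
      Sylow.prime_pow_dvd_card_normalizer (p := 2) (n := 2) h8 ((hmemK V₁).mp hV₁).card_four
    rw [h2] at h3
    norm_num at h3
  obtain ⟨V₂, hV₂, hV₂'⟩ : ∃ V₂ ∈ K, V₂ ∉ cl V₁ := by
    by_contra hcon
    push Not at hcon
    exact hne (Finset.Subset.antisymm (hsub V₁ hV₁) hcon)
  have hdisj : Disjoint (cl V₁) (cl V₂) := by
    rw [Finset.disjoint_left]
    intro W h1 h2
    exact hV₂' ((hmemcl _ _).mpr (((hmemcl _ _).mp h1).trans' ((hmemcl _ _).mp h2)))
  have hle : (cl V₁).card + (cl V₂).card ≤ K.card := by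
    rw [← Finset.card_union_of_disjoint hdisj]
    exact Finset.card_le_card (Finset.union_subset (hsub V₁ hV₁) (hsub V₂ hV₂))
  have hb1 := hbig V₁ hV₁
  have hb2 := hbig V₂ hV₂
  have h2c : K.card = 2 * (cl V₁).card := by omega
  refine ⟨V₁, (hmemK _).mp hV₁, ?_⟩
  have h1 := horb V₁
  rw [← h12, ← hK, h2c] at h1
  have hc0 : 0 < (cl V₁).card := by omega
  have h1' : (cl V₁).card * Nat.card (Subgroup.normalizer (V₁ : Set G)) = (cl V₁).card * 24 := by
    rw [h1]; ring
  exact Nat.eq_of_mul_eq_mul_left hc0 h1'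



/-- PSL_2(q) has a subgroup isomorphic to S_4 iff q² ≡ 1 (mod 16). -/
theorem result {F : Type*} [Field F] [Fintype F] {q : ℕ} (hF : Fintype.card F = q) : (∃ H : Subgroup (Matrix.ProjectiveSpecialLinearGroup (Fin 2) F), Nonempty (H ≃* Equiv.Perm (Fin 4))) ↔ q ^ 2 % 16 = 1 := by
  subst hF
  constructor
  · rintro ⟨H, ⟨e⟩⟩
    rcases Nat.even_or_odd (Fintype.card F) with hq | hodd
    · exfalso
      have h2 : (2 : F) = 0 := by
        have hc : ringChar F = 2 := (FiniteField.even_card_iff_char_two).mpr (Nat.even_iff.mp hq)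
        have := ringChar.Nat.cast_ringChar (R := F)
        rw [hc] at this
        exact_mod_cast this
      have : CharP F 2 := CharTwo.of_one_ne_zero_of_two_eq_zero one_ne_zero h2
      obtain ⟨c, hc4, hc2⟩ : ∃ c : Equiv.Perm (Fin 4), c ^ 4 = 1 ∧ c ^ 2 ≠ 1 :=
        ⟨finRotate 4, by decide, by decide⟩
      have hx4 : ((e.symm c : H) : Matrix.ProjectiveSpecialLinearGroup (Fin 2) F) ^ 4 = 1 := by
        rw [← Subgroup.coe_pow, ← map_pow, hc4, map_one, Subgroup.coe_one]
      have hx2 : ((e.symm c : H) : Matrix.ProjectiveSpecialLinearGroup (Fin 2) F) ^ 2 ≠ 1 := by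
        rw [← Subgroup.coe_pow, ← map_pow]
        intro h
        have h' : e.symm (c ^ 2) = 1 := Subtype.ext h
        rw [← map_one e.symm] at h'
        exact hc2 (e.symm.injective h')
      obtain ⟨s, hs⟩ := proj_surjective ((e.symm c : H) : Matrix.ProjectiveSpecialLinearGroup (Fin 2) F)
      rw [← hs, ← map_pow] at hx4 hx2
      have hs4 : s ^ 4 = 1 := proj_injective_of_two_eq_zero h2 (by rw [hx4, map_one])
      have hs4' : (s : Matrix (Fin 2) (Fin 2) F) ^ (2 ^ 2) = 1 := by
        have := congrArg Subtype.val hs4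
        rw [Matrix.SpecialLinearGroup.coe_pow] at this
        exact this
      obtain ⟨ht, -⟩ := trace_det_of_pow_char_pow 2 _ 2 hs4'
      have ht0 : (s : Matrix (Fin 2) (Fin 2) F).trace = 0 := by
        rw [ht, one_add_one_eq_two, h2]
      have hss := (sq_eq_neg_one_iff s).mpr ht0
      apply hx2
      have : s ^ 2 = 1 := by
        apply Subtype.ext
        rw [sq, Matrix.SpecialLinearGroup.coe_mul, hss, Matrix.SpecialLinearGroup.coe_one,
          neg_eq_iff_add_eq_zero, ← two_smul F, h2, zero_smul]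
      rw [this, map_one]
    · have hH : Nat.card H = 24 := by
        rw [Nat.card_congr e.toEquiv, Nat.card_perm, Nat.card_fin]
        rfl
      have hd := Subgroup.card_subgroup_dvd_card H
      rw [hH] at hd
      have hcard := Cfsg.Agent.S0805.two_mul_card_PSL2 (F := F) hodd
      have h16 : 2 ^ 4 ∣ Fintype.card F * (Fintype.card F ^ 2 - 1) := by
        rw [← hcard]
        obtain ⟨m, hm⟩ := hd
        exact ⟨3 * m, by rw [hm]; ring⟩
      have hcop : Nat.Coprime (2 ^ 4) (Fintype.card F) :=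
        Nat.Coprime.pow_left 4 (Nat.coprime_two_left.mpr hodd)
      obtain ⟨m, hm⟩ := hcop.dvd_of_dvd_mul_left h16
      have hpos : 1 ≤ Fintype.card F ^ 2 := Nat.one_le_pow _ _ Fintype.card_pos
      omega
  · intro hq
    have h := Nat.pow_mod (Fintype.card F) 2 16
    rw [hq] at h
    have hlt : Fintype.card F % 16 < 16 := Nat.mod_lt _ (by norm_num)
    have hr : Fintype.card F % 16 = 1 ∨ Fintype.card F % 16 = 7 ∨ Fintype.card F % 16 = 9 ∨
        Fintype.card F % 16 = 15 := by
      generalize Fintype.card F % 16 = r at h hlt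
      interval_cases r <;> first | decide | (exfalso; revert h; decide)
    have hodd : Odd (Fintype.card F) := Nat.odd_iff.mpr (by omega)
    have hq8 : Fintype.card F % 8 = 1 ∨ Fintype.card F % 8 = 7 := by omega
    have h2 : (2 : F) ≠ 0 := two_ne_zero_of_odd_card hodd
    have hcard := Cfsg.Agent.S0805.two_mul_card_PSL2 (F := F) hodd
    have h8 : 8 ∣ Nat.card (Matrix.ProjectiveSpecialLinearGroup (Fin 2) F) := by
      have hpos : 1 ≤ Fintype.card F ^ 2 := Nat.one_le_pow _ _ Fintype.card_pos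
      obtain ⟨m, hm⟩ : 16 ∣ Fintype.card F ^ 2 - 1 := by omega
      rw [hm] at hcard
      refine ⟨Fintype.card F * m, ?_⟩
      have e2 : Fintype.card F * (16 * m) = 16 * (Fintype.card F * m) := by ring
      omega
    obtain ⟨V, hV, hN24⟩ := exists_normalizer_24 (Cfsg.Agent.S0807.result rfl hodd) h8
      (fun V hV => card_normalizer_le h2 V hV)
    refine ⟨Subgroup.normalizer (V : Set (Matrix.ProjectiveSpecialLinearGroup (Fin 2) F)), ?_⟩
    have e : V.subgroupOf (Subgroup.normalizer
        (V : Set (Matrix.ProjectiveSpecialLinearGroup (Fin 2) F))) ≃* V :=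
      Subgroup.subgroupOfEquivOfLe Subgroup.le_normalizer
    have hV' : IsKleinFour (V.subgroupOf (Subgroup.normalizer
        (V : Set (Matrix.ProjectiveSpecialLinearGroup (Fin 2) F)))) :=
      ⟨by rw [Nat.card_congr e.toEquiv, hV.card_four],
        by rw [Monoid.exponent_eq_of_mulEquiv e, hV.exponent_two]⟩
    apply S4rec hN24 (V.subgroupOf (Subgroup.normalizer
        (V : Set (Matrix.ProjectiveSpecialLinearGroup (Fin 2) F)))) hV'
    intro c hc
    rw [Subgroup.mem_subgroupOf]
    obtain ⟨x, y, hx, hy, hx1, hy1, hne⟩ := exists_pair V hV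
    have hcx : (c : Matrix.ProjectiveSpecialLinearGroup (Fin 2) F) * x = x * c :=
      congrArg Subtype.val (hc ⟨x, Subgroup.le_normalizer hx⟩ (Subgroup.mem_subgroupOf.mpr hx))
    have hcy : (c : Matrix.ProjectiveSpecialLinearGroup (Fin 2) F) * y = y * c :=
      congrArg Subtype.val (hc ⟨y, Subgroup.le_normalizer hy⟩ (Subgroup.mem_subgroupOf.mpr hy))
    obtain ⟨s, rfl⟩ := proj_surjective x
    obtain ⟨u, rfl⟩ := proj_surjective y
    have hA : Anti s u := (anti_iff h2 s u).mp ⟨klein_orderOf V hV _ hx hx1,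
      klein_orderOf V hV _ hy hy1, hne, klein_comm V hV _ _ hx hy⟩
    obtain ⟨w, hw⟩ := proj_surjective (c : Matrix.ProjectiveSpecialLinearGroup (Fin 2) F)
    rw [← hw] at hcx hcy ⊢
    rcases centralizer_pair h2 s u w hA hcx hcy with h | h | h | h <;> rw [h]
    · exact one_mem _
    · exact hx
    · exact hy
    · exact mul_mem hx hy

end Cfsg.Agent.S0803
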