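import Cfsg.Statements.S0802
import Cfsg.Agent.S0803
import Cfsg.Agent.S0272
import Cfsg.Agent.S0259
import Cfsg.Agent.S0252
import Cfsg.Agent.S0253
import Cfsg.Agent.Lib_helper6_FieldEmb
import Cfsg.Agent.Lib_helper6_SylTransfer
open Cfsg.Agent.H6 Cfsg.Agent.H6.GL2C Cfsg.Agent.S0807 Cfsg.Agent.S0808

set_option autoImplicit false
open Cfsg

namespace Cfsg.Agent.S0802

theorem A4rec {N : Type*} [Group N] [Finite N] (hN : Nat.card N = 12) (V : Subgroup N)
    [hVn : V.Normal] (hV : IsKleinFour V) (hC : ∀ c : N, (∀ v ∈ V, c * v = v * c) → c ∈ V) :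
    Nonempty (N ≃* alternatingGroup (Fin 4)) := by
  classical
  have : Fact (Nat.Prime 3) := ⟨Nat.prime_three⟩
  have hsq : ∀ v ∈ V, v * v = 1 := fun v hv =>
    congrArg Subtype.val (IsKleinFour.mul_self (⟨v, hv⟩ : V))
  have S1 : ∀ c : N, c ^ 3 = 1 → c ≠ 1 → ∀ k ∈ V, k ≠ 1 → c * k ≠ k * c := by
    intro c hc3 hc1 k hk hk1 hck
    have hckc : c * k * c⁻¹ = k := by rw [hck, mul_inv_cancel_right]
    have hcV : c ∈ V := by
      apply hC
      intro v hv
      by_cases h1 : v = 1
      · simp [h1]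
      by_cases h2 : v = k
      · rw [h2]; exact hck
      have hw : c * v * c⁻¹ ∈ V := hVn.conj_mem v hv c
      by_cases h3 : c * v * c⁻¹ = v
      · exact mul_inv_eq_iff_eq_mul.mp h3
      · exfalso
        have h4' := IsKleinFour.eq_mul_of_ne_all (G := V) (x := ⟨k, hk⟩) (y := ⟨v, hv⟩)
          (z := ⟨c * v * c⁻¹, hw⟩)
          (fun h => hk1 (congrArg Subtype.val h)) (fun h => h1 (congrArg Subtype.val h))
          (fun h => h2 (congrArg Subtype.val h).symm)
          (fun h => h1 (conj_eq_one_iff.mp (congrArg Subtype.val h)))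
          (fun h => by
            have e : c * v * c⁻¹ = k := congrArg Subtype.val h
            rw [← hckc] at e
            exact h2 (mul_left_cancel (mul_right_cancel e)))
          (fun h => h3 (congrArg Subtype.val h))
        have h4 : c * v * c⁻¹ = k * v := congrArg Subtype.val h4'
        have h5 : c * (k * v) * c⁻¹ = v := by
          calc c * (k * v) * c⁻¹ = (c * k * c⁻¹) * (c * v * c⁻¹) := by group
            _ = k * (k * v) := by rw [hckc, h4]
            _ = v := by rw [← mul_assoc, hsq k hk, one_mul]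
        have h6 : c ^ 3 * v * (c ^ 3)⁻¹ = k * v := by
          have e3 : c ^ 3 = c * c * c := by rw [pow_succ, sq]
          calc c ^ 3 * v * (c ^ 3)⁻¹ = c * (c * (c * v * c⁻¹) * c⁻¹) * c⁻¹ := by
                rw [e3]; group
            _ = k * v := by rw [h4, h5, h4]
        rw [hc3] at h6
        simp only [one_mul, inv_one, mul_one] at h6
        exact hk1 (mul_eq_right.mp h6.symm)
    apply hc1
    calc c = c ^ 3 * (c * c)⁻¹ := by rw [pow_succ, sq]; group
      _ = 1 := by rw [hc3, hsq c hcV]; simp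
  have S2 : ∀ k ∈ V, (∀ R : Sylow 3 N, k • R = R) → k = 1 := by
    intro k hk hkR
    by_contra hk1
    obtain ⟨c, hc⟩ := exists_prime_orderOf_dvd_card' (G := N) 3 (by rw [hN]; norm_num)
    have hc3 : c ^ 3 = 1 := by rw [← hc, pow_orderOf_eq_one]
    have hc1 : c ≠ 1 := by rintro rfl; simp at hc
    have hp : IsPGroup 3 (Subgroup.zpowers c) := by
      apply IsPGroup.of_card (n := 1)
      rw [Nat.card_zpowers, hc, pow_one]
    obtain ⟨R, hR⟩ := hp.exists_le_sylow
    have hcR : c ∈ R := hR (Subgroup.mem_zpowers c)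
    have h1 : k * c * k⁻¹ ∈ ((k • R : Sylow 3 N) : Subgroup N) := by
      rw [Sylow.coe_subgroup_smul, Subgroup.mem_smul_pointwise_iff_exists]
      exact ⟨c, hcR, rfl⟩
    rw [hkR R] at h1
    have hxR : k * c * k⁻¹ * c⁻¹ ∈ (R : Subgroup N) := mul_mem h1 (inv_mem hcR)
    have hxV : k * c * k⁻¹ * c⁻¹ ∈ V := by
      have : k * c * k⁻¹ * c⁻¹ = k * (c * k⁻¹ * c⁻¹) := by group
      rw [this]
      exact mul_mem hk (hVn.conj_mem _ (inv_mem hk) c)
    obtain ⟨j, hj⟩ := R.isPGroup' ⟨_, hxR⟩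
    have hj' : (k * c * k⁻¹ * c⁻¹) ^ (3 ^ j) = 1 := congrArg Subtype.val hj
    have h2' : (k * c * k⁻¹ * c⁻¹) ^ 2 = 1 := by rw [sq]; exact hsq _ hxV
    have hd1 := orderOf_dvd_of_pow_eq_one hj'
    have hd2 := orderOf_dvd_of_pow_eq_one h2'
    have hcop : Nat.Coprime (3 ^ j) 2 := Nat.Coprime.pow_left _ (by norm_num)
    have h1' := Nat.eq_one_of_dvd_coprimes hcop hd1 hd2
    have hx1 := orderOf_eq_one_iff.mp h1'
    apply S1 c hc3 hc1 k hk hk1
    have : k * c = c * k := by
      calc k * c = (k * c * k⁻¹ * c⁻¹) * (c * k) := by group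
        _ = c * k := by rw [hx1, one_mul]
    exact this.symm
  have hinj : Function.Injective (MulAction.toPermHom N (Sylow 3 N)) := by
    rw [injective_iff_map_eq_one]
    intro k hk
    have hkR : ∀ R : Sylow 3 N, k • R = R := by
      intro R
      have := congrArg (fun f : Equiv.Perm (Sylow 3 N) => f R) hk
      simpa using this
    have hkR' : ∀ R : Sylow 3 N, k⁻¹ • R = R := by
      intro R
      rw [inv_smul_eq_iff, hkR]
    have hkV : k ∈ V := by
      apply hC
      intro v hv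
      have hx : k * v * k⁻¹ * v⁻¹ = 1 := by
        apply S2
        · exact mul_mem (hVn.conj_mem v hv k) (inv_mem hv)
        · intro R
          rw [mul_smul, mul_smul, mul_smul, hkR', hkR, smul_inv_smul]
      calc k * v = (k * v * k⁻¹ * v⁻¹) * (v * k) := by group
        _ = v * k := by rw [hx, one_mul]
    exact S2 k hkV hkR
  have hn3 : Nat.card (Sylow 3 N) = 4 := by
    obtain ⟨R⟩ : Nonempty (Sylow 3 N) := inferInstance
    have h1 := card_sylow_modEq_one 3 N
    have h2 : Nat.card (Sylow 3 N) ∣ 12 := by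
      rw [← hN]
      exact (Sylow.card_dvd_index R).trans (Subgroup.index_dvd_card _)
    have h3 := Nat.card_le_card_of_injective _ hinj
    rw [hN, Nat.card_perm] at h3
    have h4 : Nat.card (Sylow 3 N) ≤ 12 := Nat.le_of_dvd (by norm_num) h2
    unfold Nat.ModEq at h1
    generalize Nat.card (Sylow 3 N) = n at h1 h2 h3 h4 ⊢
    have hcases : n = 1 ∨ n = 4 := by
      clear h3
      interval_cases n <;> omega
    rcases hcases with rfl | rfl
    · norm_num [Nat.factorial] at h3
    · rfl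
  have e2 : Sylow 3 N ≃ Fin 4 := hn3 ▸ Finite.equivFin (Sylow 3 N)
  let ψ : N →* Equiv.Perm (Fin 4) :=
    (e2.permCongrHom.toMonoidHom).comp (MulAction.toPermHom N (Sylow 3 N))
  have hψ : Function.Injective ψ := e2.permCongrHom.injective.comp hinj
  have hcr : Nat.card ψ.range = 12 := by
    rw [← Nat.card_congr (MonoidHom.ofInjective hψ).toEquiv, hN]
  have hidx : ψ.range.index = 2 := by
    have h := Subgroup.index_mul_card ψ.range
    rw [hcr, Nat.card_perm, Nat.card_fin] at h
    have : (4 : ℕ).factorial = 24 := rfl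
    omega
  have hr := Equiv.Perm.eq_alternatingGroup_of_index_eq_two hidx
  exact ⟨(MonoidHom.ofInjective hψ).trans (MulEquiv.subgroupCongr hr)⟩


theorem no_A4 {F : Type*} [Field F] [Fintype F] (n : ℕ) (hn : Odd n) (hF : Fintype.card F = 2 ^ n)
    [CharP F 2] (θ : alternatingGroup (Fin 4) →* GL (Fin 2) F) (hθ : Function.Injective θ) :
    False := by
  obtain ⟨v₀, c₀, hv2, hv1, hc3, hc1, hcomm⟩ : ∃ v c : alternatingGroup (Fin 4),
      v * v = 1 ∧ v ≠ 1 ∧ c ^ 3 = 1 ∧ c ≠ 1 ∧ (c * v * c⁻¹) * v = v * (c * v * c⁻¹) :=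
    ⟨⟨Equiv.swap 0 1 * Equiv.swap 2 3, Equiv.Perm.mem_alternatingGroup.mpr (by decide)⟩,
      ⟨Equiv.swap 0 1 * Equiv.swap 1 2, Equiv.Perm.mem_alternatingGroup.mpr (by decide)⟩,
      by decide, by decide, by decide, by decide, by decide⟩
  have ne1 : ∀ x : alternatingGroup (Fin 4), x ≠ 1 → θ x ≠ 1 := by
    intro x hx h
    rw [← map_one θ] at h
    exact hx (hθ h)
  set v := θ v₀ with hv
  set c := θ c₀ with hc
  have v2 : v * v = 1 := by rw [hv, ← map_mul, hv2, map_one]
  have v1 : v ≠ 1 := ne1 _ hv1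
  have c3 : c ^ 3 = 1 := by rw [hc, ← map_pow, hc3, map_one]
  have c1 : c ≠ 1 := ne1 _ hc1
  have oc : orderOf c = 3 := orderOf_eq_prime c3 c1
  have wv : (c * v * c⁻¹) * v = v * (c * v * c⁻¹) := by
    have := congrArg θ hcomm
    simpa only [map_mul, map_inv] using this
  have w2 : (c * v * c⁻¹) * (c * v * c⁻¹) = 1 := by
    calc (c * v * c⁻¹) * (c * v * c⁻¹) = c * (v * v) * c⁻¹ := by group
      _ = 1 := by rw [v2]; group
  have w1 : c * v * c⁻¹ ≠ 1 := by
    rw [Ne, conj_eq_one_iff]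
    exact v1
  have hA : IsPGroup 2 (Subgroup.zpowers v ⊔ Subgroup.zpowers (c * v * c⁻¹) :
      Subgroup (GL (Fin 2) F)) := by
    apply IsPGroup.to_sup_of_normal_right'
      (SylT.isPGroup_zpowers' 2 v 1 (by rw [pow_one, sq]; exact v2))
      (SylT.isPGroup_zpowers' 2 _ 1 (by rw [pow_one, sq]; exact w2))
    rw [Subgroup.zpowers_le]
    apply SylT.mem_normalizer_of_invol _ v v2
    intro k hk
    obtain ⟨i, rfl⟩ := Subgroup.mem_zpowers_iff.mp hk
    have hcm : Commute v (c * v * c⁻¹) := wv.symm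
    have : v * (c * v * c⁻¹) ^ i * v⁻¹ = (c * v * c⁻¹) ^ i := by
      rw [mul_inv_eq_iff_eq_mul]
      exact (hcm.zpow_right i).eq
    rw [this]
    exact hk
  obtain ⟨P, hP⟩ := hA.exists_le_sylow
  have hvP : v ∈ P := hP ((le_sup_left : Subgroup.zpowers v ≤ _) (Subgroup.mem_zpowers v))
  have hwP : c * v * c⁻¹ ∈ P :=
    hP ((le_sup_right : Subgroup.zpowers (c * v * c⁻¹) ≤ _) (Subgroup.mem_zpowers _))
  have hcP : c • P = P := by
    by_contra hne
    have h1 : c * v * c⁻¹ ∈ ((c • P : Sylow 2 (GL (Fin 2) F)) : Subgroup (GL (Fin 2) F)) := by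
      rw [Sylow.coe_subgroup_smul, Subgroup.mem_smul_pointwise_iff_exists]
      exact ⟨v, hvP, rfl⟩
    have h2 : c * v * c⁻¹ ∈ ((c • P : Sylow 2 (GL (Fin 2) F)) : Subgroup (GL (Fin 2) F)) ⊓
        (P : Subgroup (GL (Fin 2) F)) := ⟨h1, hwP⟩
    rw [Cfsg.Agent.S0259.result 2 _ _ hne] at h2
    exact w1 h2
  have hcN := Sylow.smul_eq_iff_mem_normalizer.mp hcP
  have hd := Subgroup.orderOf_dvd_natCard _ hcN
  have hNc := Cfsg.Agent.S0272.result (F := F) rfl 2 P
  have hd' : 3 ∣ Fintype.card F * (Fintype.card F - 1) ^ 2 := by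
    rw [← hNc, ← oc]
    exact hd
  rw [hF] at hd'
  obtain ⟨m, rfl⟩ := hn
  have h4 : 4 ^ m % 3 = 1 := by
    rw [Nat.pow_mod]
    simp
  have e2 : 2 ^ (2 * m + 1) = 2 * 4 ^ m := by
    rw [pow_succ, pow_mul]
    norm_num
    ring
  rcases (Nat.Prime.dvd_mul Nat.prime_three).mp hd' with h | h
  · have := Nat.Prime.dvd_of_dvd_pow Nat.prime_three h
    omega
  · have := Nat.Prime.dvd_of_dvd_pow Nat.prime_three h
    rw [e2] at this
    omega



def HasA4 (G : Type*) [Group G] : Prop :=
  ∃ H : Subgroup G, Nonempty (H ≃* alternatingGroup (Fin 4))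

theorem HasA4.transport {A B : Type*} [Group A] [Group B] (h : HasA4 A) (j : A →* B)
    (hj : Function.Injective j) : HasA4 B := by
  obtain ⟨H, ⟨e⟩⟩ := h
  exact ⟨H.map j, ⟨(H.equivMapOfInjective j hj).symm.trans e⟩⟩

theorem hasA4_perm : HasA4 (Equiv.Perm (Fin 4)) := ⟨alternatingGroup (Fin 4), ⟨MulEquiv.refl _⟩⟩

theorem hasA4_odd {F : Type*} [Field F] [Fintype F] (hodd : Odd (Fintype.card F)) :
    HasA4 (Matrix.ProjectiveSpecialLinearGroup (Fin 2) F) := by
  have h2 : (2 : F) ≠ 0 := two_ne_zero_of_odd_card hodd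
  by_cases hq : Fintype.card F % 8 = 3 ∨ Fintype.card F % 8 = 5
  · have h12 := Cfsg.Agent.S0807.result (F := F) rfl hodd
    have hpos : 0 < Nat.card {W : Subgroup (Matrix.ProjectiveSpecialLinearGroup (Fin 2) F) //
        IsKleinFour W} := by
      have : 0 < Nat.card (Matrix.ProjectiveSpecialLinearGroup (Fin 2) F) := Nat.card_pos
      omega
    obtain ⟨⟨V, hV⟩⟩ := (Nat.card_pos_iff.mp hpos).1
    have hN : Nat.card (Subgroup.normalizer
        (V : Set (Matrix.ProjectiveSpecialLinearGroup (Fin 2) F))) = 12 := by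
      have h1 := card_conj_mul_card_normalizer V
      have h3 : Nat.card {W : Subgroup (Matrix.ProjectiveSpecialLinearGroup (Fin 2) F) // Cj V W} =
          Nat.card {W : Subgroup (Matrix.ProjectiveSpecialLinearGroup (Fin 2) F) //
            IsKleinFour W} := by
        apply Nat.card_congr
        apply Equiv.subtypeEquivRight
        intro W
        constructor
        · rintro ⟨g, rfl⟩
          exact isKleinFour_map _ hV g
        · intro hW
          exact (Cfsg.Agent.S0808.result (F := F) rfl hodd).1 hq _ W hV hW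
      rw [h3, ← h12, mul_comm 12] at h1
      exact Nat.eq_of_mul_eq_mul_left hpos h1
    refine ⟨Subgroup.normalizer (V : Set (Matrix.ProjectiveSpecialLinearGroup (Fin 2) F)), ?_⟩
    have e : V.subgroupOf (Subgroup.normalizer
        (V : Set (Matrix.ProjectiveSpecialLinearGroup (Fin 2) F))) ≃* V :=
      Subgroup.subgroupOfEquivOfLe Subgroup.le_normalizer
    have hV' : IsKleinFour (V.subgroupOf (Subgroup.normalizer
        (V : Set (Matrix.ProjectiveSpecialLinearGroup (Fin 2) F)))) :=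
      ⟨by rw [Nat.card_congr e.toEquiv, hV.card_four],
        by rw [Monoid.exponent_eq_of_mulEquiv e, hV.exponent_two]⟩
    apply A4rec hN (V.subgroupOf (Subgroup.normalizer
        (V : Set (Matrix.ProjectiveSpecialLinearGroup (Fin 2) F)))) hV'
    intro c hc
    rw [Subgroup.mem_subgroupOf]
    obtain ⟨x, y, hx, hy, hx1, hy1, hne⟩ := exists_pair V hV
    have hcx : (c : Matrix.ProjectiveSpecialLinearGroup (Fin 2) F) * x = x * c :=
      congrArg Subtype.val (hc ⟨x, Subgroup.le_normalizer hx⟩ (Subgroup.mem_subgroupOf.mpr hx))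
    have hcy : (c : Matrix.ProjectiveSpecialLinearGroup (Fin 2) F) * y = y * c :=
      congrArg Subtype.val (hc ⟨y, Subgroup.le_normalizer hy⟩ (Subgroup.mem_subgroupOf.mpr hy))
    obtain ⟨s, rfl⟩ := proj_surjective x
    obtain ⟨u, rfl⟩ := proj_surjective y
    have hA : Anti s u := (anti_iff h2 s u).mp ⟨klein_orderOf V hV _ hx hx1,
      klein_orderOf V hV _ hy hy1, hne, klein_comm V hV _ _ hx hy⟩
    obtain ⟨w, hw⟩ := proj_surjective (c : Matrix.ProjectiveSpecialLinearGroup (Fin 2) F)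
    rw [← hw] at hcx hcy ⊢
    rcases centralizer_pair h2 s u w hA hcx hcy with h | h | h | h <;> rw [h]
    · exact one_mem _
    · exact hx
    · exact hy
    · exact mul_mem hx hy
  · have hq16 : Fintype.card F ^ 2 % 16 = 1 := by
      obtain ⟨k, hk⟩ := hodd
      have h16 : Fintype.card F % 16 = 1 ∨ Fintype.card F % 16 = 7 ∨ Fintype.card F % 16 = 9 ∨
          Fintype.card F % 16 = 15 := by omega
      rcases h16 with h | h | h | h <;> simp [Nat.pow_mod, h]
    obtain ⟨H₀, ⟨e⟩⟩ := (Cfsg.Agent.S0803.result (F := F) rfl).mpr hq16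
    exact hasA4_perm.transport (H₀.subtype.comp e.symm.toMonoidHom)
      (Subtype.val_injective.comp e.symm.injective)

theorem map_injective' {K F : Type*} [Field K] [Field F] (f : K →+* F) :
    Function.Injective (Matrix.SpecialLinearGroup.map (n := Fin 2) f) := by
  intro A B h
  apply Subtype.ext
  ext i j
  have := congrFun (congrFun (congrArg Subtype.val h) i) j
  exact f.injective this

theorem hasA4_even {F : Type*} [Field F] [Fintype F] [CharP F 2] (n : ℕ) (hn : Even n)
    (hF : Fintype.card F = 2 ^ n) : HasA4 (Matrix.ProjectiveSpecialLinearGroup (Fin 2) F) := by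
  haveI : Fact (Nat.Prime 5) := ⟨by norm_num⟩
  have h5 : HasA4 (Matrix.ProjectiveSpecialLinearGroup (Fin 2) (ZMod 5)) :=
    hasA4_odd (by rw [ZMod.card]; decide)
  obtain ⟨e5⟩ := Cfsg.Agent.S0253.result (F := ZMod 5) (ZMod.card 5)
  haveI : Fintype (GaloisField 2 2) := Fintype.ofFinite _
  have hK : Fintype.card (GaloisField 2 2) = 4 := by
    rw [← Nat.card_eq_fintype_card, GaloisField.card 2 2 (by norm_num)]
    norm_num
  obtain ⟨e4⟩ := Cfsg.Agent.S0252.result (F := GaloisField 2 2) hK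
  have hK4 : HasA4 (Matrix.ProjectiveSpecialLinearGroup (Fin 2) (GaloisField 2 2)) :=
    h5.transport (e4.symm.toMonoidHom.comp e5.toMonoidHom) (e4.symm.injective.comp e5.injective)
  obtain ⟨m, rfl⟩ := hn
  obtain ⟨f⟩ := exists_ringHom_of_card_pow (K := GaloisField 2 2) (F := F) m (by
    rw [hF, hK, ← two_mul, pow_mul]; norm_num)
  have h2F : (2 : F) = 0 := CharTwo.two_eq_zero
  have h2K : (2 : GaloisField 2 2) = 0 := CharTwo.two_eq_zero
  exact hK4.transport ((projEquiv h2F).toMonoidHom.comp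
    ((Matrix.SpecialLinearGroup.map f).comp (projEquiv h2K).symm.toMonoidHom))
    ((projEquiv h2F).injective.comp ((map_injective' f).comp (projEquiv h2K).symm.injective))


/-- PSL_2(p^n) has a subgroup isomorphic to A_4 if and only if it is not the case that p = 2 and n is odd. -/
theorem result {F : Type*} [Field F] [Fintype F] (p n : ℕ) [Fact p.Prime] [CharP F p] (hF : Fintype.card F = p ^ n) : (∃ H : Subgroup (Matrix.ProjectiveSpecialLinearGroup (Fin 2) F), Nonempty (H ≃* alternatingGroup (Fin 4))) ↔ ¬ (p = 2 ∧ Odd n) := by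
  constructor
  · rintro ⟨H, ⟨e⟩⟩ ⟨rfl, hn⟩
    have h2 : (2 : F) = 0 := CharTwo.two_eq_zero
    exact no_A4 n hn hF (Matrix.SpecialLinearGroup.toGL.comp
      ((projEquiv h2).symm.toMonoidHom.comp (H.subtype.comp e.symm.toMonoidHom)))
      (Matrix.SpecialLinearGroup.toGL_injective.comp
        ((projEquiv h2).symm.injective.comp (Subtype.val_injective.comp e.symm.injective)))
  · intro h
    by_cases hp : p = 2
    · subst hp
      have hn : Even n := by
        by_contra hne
        exact h ⟨rfl, Nat.not_even_iff_odd.mp hne⟩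
      exact hasA4_even n hn hF
    · have hodd : Odd (Fintype.card F) := by
        rw [hF]
        exact (Nat.Prime.odd_of_ne_two Fact.out hp).pow
      exact hasA4_odd hodd

end Cfsg.Agent.S0802
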