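import Cfsg.Statements.S0809
import Cfsg.Agent.Lib_helper6_SL2Conj

set_option autoImplicit false
open Cfsg

namespace Cfsg.Agent.S0809

open H6.GL2C

theorem coe_sq {F : Type*} [Field F] (s : Matrix.SpecialLinearGroup (Fin 2) F) :
    ((s ^ 2 : Matrix.SpecialLinearGroup (Fin 2) F) : Matrix (Fin 2) (Fin 2) F) =
      (s : Matrix (Fin 2) (Fin 2) F) * (s : Matrix (Fin 2) (Fin 2) F) := by
  rw [sq, Matrix.SpecialLinearGroup.coe_mul]

/-- an element with `s⁴ = 1` which is not `±1` has trace zero -/
theorem trace_zero_of_pow_four {F : Type*} [Field F] (h2 : (2 : F) ≠ 0)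
    (s : Matrix.SpecialLinearGroup (Fin 2) F) (h4 : s ^ 4 = 1)
    (h1 : (s : Matrix (Fin 2) (Fin 2) F) ≠ 1) (hm1 : (s : Matrix (Fin 2) (Fin 2) F) ≠ -1) :
    (s : Matrix (Fin 2) (Fin 2) F).trace = 0 := by
  rw [← sq_eq_neg_one_iff]
  have h5 : ((s ^ 2 : Matrix.SpecialLinearGroup (Fin 2) F) : Matrix (Fin 2) (Fin 2) F) *
      ((s ^ 2 : Matrix.SpecialLinearGroup (Fin 2) F) : Matrix (Fin 2) (Fin 2) F) = 1 := by
    rw [← Matrix.SpecialLinearGroup.coe_mul, ← pow_add, h4]; rfl
  rcases eq_one_or_neg_one_of_sq_eq_one h2 _ h5 with h | h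
  · rw [coe_sq] at h
    rcases eq_one_or_neg_one_of_sq_eq_one h2 _ h with h' | h'
    · exact absurd h' h1
    · exact absurd h' hm1
  · rwa [coe_sq] at h

theorem exists_gen {F : Type*} [Field F] (h2 : (2 : F) ≠ 0)
    (A : Subgroup (Matrix.SpecialLinearGroup (Fin 2) F)) (hA : Nat.card A = 4) :
    ∃ s : Matrix.SpecialLinearGroup (Fin 2) F, (s : Matrix (Fin 2) (Fin 2) F).trace = 0 ∧
      A = Subgroup.zpowers s := by
  classical
  have hfin : Finite A := Nat.finite_of_card_ne_zero (by rw [hA]; norm_num)
  obtain ⟨s, hsA, hs1, hsm1⟩ : ∃ s ∈ A, (s : Matrix (Fin 2) (Fin 2) F) ≠ 1 ∧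
      (s : Matrix (Fin 2) (Fin 2) F) ≠ -1 := by
    by_contra hcon
    push Not at hcon
    have hinj : Function.Injective (fun a : A =>
        decide (((a : Matrix.SpecialLinearGroup (Fin 2) F) : Matrix (Fin 2) (Fin 2) F) = 1)) := by
      intro a b hab
      simp only [decide_eq_decide] at hab
      apply Subtype.ext
      apply Subtype.ext
      by_cases ha : ((a : Matrix.SpecialLinearGroup (Fin 2) F) : Matrix (Fin 2) (Fin 2) F) = 1
      · rw [ha, hab.mp ha]
      · rw [hcon a a.2 ha, hcon b b.2 (fun h => ha (hab.mpr h))]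
    have := Nat.card_le_card_of_injective _ hinj
    rw [hA] at this
    simp at this
  have h4 : s ^ 4 = 1 := by
    have := pow_card_eq_one' (x := (⟨s, hsA⟩ : A))
    rw [hA] at this
    exact congrArg Subtype.val this
  have ht := trace_zero_of_pow_four h2 s h4 hs1 hsm1
  refine ⟨s, ht, ?_⟩
  have hord : orderOf s = 2 ^ (1 + 1) := by
    have : Fact (Nat.Prime 2) := ⟨Nat.prime_two⟩
    apply orderOf_eq_prime_pow
    · intro h
      have h5 := congrArg Subtype.val h
      rw [pow_one, coe_sq, (sq_eq_neg_one_iff s).mpr ht] at h5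
      have h6 := congrFun (congrFun h5 0) 0
      simp at h6
      apply h2
      linear_combination -h6
    · exact h4
  symm
  apply Subgroup.eq_of_le_of_card_ge
  · rw [Subgroup.zpowers_le]; exact hsA
  · rw [hA, Nat.card_zpowers, hord]; norm_num

theorem mem_normalizer_zpowers {G : Type*} [Group G] (x s : G)
    (h : x * s * x⁻¹ = s ∨ x * s * x⁻¹ = s⁻¹) :
    x ∈ Subgroup.normalizer ((Subgroup.zpowers s : Subgroup G) : Set G) := by
  rw [Subgroup.mem_normalizer_iff_map_conj_eq]
  have h1 : (Subgroup.zpowers s).map ((MulAut.conj x : G ≃* G) : G →* G) =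
      Subgroup.zpowers (x * s * x⁻¹) := by
    rw [MonoidHom.map_zpowers]
    rfl
  rw [h1]
  rcases h with h | h
  · rw [h]
  · rw [h, Subgroup.zpowers_inv]

theorem normalizer_eq {F : Type*} [Field F] (h2 : (2 : F) ≠ 0)
    (s : Matrix.SpecialLinearGroup (Fin 2) F) (ht : (s : Matrix (Fin 2) (Fin 2) F).trace = 0) :
    Subgroup.normalizer ((Subgroup.zpowers s : Subgroup (Matrix.SpecialLinearGroup (Fin 2) F)) :
      Set (Matrix.SpecialLinearGroup (Fin 2) F)) =
    (Subgroup.centralizer
      ({proj F s} : Set (Matrix.ProjectiveSpecialLinearGroup (Fin 2) F))).comap (proj F) := by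
  have hsq := (sq_eq_neg_one_iff s).mpr ht
  have hns : NonScalar (s : Matrix (Fin 2) (Fin 2) F) := by
    by_contra h
    have hg := eq_smul_one_of_not_nonScalar h
    have hdet := s.2
    rw [hg] at ht hdet
    simp only [Matrix.trace_smul, Matrix.trace_one, Fintype.card_fin, smul_eq_mul,
      Matrix.det_smul, Matrix.det_one, mul_one] at ht hdet
    have h0 : (s : Matrix (Fin 2) (Fin 2) F) 0 0 = 0 := by
      rcases mul_eq_zero.mp ht with h | h
      · exact h
      · exact absurd (by exact_mod_cast h) h2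
    rw [h0] at hdet
    simp at hdet
  ext x
  rw [Subgroup.mem_comap, Subgroup.mem_centralizer_singleton_iff]
  constructor
  · intro hx
    have h1 : x * s * x⁻¹ ∈ Subgroup.zpowers s :=
      (Subgroup.mem_normalizer_iff.mp hx s).mp (Subgroup.mem_zpowers s)
    obtain ⟨k, hk⟩ := Subgroup.mem_zpowers_iff.mp h1
    have hcomm : (x * s * x⁻¹) * s = s * (x * s * x⁻¹) := by
      rw [← hk]
      exact ((Commute.refl s).zpow_left k)
    obtain ⟨α, β, hαβ⟩ := exists_eq_of_commute hns (congrArg Subtype.val hcomm)
    have htr : ((x * s * x⁻¹ : Matrix.SpecialLinearGroup (Fin 2) F) :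
        Matrix (Fin 2) (Fin 2) F).trace = 0 := by
      rw [Matrix.SpecialLinearGroup.coe_mul, Matrix.trace_mul_comm,
        ← Matrix.SpecialLinearGroup.coe_mul, ← mul_assoc, inv_mul_cancel, one_mul, ht]
    have hdet := (x * s * x⁻¹).2
    rw [hαβ] at htr hdet
    rw [det_lin, ht, s.2] at hdet
    rw [lin_eq, Matrix.trace_add, Matrix.trace_smul, Matrix.trace_smul, ht, Matrix.trace_one,
      Fintype.card_fin] at htr
    have hα : α = 0 := by
      simp only [smul_eq_mul, mul_zero, add_zero] at htr
      rcases mul_eq_zero.mp htr with h | h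
      · exact h
      · exact absurd (by exact_mod_cast h) h2
    rw [hα] at hdet hαβ
    have hβ : β ^ 2 = 1 := by
      unfold nrm at hdet
      linear_combination hdet
    rw [lin_eq, zero_smul, zero_add] at hαβ
    rcases sq_eq_one_iff.mp hβ with h | h
    · rw [h, one_smul] at hαβ
      have : x * s * x⁻¹ = s := Subtype.ext hαβ
      rw [← map_mul, ← map_mul]
      congr 1
      rw [mul_inv_eq_iff_eq_mul] at this
      exact this
    · rw [h, neg_smul, one_smul] at hαβ
      apply proj_commute_of_anticommute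
      have h3 : x * s = (x * s * x⁻¹) * x := by group
      have h4 := congrArg Subtype.val h3
      rw [Matrix.SpecialLinearGroup.coe_mul, Matrix.SpecialLinearGroup.coe_mul (x * s * x⁻¹),
        hαβ, neg_mul] at h4
      exact h4
  · intro hx
    apply mem_normalizer_zpowers
    rcases commute_or_anticommute x s hx with h | h
    · left
      rw [h, mul_inv_cancel_right]
    · right
      rw [mul_inv_eq_iff_eq_mul, eq_inv_mul_iff_mul_eq]
      apply Subtype.ext
      rw [Matrix.SpecialLinearGroup.coe_mul, Matrix.SpecialLinearGroup.coe_mul, h, mul_neg,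
        ← mul_assoc, hsq, neg_mul, one_mul, neg_neg]

theorem card_normalizer {F : Type*} [Field F] [Fintype F] (h2 : (2 : F) ≠ 0)
    (s : Matrix.SpecialLinearGroup (Fin 2) F) (ht : (s : Matrix (Fin 2) (Fin 2) F).trace = 0) :
    Nat.card (Subgroup.normalizer
      ((Subgroup.zpowers s : Subgroup (Matrix.SpecialLinearGroup (Fin 2) F)) :
      Set (Matrix.SpecialLinearGroup (Fin 2) F))) =
    2 * Nat.card (Subgroup.centralizer ({s} : Set (Matrix.SpecialLinearGroup (Fin 2) F))) := by
  rw [normalizer_eq h2 s ht]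
  have h1 := index_centralizer_proj_of_trace_eq_zero h2 s ht
  rw [← Subgroup.index_comap_of_surjective _ (proj_surjective (F := F))] at h1
  have h3 := Subgroup.index_mul_card ((Subgroup.centralizer
      ({proj F s} : Set (Matrix.ProjectiveSpecialLinearGroup (Fin 2) F))).comap (proj F))
  have h4 := Subgroup.index_mul_card
    (Subgroup.centralizer ({s} : Set (Matrix.SpecialLinearGroup (Fin 2) F)))
  rw [← h1, ← h3] at h4
  have hpos : 0 < ((Subgroup.centralizer
      ({proj F s} : Set (Matrix.ProjectiveSpecialLinearGroup (Fin 2) F))).comap (proj F)).index :=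
    Nat.pos_of_ne_zero Subgroup.index_ne_zero_of_finite
  apply Nat.eq_of_mul_eq_mul_left hpos
  rw [← h4]; ring

/-- In SL_2(q), q odd: any two subgroups of order 4 are conjugate, and the normaliser of a subgroup of order 4 has order 2(q − 1) if q ≡ 1 (mod 4) and 2(q + 1) if q ≡ 3 (mod 4); consequently all involutions of PSL_2(q) are conjugate. -/
theorem result {F : Type*} [Field F] [Fintype F] {q : ℕ} (hF : Fintype.card F = q) (hodd : Odd q) (A : Subgroup (Matrix.SpecialLinearGroup (Fin 2) F)) (hA : Nat.card A = 4) : (∀ B : Subgroup (Matrix.SpecialLinearGroup (Fin 2) F), Nat.card B = 4 → ∃ g : Matrix.SpecialLinearGroup (Fin 2) F, B = A.map (MulAut.conj g).toMonoidHom) ∧ (q % 4 = 1 → Nat.card ↥(Subgroup.normalizer (A : Set (Matrix.SpecialLinearGroup (Fin 2) F))) = 2 * (q - 1)) ∧ (q % 4 = 3 → Nat.card ↥(Subgroup.normalizer (A : Set (Matrix.SpecialLinearGroup (Fin 2) F))) = 2 * (q + 1)) ∧ (∀ x y : Matrix.ProjectiveSpecialLinearGroup (Fin 2) F, orderOf x = 2 → orderOf y = 2 → IsConj x y) := by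
  subst hF
  have h20 : (2 : F) ≠ 0 := by
    intro h
    have hchar : ringChar F = 2 := by
      have h' : ((2 : ℕ) : F) = 0 := by exact_mod_cast h
      have := ringChar.dvd h'
      rcases (Nat.dvd_prime Nat.prime_two).mp this with h1 | h1
      · exact absurd h1 (CharP.ringChar_ne_one)
      · exact h1
    have := FiniteField.even_card_iff_char_two.mp hchar
    rw [Nat.odd_iff] at hodd
    omega
  obtain ⟨s, hts, rfl⟩ := exists_gen h20 A hA
  have hns : NonScalar (s : Matrix (Fin 2) (Fin 2) F) := by
    by_contra h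
    have hg := eq_smul_one_of_not_nonScalar h
    have hdet := s.2
    have ht := hts
    rw [hg] at ht hdet
    simp only [Matrix.trace_smul, Matrix.trace_one, Fintype.card_fin, smul_eq_mul,
      Matrix.det_smul, Matrix.det_one, mul_one] at ht hdet
    have h0 : (s : Matrix (Fin 2) (Fin 2) F) 0 0 = 0 := by
      rcases mul_eq_zero.mp ht with h | h
      · exact h
      · exact absurd (by exact_mod_cast h) h20
    rw [h0] at hdet
    simp at hdet
  refine ⟨?_, ?_, ?_, ?_⟩
  · intro B hB
    obtain ⟨s', hts', rfl⟩ := exists_gen h20 B hB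
    obtain ⟨g, hg⟩ := isConj_iff.mp (isConj_SL_of_trace_zero h20 s s' hts hts')
    refine ⟨g, ?_⟩
    rw [MonoidHom.map_zpowers]
    congr 1
    exact hg.symm
  · intro h4
    rw [card_normalizer h20 s hts, card_centralizer_SL s hns, hts]
    obtain ⟨i, hi⟩ : IsSquare (-1 : F) := FiniteField.isSquare_neg_one_iff.mpr (by omega)
    have hi0 : i ≠ 0 := by rintro rfl; simp at hi
    have := card_nrm_eq_one_split (F := F) (l := i) (m := -i) (by
        intro h
        have : (2 : F) * i = 0 := by linear_combination h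
        exact (mul_ne_zero h20 hi0) this) (by linear_combination hi)
    rw [add_neg_cancel] at this
    rw [this]
  · intro h4
    rw [card_normalizer h20 s hts, card_centralizer_SL s hns, hts]
    have hsq : ¬ IsSquare (-1 : F) := fun h => FiniteField.isSquare_neg_one_iff.mp h h4
    rw [card_nrm_eq_one_aniso (by
      rcases split_or_aniso (0 : F) 1 with ⟨l, m, ht, hd⟩ | h
      · exfalso
        apply hsq
        refine ⟨l, ?_⟩
        have hm : m = -l := by linear_combination -ht
        rw [hm] at hd
        linear_combination -hd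
      · exact h)]
  · have key : ∀ x : Matrix.ProjectiveSpecialLinearGroup (Fin 2) F, orderOf x = 2 →
        ∃ u : Matrix.SpecialLinearGroup (Fin 2) F, proj F u = x ∧
          (u : Matrix (Fin 2) (Fin 2) F).trace = 0 := by
      intro x hx
      obtain ⟨u, rfl⟩ := proj_surjective x
      refine ⟨u, rfl, ?_⟩
      have h1 : proj F u ^ 2 = 1 := by have := pow_orderOf_eq_one (proj F u); rwa [hx] at this
      have h2 : u ^ 2 ∈ Subgroup.center (Matrix.SpecialLinearGroup (Fin 2) F) := by
        rw [← map_pow] at h1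
        exact (QuotientGroup.eq_one_iff _).mp h1
      have hnc : u ∉ Subgroup.center (Matrix.SpecialLinearGroup (Fin 2) F) := by
        intro h
        have : proj F u = 1 := (QuotientGroup.eq_one_iff _).mpr h
        rw [this, orderOf_one] at hx
        omega
      have hcard : Nat.card (Subgroup.center (Matrix.SpecialLinearGroup (Fin 2) F)) ∣ 2 := by
        rw [H6.card_center_SL_field 2 (by norm_num)]
        exact Nat.gcd_dvd_left _ _
      have h4 : u ^ 4 = 1 := by
        have h5 := pow_card_eq_one' (x := (⟨u ^ 2, h2⟩ :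
          Subgroup.center (Matrix.SpecialLinearGroup (Fin 2) F)))
        obtain ⟨k, hk⟩ := hcard
        have h6 : (⟨u ^ 2, h2⟩ : Subgroup.center (Matrix.SpecialLinearGroup (Fin 2) F)) ^ 2 = 1 := by
          have h8 : (⟨u ^ 2, h2⟩ : Subgroup.center (Matrix.SpecialLinearGroup (Fin 2) F)) ^
              (Nat.card (Subgroup.center (Matrix.SpecialLinearGroup (Fin 2) F)) * k) = 1 := by
            rw [pow_mul, h5, one_pow]
          rwa [← hk] at h8
        have h7 := congrArg Subtype.val h6
        rw [show (4 : ℕ) = 2 * 2 by norm_num, pow_mul]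
        exact h7
      apply trace_zero_of_pow_four h20 u h4
      · intro h
        apply hnc
        have : u = 1 := Subtype.ext h
        rw [this]; exact one_mem _
      · intro h
        apply hnc
        rw [mem_center_iff_not_nonScalar, h]
        rintro (h | h | h) <;> simp at h
    intro x y hx hy
    obtain ⟨u, rfl, hu⟩ := key x hx
    obtain ⟨v, rfl, hv⟩ := key y hy
    exact MonoidHom.map_isConj (proj F) (isConj_SL_of_trace_zero h20 u v hu hv)

end Cfsg.Agent.S0809
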