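import Cfsg.Statements.S0819


set_option autoImplicit false
open Cfsg

namespace Cfsg.Agent.S0819

open Polynomial in
theorem poly_key {F : Type*} [Field F] (ω : F) (h2 : (2:F) = 0) (hω : ω^2+ω+1 = 0) (a b : F)
    (ha : a = 0 ∨ a = 1 ∨ a = ω ∨ a = ω+1) (hb : b = 0 ∨ b = 1 ∨ b = ω ∨ b = ω+1) :
    ∃ n : ℕ, (n = 3 ∨ n = 4 ∨ n = 5 ∨ n = 7) ∧ ∃ (c : F) (Q : F[X]),
      (X:F[X])^n - C c = (X^3 + C a * X^2 + C b * X + 1) * Q := by
  have h2' : (2 : F[X]) = 0 := by
    rw [show (2 : F[X]) = C 2 from (map_ofNat C 2).symm, h2, map_zero]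
  have hW : (C ω : F[X])^2 + C ω + 1 = 0 := by
    have := congrArg (C : F → F[X]) hω
    simp only [map_add, map_pow, map_one, map_zero] at this
    exact this
  rcases ha with ha | ha | ha | ha <;> rcases hb with hb | hb | hb | hb <;> rw [ha, hb]
  · refine ⟨3, by simp, 1, 1, ?_⟩
    simp only [map_add, map_one, map_zero]
    linear_combination (((-1))) * h2' + (0) * hW
  · refine ⟨7, by simp, 1, 1+1*X+1*X^2+1*X^4, ?_⟩
    simp only [map_add, map_one, map_zero]
    linear_combination (((-1))+((-1))*X+((-1))*X^2+((-1))*X^3+((-1))*X^4+((-1))*X^5) * h2' + (0) * hW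
  · refine ⟨7, by simp, (ω+1), (C ω+1)+1*X+C ω*X^2+1*X^4, ?_⟩
    simp only [map_add, map_one, map_zero]
    linear_combination (((-1)+(-1)*C ω)+((-1)*C ω)*X^2+((-1))*X^4+((-1)*C ω)*X^5) * h2' + (((-1))*X+((-1))*X^3) * hW
  · refine ⟨7, by simp, ω, C ω+1*X+(C ω+1)*X^2+1*X^4, ?_⟩
    simp only [map_add, map_one, map_zero]
    linear_combination (((-1)*C ω)+((-1)+(-1)*C ω)*X^2+((-1)*C ω)*X^3+((-1))*X^4+((-1)+(-1)*C ω)*X^5) * h2' + (((-1))*X+((-1))*X^3) * hW
  · refine ⟨7, by simp, 1, 1+1*X^2+1*X^3+1*X^4, ?_⟩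
    simp only [map_add, map_one, map_zero]
    linear_combination (((-1))+((-1))*X^2+((-1))*X^3+((-1))*X^4+((-1))*X^5+((-1))*X^6) * h2' + (0) * hW
  · refine ⟨4, by simp, 1, 1+1*X, ?_⟩
    simp only [map_add, map_one, map_zero]
    linear_combination (((-1))+((-1))*X+((-1))*X^2+((-1))*X^3) * h2' + (0) * hW
  · refine ⟨5, by simp, (ω+1), (C ω+1)+1*X+1*X^2, ?_⟩
    simp only [map_add, map_one, map_zero]
    linear_combination (((-1)+(-1)*C ω)+((-1)+(-1)*C ω)*X^2+((-1)+(-1)*C ω)*X^3+((-1))*X^4) * h2' + (((-1))*X) * hW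
  · refine ⟨5, by simp, ω, C ω+1*X+1*X^2, ?_⟩
    simp only [map_add, map_one, map_zero]
    linear_combination (((-1)*C ω)+((-1)+(-1)*C ω)*X^2+((-1)+(-1)*C ω)*X^3+((-1))*X^4) * h2' + (((-1))*X) * hW
  · refine ⟨7, by simp, ω, C ω+(C ω+1)*X^2+C ω*X^3+1*X^4, ?_⟩
    simp only [map_add, map_one, map_zero]
    linear_combination (((-1)*C ω)+((-1)*C ω)*X^3+((-1)*C ω)*X^6) * h2' + (((-1))*X^2+((-1))*X^4+((-1))*X^5) * hW
  · refine ⟨5, by simp, ω, C ω+C ω*X+1*X^2, ?_⟩
    simp only [map_add, map_one, map_zero]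
    linear_combination (((-1)*C ω)+((-1)*C ω)*X+((-1)*C ω)*X^4) * h2' + (((-1))*X^2+((-1))*X^3) * hW
  · refine ⟨5, by simp, 1, 1+C ω*X+1*X^2, ?_⟩
    simp only [map_add, map_one, map_zero]
    linear_combination (((-1))+((-1)*C ω)*X+((-1)*C ω)*X^4) * h2' + (((-1))*X^2+((-1))*X^3) * hW
  · refine ⟨4, by simp, ω, C ω+1*X, ?_⟩
    simp only [map_add, map_one, map_zero]
    linear_combination (((-1)*C ω)+((-1)*C ω)*X^3) * h2' + (((-1))*X+((-1))*X^2) * hW
  · refine ⟨7, by simp, (ω+1), (C ω+1)+C ω*X^2+(C ω+1)*X^3+1*X^4, ?_⟩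
    simp only [map_add, map_one, map_zero]
    linear_combination (((-1)+(-1)*C ω)+((-1)*C ω)*X^2+((-1)+(-1)*C ω)*X^3+((-1)*C ω)*X^5+((-1)+(-1)*C ω)*X^6) * h2' + (((-1))*X^2+((-1))*X^4+((-1))*X^5) * hW
  · refine ⟨5, by simp, (ω+1), (C ω+1)+(C ω+1)*X+1*X^2, ?_⟩
    simp only [map_add, map_one, map_zero]
    linear_combination (((-1)+(-1)*C ω)+((-1)+(-1)*C ω)*X+((-1)+(-1)*C ω)*X^2+((-1)+(-1)*C ω)*X^3+((-1)+(-1)*C ω)*X^4) * h2' + (((-1))*X^2+((-1))*X^3) * hW
  · refine ⟨4, by simp, (ω+1), (C ω+1)+1*X, ?_⟩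
    simp only [map_add, map_one, map_zero]
    linear_combination (((-1)+(-1)*C ω)+((-1)*C ω)*X^2+((-1)+(-1)*C ω)*X^3) * h2' + (((-1))*X+((-1))*X^2) * hW
  · refine ⟨5, by simp, 1, 1+(C ω+1)*X+1*X^2, ?_⟩
    simp only [map_add, map_one, map_zero]
    linear_combination (((-1))+((-1)+(-1)*C ω)*X+((-1)+(-1)*C ω)*X^2+((-1)+(-1)*C ω)*X^3+((-1)+(-1)*C ω)*X^4) * h2' + (((-1))*X^2+((-1))*X^3) * hW

theorem four_elems {F : Type*} [Field F] [Fintype F] (hF : Fintype.card F = 4) :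
    (2 : F) = 0 ∧ ∃ ω : F, ω^2+ω+1 = 0 ∧ ∀ a : F, a = 0 ∨ a = 1 ∨ a = ω ∨ a = ω+1 := by
  classical
  have h2 : (2 : F) = 0 := by
    have h4 : ((4 : ℕ) : F) = 0 := by rw [← hF]; exact Nat.cast_card_eq_zero F
    have : (2 : F) * 2 = 0 := by
      have h : ((4 : ℕ) : F) = 2 * 2 := by norm_num
      rw [← h]; exact h4
    exact mul_self_eq_zero.mp this
  refine ⟨h2, ?_⟩
  obtain ⟨ω, hω⟩ : ∃ ω : F, ω ∉ ({0, 1} : Finset F) := by
    by_contra hcon
    push_neg at hcon
    have : (Finset.univ : Finset F) ⊆ {0, 1} := fun x _ => hcon x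
    have h := Finset.card_le_card this
    rw [Finset.card_univ, hF] at h
    have h' : ({0, 1} : Finset F).card ≤ 2 := Finset.card_le_two
    omega
  simp only [Finset.mem_insert, Finset.mem_singleton, not_or] at hω
  obtain ⟨h0, h1⟩ := hω
  have h3 : ω ^ 3 = 1 := by
    have := FiniteField.pow_card_sub_one_eq_one ω h0
    rwa [hF] at this
  have hq : ω^2+ω+1 = 0 := by
    have : (ω - 1) * (ω^2+ω+1) = 0 := by linear_combination h3
    rcases mul_eq_zero.mp this with h | h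
    · exact absurd (sub_eq_zero.mp h) h1
    · exact h
  refine ⟨ω, hq, ?_⟩
  have hcard : ({0, 1, ω, ω+1} : Finset F).card = 4 := by
    rw [Finset.card_insert_of_notMem, Finset.card_insert_of_notMem, Finset.card_insert_of_notMem,
      Finset.card_singleton]
    · simp
    · simp only [Finset.mem_insert, Finset.mem_singleton, not_or]
      refine ⟨fun h => h1 h.symm, fun h => h0 ?_⟩
      linear_combination -h
    · simp only [Finset.mem_insert, Finset.mem_singleton, not_or]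
      refine ⟨zero_ne_one, fun h => h0 h.symm, fun h => h1 ?_⟩
      linear_combination -h - h2
  have huniv : ({0, 1, ω, ω+1} : Finset F) = Finset.univ := by
    apply Finset.eq_univ_of_card
    rw [hcard, hF]
  intro a
  have := Finset.mem_univ a
  rw [← huniv] at this
  simpa using this

open Polynomial in
theorem exists_pow_scalar {F : Type*} [Field F] [Fintype F] (hF : Fintype.card F = 4)
    (A : Matrix (Fin 3) (Fin 3) F) (hA : A.det = 1) :
    ∃ n : ℕ, (n = 3 ∨ n = 4 ∨ n = 5 ∨ n = 7) ∧ ∃ c : F, A ^ n = Matrix.scalar (Fin 3) c := by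
  obtain ⟨h2, ω, hω, hall⟩ := four_elems hF
  obtain ⟨n, hn, c, Q, hQ⟩ := poly_key ω h2 hω (A.charpoly.coeff 2) (A.charpoly.coeff 1)
    (hall _) (hall _)
  refine ⟨n, hn, c, ?_⟩
  have hchi : A.charpoly = X^3 + C (A.charpoly.coeff 2) * X^2 + C (A.charpoly.coeff 1) * X + 1 := by
    have hdeg : A.charpoly.natDegree = 3 := by
      rw [Matrix.charpoly_natDegree_eq_dim]; simp
    have hmon : A.charpoly.coeff 3 = 1 := by
      have := (Matrix.charpoly_monic A).coeff_natDegree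
      rwa [hdeg] at this
    have h0 : A.charpoly.coeff 0 = 1 := by
      have := Matrix.det_eq_sign_charpoly_coeff A
      rw [hA] at this
      simp only [Fintype.card_fin] at this
      linear_combination -this + (A.charpoly.coeff 0) * h2
    conv_lhs => rw [A.charpoly.as_sum_range, hdeg]
    simp only [Finset.sum_range_succ, Finset.sum_range_zero, hmon, h0, ← C_mul_X_pow_eq_monomial]
    simp
    ring
  have hCH := Matrix.aeval_self_charpoly A
  have h := congrArg (aeval A) hQ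
  rw [← hchi, map_mul, hCH, zero_mul] at h
  simp only [map_sub, map_pow, aeval_X, aeval_C] at h
  rw [sub_eq_zero] at h
  rw [h]
  rfl

/-- No element of PSL_3(4) has order 15. -/
theorem result {F : Type*} [Field F] [Fintype F] (hF : Fintype.card F = 4) (g : Matrix.ProjectiveSpecialLinearGroup (Fin 3) F) : orderOf g ≠ 15 := by
  obtain ⟨s, rfl⟩ := QuotientGroup.mk_surjective g
  obtain ⟨n, hn, c, hc⟩ := exists_pow_scalar hF (s : Matrix (Fin 3) (Fin 3) F) s.det_coe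
  have hmem : s ^ n ∈ Subgroup.center (Matrix.SpecialLinearGroup (Fin 3) F) := by
    rw [Matrix.SpecialLinearGroup.mem_center_iff]
    refine ⟨c, ?_, ?_⟩
    · have := congrArg Matrix.det hc
      rw [Matrix.det_pow, s.det_coe, one_pow] at this
      simp at this
      simpa using this.symm
    · rw [Matrix.SpecialLinearGroup.coe_pow]
      exact hc.symm
  have h1 : (QuotientGroup.mk s : Matrix.ProjectiveSpecialLinearGroup (Fin 3) F) ^ n = 1 := by
    rw [← QuotientGroup.mk_pow]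
    exact (QuotientGroup.eq_one_iff _).mpr hmem
  intro h15
  have hd := orderOf_dvd_of_pow_eq_one h1
  rw [h15] at hd
  rcases hn with rfl | rfl | rfl | rfl <;> omega

end Cfsg.Agent.S0819
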