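import Cfsg.Statements.S0820
import Cfsg.Agent.Lib_helper6_SqZero

set_option autoImplicit false
open Cfsg

namespace Cfsg.Agent.S0820

/-- Any two elements of order 2 of PSL_3(4) are conjugate. -/
theorem result {F : Type*} [Field F] [Fintype F] (hF : Fintype.card F = 4) (x y : Matrix.ProjectiveSpecialLinearGroup (Fin 3) F) (hx : orderOf x = 2) (hy : orderOf y = 2) : IsConj x y := by
  haveI hchar : CharP F 2 := by
    obtain ⟨p, hp⟩ := CharP.exists F
    obtain ⟨n, hprime, hcard⟩ := FiniteField.card F p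
    rw [hF] at hcard
    have h1 : p ∣ 2 ^ 2 := by
      have : (4 : ℕ) = 2 ^ 2 := by norm_num
      rw [← this, hcard]
      exact dvd_pow_self p n.ne_zero
    have h2 : p = 2 := (Nat.prime_dvd_prime_iff_eq hprime Nat.prime_two).mp
      (hprime.dvd_of_dvd_pow h1)
    rw [← h2]; exact hp
  have key : ∀ x : Matrix.ProjectiveSpecialLinearGroup (Fin 3) F, orderOf x = 2 →
      ∃ a : Matrix.SpecialLinearGroup (Fin 3) F,
        QuotientGroup.mk' (Subgroup.center (Matrix.SpecialLinearGroup (Fin 3) F)) a = x ∧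
        ((a : Matrix (Fin 3) (Fin 3) F) - 1) * ((a : Matrix (Fin 3) (Fin 3) F) - 1) = 0 ∧
        ((a : Matrix (Fin 3) (Fin 3) F) - 1).rank = 1 := by
    intro x hx
    obtain ⟨a, rfl⟩ := QuotientGroup.mk'_surjective _ x
    have hx2 : (QuotientGroup.mk' (Subgroup.center (Matrix.SpecialLinearGroup (Fin 3) F)) a) ^ 2
        = 1 := by rw [← hx]; exact pow_orderOf_eq_one _
    have hz : a ^ 2 ∈ Subgroup.center (Matrix.SpecialLinearGroup (Fin 3) F) := by
      rw [← map_pow] at hx2
      exact (QuotientGroup.eq_one_iff _).mp hx2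
    have hz3 : (a ^ 2) ^ 3 = 1 := by
      rw [Matrix.SpecialLinearGroup.mem_center_iff] at hz
      obtain ⟨r, hr, hs⟩ := hz
      apply Subtype.ext
      rw [Matrix.SpecialLinearGroup.coe_pow, ← hs, ← map_pow]
      rw [Fintype.card_fin] at hr
      rw [hr, map_one, Matrix.SpecialLinearGroup.coe_one]
    have hc2 : (a ^ 3) ^ 2 = 1 := by rw [← pow_mul, mul_comm, pow_mul, hz3]
    have hmk : QuotientGroup.mk' (Subgroup.center (Matrix.SpecialLinearGroup (Fin 3) F)) (a ^ 3)
        = QuotientGroup.mk' (Subgroup.center (Matrix.SpecialLinearGroup (Fin 3) F)) a := by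
      rw [map_pow, pow_succ, hx2, one_mul]
    obtain ⟨c, hc⟩ : ∃ c, c = a ^ 3 := ⟨_, rfl⟩
    rw [← hc] at hc2 hmk
    have h2 : (c : Matrix (Fin 3) (Fin 3) F) * (c : Matrix (Fin 3) (Fin 3) F) = 1 := by
      have := congrArg (fun x : Matrix.SpecialLinearGroup (Fin 3) F =>
        (x : Matrix (Fin 3) (Fin 3) F)) hc2
      simpa [pow_two] using this
    have h3 : (2 : F) = 0 := CharP.cast_eq_zero F 2
    have h4 : ((c : Matrix (Fin 3) (Fin 3) F) - 1) * ((c : Matrix (Fin 3) (Fin 3) F) - 1) = 0 := by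
      rw [mul_sub, sub_mul, sub_mul, h2, mul_one, one_mul, one_mul]
      have : (1 : Matrix (Fin 3) (Fin 3) F) - (c : Matrix (Fin 3) (Fin 3) F) -
          ((c : Matrix (Fin 3) (Fin 3) F) - 1) =
          (2 : F) • ((1 : Matrix (Fin 3) (Fin 3) F) - (c : Matrix (Fin 3) (Fin 3) F)) := by
        rw [two_smul]; abel
      rw [this, h3, zero_smul]
    refine ⟨c, hmk, h4, ?_⟩
    have h6 := H6.sqzero_two_mul_le (Matrix.toLin' ((c : Matrix (Fin 3) (Fin 3) F) - 1))
      (by rw [Module.End.mul_eq_comp, ← Matrix.toLin'_mul, h4, map_zero])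
    rw [H6.finrank_range_toLin', Module.finrank_fin_fun] at h6
    have h7 : ((c : Matrix (Fin 3) (Fin 3) F) - 1).rank ≠ 0 := by
      intro h0
      replace h0 := H6.eq_zero_of_rank_eq_zero _ h0
      have : c = 1 := by
        apply Subtype.ext
        rw [Matrix.SpecialLinearGroup.coe_one]
        exact sub_eq_zero.mp h0
      rw [this, map_one] at hmk
      rw [← hmk, orderOf_one] at hx
      omega
    omega
  obtain ⟨a, rfl, ha, har⟩ := key x hx
  obtain ⟨b, rfl, hb, hbr⟩ := key y hy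
  apply MonoidHom.map_isConj
  apply H6.SL_isConj_of_sqzero a b ha hb (by rw [har, hbr])
  left
  rw [har]
  norm_num

end Cfsg.Agent.S0820
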