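import Cfsg.Statements.S0828
import Cfsg.Agent.Lib_helper6_AltCount

set_option autoImplicit false
open Cfsg

namespace Cfsg.Agent.S0828

theorem exists_plane {F : Type*} [Field F] : ∃ W : Submodule F (Fin 2 ⊕ Fin 2 → F),
    Module.finrank F W = 2 ∧ ∀ u ∈ W, ∀ v ∈ W, Cfsg.Agent.H6.sympB 2 F u v = 0 := by
  classical
  set u1 : Fin 2 ⊕ Fin 2 → F := Pi.single (Sum.inl 0) 1 with hu1
  set u2 : Fin 2 ⊕ Fin 2 → F := Pi.single (Sum.inl 1) 1 with hu2
  have hs : ∀ i j : Fin 2, Cfsg.Agent.H6.sympB 2 F (Pi.single (Sum.inl i) 1)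
      (Pi.single (Sum.inl j) 1) = 0 := by
    intro i j
    rw [Cfsg.Agent.H6.sympB_apply, Cfsg.Agent.H6.sympForm_single_inl]
    simp
  have hu10 : u1 ≠ 0 := Pi.single_ne_zero_iff.2 one_ne_zero
  have hu2not : u2 ∉ Submodule.span F {u1} := by
    intro h
    obtain ⟨c, hc⟩ := Submodule.mem_span_singleton.mp h
    have := congrFun hc (Sum.inl 1)
    simp [hu1, hu2] at this
  refine ⟨Submodule.span F {u1} ⊔ Submodule.span F {u2}, ?_, ?_⟩
  · rw [Submodule.finrank_sup_span_singleton hu2not, finrank_span_singleton hu10]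
  · intro u hu v hv
    obtain ⟨a, ha, c, hc, rfl⟩ := Submodule.mem_sup.mp hu
    obtain ⟨a', ha', c', hc', rfl⟩ := Submodule.mem_sup.mp hv
    obtain ⟨s, rfl⟩ := Submodule.mem_span_singleton.mp ha
    obtain ⟨t, rfl⟩ := Submodule.mem_span_singleton.mp hc
    obtain ⟨s', rfl⟩ := Submodule.mem_span_singleton.mp ha'
    obtain ⟨t', rfl⟩ := Submodule.mem_span_singleton.mp hc'
    simp only [map_add, LinearMap.add_apply, map_smul, LinearMap.smul_apply, hu1, hu2, hs,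
      smul_zero, add_zero]


/-- The symplectic generalised quadrangle over a field with q elements: the number of 2-dimensional subspaces of F^4 on which the symplectic form vanishes is (q + 1)(q² + 1), and every non-zero vector lies in exactly q + 1 of them. -/
theorem result {F : Type*} [Field F] [Fintype F] {q : ℕ} (hF : Fintype.card F = q) : Nat.card {W : Submodule F (Fin 2 ⊕ Fin 2 → F) // Module.finrank F W = 2 ∧ ∀ u ∈ W, ∀ v ∈ W, Cfsg.sympForm 2 F u v = 0} = (q + 1) * (q ^ 2 + 1) ∧ ∀ v : Fin 2 ⊕ Fin 2 → F, v ≠ 0 → Nat.card {W : Submodule F (Fin 2 ⊕ Fin 2 → F) // Module.finrank F W = 2 ∧ v ∈ W ∧ ∀ u ∈ W, ∀ w ∈ W, Cfsg.sympForm 2 F u w = 0} = q + 1 := by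
  open Cfsg.Agent.H6 in
  have hq : 2 ≤ q := by rw [← hF]; exact Fintype.one_lt_card
  have hA : (sympB 2 F).IsAlt := sympB_isAlt
  have hB : (sympB 2 F).Nondegenerate := sympB_nondegenerate
  have hdim : Module.finrank F (Fin 2 ⊕ Fin 2 → F) = 2 * 2 := by simp
  have hqF : Nat.card F = q := by rw [Nat.card_eq_fintype_card, hF]
  obtain ⟨r, rfl⟩ : ∃ r, q = r + 2 := ⟨q - 2, by omega⟩
  have part1 : Nat.card {W : Submodule F (Fin 2 ⊕ Fin 2 → F) // Module.finrank F W = 2 ∧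
      ∀ u ∈ W, ∀ v ∈ W, sympB 2 F u v = 0} = (r + 2 + 1) * ((r + 2) ^ 2 + 1) := by
    obtain ⟨W, hW2, hW⟩ := exists_plane (F := F)
    have h := Alt.card_Isom_eq_card_isotropic_mul hB hA W hW hW2
    rw [Alt.card_Isom hB hA 2 hdim, Alt.card_Stab_isotropic hB hA W hW 2 2 hdim hW2 le_rfl, hqF] at h
    simp only [Finset.prod_range_succ, Finset.prod_range_zero, Fin.prod_univ_two, Nat.reduceMul,
      Nat.reduceSub, Nat.reduceAdd, Nat.reduceDiv, Nat.reducePow, Fin.val_zero, Fin.val_one,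
      pow_zero, pow_one, one_mul, mul_one, mul_zero, add_zero, zero_add] at h
    have e1 : (r + 2) ^ 2 - 1 = (r + 1) * (r + 3) := by
      have : (r + 2) ^ 2 = (r + 1) * (r + 3) + 1 := by ring
      omega
    have e2 : (r + 2) ^ 4 - 1 = (r + 1) * (r + 3) * ((r + 2) ^ 2 + 1) := by
      have : (r + 2) ^ 4 = (r + 1) * (r + 3) * ((r + 2) ^ 2 + 1) + 1 := by ring
      omega
    have e3 : (r + 2) ^ 2 - (r + 2) = (r + 2) * (r + 1) := by
      have : (r + 2) ^ 2 = (r + 2) * (r + 1) + (r + 2) := by ring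
      omega
    rw [e1, e2, e3] at h
    have hpos : 0 < (r + 2) ^ 3 * ((r + 1) * (r + 3) * ((r + 2) * (r + 1))) := by positivity
    apply Nat.eq_of_mul_eq_mul_right hpos
    rw [← h]
    ring
  have conv1 : Nat.card {W : Submodule F (Fin 2 ⊕ Fin 2 → F) // Module.finrank F W = 2 ∧
      ∀ u ∈ W, ∀ v ∈ W, Cfsg.sympForm 2 F u v = 0} = Nat.card {W : Submodule F (Fin 2 ⊕ Fin 2 → F) //
      Module.finrank F W = 2 ∧ ∀ u ∈ W, ∀ v ∈ W, sympB 2 F u v = 0} := by
    simp only [sympB_apply]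
  refine ⟨by rw [conv1, part1], ?_⟩
  intro v hv
  have h := Alt.card_through_mul hB hA hv 2
  rw [part1, Module.natCard_eq_pow_finrank (K := F), hdim, hqF] at h
  simp only [sympB_apply] at h
  have e1 : (r + 2) ^ 2 - 1 = (r + 1) * (r + 3) := by
    have : (r + 2) ^ 2 = (r + 1) * (r + 3) + 1 := by ring
    omega
  have e2 : (r + 2) ^ (2 * 2) - 1 = (r + 1) * (r + 3) * ((r + 2) ^ 2 + 1) := by
    have : (r + 2) ^ (2 * 2) = (r + 1) * (r + 3) * ((r + 2) ^ 2 + 1) + 1 := by ring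
    omega
  rw [e1, e2] at h
  have hpos : 0 < (r + 1) * (r + 3) * ((r + 2) ^ 2 + 1) := by positivity
  apply Nat.eq_of_mul_eq_mul_left hpos
  rw [h]
  ring

end Cfsg.Agent.S0828
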