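import Cfsg.Statements.S0829
import Cfsg.Agent.Lib_helper6_HermLines

set_option autoImplicit false
open Cfsg

namespace Cfsg.Agent.S0829

/-- The unitary quadrangle of PSU_4(q): with |F| = q², the number of 2-dimensional subspaces of F^4 on which the Hermitian form Σ x_i y_i^q vanishes is (q + 1)(q³ + 1). -/
theorem result {F : Type*} [Field F] [Fintype F] {q : ℕ} (hF : Fintype.card F = q ^ 2) : Nat.card {W : Submodule F (Fin 4 → F) // Module.finrank F W = 2 ∧ ∀ u ∈ W, ∀ v ∈ W, Cfsg.hermForm 4 F q u v = 0} = (q + 1) * (q ^ 3 + 1) := by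
  have hq := Cfsg.Agent.H6.two_le_of_card_sq hF
  have h := Cfsg.Agent.H6.card_isotropic_planes_mul hF (n := 4) le_rfl
  have e1 : Even 2 := by decide
  have e2 : ¬ Even 1 := by decide
  have e3 : ¬ Even 3 := by decide
  have e4 : Even 4 := by decide
  simp only [Finset.prod_range_succ, Finset.prod_range_zero, Fin.prod_univ_two,
    Cfsg.Agent.H6.Herm.N1, Nat.reduceMul, Nat.reduceSub, Nat.reduceAdd, e1, e2, e3, e4, if_true,
    if_false, Fin.val_zero, Fin.val_one, pow_zero, pow_one, one_mul, mul_one] at h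
  have h1 : (q ^ 2) ^ 2 - q ^ 2 = q ^ 2 * (q ^ 2 - 1) := by
    rw [Nat.mul_sub, mul_one, ← sq]
  have h2 : (q ^ 2) ^ 2 = q ^ 4 := by ring
  rw [h1, h2] at h
  have hpos : 0 < q ^ 6 * (q ^ 4 - 1) * (q ^ 2 - 1) := by
    have a1 : 1 < q ^ 4 := Nat.one_lt_pow (by norm_num) (by omega)
    have a2 : 1 < q ^ 2 := Nat.one_lt_pow (by norm_num) (by omega)
    have a3 : 0 < q ^ 6 := by positivity
    exact Nat.mul_pos (Nat.mul_pos a3 (by omega)) (by omega)
  apply Nat.eq_of_mul_eq_mul_right hpos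
  generalize q ^ 4 - 1 = A at h ⊢
  generalize q ^ 2 - 1 = C at h ⊢
  generalize Nat.card _ = X at h ⊢
  linear_combination h

end Cfsg.Agent.S0829
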