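import Cfsg.Statements.S0831
import Cfsg.Agent.Lib_helper6_DicksonMat

set_option autoImplicit false
open Cfsg

namespace Cfsg.Agent.S0831

/-- The two families of maximal totally singular subspaces of the hyperbolic quadric: for the form Σ x_i y_i on F^(2m), m ≥ 1, and m-dimensional subspaces U, W, X on which it vanishes, the parities of m − dim(U ∩ W), m − dim(W ∩ X) and m − dim(U ∩ X) sum to an even number (so 'even codimension of the intersection' is an equivalence relation), and there exist two such subspaces meeting in codimension 1 (so there are exactly two classes). -/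
theorem result {F : Type*} [Field F] (m : ℕ) (hm : 1 ≤ m) : (∀ U W X : Submodule F (Fin m ⊕ Fin m → F), (Module.finrank F U = m ∧ ∀ w ∈ U, Cfsg.quadFormPlus m F w = 0) → (Module.finrank F W = m ∧ ∀ w ∈ W, Cfsg.quadFormPlus m F w = 0) → (Module.finrank F X = m ∧ ∀ w ∈ X, Cfsg.quadFormPlus m F w = 0) → Even ((m - Module.finrank F ↥(U ⊓ W)) + (m - Module.finrank F ↥(W ⊓ X)) + (m - Module.finrank F ↥(U ⊓ X)))) ∧ ∃ U W : Submodule F (Fin m ⊕ Fin m → F), (Module.finrank F U = m ∧ ∀ w ∈ U, Cfsg.quadFormPlus m F w = 0) ∧ (Module.finrank F W = m ∧ ∀ w ∈ W, Cfsg.quadFormPlus m F w = 0) ∧ Module.finrank F ↥(U ⊓ W) + 1 = m := by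
  classical
  have hQ := H6.Quad.nondeg_qPlus (F := F) m
  have hV : Module.finrank F (Fin m ⊕ Fin m → F) = 2 * m := by simp; ring
  constructor
  · intro U W X hU hW hX
    exact H6.Quad.parity hQ hV hU.1 (fun u hu => by rw [H6.Quad.qPlus_apply, hU.2 u hu])
      hW.1 (fun u hu => by rw [H6.Quad.qPlus_apply, hW.2 u hu])
      hX.1 (fun u hu => by rw [H6.Quad.qPlus_apply, hX.2 u hu])
  · set u : Fin m ⊕ Fin m → F := Pi.single (Sum.inl ⟨0, hm⟩) 1 + Pi.single (Sum.inr ⟨0, hm⟩) 1 with hu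
    have hQu : H6.Quad.qPlus m F u ≠ 0 := by
      rw [H6.Quad.qPlus_apply]
      simp [Cfsg.quadFormPlus, hu, Pi.single_apply]
    have hU0 : ∀ u ∈ LinearMap.ker (LinearMap.funLeft F F (Sum.inr : Fin m → Fin m ⊕ Fin m)),
        H6.Quad.qPlus m F u = 0 := fun u hu => by
      rw [H6.Quad.qPlus_apply, H6.Quad.singular_ker_inr m u hu]
    refine ⟨LinearMap.ker (LinearMap.funLeft F F (Sum.inr : Fin m → Fin m ⊕ Fin m)),
      (LinearMap.ker (LinearMap.funLeft F F (Sum.inr : Fin m → Fin m ⊕ Fin m))).map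
        ((H6.Quad.Rf hQ u hQu).1 : (Fin m ⊕ Fin m → F) →ₗ[F] (Fin m ⊕ Fin m → F)),
      ⟨H6.Quad.finrank_ker_inr m, H6.Quad.singular_ker_inr m⟩, ⟨?_, ?_⟩, ?_⟩
    · rw [H6.Quad.finrank_map_isom, H6.Quad.finrank_ker_inr]
    · intro w hw
      rw [← H6.Quad.qPlus_apply]
      exact H6.Quad.singular_map (H6.Quad.Rf hQ u hQu).2 hU0 w hw
    · exact H6.Quad.finrank_inf_map_Rf hQ hV _ (H6.Quad.finrank_ker_inr m) hU0 u hQu

end Cfsg.Agent.S0831
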