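import Cfsg.Statements.S0832
import Cfsg.Agent.Lib_helper6_LagTwo
import Cfsg.Agent.Lib_helper6_DicksonMat

set_option autoImplicit false
open Cfsg

namespace Cfsg.Agent.S0832

/-- For the form Σ x_i y_i on F^(2m) over a finite field, m ≥ 1: an (m−1)-dimensional subspace on which the form vanishes is contained in exactly two m-dimensional subspaces on which it vanishes. -/
theorem result {F : Type*} [Field F] [Finite F] (m : ℕ) (hm : 1 ≤ m) (U : Submodule F (Fin m ⊕ Fin m → F)) (hU : Module.finrank F U + 1 = m ∧ ∀ u ∈ U, Cfsg.quadFormPlus m F u = 0) : Nat.card {W : Submodule F (Fin m ⊕ Fin m → F) // Module.finrank F W = m ∧ (∀ w ∈ W, Cfsg.quadFormPlus m F w = 0) ∧ U ≤ W} = 2 := by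
  obtain ⟨k, rfl⟩ : ∃ k, m = k + 1 := ⟨m - 1, by omega⟩
  have h := H6.Quad.card_lagrangians_ge (Q := H6.Quad.qPlus (k + 1) F) (H6.Quad.nondeg_qPlus (k + 1))
    (m := k) (by simp; omega) _ (H6.Quad.finrank_ker_inr (k + 1))
    (fun u hu => by rw [H6.Quad.qPlus_apply]; exact H6.Quad.singular_ker_inr (k + 1) u hu)
    U (by omega) (fun u hu => by rw [H6.Quad.qPlus_apply]; exact hU.2 u hu)
  simp only [H6.Quad.qPlus_apply] at h
  exact h

end Cfsg.Agent.S0832
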