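import Cfsg.Statements.S0833
import Cfsg.Agent.Lib_helper6_AltBasis

set_option autoImplicit false
open Cfsg

namespace Cfsg.Agent.S0833

/-- If B₁, B₂ are non-degenerate alternating forms on U (dim 2k) and W (dim 2l), then B₁ ⊗ B₂ on U ⊗ W is symmetric, non-degenerate, and vanishes identically on some subspace of dimension 2kl (half of dim U ⊗ W). -/
theorem result {F U W : Type*} [Field F] [Fintype F] [AddCommGroup U] [Module F U] [FiniteDimensional F U] [AddCommGroup W] [Module F W] [FiniteDimensional F W] (B₁ : LinearMap.BilinForm F U) (B₂ : LinearMap.BilinForm F W) (h₁ : B₁.Nondegenerate) (h₂ : B₂.Nondegenerate) (hA₁ : B₁.IsAlt) (hA₂ : B₂.IsAlt) (k l : ℕ) (hU : Module.finrank F U = 2 * k) (hW : Module.finrank F W = 2 * l) : (B₁.tmul B₂).IsSymm ∧ (B₁.tmul B₂).Nondegenerate ∧ (∃ X : Submodule F (TensorProduct F U W), Module.finrank F X = 2 * k * l ∧ ∀ x ∈ X, ∀ y ∈ X, (B₁.tmul B₂) x y = 0) := by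
  classical
  have hsw₁ : ∀ x y, B₁ x y = - B₁ y x := fun x y => H6.Alt.swap hA₁ x y
  have hsw₂ : ∀ x y, B₂ x y = - B₂ y x := fun x y => H6.Alt.swap hA₂ x y
  have hsymm : ∀ x y, (B₁.tmul B₂) x y = (B₁.tmul B₂) y x := by
    have : B₁.tmul B₂ = (B₁.tmul B₂).flip := by
      apply TensorProduct.ext'
      intro x₁ x₂
      apply TensorProduct.ext'
      intro y₁ y₂
      simp only [LinearMap.flip_apply, LinearMap.BilinForm.tensorDistrib_tmul, smul_eq_mul]
      rw [hsw₁ x₁ y₁, hsw₂ x₂ y₂]; ring
    intro x y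
    conv_lhs => rw [this]
    rfl
  have hform : B₁.tmul B₂ = ((TensorProduct.congr (B₁.toDual h₁) (B₂.toDual h₂)).trans
      (TensorProduct.dualDistribEquiv F U W)).toLinearMap := by
    apply TensorProduct.ext'
    intro x₁ x₂
    apply TensorProduct.ext'
    intro y₁ y₂
    simp [LinearMap.BilinForm.toDual_def, mul_comm]
  have hleft : ∀ x, (∀ y, (B₁.tmul B₂) x y = 0) → x = 0 := by
    intro x hx
    have h0 : (B₁.tmul B₂) x = 0 := LinearMap.ext hx
    rw [hform] at h0
    simpa using h0
  refine ⟨⟨hsymm⟩, ⟨hleft, fun y hy => hleft y fun x => by rw [hsymm]; exact hy x⟩, ?_⟩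
  obtain ⟨m, k', b, -, hee, -, hrad⟩ := H6.Alt.exists_symplectic_basis hA₁
  have hk' : k' = 0 := by
    by_contra hk
    obtain ⟨j⟩ : Nonempty (Fin k') := ⟨⟨0, Nat.pos_of_ne_zero hk⟩⟩
    exact b.ne_zero (Sum.inr j) (h₁.1 _ (hrad j))
  have hm : m = k := by
    have := Module.finrank_eq_card_basis b
    simp only [Fintype.card_sum, Fintype.card_fin] at this
    omega
  set bW := Module.finBasis F W with hbW
  set g : Fin m × Fin (Module.finrank F W) → TensorProduct F U W :=
    fun p => b (Sum.inl (Sum.inl p.1)) ⊗ₜ[F] bW p.2 with hg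
  have hli : LinearIndependent F g := by
    have h := (b.tensorProduct bW).linearIndependent.comp
      (fun p : Fin m × Fin (Module.finrank F W) => ((Sum.inl (Sum.inl p.1) : (Fin m ⊕ Fin m) ⊕ Fin k'), p.2))
      (by
        intro p q hpq
        simp only [Prod.mk.injEq, Sum.inl.injEq] at hpq
        exact Prod.ext hpq.1 hpq.2)
    have h2 : g = (⇑(b.tensorProduct bW) ∘ fun p : Fin m × Fin (Module.finrank F W) =>
        ((Sum.inl (Sum.inl p.1) : (Fin m ⊕ Fin m) ⊕ Fin k'), p.2)) := by
      funext p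
      simp [hg, Module.Basis.tensorProduct_apply]
    rw [h2]
    exact h
  refine ⟨Submodule.span F (Set.range g), ?_, ?_⟩
  · rw [finrank_span_eq_card hli]
    simp only [Fintype.card_prod, Fintype.card_fin, hW, hm]
    ring
  · intro x hx y hy
    induction hx using Submodule.span_induction with
    | mem x hx =>
      obtain ⟨p, rfl⟩ := hx
      induction hy using Submodule.span_induction with
      | mem y hy =>
        obtain ⟨q, rfl⟩ := hy
        simp only [hg, LinearMap.BilinForm.tensorDistrib_tmul, hee, smul_zero]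
      | zero => simp
      | add y z _ _ h1 h2 => rw [map_add, h1, h2, add_zero]
      | smul c y _ h1 => rw [map_smul, h1, smul_zero]
    | zero => simp
    | add x z _ _ h1 h2 => rw [map_add, LinearMap.add_apply, h1, h2, add_zero]
    | smul c x _ h1 => rw [map_smul, LinearMap.smul_apply, h1, smul_zero]

end Cfsg.Agent.S0833
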