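import Cfsg.Statements.S0835
import Cfsg.Agent.Lib_helper6_Disc3

set_option autoImplicit false
open Cfsg

namespace Cfsg.Agent.S0835

/-- Over a finite field with 2 ≠ 0: if B₁ on U (dim 2k, k ≥ 1) is non-degenerate symmetric of minus type (no totally isotropic k-subspace) and B₂ on W (dim 2l + 1) is non-degenerate symmetric, then B₁ ⊗ B₂ (dimension 2k(2l+1)) admits no totally isotropic subspace of dimension k(2l+1) (minus type). -/
theorem result {F U W : Type*} [Field F] [Fintype F] [AddCommGroup U] [Module F U] [FiniteDimensional F U] [AddCommGroup W] [Module F W] [FiniteDimensional F W] (h2 : (2 : F) ≠ 0) (B₁ : LinearMap.BilinForm F U) (B₂ : LinearMap.BilinForm F W) (h₁ : B₁.Nondegenerate) (h₂ : B₂.Nondegenerate) (hS₁ : B₁.IsSymm) (hS₂ : B₂.IsSymm) (k l : ℕ) (hk : 1 ≤ k) (hU : Module.finrank F U = 2 * k) (hW : Module.finrank F W = 2 * l + 1) (hm₁ : ¬ (∃ X : Submodule F (U), Module.finrank F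 X = k ∧ ∀ x ∈ X, ∀ y ∈ X, (B₁) x y = 0)) : ¬ (∃ X : Submodule F (TensorProduct F U W), Module.finrank F X = k * (2 * l + 1) ∧ ∀ x ∈ X, ∀ y ∈ X, (B₁.tmul B₂) x y = 0) := by
  classical
  rintro ⟨X, hX, hiso⟩
  apply hm₁
  apply H6.Quad.exists_lagrangian_of_isSquare h2 B₁ hS₁ h₁ hU (Module.finBasisOfFinrankEq F U hU)
  have hsq := H6.Quad.isSquare_of_lagrangian (B₁.tmul B₂) (H6.Quad.isSymm_tmul hS₁ hS₂)
    (by rw [Module.finrank_tensorProduct, hU, hW]; ring) X hX hiso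
    ((Module.finBasisOfFinrankEq F U hU).tensorProduct (Module.finBasisOfFinrankEq F W hW))
  rw [H6.Quad.det_gram_tmul, Fintype.card_fin, Fintype.card_fin] at hsq
  set d₁ := (H6.Quad.gram B₁ (Module.finBasisOfFinrankEq F U hU)).det with hd₁
  set d₂ := (H6.Quad.gram B₂ (Module.finBasisOfFinrankEq F W hW)).det with hd₂
  have hd₁0 : d₁ ≠ 0 := H6.Quad.det_gram_ne_zero h₁ _
  have hd₂0 : d₂ ≠ 0 := H6.Quad.det_gram_ne_zero h₂ _
  have e : (-1 : F) ^ (k * (2 * l + 1)) * (d₁ ^ (2 * l + 1) * d₂ ^ (2 * k)) =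
      (((-1) ^ (k * l) * d₁ ^ l * d₂ ^ k) * ((-1) ^ (k * l) * d₁ ^ l * d₂ ^ k)) *
        ((-1) ^ k * d₁) := by ring
  rw [e] at hsq
  have hne : ((-1 : F) ^ (k * l) * d₁ ^ l * d₂ ^ k) ≠ 0 :=
    mul_ne_zero (mul_ne_zero (pow_ne_zero _ (neg_ne_zero.mpr one_ne_zero)) (pow_ne_zero _ hd₁0))
      (pow_ne_zero _ hd₂0)
  exact (H6.Quad.isSquare_mul_iff_of_sq (mul_ne_zero hne hne) ⟨_, rfl⟩).mp hsq

end Cfsg.Agent.S0835
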