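import Cfsg.Statements.S0837
import Cfsg.Agent.Lib_helper6_GUStab

set_option autoImplicit false
open Cfsg

namespace Cfsg.Agent.S0837

/-- If W ≤ F^n (|F| = q²) is a k-dimensional subspace on which the Hermitian form Σ x_i y_i^q is non-degenerate, then the stabiliser of W in GU_n(q) is isomorphic to GU_k(q) × GU_(n−k)(q). -/
theorem result {F : Type*} [Field F] [Fintype F] {q : ℕ} (hF : Fintype.card F = q ^ 2) (n k : ℕ) (hk : k ≤ n) (W : Submodule F (Fin n → F)) (hWk : Module.finrank F W = k) (hW : ∀ u ∈ W, (∀ v ∈ W, Cfsg.hermForm n F q u v = 0) → u = 0) : Nonempty (↥((Cfsg.stabilizing (Cfsg.glToMat (Fin n) F) (W : Set (Fin n → F))).subgroupOf (Cfsg.GU n F q)) ≃* ↥(Cfsg.GU k F q) × ↥(Cfsg.GU (n - k) F q)) := by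
  open Cfsg.Agent.H6 in
  obtain ⟨e⟩ := Herm.nonempty_stabOf_mulEquiv_prod hF (fun x => rfl) (hermB_isSymm hF n)
    (hermB_nondegenerate hF n) W (fun w hw h => hW w hw h) hWk
    (l := n - k) (by simp; omega)
  exact ⟨(guStabEquiv hF n W).trans e⟩

end Cfsg.Agent.S0837
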