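import Mathlib
import Cfsg.Statements.S0841
import Mathlib
import Cfsg.Agent.Lib_helper1_MinAct

set_option autoImplicit false
open Cfsg

namespace Cfsg.Agent.S0841

open Cfsg.Agent.H1
open scoped commutatorElement

/-- If the commutator subgroup of G lies in the centre, then for all x, y in G and every natural number n one has (x * y) ^ n = x ^ n * y ^ n * c ^ (n * (n - 1) / 2) with c = y⁻¹ * x⁻¹ * y * x. -/
theorem result {G : Type*} [Group G] (hG : commutator G ≤ Subgroup.center G) (x y : G) (n : ℕ) : (x * y) ^ n = x ^ n * y ^ n * (y⁻¹ * x⁻¹ * y * x) ^ (n * (n - 1) / 2) := by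
  set c := y⁻¹ * x⁻¹ * y * x with hc
  have hcm : c ∈ Subgroup.center G := by
    apply hG
    have : c = ⁅y⁻¹, x⁻¹⁆ := by rw [hc, commutatorElement_def]; group
    rw [this]
    exact Subgroup.commutator_mem_commutator (Subgroup.mem_top _) (Subgroup.mem_top _)
  have hcz : ∀ z : G, Commute c z := fun z => (Subgroup.mem_center_iff.mp hcm z).symm
  have hba : y * x = c * (x * y) := by
    rw [(hcz (x * y)).eq, hc]; group
  have := (mul_pow_of_central_comm (hcz x) (hcz y) hba n).2
  rw [this, Nat.choose_two_right]

end Cfsg.Agent.S0841
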