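import Cfsg.Statements.S0849
import Mathlib
import Cfsg.Agent.Lib_helper4_CharH

set_option autoImplicit false
open Cfsg

namespace Cfsg.Agent.S0849

open Cfsg.Agent.H4


/-- Let H be a subgroup of a finite group G and S a subset of H that is mapped to itself under conjugation by H, is disjoint from its conjugate by any element outside H, and is closed under inverses. Let φ be a class function of H vanishing on H away from S, and let u, v be involutions of G. Then the sum of the induced function of φ over all products a * b with a conjugate to u and b conjugate to v equals the index of H times the sum of φ (a * b) over such pairs with a and b in H. -/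
theorem result {G : Type*} [Group G] [Fintype G] (H : Subgroup G) (S : Set G) (hSH : S ⊆ H) (hHS : ∀ h ∈ H, ∀ s ∈ S, h * s * h⁻¹ ∈ S) (hTI : ∀ g : G, g ∉ H → ∀ s ∈ S, g * s * g⁻¹ ∉ S) (hinv : ∀ s ∈ S, s⁻¹ ∈ S) (φ : H → ℂ) (hφ : Cfsg.IsClassFunction H φ) (hφS : ∀ x : H, (x : G) ∉ S → φ x = 0) (u v : G) (hu : orderOf u = 2) (hv : orderOf v = 2) : ∑ᶠ p ∈ {p : G × G | IsConj u p.1 ∧ IsConj v p.2}, Cfsg.indFun H φ (p.1 * p.2) = (H.index : ℂ) * ∑ᶠ p ∈ {p : H × H | IsConj u (p.1 : G) ∧ IsConj v (p.2 : G)}, φ (p.1 * p.2) := by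
  classical
  haveI : Fintype H := Fintype.ofFinite _
  set A : Finset (G × G) := Finset.univ.filter (fun p => IsConj u p.1 ∧ IsConj v p.2) with hA
  set AH : Finset (H × H) := Finset.univ.filter (fun p => IsConj u (p.1 : G) ∧ IsConj v (p.2 : G))
    with hAH
  have hA' : {p : G × G | IsConj u p.1 ∧ IsConj v p.2} = ↑A := by ext; simp [hA]
  have hAH' : {p : H × H | IsConj u (p.1 : G) ∧ IsConj v (p.2 : G)} = ↑AH := by ext; simp [hAH]
  rw [hA', hAH', finsum_mem_coe_finset, finsum_mem_coe_finset]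
  set φ0 := extendByZero H φ with hφ0
  -- step 1
  have h1 : ∀ x : G, ∑ p ∈ A, φ0 (x⁻¹ * (p.1 * p.2) * x) = ∑ p ∈ A, φ0 (p.1 * p.2) := by
    intro x
    apply Finset.sum_bij (fun (p : G × G) _ => ((x⁻¹ * p.1 * x, x⁻¹ * p.2 * x) : G × G))
    · intro p hp
      simp only [hA, Finset.mem_filter, Finset.mem_univ, true_and] at hp ⊢
      refine ⟨hp.1.trans (isConj_iff.mpr ⟨x⁻¹, by simp⟩), hp.2.trans (isConj_iff.mpr ⟨x⁻¹, by simp⟩)⟩
    · intro p _ q _ h
      simp only [Prod.mk.injEq, mul_left_inj, mul_right_inj] at h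
      exact Prod.ext h.1 h.2
    · intro q hq
      simp only [hA, Finset.mem_filter, Finset.mem_univ, true_and] at hq
      refine ⟨(x * q.1 * x⁻¹, x * q.2 * x⁻¹), ?_, ?_⟩
      · simp only [hA, Finset.mem_filter, Finset.mem_univ, true_and]
        exact ⟨hq.1.trans (isConj_iff.mpr ⟨x, rfl⟩), hq.2.trans (isConj_iff.mpr ⟨x, rfl⟩)⟩
      · apply Prod.ext <;> simp [mul_assoc]
    · intro p _
      congr 1
      group
  have h2 : ∑ p ∈ A, indFun H φ (p.1 * p.2) = (H.index : ℂ) * ∑ p ∈ A, φ0 (p.1 * p.2) := by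
    unfold indFun
    rw [← Finset.mul_sum, Finset.sum_comm]
    simp only [← hφ0, h1, Finset.sum_const, Finset.card_univ, nsmul_eq_mul]
    have h3 : (H.index : ℂ) * Nat.card H = Fintype.card G := by
      rw [← Nat.card_eq_fintype_card]
      exact_mod_cast H.index_mul_card
    have hne : (Nat.card H : ℂ) ≠ 0 := by exact_mod_cast Nat.card_pos.ne'
    rw [← h3]
    field_simp
  rw [h2]
  congr 1
  -- step 2
  let emb : H × H ↪ G × G :=
    ⟨fun q => ((q.1 : G), (q.2 : G)), fun a b h => by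
      simp only [Prod.mk.injEq] at h
      exact Prod.ext (Subtype.ext h.1) (Subtype.ext h.2)⟩
  have h4 : ∑ q ∈ AH, φ (q.1 * q.2) = ∑ p ∈ AH.map emb, φ0 (p.1 * p.2) := by
    rw [Finset.sum_map]
    apply Finset.sum_congr rfl
    intro q _
    show φ (q.1 * q.2) = extendByZero H φ ((q.1 : G) * (q.2 : G))
    rw [extendByZero_mem H φ (H.mul_mem q.1.2 q.2.2)]
    rfl
  rw [h4]
  symm
  apply Finset.sum_subset
  · intro p hp
    simp only [Finset.mem_map, hAH, Finset.mem_filter, Finset.mem_univ, true_and] at hp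
    obtain ⟨q, hq, rfl⟩ := hp
    simp only [hA, Finset.mem_filter, Finset.mem_univ, true_and]
    exact hq
  · intro p hp hnp
    by_contra hne
    apply hnp
    simp only [hA, Finset.mem_filter, Finset.mem_univ, true_and] at hp
    have hsH : p.1 * p.2 ∈ H := by
      by_contra h
      exact hne (extendByZero_not_mem H φ h)
    have hsS : p.1 * p.2 ∈ S := by
      by_contra h
      apply hne
      rw [hφ0, extendByZero_mem H φ hsH]
      exact hφS ⟨_, hsH⟩ h
    have ho1 : p.1 * p.1 = 1 := by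
      obtain ⟨c, hc⟩ := isConj_iff.mp hp.1
      have : u * u = 1 := by rw [← pow_two, ← hu, pow_orderOf_eq_one]
      rw [← hc]
      calc c * u * c⁻¹ * (c * u * c⁻¹) = c * (u * u) * c⁻¹ := by group
        _ = 1 := by rw [this]; group
    have ho2 : p.2 * p.2 = 1 := by
      obtain ⟨c, hc⟩ := isConj_iff.mp hp.2
      have : v * v = 1 := by rw [← pow_two, ← hv, pow_orderOf_eq_one]
      rw [← hc]
      calc c * v * c⁻¹ * (c * v * c⁻¹) = c * (v * v) * c⁻¹ := by group
        _ = 1 := by rw [this]; group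
    have hi1 : p.1⁻¹ = p.1 := inv_eq_of_mul_eq_one_left ho1
    have hi2 : p.2⁻¹ = p.2 := inv_eq_of_mul_eq_one_left ho2
    have h1H : p.1 ∈ H := by
      by_contra h
      apply hTI p.1 h _ hsS
      have : p.1 * (p.1 * p.2) * p.1⁻¹ = (p.1 * p.2)⁻¹ := by
        rw [mul_inv_rev, hi1, hi2, ← mul_assoc, ho1, one_mul]
      rw [this]
      exact hinv _ hsS
    have h2H : p.2 ∈ H := by
      have : p.2 = p.1⁻¹ * (p.1 * p.2) := by group
      rw [this]
      exact H.mul_mem (H.inv_mem h1H) hsH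
    simp only [Finset.mem_map, hAH, Finset.mem_filter, Finset.mem_univ, true_and]
    exact ⟨(⟨p.1, h1H⟩, ⟨p.2, h2H⟩), hp, rfl⟩

end Cfsg.Agent.S0849
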