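import Cfsg.Statements.S0850
import Mathlib
import Cfsg.Agent.Lib_lead_Fk5

set_option autoImplicit false
open Cfsg

namespace Cfsg.Agent.S0850

open Cfsg.Agent.H4 Cfsg.Agent.LeadBr


/-- Let K be a subgroup of the finite group G that meets each conjugate by an element outside its normalizer N trivially, is properly contained in N, and contains the centralizer of each of its non-identity elements (a T.I. subgroup with Frobenius normalizer). Then no element of N outside K is conjugate in G to an element of K, and for every class function ϑ of N that vanishes on N away from K and at the identity, the function induced from ϑ to G agrees with ϑ on all of N. -/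
theorem result {G : Type*} [Group G] [Fintype G] (K : Subgroup G) (hTI : ∀ g : G, g ∉ Subgroup.normalizer (K : Set G) → ∀ k ∈ K, g * k * g⁻¹ ∈ K → k = 1) (hlt : K < Subgroup.normalizer (K : Set G)) (hC : ∀ k ∈ K, k ≠ 1 → Subgroup.centralizer ({k} : Set G) ≤ K) : (∀ x ∈ Subgroup.normalizer (K : Set G), x ∉ K → ∀ g : G, g * x * g⁻¹ ∉ K) ∧ ∀ (ϑ : Subgroup.normalizer (K : Set G) → ℂ), Cfsg.IsClassFunction (Subgroup.normalizer (K : Set G)) ϑ → (∀ x : Subgroup.normalizer (K : Set G), (x : G) ∉ K → ϑ x = 0) → ϑ 1 = 0 → ∀ x : Subgroup.normalizer (K : Set G), Cfsg.indFun (Subgroup.normalizer (K : Set G)) ϑ x = ϑ x := by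
  classical
  refine ⟨fun x hx hxK g => tifn_not_fused K hTI hC x hx hxK g, ?_⟩
  intro ϑ hϑ hv h1 x
  by_cases hx1 : x = 1
  · rw [hx1, Subgroup.coe_one, indFun_apply_one, h1, mul_zero]
  by_cases hxK : (x : G) ∈ K
  · exact indFun_TI (K : Set G) hTI ϑ hϑ hv x hxK hx1
  · rw [hv x hxK]
    unfold indFun
    apply mul_eq_zero_of_right
    apply Finset.sum_eq_zero
    intro g _
    by_cases hm : g⁻¹ * x * g ∈ Subgroup.normalizer (K : Set G)
    · rw [extendByZero_mem _ _ hm]
      apply hv
      have := tifn_not_fused K hTI hC x x.2 hxK g⁻¹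
      simpa using this
    · exact extendByZero_not_mem _ _ hm

end Cfsg.Agent.S0850
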