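import Cfsg.Statements.S0851
import Mathlib
import Cfsg.Agent.Lib_lead_Fk2
import Cfsg.Agent.S0170

set_option autoImplicit false
open Cfsg

namespace Cfsg.Agent.S0851

open Cfsg.Agent.H4 Cfsg.Agent.LeadBr


/-- Let K be a subgroup of the finite group G that meets each conjugate by an element outside its normalizer N trivially, is properly contained in N, and contains the centralizer of each of its non-identity elements (a T.I. subgroup with Frobenius normalizer). Suppose K is abelian, let e be the index of K in N, and call an irreducible character of N relevant when it takes at some element of K a value different from its degree. Then either there is exactly one relevant character and K is an elementary abelian p-group of order e + 1 for some prime p, or there are a sign ε and an injective map f from the relevant characters to the irreducible characters of G such that inducing χ - ξ to G gives ε (f χ - f ξ) for all relevant χ and ξ. -/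
theorem result {G : Type*} [Group G] [Fintype G] (K : Subgroup G) (hTI : ∀ g : G, g ∉ Subgroup.normalizer (K : Set G) → ∀ k ∈ K, g * k * g⁻¹ ∈ K → k = 1) (hlt : K < Subgroup.normalizer (K : Set G)) (hC : ∀ k ∈ K, k ≠ 1 → Subgroup.centralizer ({k} : Set G) ≤ K) (hab : ∀ a ∈ K, ∀ b ∈ K, a * b = b * a) : (Nat.card {χ : Cfsg.IrrCharacter (Subgroup.normalizer (K : Set G)) // ∃ k : Subgroup.normalizer (K : Set G), (k : G) ∈ K ∧ (χ : ↥(Subgroup.normalizer (K : Set G)) → ℂ) k ≠ (χ : ↥(Subgroup.normalizer (K : Set G)) → ℂ) 1} = 1 ∧ ∃ p : ℕ, p.Prime ∧ Cfsg.IsElementaryAbelian p K ∧ Nat.card K = (K.subgroupOf (Subgroup.normalizer (K : Set G))).index + 1) ∨ ∃ (ε : ℂ) (f : {χ : Cfsg.IrrCharacter (Subgroup.normalizer (K : Set G)) // ∃ k : Subgroup.normalizer (K : Set G), (k : G) ∈ K ∧ (χ : ↥(Subgroup.normalizer (K : Set G)) → ℂ) k ≠ (χ : ↥(Subgroup.normalizer (K : Set G)) → ℂ) 1} → Cfsg.IrrCharacter G), (ε = 1 ∨ ε = -1) ∧ Function.Injective f ∧ ∀ χ ξ, Cfsg.indFun (Subgroup.normalizer (K : Set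 G)) ((χ.1 : ↥(Subgroup.normalizer (K : Set G)) → ℂ) - (ξ.1 : ↥(Subgroup.normalizer (K : Set G)) → ℂ)) = ε • ((f χ : G → ℂ) - (f ξ : G → ℂ)) := by
  classical
  right
  haveI := Fintype.ofFinite (Subgroup.normalizer (K : Set G))
  have hdeg : ∀ χ : {χ : Cfsg.IrrCharacter (Subgroup.normalizer (K : Set G)) // ∃ k : Subgroup.normalizer (K : Set G), (k : G) ∈ K ∧ (χ : ↥(Subgroup.normalizer (K : Set G)) → ℂ) k ≠ (χ : ↥(Subgroup.normalizer (K : Set G)) → ℂ) 1},
      (χ.1 : ↥(Subgroup.normalizer (K : Set G)) → ℂ) 1 = ((K.subgroupOf (Subgroup.normalizer (K : Set G))).index : ℂ) := by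
    intro χ
    obtain ⟨τ, hτ, _, h⟩ := tifn_struct K hC χ.1.1 χ.1.2 χ.2
    have h1 : τ 1 = 1 := irr_linear_of_comm (fun a b => by
      apply Subtype.ext
      apply Subtype.ext
      exact hab _ (Subgroup.mem_subgroupOf.mp a.2) _ (Subgroup.mem_subgroupOf.mp b.2)) hτ
    rw [h, indFun_apply_one, h1, mul_one]
  by_cases hn : 2 ≤ Nat.card {χ : Cfsg.IrrCharacter (Subgroup.normalizer (K : Set G)) // ∃ k : Subgroup.normalizer (K : Set G), (k : G) ∈ K ∧ (χ : ↥(Subgroup.normalizer (K : Set G)) → ℂ) k ≠ (χ : ↥(Subgroup.normalizer (K : Set G)) → ℂ) 1}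
  · let e := (Finite.equivFin {χ : Cfsg.IrrCharacter (Subgroup.normalizer (K : Set G)) // ∃ k : Subgroup.normalizer (K : Set G), (k : G) ∈ K ∧ (χ : ↥(Subgroup.normalizer (K : Set G)) → ℂ) k ≠ (χ : ↥(Subgroup.normalizer (K : Set G)) → ℂ) 1}).symm
    obtain ⟨ε, hε, θ, hirr, hinj, hθ⟩ := Cfsg.Agent.S0170.result (K : Set G) Subgroup.le_normalizer hTI _ hn
      (fun i => ((e i).1 : ↥(Subgroup.normalizer (K : Set G)) → ℂ)) (fun i => (e i).1.2)
      (fun i j hij => e.injective (Subtype.ext (Subtype.ext hij)))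
      (fun i x hx => tifn_vanish K hC _ (e i).1.2 (e i).2 x hx)
      (fun i j => by rw [hdeg, hdeg])
    refine ⟨ε, fun χ => ⟨θ (e.symm χ), hirr _⟩, hε, ?_, ?_⟩
    · intro a b hab'
      exact e.symm.injective (hinj (congrArg Subtype.val hab'))
    · intro χ ξ
      have := hθ (e.symm χ) (e.symm ξ)
      simp only [Equiv.apply_symm_apply] at this
      rw [indFun_sub]
      exact this
  · have hsub : Subsingleton {χ : Cfsg.IrrCharacter (Subgroup.normalizer (K : Set G)) // ∃ k : Subgroup.normalizer (K : Set G), (k : G) ∈ K ∧ (χ : ↥(Subgroup.normalizer (K : Set G)) → ℂ) k ≠ (χ : ↥(Subgroup.normalizer (K : Set G)) → ℂ) 1} :=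
      Finite.card_le_one_iff_subsingleton.mp (by omega)
    refine ⟨1, fun _ => trivIrr G, Or.inl rfl, fun a b _ => Subsingleton.elim a b, ?_⟩
    intro χ ξ
    rw [Subsingleton.elim χ ξ]
    simp [indFun_zero]

end Cfsg.Agent.S0851
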