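import Cfsg.Statements.S0861
import Cfsg.Agent.Lib_helper2_KGV

set_option autoImplicit false
set_option linter.style.haveILetI false
open Cfsg

namespace Cfsg.Agent.S0861

open Cfsg.Agent.H4
open scoped commutatorElement

/-- Let P be a normal abelian Sylow p-subgroup of the finite group G and suppose some element g of P has centralizer exactly P. Then the number of irreducible characters of G is at most the order of P, and if equality holds then G / P is abelian (the commutator subgroup lies in P). -/
theorem result {G : Type*} [Group G] [Finite G] (p : ℕ) [Fact p.Prime] (P : Sylow p G) [(P : Subgroup G).Normal] (hab : ∀ a ∈ P, ∀ b ∈ P, a * b = b * a) (g : G) (hg : g ∈ P) (hC : Subgroup.centralizer ({g} : Set G) = P) : Nat.card (Cfsg.IrrCharacter G) ≤ Nat.card P ∧ (Nat.card (Cfsg.IrrCharacter G) = Nat.card P → commutator G ≤ P) := by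
  classical
  have h1 := H2.kgv_bound p (P : Subgroup G) P.2 P.not_dvd_index hab g hg
  rw [hC, ← card_irr] at h1
  have h2 : Nat.card (ConjClasses (G ⧸ (P : Subgroup G))) ≤ Nat.card (G ⧸ (P : Subgroup G)) :=
    Nat.card_le_card_of_surjective _ ConjClasses.mk_surjective
  constructor
  · have : Nat.card (IrrCharacter G) ≤ Nat.card (P : Subgroup G) := by omega
    exact this
  · intro heq
    have heq' : Nat.card (IrrCharacter G) = Nat.card (P : Subgroup G) := heq
    have h3 : Nat.card (G ⧸ (P : Subgroup G)) = Nat.card (ConjClasses (G ⧸ (P : Subgroup G))) := by omega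
    haveI := Fintype.ofFinite (G ⧸ (P : Subgroup G))
    haveI := Fintype.ofFinite (ConjClasses (G ⧸ (P : Subgroup G)))
    have hbij : Function.Bijective (ConjClasses.mk : G ⧸ (P : Subgroup G) → _) := by
      rw [Fintype.bijective_iff_surjective_and_card]
      refine ⟨ConjClasses.mk_surjective, ?_⟩
      rw [← Nat.card_eq_fintype_card, ← Nat.card_eq_fintype_card, h3]
    rw [commutator_def, Subgroup.commutator_le]
    intro a _ b _
    show ⁅a, b⁆ ∈ (P : Subgroup G)
    rw [← QuotientGroup.eq_one_iff, commutatorElement_def]
    have h4 : ((a : G ⧸ (P : Subgroup G)) * b * (a : G ⧸ (P : Subgroup G))⁻¹) = b := by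
      apply hbij.1
      rw [ConjClasses.mk_eq_mk_iff_isConj, isConj_comm, isConj_iff]
      exact ⟨a, rfl⟩
    rw [QuotientGroup.mk_mul, QuotientGroup.mk_mul, QuotientGroup.mk_mul, QuotientGroup.mk_inv,
      QuotientGroup.mk_inv, h4, mul_inv_cancel]

end Cfsg.Agent.S0861
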