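import Cfsg.Statements.S0875
import Mathlib
import Cfsg.Agent.Lib_lead_Br15

set_option autoImplicit false
open Cfsg

namespace Cfsg.Agent.S0875

/-- Let G be a finite group of order m * n with m and n coprime, and g an element whose order is coprime to m. Every x in G factors uniquely as x = u * v with u, v commuting, the order of u coprime to n and the order of v coprime to m; let ϑ be the function on G equal to n at those x whose factor v is conjugate to g and equal to 0 elsewhere. Then ϑ is a linear combination of the irreducible characters of G with algebraic-integer coefficients. -/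
theorem result {G : Type*} [Group G] [Fintype G] (m n : ℕ) (hmn : Nat.card G = m * n) (hcop : Nat.Coprime m n) (g : G) (hg : Nat.Coprime (orderOf g) m) (ϑ : G → ℂ) (hϑ1 : ∀ x : G, (∃ v : G, IsConj v g ∧ (∃ u : G, x = u * v ∧ Commute u v ∧ Nat.Coprime (orderOf u) n ∧ Nat.Coprime (orderOf v) m)) → ϑ x = n) (hϑ0 : ∀ x : G, (¬ ∃ v : G, IsConj v g ∧ (∃ u : G, x = u * v ∧ Commute u v ∧ Nat.Coprime (orderOf u) n ∧ Nat.Coprime (orderOf v) m)) → ϑ x = 0) : ∃ c : Cfsg.IrrCharacter G → ℂ, (∀ χ, c χ ∈ Cfsg.AlgInt) ∧ ϑ = ∑ᶠ χ : Cfsg.IrrCharacter G, c χ • (χ : G → ℂ) := by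
  classical
  haveI := Fintype.ofFinite (Cfsg.IrrCharacter G)
  obtain ⟨t, ht0, ht1⟩ := Nat.chineseRemainder hcop 0 1
  obtain ⟨s, hs1, hs0⟩ := Nat.chineseRemainder hcop 1 0
  have hmt : m ∣ t := (Nat.modEq_zero_iff_dvd).mp ht0
  have hns : n ∣ s := (Nat.modEq_zero_iff_dvd).mp hs0
  have hiff : ∀ x : G, (∃ v : G, IsConj v g ∧ (∃ u : G, x = u * v ∧ Commute u v ∧
      Nat.Coprime (orderOf u) n ∧ Nat.Coprime (orderOf v) m)) ↔ IsConj (x ^ t) g := by
    intro x
    constructor
    · rintro ⟨v, hv, u, rfl, huv, hu, hv'⟩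
      have h1 : orderOf u ∣ m := by
        have := orderOf_dvd_natCard u
        rw [hmn] at this
        exact Nat.Coprime.dvd_of_dvd_mul_right hu this
      have h2 : orderOf v ∣ n := by
        have := orderOf_dvd_natCard v
        rw [hmn] at this
        exact Nat.Coprime.dvd_of_dvd_mul_left hv' this
      have h3 : u ^ t = 1 := orderOf_dvd_iff_pow_eq_one.mp (dvd_trans h1 hmt)
      have h4 : v ^ t = v := by
        conv_rhs => rw [← pow_one v]
        rw [pow_eq_pow_iff_modEq]
        exact ht1.of_dvd h2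
      rw [huv.mul_pow, h3, h4, one_mul]; exact hv
    · intro h
      refine ⟨x ^ t, h, x ^ s, ?_, ?_, ?_, ?_⟩
      · rw [← pow_add]
        conv_lhs => rw [← pow_one x]
        rw [pow_eq_pow_iff_modEq]
        have h5 : s + t ≡ 1 [MOD m * n] := by
          rw [← Nat.modEq_and_modEq_iff_modEq_mul hcop]
          constructor
          · simpa using hs1.add ht0
          · simpa using hs0.add ht1
        exact (h5.of_dvd (hmn ▸ orderOf_dvd_natCard x)).symm
      · exact (Commute.refl x).pow_pow s t
      · have : orderOf (x ^ s) ∣ m := by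
          rw [orderOf_dvd_iff_pow_eq_one, ← pow_mul]
          obtain ⟨c, rfl⟩ := hns
          rw [show n * c * m = (m * n) * c by ring, pow_mul, ← hmn, pow_card_eq_one', one_pow]
        exact Nat.Coprime.coprime_dvd_left this hcop
      · have : orderOf (x ^ t) ∣ n := by
          rw [orderOf_dvd_iff_pow_eq_one, ← pow_mul]
          obtain ⟨c, rfl⟩ := hmt
          rw [show m * c * n = (m * n) * c by ring, pow_mul, ← hmn, pow_card_eq_one', one_pow]
        exact Nat.Coprime.coprime_dvd_left this hcop.symm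
  have hϑ : ϑ = fun x : G => if IsConj (x ^ t) g then (n : ℂ) else 0 := by
    funext x
    by_cases h : IsConj (x ^ t) g
    · rw [if_pos h]; exact hϑ1 x ((hiff x).mpr h)
    · rw [if_neg h]; exact hϑ0 x (fun h' => h ((hiff x).mp h'))
  have hmem := Cfsg.Agent.LeadBr.section_RC m n t hmn hcop ht0 g
  rw [← hϑ] at hmem
  obtain ⟨c, hc, hsum⟩ := Cfsg.Agent.LeadBr.RC_coeff hmem
  refine ⟨c, hc, ?_⟩
  rw [finsum_eq_sum_of_fintype]; exact hsum

end Cfsg.Agent.S0875
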