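import Cfsg.Statements.S0879

set_option autoImplicit false
open Cfsg

namespace Cfsg.Agent.S0879

open Subgroup MulAction

/-- Let G be a Zassenhaus group on the finite set Ω and E the stabilizer of two distinct points a, b. Then an element outside the normalizer of E conjugates no non-identity element of E into E, and E has index 2 in its normalizer. -/
theorem result {G Ω : Type*} [Group G] [Finite G] [MulAction G Ω] [Fintype Ω] (hZ : Cfsg.IsZassenhausGroup G Ω) {a b : Ω} (hab : a ≠ b) : (∀ g : G, g ∉ Subgroup.normalizer ((MulAction.stabilizer G a ⊓ MulAction.stabilizer G b : Subgroup G) : Set G) → ∀ x ∈ (MulAction.stabilizer G a ⊓ MulAction.stabilizer G b : Subgroup G), g * x * g⁻¹ ∈ (MulAction.stabilizer G a ⊓ MulAction.stabilizer G b : Subgroup G) → x = 1) ∧ ((MulAction.stabilizer G a ⊓ MulAction.stabilizer G b : Subgroup G).subgroupOf (Subgroup.normalizer ((MulAction.stabilizer G a ⊓ MulAction.stabilizer G b : Subgroup G) : Set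 G))).index = 2 := by
  obtain ⟨hf, h2t, h3, ⟨g₀, hg₀, a', b', hab', hga', hgb'⟩, -⟩ := hZ
  rw [MulAction.is_two_pretransitive_iff] at h2t
  obtain ⟨H, hH⟩ : ∃ H, H = (stabilizer G a ⊓ stabilizer G b : Subgroup G) := ⟨_, rfl⟩
  rw [← hH]
  have hmem : ∀ x : G, x ∈ H ↔ x • a = a ∧ x • b = b := by
    intro x
    rw [hH, Subgroup.mem_inf, mem_stabilizer_iff, mem_stabilizer_iff]
  have hfix : ∀ x ∈ H, x ≠ 1 → ∀ c : Ω, x • c = c → c = a ∨ c = b := by
    intro x hx hx1 c hc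
    by_contra hcon
    push_neg at hcon
    exact hx1 (h3 x a b c hab (Ne.symm hcon.2) (Ne.symm hcon.1) ((hmem x).1 hx).1
      ((hmem x).1 hx).2 hc)
  have hset : ∀ g : G, ((g • a = a ∧ g • b = b) ∨ (g • a = b ∧ g • b = a)) →
      g ∈ normalizer (H : Set G) := by
    intro g hg
    rw [mem_normalizer_iff]
    intro x
    rw [hmem, hmem]
    have e : ∀ c : Ω, (g * x * g⁻¹) • c = c ↔ x • (g⁻¹ • c) = g⁻¹ • c := by
      intro c
      rw [mul_smul, mul_smul, smul_eq_iff_eq_inv_smul]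
    rw [e, e]
    rcases hg with ⟨h1, h2⟩ | ⟨h1, h2⟩
    · have i1 : g⁻¹ • a = a := by rw [inv_smul_eq_iff, h1]
      have i2 : g⁻¹ • b = b := by rw [inv_smul_eq_iff, h2]
      rw [i1, i2]
    · have i1 : g⁻¹ • a = b := by rw [inv_smul_eq_iff, h2]
      have i2 : g⁻¹ • b = a := by rw [inv_smul_eq_iff, h1]
      rw [i1, i2]
      exact and_comm
  have part1 : ∀ g : G, g ∉ normalizer (H : Set G) → ∀ x ∈ H, g * x * g⁻¹ ∈ H → x = 1 := by
    intro g hg x hx hgx
    by_contra hx1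
    apply hg
    have hgx' := (hmem _).1 hgx
    have e : ∀ c : Ω, (g * x * g⁻¹) • c = c → x • (g⁻¹ • c) = g⁻¹ • c := by
      intro c hc
      rwa [mul_smul, mul_smul, smul_eq_iff_eq_inv_smul] at hc
    have ha' := hfix x hx hx1 _ (e a hgx'.1)
    have hb' := hfix x hx hx1 _ (e b hgx'.2)
    have hne : g⁻¹ • a ≠ g⁻¹ • b := fun h => hab (MulAction.injective g⁻¹ h)
    have : g⁻¹ ∈ normalizer (H : Set G) := by
      apply hset
      rcases ha' with ha' | ha' <;> rcases hb' with hb' | hb'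
      · exact absurd (ha'.trans hb'.symm) hne
      · exact Or.inl ⟨ha', hb'⟩
      · exact Or.inr ⟨ha', hb'⟩
      · exact absurd (ha'.trans hb'.symm) hne
    simpa using inv_mem this
  refine ⟨part1, ?_⟩
  obtain ⟨t, hta, htb⟩ := h2t hab' hab
  obtain ⟨s, hsa, hsb⟩ := h2t hab hab.symm
  have hx0 : t * g₀ * t⁻¹ ∈ H := by
    rw [hmem]
    constructor
    · rw [mul_smul, mul_smul, ← hta, inv_smul_smul, hga']
    · rw [mul_smul, mul_smul, ← htb, inv_smul_smul, hgb']
  have hx01 : t * g₀ * t⁻¹ ≠ 1 := by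
    intro h
    apply hg₀
    have : g₀ = t⁻¹ * (t * g₀ * t⁻¹) * t := by group
    rw [this, h]; group
  have hN : ∀ n ∈ normalizer (H : Set G),
      (n • a = a ∧ n • b = b) ∨ (n • a = b ∧ n • b = a) := by
    intro n hn
    have h1 : n * (t * g₀ * t⁻¹) * n⁻¹ ∈ H := (mem_normalizer_iff.1 hn _).1 hx0
    have h11 : n * (t * g₀ * t⁻¹) * n⁻¹ ≠ 1 := by
      intro h
      apply hx01
      have : t * g₀ * t⁻¹ = n⁻¹ * (n * (t * g₀ * t⁻¹) * n⁻¹) * n := by group
      rw [this, h]; group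
    have f : ∀ c : Ω, (t * g₀ * t⁻¹) • c = c →
        (n * (t * g₀ * t⁻¹) * n⁻¹) • (n • c) = n • c := by
      intro c hc
      rw [mul_smul, mul_smul, inv_smul_smul, hc]
    have ha' := hfix _ h1 h11 _ (f a ((hmem _).1 hx0).1)
    have hb' := hfix _ h1 h11 _ (f b ((hmem _).1 hx0).2)
    have hne : n • a ≠ n • b := fun h => hab (MulAction.injective n h)
    rcases ha' with ha' | ha' <;> rcases hb' with hb' | hb'
    · exact absurd (ha'.trans hb'.symm) hne
    · exact Or.inl ⟨ha', hb'⟩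
    · exact Or.inr ⟨ha', hb'⟩
    · exact absurd (ha'.trans hb'.symm) hne
  rw [Subgroup.index_eq_two_iff]
  refine ⟨⟨s, hset s (Or.inr ⟨hsa, hsb⟩)⟩, ?_⟩
  rintro ⟨n, hn⟩
  simp only [mem_subgroupOf, Subgroup.coe_mul, hmem, mul_smul, hsa, hsb]
  rcases hN n hn with ⟨h1, h2⟩ | ⟨h1, h2⟩
  · right
    exact ⟨⟨h1, h2⟩, fun h => hab (h.1.symm.trans h2)⟩
  · left
    exact ⟨⟨h2, h1⟩, fun h => hab (h.1.symm.trans h1)⟩

end Cfsg.Agent.S0879
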