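import Cfsg.Statements.S0888
import Cfsg.Agent.Lib_helper2_Proj3

set_option autoImplicit false
open Cfsg

namespace Cfsg.Agent.S0888

/-- Let N be a normal subgroup of the finite group G and ϑ an irreducible character of N invariant under conjugation by G. Suppose that for every prime p there are a subgroup P containing N, of index prime to p and with the index of N in P a power of p, and an irreducible character of P restricting to ϑ. Then ϑ is the restriction of an irreducible character of G. -/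
theorem result {G : Type*} [Group G] [Finite G] (N : Subgroup G) [hN : N.Normal] (ϑ : N → ℂ) (hϑ : Cfsg.IsIrrCharacter N ϑ) (hinv : ∀ (g : G) (n : N), ϑ ⟨g * n * g⁻¹, hN.conj_mem (n : G) n.2 g⟩ = ϑ n) (hsyl : ∀ p : ℕ, p.Prime → ∃ (P : Subgroup G) (hNP : N ≤ P) (η : P → ℂ), Nat.Coprime P.index p ∧ (∃ k : ℕ, N.relIndex P = p ^ k) ∧ Cfsg.IsIrrCharacter P η ∧ ∀ n : N, η ⟨(n : G), hNP n.2⟩ = ϑ n) : ∃ χ : G → ℂ, Cfsg.IsIrrCharacter G χ ∧ ∀ n : N, χ n = ϑ n := by
  obtain ⟨d, -, -, hd⟩ := H4.IsIrrCharacter.exists_degree hϑ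
  obtain ⟨S, hS1, -, hS3⟩ := H2.exists_extSub_roots N ϑ hϑ hinv d hd (Nat.card N) Nat.card_pos.ne'
    (H2.detChar_pow_card (H4.IsIrrCharacter.isCharacter hϑ))
  apply hS3
  apply H2.one_mem_of_primes
  intro p hp
  obtain ⟨P, hNP, η, hcop, -, hη, hηN⟩ := hsyl p hp
  exact ⟨P.index, hS1 P hNP η hη hηN, hcop⟩

end Cfsg.Agent.S0888
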