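import Cfsg.Statements.S0893
import Mathlib
import Cfsg.Agent.Lib_helper3_Extra

set_option autoImplicit false
open Cfsg

namespace Cfsg.Agent.S0893

theorem char_eq_zero_of_apply_one {G : Type*} [Group G] {Φ : G → ℂ} (h : Cfsg.IsCharacter G Φ)
    (h1 : Φ 1 = 0) : Φ = 0 := by
  obtain ⟨m, ρ, rfl⟩ := h
  rw [Representation.char_one] at h1
  have hm : m = 0 := by
    have : Module.finrank ℂ (Fin m → ℂ) = 0 := by exact_mod_cast h1
    simpa using this
  subst hm
  funext g
  have : ρ g = 0 := Subsingleton.elim _ _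
  simp [Representation.character, this]

/-- Let P be an extraspecial p-group of order p ^ (2 * n + 1), A an abelian subgroup of order p ^ (n + 1), and λ a character of A of degree 1 that is not identically 1 on the elements of A lying in the centre of P. Then the function induced from λ to P is an irreducible character of P and vanishes at every element outside the centre. -/
theorem result {P : Type*} [Group P] [Fintype P] (p n : ℕ) [Fact p.Prime] (hP : Cfsg.IsExtraspecial p P) (hcard : Nat.card P = p ^ (2 * n + 1)) (A : Subgroup P) (hab : ∀ a ∈ A, ∀ b ∈ A, a * b = b * a) (hA : Nat.card A = p ^ (n + 1)) (lam : A → ℂ) (hlam : Cfsg.IsCharacter A lam ∧ lam 1 = 1) (hZ : ∃ a : A, (a : P) ∈ Subgroup.center P ∧ lam a ≠ 1) : Cfsg.IsIrrCharacter P (Cfsg.indFun A lam) ∧ ∀ x : P, x ∉ Subgroup.center P → Cfsg.indFun A lam x = 0 := by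
  classical
  have hp : p.Prime := Fact.out
  have hlamc := hlam.1
  have hΦ : Cfsg.IsCharacter P (Cfsg.indFun A lam) := H4.IsCharacter.ind A hlamc
  have hidx : A.index = p ^ n := by
    have h1 := A.index_mul_card
    rw [hA, hcard] at h1
    have h2 : p ^ (2 * n + 1) = p ^ n * p ^ (n + 1) := by rw [← pow_add]; congr 1; ring
    rw [h2] at h1
    exact Nat.eq_of_mul_eq_mul_right (pow_pos hp.pos _) h1
  have hΦ1 : Cfsg.indFun A lam 1 = (p : ℂ) ^ n := by
    rw [H4.indFun_apply_one, hidx, hlam.2]; push_cast; ring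
  have hΦ0 : Cfsg.indFun A lam ≠ 0 := by
    apply H4.IsCharacter.ne_zero_of_apply_one
    rw [hΦ1]
    exact pow_ne_zero _ (by exact_mod_cast hp.ne_zero)
  obtain ⟨χ, hχ⟩ := H4.IsCharacter.exists_constituent hΦ hΦ0
  have hχc := H4.IsIrrCharacter.isCharacter χ.2
  have hrec := H4.frobenius_reciprocity A lam χ.1 (H4.IsCharacter.isClassFunction hχc)
  rw [hrec] at hχ
  obtain ⟨a, haZ, hane⟩ := hZ
  have hχa : χ.1 (a : P) ≠ χ.1 1 := by
    intro heq
    apply hχ
    have h0 := H4.IsIrrCharacter.apply_one_ne_zero χ.2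
    have h1 : ∀ b : A, χ.1 ((b * a : A) : P) = χ.1 (b : P) := by
      intro b
      have h2 := H3.irr_central_mul χ.2 haZ (b : P)
      rw [heq, mul_comm] at h2
      exact mul_left_cancel₀ h0 h2
    have h3 : Cfsg.classInner lam (fun h : A => χ.1 h)
        = lam a * Cfsg.classInner lam (fun h : A => χ.1 h) := by
      unfold Cfsg.classInner
      conv_lhs => rw [← Equiv.sum_comp (Equiv.mulRight a)]
      simp only [Equiv.coe_mulRight, h1, H4.IsCharacter.linear_mul hlamc hlam.2]
      rw [mul_left_comm (lam a), Finset.mul_sum (a := lam a)]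
      congr 1
      apply Finset.sum_congr rfl
      intro b _
      ring
    have h4 : (1 - lam a) * Cfsg.classInner lam (fun h : A => χ.1 h) = 0 := by
      linear_combination h3
    rcases mul_eq_zero.1 h4 with h5 | h5
    · exact (hane (sub_eq_zero.1 h5).symm).elim
    · exact h5
  obtain ⟨hdeg, hvan⟩ := H3.extraspecial_degree p n hP hcard χ.2 haZ hχa
  have hχ' : Cfsg.classInner (Cfsg.indFun A lam) χ.1 ≠ 0 := by rw [hrec]; exact hχ
  have hsub := H4.IsCharacter.sub_constituent hΦ χ.2 hχ'
  have hzero := char_eq_zero_of_apply_one hsub (by rw [Pi.sub_apply, hΦ1, hdeg, sub_self])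
  have heq : Cfsg.indFun A lam = χ.1 := sub_eq_zero.1 hzero
  rw [heq]
  exact ⟨χ.2, hvan⟩

end Cfsg.Agent.S0893
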