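import Cfsg.Statements.S0894
import Mathlib
import Cfsg.Agent.Lib_helper3_Extra

set_option autoImplicit false
open Cfsg

namespace Cfsg.Agent.S0894

/-- Let P be an extraspecial p-group of order p ^ (2 * n + 1). Then every irreducible character of P has degree 1 or p ^ n, and exactly p - 1 of them have degree p ^ n. -/
theorem result {P : Type*} [Group P] [Finite P] (p n : ℕ) [Fact p.Prime] (hP : Cfsg.IsExtraspecial p P) (hcard : Nat.card P = p ^ (2 * n + 1)) : (∀ χ : Cfsg.IrrCharacter P, (χ : P → ℂ) 1 = 1 ∨ (χ : P → ℂ) 1 = (p : ℂ) ^ n) ∧ Nat.card {χ : Cfsg.IrrCharacter P // (χ : P → ℂ) 1 = (p : ℂ) ^ n} = p - 1 := by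
  classical
  have := Fintype.ofFinite P
  have := Fintype.ofFinite (Cfsg.IrrCharacter P)
  have hp : p.Prime := Fact.out
  have hn := H3.extraspecial_n_pos p n hP hcard
  have hdich : ∀ χ : Cfsg.IrrCharacter P, (χ : P → ℂ) 1 = 1 ∨ (χ : P → ℂ) 1 = (p : ℂ) ^ n := by
    intro χ
    by_cases h : ∀ z ∈ Subgroup.center P, (χ : P → ℂ) z = (χ : P → ℂ) 1
    · exact Or.inl (H3.extraspecial_linear p hP χ.2 h)
    · push Not at h
      obtain ⟨z₀, hz₀, hne⟩ := h
      exact Or.inr (H3.extraspecial_degree p n hP hcard χ.2 hz₀ hne).1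
  refine ⟨hdich, ?_⟩
  have hne1 : (p : ℂ) ^ n ≠ 1 := by
    have h1 : p ^ n ≠ 1 := by
      have := Nat.one_lt_pow hn.ne' hp.one_lt
      omega
    exact_mod_cast h1
  have hsum := H4.sum_sq_degrees' (G := P)
  have hterm : ∀ χ : Cfsg.IrrCharacter P, (χ : P → ℂ) 1 ^ 2
      = (if (χ : P → ℂ) 1 = 1 then (1 : ℂ) else 0)
        + (if (χ : P → ℂ) 1 = (p : ℂ) ^ n then ((p : ℂ) ^ n) ^ 2 else 0) := by
    intro χ
    rcases hdich χ with h | h
    · rw [h, if_pos rfl, if_neg (fun h' => hne1 h'.symm)]; simp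
    · rw [h, if_neg hne1, if_pos rfl]; simp
  simp only [hterm] at hsum
  rw [Finset.sum_add_distrib, Finset.sum_boole, ← Finset.sum_filter, Finset.sum_const,
    nsmul_eq_mul] at hsum
  have ha : (Finset.univ.filter (fun χ : Cfsg.IrrCharacter P => (χ : P → ℂ) 1 = 1)).card
      = p ^ (2 * n) := by
    have h1 := H4.card_linear (G := P)
    rw [Nat.card_eq_fintype_card, Fintype.card_subtype] at h1
    rw [h1]
    have h2 := (commutator P).index_mul_card
    rw [hP.1.2.2, hP.2, hcard, pow_succ] at h2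
    rw [hP.1.2.2]
    exact Nat.eq_of_mul_eq_mul_right hp.pos h2
  have hk : (Finset.univ.filter (fun χ : Cfsg.IrrCharacter P => (χ : P → ℂ) 1 = (p : ℂ) ^ n)).card
      = Nat.card {χ : Cfsg.IrrCharacter P // (χ : P → ℂ) 1 = (p : ℂ) ^ n} := by
    rw [Nat.card_eq_fintype_card, Fintype.card_subtype]
  rw [ha, hk, hcard] at hsum
  set k := Nat.card {χ : Cfsg.IrrCharacter P // (χ : P → ℂ) 1 = (p : ℂ) ^ n} with hkdef
  have h3 : p ^ (2 * n) + k * (p ^ n) ^ 2 = p ^ (2 * n + 1) := by exact_mod_cast hsum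
  rw [← pow_mul, mul_comm n 2, pow_succ] at h3
  have hpos : 0 < p ^ (2 * n) := pow_pos hp.pos _
  have h4 : (1 + k) * p ^ (2 * n) = p * p ^ (2 * n) := by nlinarith [h3]
  have h5 := Nat.eq_of_mul_eq_mul_right hpos h4
  omega

end Cfsg.Agent.S0894
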