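import Cfsg.Statements.S0895
import Cfsg.Agent.Lib_helper2_FS3

set_option autoImplicit false
set_option linter.style.haveILetI false
open Cfsg

namespace Cfsg.Agent.S0895

open Cfsg.Agent.H4 Cfsg.Agent.H2

/-- a nonzero invariant form of an irreducible representation is nondegenerate -/
theorem det_ne_zero {G : Type*} [Group G] [Fintype G] {n : ℕ} (ρ : Representation ℂ G (Fin n → ℂ))
    [hirr : ρ.IsIrreducible] {M : Matrix (Fin n) (Fin n) ℂ} (hM : InvForm ρ M) (hM0 : M ≠ 0) :
    M.det ≠ 0 := by
  intro hdet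
  obtain ⟨v, hv0, hv⟩ := Matrix.exists_mulVec_eq_zero_iff.2 hdet
  have h1 := ((irreducible_iff ρ).1 hirr).2 (LinearMap.ker (Matrix.toLin' M)) (by
    intro g w hw
    rw [LinearMap.mem_ker, Matrix.toLin'_apply] at hw ⊢
    have h2 : ρ g w = (mat ρ g).mulVec w := by
      rw [← Matrix.toLin'_apply, Matrix.toLin'_toMatrix']
    rw [h2, Matrix.mulVec_mulVec, hM.mul_mat, ← Matrix.mulVec_mulVec, hw, Matrix.mulVec_zero])
  rcases h1 with h1 | h1
  · have h2 : v ∈ LinearMap.ker (Matrix.toLin' M) := by
      rw [LinearMap.mem_ker, Matrix.toLin'_apply]; exact hv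
    rw [h1] at h2
    exact hv0 ((Submodule.mem_bot ℂ).1 h2)
  · apply hM0
    have h2 : Matrix.toLin' M = 0 := LinearMap.ker_eq_top.1 h1
    have h3 := congrArg LinearMap.toMatrix' h2
    rw [LinearMap.toMatrix'_toLin'] at h3
    rw [h3]; simp

/-- Let χ be a real-valued irreducible character of a finite group G whose degree is an odd natural number. Then the average over s in G of χ (s * s) equals 1. -/
theorem result {G : Type*} [Group G] [Fintype G] (χ : G → ℂ) (hχ : Cfsg.IsIrrCharacter G χ) (hreal : ∀ g : G, (χ g).im = 0) (d : ℕ) (hd : χ 1 = d) (hodd : Odd d) : (Nat.card G : ℂ)⁻¹ * ∑ s : G, χ (s * s) = 1 := by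
  obtain ⟨n, ρ, hirr, rfl⟩ := hχ
  haveI := hirr
  have hn : n = d := by
    rw [Representation.char_one] at hd
    simpa using hd
  subst hn
  rcases (frobenius_schur ρ).1 with h | h | h
  · obtain ⟨s, hs⟩ := (frobenius_schur ρ).2.1 h
    exact absurd (hreal s) hs
  · exact h
  · exfalso
    obtain ⟨M, hM0, hM⟩ := exists_invForm ρ hreal
    have h1 := hM.transpose_eq
    rw [h] at h1
    have h2 := congrArg Matrix.det h1
    rw [Matrix.det_transpose, neg_one_smul, Matrix.det_neg, Fintype.card_fin, hodd.neg_one_pow] at h2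
    have h3 : M.det = 0 := by linear_combination h2 / 2
    exact det_ne_zero ρ hM hM0 h3

end Cfsg.Agent.S0895
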