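import Cfsg.Statements.S0901
import Mathlib

set_option autoImplicit false
open Cfsg

namespace Cfsg.Agent.S0901

/-- Let M be a maximal ideal of the ring of algebraic integers containing the prime p, and let U be the set of complex roots of unity of order prime to p. Then reduction modulo M is injective on U, and every algebraic integer not in M is congruent modulo M to an element of U (so U maps bijectively onto the nonzero residues). -/
theorem result (p : ℕ) [Fact p.Prime] (M : Ideal Cfsg.AlgInt) (hM : Cfsg.IsPModular p M) : (∀ ε₁ ε₂ : Cfsg.AlgInt, (∃ m : ℕ, ¬ p ∣ m ∧ (ε₁ : ℂ) ^ m = 1) → (∃ m : ℕ, ¬ p ∣ m ∧ (ε₂ : ℂ) ^ m = 1) → ε₁ - ε₂ ∈ M → ε₁ = ε₂) ∧ (∀ a : Cfsg.AlgInt, a ∉ M → ∃ ε : Cfsg.AlgInt, (∃ m : ℕ, ¬ p ∣ m ∧ (ε : ℂ) ^ m = 1) ∧ a - ε ∈ M) := by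
  classical
  obtain ⟨hp, hmax, hpM⟩ := hM
  haveI := hmax
  have hnat : ∀ m : ℕ, (m : Cfsg.AlgInt) ∈ M → p ∣ m := by
    intro m hm
    by_contra hnd
    have hcop : Nat.Coprime m p := ((Nat.Prime.coprime_iff_not_dvd hp).mpr hnd).symm
    have hb := Nat.gcd_eq_gcd_ab m p
    rw [hcop.gcd_eq_one] at hb
    have h1 : (1 : Cfsg.AlgInt) ∈ M := by
      have h2 : (1 : Cfsg.AlgInt) = (m : Cfsg.AlgInt) * ((Nat.gcdA m p : ℤ) : Cfsg.AlgInt)
          + (p : Cfsg.AlgInt) * ((Nat.gcdB m p : ℤ) : Cfsg.AlgInt) := by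
        have h3 := congrArg (fun z : ℤ => (z : Cfsg.AlgInt)) hb
        push_cast at h3
        exact h3
      rw [h2]
      exact M.add_mem (M.mul_mem_right _ hm) (M.mul_mem_right _ hpM)
    exact hmax.ne_top ((Ideal.eq_top_iff_one M).mpr h1)
  have hcore : ∀ (ξ : Cfsg.AlgInt) (m : ℕ), ¬ p ∣ m → ξ ^ m = 1 → ξ - 1 ∈ M → ξ = 1 := by
    intro ξ m hm hξ hξM
    by_contra hne
    have h1 : (ξ - 1) * ∑ i ∈ Finset.range m, ξ ^ i = 0 := by rw [mul_geom_sum, hξ, sub_self]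
    have h2 : ∑ i ∈ Finset.range m, ξ ^ i = 0 := by
      rcases mul_eq_zero.mp h1 with h | h
      · exact absurd (sub_eq_zero.mp h) hne
      · exact h
    apply hm
    apply hnat
    have h3 : (m : Cfsg.AlgInt) = ∑ i ∈ Finset.range m, (1 - ξ ^ i) := by
      rw [Finset.sum_sub_distrib, h2]; simp
    rw [h3]
    apply M.sum_mem
    intro i _
    have h4 : ξ - 1 ∣ ξ ^ i - 1 := by simpa using sub_dvd_pow_sub_pow ξ 1 i
    obtain ⟨c, hc⟩ := h4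
    have h5 : 1 - ξ ^ i = (ξ - 1) * (-c) := by rw [mul_neg, ← hc]; ring
    rw [h5]; exact M.mul_mem_right _ hξM
  have part1 : ∀ ε₁ ε₂ : Cfsg.AlgInt, (∃ m : ℕ, ¬ p ∣ m ∧ (ε₁ : ℂ) ^ m = 1) →
      (∃ m : ℕ, ¬ p ∣ m ∧ (ε₂ : ℂ) ^ m = 1) → ε₁ - ε₂ ∈ M → ε₁ = ε₂ := by
    rintro ε₁ ε₂ ⟨m₁, hm₁, h₁⟩ ⟨m₂, hm₂, h₂⟩ hM12
    have h₁' : ε₁ ^ m₁ = 1 := Subtype.ext (by simpa using h₁)
    have h₂' : ε₂ ^ m₂ = 1 := Subtype.ext (by simpa using h₂)
    have hm₂0 : m₂ ≠ 0 := by rintro rfl; exact hm₂ (dvd_zero p)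
    have hinv : ε₂ * ε₂ ^ (m₂ - 1) = 1 := by
      rw [← pow_succ', Nat.sub_add_cancel (Nat.pos_of_ne_zero hm₂0), h₂']
    have hξ := hcore (ε₁ * ε₂ ^ (m₂ - 1)) (m₁ * m₂)
      (fun h => (hp.dvd_mul.mp h).elim hm₁ hm₂)
      (by
        rw [mul_pow, pow_mul, h₁', one_pow, one_mul, ← pow_mul, mul_comm m₁ m₂, ← mul_assoc,
          mul_comm (m₂ - 1) m₂, mul_assoc, pow_mul, h₂', one_pow])
      (by
        have h6 : ε₁ * ε₂ ^ (m₂ - 1) - 1 = (ε₁ - ε₂) * ε₂ ^ (m₂ - 1) := by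
          rw [sub_mul, hinv]
        rw [h6]; exact M.mul_mem_right _ hM12)
    calc ε₁ = ε₁ * (ε₂ * ε₂ ^ (m₂ - 1)) := by rw [hinv, mul_one]
      _ = (ε₁ * ε₂ ^ (m₂ - 1)) * ε₂ := by ring
      _ = ε₂ := by rw [hξ, one_mul]
  refine ⟨part1, ?_⟩
  intro a ha
  letI : Field (Cfsg.AlgInt ⧸ M) := Ideal.Quotient.field M
  have ha0 : (Ideal.Quotient.mk M a) ≠ 0 := fun h => ha (Ideal.Quotient.eq_zero_iff_mem.mp h)
  haveI hchar : CharP (Cfsg.AlgInt ⧸ M) p := (CharP.charP_iff_prime_eq_zero hp).mpr (by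
    have := Ideal.Quotient.eq_zero_iff_mem.mpr hpM
    simpa using this)
  letI : Algebra (ZMod p) (Cfsg.AlgInt ⧸ M) := ZMod.algebra _ p
  have hint : IsIntegral (ZMod p) (Ideal.Quotient.mk M a) := by
    have h1 : IsIntegral ℤ a := IsIntegralClosure.isIntegral ℤ ℂ a
    have h2 : IsIntegral ℤ (Ideal.Quotient.mk M a) := h1.map (Ideal.Quotient.mkₐ ℤ M)
    exact h2.tower_top
  -- finite order
  obtain ⟨k, hk0, hk⟩ : ∃ k : ℕ, 0 < k ∧ (Ideal.Quotient.mk M a) ^ k = 1 := by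
    haveI : Module.Finite (ZMod p) (Algebra.adjoin (ZMod p) {Ideal.Quotient.mk M a}) :=
      ⟨(Submodule.fg_top _).mpr hint.fg_adjoin_singleton⟩
    haveI : Finite (Algebra.adjoin (ZMod p) {Ideal.Quotient.mk M a}) :=
      Module.finite_of_finite (ZMod p)
    obtain ⟨i, j, hij, hfij⟩ := Finite.exists_ne_map_eq_of_infinite
      (fun i : ℕ => (⟨Ideal.Quotient.mk M a, Algebra.subset_adjoin rfl⟩ :
        Algebra.adjoin (ZMod p) {Ideal.Quotient.mk M a}) ^ i)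
    have hfij' : (Ideal.Quotient.mk M a) ^ i = (Ideal.Quotient.mk M a) ^ j := by
      have := congrArg Subtype.val hfij
      simpa using this
    have key : ∀ i j : ℕ, i < j → (Ideal.Quotient.mk M a) ^ i = (Ideal.Quotient.mk M a) ^ j →
        ∃ k : ℕ, 0 < k ∧ (Ideal.Quotient.mk M a) ^ k = 1 := by
      intro i j hlt h
      refine ⟨j - i, by omega, ?_⟩
      have h7 : (Ideal.Quotient.mk M a) ^ i * (Ideal.Quotient.mk M a) ^ (j - i)
          = (Ideal.Quotient.mk M a) ^ i * 1 := by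
        rw [← pow_add, mul_one, Nat.add_sub_cancel' hlt.le, h]
      exact mul_left_cancel₀ (pow_ne_zero i ha0) h7
    rcases lt_or_gt_of_ne hij with h | h
    · exact key i j h hfij'
    · exact key j i h hfij'.symm
  -- remove the `p`-part
  obtain ⟨k', hk'0, hk'p, hk'⟩ : ∃ k' : ℕ, 0 < k' ∧ ¬ p ∣ k' ∧ (Ideal.Quotient.mk M a) ^ k' = 1 := by
    obtain ⟨s, k', hpk', rfl⟩ := Nat.exists_eq_pow_mul_and_not_dvd hk0.ne' p hp.ne_one
    refine ⟨k', Nat.pos_of_ne_zero (by rintro rfl; exact hpk' (dvd_zero p)), hpk', ?_⟩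
    haveI : ExpChar (Cfsg.AlgInt ⧸ M) p := ExpChar.prime hp
    exact (ExpChar.pow_prime_pow_mul_eq_one_iff p s k' _).mp hk
  -- the roots of unity
  have hζ := Complex.isPrimitiveRoot_exp k' hk'0.ne'
  obtain ⟨ζ, hζ⟩ : ∃ ζ : ℂ, IsPrimitiveRoot ζ k' := ⟨_, hζ⟩
  have hζint : IsIntegral ℤ ζ := hζ.isIntegral hk'0
  have hroot : ∀ j : ℕ, ∃ m : ℕ, ¬ p ∣ m ∧ (((⟨ζ, hζint⟩ : Cfsg.AlgInt) ^ j : Cfsg.AlgInt) : ℂ) ^ m = 1 := by
    intro j
    refine ⟨k', hk'p, ?_⟩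
    show ((ζ ^ j : ℂ)) ^ k' = 1
    rw [← pow_mul, mul_comm, pow_mul, hζ.pow_eq_one, one_pow]
  have hsub : (Finset.range k').image (fun j => Ideal.Quotient.mk M ((⟨ζ, hζint⟩ : Cfsg.AlgInt) ^ j))
      ⊆ Polynomial.nthRootsFinset k' (1 : Cfsg.AlgInt ⧸ M) := by
    intro x hx
    obtain ⟨j, _, rfl⟩ := Finset.mem_image.mp hx
    rw [Polynomial.mem_nthRootsFinset hk'0, ← map_pow]
    have h8 : ((⟨ζ, hζint⟩ : Cfsg.AlgInt) ^ j) ^ k' = 1 := by
      apply Subtype.ext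
      show ((ζ ^ j : ℂ)) ^ k' = 1
      rw [← pow_mul, mul_comm, pow_mul, hζ.pow_eq_one, one_pow]
    rw [h8, map_one]
  have hcardS : ((Finset.range k').image
      (fun j => Ideal.Quotient.mk M ((⟨ζ, hζint⟩ : Cfsg.AlgInt) ^ j))).card = k' := by
    rw [Finset.card_image_of_injOn, Finset.card_range]
    intro i hi j hj hij
    have hi' : i < k' := Finset.mem_range.mp hi
    have hj' : j < k' := Finset.mem_range.mp hj
    have h9 : (⟨ζ, hζint⟩ : Cfsg.AlgInt) ^ i - (⟨ζ, hζint⟩ : Cfsg.AlgInt) ^ j ∈ M := by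
      rw [← Ideal.Quotient.eq_zero_iff_mem, map_sub, sub_eq_zero]
      exact hij
    have h10 := part1 _ _ (hroot i) (hroot j) h9
    have h11 : ζ ^ i = ζ ^ j := congrArg Subtype.val h10
    exact hζ.pow_inj hi' hj' h11
  have hcardR : (Polynomial.nthRootsFinset k' (1 : Cfsg.AlgInt ⧸ M)).card ≤ k' := by
    rw [Polynomial.nthRootsFinset_def]
    exact (Multiset.toFinset_card_le _).trans (Polynomial.card_nthRoots k' 1)
  have heq := Finset.eq_of_subset_of_card_le hsub (by rw [hcardS]; exact hcardR)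
  have hmem : Ideal.Quotient.mk M a ∈ Polynomial.nthRootsFinset k' (1 : Cfsg.AlgInt ⧸ M) :=
    (Polynomial.mem_nthRootsFinset hk'0 _).mpr hk'
  rw [← heq] at hmem
  obtain ⟨j, _, hj⟩ := Finset.mem_image.mp hmem
  refine ⟨(⟨ζ, hζint⟩ : Cfsg.AlgInt) ^ j, hroot j, ?_⟩
  rw [← Ideal.Quotient.eq_zero_iff_mem, map_sub, sub_eq_zero]
  exact hj.symm

end Cfsg.Agent.S0901
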