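import Mathlib
import Cfsg.Statements.S0903

set_option autoImplicit false
open Cfsg

namespace Cfsg.Agent.S0903


/-- Let P be a p-subgroup of the finite group G, let c centralize P and let g, h ∈ G. The number of pairs (x, y) with x conjugate to g, y conjugate to h and x * y = c is congruent modulo p to the number of such pairs in which x and y both centralize P. (This is why the Brauer map on class sums is multiplicative.) -/
theorem result {G : Type*} [Group G] [Finite G] (p : ℕ) [Fact p.Prime] (P : Subgroup G) (hP : IsPGroup p P) (c : G) (hc : c ∈ Subgroup.centralizer (P : Set G)) (g h : G) : Nat.card {xy : G × G // IsConj g xy.1 ∧ IsConj h xy.2 ∧ xy.1 * xy.2 = c} ≡ Nat.card {xy : G × G // IsConj g xy.1 ∧ IsConj h xy.2 ∧ xy.1 * xy.2 = c ∧ xy.1 ∈ Subgroup.centralizer (P : Set G) ∧ xy.2 ∈ Subgroup.centralizer (P : Set G)} [MOD p] := by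
  classical
  have hcc : ∀ t ∈ P, t * c * t⁻¹ = c := by
    intro t ht
    rw [Subgroup.mem_centralizer_iff.1 hc t ht, mul_inv_cancel_right]
  letI act : MulAction P {xy : G × G // IsConj g xy.1 ∧ IsConj h xy.2 ∧ xy.1 * xy.2 = c} :=
    { smul := fun t w => ⟨((t : G) * w.1.1 * (t : G)⁻¹, (t : G) * w.1.2 * (t : G)⁻¹),
        w.2.1.trans (isConj_iff.2 ⟨t, rfl⟩), w.2.2.1.trans (isConj_iff.2 ⟨t, rfl⟩), by
          have : (t : G) * w.1.1 * (t : G)⁻¹ * ((t : G) * w.1.2 * (t : G)⁻¹) =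
            (t : G) * (w.1.1 * w.1.2) * (t : G)⁻¹ := by group
          rw [this, w.2.2.2, hcc t t.2]⟩
      one_smul := fun w => by
        apply Subtype.ext
        apply Prod.ext
        · change ((1 : P) : G) * w.1.1 * ((1 : P) : G)⁻¹ = w.1.1
          simp
        · change ((1 : P) : G) * w.1.2 * ((1 : P) : G)⁻¹ = w.1.2
          simp
      mul_smul := fun s t w => by
        apply Subtype.ext
        apply Prod.ext
        · change ((s * t : P) : G) * w.1.1 * ((s * t : P) : G)⁻¹ =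
            (s : G) * ((t : G) * w.1.1 * (t : G)⁻¹) * (s : G)⁻¹
          rw [Subgroup.coe_mul]; group
        · change ((s * t : P) : G) * w.1.2 * ((s * t : P) : G)⁻¹ =
            (s : G) * ((t : G) * w.1.2 * (t : G)⁻¹) * (s : G)⁻¹
          rw [Subgroup.coe_mul]; group }
  have hsm : ∀ (t : P) (w : {xy : G × G // IsConj g xy.1 ∧ IsConj h xy.2 ∧ xy.1 * xy.2 = c}),
      (t • w).1 = ((t : G) * w.1.1 * (t : G)⁻¹, (t : G) * w.1.2 * (t : G)⁻¹) := fun _ _ => rfl
  have h1 := hP.card_modEq_card_fixedPoints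
    {xy : G × G // IsConj g xy.1 ∧ IsConj h xy.2 ∧ xy.1 * xy.2 = c}
  refine h1.trans (congrArg (· % p) ?_)
  apply Nat.card_congr
  refine ⟨fun w => ⟨w.1.1, w.1.2.1, w.1.2.2.1, w.1.2.2.2, ?_, ?_⟩,
    fun w => ⟨⟨w.1, w.2.1, w.2.2.1, w.2.2.2.1⟩, ?_⟩, fun w => rfl, fun w => rfl⟩
  · rw [Subgroup.mem_centralizer_iff]
    intro t ht
    have h2 := congrArg (fun z => z.1.1) (w.2 ⟨t, ht⟩)
    simp only [hsm] at h2
    exact mul_inv_eq_iff_eq_mul.1 h2
  · rw [Subgroup.mem_centralizer_iff]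
    intro t ht
    have h2 := congrArg (fun z => z.1.2) (w.2 ⟨t, ht⟩)
    simp only [hsm] at h2
    exact mul_inv_eq_iff_eq_mul.1 h2
  · intro t
    apply Subtype.ext
    rw [hsm]
    apply Prod.ext
    · change (t : G) * w.1.1 * (t : G)⁻¹ = w.1.1
      rw [Subgroup.mem_centralizer_iff.1 w.2.2.2.2.1 t t.2, mul_inv_cancel_right]
    · change (t : G) * w.1.2 * (t : G)⁻¹ = w.1.2
      rw [Subgroup.mem_centralizer_iff.1 w.2.2.2.2.2 t t.2, mul_inv_cancel_right]

end Cfsg.Agent.S0903
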