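import Cfsg.Statements.S0905
import Mathlib
import Cfsg.Agent.Lib_lead_ClsNil
import Cfsg.Agent.Lib_helper1_Cores

set_option autoImplicit false
open Cfsg

namespace Cfsg.Agent.S0905

/-- Let F be a field of characteristic p and let g be an element of the finite group G no conjugate of which centralizes O_p(G). Then the class sum of g is a nilpotent element of the group algebra F[G]. -/
theorem result {G : Type*} [Group G] [Finite G] (p : ℕ) [Fact p.Prime] (F : Type*) [Field F] [CharP F p] (g : G) (hg : ∀ x : G, IsConj g x → x ∉ Subgroup.centralizer (Cfsg.pCore p G : Set G)) : IsNilpotent (∑ᶠ x ∈ ConjClasses.carrier (ConjClasses.mk g), MonoidAlgebra.single x (1 : F) : MonoidAlgebra F G) := by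
  classical
  rw [finsum_mem_eq_finite_toFinset_sum _ (Set.toFinite _)]
  haveI := Cfsg.Agent.H1.pCore_normal (G := G) p
  have hmem : ∀ x : G, x ∈ (Set.toFinite (ConjClasses.carrier (ConjClasses.mk g))).toFinset ↔
      IsConj g x := by
    intro x
    rw [Set.Finite.mem_toFinset, ConjClasses.mem_carrier_iff_mk_eq, ConjClasses.mk_eq_mk_iff_isConj]
    exact ⟨fun h => h.symm, fun h => h.symm⟩
  apply Cfsg.Agent.LeadBr.class_sum_nilpotent p (Cfsg.pCore p G) (Cfsg.Agent.H1.pCore_isPGroup p)
  · intro u x hx
    rw [hmem] at hx ⊢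
    exact hx.trans (isConj_iff.mpr ⟨u, rfl⟩)
  · intro x hx
    exact hg x ((hmem x).mp hx)

end Cfsg.Agent.S0905
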