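import Cfsg.Statements.S0910
import Mathlib
import Cfsg.Agent.Lib_helper4_BlkO

set_option autoImplicit false
open Cfsg

namespace Cfsg.Agent.S0910

open Cfsg.Agent.H4


/-- Let G be a non-abelian finite simple group and p a prime. If an irreducible character χ lies in the principal block (relative to a maximal ideal of the algebraic integers containing p) and χ 1 is a power of p, then χ is the principal character. -/
theorem result {G : Type*} [Group G] [Finite G] (p : ℕ) [Fact p.Prime] (M : Ideal Cfsg.AlgInt) (hM : Cfsg.IsPModular p M) [IsSimpleGroup G] (hna : ∃ a b : G, a * b ≠ b * a) (χ : Cfsg.IrrCharacter G) (hχ : χ ∈ Cfsg.principalBlock M G) (k : ℕ) (hdeg : (χ : G → ℂ) 1 = (p : ℂ) ^ k) : (χ : G → ℂ) = fun _ => 1 := by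
  classical
  by_contra hne
  have hp : p.Prime := Fact.out
  obtain ⟨n, ρ, hρ, hρχ⟩ := χ.2
  haveI := hρ
  have hne' : ρ.character ≠ fun _ => 1 := by rw [hρχ]; exact hne
  have hnotprime : ¬ (Nat.card G).Prime := by
    intro h
    haveI : Fact (Nat.card G).Prime := ⟨h⟩
    have hcyc : IsCyclic G := isCyclic_of_prime_card (α := G) rfl
    obtain ⟨a, b, hab⟩ := hna
    exact hab ((IsCyclic.commGroup (α := G)).mul_comm a b)
  have h1 : (χ : G → ℂ) 1 = (Module.finrank ℂ (Fin n → ℂ) : ℂ) := by rw [← hρχ]; simp
  have hfr : Module.finrank ℂ (Fin n → ℂ) = p ^ k := by exact_mod_cast (h1.symm.trans hdeg)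
  have key : ∀ z : G, z ≠ 1 → ¬ p ∣ (Subgroup.centralizer ({z} : Set G)).index → False := by
    intro z hz hpz
    have hcop : Nat.Coprime (Module.finrank ℂ (Fin n → ℂ))
        (Subgroup.centralizer ({z} : Set G)).index := by
      rw [hfr]; exact Nat.Coprime.pow_left _ ((Nat.Prime.coprime_iff_not_dvd hp).mpr hpz)
    rcases burnside_coprime ρ z hcop with h | h
    · have h2 := hχ z
      unfold centralChar at h2
      rw [← hρχ, h] at h2
      simp only [mul_one, div_one, mul_zero, zero_div, sub_zero] at h2
      exact hpz ((memLocalIdeal_natCast_iff hM _).mp h2)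
    · obtain ⟨ω, hω⟩ := (norm_char_eq_iff ρ z).mp h
      exact hnotprime (prime_card_of_center z hz (mem_center_of_scalar ρ hne' z ω hω))
  by_cases hpG : p ∣ Nat.card G
  · obtain ⟨P⟩ : Nonempty (Sylow p G) := inferInstance
    have hPnt : Nontrivial (P : Subgroup G) := by
      rw [← Finite.one_lt_card_iff_nontrivial]
      have h2 : p ∣ Nat.card (P : Subgroup G) := by
        have h3 := (P : Subgroup G).card_mul_index
        rw [← h3] at hpG
        exact (hp.dvd_mul.mp hpG).resolve_right P.not_dvd_index
      exact lt_of_lt_of_le hp.one_lt (Nat.le_of_dvd Nat.card_pos h2)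
    haveI := hPnt
    have hcn : Nontrivial (Subgroup.center (P : Subgroup G)) := P.2.center_nontrivial
    obtain ⟨z', hz'⟩ := exists_ne (1 : Subgroup.center (P : Subgroup G))
    apply key ((z' : (P : Subgroup G)) : G)
    · intro h
      apply hz'
      apply Subtype.ext
      apply Subtype.ext
      exact h
    · intro hdvd
      apply P.not_dvd_index
      refine hdvd.trans (Subgroup.index_dvd_of_le ?_)
      intro y hy
      rw [Subgroup.mem_centralizer_singleton_iff]
      have := Subgroup.mem_center_iff.mp z'.2 ⟨y, hy⟩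
      exact congrArg Subtype.val this
  · obtain ⟨z, hz⟩ := exists_ne (1 : G)
    exact key z hz (fun h => hpG (h.trans (Subgroup.index_dvd_card _)))

end Cfsg.Agent.S0910
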