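import Cfsg.Statements.S0939
import Cfsg.Agent.Lib_helper4_BlkD

set_option autoImplicit false
open Cfsg

namespace Cfsg.Agent.S0939

/-- Let G be a finite group with a normal p-complement (the largest normal subgroup O_p'(G) of order prime to p has p-power index). Then, relative to any maximal ideal M of the algebraic integers containing p, the principal block of G is the set of irreducible characters χ with χ n = χ 1 for every n ∈ O_p'(G). -/
theorem result {G : Type*} [Group G] [Finite G] (p : ℕ) [Fact p.Prime] (M : Ideal Cfsg.AlgInt) (hM : Cfsg.IsPModular p M) (hnc : ∃ k : ℕ, (Cfsg.pPrimeCore p G).index = p ^ k) : Cfsg.principalBlock M G = {χ : Cfsg.IrrCharacter G | ∀ n ∈ Cfsg.pPrimeCore p G, (χ : G → ℂ) n = (χ : G → ℂ) 1} := by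
  classical
  haveI := Fintype.ofFinite G
  haveI := Cfsg.Agent.H4.pPrimeCore_normal' (G := G) p
  have hp : ¬ p ∣ Nat.card (Cfsg.pPrimeCore p G) := by
    intro hd
    have h1 := Cfsg.Agent.H4.card_pPrimeCore_coprime' (G := G) p
    have h2 := Nat.dvd_gcd hd (dvd_refl p)
    rw [Nat.Coprime] at h1
    rw [h1] at h2
    exact (Fact.out : p.Prime).one_lt.ne' (Nat.dvd_one.mp h2)
  have h0 : Cfsg.classInner (fun n : Cfsg.pPrimeCore p G => ((Cfsg.Agent.H4.trivIrr G : Cfsg.IrrCharacter G) : G → ℂ) n)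
      ((Cfsg.Agent.H4.trivIrr (Cfsg.pPrimeCore p G) : Cfsg.IrrCharacter (Cfsg.pPrimeCore p G)) : Cfsg.pPrimeCore p G → ℂ) ≠ 0 := by
    have := Cfsg.Agent.H4.norm_triv (Cfsg.pPrimeCore p G)
    show Cfsg.classInner (fun _ : Cfsg.pPrimeCore p G => (1 : ℂ)) (fun _ => 1) ≠ 0
    rw [this]; exact one_ne_zero
  ext χ
  constructor
  · intro h
    have h1 : Cfsg.SameBlock M ((Cfsg.Agent.H4.trivIrr G : Cfsg.IrrCharacter G) : G → ℂ) (χ : G → ℂ) := h
    have h3 := Cfsg.Agent.H4.same_constituent_of_p'normal hM _ hp _ χ h1 (Cfsg.Agent.H4.trivIrr _) h0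
    exact (Cfsg.Agent.H4.ker_iff_classInner_one _ χ.2).mpr h3
  · intro h
    have h3 := (Cfsg.Agent.H4.ker_iff_classInner_one _ χ.2).mp h
    exact (Cfsg.Agent.H4.blocks_normal_p_complement hM _ hp hnc (Cfsg.Agent.H4.trivIrr G) χ).mpr
      ⟨Cfsg.Agent.H4.trivIrr _, h0, h3⟩


end Cfsg.Agent.S0939
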