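import Cfsg.Statements.S0946
import Cfsg.Agent.Lib_helper7_AbSylow
import Cfsg.Agent.Lib_helper7_TT

set_option autoImplicit false
open Cfsg

namespace Cfsg.Agent.S0946

open Subgroup

theorem zmod_half (m : ℕ) (hm : 1 ≤ m) : ∃ h : ZMod (2 ^ m), h ≠ 0 ∧ h + h = 0 ∧
    ∀ a : ZMod (2 ^ m), a + a = 0 → a = 0 ∨ a = h := by
  have hne : NeZero (2 ^ m) := ⟨(pow_pos (by norm_num) m).ne'⟩
  obtain ⟨k, rfl⟩ : ∃ k, m = k + 1 := ⟨m - 1, by omega⟩
  refine ⟨((2 ^ k : ℕ) : ZMod (2 ^ (k + 1))), ?_, ?_, ?_⟩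
  · rw [Ne, ZMod.natCast_eq_zero_iff]
    intro h
    have := Nat.le_of_dvd (pow_pos (by norm_num) k) h
    rw [pow_succ] at this
    have : 0 < 2 ^ k := pow_pos (by norm_num) k
    omega
  · rw [← Nat.cast_add, ZMod.natCast_eq_zero_iff, pow_succ]
    exact ⟨1, by ring⟩
  · intro a ha
    by_cases ha0 : a = 0
    · exact Or.inl ha0
    · right
      have hh0 : ((2 ^ k : ℕ) : ZMod (2 ^ (k + 1))) ≠ 0 := by
        rw [Ne, ZMod.natCast_eq_zero_iff]
        intro h
        have := Nat.le_of_dvd (pow_pos (by norm_num) k) h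
        rw [pow_succ] at this
        have : 0 < 2 ^ k := pow_pos (by norm_num) k
        omega
      have hhh : ((2 ^ k : ℕ) : ZMod (2 ^ (k + 1))) + ((2 ^ k : ℕ) : ZMod (2 ^ (k + 1))) = 0 := by
        rw [← Nat.cast_add, ZMod.natCast_eq_zero_iff, pow_succ]
        exact ⟨1, by ring⟩
      have key := Cfsg.Agent.H7.cyclic_involution_unique (A := Multiplicative (ZMod (2 ^ (k + 1))))
        (a := Multiplicative.ofAdd a) (b := Multiplicative.ofAdd ((2 ^ k : ℕ) : ZMod (2 ^ (k + 1))))
        (by rw [pow_two, ← ofAdd_add, ha]; rfl) (by rw [pow_two, ← ofAdd_add, hhh]; rfl)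
        (fun h => ha0 (Multiplicative.ofAdd.injective h)) (fun h => hh0 (Multiplicative.ofAdd.injective h))
      exact Multiplicative.ofAdd.injective key

/-- automorphisms of a group whose involutions are `u₁, u₂, u₁u₂`. -/
theorem four_cases {Q : Type*} [Group Q] (u₁ u₂ : Q) (h1 : u₁ * u₁ = 1) (h2 : u₂ * u₂ = 1)
    (hc : u₁ * u₂ = u₂ * u₁) (hn1 : u₁ ≠ 1) (hn2 : u₂ ≠ 1) (hne : u₁ ≠ u₂)
    (F : ∀ x : Q, x * x = 1 → x = 1 ∨ x = u₁ ∨ x = u₂ ∨ x = u₁ * u₂) (α : Q ≃* Q) :
    (α (α u₁) = u₁ ∧ α (α u₂) = u₂) ∨ (α u₁ = u₂ ∧ α u₂ = u₁ * u₂) ∨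
      (α u₁ = u₁ * u₂ ∧ α u₂ = u₁) := by
  have ha1 : α u₁ * α u₁ = 1 := by rw [← map_mul, h1, map_one]
  have ha2 : α u₂ * α u₂ = 1 := by rw [← map_mul, h2, map_one]
  have hb1 : α u₁ ≠ 1 := fun h => hn1 (α.injective (by rw [h, map_one]))
  have hb2 : α u₂ ≠ 1 := fun h => hn2 (α.injective (by rw [h, map_one]))
  have hb3 : α u₁ ≠ α u₂ := fun h => hne (α.injective h)
  rcases F _ ha1 with h | h | h | h
  · exact absurd h hb1
  · rcases F _ ha2 with h' | h' | h' | h'
    · exact absurd h' hb2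
    · exact absurd (h.trans h'.symm) hb3
    · left; rw [h, h, h', h']; exact ⟨rfl, rfl⟩
    · left
      refine ⟨by rw [h, h], ?_⟩
      rw [h', map_mul, h, h', ← mul_assoc, h1, one_mul]
  · rcases F _ ha2 with h' | h' | h' | h'
    · exact absurd h' hb2
    · left; exact ⟨by rw [h, h'], by rw [h', h]⟩
    · exact absurd (h.trans h'.symm) hb3
    · right; left; exact ⟨h, h'⟩
  · rcases F _ ha2 with h' | h' | h' | h'
    · exact absurd h' hb2
    · right; right; exact ⟨h, h'⟩
    · left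
      refine ⟨?_, by rw [h', h']⟩
      rw [h, map_mul, h, h', mul_assoc, h2, mul_one]
    · exact absurd (h.trans h'.symm) hb3

/-- Let P be a Sylow 2-subgroup of the finite group G isomorphic to Z/2^m × Z/2^m with m ≥ 1. Then either P has a normal complement in G, or all involutions of G are conjugate. -/
theorem result {G : Type*} [Group G] [Finite G] (P : Sylow 2 G) (m : ℕ) (hm : 1 ≤ m) (e : (P : Subgroup G) ≃* Multiplicative (ZMod (2 ^ m) × ZMod (2 ^ m))) : (∃ N : Subgroup G, N.Normal ∧ Subgroup.IsComplement' N (P : Subgroup G)) ∨ ∀ s t : G, orderOf s = 2 → orderOf t = 2 → IsConj s t := by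
  obtain ⟨h, hh0, hhh, hhu⟩ := zmod_half m hm
  have hab : IsMulCommutative (P : Subgroup G) := by
    constructor
    constructor
    intro a b
    apply e.injective
    rw [map_mul, map_mul, mul_comm]
  set u₁ : ↥(P : Subgroup G) := e.symm (Multiplicative.ofAdd (h, 0)) with hu₁
  set u₂ : ↥(P : Subgroup G) := e.symm (Multiplicative.ofAdd (0, h)) with hu₂
  have h1 : u₁ * u₁ = 1 := by
    apply e.injective
    rw [map_mul, hu₁, e.apply_symm_apply, map_one, ← ofAdd_add, Prod.mk_add_mk, hhh, add_zero]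
    rfl
  have h2 : u₂ * u₂ = 1 := by
    apply e.injective
    rw [map_mul, hu₂, e.apply_symm_apply, map_one, ← ofAdd_add, Prod.mk_add_mk, hhh, add_zero]
    rfl
  have hc : u₁ * u₂ = u₂ * u₁ := mul_comm' _ _
  have hn1 : u₁ ≠ 1 := by
    intro hx
    have := congrArg e hx
    rw [hu₁, e.apply_symm_apply, map_one] at this
    have h3 : ((h, 0) : ZMod (2 ^ m) × ZMod (2 ^ m)) = 0 := Multiplicative.ofAdd.injective this
    exact hh0 (congrArg Prod.fst h3)
  have hn2 : u₂ ≠ 1 := by
    intro hx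
    have := congrArg e hx
    rw [hu₂, e.apply_symm_apply, map_one] at this
    have h3 : ((0, h) : ZMod (2 ^ m) × ZMod (2 ^ m)) = 0 := Multiplicative.ofAdd.injective this
    exact hh0 (congrArg Prod.snd h3)
  have hne : u₁ ≠ u₂ := by
    intro hx
    have := congrArg e hx
    rw [hu₁, hu₂, e.apply_symm_apply, e.apply_symm_apply] at this
    have h3 : ((h, 0) : ZMod (2 ^ m) × ZMod (2 ^ m)) = (0, h) := Multiplicative.ofAdd.injective this
    exact hh0 (congrArg Prod.fst h3)
  have F : ∀ x : ↥(P : Subgroup G), x * x = 1 → x = 1 ∨ x = u₁ ∨ x = u₂ ∨ x = u₁ * u₂ := by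
    intro x hx
    have h3 := congrArg e hx
    rw [map_mul, map_one] at h3
    obtain ⟨⟨a, b⟩, hab'⟩ : ∃ w : ZMod (2 ^ m) × ZMod (2 ^ m), e x = Multiplicative.ofAdd w :=
      ⟨Multiplicative.toAdd (e x), rfl⟩
    rw [hab', ← ofAdd_add, Prod.mk_add_mk] at h3
    have h4 : ((a + a, b + b) : ZMod (2 ^ m) × ZMod (2 ^ m)) = 0 := Multiplicative.ofAdd.injective h3
    have ha := hhu a (congrArg Prod.fst h4)
    have hb := hhu b (congrArg Prod.snd h4)
    rcases ha with rfl | rfl <;> rcases hb with rfl | rfl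
    · left
      apply e.injective
      rw [hab', map_one]; rfl
    · right; right; left
      apply e.injective
      rw [hab', hu₂, e.apply_symm_apply]
    · right; left
      apply e.injective
      rw [hab', hu₁, e.apply_symm_apply]
    · right; right; right
      apply e.injective
      rw [hab', map_mul, hu₁, hu₂, e.apply_symm_apply, e.apply_symm_apply, ← ofAdd_add, Prod.mk_add_mk,
        add_zero, zero_add]
  set K := centralizer ({(u₁ : G), (u₂ : G)} : Set G) with hK
  have hPK : (P : Subgroup G) ≤ K := by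
    intro s hs
    rw [hK, mem_centralizer_iff]
    rintro x (rfl | rfl)
    · exact congrArg Subtype.val (mul_comm' u₁ ⟨s, hs⟩)
    · exact congrArg Subtype.val (mul_comm' u₂ ⟨s, hs⟩)
  by_cases hA : normalizer ((P : Subgroup G) : Set G) ≤ K
  · left
    have hN : normalizer ((P : Subgroup G) : Set G) ≤ centralizer ((P : Subgroup G) : Set G) := by
      apply Cfsg.Agent.H7.normalizer_le_centralizer_of_omega P hab
      intro g hg x hx hx2
      have hgK := hA hg
      rw [hK, mem_centralizer_iff] at hgK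
      have c1 : (u₁ : G) * g = g * u₁ := hgK _ (Or.inl rfl)
      have c2 : (u₂ : G) * g = g * u₂ := hgK _ (Or.inr rfl)
      rcases F ⟨x, hx⟩ (Subtype.ext (by simpa [pow_two] using hx2)) with h3 | h3 | h3 | h3
      · have : x = 1 := congrArg Subtype.val h3
        rw [this]; simp
      · have : x = u₁ := congrArg Subtype.val h3
        rw [this]; exact c1.symm
      · have : x = u₂ := congrArg Subtype.val h3
        rw [this]; exact c2.symm
      · have : x = (u₁ : G) * u₂ := congrArg Subtype.val h3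
        rw [this, ← mul_assoc, ← c1, mul_assoc, ← c2, mul_assoc]
    exact ⟨_, inferInstance, MonoidHom.ker_transferSylow_isComplement' P hN⟩
  · right
    rw [SetLike.not_le_iff_exists] at hA
    obtain ⟨g, hg, hgK⟩ := hA
    set α : MulAut ↥(P : Subgroup G) := (P : Subgroup G).normalizerMonoidHom ⟨g, hg⟩ with hα
    have hαa : ∀ x : ↥(P : Subgroup G), ((α x : ↥(P : Subgroup G)) : G) = g * x * g⁻¹ := fun x => rfl
    have hconj : IsConj (u₂ : G) u₁ ∧ IsConj ((u₁ : G) * u₂) u₁ := by
      rcases four_cases u₁ u₂ h1 h2 hc hn1 hn2 hne F α with ⟨c1, c2⟩ | ⟨c1, c2⟩ | ⟨c1, c2⟩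
      · exfalso
        apply hgK
        obtain ⟨k, hk, hgk⟩ := Cfsg.Agent.H7.exists_odd_pow_mem_sylow P hg
        apply Cfsg.Agent.H7.mem_of_sq_mem_of_odd_pow_mem hk _ (hPK hgk)
        rw [hK, mem_centralizer_iff]
        have d1 := congrArg Subtype.val c1
        have d2 := congrArg Subtype.val c2
        rw [hαa, hαa] at d1 d2
        rintro x (rfl | rfl)
        · calc (u₁ : G) * (g * g) = (g * (g * u₁ * g⁻¹) * g⁻¹) * (g * g) := by rw [d1]
            _ = g * g * u₁ := by group
        · calc (u₂ : G) * (g * g) = (g * (g * u₂ * g⁻¹) * g⁻¹) * (g * g) := by rw [d2]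
            _ = g * g * u₂ := by group
      · have d1 := congrArg Subtype.val c1
        have d2 := congrArg Subtype.val c2
        rw [hαa] at d1 d2
        have e1 : IsConj (u₁ : G) u₂ := isConj_iff.mpr ⟨g, d1⟩
        have e2 : IsConj (u₂ : G) ((u₁ : G) * u₂) := isConj_iff.mpr ⟨g, d2⟩
        exact ⟨e1.symm, (e1.trans e2).symm⟩
      · have d1 := congrArg Subtype.val c1
        have d2 := congrArg Subtype.val c2
        rw [hαa] at d1 d2
        have e1 : IsConj (u₁ : G) ((u₁ : G) * u₂) := isConj_iff.mpr ⟨g, d1⟩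
        have e2 : IsConj (u₂ : G) u₁ := isConj_iff.mpr ⟨g, d2⟩
        exact ⟨e2, e1.symm⟩
    have hall : ∀ s : G, orderOf s = 2 → IsConj s u₁ := by
      intro s hs
      have hzp : IsPGroup 2 (zpowers s) := by
        apply IsPGroup.of_card (n := 1)
        rw [Nat.card_zpowers, hs, pow_one]
      obtain ⟨k, -, hk⟩ := (Cfsg.Agent.H7.Sylow_isSylowIn_top P).exists_conj_le hzp le_top
      have hks : k * s * k⁻¹ ∈ (P : Subgroup G) := Cfsg.Agent.H7.map_conj_le_iff.mp hk s (mem_zpowers s)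
      have hss : s * s = 1 := by rw [← pow_two, ← hs]; exact pow_orderOf_eq_one s
      have e0 : IsConj s (k * s * k⁻¹) := isConj_iff.mpr ⟨k, rfl⟩
      have hsq : (⟨k * s * k⁻¹, hks⟩ : (P : Subgroup G)) * ⟨k * s * k⁻¹, hks⟩ = 1 := by
        apply Subtype.ext
        change k * s * k⁻¹ * (k * s * k⁻¹) = 1
        calc k * s * k⁻¹ * (k * s * k⁻¹) = k * (s * s) * k⁻¹ := by group
          _ = 1 := by rw [hss]; group
      rcases F _ hsq with h3 | h3 | h3 | h3
      · exfalso
        have h4 : k * s * k⁻¹ = 1 := congrArg Subtype.val h3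
        have h5 : s = 1 := by
          calc s = k⁻¹ * (k * s * k⁻¹) * k := by group
            _ = 1 := by rw [h4]; group
        rw [h5, orderOf_one] at hs
        norm_num at hs
      · have h4 : k * s * k⁻¹ = u₁ := congrArg Subtype.val h3
        rw [h4] at e0; exact e0
      · have h4 : k * s * k⁻¹ = u₂ := congrArg Subtype.val h3
        rw [h4] at e0; exact e0.trans hconj.1
      · have h4 : k * s * k⁻¹ = (u₁ : G) * u₂ := congrArg Subtype.val h3
        rw [h4] at e0; exact e0.trans hconj.2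
    intro s t hs ht
    exact (hall s hs).trans (hall t ht).symm

end Cfsg.Agent.S0946
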