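import Cfsg.Statements.S0957
import Mathlib

set_option autoImplicit false
open Cfsg

namespace Cfsg.Agent.S0957

theorem card_centralizer_conj {G : Type*} [Group G] (g x : G) :
    Nat.card (Subgroup.centralizer ({x * g * x⁻¹} : Set G)) =
      Nat.card (Subgroup.centralizer ({g} : Set G)) := by
  apply Nat.card_congr
  refine ⟨fun c => ⟨x⁻¹ * c * x, ?_⟩, fun c => ⟨x * c * x⁻¹, ?_⟩, ?_, ?_⟩
  · rw [Subgroup.mem_centralizer_singleton_iff]
    have := Subgroup.mem_centralizer_singleton_iff.mp c.2
    calc x⁻¹ * (c : G) * x * g = x⁻¹ * ((c : G) * (x * g * x⁻¹)) * x := by group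
      _ = x⁻¹ * ((x * g * x⁻¹) * (c : G)) * x := by rw [this]
      _ = _ := by group
  · rw [Subgroup.mem_centralizer_singleton_iff]
    have := Subgroup.mem_centralizer_singleton_iff.mp c.2
    calc x * (c : G) * x⁻¹ * (x * g * x⁻¹) = x * ((c : G) * g) * x⁻¹ := by group
      _ = x * (g * (c : G)) * x⁻¹ := by rw [this]
      _ = _ := by group
  · intro c; apply Subtype.ext; show x * (x⁻¹ * (c : G) * x) * x⁻¹ = c; group
  · intro c; apply Subtype.ext; show x⁻¹ * (x * (c : G) * x⁻¹) * x = c; group


/-- Let P be a Sylow p-subgroup of the finite group G, let g, h ∈ G and let p ^ d be the order of a Sylow p-subgroup of the centralizer of g. Then the number of pairs (y, z) with y conjugate to g, z conjugate to h and z * y⁻¹ ∈ P is divisible by the order of P divided by p ^ d. -/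
theorem result {G : Type*} [Group G] [Finite G] (p : ℕ) [Fact p.Prime] (P : Sylow p G) (g h : G) (S : Sylow p (Subgroup.centralizer ({g} : Set G))) : Nat.card P / Nat.card S ∣ Nat.card {yz : G × G // IsConj g yz.1 ∧ IsConj h yz.2 ∧ yz.2 * yz.1⁻¹ ∈ (P : Subgroup G)} := by
  classical
  have hp : p.Prime := Fact.out
  let Ω := {yz : G × G // IsConj g yz.1 ∧ IsConj h yz.2 ∧ yz.2 * yz.1⁻¹ ∈ (P : Subgroup G)}
  letI act : MulAction (P : Subgroup G) Ω :=
    { smul := fun u xy => ⟨((u : G) * xy.1.1 * (u : G)⁻¹, (u : G) * xy.1.2 * (u : G)⁻¹),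
        xy.2.1.trans (isConj_iff.mpr ⟨u, rfl⟩), xy.2.2.1.trans (isConj_iff.mpr ⟨u, rfl⟩), by
          show (u : G) * xy.1.2 * (u : G)⁻¹ * ((u : G) * xy.1.1 * (u : G)⁻¹)⁻¹ ∈ (P : Subgroup G)
          have e : (u : G) * xy.1.2 * (u : G)⁻¹ * ((u : G) * xy.1.1 * (u : G)⁻¹)⁻¹ =
              (u : G) * (xy.1.2 * xy.1.1⁻¹) * (u : G)⁻¹ := by group
          rw [e]
          exact (P : Subgroup G).mul_mem ((P : Subgroup G).mul_mem u.2 xy.2.2.2)
            ((P : Subgroup G).inv_mem u.2)⟩
      one_smul := by
        intro xy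
        apply Subtype.ext
        apply Prod.ext
        · show ((1 : (P : Subgroup G)) : G) * xy.1.1 * ((1 : (P : Subgroup G)) : G)⁻¹ = xy.1.1
          simp
        · show ((1 : (P : Subgroup G)) : G) * xy.1.2 * ((1 : (P : Subgroup G)) : G)⁻¹ = xy.1.2
          simp
      mul_smul := by
        intro u v xy
        apply Subtype.ext
        apply Prod.ext
        · show ((u * v : (P : Subgroup G)) : G) * xy.1.1 * ((u * v : (P : Subgroup G)) : G)⁻¹ =
            (u : G) * ((v : G) * xy.1.1 * (v : G)⁻¹) * (u : G)⁻¹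
          rw [Subgroup.coe_mul]; group
        · show ((u * v : (P : Subgroup G)) : G) * xy.1.2 * ((u * v : (P : Subgroup G)) : G)⁻¹ =
            (u : G) * ((v : G) * xy.1.2 * (v : G)⁻¹) * (u : G)⁻¹
          rw [Subgroup.coe_mul]; group }
  have hPc : Nat.card (P : Subgroup G) = p ^ (Nat.card G).factorization p := P.card_eq_multiplicity
  have hSc : Nat.card (S : Subgroup (Subgroup.centralizer ({g} : Set G))) =
      p ^ (Nat.card (Subgroup.centralizer ({g} : Set G))).factorization p := S.card_eq_multiplicity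
  set a := (Nat.card G).factorization p with ha
  set b := (Nat.card (Subgroup.centralizer ({g} : Set G))).factorization p with hb
  have hba : b ≤ a := by
    rw [ha, ← Nat.Prime.pow_dvd_iff_le_factorization hp Nat.card_pos.ne']
    exact (Nat.ordProj_dvd _ p).trans (Subgroup.card_subgroup_dvd_card _)
  have hm : Nat.card P / Nat.card S = p ^ (a - b) := by
    have e1 : Nat.card P = p ^ a := hPc
    have e2 : Nat.card S = p ^ b := hSc
    rw [e1, e2, Nat.pow_div hba hp.pos]
  rw [hm]
  have horb : ∀ ω : Ω, p ^ (a - b) ∣ Nat.card (MulAction.orbit (P : Subgroup G) ω) := by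
    intro ω
    rw [Nat.card_congr (MulAction.orbitEquivQuotientStabilizer (P : Subgroup G) ω)]
    set T := MulAction.stabilizer (P : Subgroup G) ω with hT
    have hTp : IsPGroup p T := P.2.to_subgroup T
    obtain ⟨e, he⟩ := hTp.exists_card_eq
    obtain ⟨x, hx⟩ := isConj_iff.mp ω.2.1
    let f : T →* Subgroup.centralizer ({ω.1.1} : Set G) :=
      { toFun := fun t => ⟨((t : (P : Subgroup G)) : G), by
          rw [Subgroup.mem_centralizer_singleton_iff]
          have h2 := MulAction.mem_stabilizer_iff.mp t.2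
          have h3 : ((t : (P : Subgroup G)) : G) * ω.1.1 * ((t : (P : Subgroup G)) : G)⁻¹ = ω.1.1 :=
            congrArg (fun z => z.1.1) h2
          calc ((t : (P : Subgroup G)) : G) * ω.1.1
              = (((t : (P : Subgroup G)) : G) * ω.1.1 * ((t : (P : Subgroup G)) : G)⁻¹) *
                ((t : (P : Subgroup G)) : G) := by group
            _ = ω.1.1 * ((t : (P : Subgroup G)) : G) := by rw [h3]⟩
        map_one' := rfl
        map_mul' := fun _ _ => rfl }
    have hf : Function.Injective f := by
      intro t t' htt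
      apply Subtype.ext
      apply Subtype.ext
      exact congrArg (fun z : Subgroup.centralizer ({ω.1.1} : Set G) => (z : G)) htt
    have h4 := Subgroup.card_dvd_of_injective f hf
    rw [he, ← hx, card_centralizer_conj] at h4
    have heb : e ≤ b := (Nat.Prime.pow_dvd_iff_le_factorization hp Nat.card_pos.ne').mp h4
    have h5 : T.index * Nat.card T = Nat.card (P : Subgroup G) := T.index_mul_card
    rw [he, hPc] at h5
    have h6 : T.index = p ^ (a - e) := by
      apply Nat.eq_of_mul_eq_mul_right (pow_pos hp.pos e)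
      rw [h5, ← pow_add]
      congr 1
      omega
    show p ^ (a - b) ∣ T.index
    rw [h6]
    exact pow_dvd_pow p (by omega)
  haveI := Fintype.ofFinite (MulAction.orbitRel.Quotient (P : Subgroup G) Ω)
  show p ^ (a - b) ∣ Nat.card Ω
  rw [Nat.card_congr (MulAction.selfEquivSigmaOrbits (P : Subgroup G) Ω), Nat.card_sigma]
  exact Finset.dvd_sum (fun q _ => horb _)

end Cfsg.Agent.S0957
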