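import Cfsg.Statements.S0966
import Cfsg.Agent.Lib_helper4_BlkC

set_option autoImplicit false
open Cfsg

namespace Cfsg.Agent.S0966

/-- Let N be a normal subgroup of p-power index in the finite group G and b a block of N relative to a maximal ideal M of the algebraic integers containing p. Then there is exactly one block B of G containing a character whose restriction to N has a constituent in b. -/
theorem result {G : Type*} [Group G] [Fintype G] (p : ℕ) [Fact p.Prime] (M : Ideal Cfsg.AlgInt) (hM : Cfsg.IsPModular p M) (N : Subgroup G) [N.Normal] [Fintype N] (hidx : ∃ k : ℕ, N.index = p ^ k) (b : Set (Cfsg.IrrCharacter N)) (hb : Cfsg.IsPBlock M b) : ∃! B : Set (Cfsg.IrrCharacter G), Cfsg.IsPBlock M B ∧ ∃ χ ∈ B, ∃ θ ∈ b, Cfsg.classInner (fun n : N => (χ : G → ℂ) n) (θ : N → ℂ) ≠ 0 := by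
  haveI := Fintype.ofFinite (Cfsg.IrrCharacter G)
  haveI := Fintype.ofFinite (Cfsg.IrrCharacter N)
  obtain ⟨θ, rfl⟩ := hb
  have hθ : θ ∈ Cfsg.blockOf M (θ : N → ℂ) := Cfsg.Agent.H4.SameBlock.refl hM _
  obtain ⟨χ, hχ⟩ := Cfsg.Agent.H4.exists_over N θ
  refine ⟨Cfsg.blockOf M (χ : G → ℂ), ⟨⟨χ, rfl⟩, χ, Cfsg.Agent.H4.SameBlock.refl hM _, θ, hθ, hχ⟩, ?_⟩
  rintro B ⟨hB, χ', hχ', θ', hθ', hne⟩
  rw [Cfsg.Agent.H4.IsPBlock.eq_blockOf hM hB hχ']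
  have h1 := Cfsg.Agent.H4.unique_cover_of_pquot hM N hidx _ ⟨θ, rfl⟩ χ χ' ⟨θ, hθ, hχ⟩ ⟨θ', hθ', hne⟩
  have h2 : χ' ∈ Cfsg.blockOf M (χ : G → ℂ) := h1
  exact (Cfsg.Agent.H4.IsPBlock.eq_blockOf hM ⟨χ, rfl⟩ h2).symm


end Cfsg.Agent.S0966
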