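import Cfsg.Statements.S0967
import Cfsg.Agent.Lib_helper4_BlkD

set_option autoImplicit false
open Cfsg

namespace Cfsg.Agent.S0967

/-- Let N be a normal subgroup of the finite group G of order prime to p and fix a maximal ideal M of the algebraic integers containing p. If χ is an irreducible character of G ⧸ N and ψ lies in the block of its inflation χ ∘ (quotient map), then ψ is itself inflated from an irreducible character ψ' of G ⧸ N lying in the block of χ. (Over a normal p'-subgroup, blocks of the quotient are whole blocks of G.) -/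
theorem result {G : Type*} [Group G] [Finite G] (p : ℕ) [Fact p.Prime] (M : Ideal Cfsg.AlgInt) (hM : Cfsg.IsPModular p M) (N : Subgroup G) [N.Normal] (hN : ¬ p ∣ Nat.card N) (χ : Cfsg.IrrCharacter (G ⧸ N)) (ψ : Cfsg.IrrCharacter G) (hψ : ψ ∈ Cfsg.blockOf M ((χ : G ⧸ N → ℂ) ∘ QuotientGroup.mk)) : ∃ ψ' : Cfsg.IrrCharacter (G ⧸ N), (ψ : G → ℂ) = (ψ' : G ⧸ N → ℂ) ∘ QuotientGroup.mk ∧ Cfsg.SameBlock M (χ : G ⧸ N → ℂ) (ψ' : G ⧸ N → ℂ) := by
  classical
  haveI := Fintype.ofFinite G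
  haveI := Fintype.ofFinite N
  let χt : Cfsg.IrrCharacter G := ⟨fun g => (χ : G ⧸ N → ℂ) (g : G ⧸ N), Cfsg.Agent.H4.IsIrrCharacter.inflate N χ.2⟩
  have h1 : Cfsg.SameBlock M (χt : G → ℂ) (ψ : G → ℂ) := hψ
  have hker : ∀ n ∈ N, (χt : G → ℂ) n = (χt : G → ℂ) 1 := by
    intro n hn
    show (χ : G ⧸ N → ℂ) (n : G ⧸ N) = (χ : G ⧸ N → ℂ) ((1 : G) : G ⧸ N)
    rw [(QuotientGroup.eq_one_iff n).mpr hn]; rfl
  have h2 := (Cfsg.Agent.H4.ker_iff_classInner_one N χt.2).mp hker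
  have h3 := Cfsg.Agent.H4.same_constituent_of_p'normal hM N hN χt ψ h1 (Cfsg.Agent.H4.trivIrr N) h2
  have h4 := (Cfsg.Agent.H4.ker_iff_classInner_one N ψ.2).mpr h3
  obtain ⟨ψ', hψ', hh⟩ := Cfsg.Agent.H4.IsIrrCharacter.deflate N ψ.2 h4
  refine ⟨⟨ψ', hψ'⟩, ?_, ?_⟩
  · funext g; exact (hh g).symm
  · apply Cfsg.Agent.H4.quot_sameBlock hM N hN χ ⟨ψ', hψ'⟩
    have e : (fun g : G => ψ' (g : G ⧸ N)) = (ψ : G → ℂ) := funext hh
    show Cfsg.SameBlock M (χt : G → ℂ) (fun g : G => ψ' (g : G ⧸ N))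
    rw [e]; exact h1


end Cfsg.Agent.S0967
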