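import Mathlib
import Cfsg.Statements.S0985

set_option autoImplicit false
open Cfsg

namespace Cfsg.Agent.S0985

theorem card_modEq_one {T X : Type*} [Group T] [MulAction T X] [Finite X] (x0 : X)
    (m : ℕ) (h0 : ∀ t : T, t • x0 = x0)
    (h : ∀ x : X, x ≠ x0 → m ∣ (MulAction.stabilizer T x).index) :
    Nat.card X ≡ 1 [MOD m] := by
  classical
  haveI := Fintype.ofFinite (MulAction.orbitRel.Quotient T X)
  have e := Nat.card_congr (MulAction.selfEquivSigmaOrbits' T X)
  rw [Nat.card_sigma] at e
  rw [e]
  have hcard : ∀ x : X, Nat.card (MulAction.orbitRel.Quotient.orbit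
      (Quotient.mk'' x : MulAction.orbitRel.Quotient T X)) = (MulAction.stabilizer T x).index := by
    intro x
    rw [MulAction.orbitRel.Quotient.orbit_mk, MulAction.index_stabilizer, Nat.card_coe_set_eq]
  set ω0 : MulAction.orbitRel.Quotient T X := Quotient.mk'' x0 with hω0
  rw [← Finset.add_sum_erase _ _ (Finset.mem_univ ω0)]
  have h1 : Nat.card ω0.orbit = 1 := by
    rw [hω0, hcard, Subgroup.index_eq_one, eq_top_iff]
    intro t _
    exact h0 t
  have h2 : m ∣ ∑ ω ∈ Finset.univ.erase ω0, Nat.card ω.orbit := by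
    apply Finset.dvd_sum
    intro ω hω
    have hne := Finset.ne_of_mem_erase hω
    induction ω using Quotient.inductionOn' with
    | h x =>
      rw [hcard]
      apply h
      rintro rfl
      exact hne rfl
  rw [h1]
  obtain ⟨c, hc⟩ := h2
  rw [hc]
  exact (Nat.modEq_iff_dvd' (by omega)).2 (by simp) |>.symm

/-- If the number of Sylow p-subgroups of a finite group is not congruent to 1 modulo p^k, then there are two distinct Sylow p-subgroups P and R such that the index of P ∩ R in P is at most p^(k-1). -/
theorem result {G : Type*} [Group G] [Finite G] (p k : ℕ) [Fact p.Prime] (h : ¬ Nat.card (Sylow p G) ≡ 1 [MOD p ^ k]) : ∃ P R : Sylow p G, P ≠ R ∧ ((R : Subgroup G).subgroupOf (P : Subgroup G)).index ≤ p ^ (k - 1) := by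
  have hp : p.Prime := Fact.out
  by_contra hcon
  push Not at hcon
  apply h
  let P : Sylow p G := default
  apply card_modEq_one (T := (P : Subgroup G)) P (p ^ k)
  · intro t
    change (t : G) • P = P
    exact Sylow.smul_eq_iff_mem_normalizer.2 (Subgroup.le_normalizer t.2)
  · intro R hR
    have hst : MulAction.stabilizer (P : Subgroup G) R = (R : Subgroup G).subgroupOf P := by
      ext t
      rw [MulAction.mem_stabilizer_iff, Subgroup.mem_subgroupOf]
      change (t : G) • R = R ↔ (t : G) ∈ (R : Subgroup G)
      rw [Sylow.smul_eq_iff_mem_normalizer]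
      constructor
      · intro ht
        have h1 : (t : G) ∈ (P : Subgroup G) ⊓ (R : Subgroup G) := by
          rw [← P.2.inf_normalizer_sylow R]
          exact ⟨t.2, ht⟩
        exact h1.2
      · intro ht
        exact Subgroup.le_normalizer ht
    rw [hst]
    obtain ⟨n, hn⟩ := IsPGroup.iff_card.1 P.2
    have h1 : ((R : Subgroup G).subgroupOf (P : Subgroup G)).index ∣ p ^ n := by
      rw [← hn]; exact Subgroup.index_dvd_card _
    obtain ⟨j, -, hj⟩ := (Nat.dvd_prime_pow hp).1 h1
    have h2 := hcon P R hR.symm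
    rw [hj] at h2 ⊢
    have h3 : k - 1 < j := (Nat.pow_lt_pow_iff_right hp.one_lt).1 h2
    exact pow_dvd_pow p (by omega)

end Cfsg.Agent.S0985
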