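import Cfsg.Statements.S0986
import Mathlib
import Cfsg.Agent.Lib_helper2_BaerSuzuki

set_option autoImplicit false
open Cfsg

namespace Cfsg.Agent.S0986

/-- Let P and Q be distinct Sylow p-subgroups of a finite group G chosen so that the order of P ∩ Q is as large as possible among intersections of two distinct Sylow p-subgroups, and let N be the normalizer of P ∩ Q. Then N has more than one Sylow p-subgroup, any two distinct Sylow p-subgroups of N intersect exactly in P ∩ Q, and each Sylow p-subgroup of N lies in exactly one Sylow p-subgroup of G. -/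
theorem result {G : Type*} [Group G] [Finite G] (p : ℕ) [Fact p.Prime] (P Q : Sylow p G) (hPQ : P ≠ Q) (hmax : ∀ P' Q' : Sylow p G, P' ≠ Q' → Nat.card ↥((P' : Subgroup G) ⊓ (Q' : Subgroup G)) ≤ Nat.card ↥((P : Subgroup G) ⊓ (Q : Subgroup G))) : 1 < Nat.card (Sylow p ↥(Subgroup.normalizer (((P : Subgroup G) ⊓ (Q : Subgroup G) : Subgroup G) : Set G))) ∧ (∀ S T : Sylow p ↥(Subgroup.normalizer (((P : Subgroup G) ⊓ (Q : Subgroup G) : Subgroup G) : Set G)), S ≠ T → (S : Subgroup _) ⊓ (T : Subgroup _) = ((P : Subgroup G) ⊓ (Q : Subgroup G)).subgroupOf (Subgroup.normalizer (((P : Subgroup G) ⊓ (Q : Subgroup G) : Subgroup G) : Set G))) ∧ ∀ S : Sylow p ↥(Subgroup.normalizer (((P : Subgroup G) ⊓ (Q : Subgroup G) : Subgroup G) : Set G)), ∃! T : Sylow p G, (S : Subgroup _).map (Subgroup.normalizer (((P : Subgroup G) ⊓ (Q : Subgroup G) : Subgroup G) : Set G)).subtype ≤ (T : Subgroup G) := by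
  set D : Subgroup G := (P : Subgroup G) ⊓ (Q : Subgroup G) with hD
  set Nn : Subgroup G := Subgroup.normalizer (D : Set G) with hNn
  have hDN : D ≤ Nn := Subgroup.le_normalizer
  have hDp : IsPGroup p D := P.isPGroup'.to_le inf_le_left
  -- (a)
  have keyA : ∀ (P' Q' : Sylow p G) (K : Subgroup G), K ≤ (P' : Subgroup G) → K ≤ (Q' : Subgroup G) →
      Nat.card D < Nat.card K → P' = Q' := by
    intro P' Q' K h1 h2 h3
    by_contra hne
    have h4 := hmax P' Q' hne
    have h5 := Subgroup.card_le_of_le (le_inf h1 h2)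
    omega
  -- (b)
  have keyB : ∀ R : Sylow p G, D ≤ (R : Subgroup G) → D ≠ (R : Subgroup G) →
      Nat.card D < Nat.card ((R : Subgroup G) ⊓ Nn : Subgroup G) := by
    intro R h1 h2
    obtain ⟨y, hyR, hyD, hyN⟩ := H2.exists_normalizer_of_lt R.isPGroup' (lt_of_le_of_ne h1 h2)
    have hlt : D < (R : Subgroup G) ⊓ Nn := by
      refine lt_of_le_of_ne (le_inf h1 hDN) ?_
      intro h
      apply hyD
      rw [h]; exact ⟨hyR, hyN⟩
    exact Set.ncard_lt_ncard (s := (D : Set G)) (t := (((R : Subgroup G) ⊓ Nn : Subgroup G) : Set G))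
      (by exact_mod_cast hlt) (Set.toFinite _)
  have hDneP : D ≠ (P : Subgroup G) := by
    intro h
    apply hPQ
    have h1 : (P : Subgroup G) ≤ Q := by rw [← h]; exact inf_le_right
    exact Sylow.ext (P.is_maximal' Q.isPGroup' h1).symm
  have hDneQ : D ≠ (Q : Subgroup G) := by
    intro h
    apply hPQ
    have h1 : (Q : Subgroup G) ≤ P := by rw [← h]; exact inf_le_left
    exact Sylow.ext (Q.is_maximal' P.isPGroup' h1)
  have hBP := keyB P inf_le_left hDneP
  have hBQ := keyB Q inf_le_right hDneQ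
  haveI hDnorm : (D.subgroupOf Nn).Normal := Subgroup.normal_in_normalizer
  have hDpN : IsPGroup p (D.subgroupOf Nn) := hDp.comap_of_injective Nn.subtype Nn.subtype_injective
  have hDS : ∀ S : Sylow p Nn, D.subgroupOf Nn ≤ (S : Subgroup Nn) := fun S => hDpN.le_sylow_of_normal S
  have hcardS : ∀ S : Sylow p Nn, Nat.card D < Nat.card ((S : Subgroup Nn).map Nn.subtype) := by
    intro S
    have h1 : IsPGroup p (((P : Subgroup G) ⊓ Nn).subgroupOf Nn) :=
      (P.isPGroup'.to_le inf_le_left).comap_of_injective Nn.subtype Nn.subtype_injective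
    obtain ⟨S', hS'⟩ := h1.exists_le_sylow
    have h2 : Nat.card ((P : Subgroup G) ⊓ Nn : Subgroup G) ≤ Nat.card (S' : Subgroup Nn) := by
      rw [← Nat.card_congr (Subgroup.subgroupOfEquivOfLe (inf_le_right : (P : Subgroup G) ⊓ Nn ≤ Nn)).toEquiv]
      exact Subgroup.card_le_of_le hS'
    rw [Subgroup.card_map_of_injective Nn.subtype_injective,
      Nat.card_congr (Sylow.equiv S S').toEquiv]
    omega
  have hex : ∀ S : Sylow p Nn, ∃ T : Sylow p G, (S : Subgroup Nn).map Nn.subtype ≤ (T : Subgroup G) :=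
    fun S => (S.isPGroup'.map Nn.subtype).exists_le_sylow
  refine ⟨?_, ?_, ?_⟩
  · by_contra hle
    have hsub : Subsingleton (Sylow p Nn) := by
      have h1 : Nat.card (Sylow p Nn) ≤ 1 := by omega
      exact (Finite.card_le_one_iff_subsingleton).1 h1
    have hRle : ∀ R : Sylow p G, ∀ S : Sylow p Nn,
        (R : Subgroup G) ⊓ Nn ≤ (S : Subgroup Nn).map Nn.subtype := by
      intro R S
      have h1 : IsPGroup p (((R : Subgroup G) ⊓ Nn).subgroupOf Nn) :=
        (R.isPGroup'.to_le inf_le_left).comap_of_injective Nn.subtype Nn.subtype_injective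
      obtain ⟨S', hS'⟩ := h1.exists_le_sylow
      rw [Subsingleton.elim S S']
      intro y hy
      exact ⟨⟨y, hy.2⟩, hS' (Subgroup.mem_subgroupOf.2 hy), rfl⟩
    let S : Sylow p Nn := default
    obtain ⟨T, hT⟩ := hex S
    have e1 : T = P := keyA T P _ ((hRle P S).trans hT) inf_le_left hBP
    have e2 : T = Q := keyA T Q _ ((hRle Q S).trans hT) inf_le_left hBQ
    exact hPQ (e1.symm.trans e2)
  · intro S T hST
    obtain ⟨S₁, hS₁⟩ := hex S
    obtain ⟨T₁, hT₁⟩ := hex T
    have hne : S₁ ≠ T₁ := by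
      rintro rfl
      apply hST
      have hp1 : IsPGroup p ((S₁ : Subgroup G).subgroupOf Nn) :=
        S₁.isPGroup'.comap_of_injective Nn.subtype Nn.subtype_injective
      have hS2 : (S : Subgroup Nn) ≤ (S₁ : Subgroup G).subgroupOf Nn := fun y hy =>
        Subgroup.mem_subgroupOf.2 (hS₁ ⟨y, hy, rfl⟩)
      have hT2 : (T : Subgroup Nn) ≤ (S₁ : Subgroup G).subgroupOf Nn := fun y hy =>
        Subgroup.mem_subgroupOf.2 (hT₁ ⟨y, hy, rfl⟩)
      exact Sylow.ext ((S.is_maximal' hp1 hS2).symm.trans (T.is_maximal' hp1 hT2))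
    have h1 := hmax S₁ T₁ hne
    symm
    apply Subgroup.eq_of_le_of_card_ge (le_inf (hDS S) (hDS T))
    rw [Nat.card_congr (Subgroup.subgroupOfEquivOfLe hDN).toEquiv]
    refine le_trans ?_ h1
    rw [← Subgroup.card_map_of_injective Nn.subtype_injective]
    apply Subgroup.card_le_of_le
    rintro _ ⟨y, hy, rfl⟩
    exact ⟨hS₁ ⟨y, hy.1, rfl⟩, hT₁ ⟨y, hy.2, rfl⟩⟩
  · intro S
    obtain ⟨T, hT⟩ := hex S
    refine ⟨T, hT, fun T' hT' => ?_⟩
    exact keyA T' T _ hT' hT (hcardS S)

end Cfsg.Agent.S0986
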