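import Mathlib
import Cfsg.Statements.S0987
import Cfsg.Agent.Lib_helper1_Cores

set_option autoImplicit false
open Cfsg

namespace Cfsg.Agent.S0987


/-- If a finite group has order pqr for primes p < q < r, then its Sylow r-subgroups are normal. -/
theorem result {G : Type*} [Group G] [Finite G] (p q r : ℕ) (hp : p.Prime) (hq : q.Prime) [Fact r.Prime] (hpq : p < q) (hqr : q < r) (hG : Nat.card G = p * q * r) (R : Sylow r G) : (R : Subgroup G).Normal := by
  classical
  haveI : Fact p.Prime := ⟨hp⟩
  have hr : r.Prime := Fact.out
  have hpr : p < r := hpq.trans hqr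
  have hmin : (Nat.card G).minFac = p := by
    have h1 : (Nat.card G).minFac.Prime := Nat.minFac_prime (by
      rw [hG]; intro h
      have := hp.two_le
      have := hq.two_le
      have := hr.two_le
      have h2 : 2 * 2 * 2 ≤ p * q * r := by gcongr
      omega)
    have h2 : (Nat.card G).minFac ∣ p * q * r := hG ▸ Nat.minFac_dvd _
    have h3 : (Nat.card G).minFac ≤ p := Nat.minFac_le_of_dvd hp.two_le (by rw [hG]; exact ⟨q * r, by ring⟩)
    rcases (Nat.Prime.dvd_mul h1).1 h2 with h | h
    · rcases (Nat.Prime.dvd_mul h1).1 h with h | h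
      · exact (Nat.prime_dvd_prime_iff_eq h1 hp).1 h
      · have := (Nat.prime_dvd_prime_iff_eq h1 hq).1 h
        omega
    · have := (Nat.prime_dvd_prime_iff_eq h1 hr).1 h
      omega
  let P : Sylow p G := default
  have hPc : Nat.card P = p := by
    rw [Sylow.card_eq_multiplicity, hG, Nat.factorization_mul (Nat.mul_ne_zero hp.ne_zero hq.ne_zero) hr.ne_zero,
      Nat.factorization_mul hp.ne_zero hq.ne_zero, hp.factorization, hq.factorization, hr.factorization]
    simp [Finsupp.single_apply, hpq.ne', hpr.ne']
  have hcyc : IsCyclic P := isCyclic_of_prime_card hPc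
  have hcomp := IsCyclic.isComplement' hmin hcyc
  set K := (MonoidHom.transferSylow P (hcyc.normalizer_le_centralizer hmin)).ker with hK
  have hKc : Nat.card K = q * r := by
    have h := hcomp.card_mul
    rw [hPc, hG] at h
    have : Nat.card K * p = (q * r) * p := by rw [h]; ring
    exact Nat.eq_of_mul_eq_mul_right hp.pos this
  let R' : Sylow r K := default
  have hR'c : Nat.card R' = r := by
    rw [Sylow.card_eq_multiplicity, hKc, Nat.factorization_mul hq.ne_zero hr.ne_zero,
      hq.factorization, hr.factorization]
    simp [Finsupp.single_apply, hqr.ne]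
  have hn1 : Nat.card (Sylow r K) = 1 := by
    have h1 : Nat.card (Sylow r K) ∣ q := by
      have h := Sylow.card_dvd_index R'
      have h2 : (R' : Subgroup K).index = q := by
        have h3 := (R' : Subgroup K).card_mul_index
        rw [hR'c, hKc] at h3
        have : r * (R' : Subgroup K).index = r * q := by rw [h3]; ring
        exact Nat.eq_of_mul_eq_mul_left hr.pos this
      rwa [h2] at h
    have h2 := card_sylow_modEq_one r K
    rcases (Nat.dvd_prime hq).1 h1 with h | h
    · exact h
    · rw [h] at h2
      have h3 : q % r = 1 % r := h2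
      rw [Nat.mod_eq_of_lt hqr, Nat.mod_eq_of_lt hr.one_lt] at h3
      exact absurd h3 hq.one_lt.ne'
  haveI : Subsingleton (Sylow r K) := (Nat.card_eq_one_iff_unique.1 hn1).1
  haveI hR'n : (R' : Subgroup K).Normal := Sylow.normal_of_subsingleton R'
  haveI hR'ch : (R' : Subgroup K).Characteristic := Sylow.characteristic_of_normal R' hR'n
  have hNn : ((R' : Subgroup K).map K.subtype).Normal := ConjAct.normal_of_characteristic_of_normal
  have hNp : IsPGroup r ((R' : Subgroup K).map K.subtype) := R'.2.map _
  have hle : (R' : Subgroup K).map K.subtype ≤ R := by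
    have h1 := Cfsg.Agent.H1.le_pCore r hNn hNp
    rw [Cfsg.Agent.H1.pCore_eq_iInf_sylow] at h1
    exact h1.trans (iInf_le _ R)
  have hRc : Nat.card R = r := by
    rw [Sylow.card_eq_multiplicity, hG, Nat.factorization_mul (Nat.mul_ne_zero hp.ne_zero hq.ne_zero) hr.ne_zero,
      Nat.factorization_mul hp.ne_zero hq.ne_zero, hp.factorization, hq.factorization, hr.factorization]
    simp [Finsupp.single_apply, hqr.ne, hpr.ne]
  have heq : (R' : Subgroup K).map K.subtype = R := by
    apply Subgroup.eq_of_le_of_card_ge hle
    rw [hRc, Subgroup.card_map_of_injective K.subtype_injective, hR'c]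
  rw [← heq]
  exact hNn

end Cfsg.Agent.S0987
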