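import Cfsg.Statements.S0990
import Mathlib

set_option autoImplicit false
open Cfsg

namespace Cfsg.Agent.S0990

/-- Let p be an odd prime and P a Sylow p-subgroup of the symmetric group on a finite set with at least two elements. Then P is contained in the alternating group, and twice the order of the normalizer of P inside the alternating group equals the order of the normalizer of P in the symmetric group. -/
theorem result {α : Type*} [Fintype α] [DecidableEq α] (hα : 2 ≤ Fintype.card α) (p : ℕ) [Fact p.Prime] (hp : p ≠ 2) (P : Sylow p (Equiv.Perm α)) : (P : Subgroup (Equiv.Perm α)) ≤ alternatingGroup α ∧ 2 * Nat.card ↥(Subgroup.normalizer ((((P : Subgroup (Equiv.Perm α)).subgroupOf (alternatingGroup α) : Subgroup ↥(alternatingGroup α)) : Set ↥(alternatingGroup α)))) = Nat.card ↥(Subgroup.normalizer ((P : Subgroup (Equiv.Perm α)) : Set (Equiv.Perm α))) := by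
  classical
  have hpp : p.Prime := Fact.out
  have : Nontrivial α := Fintype.one_lt_card_iff_nontrivial.1 (by omega)
  have hle : (P : Subgroup (Equiv.Perm α)) ≤ alternatingGroup α := by
    intro x hx
    rw [Equiv.Perm.mem_alternatingGroup]
    obtain ⟨k, hk⟩ := (P.2 ⟨x, hx⟩)
    have hk' : x ^ (p ^ k) = 1 := by
      have := congrArg Subtype.val hk
      simpa using this
    have hs : (Equiv.Perm.sign x) ^ (p ^ k) = 1 := by
      rw [← map_pow, hk', map_one]
    have hodd : Odd (p ^ k) := (hpp.odd_of_ne_two hp).pow
    rcases Int.units_eq_one_or (Equiv.Perm.sign x) with h | h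
    · exact h
    · rw [h, hodd.neg_one_pow] at hs
      exact absurd hs (by decide)
  refine ⟨hle, ?_⟩
  have htop : Subgroup.normalizer ((P : Subgroup (Equiv.Perm α)) : Set (Equiv.Perm α)) ⊔ alternatingGroup α = ⊤ :=
    Sylow.normalizer_sup_eq_top' P hle
  rw [← Subgroup.subgroupOf_normalizer_eq hle]
  set N := Subgroup.normalizer ((P : Subgroup (Equiv.Perm α)) : Set (Equiv.Perm α)) with hN
  have h1 : (alternatingGroup α).relIndex N = 2 := by
    rw [← Subgroup.relIndex_sup_right, htop, Subgroup.relIndex_top_right,
      alternatingGroup.index_eq_two]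
  have h2 : Nat.card (N.subgroupOf (alternatingGroup α)) = Nat.card ((alternatingGroup α).subgroupOf N) := by
    rw [← Subgroup.inf_subgroupOf_right N (alternatingGroup α), ← Subgroup.inf_subgroupOf_left (alternatingGroup α) N]
    rw [Nat.card_congr (Subgroup.subgroupOfEquivOfLe (inf_le_right : N ⊓ alternatingGroup α ≤ alternatingGroup α)).toEquiv,
      Nat.card_congr (Subgroup.subgroupOfEquivOfLe (inf_le_left : N ⊓ alternatingGroup α ≤ N)).toEquiv]
  rw [h2, ← h1]
  exact Subgroup.index_mul_card _

end Cfsg.Agent.S0990
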