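import Cfsg.Statements.S0991
import Mathlib

set_option autoImplicit false
open Cfsg

namespace Cfsg.Agent.S0991


/-- Embedding Theorem: if a non-abelian finite simple group has a proper subgroup of index n, then it is isomorphic to a subgroup of the alternating group of degree n. -/
theorem result {G : Type*} [Group G] [Finite G] [IsSimpleGroup G] (hG : ¬ IsMulCommutative G) (H : Subgroup G) (hH : H ≠ ⊤) : ∃ f : G →* ↥(alternatingGroup (Fin H.index)), Function.Injective f := by
  classical
  have := Fintype.ofFinite (G ⧸ H)
  let φ : G →* Equiv.Perm (G ⧸ H) := MulAction.toPermHom G (G ⧸ H)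
  have hker : φ.ker = ⊥ := by
    rcases (φ.normal_ker).eq_bot_or_eq_top with h | h
    · exact h
    · exfalso
      apply hH
      rw [eq_top_iff, ← h, ← Subgroup.normalCore_eq_ker]
      exact Subgroup.normalCore_le H
  have hinj : Function.Injective φ := (MonoidHom.ker_eq_bot_iff φ).1 hker
  let e : (G ⧸ H) ≃ Fin H.index := Finite.equivFinOfCardEq (Subgroup.index_eq_card H).symm
  let ψ : G →* Equiv.Perm (Fin H.index) := (Equiv.permCongrHom e).toMonoidHom.comp φ
  have hψinj : Function.Injective ψ := (Equiv.permCongrHom e).injective.comp hinj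
  let σ : G →* ℤˣ := Equiv.Perm.sign.comp ψ
  have hσ : σ.ker = ⊤ := by
    rcases (σ.normal_ker).eq_bot_or_eq_top with h | h
    · exfalso
      apply hG
      have hσinj : Function.Injective σ := (MonoidHom.ker_eq_bot_iff σ).1 h
      exact ⟨⟨fun a b => hσinj (by rw [map_mul, map_mul, mul_comm])⟩⟩
    · exact h
  refine ⟨ψ.codRestrict (alternatingGroup (Fin H.index)) ?_, ?_⟩
  · intro g
    rw [Equiv.Perm.mem_alternatingGroup]
    have : g ∈ σ.ker := hσ ▸ Subgroup.mem_top g
    exact this
  · intro a b hab
    apply hψinj
    exact congrArg Subtype.val hab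

end Cfsg.Agent.S0991
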