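import Cfsg.Statements.S0992
import Cfsg.Agent.Lib_helper5_Klein2
import Cfsg.Agent.S0219

set_option autoImplicit false
open Cfsg

namespace Cfsg.Agent.S0992


/-- Let G be a non-abelian finite simple group of even order not divisible by 8, and T a Sylow 2-subgroup. Then T is a Klein four-group and the centralizer of T has index 3 in the normalizer of T. -/
theorem result {G : Type*} [Group G] [Finite G] [IsSimpleGroup G] (hG : ¬ IsMulCommutative G) (h2 : Even (Nat.card G)) (h8 : ¬ 8 ∣ Nat.card G) (T : Sylow 2 G) : IsKleinFour ↥(T : Subgroup G) ∧ (Subgroup.centralizer ((T : Subgroup G) : Set G)).relIndex (Subgroup.normalizer ((T : Subgroup G) : Set G)) = 3 := by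
  -- T is not cyclic
  have hncyc : ¬ IsCyclic (T : Subgroup G) := by
    intro hc
    obtain ⟨H, hH⟩ := Cfsg.Agent.S0219.result h2 T hc
    have hHn : H.Normal := Subgroup.normal_of_index_eq_two hH
    rcases hHn.eq_bot_or_eq_top with h | h
    · rw [h, Subgroup.index_bot] at hH
      have : IsCyclic G := isCyclic_of_prime_card (p := 2) hH
      exact hG IsCyclic.isMulCommutative
    · rw [h, Subgroup.index_top] at hH
      omega
  have hcard := T.card_eq_multiplicity
  set v := (Nat.card G).factorization 2 with hv
  have hv2 : v = 2 := by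
    have h1 : v < 3 := by
      by_contra h
      apply h8
      have h3 : 2 ^ 3 ∣ 2 ^ v := pow_dvd_pow 2 (not_lt.1 h)
      have h4 : 2 ^ v ∣ Nat.card G := hcard ▸ Subgroup.card_subgroup_dvd_card _
      exact h3.trans h4
    have h0 : v ≠ 0 := by
      intro h
      rw [h, pow_zero] at hcard
      apply hncyc
      have := (Nat.card_eq_one_iff_unique.1 hcard).1
      infer_instance
    have h1' : v ≠ 1 := by
      intro h
      rw [h, pow_one] at hcard
      exact hncyc (isCyclic_of_prime_card (p := 2) hcard)
    omega
  rw [hv2] at hcard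
  have hcard4 : Nat.card (T : Subgroup G) = 4 := by rw [hcard]; norm_num
  have hK : IsKleinFour (T : Subgroup G) := by
    refine ⟨hcard4, ?_⟩
    have : Nontrivial (T : Subgroup G) := by
      rw [← Finite.one_lt_card_iff_nontrivial, hcard4]; norm_num
    rw [Monoid.exponent_eq_prime_iff Nat.prime_two]
    intro g hg
    have h1 : orderOf g ∣ 4 := hcard4 ▸ orderOf_dvd_natCard g
    have h2 : orderOf g ≠ 4 := by
      intro h
      exact hncyc (isCyclic_of_orderOf_eq_card g (h.trans hcard4.symm))
    have h3 : orderOf g ≠ 1 := by
      rw [Ne, orderOf_eq_one_iff]; exact hg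
    have h4 : orderOf g ≤ 4 := Nat.le_of_dvd (by norm_num) h1
    interval_cases h5 : orderOf g <;> omega
  refine ⟨hK, ?_⟩
  set d := (Subgroup.centralizer ((T : Subgroup G) : Set G)).relIndex
    (Subgroup.normalizer ((T : Subgroup G) : Set G)) with hd
  have hd24 : d ∣ 24 := by
    have key := Subgroup.card_dvd_of_injective _
      (QuotientGroup.kerLift_injective (T : Subgroup G).normalizerMonoidHom)
    rw [Subgroup.normalizerMonoidHom_ker, ← Subgroup.index, ← Subgroup.relIndex] at key
    have key2 : Nat.card (MulAut (T : Subgroup G)) ∣ Nat.card (Equiv.Perm (T : Subgroup G)) := by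
      apply Subgroup.card_dvd_of_injective (MulAut.toPerm (T : Subgroup G))
      intro a b hab
      ext x
      have := congrArg (fun f : Equiv.Perm (T : Subgroup G) => f x) hab
      exact congrArg Subtype.val this
    rw [Nat.card_perm, hcard4] at key2
    exact key.trans key2
  have hdodd : ¬ 2 ∣ d := by
    intro h
    apply T.not_dvd_index
    have hTC : (T : Subgroup G) ≤ Subgroup.centralizer ((T : Subgroup G) : Set G) := by
      intro x hx
      rw [Subgroup.mem_centralizer_iff]
      intro y hy
      exact H5.klein_comm (T : Subgroup G) hy hx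
    exact (h.trans (Subgroup.relIndex_dvd_of_le_left _ hTC)).trans
      (Subgroup.relIndex_dvd_index_of_le Subgroup.le_normalizer)
  have hd1 : d ≠ 1 := by
    intro h
    have hNC := Subgroup.relIndex_eq_one.1 h
    have hcompl := MonoidHom.ker_transferSylow_isComplement' T hNC
    have hmul := hcompl.card_mul_card
    rcases (MonoidHom.normal_ker (MonoidHom.transferSylow T hNC)).eq_bot_or_eq_top with h | h
    · rw [h, Subgroup.card_bot, one_mul] at hmul
      have htop := Subgroup.eq_top_of_card_eq _ hmul
      apply hG
      constructor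
      constructor
      intro a b
      exact H5.klein_comm (T : Subgroup G) (htop ▸ Subgroup.mem_top a) (htop ▸ Subgroup.mem_top b)
    · rw [h, Subgroup.card_top, hcard4] at hmul
      have : 0 < Nat.card G := Nat.card_pos
      omega
  have hle : d ≤ 24 := Nat.le_of_dvd (by norm_num) hd24
  clear_value d
  interval_cases d <;> omega

end Cfsg.Agent.S0992
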