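import Cfsg.Statements.S0995
import Mathlib
import Cfsg.Agent.Lib_helper3_SelfCent

set_option autoImplicit false
open Cfsg

namespace Cfsg.Agent.S0995

/-- Let G be a finite perfect group containing an element z of prime order p whose centralizer is the cyclic group it generates. Let t be the number of conjugacy classes of elements of order p. Then t divides p - 1, the number of Sylow p-subgroups has the form 1 + n * p, and |G| * t = (p - 1) * p * (1 + n * p). -/
theorem result {G : Type*} [Group G] [Finite G] (hperf : commutator G = ⊤) (p : ℕ) [Fact p.Prime] (z : G) (hz : orderOf z = p) (hC : Subgroup.centralizer ({z} : Set G) = Subgroup.zpowers z) : ∃ n t : ℕ, t = Nat.card {c : ConjClasses G // ∃ g : G, ConjClasses.mk g = c ∧ orderOf g = p} ∧ t ∣ p - 1 ∧ Nat.card (Sylow p G) = 1 + n * p ∧ Nat.card G * t = (p - 1) * p * (1 + n * p) := by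
  have hmod := card_sylow_modEq_one p G
  have hpp : p.Prime := Fact.out
  have hpos : 0 < Nat.card (Sylow p G) := Nat.card_pos
  obtain ⟨n, hn⟩ : ∃ n, Nat.card (Sylow p G) = 1 + n * p := by
    have h1 : p ∣ Nat.card (Sylow p G) - 1 := (Nat.modEq_iff_dvd' hpos).1 hmod.symm
    obtain ⟨n, hn⟩ := h1
    exact ⟨n, by rw [mul_comm n p, ← hn]; omega⟩
  have hcongr : Nat.card {c : ConjClasses G // ∃ g : G, ConjClasses.mk g = c ∧ orderOf g = p}
      = Nat.card {C : ConjClasses G // ∃ g ∈ C.carrier, orderOf g = p} := by
    apply Nat.card_congr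
    exact Equiv.subtypeEquivRight (fun C => by
      simp only [ConjClasses.mem_carrier_iff_mk_eq])
  refine ⟨n, _, rfl, ?_, hn, ?_⟩
  · rw [hcongr]
    exact Dvd.intro_left _ (H3.selfCent_relIndex_mul hz hC)
  · rw [hcongr, H3.selfCent_order_formula hz hC, hn]

end Cfsg.Agent.S0995
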