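import Mathlib
import Cfsg.Statements.S1009
import Cfsg.Agent.Lib_helper7_Sylow
import Cfsg.Agent.Lib_helper3_Sylow2

set_option autoImplicit false
open Cfsg

namespace Cfsg.Agent.S1009

open Subgroup Cfsg.Agent in

/-- Brodkey's Theorem: if a finite group has abelian Sylow p-subgroups, then there are two Sylow p-subgroups whose intersection equals the intersection of all Sylow p-subgroups. -/
theorem result {G : Type*} [Group G] [Finite G] (p : ℕ) [Fact p.Prime] (hab : ∀ P : Sylow p G, IsMulCommutative ↥(P : Subgroup G)) : ∃ P Q : Sylow p G, (P : Subgroup G) ⊓ (Q : Subgroup G) = ⨅ R : Sylow p G, (R : Subgroup G) := by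
  obtain ⟨⟨P, Q⟩, hmin⟩ := Finite.exists_min
    (fun x : Sylow p G × Sylow p G => Nat.card ((x.1 : Subgroup G) ⊓ x.2 : Subgroup G))
  refine ⟨P, Q, le_antisymm (le_iInf fun R => ?_) ((iInf_le _ P).trans_eq rfl |> fun h => le_inf h (iInf_le _ Q))⟩
  set D : Subgroup G := (P : Subgroup G) ⊓ Q with hD
  set M : Subgroup G := normalizer (D : Set G) with hM
  have hab' : ∀ (P' : Sylow p G) (E : Subgroup G), E ≤ P' → (P' : Subgroup G) ≤ normalizer (E : Set G) := by
    intro P' E hE x hx
    rw [mem_normalizer_iff]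
    intro y
    have key : ∀ z ∈ E, x * z * x⁻¹ = z := by
      intro z hz
      have := congrArg Subtype.val ((hab P').is_comm.comm ⟨x, hx⟩ ⟨z, hE hz⟩)
      change x * z = z * x at this
      rw [this]; group
    constructor
    · intro hy; rw [key y hy]; exact hy
    · intro hy
      have h1 : x * y * x⁻¹ ∈ (P' : Subgroup G) := hE hy
      have h2 : y ∈ (P' : Subgroup G) := by
        have : y = x⁻¹ * (x * y * x⁻¹) * x := by group
        rw [this]; exact mul_mem (mul_mem (inv_mem hx) h1) hx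
      have := congrArg Subtype.val ((hab P').is_comm.comm ⟨x, hx⟩ ⟨y, h2⟩)
      change x * y = y * x at this
      have h3 : x * y * x⁻¹ = y := by rw [this]; group
      rwa [h3] at hy
  have hPM : (P : Subgroup G) ≤ M := hab' P D inf_le_left
  have hQM : (Q : Subgroup G) ≤ M := hab' Q D inf_le_right
  have hsyl : H7.IsSylowIn p (P : Subgroup G) M :=
    ⟨hPM, P.2, fun h => P.not_dvd_index (h.trans (relIndex_dvd_index_of_le hPM))⟩
  obtain ⟨x, hxM, hx⟩ := hsyl.exists_conj_le (Q := (R : Subgroup G) ⊓ M)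
    (R.2.to_le inf_le_left) inf_le_right
  rw [H7.map_conj_le_iff] at hx
  have hle : ((R : Subgroup G) ⊓ ((x⁻¹ • Q : Sylow p G) : Subgroup G)) ≤ D := by
    intro y hy
    have hy1 : y ∈ (R : Subgroup G) := hy.1
    have hy2 : x * y * x⁻¹ ∈ Q := by
      have := (H3.mem_smul_sylow_iff Q x⁻¹ y).1 hy.2
      simpa using this
    have hyM : y ∈ M := by
      have : y = x⁻¹ * (x * y * x⁻¹) * x := by group
      rw [this]
      exact M.mul_mem (M.mul_mem (M.inv_mem hxM) (hQM hy2)) hxM
    have hy3 : x * y * x⁻¹ ∈ (P : Subgroup G) := hx y ⟨hy1, hyM⟩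
    exact (mem_normalizer_iff.1 hxM y).2 ⟨hy3, hy2⟩
  have hcard := hmin (R, x⁻¹ • Q)
  have heq := Subgroup.eq_of_le_of_card_ge hle hcard
  rw [← heq]
  exact inf_le_left

end Cfsg.Agent.S1009
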