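import Cfsg.Statements.S1012
import Mathlib

set_option autoImplicit false
open Cfsg

namespace Cfsg.Agent.S1012

theorem card_carrier_mul' {G : Type*} [Group G] (g : G) :
    Nat.card (ConjClasses.mk g).carrier * Nat.card (Subgroup.centralizer ({g} : Set G)) =
      Nat.card G := by
  rw [Subgroup.nat_card_centralizer_nat_card_stabilizer, ← ConjAct.orbit_eq_carrier_conjClasses,
    Nat.card_coe_set_eq, ← MulAction.index_stabilizer, Subgroup.index_mul_card]
  rfl


theorem card_syl3 {G : Type*} [Group G] [Finite G] (hG : Nat.card G = 24) (R : Sylow 3 G) :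
    Nat.card (R : Subgroup G) = 3 := by
  have : Fact (Nat.Prime 3) := ⟨Nat.prime_three⟩
  obtain ⟨k, hk⟩ := IsPGroup.iff_card.mp R.isPGroup'
  have h1 : Nat.card (R : Subgroup G) ∣ 24 := hG ▸ Subgroup.card_subgroup_dvd_card _
  have h2 : 3 ∣ Nat.card (R : Subgroup G) := R.dvd_card_of_dvd_card (by rw [hG]; norm_num)
  rw [hk] at h1 h2 ⊢
  rcases k with _ | _ | k
  · norm_num at h2
  · norm_num
  · exfalso
    have : 9 ∣ 24 := (Dvd.intro (3 ^ k) (by ring)).trans h1
    norm_num at this

theorem order_six {G : Type*} [Group G] (r t : G) (hr : orderOf r = 3) (ht : orderOf t = 2)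
    (hc : Commute r t) : orderOf (r * t) = 6 := by
  rw [hc.orderOf_mul_eq_mul_orderOf_of_coprime (by rw [hr, ht]; norm_num), hr, ht]

theorem not_one {G : Type*} [Group G] [Finite G] (hG : Nat.card G = 24)
    (h6 : ∀ g : G, orderOf g ≠ 6) : Nat.card (Sylow 3 G) ≠ 1 := by
  classical
  intro h1
  have : Fact (Nat.Prime 3) := ⟨Nat.prime_three⟩
  have hss : Subsingleton (Sylow 3 G) := (Nat.card_eq_one_iff_unique.mp h1).1
  obtain ⟨r, hr⟩ := exists_prime_orderOf_dvd_card' (G := G) 3 (by rw [hG]; norm_num)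
  have hp : IsPGroup 3 (Subgroup.zpowers r) := by
    apply IsPGroup.of_card (n := 1)
    rw [Nat.card_zpowers, hr, pow_one]
  obtain ⟨R, hR⟩ := hp.exists_le_sylow
  have hrR : r ∈ R := hR (Subgroup.mem_zpowers r)
  have hr1 : r ≠ 1 := by rintro rfl; simp at hr
  have hsub : (ConjClasses.mk r).carrier ⊆ ((R : Subgroup G) : Set G) \ {1} := by
    intro x hx
    rw [ConjClasses.mem_carrier_iff_mk_eq, ConjClasses.mk_eq_mk_iff_isConj, isConj_comm,
      isConj_iff] at hx
    obtain ⟨g, rfl⟩ := hx
    refine ⟨?_, ?_⟩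
    · have h2 : g * r * g⁻¹ ∈ ((g • R : Sylow 3 G) : Subgroup G) := by
        rw [Sylow.coe_subgroup_smul, Subgroup.mem_smul_pointwise_iff_exists]
        exact ⟨r, hrR, rfl⟩
      rw [Subsingleton.elim (g • R) R] at h2
      exact h2
    · rw [Set.mem_singleton_iff, conj_eq_one_iff]
      exact hr1
  have hcl : Nat.card (ConjClasses.mk r).carrier ≤ 2 := by
    rw [Nat.card_coe_set_eq]
    calc (ConjClasses.mk r).carrier.ncard ≤ (((R : Subgroup G) : Set G) \ {1}).ncard :=
          Set.ncard_le_ncard hsub (Set.toFinite _)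
      _ = 2 := by
          rw [Set.ncard_sdiff_singleton_of_mem (one_mem _), ← Nat.card_coe_set_eq]
          have := card_syl3 hG R
          have e : Nat.card (((R : Subgroup G) : Set G)) = Nat.card (R : Subgroup G) := rfl
          rw [e, this]
  have hmul := card_carrier_mul' r
  rw [hG] at hmul
  have heven : 2 ∣ Nat.card (Subgroup.centralizer ({r} : Set G)) := by
    generalize Nat.card (ConjClasses.mk r).carrier = a at hcl hmul
    generalize Nat.card (Subgroup.centralizer ({r} : Set G)) = b at hmul ⊢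
    interval_cases a <;> omega
  obtain ⟨t', ht'⟩ := exists_prime_orderOf_dvd_card'
    (G := Subgroup.centralizer ({r} : Set G)) 2 heven
  have ht : orderOf (t' : G) = 2 := by rw [Subgroup.orderOf_coe, ht']
  have hcomm : Commute r (t' : G) := (Subgroup.mem_centralizer_singleton_iff.mp t'.2).symm
  exact h6 _ (order_six r t' hr ht hcomm)


/-- A group of order 24 containing no element of order 6 is isomorphic to the symmetric group of degree 4. -/
theorem result {G : Type*} [Group G] [Finite G] (h : Nat.card G = 24) (h6 : ∀ g : G, orderOf g ≠ 6) : Nonempty (G ≃* Equiv.Perm (Fin 4)) := by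
  classical
  have hG := h
  have : Fact (Nat.Prime 3) := ⟨Nat.prime_three⟩
  have hn3 : Nat.card (Sylow 3 G) = 4 := by
    obtain ⟨R⟩ : Nonempty (Sylow 3 G) := inferInstance
    have h1 := card_sylow_modEq_one 3 G
    have h2 : Nat.card (Sylow 3 G) ∣ 24 := by
      rw [← hG]
      exact (Sylow.card_dvd_index R).trans (Subgroup.index_dvd_card _)
    have h4 : Nat.card (Sylow 3 G) ≤ 24 := Nat.le_of_dvd (by norm_num) h2
    have h5 := not_one hG h6
    unfold Nat.ModEq at h1
    generalize Nat.card (Sylow 3 G) = n at h1 h2 h4 h5 ⊢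
    interval_cases n <;> omega
  have hNR : ∀ R : Sylow 3 G, Nat.card (Subgroup.normalizer ((R : Subgroup G) : Set G)) = 6 := by
    intro R
    have h1 := Sylow.card_eq_index_normalizer R
    have h1' : (Subgroup.normalizer ((R : Subgroup G) : Set G)).index = 4 := by
      rw [← hn3]; exact h1.symm
    have h2 := Subgroup.index_mul_card (Subgroup.normalizer ((R : Subgroup G) : Set G))
    rw [h1', hG] at h2
    omega
  have hnt : Nontrivial (Sylow 3 G) := by
    rw [← Finite.one_lt_card_iff_nontrivial, hn3]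
    norm_num
  -- (i)
  have c3 : ∀ k : G, (∀ R : Sylow 3 G, k • R = R) → orderOf k ≠ 3 := by
    intro k hkR hk3
    have hk1 : k ≠ 1 := by rintro rfl; simp at hk3
    have hmem : ∀ R : Sylow 3 G, k ∈ (R : Subgroup G) := by
      intro R
      have hN : k ∈ Subgroup.normalizer ((R : Subgroup G) : Set G) :=
        Sylow.smul_eq_iff_mem_normalizer.mp (hkR R)
      have hp : IsPGroup 3 (Subgroup.zpowers k ⊔ (R : Subgroup G) : Subgroup G) := by
        apply IsPGroup.to_sup_of_normal_right' _ R.isPGroup'
        · rw [Subgroup.zpowers_le]; exact hN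
        · apply IsPGroup.of_card (n := 1)
          rw [Nat.card_zpowers, hk3, pow_one]
      have hmax := R.is_maximal' hp le_sup_right
      have hx' : k ∈ (Subgroup.zpowers k ⊔ (R : Subgroup G) : Subgroup G) :=
        (le_sup_left : Subgroup.zpowers k ≤ _) (Subgroup.mem_zpowers k)
      rw [hmax] at hx'
      exact hx'
    obtain ⟨R₁, R₂, hne⟩ := exists_pair_ne (Sylow 3 G)
    have hz3 : ∀ R : Sylow 3 G, Subgroup.zpowers k = R := by
      intro R
      have hle : Subgroup.zpowers k ≤ R := by
        rw [Subgroup.zpowers_le]; exact hmem R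
      apply Subgroup.eq_of_le_of_card_ge hle
      rw [card_syl3 hG R, Nat.card_zpowers, hk3]
    exact hne (Sylow.ext ((hz3 R₁).symm.trans (hz3 R₂)))
  -- (ii)
  have c2 : ∀ t : G, (∀ R : Sylow 3 G, t • R = R) → orderOf t ≠ 2 := by
    intro t htR ht2
    obtain ⟨r, hr⟩ := exists_prime_orderOf_dvd_card' (G := G) 3 (by rw [hG]; norm_num)
    have hp : IsPGroup 3 (Subgroup.zpowers r) := by
      apply IsPGroup.of_card (n := 1)
      rw [Nat.card_zpowers, hr, pow_one]
    obtain ⟨R, hR⟩ := hp.exists_le_sylow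
    have hrR : r ∈ R := hR (Subgroup.mem_zpowers r)
    have htR' : ∀ R : Sylow 3 G, t⁻¹ • R = R := by
      intro R
      rw [inv_smul_eq_iff, htR]
    have h1 : t * r * t⁻¹ ∈ ((t • R : Sylow 3 G) : Subgroup G) := by
      rw [Sylow.coe_subgroup_smul, Subgroup.mem_smul_pointwise_iff_exists]
      exact ⟨r, hrR, rfl⟩
    rw [htR R] at h1
    have hxR : t * r * t⁻¹ * r⁻¹ ∈ (R : Subgroup G) := mul_mem h1 (inv_mem hrR)
    have hxK : ∀ R' : Sylow 3 G, (t * r * t⁻¹ * r⁻¹) • R' = R' := by
      intro R'
      rw [mul_smul, mul_smul, mul_smul, htR', htR, smul_inv_smul]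
    have hx1 : t * r * t⁻¹ * r⁻¹ = 1 := by
      by_contra hne
      apply c3 _ hxK
      have hd := Subgroup.orderOf_dvd_natCard _ hxR
      rw [card_syl3 hG R] at hd
      rcases (Nat.dvd_prime Nat.prime_three).mp hd with h' | h'
      · exact absurd (orderOf_eq_one_iff.mp h') hne
      · exact h'
    have hc : Commute r t := by
      show r * t = t * r
      calc r * t = (t * r * t⁻¹ * r⁻¹)⁻¹ * (t * r) := by group
        _ = t * r := by rw [hx1]; simp
    exact h6 _ (order_six r t hr ht2 hc)
  have hinj : Function.Injective (MulAction.toPermHom G (Sylow 3 G)) := by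
    rw [injective_iff_map_eq_one]
    intro k hk
    have hkR : ∀ R : Sylow 3 G, k • R = R := by
      intro R
      have := congrArg (fun f : Equiv.Perm (Sylow 3 G) => f R) hk
      simpa using this
    obtain ⟨R⟩ : Nonempty (Sylow 3 G) := inferInstance
    have hN : k ∈ Subgroup.normalizer ((R : Subgroup G) : Set G) :=
      Sylow.smul_eq_iff_mem_normalizer.mp (hkR R)
    have hd := Subgroup.orderOf_dvd_natCard _ hN
    rw [hNR R] at hd
    have hle : orderOf k ≤ 6 := Nat.le_of_dvd (by norm_num) hd
    have h2' := c2 k hkR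
    have h3' := c3 k hkR
    have h6' := h6 k
    have hpos := orderOf_pos k
    have : orderOf k = 1 := by
      generalize orderOf k = o at hd hle h2' h3' h6' hpos
      interval_cases o <;> omega
    exact orderOf_eq_one_iff.mp this
  have hbij : Function.Bijective (MulAction.toPermHom G (Sylow 3 G)) := by
    rw [Nat.bijective_iff_injective_and_card]
    refine ⟨hinj, ?_⟩
    rw [hG, Nat.card_perm, hn3]
    rfl
  have e1 : G ≃* Equiv.Perm (Sylow 3 G) := MulEquiv.ofBijective _ hbij
  have e2 : Sylow 3 G ≃ Fin 4 := hn3 ▸ Finite.equivFin (Sylow 3 G)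
  exact ⟨e1.trans e2.permCongrHom⟩

end Cfsg.Agent.S1012
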