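import Cfsg.Statements.S1013
import Cfsg.Agent.Lib_helper7_Cores
import Cfsg.Agent.Lib_helper1_Cores
import Mathlib.GroupTheory.GroupAction.Primitive
import Mathlib.GroupTheory.Transfer

set_option autoImplicit false
open Cfsg

namespace Cfsg.Agent.S1013

open Subgroup Cfsg.Agent.H7
open scoped Pointwise

/-- Let G be a transitive permutation group of prime degree p having more than one Sylow p-subgroup, and suppose a Sylow p-subgroup P has prime index in its normalizer. Then G is simple. -/
theorem result {α : Type*} [Fintype α] [DecidableEq α] {p : ℕ} [Fact p.Prime] (hα : Fintype.card α = p) (G : Subgroup (Equiv.Perm α)) [MulAction.IsPretransitive ↥G α] (P : Sylow p ↥G) (hn : 1 < Nat.card (Sylow p ↥G)) (ht : (((P : Subgroup ↥G).subgroupOf (Subgroup.normalizer ((P : Subgroup ↥G) : Set ↥G))).index).Prime) : IsSimpleGroup ↥G := by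
  classical
  have hp : p.Prime := Fact.out
  have hαc : Nat.card α = p := by rw [Nat.card_eq_fintype_card, hα]
  haveI : Nonempty α := by
    rw [← Fintype.card_pos_iff, hα]; exact hp.pos
  haveI hprim : MulAction.IsPreprimitive ↥G α := MulAction.IsPreprimitive.of_prime_card (hαc ▸ hp)
  -- transitive subgroups have order divisible by p
  have htrans : ∀ H : Subgroup ↥G, H.Normal → H ≠ ⊥ → p ∣ Nat.card H := by
    intro H hHn hH
    have hfix : MulAction.fixedPoints ↥H α ≠ Set.univ := by
      intro huniv
      apply hH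
      rw [eq_bot_iff]
      intro h hh
      rw [mem_bot]
      apply Subtype.ext
      apply Equiv.ext
      intro a
      have : a ∈ MulAction.fixedPoints ↥H α := huniv ▸ Set.mem_univ a
      exact this ⟨h, hh⟩
    haveI := MulAction.IsQuasiPreprimitive.isPretransitive_of_normal (G := ↥G) (N := H) hfix
    obtain ⟨a⟩ := (inferInstance : Nonempty α)
    have h1 := MulAction.index_stabilizer_of_transitive ↥H a
    rw [hαc] at h1
    rw [← h1]
    exact index_dvd_card _
  have hGne : (⊤ : Subgroup ↥G) ≠ ⊥ := by
    intro h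
    have hsub : Subsingleton (Subgroup ↥G) := subsingleton_iff_bot_eq_top.mp h.symm
    have : Subsingleton (Sylow p ↥G) := ⟨fun A B => Sylow.ext (Subsingleton.elim _ _)⟩
    have := Finite.card_le_one_iff_subsingleton.mpr this
    omega
  have hpG : p ∣ Nat.card ↥G := by
    have := htrans ⊤ inferInstance hGne
    rwa [card_top] at this
  have hPcard : Nat.card (P : Subgroup ↥G) = p := by
    obtain ⟨k, hk⟩ := IsPGroup.iff_card.mp P.2
    have h1 : p ∣ Nat.card (P : Subgroup ↥G) := by
      have := P.pow_dvd_card_of_pow_dvd_card (n := 1) (by rwa [pow_one])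
      rwa [pow_one] at this
    have h2 : Nat.card (P : Subgroup ↥G) ∣ p.factorial := by
      have e1 : Nat.card (P : Subgroup ↥G) ∣ Nat.card ↥G := card_subgroup_dvd_card _
      have e2 : Nat.card ↥G ∣ Nat.card (Equiv.Perm α) := card_subgroup_dvd_card G
      rw [Nat.card_eq_fintype_card (α := Equiv.Perm α), Fintype.card_perm, hα] at e2
      exact e1.trans e2
    rw [hk] at h1 h2 ⊢
    have hk1 : k ≠ 0 := by
      rintro rfl
      rw [pow_zero, Nat.dvd_one] at h1
      exact hp.one_lt.ne' h1
    have hk2 : k < 2 := by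
      by_contra hge
      push Not at hge
      have h3 : p ^ 2 ∣ p.factorial := (pow_dvd_pow p hge).trans h2
      obtain ⟨m, rfl⟩ : ∃ m, p = m + 1 := ⟨p - 1, by have := hp.pos; omega⟩
      rw [Nat.factorial_succ, pow_two] at h3
      have h4 := Nat.dvd_of_mul_dvd_mul_left (Nat.succ_pos m) h3
      have := (hp.dvd_factorial).mp h4
      omega
    have : k = 1 := by omega
    rw [this, pow_one]
  haveI : Nontrivial ↥G := by
    rw [← Finite.one_lt_card_iff_nontrivial]
    exact lt_of_lt_of_le hp.one_lt (Nat.le_of_dvd Nat.card_pos hpG)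
  refine ⟨fun H hHn => ?_⟩
  by_cases hH : H = ⊥
  · exact Or.inl hH
  right
  have hpH := htrans H hHn hH
  -- P ≤ H
  have hPH : (P : Subgroup ↥G) ≤ H := by
    obtain ⟨x, hx⟩ := exists_prime_orderOf_dvd_card' p hpH
    have hxo : orderOf (x : ↥G) = p := by rw [← hx, Subgroup.orderOf_coe]
    have hzp : IsPGroup p (zpowers (x : ↥G)) := IsPGroup.of_card (n := 1) (by rw [Nat.card_zpowers, hxo, pow_one])
    obtain ⟨g, -, hg⟩ := (Sylow_isSylowIn_top P).exists_conj_le hzp le_top
    have heq : (zpowers (x : ↥G)).map (MulAut.conj g).toMonoidHom = P := by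
      apply eq_of_le_of_card_ge hg
      rw [card_map_conj, Nat.card_zpowers, hxo, hPcard]
    rw [← heq, map_conj_le_iff]
    intro y hy
    exact hHn.conj_mem y (zpowers_le.mpr x.2 hy) g
  have hfrat := Sylow.normalizer_sup_eq_top' P hPH
  set NP := normalizer ((P : Subgroup ↥G) : Set ↥G) with hNP
  have hPNP : (P : Subgroup ↥G) ≤ NP := le_normalizer
  have hidx : ((P : Subgroup ↥G).relIndex NP).Prime := ht
  have hmul := relIndex_mul_relIndex (P : Subgroup ↥G) (NP ⊓ H) NP (le_inf hPNP hPH) inf_le_left
  rcases (Nat.dvd_prime hidx).mp (Dvd.intro_left _ hmul) with h1 | h1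
  · -- NP ⊓ H = NP
    rw [relIndex_eq_one] at h1
    have : NP ≤ H := fun y hy => (h1 hy).2
    rw [← hfrat]
    exact (sup_eq_right.mpr this).symm
  · exfalso
    rw [h1] at hmul
    have h2 : (P : Subgroup ↥G).relIndex (NP ⊓ H) = 1 := by
      have hpos := hidx.pos
      exact Nat.eq_of_mul_eq_mul_right hpos (by rw [hmul, one_mul])
    rw [relIndex_eq_one] at h2
    -- Burnside in H
    set P' : Sylow p ↥H := P.subtype hPH with hP'
    have hP'coe : (P' : Subgroup ↥H) = (P : Subgroup ↥G).subgroupOf H := rfl
    have hPcomm : ∀ a ∈ (P : Subgroup ↥G), ∀ b ∈ (P : Subgroup ↥G), a * b = b * a := by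
      have hcyc : IsCyclic (P : Subgroup ↥G) := isCyclic_of_prime_card hPcard
      intro a ha b hb
      exact congrArg Subtype.val (hcyc.commGroup.mul_comm ⟨a, ha⟩ ⟨b, hb⟩)
    have hN : normalizer ((P' : Subgroup ↥H) : Set ↥H) ≤ centralizer ((P' : Subgroup ↥H) : Set ↥H) := by
      intro y hy
      have hyP : (y : ↥G) ∈ (P : Subgroup ↥G) := by
        apply h2
        refine mem_inf.mpr ⟨?_, y.2⟩
        rw [hNP, mem_normalizer_iff]
        intro z
        constructor
        · intro hz
          have := (mem_normalizer_iff.mp hy ⟨z, hPH hz⟩).mp (mem_subgroupOf.mpr hz)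
          exact mem_subgroupOf.mp this
        · intro hz
          have hzH : z ∈ H := by
            have := hHn.conj_mem _ (hPH hz) (y : ↥G)⁻¹
            simpa [mul_assoc] using this
          have := (mem_normalizer_iff.mp hy ⟨z, hzH⟩).mpr (mem_subgroupOf.mpr hz)
          exact mem_subgroupOf.mp this
      rw [mem_centralizer_iff]
      intro z hz
      exact Subtype.ext (hPcomm _ (mem_subgroupOf.mp hz) _ hyP)
    have hcompl := MonoidHom.ker_transferSylow_isComplement' P' hN
    have hP'card : Nat.card (P' : Subgroup ↥H) = p := by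
      rw [hP'coe, Nat.card_congr (subgroupOfEquivOfLe hPH).toEquiv, hPcard]
    have hKle : (MonoidHom.transferSylow P' hN).ker ≤ Cfsg.pPrimeCore p ↥H := by
      apply le_pPrimeCore (MonoidHom.normal_ker _)
      have e1 := hcompl.card_mul_card
      have e2 := (P' : Subgroup ↥H).card_mul_index
      have e3 : Nat.card (MonoidHom.transferSylow P' hN).ker = (P' : Subgroup ↥H).index := by
        have hpos : 0 < Nat.card (P' : Subgroup ↥H) := Nat.card_pos
        rw [← e2, mul_comm] at e1
        exact Nat.eq_of_mul_eq_mul_left hpos e1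
      rw [e3]
      exact ((Nat.Prime.coprime_iff_not_dvd hp).mpr P'.not_dvd_index).symm
    have hOn : ((Cfsg.pPrimeCore p ↥H).map H.subtype).Normal := by
      haveI := Cfsg.Agent.H1.pPrimeCore_characteristic (G := ↥H) (p := p)
      exact ConjAct.normal_of_characteristic_of_normal
    have hObot : (Cfsg.pPrimeCore p ↥H).map H.subtype = ⊥ := by
      by_contra hne
      have e1 := htrans _ hOn hne
      rw [card_map_of_injective H.subtype_injective] at e1
      have e2 := pPrimeCore_coprime (G := ↥H) p
      exact hp.one_lt.ne' (Nat.eq_one_of_dvd_coprimes e2 e1 dvd_rfl)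
    have hKbot : (MonoidHom.transferSylow P' hN).ker = ⊥ := by
      rw [eq_bot_iff]
      refine hKle.trans ?_
      rw [Subgroup.map_eq_bot_iff_of_injective _ H.subtype_injective] at hObot
      exact hObot.le
    have hHcard : Nat.card H = p := by
      have e1 := hcompl.card_mul_card
      rw [hKbot, card_bot, one_mul, hP'card] at e1
      exact e1.symm
    have hPeq : (P : Subgroup ↥G) = H := eq_of_le_of_card_ge hPH (by rw [hHcard, hPcard])
    have hPn : (P : Subgroup ↥G).Normal := hPeq ▸ hHn
    haveI := Sylow.unique_of_normal P hPn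
    rw [Nat.card_unique] at hn
    exact lt_irrefl 1 hn

end Cfsg.Agent.S1013
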