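import Mathlib
import Cfsg.Statements.S1018

set_option autoImplicit false
open Cfsg

namespace Cfsg.Agent.S1018

open Subgroup

theorem zpowers_eq_of_mem {G : Type*} [Group G] [Finite G] {p : ℕ} [Fact p.Prime] (P : Subgroup G)
    (hP : Nat.card P = p) (u : G) (hu : u ∈ P) (hu1 : u ≠ 1) : zpowers u = P := by
  apply eq_of_le_of_card_ge (by rw [zpowers_le]; exact hu)
  rw [hP, Nat.card_zpowers]
  have h1 : orderOf u ∣ p := by
    have := orderOf_dvd_natCard (⟨u, hu⟩ : P)
    rwa [Subgroup.orderOf_mk, hP] at this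
  rcases (Nat.dvd_prime Fact.out).1 h1 with h | h
  · exact absurd (orderOf_eq_one_iff.1 h) hu1
  · exact h.ge

theorem mem_normalizer_fin {G : Type*} [Group G] {P : Subgroup G} [Finite P] {g : G}
    (h : ∀ x ∈ P, g * x * g⁻¹ ∈ P) : g ∈ normalizer (P : Set G) := by
  rw [Subgroup.mem_normalizer_iff_map_conj_eq]
  apply Subgroup.eq_of_le_of_card_ge
  · rintro _ ⟨x, hx, rfl⟩
    exact h x hx
  · exact (Subgroup.card_map_of_injective (MulAut.conj g).injective).ge

/-- Let P be a Sylow p-subgroup of order p of a finite group G, and consider the action of G on the left cosets of the normalizer N of P. Then every element of order p fixes exactly one coset, and an element of N that does not centralize P fixes at most as many cosets as there are orbits of P. -/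
theorem result {G : Type*} [Group G] [Finite G] (p : ℕ) [Fact p.Prime] (P : Sylow p G) (hP : Nat.card ↥(P : Subgroup G) = p) : (∀ y : G, orderOf y = p → Nat.card (MulAction.fixedBy (G ⧸ Subgroup.normalizer ((P : Subgroup G) : Set G)) y) = 1) ∧ ∀ x : G, x ∈ Subgroup.normalizer ((P : Subgroup G) : Set G) → x ∉ Subgroup.centralizer ((P : Subgroup G) : Set G) → Nat.card (MulAction.fixedBy (G ⧸ Subgroup.normalizer ((P : Subgroup G) : Set G)) x) ≤ Nat.card (MulAction.orbitRel.Quotient ↥(P : Subgroup G) (G ⧸ Subgroup.normalizer ((P : Subgroup G) : Set G))) := by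
  classical
  have hp : p.Prime := Fact.out
  set N := normalizer ((P : Subgroup G) : Set G) with hN
  have hfix : ∀ (y g : G), y • (g : G ⧸ N) = (g : G ⧸ N) ↔ g⁻¹ * y * g ∈ N := by
    intro y g
    have h1 : y • (g : G ⧸ N) = ((y * g : G) : G ⧸ N) := rfl
    rw [h1, eq_comm, QuotientGroup.eq, mul_assoc]
  constructor
  · intro y hy
    have hkey : ∀ g : G, g⁻¹ * y * g ∈ N → zpowers (g⁻¹ * y * g) = (P : Subgroup G) := by
      intro g hg
      have ho : orderOf (g⁻¹ * y * g) = p := by
        have := (MulAut.conj g⁻¹).orderOf_eq y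
        simpa [hy] using this
      have hpg : IsPGroup p (zpowers (g⁻¹ * y * g)) := IsPGroup.of_card (n := 1) (by
        rw [Nat.card_zpowers, ho, pow_one])
      have h1 : zpowers (g⁻¹ * y * g) ⊓ normalizer ((P : Subgroup G) : Set G) =
          zpowers (g⁻¹ * y * g) ⊓ (P : Subgroup G) := hpg.inf_normalizer_sylow P
      have h2 : zpowers (g⁻¹ * y * g) ≤ N := by rw [zpowers_le]; exact hg
      rw [inf_eq_left.2 h2] at h1
      have h3 : zpowers (g⁻¹ * y * g) ≤ (P : Subgroup G) := inf_eq_left.1 h1.symm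
      apply eq_of_le_of_card_ge h3
      rw [hP, Nat.card_zpowers, ho]
    rw [Nat.card_eq_one_iff_unique]
    constructor
    · constructor
      rintro ⟨a, ha⟩ ⟨b, hb⟩
      obtain ⟨g1, rfl⟩ := QuotientGroup.mk_surjective a
      obtain ⟨g2, rfl⟩ := QuotientGroup.mk_surjective b
      apply Subtype.ext
      have h1 := hkey g1 ((hfix y g1).1 ha)
      have h2 := hkey g2 ((hfix y g2).1 hb)
      show (g1 : G ⧸ N) = (g2 : G ⧸ N)
      rw [QuotientGroup.eq]
      -- g1⁻¹ g2 normalizes P
      apply Cfsg.Agent.S1018.mem_normalizer_fin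
      intro z hz
      rw [← h2] at hz
      obtain ⟨k, rfl⟩ := mem_zpowers_iff.1 hz
      rw [← h1]
      have : g1⁻¹ * g2 * (g2⁻¹ * y * g2) ^ k * (g1⁻¹ * g2)⁻¹ = (g1⁻¹ * y * g1) ^ k := by
        rw [show g2⁻¹ * y * g2 = g2⁻¹ * y * g2⁻¹⁻¹ by rw [inv_inv], conj_zpow,
          show g1⁻¹ * y * g1 = g1⁻¹ * y * g1⁻¹⁻¹ by rw [inv_inv], conj_zpow]
        group
      rw [this]
      exact zpow_mem (mem_zpowers _) k
    · have hpg : IsPGroup p (zpowers y) := IsPGroup.of_card (n := 1) (by
        rw [Nat.card_zpowers, hy, pow_one])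
      obtain ⟨Q, hQ⟩ := hpg.exists_le_sylow
      obtain ⟨g, hg⟩ := MulAction.exists_smul_eq G P Q
      have hyQ : y ∈ (Q : Subgroup G) := hQ (mem_zpowers y)
      rw [← hg, Sylow.coe_subgroup_smul] at hyQ
      obtain ⟨a, ha, hay⟩ := hyQ
      refine ⟨⟨(g : G ⧸ N), (hfix y g).2 ?_⟩⟩
      have : g⁻¹ * y * g = a := by
        rw [← hay]
        show g⁻¹ * (g * a * g⁻¹) * g = a
        group
      rw [this]
      exact le_normalizer ha
  · intro x hxN hxC
    apply Nat.card_le_card_of_injective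
      (fun ω : MulAction.fixedBy (G ⧸ N) x =>
        (Quotient.mk (MulAction.orbitRel (P : Subgroup G) (G ⧸ N)) ω.1 :
          MulAction.orbitRel.Quotient (P : Subgroup G) (G ⧸ N)))
    rintro ⟨ω1, h1⟩ ⟨ω2, h2⟩ h12
    apply Subtype.ext
    show ω1 = ω2
    have h3 : ω1 ∈ MulAction.orbit (P : Subgroup G) ω2 := Quotient.exact h12
    obtain ⟨⟨u, hu⟩, hu2⟩ := h3
    have hu2' : u • ω2 = ω1 := hu2
    by_contra hne
    have hu1 : u ≠ 1 := by
      rintro rfl
      rw [one_smul] at hu2'
      exact hne hu2'.symm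
    have hx1 : x • ω1 = ω1 := h1
    have hx2 : x • ω2 = ω2 := h2
    have hxi : x⁻¹ • ω2 = ω2 := by rw [inv_smul_eq_iff, hx2]
    set w := u⁻¹ * (x * u * x⁻¹) with hw
    have hwP : w ∈ (P : Subgroup G) :=
      (P : Subgroup G).mul_mem ((P : Subgroup G).inv_mem hu) ((mem_normalizer_iff.1 hxN u).1 hu)
    have hwfix : w • ω2 = ω2 := by
      rw [hw, mul_smul, mul_smul, mul_smul, hxi, hu2', hx1, ← hu2', inv_smul_smul]
    by_cases hw1 : w = 1
    · apply hxC
      have hcomm : x * u * x⁻¹ = u := by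
        have : u * w = u := by rw [hw1, mul_one]
        rw [hw, mul_inv_cancel_left] at this
        exact this
      have hz := zpowers_eq_of_mem (P : Subgroup G) hP u hu hu1
      rw [mem_centralizer_iff]
      intro z hz'
      rw [SetLike.mem_coe, ← hz] at hz'
      obtain ⟨k, rfl⟩ := mem_zpowers_iff.1 hz'
      have hc : Commute x u := mul_inv_eq_iff_eq_mul.1 hcomm
      exact (hc.zpow_right k).eq.symm
    · have hz := zpowers_eq_of_mem (P : Subgroup G) hP w hwP hw1
      have huw : u ∈ zpowers w := hz ▸ hu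
      have hstab : zpowers w ≤ MulAction.stabilizer G ω2 := by
        rw [zpowers_le]; exact hwfix
      have := hstab huw
      rw [MulAction.mem_stabilizer_iff, hu2'] at this
      exact hne this

end Cfsg.Agent.S1018
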