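import Cfsg.Statements.S1019
import Cfsg.Agent.Lib_helper5_Count

set_option autoImplicit false
open Cfsg

namespace Cfsg.Agent.S1019


/-- Let H be a subgroup of a finite group G and x an element of H. In the action of G on the left cosets of H, the number of cosets fixed by x, multiplied by the size of the conjugacy class of x, equals the index of H multiplied by the number of conjugates of x that lie in H. -/
theorem result {G : Type*} [Group G] [Finite G] (H : Subgroup G) (x : G) (hx : x ∈ H) : Nat.card (MulAction.fixedBy (G ⧸ H) x) * Nat.card {g : G // IsConj x g} = H.index * Nat.card {g : G // IsConj x g ∧ g ∈ H} := by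
  classical
  have := Fintype.ofFinite G
  -- S = {g | g⁻¹ x g ∈ H}
  have hS1 : Nat.card {g : G // g⁻¹ * x * g ∈ H} =
      Nat.card H * Nat.card (MulAction.fixedBy (G ⧸ H) x) := by
    have e := QuotientGroup.preimageMkEquivSubgroupProdSet H (MulAction.fixedBy (G ⧸ H) x)
    rw [← Nat.card_prod, ← Nat.card_congr e]
    apply Nat.card_congr
    apply Equiv.subtypeEquivRight
    intro g
    rw [Set.mem_preimage, MulAction.mem_fixedBy, MulAction.Quotient.smul_mk, smul_eq_mul, eq_comm,
      QuotientGroup.eq, ← mul_assoc]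
  have hS2 : Nat.card {g : G // g⁻¹ * x * g ∈ H} =
      Nat.card {g : G // IsConj x g ∧ g ∈ H} * Nat.card (Subgroup.centralizer ({x} : Set G)) := by
    let f : {g : G // g⁻¹ * x * g ∈ H} → {g : G // IsConj x g ∧ g ∈ H} :=
      fun g => ⟨g.1⁻¹ * x * g.1, isConj_iff.2 ⟨g.1⁻¹, by rw [inv_inv]⟩, g.2⟩
    rw [Nat.card_congr (Equiv.sigmaFiberEquiv f).symm, Nat.card_sigma]
    have hfib : ∀ y : {g : G // IsConj x g ∧ g ∈ H}, Nat.card {g // f g = y} =
        Nat.card (Subgroup.centralizer ({x} : Set G)) := by
      intro y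
      rw [← H5.card_conjugators x y.1 y.2.1]
      refine Nat.card_congr ⟨fun g => ⟨g.1.1⁻¹, ?_⟩, fun g => ⟨⟨g.1⁻¹, ?_⟩, ?_⟩, ?_, ?_⟩
      · rw [inv_inv]
        exact congrArg Subtype.val g.2
      · rw [inv_inv, g.2]; exact y.2.2
      · ext
        show g.1⁻¹⁻¹ * x * g.1⁻¹ = y.1
        rw [inv_inv, g.2]
      · intro g; ext; simp
      · intro g; ext; simp
    simp only [hfib]
    rw [Finset.sum_const, smul_eq_mul, Finset.card_univ, ← Nat.card_eq_fintype_card]
  have h3 := H5.card_conj_mul_card_centralizer x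
  have h4 := Subgroup.card_mul_index H
  have hHpos : 0 < Nat.card H := Nat.card_pos
  apply Nat.eq_of_mul_eq_mul_left hHpos
  calc Nat.card H * (Nat.card (MulAction.fixedBy (G ⧸ H) x) * Nat.card {g : G // IsConj x g})
      = (Nat.card H * Nat.card (MulAction.fixedBy (G ⧸ H) x)) * Nat.card {g : G // IsConj x g} := by ring
    _ = Nat.card {g : G // IsConj x g ∧ g ∈ H} * Nat.card (Subgroup.centralizer ({x} : Set G)) *
        Nat.card {g : G // IsConj x g} := by rw [← hS1, hS2]
    _ = Nat.card {g : G // IsConj x g ∧ g ∈ H} *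
        (Nat.card {g : G // IsConj x g} * Nat.card (Subgroup.centralizer ({x} : Set G))) := by ring
    _ = Nat.card {g : G // IsConj x g ∧ g ∈ H} * (Nat.card H * H.index) := by rw [h3, h4]
    _ = _ := by ring

end Cfsg.Agent.S1019
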