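import Cfsg.Statements.S1024
import Mathlib

set_option autoImplicit false
open Cfsg

namespace Cfsg.Agent.S1024

theorem negfacts (D : Cfsg.Lie.ChevalleyDatum) (hD : D ∈ [Cfsg.Lie.chevG2, Cfsg.Lie.chevB2, Cfsg.Lie.chevD4, Cfsg.Lie.chevF4, Cfsg.Lie.chevE6, Cfsg.Lie.chevE7, Cfsg.Lie.chevE8]) :
    ∀ r < D.nroots, D.negIdx.getD r 0 < D.nroots ∧ D.negIdx.getD r 0 ≠ r := by
  simp only [List.mem_cons, List.not_mem_nil, or_false] at hD
  rcases hD with rfl | rfl | rfl | rfl | rfl | rfl | rfl
  all_goals decide +kernel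

theorem chainCoeff_pos (D : Cfsg.Lie.ChevalleyDatum) (r s u : ℕ) :
    ∀ km ∈ D.chainCoeff r s u, km.1 ≠ 0 := by
  intro km hkm
  unfold Cfsg.Lie.ChevalleyDatum.chainCoeff at hkm
  rw [List.mem_flatMap] at hkm
  obtain ⟨e, -, he⟩ := hkm
  rw [List.mem_map] at he
  obtain ⟨q, -, rfl⟩ := he
  exact Nat.succ_ne_zero _

theorem xMat_zero {F : Type*} [Field F] (D : Cfsg.Lie.ChevalleyDatum) (r : Fin D.nroots) :
    D.xMat F r 0 = 1 := by
  ext row col
  simp only [Cfsg.Lie.ChevalleyDatum.xMat, Matrix.of_apply, Matrix.one_apply]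
  rcases col with i | s
  · rcases row with i' | u
    · simp only [Sum.inl.injEq]
    · simp
  · by_cases h1 : s = r
    · simp only [if_pos h1]
      rcases row with i' | u
      · simp
      · simp only [Sum.inr.injEq, h1]
    · simp only [if_neg h1]
      by_cases h2 : s.val = D.negIdx.getD r.val 0
      · simp only [if_pos h2]
        rcases row with i' | u
        · simp
        · simp only [Sum.inr.injEq]
          by_cases h3 : u = s
          · simp [h3]
          · simp [h3]
      · simp only [if_neg h2]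
        rcases row with i' | u
        · simp
        · simp only [Sum.inr.injEq]
          have : ((D.chainCoeff r.val s.val u.val).map
              fun km => ((km.2 : ℤ) : F) * (0 : F) ^ km.1).sum = 0 := by
            apply List.sum_eq_zero
            intro x hx
            rw [List.mem_map] at hx
            obtain ⟨km, hkm, rfl⟩ := hx
            rw [zero_pow (chainCoeff_pos D _ _ _ km hkm), mul_zero]
          rw [this, add_zero]

/-- `x_r(0) = 1`, and `x_r(t) = 1` forces `t = 0`: the map `t ↦ x_r(t)` is injective. -/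
theorem result {F : Type*} [Field F] (D : Cfsg.Lie.ChevalleyDatum) (hD : D ∈ [Cfsg.Lie.chevG2, Cfsg.Lie.chevB2, Cfsg.Lie.chevD4, Cfsg.Lie.chevF4, Cfsg.Lie.chevE6, Cfsg.Lie.chevE7, Cfsg.Lie.chevE8]) (r : ℕ) (hr : r < D.nroots) (t : F) :
    D.x F r t = 1 ↔ t = 0 := by
  rw [Cfsg.Lie.ChevalleyDatum.x, dif_pos hr]
  constructor
  · intro h
    obtain ⟨h1, h2⟩ := negfacts D hD r hr
    have h3 := congrFun (congrFun h (Sum.inr ⟨r, hr⟩)) (Sum.inr ⟨D.negIdx.getD r 0, h1⟩)
    have hne : (⟨D.negIdx.getD r 0, h1⟩ : Fin D.nroots) ≠ ⟨r, hr⟩ := by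
      intro h4
      exact h2 (congrArg Fin.val h4)
    simp only [Cfsg.Lie.ChevalleyDatum.xMat, Matrix.of_apply, Matrix.one_apply, if_neg hne,
      if_neg hne.symm, Sum.inr.injEq, if_true] at h3
    simpa using h3
  · rintro rfl
    exact xMat_zero D _

end Cfsg.Agent.S1024
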