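import Cfsg.Statements.S1029
import Mathlib
import Cfsg.Agent.Lib_helper7_ChevU

set_option autoImplicit false
open Cfsg

namespace Cfsg.Agent.S1029

open Cfsg.Agent.H7

theorem QF_neg {n F : Type*} [Field F] {ρ : n → ℕ} {k : ℕ} {M : Matrix n n F} (h : QF ρ k M) :
    QF ρ k (-M) := fun row col hlt => by
  rw [Matrix.neg_apply, h row col hlt, neg_zero]

theorem QF_sub {n F : Type*} [Field F] {ρ : n → ℕ} {k : ℕ} {M M' : Matrix n n F} (h : QF ρ k M)
    (h' : QF ρ k M') : QF ρ k (M - M') := fun row col hlt => by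
  rw [Matrix.sub_apply, h row col hlt, h' row col hlt, sub_zero]

/-- abstract nilpotency of a group of unitriangular matrices -/
theorem nilp_of_QF {n F : Type*} [Fintype n] [DecidableEq n] [Field F] (ρ : n → ℕ) (K : ℕ)
    (hK : ∀ i, ρ i < K + 1) (U : Subgroup (GL n F))
    (hU : ∀ g ∈ U, QF ρ 1 ((g : Matrix n n F) - 1)) : Group.IsNilpotent U := by
  have hval_inv : ∀ x : GL n F, (x : Matrix n n F) * ((x⁻¹ : GL n F) : Matrix n n F) = 1 := by
    intro x
    rw [← Units.val_mul, mul_inv_cancel]; rfl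
  have hQ0 : ∀ g ∈ U, QF ρ 0 (g : Matrix n n F) := by
    intro g hg
    have : (g : Matrix n n F) = ((g : Matrix n n F) - 1) + 1 := by noncomm_ring
    rw [this]
    exact ((hU g hg).mono (by omega)).add (QF.one ρ)
  let Hs : ℕ → Subgroup U := fun k =>
    { carrier := {u | QF ρ (k + 1) (((u : GL n F) : Matrix n n F) - 1)}
      one_mem' := by
        show QF ρ (k + 1) ((((1 : U) : GL n F) : Matrix n n F) - 1)
        simpa using QF.zero ρ (k + 1)
      mul_mem' := by
        intro x y hx hy
        have hx : QF ρ (k + 1) (((x : GL n F) : Matrix n n F) - 1) := hx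
        have hy : QF ρ (k + 1) (((y : GL n F) : Matrix n n F) - 1) := hy
        show QF ρ (k + 1) ((((x * y : U) : GL n F) : Matrix n n F) - 1)
        have : (((x * y : U) : GL n F) : Matrix n n F) - 1
            = (((x : GL n F) : Matrix n n F) - 1) * (((y : GL n F) : Matrix n n F) - 1)
              + (((x : GL n F) : Matrix n n F) - 1) + (((y : GL n F) : Matrix n n F) - 1) := by
          rw [Subgroup.coe_mul, Units.val_mul]; noncomm_ring
        rw [this]
        exact (((hx.mul hy).mono (by omega)).add hx).add hy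
      inv_mem' := by
        intro x hx
        have hx : QF ρ (k + 1) (((x : GL n F) : Matrix n n F) - 1) := hx
        show QF ρ (k + 1) ((((x⁻¹ : U) : GL n F) : Matrix n n F) - 1)
        have h1 := hval_inv (x : GL n F)
        have h2 : QF ρ 1 ((((x⁻¹ : U) : GL n F) : Matrix n n F) - 1) := hU _ (x⁻¹).2
        have h3 : (((x⁻¹ : U) : GL n F) : Matrix n n F) - 1
            = -((((x : GL n F) : Matrix n n F) - 1) * ((((x⁻¹ : U) : GL n F) : Matrix n n F) - 1))
              - (((x : GL n F) : Matrix n n F) - 1) := by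
          have h4 : (((x : GL n F) : Matrix n n F) - 1) * ((((x⁻¹ : U) : GL n F) : Matrix n n F) - 1)
              = 1 - ((x : GL n F) : Matrix n n F) - (((x⁻¹ : U) : GL n F) : Matrix n n F) + 1 := by
            rw [Subgroup.coe_inv, sub_mul, mul_sub, h1]; noncomm_ring
          rw [h4]; noncomm_ring
        rw [h3]
        exact QF_sub (QF_neg ((hx.mul h2).mono (by omega))) hx }
  rw [Subgroup.nilpotent_iff_finite_descending_central_series]
  refine ⟨K, Hs, ⟨?_, ?_⟩, ?_⟩
  · rw [eq_top_iff]
    intro u _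
    exact hU u u.2
  · intro x k hx g
    have hx : QF ρ (k + 1) (((x : GL n F) : Matrix n n F) - 1) := hx
    show QF ρ (k + 1 + 1) ((((x * g * x⁻¹ * g⁻¹ : U) : GL n F) : Matrix n n F) - 1)
    have hg := hU g g.2
    have h1 : (((x * g * x⁻¹ * g⁻¹ : U) : GL n F) : Matrix n n F) - 1
        = ((((x : GL n F) : Matrix n n F) - 1) * (((g : GL n F) : Matrix n n F) - 1)
            - (((g : GL n F) : Matrix n n F) - 1) * (((x : GL n F) : Matrix n n F) - 1))
          * (((x⁻¹ * g⁻¹ : U) : GL n F) : Matrix n n F) := by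
      have e1 : ((x : GL n F) : Matrix n n F) * (((x⁻¹ : U) : GL n F) : Matrix n n F) = 1 := by
        rw [Subgroup.coe_inv]; exact hval_inv _
      have e2 : ((g : GL n F) : Matrix n n F) * (((g⁻¹ : U) : GL n F) : Matrix n n F) = 1 := by
        rw [Subgroup.coe_inv]; exact hval_inv _
      have e3 : (((x * g * x⁻¹ * g⁻¹ : U) : GL n F) : Matrix n n F)
          = ((x : GL n F) : Matrix n n F) * ((g : GL n F) : Matrix n n F)
            * ((((x⁻¹ : U) : GL n F) : Matrix n n F) * (((g⁻¹ : U) : GL n F) : Matrix n n F)) := by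
        simp only [Subgroup.coe_mul, Units.val_mul, mul_assoc]
      have e4 : (((x⁻¹ * g⁻¹ : U) : GL n F) : Matrix n n F)
          = (((x⁻¹ : U) : GL n F) : Matrix n n F) * (((g⁻¹ : U) : GL n F) : Matrix n n F) := by
        simp only [Subgroup.coe_mul, Units.val_mul]
      have e5 : ((g : GL n F) : Matrix n n F) * ((x : GL n F) : Matrix n n F)
            * ((((x⁻¹ : U) : GL n F) : Matrix n n F) * (((g⁻¹ : U) : GL n F) : Matrix n n F)) = 1 := by
        rw [mul_assoc, ← mul_assoc ((x : GL n F) : Matrix n n F), e1, one_mul, e2]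
      have e6 : (((x : GL n F) : Matrix n n F) - 1) * (((g : GL n F) : Matrix n n F) - 1)
            - (((g : GL n F) : Matrix n n F) - 1) * (((x : GL n F) : Matrix n n F) - 1)
          = ((x : GL n F) : Matrix n n F) * ((g : GL n F) : Matrix n n F)
            - ((g : GL n F) : Matrix n n F) * ((x : GL n F) : Matrix n n F) := by noncomm_ring
      rw [e6, e4, sub_mul, e5, e3]
    rw [h1]
    have h2 := QF_sub (hx.mul hg) ((hg.mul hx).mono (by omega) : QF ρ (k + 1 + 1) _)
    exact h2.mul (hQ0 _ (x⁻¹ * g⁻¹).2)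
  · rw [eq_bot_iff]
    intro u hu
    have hu : QF ρ (K + 1) (((u : GL n F) : Matrix n n F) - 1) := hu
    have h1 := hu.eq_zero hK
    rw [Subgroup.mem_bot]
    apply Subtype.ext
    apply Units.ext
    rw [sub_eq_zero] at h1
    exact h1

/-- `U` is a nilpotent group (the subgroups generated by root subgroups of height at least `m` form a central series). -/
theorem result {F : Type*} [Field F] (D : Cfsg.Lie.ChevalleyDatum) (hD : D ∈ [Cfsg.Lie.chevG2, Cfsg.Lie.chevB2, Cfsg.Lie.chevD4, Cfsg.Lie.chevF4, Cfsg.Lie.chevE6, Cfsg.Lie.chevE7, Cfsg.Lie.chevE8]) : Group.IsNilpotent (D.posUnipotent F) := by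
  exact nilp_of_QF (H7.chevRho D) D.nroots (H7.chevRho_lt D) _ (H7.posUnipotent_QF D hD)

end Cfsg.Agent.S1029
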