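import Cfsg.Statements.S1080
import Mathlib

set_option autoImplicit false
open Cfsg

namespace Cfsg.Agent.S1080

theorem xMat_map {F : Type*} [Field F] (D : Cfsg.Lie.ChevalleyDatum) (f : F ≃+* F) (r : Fin D.nroots) (t : F) :
    (D.xMat F r t).map f = D.xMat F r (f t) := by
  ext row col
  simp only [Matrix.map_apply, Cfsg.Lie.ChevalleyDatum.xMat, Matrix.of_apply]
  rcases col with i | s
  · rcases row with i' | u
    · simp only []
      split_ifs <;> simp
    · simp only []
      split_ifs <;> simp
  · simp only []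
    split_ifs with h1 h2
    · rcases row with i' | u
      · simp
      · simp only []
        split_ifs <;> simp
    · rcases row with i' | u
      · simp
      · simp only []
        split_ifs <;> simp
    · rcases row with i' | u
      · simp
      · simp only [map_add, map_list_sum, List.map_map]
        congr 1
        · split_ifs <;> simp
        · congr 1
          apply List.map_congr_left
          intro km _
          simp

/-- Field automorphisms: for every field automorphism `f` there is a group automorphism sending each `x_r(t)` to `x_r(f t)`. -/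
theorem result {F : Type*} [Field F] (D : Cfsg.Lie.ChevalleyDatum) (hD : D ∈ [Cfsg.Lie.chevG2, Cfsg.Lie.chevB2, Cfsg.Lie.chevD4, Cfsg.Lie.chevF4, Cfsg.Lie.chevE6, Cfsg.Lie.chevE7, Cfsg.Lie.chevE8]) (f : F ≃+* F) :
    ∃ α : ↥(D.group F) ≃* ↥(D.group F), ∀ (g : ↥(D.group F)) (r : ℕ) (t : F), r < D.nroots →
      ((g : GL D.Idx F) : Matrix D.Idx D.Idx F) = D.x F r t → ((α g : GL D.Idx F) : Matrix D.Idx D.Idx F) = D.x F r (f t) := by
  classical
  let e : GL D.Idx F ≃* GL D.Idx F := Units.mapEquiv (f.mapMatrix (m := D.Idx)).toMulEquiv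
  have he : ∀ g : GL D.Idx F, ((e g : GL D.Idx F) : Matrix D.Idx D.Idx F)
      = (g : Matrix D.Idx D.Idx F).map f := fun g => rfl
  have hes : ∀ g : GL D.Idx F, ((e.symm g : GL D.Idx F) : Matrix D.Idx D.Idx F)
      = (g : Matrix D.Idx D.Idx F).map f.symm := fun g => rfl
  have hmap : (D.group F).map (e : GL D.Idx F →* GL D.Idx F) = D.group F := by
    unfold Cfsg.Lie.ChevalleyDatum.group
    rw [MonoidHom.map_closure]
    congr 1
    ext g
    constructor
    · rintro ⟨g', ⟨r, t, hg'⟩, rfl⟩
      refine ⟨r, f t, ?_⟩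
      show ((e g' : GL D.Idx F) : Matrix D.Idx D.Idx F) = _
      rw [he, hg', xMat_map]
    · rintro ⟨r, t, hg⟩
      refine ⟨e.symm g, ⟨r, f.symm t, by rw [hes, hg, xMat_map]⟩, ?_⟩
      show e (e.symm g) = g
      simp
  let α : ↥(D.group F) ≃* ↥(D.group F) :=
    (e.subgroupMap (D.group F)).trans (MulEquiv.subgroupCongr hmap)
  refine ⟨α, ?_⟩
  intro g r t hr hg
  show ((e g : GL D.Idx F) : Matrix D.Idx D.Idx F) = _
  rw [he, hg, Cfsg.Lie.ChevalleyDatum.x, Cfsg.Lie.ChevalleyDatum.x, dif_pos hr, dif_pos hr, xMat_map]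

end Cfsg.Agent.S1080
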