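import Cfsg.Statements.S1118
import Cfsg.Agent.Lib_helper5_R1a

set_option autoImplicit false
open Cfsg

namespace Cfsg.Agent.S1118


/-- In the rank-one set-up (`G` finite and doubly transitive on `Ω`, `t` an involution moving `a`, `Q` normal in `G_a` with `G_a = Q D`, `Q ⊓ D = 1` for the two-point stabiliser `D = G_a ⊓ G_{t • a}`, `|Q|` even, `|D|` odd), the normaliser of a subset of `Q` containing a non-identity element lies in `G_a`; consequently `N_G(Q) = N_G(G_a) = G_a`. -/
theorem result {G Ω : Type*} [Group G] [Finite G] [MulAction G Ω] {a : Ω} {t : G} {Q : Subgroup G}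
    (hS : Cfsg.IsRankOneSetup G Ω a t Q) :
    (∀ X : Set G, X ⊆ (Q : Set G) → (∃ x ∈ X, x ≠ 1) → Subgroup.normalizer X ≤ MulAction.stabilizer G a) ∧
      Subgroup.normalizer (Q : Set G) = MulAction.stabilizer G a ∧
      Subgroup.normalizer (MulAction.stabilizer G a : Set G) = MulAction.stabilizer G a := by
  have key : ∀ x ∈ Q, x ≠ 1 → ∀ g : G, (g * x * g⁻¹) • a = a → g • a = a := by
    intro x hx hx1 g hg
    by_contra hne
    apply hx1
    have hne' : g⁻¹ • a ≠ a := by
      intro h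
      apply hne
      rw [inv_smul_eq_iff] at h
      exact h.symm
    apply H5.R1.free hS hx hne'
    rw [mul_smul, mul_smul] at hg
    rw [← inv_smul_eq_iff.2 hg.symm]
  have h1 : ∀ X : Set G, X ⊆ (Q : Set G) → (∃ x ∈ X, x ≠ 1) →
      Subgroup.normalizer X ≤ MulAction.stabilizer G a := by
    rintro X hX ⟨x, hxX, hx1⟩ g hg
    rw [Subgroup.mem_set_normalizer_iff] at hg
    rw [MulAction.mem_stabilizer_iff]
    exact key x (hX hxX) hx1 g (H5.R1.fix_a hS (hX ((hg x).1 hxX)))
  obtain ⟨s, hsQ, hs⟩ := H5.R1.exists_invol hS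
  refine ⟨h1, le_antisymm (h1 _ subset_rfl ⟨s, hsQ, H5.ne_one_of_order_two hs⟩)
    (H5.R1.le_normalizer hS), le_antisymm ?_ Subgroup.le_normalizer⟩
  intro g hg
  rw [Subgroup.mem_normalizer_iff] at hg
  rw [MulAction.mem_stabilizer_iff]
  exact key s hsQ (H5.ne_one_of_order_two hs) g (MulAction.mem_stabilizer_iff.1 ((hg s).1 (hS.le hsQ)))

end Cfsg.Agent.S1118
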