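import Cfsg.Statements.S1119
import Cfsg.Agent.Lib_helper5_R1a
import Cfsg.Agent.Lib_helper1_Coprime

set_option autoImplicit false
open Cfsg

namespace Cfsg.Agent.S1119


/-- In the rank-one set-up (`G` finite and doubly transitive on `Ω`, `t` an involution moving `a`, `Q` normal in `G_a` with `G_a = Q D`, `Q ⊓ D = 1` for the two-point stabiliser `D = G_a ⊓ G_{t • a}`, `|Q|` even, `|D|` odd): `Q` acts regularly on `Ω` minus `a`; hence `|Ω| = |Q| + 1`, `|G| = |Q| |D| (|Q| + 1)`, some Sylow 2-subgroup of `G` lies in `Q`, and each `g ∉ G_a` is uniquely `x t y` with `x ∈ G_a`, `y ∈ Q` (canonical form). -/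
theorem result {G Ω : Type*} [Group G] [Finite G] [MulAction G Ω] {a : Ω} {t : G} {Q : Subgroup G}
    (hS : Cfsg.IsRankOneSetup G Ω a t Q) :
    (∀ b c : Ω, b ≠ a → c ≠ a → ∃! x : Q, (x : G) • b = c) ∧
      Nat.card Ω = Nat.card Q + 1 ∧
      Nat.card G = Nat.card Q * Nat.card ↥(MulAction.stabilizer G a ⊓ MulAction.stabilizer G (t • a)) * (Nat.card Q + 1) ∧
      (∃ P : Sylow 2 G, (P : Subgroup G) ≤ Q) ∧
      ∀ g : G, g ∉ MulAction.stabilizer G a → ∃! p : G × G, p.1 ∈ MulAction.stabilizer G a ∧ p.2 ∈ Q ∧ g = p.1 * t * p.2 := by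
  classical
  haveI : Fact (Nat.Prime 2) := ⟨Nat.prime_two⟩
  have hb := H5.R1.ta_ne hS
  have h1 : ∀ b c : Ω, b ≠ a → c ≠ a → ∃! x : Q, (x : G) • b = c := by
    intro b c hb hc
    obtain ⟨q, hq, hqb⟩ := H5.R1.trans' hS hb hc
    refine ⟨⟨q, hq⟩, hqb, ?_⟩
    intro r hr
    exact Subtype.ext (H5.R1.uniq hS hb r.2 hq (hr.trans hqb.symm))
  -- cardinality of Ω
  have e : Q ≃ {c : Ω // c ≠ a} :=
    Equiv.ofBijective (fun q => ⟨(q : G) • (t • a), H5.R1.smul_ne_a (H5.R1.fix_a hS q.2) hb⟩) (by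
      constructor
      · intro q r hqr
        exact Subtype.ext (H5.R1.uniq hS hb q.2 r.2 (congrArg Subtype.val hqr))
      · rintro ⟨c, hc⟩
        obtain ⟨q, hq, hqb⟩ := H5.R1.trans hS hc
        exact ⟨⟨q, hq⟩, Subtype.ext hqb⟩)
  haveI : Finite {c : Ω // c ≠ a} := Finite.of_equiv _ e
  have h2 : Nat.card Ω = Nat.card Q + 1 := by
    rw [← Nat.card_congr (Equiv.optionSubtypeNe a), Finite.card_option, Nat.card_congr e]
  haveI : MulAction.IsPretransitive G Ω :=
    @MulAction.isPretransitive_of_is_two_pretransitive G Ω _ _ hS.two_transitive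
  have hidx : (MulAction.stabilizer G a).index = Nat.card Q + 1 := by
    rw [MulAction.index_stabilizer_of_transitive, h2]
  have hinf : Q ⊓ (MulAction.stabilizer G a ⊓ MulAction.stabilizer G (t • a)) = ⊥ := by
    rw [eq_bot_iff, ← hS.inf_eq_bot]
    exact inf_le_inf le_rfl inf_le_right
  have hH : Nat.card (MulAction.stabilizer G a) = Nat.card Q *
      Nat.card ↥(MulAction.stabilizer G a ⊓ MulAction.stabilizer G (t • a)) := by
    have := H1.card_sup_mul_card_inf' Q (MulAction.stabilizer G a ⊓ MulAction.stabilizer G (t • a))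
      (inf_le_left.trans (H5.R1.le_normalizer hS))
    rwa [hinf, Subgroup.card_bot, mul_one, hS.sup_eq] at this
  have h3 : Nat.card G = Nat.card Q *
      Nat.card ↥(MulAction.stabilizer G a ⊓ MulAction.stabilizer G (t • a)) * (Nat.card Q + 1) := by
    rw [← (MulAction.stabilizer G a).card_mul_index, hidx, hH]
  refine ⟨h1, h2, h3, ?_, ?_⟩
  · let P0 : Sylow 2 ↥Q := default
    have hQidx : Q.index =
        Nat.card ↥(MulAction.stabilizer G a ⊓ MulAction.stabilizer G (t • a)) * (Nat.card Q + 1) := by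
      have := Q.card_mul_index
      rw [h3, mul_assoc] at this
      exact Nat.eq_of_mul_eq_mul_left Nat.card_pos this
    have hodd : ¬ 2 ∣ ((P0 : Subgroup ↥Q).map Q.subtype).index := by
      rw [Subgroup.index_map_subtype, hQidx]
      intro h
      rcases (Nat.Prime.dvd_mul Nat.prime_two).1 h with h | h
      · exact P0.not_dvd_index h
      · rcases (Nat.Prime.dvd_mul Nat.prime_two).1 h with h | h
        · exact (Nat.not_even_iff_odd.2 hS.odd_card) (even_iff_two_dvd.2 h)
        · exact (Nat.not_even_iff_odd.2 hS.even_card.add_one) (even_iff_two_dvd.2 h)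
    refine ⟨(P0.isPGroup'.map Q.subtype).toSylow hodd, ?_⟩
    rw [IsPGroup.toSylow_coe]
    exact Subgroup.map_subtype_le _
  · intro g hg
    have hga : g⁻¹ • a ≠ a := by
      intro h
      apply hg
      rw [MulAction.mem_stabilizer_iff]
      rw [inv_smul_eq_iff] at h
      exact h.symm
    obtain ⟨y, hy, hyb⟩ := H5.R1.trans hS hga
    refine ⟨(g * y * t, y⁻¹), ⟨?_, Q.inv_mem hy, ?_⟩, ?_⟩
    · rw [MulAction.mem_stabilizer_iff, mul_smul, mul_smul, hyb, smul_inv_smul]
    · show g = g * y * t * t * y⁻¹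
      rw [mul_assoc (g * y), hS.mul_self, mul_one, mul_inv_cancel_right]
    · rintro ⟨x1, y1⟩ ⟨hx1, hy1, hg1⟩
      simp only at hx1 hy1 hg1
      have h5 : y1⁻¹ • (t • a) = g⁻¹ • a := by
        rw [hg1, mul_inv_rev, mul_inv_rev, mul_smul, mul_smul, H5.R1.t_inv hS,
          MulAction.mem_stabilizer_iff.1 (Subgroup.inv_mem _ hx1)]
      have h6 : y1⁻¹ = y := H5.R1.uniq hS hb (Q.inv_mem hy1) hy (h5.trans hyb.symm)
      have h7 : y1 = y⁻¹ := by rw [← h6, inv_inv]
      have h8 : x1 = g * y * t := by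
        rw [hg1, h7]
        rw [mul_assoc (x1 * t), inv_mul_cancel, mul_one, mul_assoc, hS.mul_self, mul_one]
      rw [h7, h8]

end Cfsg.Agent.S1119
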