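import Cfsg.Statements.S1120
import Cfsg.Agent.Lib_helper5_R1d
import Cfsg.Agent.Lib_helper7_Gen4
import Cfsg.Agent.Lib_lead_Thompson
import Cfsg.Agent.Lib_helper1_Cores
import Cfsg.Agent.Lib_helper1_PQ

set_option autoImplicit false
open Cfsg

namespace Cfsg.Agent.S1120


/-- In the rank-one set-up (`G` finite and doubly transitive on `Ω`, `t` an involution moving `a`, `Q` normal in `G_a` with `G_a = Q D`, `Q ⊓ D = 1` for the two-point stabiliser `D = G_a ⊓ G_{t • a}`, `|Q|` even, `|D|` odd), if `G` has 2-rank at least 2 then `O_{2'}(G)` equals the normal core of `G_a`. -/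
theorem result {G Ω : Type*} [Group G] [Finite G] [MulAction G Ω] {a : Ω} {t : G} {Q : Subgroup G}
    (hS : Cfsg.IsRankOneSetup G Ω a t Q)
    (h2 : ∃ x y : G, x ≠ 1 ∧ y ≠ 1 ∧ x ≠ y ∧ x * x = 1 ∧ y * y = 1 ∧ x * y = y * x) :
    Cfsg.pPrimeCore 2 G = (MulAction.stabilizer G a).normalCore := by
  haveI : Fact (Nat.Prime 2) := ⟨Nat.prime_two⟩
  apply le_antisymm
  · -- O(G) ≤ core
    haveI hN : (Cfsg.pPrimeCore 2 G).Normal := H1.pPrimeCore_normal 2
    rw [Subgroup.normal_le_normalCore]
    obtain ⟨x, y, hx1, hy1, hxy, hxx, hyy, hcomm⟩ := h2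
    have hxo := H5.order_two_of hx1 hxx
    have hyo := H5.order_two_of hy1 hyy
    obtain ⟨c, hc⟩ := H5.R1.invol_exists_fix hS hxo
    have hyc : y • c = c := by
      apply H5.R1.invol_fix_unique hS hxo _ hc
      rw [← mul_smul, hcomm, mul_smul, hc]
    haveI : MulAction.IsPretransitive G Ω :=
      @MulAction.isPretransitive_of_is_two_pretransitive G Ω _ _ hS.two_transitive
    obtain ⟨g, hg⟩ := MulAction.exists_smul_eq G a c
    have hse : Cfsg.IsStronglyEmbedded (MulAction.stabilizer G c) := by
      have := H5.R1.se (H5.R1.conj hS g)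
      rwa [hg] at this
    have hA : Cfsg.IsElementaryAbelian 2 (Subgroup.zpowers x ⊔ Subgroup.zpowers y : Subgroup G) := by
      apply LeadJ.ea_sup (LeadJ.ea_zpowers (by rw [sq]; exact hxx))
        (LeadJ.ea_zpowers (by rw [sq]; exact hyy))
      intro u hu v hv
      obtain ⟨i, rfl⟩ := Subgroup.mem_zpowers_iff.1 hu
      obtain ⟨j, rfl⟩ := Subgroup.mem_zpowers_iff.1 hv
      exact ((show Commute x y from hcomm).zpow_zpow i j)
    have hAp : IsPGroup 2 (Subgroup.zpowers x ⊔ Subgroup.zpowers y : Subgroup G) := LeadJ.ea_isPGroup hA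
    have hcop : (Nat.card (Subgroup.zpowers x ⊔ Subgroup.zpowers y : Subgroup G)).Coprime
        (Nat.card (Cfsg.pPrimeCore 2 G)) := by
      obtain ⟨k, hk⟩ := IsPGroup.iff_card.1 hAp
      rw [hk]
      exact Nat.Coprime.pow_left _ (H1.card_pPrimeCore_coprime 2).symm
    have hle : Cfsg.pPrimeCore 2 G ≤ MulAction.stabilizer G c := by
      apply H7.coprime_generation_pair (Subgroup.zpowers x ⊔ Subgroup.zpowers y) _ _
        (H1.isSolvable_of_isPGroup hAp) (by rw [Subgroup.normalizer_eq_top]; exact le_top) hcop
        Nat.prime_two x y (Subgroup.mem_sup_left (Subgroup.mem_zpowers x))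
        (Subgroup.mem_sup_right (Subgroup.mem_zpowers y)) hx1 (by rw [sq]; exact hxx)
        (by rw [sq]; exact hyy) hcomm
      · intro n hn
        have := Subgroup.mem_centralizer_singleton_iff.1 (Subgroup.mem_inf.1 hn).2
        exact H5.se_mem_of_commute hse hxo (MulAction.mem_stabilizer_iff.2 hc) this
      · intro j n hn
        have hn2 := Subgroup.mem_centralizer_singleton_iff.1 (Subgroup.mem_inf.1 hn).2
        have hxj : x ^ j = 1 ∨ x ^ j = x := by
          rcases Nat.even_or_odd' j with ⟨m, hm | hm⟩
          · left; rw [hm, pow_mul, sq, hxx, one_pow]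
          · right; rw [hm, pow_succ, pow_mul, sq, hxx, one_pow, one_mul]
        rcases hxj with h | h
        · rw [h, mul_one] at hn2
          exact H5.se_mem_of_commute hse hyo (MulAction.mem_stabilizer_iff.2 hyc) hn2
        · rw [h] at hn2
          have ho : orderOf (y * x) = 2 := by
            apply H5.order_two_of
            · intro h1
              apply hxy
              have : y = x⁻¹ := eq_inv_of_mul_eq_one_left h1
              rw [this, inv_eq_of_mul_eq_one_left hxx]
            · calc y * x * (y * x) = y * (x * y) * x := by group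
                _ = y * (y * x) * x := by rw [hcomm]
                _ = (y * y) * (x * x) := by group
                _ = 1 := by rw [hxx, hyy, one_mul]
          refine H5.se_mem_of_commute hse ho (MulAction.mem_stabilizer_iff.2 ?_) hn2
          rw [mul_smul, hc, hyc]
    intro n hn
    rw [MulAction.mem_stabilizer_iff]
    have h1 := MulAction.mem_stabilizer_iff.1 (hle (hN.conj_mem n hn g))
    rw [← hg, ← mul_smul, inv_mul_cancel_right, mul_smul] at h1
    exact smul_left_cancel g h1
  · apply H1.le_pPrimeCore 2 (Subgroup.normalCore_normal _)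
    have hle : (MulAction.stabilizer G a).normalCore ≤
        MulAction.stabilizer G a ⊓ MulAction.stabilizer G (t • a) := by
      refine le_inf (Subgroup.normalCore_le _) ?_
      intro n hn
      have h1 := Subgroup.normalCore_le _ ((Subgroup.normalCore_normal _).conj_mem n hn t⁻¹)
      rw [MulAction.mem_stabilizer_iff, inv_inv, mul_smul, mul_smul, inv_smul_eq_iff] at h1
      exact MulAction.mem_stabilizer_iff.2 h1
    have hodd : Odd (Nat.card (MulAction.stabilizer G a).normalCore) :=
      Odd.of_dvd_nat hS.odd_card (Subgroup.card_dvd_of_le hle)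
    exact Nat.Coprime.symm (Nat.coprime_two_left.2 hodd)

end Cfsg.Agent.S1120
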