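import Cfsg.Statements.S1122
import Cfsg.Agent.Lib_helper5_R1b

set_option autoImplicit false
open Cfsg

namespace Cfsg.Agent.S1122


/-- In the rank-one set-up (`G` finite and doubly transitive on `Ω`, `t` an involution moving `a`, `Q` normal in `G_a` with `G_a = Q D`, `Q ⊓ D = 1` for the two-point stabiliser `D = G_a ⊓ G_{t • a}`, `|Q|` even, `|D|` odd), with `K` the set of elements of `D` inverted by `t`: `|K|` is the number of involutions of `G_a`, and for each involution `s` of `G_a` the `K`-conjugates of `s` are all the involutions of `G_a`. -/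
theorem result {G Ω : Type*} [Group G] [Finite G] [MulAction G Ω] {a : Ω} {t : G} {Q : Subgroup G}
    (hS : Cfsg.IsRankOneSetup G Ω a t Q) :
    Nat.card (Cfsg.invertedBy (MulAction.stabilizer G a ⊓ MulAction.stabilizer G (t • a)) t) = Nat.card (Cfsg.involutionsIn (MulAction.stabilizer G a : Set G)) ∧
      ∀ s ∈ Cfsg.involutionsIn (MulAction.stabilizer G a : Set G), ∀ s' ∈ Cfsg.involutionsIn (MulAction.stabilizer G a : Set G),
        ∃ k ∈ Cfsg.invertedBy (MulAction.stabilizer G a ⊓ MulAction.stabilizer G (t • a)) t, k⁻¹ * s * k = s' := by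
  obtain ⟨s0, hs0Q, hs0⟩ := H5.R1.exists_invol hS
  have hs0a := H5.R1.fix_a hS hs0Q
  refine ⟨?_, ?_⟩
  · have hmap : ∀ k : ↥(Cfsg.invertedBy (MulAction.stabilizer G a ⊓ MulAction.stabilizer G (t • a)) t),
        (k : G)⁻¹ * s0 * (k : G) ∈ Cfsg.involutionsIn (MulAction.stabilizer G a : Set G) := by
      intro k
      rw [H5.R1.mem_involutionsIn_iff]
      have hka : (k : G) • a = a := MulAction.mem_stabilizer_iff.1 (Subgroup.mem_inf.1 k.2.1).1
      refine ⟨?_, ?_⟩
      · have := H5.order_two_conj hs0 (k : G)⁻¹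
        rwa [inv_inv] at this
      · rw [mul_smul, mul_smul, hka, hs0a, inv_smul_eq_iff.2 hka.symm]
    refine Nat.card_congr (Equiv.ofBijective (fun k => ⟨(k : G)⁻¹ * s0 * (k : G), hmap k⟩) ⟨?_, ?_⟩)
    · intro k k' h
      exact Subtype.ext (H5.R1.K_inj hS hs0 hs0a k.2 k'.2 (congrArg Subtype.val h))
    · rintro ⟨s', hs'⟩
      obtain ⟨h1, h2⟩ := H5.R1.mem_involutionsIn_iff.1 hs'
      obtain ⟨k, hk, hks⟩ := H5.R1.K_conj hS hs0 hs0a h1 h2
      exact ⟨⟨k, hk⟩, Subtype.ext hks⟩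
  · intro s hs s' hs'
    obtain ⟨h1, h2⟩ := H5.R1.mem_involutionsIn_iff.1 hs
    obtain ⟨h1', h2'⟩ := H5.R1.mem_involutionsIn_iff.1 hs'
    exact H5.R1.K_conj hS h1 h2 h1' h2'

end Cfsg.Agent.S1122
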