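import Cfsg.Statements.S1123
import Cfsg.Agent.Lib_helper5_R1b

set_option autoImplicit false
open Cfsg

namespace Cfsg.Agent.S1123


/-- In the rank-one set-up (`G` finite and doubly transitive on `Ω`, `t` an involution moving `a`, `Q` normal in `G_a` with `G_a = Q D`, `Q ⊓ D = 1` for the two-point stabiliser `D = G_a ⊓ G_{t • a}`, `|Q|` even, `|D|` odd), there is a unique pair `(s, r)` with `s` an involution of `G_a`, `r ∈ Q` and `t s t = r⁻¹ t r`. -/
theorem result {G Ω : Type*} [Group G] [Finite G] [MulAction G Ω] {a : Ω} {t : G} {Q : Subgroup G}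
    (hS : Cfsg.IsRankOneSetup G Ω a t Q) :
    ∃! p : G × G, p.1 ∈ Cfsg.involutionsIn (MulAction.stabilizer G a : Set G) ∧ p.2 ∈ Q ∧
      t * p.1 * t = p.2⁻¹ * t * p.2 := by
  have hto := H5.R1.t_order hS
  have hti := H5.R1.t_inv hS
  obtain ⟨c, hc⟩ := H5.R1.invol_exists_fix hS hto
  have hca : c ≠ a := by
    rintro rfl
    exact hS.not_mem (MulAction.mem_stabilizer_iff.2 hc)
  obtain ⟨r, hr, hrc⟩ := H5.R1.trans hS hca
  refine ⟨(t * (r⁻¹ * t * r) * t, r), ⟨?_, hr, ?_⟩, ?_⟩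
  · rw [H5.R1.mem_involutionsIn_iff]
    refine ⟨?_, ?_⟩
    · have := H5.order_two_conj hto (t * r⁻¹)
      have e : t * r⁻¹ * t * (t * r⁻¹)⁻¹ = t * (r⁻¹ * t * r) * t := by
        rw [mul_inv_rev, inv_inv, hti]; group
      rwa [e] at this
    · show (t * (r⁻¹ * t * r) * t) • a = a
      rw [mul_smul, mul_smul, mul_smul, mul_smul, hrc, hc, ← hrc, inv_smul_smul, H5.R1.tta hS]
  · show t * (t * (r⁻¹ * t * r) * t) * t = r⁻¹ * t * r
    calc t * (t * (r⁻¹ * t * r) * t) * t = (t * t) * (r⁻¹ * t * r) * (t * t) := by group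
      _ = r⁻¹ * t * r := by rw [hS.mul_self, one_mul, mul_one]
  · rintro ⟨s1, r1⟩ ⟨hs1, hr1, h1⟩
    simp only at hs1 hr1 h1
    obtain ⟨-, hs1a⟩ := H5.R1.mem_involutionsIn_iff.1 hs1
    have h2 : (r1⁻¹ * t * r1) • (t • a) = t • a := by
      rw [← h1, mul_smul, mul_smul, H5.R1.tta hS, hs1a]
    have h3 : t • (r1 • (t • a)) = r1 • (t • a) := by
      rw [mul_smul, mul_smul, inv_smul_eq_iff] at h2
      exact h2
    have h4 : r1 • (t • a) = c := H5.R1.invol_fix_unique hS hto h3 hc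
    have h5 : r1 = r := H5.R1.uniq hS (H5.R1.ta_ne hS) hr1 hr (h4.trans hrc.symm)
    have h6 : s1 = t * (r⁻¹ * t * r) * t := by
      rw [← h5, ← h1]
      calc s1 = (t * t) * s1 * (t * t) := by rw [hS.mul_self, one_mul, mul_one]
        _ = t * (t * s1 * t) * t := by group
    rw [h5, h6]

end Cfsg.Agent.S1123
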