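import Cfsg.Statements.S1124
import Cfsg.Agent.Lib_helper5_OddInv
import Cfsg.Agent.Lib_helper1_SZ
import Cfsg.Agent.Lib_helper1_Basic

set_option autoImplicit false
open scoped Pointwise
open Cfsg

namespace Cfsg.Agent.S1124


/-- Let `t` be an element of order 2 of a finite group normalising a subgroup `X` of odd order, `Y = C_X(t)` and `Z` the set of elements of `X` inverted by `t`. Then `(y, z) ↦ y z` is a bijection `Y × Z → X`, so `|X| = |Y| |Z|`, and the subgroup generated by `Z` is normal in `X`. -/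
theorem result {M : Type*} [Group M] [Finite M]
    (t : M) (ht : orderOf t = 2) (X : Subgroup M) (hodd : Odd (Nat.card X))
    (hnorm : ∀ x ∈ X, t * x * t⁻¹ ∈ X) :
    (∀ x ∈ X, ∃! p : M × M, p.1 ∈ X ⊓ Subgroup.centralizer {t} ∧ p.2 ∈ Cfsg.invertedBy X t ∧ x = p.1 * p.2) ∧
      Nat.card X = Nat.card ↥(X ⊓ Subgroup.centralizer {t}) * Nat.card (Cfsg.invertedBy X t) ∧
      ∀ x ∈ X, MulAut.conj x • Subgroup.closure (Cfsg.invertedBy X t) = Subgroup.closure (Cfsg.invertedBy X t) := by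
  have htt := H5.mul_self_of_order_two ht
  have h1 : ∀ x ∈ X, ∃! p : M × M, p.1 ∈ X ⊓ Subgroup.centralizer {t} ∧
      p.2 ∈ Cfsg.invertedBy X t ∧ x = p.1 * p.2 := by
    intro x hx
    obtain ⟨y, hy, z, hz, hxyz⟩ := H5.odd_decomp htt hodd hnorm hx
    refine ⟨(y, z), ⟨hy, hz, hxyz⟩, ?_⟩
    rintro ⟨y', z'⟩ ⟨hy', hz', hx'⟩
    obtain ⟨e1, e2⟩ := H5.odd_decomp_unique hodd hy' hy hz' hz (hx'.symm.trans hxyz)
    simp only at e1 e2
    rw [e1, e2]
  refine ⟨h1, ?_, ?_⟩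
  · rw [← Nat.card_prod]
    symm
    refine Nat.card_congr (Equiv.ofBijective
      (fun p : ↥(X ⊓ Subgroup.centralizer {t}) × ↥(Cfsg.invertedBy X t) =>
        (⟨(p.1 : M) * (p.2 : M), X.mul_mem (Subgroup.mem_inf.1 p.1.2).1 p.2.2.1⟩ : ↥X)) ⟨?_, ?_⟩)
    · rintro ⟨y, z⟩ ⟨y', z'⟩ h
      have h' : (y : M) * (z : M) = (y' : M) * (z' : M) := congrArg Subtype.val h
      obtain ⟨e1, e2⟩ := H5.odd_decomp_unique hodd y.2 y'.2 z.2 z'.2 h'
      exact Prod.ext (Subtype.ext e1) (Subtype.ext e2)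
    · rintro ⟨x, hx⟩
      obtain ⟨y, hy, z, hz, hxyz⟩ := H5.odd_decomp htt hodd hnorm hx
      exact ⟨(⟨y, hy⟩, ⟨z, hz⟩), Subtype.ext hxyz.symm⟩
  · have hY : ∀ y ∈ X ⊓ Subgroup.centralizer {t}, ∀ n ∈ Subgroup.closure (Cfsg.invertedBy X t),
        y * n * y⁻¹ ∈ Subgroup.closure (Cfsg.invertedBy X t) := by
      intro y hy n hn
      have hle : Subgroup.closure (Cfsg.invertedBy X t) ≤
          (Subgroup.closure (Cfsg.invertedBy X t)).comap (MulAut.conj y).toMonoidHom := by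
        rw [Subgroup.closure_le]
        intro z hz
        apply Subgroup.subset_closure
        have hyX := (Subgroup.mem_inf.1 hy).1
        have hyc : t * y * t⁻¹ = y := by
          have := Subgroup.mem_centralizer_singleton_iff.1 (Subgroup.mem_inf.1 hy).2
          rw [← this]; group
        refine ⟨X.mul_mem (X.mul_mem hyX hz.1) (X.inv_mem hyX), ?_⟩
        show t * (y * z * y⁻¹) * t⁻¹ = (y * z * y⁻¹)⁻¹
        calc t * (y * z * y⁻¹) * t⁻¹ = (t * y * t⁻¹) * (t * z * t⁻¹) * (t * y * t⁻¹)⁻¹ := by group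
          _ = y * z⁻¹ * y⁻¹ := by rw [hyc, hz.2]
          _ = (y * z * y⁻¹)⁻¹ := by group
      exact hle hn
    have hX : X ≤ Subgroup.normalizer ((Subgroup.closure (Cfsg.invertedBy X t) : Subgroup M) : Set M) := by
      apply H1.le_normalizer_of_forall
      intro x hx n hn
      obtain ⟨y, hy, z, hz, rfl⟩ := H5.odd_decomp htt hodd hnorm hx
      have hzN : z ∈ Subgroup.closure (Cfsg.invertedBy X t) := Subgroup.subset_closure hz
      have e : y * z * n * (y * z)⁻¹ = y * (z * n * z⁻¹) * y⁻¹ := by group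
      rw [e]
      exact hY y hy _ (Subgroup.mul_mem _ (Subgroup.mul_mem _ hzN hn) (Subgroup.inv_mem _ hzN))
    intro x hx
    exact H1.conj_smul_eq_iff_mem_normalizer.2 (hX hx)

end Cfsg.Agent.S1124
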