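import Cfsg.Statements.S1125
import Cfsg.Agent.Lib_helper5_R1c

set_option autoImplicit false
open Cfsg

namespace Cfsg.Agent.S1125


/-- In the rank-one set-up (`G` finite and doubly transitive on `Ω`, `t` an involution moving `a`, `Q` normal in `G_a` with `G_a = Q D`, `Q ⊓ D = 1` for the two-point stabiliser `D = G_a ⊓ G_{t • a}`, `|Q|` even, `|D|` odd), let `X ⊆ D` fix at least three points of `Ω`. Then `C_G(X)` is doubly transitive on the fixed-point set of `X`, `|C_Q(X)|` is even, and `C_{G_a}(X) = C_Q(X) C_D(X)`. -/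
theorem result {G Ω : Type*} [Group G] [Finite G] [MulAction G Ω] {a : Ω} {t : G} {Q : Subgroup G}
    (hS : Cfsg.IsRankOneSetup G Ω a t Q)
    (X : Set G) (hX : X ⊆ ((MulAction.stabilizer G a ⊓ MulAction.stabilizer G (t • a)) : Set G))
    (h3 : ∃ b c d : Ω, b ≠ c ∧ b ≠ d ∧ c ≠ d ∧ ∀ x ∈ X, x • b = b ∧ x • c = c ∧ x • d = d) :
    (∀ b₁ b₂ c₁ c₂ : Ω, (∀ x ∈ X, x • b₁ = b₁ ∧ x • b₂ = b₂ ∧ x • c₁ = c₁ ∧ x • c₂ = c₂) →
        b₁ ≠ b₂ → c₁ ≠ c₂ → ∃ g ∈ Subgroup.centralizer X, g • b₁ = c₁ ∧ g • b₂ = c₂) ∧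
      Even (Nat.card ↥(Subgroup.centralizer X ⊓ Q)) ∧
      (Subgroup.centralizer X ⊓ Q) ⊔ (Subgroup.centralizer X ⊓ (MulAction.stabilizer G a ⊓ MulAction.stabilizer G (t • a))) = Subgroup.centralizer X ⊓ MulAction.stabilizer G a := by
  have hb := H5.R1.ta_ne hS
  refine ⟨?_, ?_, ?_⟩
  · intro b₁ b₂ c₁ c₂ hF hb12 hc12
    exact H5.R1.cent_two hS hX h3 (fun x hx => (hF x hx).1) (fun x hx => (hF x hx).2.1)
      (fun x hx => (hF x hx).2.2.1) (fun x hx => (hF x hx).2.2.2) hb12 hc12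
  · obtain ⟨u, huC, hu, -, -⟩ := H5.R1.exists_swap_invol hS hX h3
    obtain ⟨e, he⟩ := H5.R1.invol_exists_fix hS hu
    have hFe : ∀ x ∈ X, x • e = e := by
      intro x hx
      apply H5.R1.invol_fix_unique hS hu _ he
      rw [← mul_smul, ← (Subgroup.mem_centralizer_iff.1 huC) x hx, mul_smul, he]
    obtain ⟨h, hh, hhe⟩ := H5.R1.cent_to_a hS hX h3 hFe
    have hs : orderOf (h * u * h⁻¹) = 2 := H5.order_two_conj hu h
    have hsa : (h * u * h⁻¹) • a = a := by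
      rw [mul_smul, mul_smul, inv_smul_eq_iff.2 hhe.symm, he, hhe]
    exact H5.even_card_of_invol_mem _ _ hs (Subgroup.mem_inf.2
      ⟨Subgroup.mul_mem _ (Subgroup.mul_mem _ hh huC) (Subgroup.inv_mem _ hh),
        H5.R1.invol_mem_Q hS hs hsa⟩)
  · apply le_antisymm
    · exact sup_le (inf_le_inf le_rfl hS.le) (inf_le_inf le_rfl inf_le_left)
    · intro h hh
      obtain ⟨hhC, hhH⟩ := Subgroup.mem_inf.1 hh
      rw [MulAction.mem_stabilizer_iff] at hhH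
      obtain ⟨q, hq, hqb⟩ := H5.R1.cent_trans hS (H5.R1.fixed_a hX) hb (H5.R1.smul_ne_a hhH hb)
        (H5.R1.fixed_b hX) (H5.R1.fixed_smul hhC (H5.R1.fixed_b hX))
      obtain ⟨hqC, hqQ⟩ := Subgroup.mem_inf.1 hq
      have e : h = q * (q⁻¹ * h) := by group
      rw [e]
      refine Subgroup.mul_mem _ (Subgroup.mem_sup_left hq) (Subgroup.mem_sup_right ?_)
      refine Subgroup.mem_inf.2 ⟨Subgroup.mul_mem _ (Subgroup.inv_mem _ hqC) hhC,
        Subgroup.mem_inf.2 ⟨?_, ?_⟩⟩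
      · rw [MulAction.mem_stabilizer_iff, mul_smul, hhH, inv_smul_eq_iff, H5.R1.fix_a hS hqQ]
      · rw [MulAction.mem_stabilizer_iff, mul_smul, ← hqb, inv_smul_smul]

end Cfsg.Agent.S1125
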