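import Cfsg.Statements.S1126
import Cfsg.Agent.Lib_helper5_R1c

set_option autoImplicit false
open Cfsg

namespace Cfsg.Agent.S1126


/-- In the rank-one set-up (`G` finite and doubly transitive on `Ω`, `t` an involution moving `a`, `Q` normal in `G_a` with `G_a = Q D`, `Q ⊓ D = 1` for the two-point stabiliser `D = G_a ⊓ G_{t • a}`, `|Q|` even, `|D|` odd), a subset `X ⊆ D` fixing at least three points of `Ω` is conjugate by an element of `D` into `V = C_D(t)`. -/
theorem result {G Ω : Type*} [Group G] [Finite G] [MulAction G Ω] {a : Ω} {t : G} {Q : Subgroup G}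
    (hS : Cfsg.IsRankOneSetup G Ω a t Q)
    (X : Set G) (hX : X ⊆ ((MulAction.stabilizer G a ⊓ MulAction.stabilizer G (t • a)) : Set G))
    (h3 : ∃ b c d : Ω, b ≠ c ∧ b ≠ d ∧ c ≠ d ∧ ∀ x ∈ X, x • b = b ∧ x • c = c ∧ x • d = d) :
    ∃ k ∈ (MulAction.stabilizer G a ⊓ MulAction.stabilizer G (t • a)), ∀ x ∈ X, (k * x * k⁻¹) * t = t * (k * x * k⁻¹) := by
  obtain ⟨u, huC, hu, hua, hub⟩ := H5.R1.exists_swap_invol hS hX h3
  have hti := H5.R1.t_inv hS
  have hui := H5.inv_of_order_two hu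
  have hz : t * u ∈ Cfsg.invertedBy (MulAction.stabilizer G a ⊓ MulAction.stabilizer G (t • a)) t := by
    have hinv : t * (t * u) * t⁻¹ = (t * u)⁻¹ := by
      rw [mul_inv_rev, hui, ← mul_assoc, hS.mul_self, one_mul]
    refine ⟨H5.R1.mem_D_of_inverted hS ?_ hinv, hinv⟩
    rw [mul_smul, hua, H5.R1.tta hS]
  obtain ⟨d, hd, hdd⟩ := H5.invertedBy_sqrt hS.odd_card hz
  have h1 : d * u * d⁻¹ = t := by
    have h2 : t * d⁻¹ * t⁻¹ = d := by
      have := (H5.invertedBy_inv hd).2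
      rwa [inv_inv] at this
    have h3' : u = t * (d * d) := by
      rw [hdd, ← mul_assoc, hS.mul_self, one_mul]
    have h4 : d * t = t * d⁻¹ := by
      calc d * t = (t * d⁻¹ * t⁻¹) * t := by rw [h2]
        _ = t * d⁻¹ := by group
    rw [h3', ← mul_assoc, h4]; group
  refine ⟨d, hd.1, fun x hx => ?_⟩
  have hxu := (Subgroup.mem_centralizer_iff.1 huC) x hx
  rw [← h1]
  calc d * x * d⁻¹ * (d * u * d⁻¹) = d * (x * u) * d⁻¹ := by group
    _ = d * (u * x) * d⁻¹ := by rw [hxu]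
    _ = d * u * d⁻¹ * (d * x * d⁻¹) := by group

end Cfsg.Agent.S1126
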