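import Cfsg.Statements.S1127
import Cfsg.Agent.Lib_helper5_R1c
import Cfsg.Agent.S1123

set_option autoImplicit false
open Cfsg

namespace Cfsg.Agent.S1127


/-- In the rank-one set-up (`G` finite and doubly transitive on `Ω`, `t` an involution moving `a`, `Q` normal in `G_a` with `G_a = Q D`, `Q ⊓ D = 1` for the two-point stabiliser `D = G_a ⊓ G_{t • a}`, `|Q|` even, `|D|` odd): if `s` is an involution of `G_a` and `r ∈ Q` satisfy `t s t = r⁻¹ t r`, then `C_D(t) = C_D(s)`; moreover `C_D(t) ⊓ C_D(K) = C_D(I ∩ G_a)`, where `K` is the set of elements of `D` inverted by `t` and `I ∩ G_a` the set of involutions of `G_a`. -/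
theorem result {G Ω : Type*} [Group G] [Finite G] [MulAction G Ω] {a : Ω} {t : G} {Q : Subgroup G}
    (hS : Cfsg.IsRankOneSetup G Ω a t Q) :
    (∀ s r : G, s ∈ Cfsg.involutionsIn (MulAction.stabilizer G a : Set G) → r ∈ Q → t * s * t = r⁻¹ * t * r →
        (MulAction.stabilizer G a ⊓ MulAction.stabilizer G (t • a)) ⊓ Subgroup.centralizer {t} = (MulAction.stabilizer G a ⊓ MulAction.stabilizer G (t • a)) ⊓ Subgroup.centralizer {s}) ∧
      (MulAction.stabilizer G a ⊓ MulAction.stabilizer G (t • a)) ⊓ Subgroup.centralizer {t} ⊓ Subgroup.centralizer (Cfsg.invertedBy (MulAction.stabilizer G a ⊓ MulAction.stabilizer G (t • a)) t) =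
        (MulAction.stabilizer G a ⊓ MulAction.stabilizer G (t • a)) ⊓ Subgroup.centralizer (Cfsg.involutionsIn (MulAction.stabilizer G a : Set G)) := by
  have hti := H5.R1.t_inv hS
  have hnorm : ∀ x ∈ MulAction.stabilizer G a ⊓ MulAction.stabilizer G (t • a),
      t * x * t⁻¹ ∈ MulAction.stabilizer G a ⊓ MulAction.stabilizer G (t • a) :=
    fun x hx => H5.R1.D_conj_t hS hx
  have hone : (1 : G) ∈ Cfsg.invertedBy (MulAction.stabilizer G a ⊓ MulAction.stabilizer G (t • a)) t :=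
    ⟨Subgroup.one_mem _, by simp⟩
  have part1 : ∀ s r : G, s ∈ Cfsg.involutionsIn (MulAction.stabilizer G a : Set G) → r ∈ Q →
      t * s * t = r⁻¹ * t * r →
      (MulAction.stabilizer G a ⊓ MulAction.stabilizer G (t • a)) ⊓ Subgroup.centralizer {t} =
        (MulAction.stabilizer G a ⊓ MulAction.stabilizer G (t • a)) ⊓ Subgroup.centralizer {s} := by
    intro s r hs hr hsr
    obtain ⟨hso, hsa⟩ := H5.R1.mem_involutionsIn_iff.1 hs
    have hle : (MulAction.stabilizer G a ⊓ MulAction.stabilizer G (t • a)) ⊓ Subgroup.centralizer {t} ≤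
        (MulAction.stabilizer G a ⊓ MulAction.stabilizer G (t • a)) ⊓ Subgroup.centralizer {s} := by
      intro d hd
      obtain ⟨hdD, hdt⟩ := Subgroup.mem_inf.1 hd
      rw [Subgroup.mem_centralizer_singleton_iff] at hdt
      have hdH : d ∈ MulAction.stabilizer G a := (Subgroup.mem_inf.1 hdD).1
      have hda : d • a = a := MulAction.mem_stabilizer_iff.1 hdH
      refine Subgroup.mem_inf.2 ⟨hdD, ?_⟩
      rw [Subgroup.mem_centralizer_singleton_iff]
      have hdt' : d * t * d⁻¹ = t := by rw [hdt]; group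
      have h1 : (d * s * d⁻¹, d * r * d⁻¹) = (s, r) := by
        apply (Cfsg.Agent.S1123.result hS).unique
        · refine ⟨?_, hS.conj_mem d hdH r hr, ?_⟩
          · rw [H5.R1.mem_involutionsIn_iff]
            refine ⟨H5.order_two_conj hso d, ?_⟩
            rw [mul_smul, mul_smul, inv_smul_eq_iff.2 hda.symm, hsa, hda]
          · show t * (d * s * d⁻¹) * t = (d * r * d⁻¹)⁻¹ * t * (d * r * d⁻¹)
            calc t * (d * s * d⁻¹) * t = (d * t * d⁻¹) * (d * s * d⁻¹) * (d * t * d⁻¹) := by rw [hdt']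
              _ = d * (t * s * t) * d⁻¹ := by group
              _ = d * (r⁻¹ * t * r) * d⁻¹ := by rw [hsr]
              _ = (d * r * d⁻¹)⁻¹ * (d * t * d⁻¹) * (d * r * d⁻¹) := by group
              _ = (d * r * d⁻¹)⁻¹ * t * (d * r * d⁻¹) := by rw [hdt']
        · exact ⟨hs, hr, hsr⟩
      have h2 : d * s * d⁻¹ = s := congrArg Prod.fst h1
      calc d * s = (d * s * d⁻¹) * d := by group
        _ = s * d := by rw [h2]
    apply le_antisymm hle
    intro d hd
    obtain ⟨hdD, hds⟩ := Subgroup.mem_inf.1 hd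
    obtain ⟨y, hy, z, hz, rfl⟩ := H5.odd_decomp hS.mul_self hS.odd_card hnorm hdD
    have hys := (Subgroup.mem_inf.1 (hle hy)).2
    have hzs : z ∈ Subgroup.centralizer {s} := by
      have := Subgroup.mul_mem _ (Subgroup.inv_mem _ hys) hds
      rwa [inv_mul_cancel_left] at this
    rw [Subgroup.mem_centralizer_singleton_iff] at hzs
    have hz1 : z = 1 := by
      apply H5.R1.K_inj hS hso hsa hz hone
      rw [mul_assoc, ← hzs]; group
    rw [hz1, mul_one]; exact hy
  refine ⟨part1, ?_⟩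
  obtain ⟨⟨s, r⟩, ⟨hs, hr, hsr⟩, -⟩ := Cfsg.Agent.S1123.result hS
  simp only at hs hr hsr
  obtain ⟨hso, hsa⟩ := H5.R1.mem_involutionsIn_iff.1 hs
  have p1 := part1 s r hs hr hsr
  apply le_antisymm
  · intro d hd
    obtain ⟨hd1, hdK⟩ := Subgroup.mem_inf.1 hd
    have hdD := (Subgroup.mem_inf.1 hd1).1
    have hds : d ∈ Subgroup.centralizer {s} := by
      rw [p1] at hd1; exact (Subgroup.mem_inf.1 hd1).2
    rw [Subgroup.mem_centralizer_singleton_iff] at hds
    refine Subgroup.mem_inf.2 ⟨hdD, ?_⟩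
    rw [Subgroup.mem_centralizer_iff]
    intro s' hs'
    obtain ⟨hso', hsa'⟩ := H5.R1.mem_involutionsIn_iff.1 hs'
    obtain ⟨k, hk, rfl⟩ := H5.R1.K_conj hS hso hsa hso' hsa'
    have hkd := (Subgroup.mem_centralizer_iff.1 hdK) k hk
    have hkd' : k⁻¹ * d = d * k⁻¹ := by
      calc k⁻¹ * d = k⁻¹ * (d * k) * k⁻¹ := by group
        _ = k⁻¹ * (k * d) * k⁻¹ := by rw [hkd]
        _ = d * k⁻¹ := by group
    calc k⁻¹ * s * k * d = k⁻¹ * s * (k * d) := by group
      _ = k⁻¹ * s * (d * k) := by rw [hkd]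
      _ = k⁻¹ * (s * d) * k := by group
      _ = k⁻¹ * (d * s) * k := by rw [hds]
      _ = (k⁻¹ * d) * s * k := by group
      _ = d * (k⁻¹ * s * k) := by rw [hkd']; group
  · intro d hd
    obtain ⟨hdD, hdI⟩ := Subgroup.mem_inf.1 hd
    have hds := (Subgroup.mem_centralizer_iff.1 hdI) s hs
    have hd1 : d ∈ (MulAction.stabilizer G a ⊓ MulAction.stabilizer G (t • a)) ⊓
        Subgroup.centralizer {t} := by
      rw [p1]
      exact Subgroup.mem_inf.2 ⟨hdD, Subgroup.mem_centralizer_singleton_iff.2 hds.symm⟩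
    have hdt := Subgroup.mem_centralizer_singleton_iff.1 (Subgroup.mem_inf.1 hd1).2
    refine Subgroup.mem_inf.2 ⟨hd1, ?_⟩
    rw [Subgroup.mem_centralizer_iff]
    intro k hk
    have htd : t * d * t⁻¹ = d := by rw [← hdt]; group
    have hk' : d * k * d⁻¹ ∈
        Cfsg.invertedBy (MulAction.stabilizer G a ⊓ MulAction.stabilizer G (t • a)) t := by
      refine ⟨Subgroup.mul_mem _ (Subgroup.mul_mem _ hdD hk.1) (Subgroup.inv_mem _ hdD), ?_⟩
      calc t * (d * k * d⁻¹) * t⁻¹ = (t * d * t⁻¹) * (t * k * t⁻¹) * (t * d * t⁻¹)⁻¹ := by group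
        _ = d * k⁻¹ * d⁻¹ := by rw [htd, hk.2]
        _ = (d * k * d⁻¹)⁻¹ := by group
    have hka : k • a = a := MulAction.mem_stabilizer_iff.1 (Subgroup.mem_inf.1 hk.1).1
    have hs' : k⁻¹ * s * k ∈ Cfsg.involutionsIn (MulAction.stabilizer G a : Set G) := by
      rw [H5.R1.mem_involutionsIn_iff]
      refine ⟨?_, ?_⟩
      · have := H5.order_two_conj hso k⁻¹
        rwa [inv_inv] at this
      · rw [mul_smul, mul_smul, hka, hsa, inv_smul_eq_iff.2 hka.symm]
    have hds' := (Subgroup.mem_centralizer_iff.1 hdI) _ hs'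
    have h5 : d * k * d⁻¹ = k := by
      apply H5.R1.K_inj hS hso hsa hk' hk
      have hds2 : d⁻¹ * s * d = s := by rw [mul_assoc, hds]; group
      calc (d * k * d⁻¹)⁻¹ * s * (d * k * d⁻¹) = d * (k⁻¹ * (d⁻¹ * s * d) * k) * d⁻¹ := by group
        _ = d * (k⁻¹ * s * k) * d⁻¹ := by rw [hds2]
        _ = (k⁻¹ * s * k * d) * d⁻¹ := by rw [hds']
        _ = k⁻¹ * s * k := by group
    calc k * d = (d * k * d⁻¹) * d := by rw [h5]
      _ = d * k := by group

end Cfsg.Agent.S1127
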