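import Cfsg.Statements.S1165

set_option autoImplicit false
open Cfsg

namespace Cfsg.Agent.S1165

open Subgroup MulAction

/-- In the rank-one set-up (`G` finite and doubly transitive on `Ω`, `t` an involution moving `a`, `Q` normal in `G_a` with `G_a = Q D`, `Q ⊓ D = 1` for the two-point stabiliser `D = G_a ⊓ G_{t • a}`, `|Q|` even, `|D|` odd): every `x ∈ Q`, `x ≠ 1`, determines unique `g, f ∈ Q`, `h ∈ D` with `t x t = g h t f` (a consequence of the canonical form). For these: (H1) the `f`-part of `x⁻¹` is `g⁻¹`; (H2) the `f`-part of `f` is `x`; (H3) for `a ∈ D` the `f`-part of `a⁻¹ x a` is `(t a t)⁻¹ f (t a t)`; (H4) the `h`-part of `a⁻¹ x a` is `(t a t)⁻¹ h a`, that of `x⁻¹` is `t h⁻¹ t`, and that of `f` is `h⁻¹`. -/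
theorem result {G Ω : Type*} [Group G] [Finite G] [MulAction G Ω] {a : Ω} {t : G} {Q : Subgroup G}
    (hS : Cfsg.IsRankOneSetup G Ω a t Q)
    (x g h f : G) (hx : x ∈ Q) (hx1 : x ≠ 1) (hg : g ∈ Q) (hh : h ∈ (MulAction.stabilizer G a ⊓ MulAction.stabilizer G (t • a))) (hf : f ∈ Q)
    (heq : t * x * t = g * h * t * f) :
    (∀ g₁ h₁ f₁ : G, g₁ ∈ Q → h₁ ∈ (MulAction.stabilizer G a ⊓ MulAction.stabilizer G (t • a)) → f₁ ∈ Q → t * x⁻¹ * t = g₁ * h₁ * t * f₁ →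
        f₁ = g⁻¹ ∧ h₁ = t * h⁻¹ * t) ∧
      (∀ g₂ h₂ f₂ : G, g₂ ∈ Q → h₂ ∈ (MulAction.stabilizer G a ⊓ MulAction.stabilizer G (t • a)) → f₂ ∈ Q → t * f * t = g₂ * h₂ * t * f₂ →
        f₂ = x ∧ h₂ = h⁻¹) ∧
      ∀ c ∈ (MulAction.stabilizer G a ⊓ MulAction.stabilizer G (t • a)), ∀ g₃ h₃ f₃ : G, g₃ ∈ Q → h₃ ∈ (MulAction.stabilizer G a ⊓ MulAction.stabilizer G (t • a)) → f₃ ∈ Q →
        t * (c⁻¹ * x * c) * t = g₃ * h₃ * t * f₃ →
          f₃ = (t * c * t)⁻¹ * f * (t * c * t) ∧ h₃ = (t * c * t)⁻¹ * h * c := by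
  have htt := hS.mul_self
  have ht' : t⁻¹ = t := inv_eq_of_mul_eq_one_left htt
  have htt' : t⁻¹ * t⁻¹ = 1 := by rw [ht', htt]
  have hQa : ∀ q ∈ Q, q ∈ stabilizer G a := fun q hq => hS.le hq
  -- key lemma
  have L : ∀ w ∈ Q, t * w * t ∈ stabilizer G a → w = 1 := by
    intro w hw h
    rw [mem_stabilizer_iff] at h
    have h' : w • (t • a) = t • a := by
      calc w • t • a = (t * t) • (w • t • a) := by rw [htt, one_smul]
        _ = t • ((t * w * t) • a) := by simp only [mul_smul]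
        _ = t • a := by rw [h]
    have : w ∈ Q ⊓ stabilizer G (t • a) := ⟨hw, mem_stabilizer_iff.2 h'⟩
    rw [hS.inf_eq_bot, mem_bot] at this
    exact this
  have hDt : ∀ d ∈ (stabilizer G a ⊓ stabilizer G (t • a) : Subgroup G),
      t * d * t ∈ (stabilizer G a ⊓ stabilizer G (t • a) : Subgroup G) := by
    rintro d ⟨hd1, hd2⟩
    have hd1' : d • a = a := mem_stabilizer_iff.1 hd1
    have hd2' : d • t • a = t • a := mem_stabilizer_iff.1 hd2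
    have hta : t • t • a = a := by rw [smul_smul, htt, one_smul]
    refine ⟨mem_stabilizer_iff.2 ?_, mem_stabilizer_iff.2 ?_⟩
    · rw [mul_smul, mul_smul, hd2', hta]
    · rw [mul_smul, mul_smul, hta, hd1']
  have U : ∀ g h f g' h' f' : G, g ∈ Q → h ∈ (stabilizer G a ⊓ stabilizer G (t • a) : Subgroup G) →
      f ∈ Q → g' ∈ Q → h' ∈ (stabilizer G a ⊓ stabilizer G (t • a) : Subgroup G) → f' ∈ Q →
      g * h * t * f = g' * h' * t * f' → f' = f ∧ h' = h := by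
    intro g h f g' h' f' hg hh hf hg' hh' hf' e
    have e1 : t * (f' * f⁻¹) * t = (g' * h')⁻¹ * (g * h) := by
      calc t * (f' * f⁻¹) * t = t * (f' * f⁻¹) * t⁻¹ := by rw [ht']
        _ = (g' * h')⁻¹ * (g' * h' * t * f') * f⁻¹ * t⁻¹ := by group
        _ = (g' * h')⁻¹ * (g * h * t * f) * f⁻¹ * t⁻¹ := by rw [e]
        _ = (g' * h')⁻¹ * (g * h) := by group
    have e2 : f' * f⁻¹ = 1 := by
      apply L _ (mul_mem hf' (inv_mem hf))
      rw [e1]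
      exact mul_mem (inv_mem (mul_mem (hQa g' hg') hh'.1)) (mul_mem (hQa g hg) hh.1)
    have e3 : f' = f := mul_inv_eq_one.1 e2
    refine ⟨e3, ?_⟩
    rw [e3] at e
    have e4 : g * h = g' * h' := mul_right_cancel (mul_right_cancel e)
    have e5 : g'⁻¹ * g = h' * h⁻¹ := by
      calc g'⁻¹ * g = g'⁻¹ * (g * h) * h⁻¹ := by group
        _ = g'⁻¹ * (g' * h') * h⁻¹ := by rw [e4]
        _ = h' * h⁻¹ := by group
    have e6a : h' * h⁻¹ ∈ Q := by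
      rw [← e5]; exact Q.mul_mem (Q.inv_mem hg') hg
    have e6b : h' * h⁻¹ ∈ stabilizer G (t • a) :=
      (stabilizer G (t • a)).mul_mem hh'.2 ((stabilizer G (t • a)).inv_mem hh.2)
    have e6 : h' * h⁻¹ ∈ Q ⊓ stabilizer G (t • a) := Subgroup.mem_inf.2 ⟨e6a, e6b⟩
    rw [hS.inf_eq_bot, mem_bot] at e6
    exact mul_inv_eq_one.1 e6
  have hD : ∀ d ∈ (stabilizer G a ⊓ stabilizer G (t • a) : Subgroup G), d ∈ stabilizer G a :=
    fun d hd => hd.1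
  have conjQ : ∀ d ∈ (stabilizer G a ⊓ stabilizer G (t • a) : Subgroup G), ∀ q ∈ Q,
      d⁻¹ * q * d ∈ Q := by
    intro d hd q hq
    have := hS.conj_mem d⁻¹ (inv_mem (hD d hd)) q hq
    rwa [inv_inv] at this
  refine ⟨?_, ?_, ?_⟩
  · intro g₁ h₁ f₁ hg₁ hh₁ hf₁ e
    have E1 : t * x⁻¹ * t = f⁻¹ * (t * h⁻¹ * t) * t * g⁻¹ := by
      calc t * x⁻¹ * t = (t⁻¹ * x * t⁻¹)⁻¹ := by group
        _ = (t * x * t)⁻¹ := by rw [ht']
        _ = (g * h * t * f)⁻¹ := by rw [heq]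
        _ = f⁻¹ * (t⁻¹ * h⁻¹ * t) * t⁻¹ * g⁻¹ := by group
        _ = f⁻¹ * (t * h⁻¹ * t) * t * g⁻¹ := by rw [ht']
    exact U _ _ _ g₁ h₁ f₁ (inv_mem hf) (hDt _ (inv_mem hh)) (inv_mem hg) hg₁ hh₁ hf₁
      (by rw [← E1, e])
  · intro g₂ h₂ f₂ hg₂ hh₂ hf₂ e
    have hf' : f = t⁻¹ * h⁻¹ * g⁻¹ * (t * x * t) := by
      rw [heq]; group
    have E2 : t * f * t = (h⁻¹ * g⁻¹ * h) * h⁻¹ * t * x := by
      calc t * f * t = t * (t⁻¹ * h⁻¹ * g⁻¹ * (t * x * t)) * t := by rw [← hf']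
        _ = (h⁻¹ * g⁻¹ * h) * h⁻¹ * t * x * (t * t) := by group
        _ = (h⁻¹ * g⁻¹ * h) * h⁻¹ * t * x := by rw [htt, mul_one]
    exact U _ _ _ g₂ h₂ f₂ (conjQ h hh _ (inv_mem hg)) (inv_mem hh) hx hg₂ hh₂ hf₂
      (by rw [← E2, e])
  · intro c hc g₃ h₃ f₃ hg₃ hh₃ hf₃ e
    have hk := hDt c hc
    have X1 : t * (c⁻¹ * x * c) * t = t * c⁻¹ * t * g * h * t * f * t * c * t := by
      calc t * (c⁻¹ * x * c) * t = (t * c⁻¹ * t⁻¹) * (t * x * t) * (t⁻¹ * c * t) := by group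
        _ = (t * c⁻¹ * t⁻¹) * (g * h * t * f) * (t⁻¹ * c * t) := by rw [heq]
        _ = t * c⁻¹ * t⁻¹ * g * h * t * f * t⁻¹ * c * t := by group
        _ = t * c⁻¹ * t * g * h * t * f * t * c * t := by rw [ht']
    have X2 : ((t * c * t)⁻¹ * g * (t * c * t)) * ((t * c * t)⁻¹ * h * c) * t *
        ((t * c * t)⁻¹ * f * (t * c * t)) = t * c⁻¹ * t * g * h * t * f * t * c * t := by
      calc ((t * c * t)⁻¹ * g * (t * c * t)) * ((t * c * t)⁻¹ * h * c) * t *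
          ((t * c * t)⁻¹ * f * (t * c * t))
          = t⁻¹ * c⁻¹ * t⁻¹ * g * h * t⁻¹ * f * t * c * t := by group
        _ = t * c⁻¹ * t * g * h * t * f * t * c * t := by rw [ht']
    exact U _ _ _ g₃ h₃ f₃ (conjQ _ hk g hg) (mul_mem (mul_mem (inv_mem hk) hh) hc)
      (conjQ _ hk f hf) hg₃ hh₃ hf₃ (by rw [X2, ← X1, e])

end Cfsg.Agent.S1165
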