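import Cfsg.Statements.S1166

set_option autoImplicit false
open Cfsg

namespace Cfsg.Agent.S1166

open Subgroup MulAction

/-- In the rank-one set-up (`G` finite and doubly transitive on `Ω`, `t` an involution moving `a`, `Q` normal in `G_a` with `G_a = Q D`, `Q ⊓ D = 1` for the two-point stabiliser `D = G_a ⊓ G_{t • a}`, `|Q|` even, `|D|` odd), with `t x t = g_x h_x t f_x` and `t y t = g_y h_y t f_y` (`g, f ∈ Q`, `h ∈ D`) for `x, y ∈ Q ∖ 1` with `x y ≠ 1`: then `z = f_x g_y ≠ 1`, and if `t z t = g_z h_z t f_z` and `t (x y) t = g' h' t f'` then `f' = (t h_y t)⁻¹ f_z (t h_y t) f_y` and `h' = h_x h_z h_y` (H6). -/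
theorem result {G Ω : Type*} [Group G] [Finite G] [MulAction G Ω] {a : Ω} {t : G} {Q : Subgroup G}
    (hS : Cfsg.IsRankOneSetup G Ω a t Q)
    (x y gx hx fx gy hy fy : G) (hxQ : x ∈ Q) (hx1 : x ≠ 1) (hyQ : y ∈ Q) (hy1 : y ≠ 1) (hxy : x * y ≠ 1)
    (hgx : gx ∈ Q) (hhx : hx ∈ (MulAction.stabilizer G a ⊓ MulAction.stabilizer G (t • a))) (hfx : fx ∈ Q) (ex : t * x * t = gx * hx * t * fx)
    (hgy : gy ∈ Q) (hhy : hy ∈ (MulAction.stabilizer G a ⊓ MulAction.stabilizer G (t • a))) (hfy : fy ∈ Q) (ey : t * y * t = gy * hy * t * fy) :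
    fx * gy ≠ 1 ∧
      ∀ gz hz fz g' h' f' : G, gz ∈ Q → hz ∈ (MulAction.stabilizer G a ⊓ MulAction.stabilizer G (t • a)) → fz ∈ Q → t * (fx * gy) * t = gz * hz * t * fz →
        g' ∈ Q → h' ∈ (MulAction.stabilizer G a ⊓ MulAction.stabilizer G (t • a)) → f' ∈ Q → t * (x * y) * t = g' * h' * t * f' →
          f' = (t * hy * t)⁻¹ * fz * (t * hy * t) * fy ∧ h' = hx * hz * hy := by
  have htt := hS.mul_self
  have ht' : t⁻¹ = t := inv_eq_of_mul_eq_one_left htt
  have htt' : t⁻¹ * t⁻¹ = 1 := by rw [ht', htt]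
  have hQa : ∀ q ∈ Q, q ∈ stabilizer G a := fun q hq => hS.le hq
  -- key lemma
  have L : ∀ w ∈ Q, t * w * t ∈ stabilizer G a → w = 1 := by
    intro w hw h
    rw [mem_stabilizer_iff] at h
    have h' : w • (t • a) = t • a := by
      calc w • t • a = (t * t) • (w • t • a) := by rw [htt, one_smul]
        _ = t • ((t * w * t) • a) := by simp only [mul_smul]
        _ = t • a := by rw [h]
    have : w ∈ Q ⊓ stabilizer G (t • a) := ⟨hw, mem_stabilizer_iff.2 h'⟩
    rw [hS.inf_eq_bot, mem_bot] at this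
    exact this
  have hDt : ∀ d ∈ (stabilizer G a ⊓ stabilizer G (t • a) : Subgroup G),
      t * d * t ∈ (stabilizer G a ⊓ stabilizer G (t • a) : Subgroup G) := by
    rintro d ⟨hd1, hd2⟩
    have hd1' : d • a = a := mem_stabilizer_iff.1 hd1
    have hd2' : d • t • a = t • a := mem_stabilizer_iff.1 hd2
    have hta : t • t • a = a := by rw [smul_smul, htt, one_smul]
    refine ⟨mem_stabilizer_iff.2 ?_, mem_stabilizer_iff.2 ?_⟩
    · rw [mul_smul, mul_smul, hd2', hta]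
    · rw [mul_smul, mul_smul, hta, hd1']
  have U : ∀ g h f g' h' f' : G, g ∈ Q → h ∈ (stabilizer G a ⊓ stabilizer G (t • a) : Subgroup G) →
      f ∈ Q → g' ∈ Q → h' ∈ (stabilizer G a ⊓ stabilizer G (t • a) : Subgroup G) → f' ∈ Q →
      g * h * t * f = g' * h' * t * f' → f' = f ∧ h' = h := by
    intro g h f g' h' f' hg hh hf hg' hh' hf' e
    have e1 : t * (f' * f⁻¹) * t = (g' * h')⁻¹ * (g * h) := by
      calc t * (f' * f⁻¹) * t = t * (f' * f⁻¹) * t⁻¹ := by rw [ht']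
        _ = (g' * h')⁻¹ * (g' * h' * t * f') * f⁻¹ * t⁻¹ := by group
        _ = (g' * h')⁻¹ * (g * h * t * f) * f⁻¹ * t⁻¹ := by rw [e]
        _ = (g' * h')⁻¹ * (g * h) := by group
    have e2 : f' * f⁻¹ = 1 := by
      apply L _ (mul_mem hf' (inv_mem hf))
      rw [e1]
      exact mul_mem (inv_mem (mul_mem (hQa g' hg') hh'.1)) (mul_mem (hQa g hg) hh.1)
    have e3 : f' = f := mul_inv_eq_one.1 e2
    refine ⟨e3, ?_⟩
    rw [e3] at e
    have e4 : g * h = g' * h' := mul_right_cancel (mul_right_cancel e)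
    have e5 : g'⁻¹ * g = h' * h⁻¹ := by
      calc g'⁻¹ * g = g'⁻¹ * (g * h) * h⁻¹ := by group
        _ = g'⁻¹ * (g' * h') * h⁻¹ := by rw [e4]
        _ = h' * h⁻¹ := by group
    have e6a : h' * h⁻¹ ∈ Q := by
      rw [← e5]; exact Q.mul_mem (Q.inv_mem hg') hg
    have e6b : h' * h⁻¹ ∈ stabilizer G (t • a) :=
      (stabilizer G (t • a)).mul_mem hh'.2 ((stabilizer G (t • a)).inv_mem hh.2)
    have e6 : h' * h⁻¹ ∈ Q ⊓ stabilizer G (t • a) := Subgroup.mem_inf.2 ⟨e6a, e6b⟩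
    rw [hS.inf_eq_bot, mem_bot] at e6
    exact mul_inv_eq_one.1 e6
  have A0 : t * (x * y) * t = gx * hx * t * (fx * gy) * hy * t * fy := by
    calc t * (x * y) * t = (t * x * t) * (t⁻¹ * t⁻¹) * (t * y * t) := by group
      _ = (gx * hx * t * fx) * 1 * (gy * hy * t * fy) := by rw [ex, ey, htt']
      _ = gx * hx * t * (fx * gy) * hy * t * fy := by group
  refine ⟨?_, ?_⟩
  · intro h1
    apply hxy
    apply L _ (mul_mem hxQ hyQ)
    rw [A0, h1]
    have : gx * hx * t * 1 * hy * t * fy = gx * hx * (t * hy * t) * fy := by group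
    rw [this]
    exact mul_mem (mul_mem (mul_mem (hQa gx hgx) hhx.1) (hDt hy hhy).1) (hQa fy hfy)
  · intro gz hz fz g' h' f' hgz hhz hfz ez hg' hh' hf' e'
    have ez' : fx * gy = t⁻¹ * (gz * hz * t * fz) * t⁻¹ := by
      rw [← ez]; group
    have A : t * (x * y) * t = gx * hx * gz * hz * t * fz * t * hy * t * fy := by
      calc t * (x * y) * t = gx * hx * t * (fx * gy) * hy * t * fy := A0
        _ = gx * hx * t * (t⁻¹ * (gz * hz * t * fz) * t⁻¹) * hy * t * fy := by rw [ez']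
        _ = gx * hx * gz * hz * t * fz * t⁻¹ * hy * t * fy := by group
        _ = gx * hx * gz * hz * t * fz * t * hy * t * fy := by rw [ht']
    have B : (gx * (hx * gz * hx⁻¹)) * (hx * hz * hy) * t *
        ((t * hy * t)⁻¹ * fz * (t * hy * t) * fy) =
        gx * hx * gz * hz * t * fz * t * hy * t * fy := by
      calc (gx * (hx * gz * hx⁻¹)) * (hx * hz * hy) * t *
          ((t * hy * t)⁻¹ * fz * (t * hy * t) * fy)
          = gx * hx * gz * hz * t⁻¹ * fz * t * hy * t * fy := by group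
        _ = gx * hx * gz * hz * t * fz * t * hy * t * fy := by rw [ht']
    have hk := hDt hy hhy
    have hF : (t * hy * t)⁻¹ * fz * (t * hy * t) * fy ∈ Q := by
      refine mul_mem ?_ hfy
      have := hS.conj_mem (t * hy * t)⁻¹ (inv_mem hk.1) fz hfz
      rwa [inv_inv] at this
    have hG : gx * (hx * gz * hx⁻¹) ∈ Q := mul_mem hgx (hS.conj_mem hx hhx.1 gz hgz)
    have hH : hx * hz * hy ∈ (stabilizer G a ⊓ stabilizer G (t • a) : Subgroup G) :=
      mul_mem (mul_mem hhx hhz) hhy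
    exact U _ _ _ g' h' f' hG hH hF hg' hh' hf' (by rw [B, ← A, e'])

end Cfsg.Agent.S1166
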