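import Cfsg.Statements.S1176
import Cfsg.Agent.Lib_helper5_Isolated
import Cfsg.Agent.S0209

set_option autoImplicit false
open Cfsg

namespace Cfsg.Agent.S1176

open scoped commutatorElement


/-- Let x₀ be an involution of the finite group G and D its conjugacy class. Assume (a) for each x ∈ D the subgroup W(x) generated by the members of D commuting with x is a 2-group of nilpotency class at most 2, and (b) the product of two distinct commuting members of D again lies in D. Then for all x, y ∈ D, if xy has even order greater than 2, its order is 4. -/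
theorem result {G : Type*} [Group G] [Finite G] (x₀ : G) (hx₀ : orderOf x₀ = 2) (ha : ∀ x : G, IsConj x₀ x → IsPGroup 2 ↥(Subgroup.closure {y : G | IsConj x₀ y ∧ Commute y x}) ∧ ⁅⁅Subgroup.closure {y : G | IsConj x₀ y ∧ Commute y x}, Subgroup.closure {y : G | IsConj x₀ y ∧ Commute y x}⁆, Subgroup.closure {y : G | IsConj x₀ y ∧ Commute y x}⁆ = ⊥) (hb : ∀ x y : G, IsConj x₀ x → IsConj x₀ y → x ≠ y → Commute x y → IsConj x₀ (x * y)) (x y : G) (hx : IsConj x₀ x) (hy : IsConj x₀ y) (heven : Even (orderOf (x * y))) (hgt : 2 < orderOf (x * y)) : orderOf (x * y) = 4 := by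
  have ordD : ∀ w : G, IsConj x₀ w → orderOf w = 2 := by
    intro w hw
    obtain ⟨c, rfl⟩ := isConj_iff.1 hw
    exact H5.order_two_conj hx₀ c
  have hx2 := ordD x hx
  have hy2 := ordD y hy
  have hxx := H5.mul_self_of_order_two hx2
  have hyy := H5.mul_self_of_order_two hy2
  obtain ⟨hz2, hzx, hzy⟩ := Cfsg.Agent.S0209.result x y hx2 hy2 heven
  set m := orderOf (x * y) / 2 with hm
  set z := (x * y) ^ m with hz
  -- z * x is a reflection, hence in D
  obtain ⟨d, -, hd⟩ := H5.refl_is_conj hxx hyy (m : ℤ)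
  rw [zpow_natCast] at hd
  have hzxD : IsConj x₀ (z * x) := by
    rcases hd with hd | hd
    · rw [hd]
      exact hx.trans (isConj_iff.2 ⟨d, rfl⟩)
    · rw [hd]
      exact hy.trans (isConj_iff.2 ⟨d, rfl⟩)
  have hzD : IsConj x₀ z := by
    have hne : z * x ≠ x := by
      intro h
      have : z = 1 := by
        have := congrArg (fun a => a * x) h
        simpa [mul_assoc, hxx] using this
      exact H5.ne_one_of_order_two hz2 this
    have hcomm : Commute (z * x) x := hzx.mul_left (Commute.refl x)
    have := hb (z * x) x hzxD hx hne hcomm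
    rwa [mul_assoc, hxx, mul_one] at this
  obtain ⟨-, hcl⟩ := ha z hzD
  set W := Subgroup.closure {y : G | IsConj x₀ y ∧ Commute y z} with hW
  have hxW : x ∈ W := Subgroup.subset_closure ⟨hx, hzx.symm⟩
  have hyW : y ∈ W := Subgroup.subset_closure ⟨hy, hzy.symm⟩
  have h1 : ⁅⁅x, y⁆, x⁆ ∈ ⁅⁅W, W⁆, W⁆ :=
    Subgroup.commutator_mem_commutator (Subgroup.commutator_mem_commutator hxW hyW) hxW
  rw [hcl, Subgroup.mem_bot] at h1
  have h2 : ⁅⁅x, y⁆, x⁆ = (x * y) ^ 4 := by
    rw [commutatorElement_def, commutatorElement_def, H5.inv_of_order_two hx2, H5.inv_of_order_two hy2]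
    have : (x * y * x * y)⁻¹ = y * x * y * x := by
      simp only [mul_inv_rev, H5.inv_of_order_two hx2, H5.inv_of_order_two hy2, mul_assoc]
    rw [this]
    have e4 : (x * y) ^ 4 = x * y * (x * y) * (x * y) * (x * y) := by
      rw [pow_succ, pow_succ, pow_succ, pow_one]
    rw [e4]
    calc x * y * x * y * x * (y * x * y * x) * x
        = x * y * x * y * x * y * x * y * (x * x) := by group
      _ = _ := by rw [hxx]; group
  rw [h2] at h1
  have h3 : orderOf (x * y) ∣ 4 := orderOf_dvd_of_pow_eq_one h1
  have h4 : orderOf (x * y) ≤ 4 := Nat.le_of_dvd (by norm_num) h3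
  interval_cases h5 : orderOf (x * y)
  · omega
  · rfl

end Cfsg.Agent.S1176
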