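import Cfsg.Statements.S1177
import Cfsg.Agent.Lib_helper5_Sylow2

set_option autoImplicit false
open Cfsg

namespace Cfsg.Agent.S1177


/-- Let A be a nontrivial elementary abelian 2-subgroup of a finite group G which is a T.I. set (each conjugate of A meets A trivially or equals A) and which does not commute elementwise with any conjugate of A other than A itself. Then for every a ∈ A, a ≠ 1, every conjugate of A contained in C_G(a) is equal to A (A is weakly closed in C_G(a)). -/
theorem result {G : Type*} [Group G] [Finite G] (A : Subgroup G) (hA : Cfsg.IsElementaryAbelian 2 A) (hA1 : A ≠ ⊥) (hTI : ∀ g : G, A.map (MulAut.conj g).toMonoidHom ⊓ A = ⊥ ∨ A.map (MulAut.conj g).toMonoidHom = A) (hb : ∀ g : G, (∀ a ∈ A, ∀ b ∈ A.map (MulAut.conj g).toMonoidHom, a * b = b * a) → A.map (MulAut.conj g).toMonoidHom = A) (a : G) (ha : a ∈ A) (ha1 : a ≠ 1) (g : G) (hg : A.map (MulAut.conj g).toMonoidHom ≤ Subgroup.centralizer ({a} : Set G)) : A.map (MulAut.conj g).toMonoidHom = A := by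
  classical
  set B := A.map (MulAut.conj g).toMonoidHom with hB
  by_contra hne
  have hdisj : B ⊓ A = ⊥ := (hTI g).resolve_right hne
  -- B normalizes A
  have hBA : ∀ b ∈ B, ∀ x ∈ A, b * x * b⁻¹ ∈ A := by
    intro b hb x hx
    have hab : b * a = a * b := Subgroup.mem_centralizer_singleton_iff.1 (hg hb)
    have h1 : A.map (MulAut.conj b).toMonoidHom = A := by
      rcases hTI b with h | h
      · exfalso
        have h2 : a ∈ A.map (MulAut.conj b).toMonoidHom ⊓ A := by
          refine Subgroup.mem_inf.2 ⟨?_, ha⟩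
          rw [H5.mem_conj_map]
          have : b⁻¹ * a * b = a := by rw [mul_assoc, ← hab]; group
          rw [this]; exact ha
        rw [h, Subgroup.mem_bot] at h2
        exact ha1 h2
      · exact h
    rw [← h1]
    exact (H5.conj_mem_conj_map A b x).2 hx
  -- some x ∈ A does not commute with some b₀ ∈ B
  have hex : ∃ x ∈ A, ∃ b₀ ∈ B, x * b₀ ≠ b₀ * x := by
    by_contra hall
    push Not at hall
    exact hne (hb g hall)
  obtain ⟨x, hx, b₀, hb₀, hxb₀⟩ := hex
  -- no nontrivial element of B commutes with x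
  have hfree : ∀ b ∈ B, x * b = b * x → b = 1 := by
    intro b hbB hxb
    by_contra hb1
    -- x normalizes B
    have h1 : A.map (MulAut.conj (g⁻¹ * x * g)).toMonoidHom = A := by
      rcases hTI (g⁻¹ * x * g) with h | h
      · exfalso
        have hbA : g⁻¹ * b * g ∈ A := (H5.mem_conj_map A g b).1 hbB
        have h2 : g⁻¹ * b * g ∈ A.map (MulAut.conj (g⁻¹ * x * g)).toMonoidHom ⊓ A := by
          refine Subgroup.mem_inf.2 ⟨?_, hbA⟩
          rw [H5.mem_conj_map]
          have : (g⁻¹ * x * g)⁻¹ * (g⁻¹ * b * g) * (g⁻¹ * x * g) = g⁻¹ * (x⁻¹ * (b * x)) * g := by group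
          rw [this, ← hxb]
          have : g⁻¹ * (x⁻¹ * (x * b)) * g = g⁻¹ * b * g := by group
          rw [this]; exact hbA
        rw [h, Subgroup.mem_bot] at h2
        apply hb1
        have : b = g * (g⁻¹ * b * g) * g⁻¹ := by group
        rw [this, h2]; group
      · exact h
    have h3 : x * b₀ * x⁻¹ ∈ B := by
      rw [hB, H5.mem_conj_map]
      have hb₀A : g⁻¹ * b₀ * g ∈ A := (H5.mem_conj_map A g b₀).1 hb₀
      have h4 := (H5.conj_mem_conj_map A (g⁻¹ * x * g) _).2 hb₀A
      rw [h1] at h4
      have : g⁻¹ * (x * b₀ * x⁻¹) * g = (g⁻¹ * x * g) * (g⁻¹ * b₀ * g) * (g⁻¹ * x * g)⁻¹ := by group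
      rw [this]; exact h4
    have h5 : x * b₀ * x⁻¹ * b₀⁻¹ ∈ B ⊓ A := by
      refine Subgroup.mem_inf.2 ⟨B.mul_mem h3 (B.inv_mem hb₀), ?_⟩
      have h6 := hBA b₀ hb₀ x⁻¹ (A.inv_mem hx)
      have : x * b₀ * x⁻¹ * b₀⁻¹ = x * (b₀ * x⁻¹ * b₀⁻¹) := by group
      rw [this]
      exact A.mul_mem hx h6
    rw [hdisj, Subgroup.mem_bot] at h5
    apply hxb₀
    have : x * b₀ = (x * b₀ * x⁻¹ * b₀⁻¹) * (b₀ * x) := by group
    rw [this, h5, one_mul]
  -- injection B → A \ {a}
  have hcard : Nat.card B = Nat.card A := Subgroup.card_map_of_injective (MulAut.conj g).injective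
  have hxa : x ≠ a := by
    rintro rfl
    exact hxb₀ (Subgroup.mem_centralizer_singleton_iff.1 (hg hb₀)).symm
  let f : Option B → A := fun o => match o with
    | none => ⟨a, ha⟩
    | some b => ⟨b * x * (b : G)⁻¹, hBA b b.2 x hx⟩
  have hf : Function.Injective f := by
    intro o₁ o₂ h
    cases o₁ with
    | none =>
      cases o₂ with
      | none => rfl
      | some b =>
        exfalso
        have h1 : a = b * x * (b : G)⁻¹ := congrArg Subtype.val h
        have hab : (b : G) * a = a * b := Subgroup.mem_centralizer_singleton_iff.1 (hg b.2)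
        apply hxa
        have : x = (b : G)⁻¹ * (b * x * (b : G)⁻¹) * b := by group
        rw [this, ← h1, mul_assoc, ← hab]; group
    | some b =>
      cases o₂ with
      | none =>
        exfalso
        have h1 : b * x * (b : G)⁻¹ = a := congrArg Subtype.val h
        have hab : (b : G) * a = a * b := Subgroup.mem_centralizer_singleton_iff.1 (hg b.2)
        apply hxa
        have : x = (b : G)⁻¹ * (b * x * (b : G)⁻¹) * b := by group
        rw [this, h1, mul_assoc, ← hab]; group
      | some b' =>
        have h1 : b * x * (b : G)⁻¹ = b' * x * (b' : G)⁻¹ := congrArg Subtype.val h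
        have h2 : (b' : G)⁻¹ * b = 1 := by
          apply hfree _ (B.mul_mem (B.inv_mem b'.2) b.2)
          calc x * ((b' : G)⁻¹ * b) = (b' : G)⁻¹ * (b' * x * (b' : G)⁻¹) * b := by group
            _ = (b' : G)⁻¹ * (b * x * (b : G)⁻¹) * b := by rw [h1]
            _ = _ := by group
        congr 1
        ext
        exact (inv_mul_eq_one.1 h2).symm
  have h1 := Nat.card_le_card_of_injective f hf
  rw [Finite.card_option, hcard] at h1
  omega

end Cfsg.Agent.S1177
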