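import Cfsg.Statements.S1178
import Cfsg.Agent.Lib_helper5_Sylow

set_option autoImplicit false
open Cfsg

namespace Cfsg.Agent.S1178


/-- Let A be a subgroup of a Sylow 2-subgroup S of the finite group G which is weakly closed in S. If a conjugate g A g⁻¹ commutes elementwise with A, then g A g⁻¹ = A. -/
theorem result {G : Type*} [Group G] [Finite G] (S : Sylow 2 G) (A : Subgroup G) (hW : Cfsg.IsWeaklyClosed A (S : Subgroup G)) (g : G) (hc : ∀ a ∈ A, ∀ b ∈ A.map (MulAut.conj g).toMonoidHom, a * b = b * a) : A.map (MulAut.conj g).toMonoidHom = A := by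
  obtain ⟨hAS, hwc⟩ := hW
  set B := A.map (MulAut.conj g).toMonoidHom with hB
  have hA2 : IsPGroup 2 A := S.2.to_le hAS
  have hB2 : IsPGroup 2 B := hA2.map _
  have hAB : A ≤ Subgroup.normalizer (B : Set G) := by
    intro a ha
    rw [Subgroup.mem_normalizer_iff]
    intro b
    constructor
    · intro hb
      rw [hc a ha b hb, mul_inv_cancel_right]; exact hb
    · intro hb
      have h1 := hc a ha _ hb
      have h2 : a * b * a⁻¹ = b := by
        have : a * (a * b * a⁻¹) * a⁻¹ = a * b * a⁻¹ := by rw [h1]; group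
        have h3 : a * (a * b * a⁻¹) = a * b := mul_right_cancel this
        exact mul_left_cancel h3
      rw [← h2]; exact hb
  have hp : IsPGroup 2 (A ⊔ B : Subgroup G) := hA2.to_sup_of_normal_right' hB2 hAB
  obtain ⟨a, ha⟩ := H5.exists_conj_mem_sylow S _ hp
  have h1 : A.map (MulAut.conj a).toMonoidHom = A := by
    apply hwc
    rintro _ ⟨x, hx, rfl⟩
    exact ha x ((le_sup_left : A ≤ A ⊔ B) hx)
  have h2 : A.map (MulAut.conj (a * g)).toMonoidHom = A := by
    apply hwc
    rintro _ ⟨x, hx, rfl⟩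
    have h3 : g * x * g⁻¹ ∈ B := (H5.conj_mem_conj_map A g x).2 hx
    have h4 := ha _ ((le_sup_right : B ≤ A ⊔ B) h3)
    have h5 : (MulAut.conj (a * g)).toMonoidHom x = a * (g * x * g⁻¹) * a⁻¹ := by
      simp [MulAut.conj_apply, mul_assoc]
    rw [h5]; exact h4
  have h3 : B.map (MulAut.conj a).toMonoidHom = A.map (MulAut.conj a).toMonoidHom := by
    rw [h1, hB, Subgroup.map_map, ← h2]
    congr 1
    ext x
    simp [MulAut.conj_apply, mul_assoc]
  exact Subgroup.map_injective (MulAut.conj a).injective h3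

end Cfsg.Agent.S1178
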