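import Cfsg.Statements.S1181
import Cfsg.Agent.Lib_helper5_Isolated

set_option autoImplicit false
open Cfsg

namespace Cfsg.Agent.S1181


/-- Let z be an isolated involution of the finite group G and N a normal subgroup with z ∉ N. Then the centralizer of zN in G/N is the image of C_G(z), and zN is an isolated involution of G/N. -/
theorem result {G : Type*} [Group G] [Finite G] (z : G) (hz : Cfsg.IsIsolatedInvolution z) (N : Subgroup G) [N.Normal] (hzN : z ∉ N) : Subgroup.centralizer ({(QuotientGroup.mk z : G ⧸ N)} : Set (G ⧸ N)) = (Subgroup.centralizer ({z} : Set G)).map (QuotientGroup.mk' N) ∧ Cfsg.IsIsolatedInvolution (QuotientGroup.mk z : G ⧸ N) := by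
  have hzi := H5.inv_of_order_two hz.1
  have hzz := H5.mul_self_of_order_two hz.1
  have hqq : (QuotientGroup.mk z : G ⧸ N) * (QuotientGroup.mk z : G ⧸ N) = 1 := by
    rw [← QuotientGroup.mk_mul, hzz]; rfl
  constructor
  · apply le_antisymm
    · intro q hq
      obtain ⟨g, rfl⟩ := QuotientGroup.mk_surjective q
      rw [Subgroup.mem_centralizer_singleton_iff] at hq
      obtain ⟨m, -, -, h3⟩ := H5.isolated_exists_K hz g
      have hvz : (g * z * g⁻¹) * z ∈ N := by
        rw [← QuotientGroup.eq_one_iff]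
        simp only [QuotientGroup.mk_mul, QuotientGroup.mk_inv]
        rw [hq, mul_inv_cancel_right, hqq]
      set k := ((g * z * g⁻¹) * z) ^ m with hk
      have hkN : k ∈ N := N.pow_mem hvz m
      refine ⟨k⁻¹ * g, ?_, ?_⟩
      · rw [SetLike.mem_coe, Subgroup.mem_centralizer_singleton_iff]
        have h4 : g * z = k * z * k⁻¹ * g := by rw [h3]; group
        calc k⁻¹ * g * z = k⁻¹ * (g * z) := by group
          _ = k⁻¹ * (k * z * k⁻¹ * g) := by rw [h4]
          _ = z * (k⁻¹ * g) := by group
      · show (QuotientGroup.mk (k⁻¹ * g) : G ⧸ N) = QuotientGroup.mk g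
        rw [QuotientGroup.eq]
        have : (k⁻¹ * g)⁻¹ * g = g⁻¹ * k * g := by group
        rw [this]
        have := (inferInstance : N.Normal).conj_mem k hkN g⁻¹
        rwa [inv_inv] at this
    · rintro _ ⟨c, hc, rfl⟩
      rw [SetLike.mem_coe, Subgroup.mem_centralizer_singleton_iff] at hc
      rw [Subgroup.mem_centralizer_singleton_iff]
      show (QuotientGroup.mk c : G ⧸ N) * QuotientGroup.mk z = QuotientGroup.mk z * QuotientGroup.mk c
      rw [← QuotientGroup.mk_mul, ← QuotientGroup.mk_mul, hc]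
  · refine ⟨H5.order_two_of ?_ hqq, ?_⟩
    · intro h
      exact hzN ((QuotientGroup.eq_one_iff z).1 h)
    · intro q hq
      obtain ⟨g, rfl⟩ := QuotientGroup.mk_surjective q
      have hodd := H5.isolated_odd hz g
      obtain ⟨m, hm⟩ := H5.exists_sqrt_of_odd hodd
      set v := g * z * g⁻¹ with hv
      have hv2 : orderOf v = 2 := H5.order_two_conj hz.1 g
      have hvv := H5.mul_self_of_order_two hv2
      have hqv : (QuotientGroup.mk g : G ⧸ N) * QuotientGroup.mk z * (QuotientGroup.mk g)⁻¹ =
          QuotientGroup.mk v := by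
        rw [hv]; simp only [QuotientGroup.mk_mul, QuotientGroup.mk_inv]
      rw [hqv] at hq ⊢
      have h1 : (QuotientGroup.mk ((z * v) ^ 2) : G ⧸ N) = 1 := by
        rw [QuotientGroup.mk_pow, QuotientGroup.mk_mul, hq.mul_pow, sq, sq, hqq,
          ← QuotientGroup.mk_mul, hvv]
        simp
      have h2 : (QuotientGroup.mk (z * v) : G ⧸ N) = 1 := by
        rw [← hm, ← pow_mul, mul_comm, pow_mul, QuotientGroup.mk_pow, h1, one_pow]
      rw [QuotientGroup.mk_mul] at h2
      have h3 : (QuotientGroup.mk v : G ⧸ N) = (QuotientGroup.mk z)⁻¹ := eq_inv_of_mul_eq_one_right h2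
      rw [h3, ← QuotientGroup.mk_inv, hzi]

end Cfsg.Agent.S1181
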