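import Cfsg.Statements.S1182
import Cfsg.Agent.Lib_helper5_Isolated

set_option autoImplicit false
open Cfsg

namespace Cfsg.Agent.S1182


/-- Let z be an isolated involution of the finite group G and H a subgroup normalized by z. If x, y ∈ H both commute with z and y = h x h⁻¹ for some h ∈ H, then y = c x c⁻¹ for some c ∈ H commuting with z. -/
theorem result {G : Type*} [Group G] [Finite G] (z : G) (hz : Cfsg.IsIsolatedInvolution z) (H : Subgroup G) (hzH : z ∈ Subgroup.normalizer (H : Set G)) (x y : G) (hx : x ∈ H) (hy : y ∈ H) (hxz : Commute x z) (hyz : Commute y z) (h : G) (hh : h ∈ H) (hconj : h * x * h⁻¹ = y) : ∃ c ∈ H, Commute c z ∧ c * x * c⁻¹ = y := by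
  obtain ⟨m, -, -, h3⟩ := H5.isolated_exists_K hz h⁻¹
  rw [inv_inv] at h3
  have hzi := H5.inv_of_order_two hz.1
  set v := h⁻¹ * z * h with hv
  set k := (v * z) ^ m with hk
  -- v z ∈ H
  have hvzH : v * z ∈ H := by
    have h1 : z * h * z⁻¹ ∈ H := (Subgroup.mem_normalizer_iff.1 hzH h).1 hh
    have h2 : v * z = h⁻¹ * (z * h * z⁻¹) := by rw [hv, hzi]; group
    rw [h2]
    exact H.mul_mem (H.inv_mem hh) h1
  -- v commutes with x
  have hvx : Commute v x := by
    have h1 : z * (h * x * h⁻¹) = (h * x * h⁻¹) * z := by rw [hconj]; exact hyz.eq.symm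
    show v * x = x * v
    calc v * x = h⁻¹ * (z * (h * x * h⁻¹)) * h := by rw [hv]; group
      _ = h⁻¹ * ((h * x * h⁻¹) * z) * h := by rw [h1]
      _ = x * v := by rw [hv]; group
  have hkx : Commute k x := (hvx.mul_left hxz.symm).pow_left m
  refine ⟨h * k, H.mul_mem hh (H.pow_mem hvzH m), ?_, ?_⟩
  · show h * k * z = z * (h * k)
    have h4 : k * z = v * k := by rw [← h3]; group
    calc h * k * z = h * (k * z) := by group
      _ = h * (v * k) := by rw [h4]
      _ = z * (h * k) := by rw [hv]; group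
  · have h5 : k * x * k⁻¹ = x := by rw [hkx.eq, mul_inv_cancel_right]
    calc h * k * x * (h * k)⁻¹ = h * (k * x * k⁻¹) * h⁻¹ := by group
      _ = y := by rw [h5, hconj]

end Cfsg.Agent.S1182
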