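import Cfsg.Statements.S1184
import Cfsg.Agent.Lib_helper5_Isolated

set_option autoImplicit false
open Cfsg

namespace Cfsg.Agent.S1184


/-- Let z be an isolated involution of the finite group G. If s and t are distinct conjugates of z, then st does not commute with z. -/
theorem result {G : Type*} [Group G] [Finite G] (z : G) (hz : Cfsg.IsIsolatedInvolution z) (g h : G) (hne : g * z * g⁻¹ ≠ h * z * h⁻¹) : ¬ Commute (g * z * g⁻¹ * (h * z * h⁻¹)) z := by
  intro hc
  apply hne
  have hzi := H5.inv_of_order_two hz.1
  have hzz := H5.mul_self_of_order_two hz.1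
  set s := g * z * g⁻¹ with hs
  set t := h * z * h⁻¹ with ht
  have hs2 : orderOf s = 2 := H5.order_two_conj hz.1 g
  have ht2 : orderOf t = 2 := H5.order_two_conj hz.1 h
  have hss := H5.mul_self_of_order_two hs2
  have htt := H5.mul_self_of_order_two ht2
  have h1 : Odd (orderOf (z * s)) := H5.isolated_odd hz g
  have h2 : Odd (orderOf (z * t)) := H5.isolated_odd hz h
  -- (z s)^2 = (z t)^2
  have h3 : (z * s) ^ 2 = (z * t) ^ 2 := by
    -- s t z = z s t  ⇒  z s z s = z t z t
    have hc' : s * t * z = z * (s * t) := hc.eq
    have h4 : s * z * s = t * z * t := by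
      calc s * z * s = s * z * s * (t * t) := by rw [htt, mul_one]
        _ = s * (z * (s * t)) * t := by group
        _ = s * (s * t * z) * t := by rw [hc']
        _ = (s * s) * t * z * t := by group
        _ = t * z * t := by rw [hss, one_mul]
    rw [sq, sq]
    calc z * s * (z * s) = z * (s * z * s) := by group
      _ = z * (t * z * t) := by rw [h4]
      _ = z * t * (z * t) := by group
  have h5 := H5.eq_of_sq_eq_of_odd h1 h2 h3
  exact mul_left_cancel h5

end Cfsg.Agent.S1184
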