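import Cfsg.Statements.S1185
import Cfsg.Agent.Lib_helper5_Isolated

set_option autoImplicit false
open Cfsg

namespace Cfsg.Agent.S1185


/-- Let z be an isolated involution of the finite group G with centralizer C. Then for every g ∈ G there is exactly one element k in the coset gC that has odd order and is inverted by z. -/
theorem result {G : Type*} [Group G] [Finite G] (z : G) (hz : Cfsg.IsIsolatedInvolution z) (g : G) : ∃! k : G, (Odd (orderOf k) ∧ z * k * z⁻¹ = k⁻¹) ∧ g⁻¹ * k ∈ Subgroup.centralizer ({z} : Set G) := by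
  obtain ⟨m, h1, h2, h3⟩ := H5.isolated_exists_K hz g
  have hzi := H5.inv_of_order_two hz.1
  have hzz := H5.mul_self_of_order_two hz.1
  refine ⟨_, ⟨⟨h1, h2⟩, ?_⟩, ?_⟩
  · rw [Subgroup.mem_centralizer_singleton_iff]
    set k := ((g * z * g⁻¹) * z) ^ m with hk
    have h4 : k * z = g * z * g⁻¹ * k := by rw [← h3]; group
    calc g⁻¹ * k * z = g⁻¹ * (k * z) := by group
      _ = g⁻¹ * (g * z * g⁻¹ * k) := by rw [h4]
      _ = z * (g⁻¹ * k) := by group
  · rintro k' ⟨⟨hk1, hk2⟩, hk3⟩
    set k := ((g * z * g⁻¹) * z) ^ m with hk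
    apply H5.eq_of_sq_eq_of_odd hk1 h1
    -- k' z k'⁻¹ = g z g⁻¹ = k z k⁻¹
    rw [Subgroup.mem_centralizer_singleton_iff] at hk3
    have h5 : k' * z * k'⁻¹ = g * z * g⁻¹ := by
      have : k' * z = g * z * g⁻¹ * k' := by
        calc k' * z = g * (g⁻¹ * k' * z) := by group
          _ = g * (z * (g⁻¹ * k')) := by rw [hk3]
          _ = _ := by group
      rw [this]; group
    have sqf : ∀ a : G, z * a * z⁻¹ = a⁻¹ → a * z * a⁻¹ = a ^ 2 * z := by
      intro a ha
      have : z * a⁻¹ = a * z := by
        have h6 : z * a⁻¹ * z⁻¹ = a := by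
          have := congrArg (fun t => t⁻¹) ha
          simp only [mul_inv_rev, inv_inv] at this
          rw [← mul_assoc] at this
          exact this
        calc z * a⁻¹ = (z * a⁻¹ * z⁻¹) * z := by group
          _ = a * z := by rw [h6]
      rw [mul_assoc, this, ← mul_assoc, sq]
    rw [sqf k' hk2] at h5
    rw [sqf k h2] at h3
    exact mul_right_cancel (h5.trans h3.symm)

end Cfsg.Agent.S1185
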