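import Cfsg.Statements.S1226
import Cfsg.Agent.Lib_helper5_Sylow2

set_option autoImplicit false
open Cfsg

namespace Cfsg.Agent.S1226


/-- Let G be a finite group with a Sylow 2-subgroup T that is neither cyclic nor normal, such that the centralizer of every involution is an elementary abelian 2-group. Then N_G(T) is a strongly embedded subgroup of G. -/
theorem result {G : Type*} [Group G] [Finite G] (T : Sylow 2 G) (hnc : ¬ IsCyclic (T : Subgroup G)) (hnn : ¬ (T : Subgroup G).Normal) (hC : ∀ t : G, orderOf t = 2 → IsMulCommutative (Subgroup.centralizer ({t} : Set G)) ∧ ∀ c ∈ Subgroup.centralizer ({t} : Set G), c ^ 2 = 1) : Cfsg.IsStronglyEmbedded (Subgroup.normalizer ((T : Subgroup G) : Set G)) := by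
  have hTne : (T : Subgroup G) ≠ ⊥ := by
    intro h
    apply hnc
    rw [h]
    infer_instance
  obtain ⟨z, hzT, hz2, hzc⟩ := H5.exists_central_invol (T : Subgroup G) T.2 hTne
  have hCz : Subgroup.centralizer ({z} : Set G) = T := by
    apply T.is_maximal' (H5.isPGroup_two_of_sq _ (hC z hz2).2)
    intro x hx
    exact Subgroup.mem_centralizer_singleton_iff.2 (hzc x hx)
  have hTcomm : ∀ a ∈ T, ∀ b ∈ T, a * b = b * a := by
    intro a ha b hb
    have h1 := (hC z hz2).1
    rw [← SetLike.mem_coe, ← Sylow.coe_coe, ← hCz] at ha hb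
    have := h1.is_comm.comm ⟨a, ha⟩ ⟨b, hb⟩
    exact congrArg Subtype.val this
  have hCt : ∀ t ∈ T, orderOf t = 2 → Subgroup.centralizer ({t} : Set G) = T := by
    intro t ht ht2
    apply T.is_maximal' (H5.isPGroup_two_of_sq _ (hC t ht2).2)
    intro x hx
    exact Subgroup.mem_centralizer_singleton_iff.2 (hTcomm x hx t ht)
  refine ⟨?_, ?_, ?_⟩
  · intro h
    exact hnn (Subgroup.normalizer_eq_top_iff.1 h)
  · exact H5.even_card_of_invol_mem _ z hz2 (Subgroup.le_normalizer hzT)
  · intro g hg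
    by_contra hodd
    rw [Nat.not_odd_iff_even] at hodd
    obtain ⟨t, ht, ht2⟩ := H5.exists_invol_of_even _ hodd
    obtain ⟨h1, h2⟩ := Subgroup.mem_inf.1 ht
    rw [H5.mem_conj_map] at h2
    have ht' : orderOf (g⁻¹ * t * g) = 2 := by
      have := H5.order_two_conj ht2 g⁻¹
      rwa [inv_inv] at this
    have h3 := H5.invol_mem_of_mem_normalizer T ht2 h1
    have h4 := H5.invol_mem_of_mem_normalizer T ht' h2
    have h5 := hCt t h3 ht2
    have h6 := hCt _ h4 ht'
    apply hg
    rw [Subgroup.mem_normalizer_iff]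
    intro x
    have e1 : x ∈ (T : Subgroup G) ↔ x * (g⁻¹ * t * g) = (g⁻¹ * t * g) * x := by
      rw [← h6, Subgroup.mem_centralizer_singleton_iff]
    have e2 : g * x * g⁻¹ ∈ (T : Subgroup G) ↔ (g * x * g⁻¹) * t = t * (g * x * g⁻¹) := by
      rw [← h5, Subgroup.mem_centralizer_singleton_iff]
    rw [e1, e2]
    constructor
    · intro h
      calc g * x * g⁻¹ * t = g * (x * (g⁻¹ * t * g)) * g⁻¹ := by group
        _ = g * ((g⁻¹ * t * g) * x) * g⁻¹ := by rw [h]
        _ = _ := by group
    · intro h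
      calc x * (g⁻¹ * t * g) = g⁻¹ * (g * x * g⁻¹ * t) * g := by group
        _ = g⁻¹ * (t * (g * x * g⁻¹)) * g := by rw [h]
        _ = _ := by group

end Cfsg.Agent.S1226
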