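import Cfsg.Statements.S1231
import Cfsg.Agent.Lib_helper5_Rank

set_option autoImplicit false
open Cfsg

namespace Cfsg.Agent.S1231


/-- Let H be a subgroup of the finite group G, p a prime, k ≥ 1, and P a Sylow p-subgroup of H whose p-rank is at least k. Then N_G(X) ≤ H for every subgroup X of P of p-rank at least k if and only if H ∩ gHg⁻¹ has p-rank less than k for every g ∉ H. -/
theorem result {G : Type*} [Group G] [Finite G] {p : ℕ} [Fact p.Prime] (k : ℕ) (hk : 1 ≤ k) (H : Subgroup G) (P : Sylow p ↥H) (hP : ¬ Cfsg.PRankLE p (k - 1) ↥(P : Subgroup ↥H)) : (∀ X : Subgroup G, X ≤ (P : Subgroup ↥H).map H.subtype → ¬ Cfsg.PRankLE p (k - 1) ↥X → Subgroup.normalizer (X : Set G) ≤ H) ↔ (∀ g : G, g ∉ H → Cfsg.PRankLE p (k - 1) ↥(H ⊓ H.map (MulAut.conj g).toMonoidHom)) := by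
  constructor
  · intro hΓ g hg
    by_contra hrk
    obtain ⟨U, hU1, hUp, hU2⟩ := H5.exists_of_not_pRankLE p (k - 1) _ hrk
    exact H5.se_main H P (fun X => ¬ Cfsg.PRankLE p (k - 1) ↥X)
      (fun A B hAB hA hB => hA (H5.pRankLE_of_le p (k - 1) hAB hB))
      (fun A g hA hB => hA (H5.pRankLE_conj p (k - 1) A g hB))
      hΓ g hg U hUp (hU1.trans inf_le_left) (hU1.trans inf_le_right) hU2
  · intro h X hX hrk g hg
    by_contra hgH
    apply hrk
    apply H5.pRankLE_of_le p (k - 1) _ (h g hgH)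
    have hXH : X ≤ H := by
      intro x hx
      obtain ⟨y, -, rfl⟩ := hX hx
      exact y.2
    apply le_inf hXH
    rw [← H5.conj_map_eq_of_mem_normalizer hg]
    exact Subgroup.map_mono hXH

end Cfsg.Agent.S1231
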