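import Cfsg.Statements.S1242
import Cfsg.Agent.Lib_helper7_Transfer2
import Cfsg.Agent.Lib_helper7_Residual

set_option autoImplicit false
open Cfsg

namespace Cfsg.Agent.S1242

open scoped commutatorElement

/-- Let G be a finite group, p a prime and H a subgroup of index prime to p such that any two elements of H of p-power order that are conjugate in G are conjugate in H. Then (O^p(G)·G') ∩ H = O^p(H)·H', where O^p denotes the subgroup generated by the elements of order prime to p. -/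
theorem result {G : Type*} [Group G] [Finite G] {p : ℕ} [Fact p.Prime] (H : Subgroup G) (hidx : Nat.Coprime p H.index) (hfus : ∀ g ∈ H, (∃ k : ℕ, orderOf g = p ^ k) → ∀ a : G, a * g * a⁻¹ ∈ H → ∃ h ∈ H, h * g * h⁻¹ = a * g * a⁻¹) : (Cfsg.pResidual p G ⊔ commutator G) ⊓ H = (Cfsg.pResidual p ↥H ⊔ commutator ↥H).map H.subtype := by
  have hp : p.Prime := Fact.out
  set K' : Subgroup H := Cfsg.pResidual p ↥H ⊔ commutator ↥H with hK'
  set K : Subgroup G := K'.map H.subtype with hK
  have hKH : K ≤ H := Subgroup.map_subtype_le _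
  have hKsub : K.subgroupOf H = K' := by
    rw [hK, Subgroup.subgroupOf, Subgroup.comap_map_eq_self_of_injective H.subtype_injective]
  have hmemK : ∀ x : H, (x : G) ∈ K ↔ x ∈ K' := by
    intro x
    rw [← hKsub, Subgroup.mem_subgroupOf]
  have hRn : (Cfsg.pResidual p ↥H).Normal := Cfsg.Agent.H7.pResidual_normal p
  have hK'n : K'.Normal := inferInstance
  have hKn : (K.subgroupOf H).Normal := by rw [hKsub]; exact hK'n
  have hab : ∀ x ∈ H, ∀ y ∈ H, x * y * x⁻¹ * y⁻¹ ∈ K := by
    intro x hx y hy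
    have h1 : ⁅(⟨x, hx⟩ : H), ⟨y, hy⟩⁆ ∈ K' :=
      Subgroup.mem_sup_right (Subgroup.commutator_mem_commutator (Subgroup.mem_top _) (Subgroup.mem_top _))
    rw [← hmemK] at h1
    simpa [commutatorElement_def] using h1
  obtain ⟨N, hNn, hNc, hNp, hN⟩ := Cfsg.Agent.H7.exists_normal_transfer_ker H K hKn hab
  -- `H/K` is a `p`-group
  have hpow : ∀ x ∈ H, ∃ k : ℕ, x ^ (p ^ k) ∈ K := by
    intro x hx
    obtain ⟨k, hk⟩ := Cfsg.Agent.H7.exists_pow_mem_pResidual (p := p) (⟨x, hx⟩ : H)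
    refine ⟨k, ?_⟩
    have h1 : (⟨x, hx⟩ : H) ^ (p ^ k) ∈ K' := Subgroup.mem_sup_left hk
    rw [← hmemK] at h1
    simpa using h1
  have hrel : ∃ n : ℕ, K.relIndex H = p ^ n := by
    have hpg : IsPGroup p (H ⧸ K.subgroupOf H) := by
      intro x
      obtain ⟨x, rfl⟩ := QuotientGroup.mk_surjective x
      obtain ⟨k, hk⟩ := hpow x x.2
      refine ⟨k, ?_⟩
      rw [← QuotientGroup.mk_pow, QuotientGroup.eq_one_iff, Subgroup.mem_subgroupOf]
      simpa using hk
    obtain ⟨n, hn⟩ := hpg.exists_card_eq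
    exact ⟨n, hn⟩
  obtain ⟨n, hn⟩ := hrel
  have hRN : Cfsg.pResidual p G ≤ N := by
    rw [Cfsg.pResidual, Subgroup.closure_le]
    intro y hy
    apply hNp
    rw [hn]
    exact Nat.Coprime.pow_right n hy
  apply le_antisymm
  · rintro x ⟨hx1, hx2⟩
    have hxH : x ∈ H := hx2
    have hxN : x ∈ N := (sup_le hRN hNc) hx1
    have hx0 : orderOf x ≠ 0 := (orderOf_pos x).ne'
    obtain ⟨e, m, hm, he⟩ := Nat.exists_eq_pow_mul_and_not_dvd hx0 p hp.ne_one
    obtain ⟨k, hk⟩ := hpow x hxH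
    have hyp : ∀ j : ℕ, ∃ i : ℕ, orderOf ((x ^ m) ^ j) = p ^ i := by
      intro j
      have h1 : ((x ^ m) ^ j) ^ (p ^ e) = 1 := by
        rw [← pow_mul, ← pow_mul]
        have h2 : m * (j * p ^ e) = orderOf x * j := by rw [he]; ring
        rw [h2, pow_mul, pow_orderOf_eq_one, one_pow]
      obtain ⟨i, _, hi⟩ := (Nat.dvd_prime_pow hp).mp (orderOf_dvd_of_pow_eq_one h1)
      exact ⟨i, hi⟩
    have hyK : (x ^ m) ^ H.index ∈ K := by
      apply hN (x ^ m) (H.pow_mem hxH m) _ (N.pow_mem hxN m)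
      intro j a ha
      obtain ⟨h, hh, hh2⟩ := hfus ((x ^ m) ^ j) (H.pow_mem (H.pow_mem hxH m) j) (hyp j) a ha
      rw [← hh2]
      exact hab h hh _ (H.pow_mem (H.pow_mem hxH m) j)
    have hy : x ^ m ∈ K := by
      obtain ⟨i, hi⟩ := hyp 1
      rw [pow_one] at hi
      have hcop : (H.index).Coprime (orderOf (x ^ m)) := by
        rw [hi]
        exact (Nat.Coprime.pow_left i hidx).symm
      obtain ⟨t, ht⟩ := exists_pow_eq_self_of_coprime hcop
      rw [← ht]
      exact K.pow_mem hyK t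
    exact Cfsg.Agent.H7.mem_of_pow_mem_of_coprime
      (Nat.Coprime.pow_right k ((Nat.Prime.coprime_iff_not_dvd hp).mpr hm).symm) hy hk
  · refine le_inf ?_ hKH
    rw [hK, hK', Subgroup.map_sup]
    apply sup_le_sup
    · rw [Cfsg.pResidual, MonoidHom.map_closure, Subgroup.closure_le]
      rintro _ ⟨y, hy, rfl⟩
      apply Cfsg.Agent.H7.mem_pResidual_of_coprime
      have hy' : Nat.Coprime (orderOf y) p := hy
      simpa using hy'
    · rw [commutator_def, commutator_def, Subgroup.map_commutator]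
      exact Subgroup.commutator_mono le_top le_top

end Cfsg.Agent.S1242
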