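import Cfsg.Statements.S1244
import Cfsg.Agent.Lib_helper7_TT2
import Cfsg.Agent.Lib_helper7_Gen1

set_option autoImplicit false
open Cfsg

namespace Cfsg.Agent.S1244

open Subgroup

theorem eq_top_of_index_two_pow {G : Type*} [Group G] [Finite G] (hG : ∀ H : Subgroup G, H.index ≠ 2)
    (N : Subgroup G) [N.Normal] {k : ℕ} (hk : N.index = 2 ^ k) : N = ⊤ := by
  rcases Nat.eq_zero_or_pos k with rfl | hkpos
  · rw [pow_zero] at hk
    exact index_eq_one.mp hk
  exfalso
  obtain ⟨k', rfl⟩ := Nat.exists_eq_succ_of_ne_zero hkpos.ne'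
  rw [index_eq_card] at hk
  obtain ⟨K, hK⟩ := Sylow.exists_subgroup_card_pow_prime (G := G ⧸ N) 2 (n := k')
    (by rw [hk]; exact pow_dvd_pow 2 (Nat.le_succ k'))
  apply hG (K.comap (QuotientGroup.mk' N))
  rw [index_comap_of_surjective _ (QuotientGroup.mk'_surjective _)]
  have h1 := K.card_mul_index
  rw [hK, hk, pow_succ] at h1
  exact Nat.eq_of_mul_eq_mul_left (pow_pos (by norm_num) k') h1

theorem cyc {Q : Type*} [Group Q] [Finite Q] (hcomm : ∀ a b : Q, a * b = b * a) (T : Subgroup Q)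
    [T.Normal] (t : Q) (ht : t ∉ T) (hmax : ∀ L : Subgroup Q, T < L → t ∈ L) : IsCyclic (Q ⧸ T) := by
  letI : CommGroup (Q ⧸ T) :=
    { (inferInstance : Group (Q ⧸ T)) with
      mul_comm := by
        intro a b
        obtain ⟨a, rfl⟩ := QuotientGroup.mk'_surjective T a
        obtain ⟨b, rfl⟩ := QuotientGroup.mk'_surjective T b
        rw [← map_mul, ← map_mul, hcomm] }
  by_contra h
  obtain ⟨r, a, b, hr, har, hbr, ha1, hb⟩ := Cfsg.Agent.H7.exists_prime_pair_of_not_isCyclic h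
  haveI : Fact r.Prime := ⟨hr⟩
  have hb1 : b ≠ 1 := by
    rintro rfl
    exact hb (one_mem _)
  have ht1 : QuotientGroup.mk' T t ≠ 1 := fun h1 => ht ((QuotientGroup.eq_one_iff t).mp h1)
  have key : ∀ c : Q ⧸ T, c ^ r = 1 → c ≠ 1 → zpowers (QuotientGroup.mk' T t) = zpowers c := by
    intro c hcr hc1
    have hmem : QuotientGroup.mk' T t ∈ zpowers c := by
      have hlt : T < (zpowers c).comap (QuotientGroup.mk' T) := by
        refine lt_of_le_of_ne ?_ ?_
        · conv_lhs => rw [← QuotientGroup.ker_mk' T]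
          exact ker_le_comap _ _
        · intro heq
          obtain ⟨x, rfl⟩ := QuotientGroup.mk'_surjective T c
          have hx : x ∈ (zpowers (QuotientGroup.mk' T x)).comap (QuotientGroup.mk' T) := mem_zpowers _
          rw [← heq] at hx
          exact hc1 ((QuotientGroup.eq_one_iff x).mpr hx)
      exact hmax _ hlt
    apply eq_of_le_of_card_ge (zpowers_le.mpr hmem)
    rw [Nat.card_zpowers, Nat.card_zpowers, orderOf_eq_prime hcr hc1]
    have h1 : orderOf (QuotientGroup.mk' T t) ∣ r := by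
      have := card_dvd_of_le (zpowers_le.mpr hmem)
      rwa [Nat.card_zpowers, Nat.card_zpowers, orderOf_eq_prime hcr hc1] at this
    rcases (Nat.dvd_prime hr).mp h1 with h2 | h2
    · exact absurd (orderOf_eq_one_iff.mp h2) ht1
    · exact h2.ge
  apply hb
  rw [← key a har ha1, key b hbr hb1]
  exact mem_zpowers b

/-- Let G be a finite group with no subgroup of index 2 whose Sylow 2-subgroup S is commutative, and let R ≤ S be a subgroup whose 2-rank is exactly one less than the 2-rank r of S. Then every involution of S is conjugate, by an element of N_G(S), to an element of R. -/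
theorem result {G : Type*} [Group G] [Finite G] (hG : ∀ H : Subgroup G, H.index ≠ 2) (S : Sylow 2 G) (hS : IsMulCommutative (S : Subgroup G)) (r : ℕ) (hr1 : 1 ≤ r) (hSr : Cfsg.PRankLE 2 r (S : Subgroup G) ∧ ¬ Cfsg.PRankLE 2 (r - 1) (S : Subgroup G)) (R : Subgroup G) (hRS : R ≤ S) (hRr : Cfsg.PRankLE 2 (r - 1) R ∧ (r = 1 ∨ ¬ Cfsg.PRankLE 2 (r - 2) R)) (t : G) (ht : orderOf t = 2) (htS : t ∈ S) : ∃ n ∈ Subgroup.normalizer ((S : Subgroup G) : Set G), n * t * n⁻¹ ∈ R := by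
  classical
  have hcomm : ∀ a ∈ (S : Subgroup G), ∀ b ∈ (S : Subgroup G), a * b = b * a := by
    intro a ha b hb
    have := hS.is_comm.comm ⟨a, ha⟩ ⟨b, hb⟩
    exact congrArg Subtype.val this
  let ΩS : Subgroup G :=
    { carrier := {x | x ∈ (S : Subgroup G) ∧ x ^ 2 = 1}
      one_mem' := ⟨one_mem _, one_pow _⟩
      mul_mem' := by
        rintro a b ⟨ha, ha2⟩ ⟨hb, hb2⟩
        refine ⟨mul_mem ha hb, ?_⟩
        rw [(show Commute a b from hcomm a ha b hb).mul_pow, ha2, hb2, one_mul]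
      inv_mem' := by
        rintro a ⟨ha, ha2⟩
        exact ⟨inv_mem ha, by rw [inv_pow, ha2, inv_one]⟩ }
  have hΩmem : ∀ x, x ∈ ΩS ↔ x ∈ (S : Subgroup G) ∧ x ^ 2 = 1 := fun x => Iff.rfl
  have hΩS : ΩS ≤ S := fun x hx => hx.1
  have hle : ∀ (R : Subgroup G), R ≤ S → ∀ k, Cfsg.PRankLE 2 k R → Nat.card ↥(ΩS ⊓ R) ≤ 2 ^ k := by
    intro R hR k h
    have := h ((ΩS ⊓ R).subgroupOf R)
      ⟨⟨fun a b => Subtype.ext (Subtype.ext (hcomm _ (hR a.1.2) _ (hR b.1.2)))⟩⟩
      (fun a ha => Subtype.ext ((mem_subgroupOf.mp ha).1.2))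
    rwa [Nat.card_congr (subgroupOfEquivOfLe (inf_le_right : ΩS ⊓ R ≤ R)).toEquiv] at this
  have hgt : ∀ (R : Subgroup G), R ≤ S → ∀ k, ¬ Cfsg.PRankLE 2 k R → 2 ^ k < Nat.card ↥(ΩS ⊓ R) := by
    intro R hR k h
    rw [Cfsg.PRankLE] at h
    push Not at h
    obtain ⟨A, -, hA2, hA⟩ := h
    refine lt_of_lt_of_le hA ?_
    rw [← card_map_of_injective (f := R.subtype) (K := A) R.subtype_injective]
    apply card_le_of_le
    rintro _ ⟨a, ha, rfl⟩
    exact ⟨⟨hR a.2, congrArg Subtype.val (hA2 a ha)⟩, a.2⟩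
  have hpow : ∀ L : Subgroup G, L ≤ S → ∃ k, Nat.card L = 2 ^ k := by
    intro L hL
    exact (IsPGroup.iff_card.mp (S.2.to_le hL))
  have hΩSS : ΩS ⊓ (S : Subgroup G) = ΩS := inf_eq_left.mpr hΩS
  have hcS : Nat.card ΩS = 2 ^ r := by
    obtain ⟨k, hk⟩ := hpow ΩS hΩS
    have h1 := hle S le_rfl r hSr.1
    have h2 := hgt S le_rfl (r - 1) hSr.2
    rw [hΩSS, hk] at h1 h2
    have h1' := (Nat.pow_le_pow_iff_right (by norm_num)).mp h1
    have h2' := (Nat.pow_lt_pow_iff_right (by norm_num)).mp h2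
    rw [hk]
    congr 1
    omega
  have hcR : Nat.card ↥(ΩS ⊓ R) = 2 ^ (r - 1) := by
    obtain ⟨k, hk⟩ := hpow (ΩS ⊓ R) (inf_le_left.trans hΩS)
    have h1 := hle R hRS (r - 1) hRr.1
    rw [hk] at h1
    have h1' := (Nat.pow_le_pow_iff_right (by norm_num)).mp h1
    rw [hk]
    congr 1
    rcases hRr.2 with h | h
    · omega
    · have h2 := hgt R hRS (r - 2) h
      rw [hk] at h2
      have h2' := (Nat.pow_lt_pow_iff_right (by norm_num)).mp h2
      omega
  have ht2 : t ^ 2 = 1 := by rw [← ht]; exact pow_orderOf_eq_one t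
  by_cases htR : t ∈ R
  · exact ⟨1, one_mem _, by simpa using htR⟩
  -- maximal T
  have hex : ∃ T : Subgroup G, T ≤ S ∧ ΩS ⊓ R ≤ T ∧ t ∉ T ∧
      ∀ L : Subgroup G, L ≤ S → T < L → t ∈ L := by
    obtain ⟨T, hT, hTmax⟩ := wellFounded_gt.has_min
      {T : Subgroup G | T ≤ S ∧ ΩS ⊓ R ≤ T ∧ t ∉ T}
      ⟨ΩS ⊓ R, inf_le_left.trans hΩS, le_rfl, fun h => htR h.2⟩
    refine ⟨T, hT.1, hT.2.1, hT.2.2, ?_⟩
    intro L hL hTL
    by_contra htL
    exact hTmax L ⟨hL, hT.2.1.trans hTL.le, htL⟩ hTL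
  obtain ⟨T, hTS, hRT, htT, hTmax⟩ := hex
  have hTn : (T.subgroupOf (S : Subgroup G)).Normal := by
    refine ⟨fun n hn g => ?_⟩
    have : g * n * g⁻¹ = n := by
      rw [hS.is_comm.comm g n, mul_inv_cancel_right]
    rwa [this]
  have hcyc : IsCyclic (↥(S : Subgroup G) ⧸ T.subgroupOf (S : Subgroup G)) := by
    apply cyc hS.is_comm.comm (T.subgroupOf (S : Subgroup G)) ⟨t, htS⟩
    · exact fun h => htT (mem_subgroupOf.mp h)
    · intro L hL
      have h1 : T < L.map (S : Subgroup G).subtype := by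
        refine lt_of_le_of_ne ?_ ?_
        · intro x hx
          exact ⟨⟨x, hTS hx⟩, hL.le (mem_subgroupOf.mpr hx), rfl⟩
        · intro heq
          apply hL.ne
          rw [heq, subgroupOf, comap_map_eq_self_of_injective (S : Subgroup G).subtype_injective]
      obtain ⟨w, hw, hwt⟩ := hTmax _ (map_subtype_le _) h1
      have : w = ⟨t, htS⟩ := Subtype.ext hwt
      rwa [← this]
  obtain ⟨g, hg1, -, hg3⟩ := Cfsg.Agent.H7.thompson_transfer_extremal S T hTS hcyc t ht htS htT (by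
    rintro N hNn - ⟨k, hk⟩
    rw [eq_top_of_index_two_pow hG N hk]
    exact mem_top t)
  have hSC : (S : Subgroup G) ⊓ centralizer {t} = (S : Subgroup G) := by
    apply inf_eq_left.mpr
    intro s hs
    rw [mem_centralizer_singleton_iff]
    exact hcomm _ hs _ htS
  rw [hSC] at hg3
  have hgN : g ∈ normalizer ((S : Subgroup G) : Set G) := by
    rw [← Cfsg.Agent.H7.map_conj_eq_self_iff]
    apply eq_of_le_of_card_ge (hg3.trans inf_le_left)
    rw [Cfsg.Agent.H7.card_map_conj]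
  refine ⟨g, hgN, ?_⟩
  have hTΩ : ΩS ⊓ R = ΩS ⊓ T := by
    apply eq_of_le_of_card_ge (le_inf inf_le_left hRT)
    rw [hcR]
    obtain ⟨k, hk⟩ := hpow (ΩS ⊓ T) (inf_le_left.trans hΩS)
    rw [hk]
    apply Nat.pow_le_pow_right (by norm_num)
    have h1 : Nat.card ↥(ΩS ⊓ T) < Nat.card ΩS := by
      apply lt_of_le_of_ne (card_le_of_le inf_le_left)
      intro heq
      have := eq_of_le_of_card_ge (inf_le_left : ΩS ⊓ T ≤ ΩS) heq.ge
      have h2 : t ∈ ΩS ⊓ T := by
        rw [this]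
        exact ⟨htS, ht2⟩
      exact htT h2.2
    rw [hk, hcS] at h1
    have := (Nat.pow_lt_pow_iff_right (by norm_num)).mp h1
    omega
  have : g * t * g⁻¹ ∈ ΩS ⊓ T := by
    refine ⟨⟨hTS hg1, ?_⟩, hg1⟩
    rw [conj_pow, ht2, mul_one, mul_inv_cancel]
  rw [← hTΩ] at this
  exact this.2

end Cfsg.Agent.S1244
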