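import Cfsg.Statements.S1254
import Cfsg.Agent.Lib_helper7_DihSyl
import Cfsg.Agent.S0071

set_option autoImplicit false
open Cfsg

namespace Cfsg.Agent.S1254

/-- Let X be a finite group whose Sylow 2-subgroup S is dihedral (of order at least 4). Then X has a normal 2-complement if and only if, for every Klein four-subgroup U ≤ S, the normalizer N_X(U) is generated by C_X(U) and N_S(U). -/
theorem result {X : Type*} [Group X] [Finite X] (S : Sylow 2 X) (m : ℕ) (hm : 2 ≤ m) (eS : (S : Subgroup X) ≃* DihedralGroup m) : Cfsg.HasNormalPComplement 2 X ↔ ∀ U : Subgroup X, U ≤ S → IsKleinFour U → Subgroup.normalizer (U : Set X) = Subgroup.centralizer (U : Set X) ⊔ ((S : Subgroup X) ⊓ Subgroup.normalizer (U : Set X)) := by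
  haveI : Fact (Nat.Prime 2) := ⟨Nat.prime_two⟩
  constructor
  · rintro ⟨P, N, hNn, hNP⟩ U hUS hU
    have hcardPS : Nat.card (P : Subgroup X) = Nat.card (S : Subgroup X) := by
      rw [P.card_eq_multiplicity, S.card_eq_multiplicity]
    have h1 := hNP.card_mul_card
    have hcop : Nat.Coprime (Nat.card N) (Nat.card (S : Subgroup X)) := by
      have h2 := (P : Subgroup X).card_mul_index
      have h3 : Nat.card N = (P : Subgroup X).index := by
        apply Nat.eq_of_mul_eq_mul_right (Nat.card_pos (α := (P : Subgroup X)))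
        rw [h1, ← h2, mul_comm]
      obtain ⟨k, hk⟩ := S.2.exists_card_eq
      rw [hk, h3]
      apply Nat.Coprime.pow_right
      rw [Nat.coprime_comm, Nat.Prime.coprime_iff_not_dvd Nat.prime_two]
      exact P.not_dvd_index
    have hNS : N.IsComplement' (S : Subgroup X) :=
      Subgroup.isComplement'_of_coprime (by rw [← hcardPS, h1]) hcop
    have hdisj : N ⊓ (S : Subgroup X) = ⊥ := hNS.disjoint.eq_bot
    apply le_antisymm
    · intro g hg
      have hgtop : g ∈ N ⊔ (S : Subgroup X) := by rw [hNS.sup_eq_top]; trivial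
      obtain ⟨k, hk, s, hs, rfl⟩ := Subgroup.mem_sup_of_normal_left.1 hgtop
      have hkc : k ∈ Subgroup.centralizer (U : Set X) := by
        rw [Subgroup.mem_centralizer_iff]
        intro u hu
        have hw : (k * s)⁻¹ * u * (k * s)⁻¹⁻¹ ∈ U :=
          ((Subgroup.mem_normalizer_iff.1 (inv_mem hg)) u).1 hu
        obtain ⟨w, hw', hwu⟩ : ∃ w, w ∈ U ∧ k * s * w * (k * s)⁻¹ = u :=
          ⟨_, hw, by group⟩
        have hw1 : s * w * s⁻¹ ∈ (S : Subgroup X) := mul_mem (mul_mem hs (hUS hw')) (inv_mem hs)
        have e1 : k * (s * w * s⁻¹) * k⁻¹ = u := by rw [← hwu]; group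
        have h2 : k * (s * w * s⁻¹) * k⁻¹ * (s * w * s⁻¹)⁻¹ ∈ N ⊓ (S : Subgroup X) := by
          constructor
          · have : k * (s * w * s⁻¹) * k⁻¹ * (s * w * s⁻¹)⁻¹ =
                k * ((s * w * s⁻¹) * k⁻¹ * (s * w * s⁻¹)⁻¹) := by group
            rw [this]
            exact mul_mem hk (hNn.conj_mem _ (inv_mem hk) _)
          · rw [e1]
            exact (S : Subgroup X).mul_mem (hUS hu) ((S : Subgroup X).inv_mem hw1)
        rw [hdisj, Subgroup.mem_bot, mul_inv_eq_one, e1] at h2
        rw [← h2] at e1
        exact (mul_inv_eq_iff_eq_mul.1 e1).symm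
      have hsn : s ∈ Subgroup.normalizer (U : Set X) := by
        have hkn : k ∈ Subgroup.normalizer (U : Set X) := Subgroup.centralizer_le_normalizer _ hkc
        have := mul_mem (inv_mem hkn) hg
        rwa [inv_mul_cancel_left] at this
      exact mul_mem (Subgroup.mem_sup_left hkc) (Subgroup.mem_sup_right ⟨hs, hsn⟩)
    · exact sup_le (Subgroup.centralizer_le_normalizer _) inf_le_right
  · intro h
    obtain ⟨r, hD⟩ := H7.dihLike_of_equiv (S : Subgroup X) m eS
    obtain ⟨N, hNn, hNS⟩ := (S0071.result S).2 (by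
      intro Q hQS g hg hodd
      by_cases hK : IsKleinFour Q
      · have hN := h Q hQS hK
        have hR : IsPGroup 2 (((S : Subgroup X) ⊓ Subgroup.normalizer (Q : Set X)).subgroupOf
            (Subgroup.normalizer (Q : Set X))) := (S.2.to_le inf_le_left).comap_subtype
        have hR' := hR.map Q.normalizerMonoidHom
        have hY : Subgroup.normalizer (Q : Set X) ≤
            (((((S : Subgroup X) ⊓ Subgroup.normalizer (Q : Set X)).subgroupOf
            (Subgroup.normalizer (Q : Set X))).map Q.normalizerMonoidHom).comap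
              Q.normalizerMonoidHom).map (Subgroup.normalizer (Q : Set X)).subtype := by
          conv_lhs => rw [hN]
          apply sup_le
          · intro c hc
            refine ⟨⟨c, Subgroup.centralizer_le_normalizer _ hc⟩, ?_, rfl⟩
            have h3 : (⟨c, Subgroup.centralizer_le_normalizer _ hc⟩ :
                Subgroup.normalizer (Q : Set X)) ∈ Q.normalizerMonoidHom.ker := by
              rw [Subgroup.normalizerMonoidHom_ker, Subgroup.mem_subgroupOf]
              exact hc
            rw [SetLike.mem_coe, Subgroup.mem_comap, MonoidHom.mem_ker.1 h3]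
            exact one_mem _
          · intro c hc
            refine ⟨⟨c, hc.2⟩, ?_, rfl⟩
            exact ⟨⟨c, hc.2⟩, Subgroup.mem_subgroupOf.2 hc, rfl⟩
        obtain ⟨y, hy, hyg⟩ := hY hg
        have hyg' : y = ⟨g, hg⟩ := Subtype.ext hyg
        rw [hyg'] at hy
        obtain ⟨k, hk⟩ := hR' ⟨_, hy⟩
        exact H7.mem_centralizer_of_pow hg hodd (k := k) (by
          simpa using congrArg Subtype.val hk)
      · exact H7.centralizes_of_dihLike S.2 hD hQS hK hg hodd)
    exact ⟨S, N, hNn, hNS⟩

end Cfsg.Agent.S1254
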