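import Cfsg.Statements.S1258
import Cfsg.Agent.Lib_helper5_Comp1

set_option autoImplicit false
open Cfsg

namespace Cfsg.Agent.S1258

open Cfsg.Agent.H5

/-- If the central quotient of a finite group X is non-abelian simple, then X = X' Z(X) and the commutator subgroup X' is quasisimple. -/
theorem result {X : Type*} [Group X] [Finite X] (hs : IsSimpleGroup (X ⧸ Subgroup.center X)) (hna : ¬ IsMulCommutative (X ⧸ Subgroup.center X)) : commutator X ⊔ Subgroup.center X = ⊤ ∧ Cfsg.IsQuasisimple ↥(commutator X) := by
  set Z := Subgroup.center X with hZ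
  have hsurj := QuotientGroup.mk'_surjective Z
  -- the quotient is perfect
  have hperf : commutator (X ⧸ Z) = ⊤ := by
    rcases (inferInstance : (commutator (X ⧸ Z)).Normal).eq_bot_or_eq_top with h | h
    · exact (hna ((commutator_eq_bot_iff (X ⧸ Z)).1 h)).elim
    · exact h
  have hsup : ∀ N : Subgroup X, N.map (QuotientGroup.mk' Z) = ⊤ → N ⊔ Z = ⊤ := by
    intro N h
    have h2 := Subgroup.comap_map_eq (QuotientGroup.mk' Z) N
    rw [h, Subgroup.comap_top, QuotientGroup.ker_mk'] at h2
    exact h2.symm
  have hmapL : (commutator X).map (QuotientGroup.mk' Z) = ⊤ := by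
    rw [map_commutator_eq, MonoidHom.range_eq_top.2 hsurj, ← commutator_def, hperf]
  have h1 : commutator X ⊔ Z = ⊤ := hsup _ hmapL
  refine ⟨h1, ?_⟩
  rw [qs_iff]
  refine ⟨?_, ?_, ?_⟩
  · apply le_antisymm (Subgroup.commutator_le_self _)
    have hm : (⁅commutator X, commutator X⁆ : Subgroup X).map (QuotientGroup.mk' Z) = ⊤ := by
      rw [Subgroup.map_commutator, hmapL, ← commutator_def, hperf]
    exact Subgroup.Normal.commutator_le_of_self_sup_commutative_eq_top (hsup _ hm) inferInstance
  · intro h
    rw [h, Subgroup.map_bot] at hmapL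
    exact bot_ne_top hmapL
  · intro N hN hnorm
    have hNn : N.Normal := by
      rw [← Subgroup.normalizer_eq_top_iff, eq_top_iff, ← h1]
      apply sup_le hnorm
      intro z hz
      rw [Subgroup.mem_normalizer_iff]
      intro x
      have : z * x * z⁻¹ = x := by
        rw [Subgroup.mem_center_iff] at hz
        rw [← hz x]; group
      rw [this]
    have hmap : (N.map (QuotientGroup.mk' Z)).Normal := hNn.map _ hsurj
    rcases hmap.eq_bot_or_eq_top with h | h
    · right
      rw [Subgroup.map_eq_bot_iff, QuotientGroup.ker_mk'] at h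
      exact h.trans (Subgroup.center_le_centralizer _)
    · left
      apply le_antisymm hN
      exact Subgroup.Normal.commutator_le_of_self_sup_commutative_eq_top (hsup _ h) inferInstance

end Cfsg.Agent.S1258
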