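import Cfsg.Statements.S1264
import Cfsg.Agent.Lib_helper5_Comp5

set_option autoImplicit false
open Cfsg

namespace Cfsg.Agent.S1264

open Cfsg.Agent.H5

theorem key {G : Type*} [Group G] [Finite G] (M : Subgroup G) (hM : M.IsSubnormal)
    (hsolv : Group.IsSolvable ↥M)
    (hC : M ≤ Subgroup.centralizer (Cfsg.fittingSubgroup G : Set G)) :
    M ≤ Cfsg.fittingSubgroup G := by
  induction M using WellFoundedLT.induction with
  | ind M ih =>
  rcases eq_or_ne M ⊥ with rfl | hne
  · exact bot_le
  have h1 : ⁅M, M⁆ < M :=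
    lt_of_le_of_ne (Subgroup.commutator_le_self M) (fun h => perfect_not_solvable h hne hsolv)
  have h2 : ⁅M, M⁆ ≤ Cfsg.fittingSubgroup G :=
    ih _ h1 (subnormal_of_normal_in hM h1.le (Subgroup.normalizer_commutator_ge_left _ _))
      (Group.isSolvable_of_isSolvable_injective (Subgroup.inclusion_injective h1.le))
      (h1.le.trans hC)
  apply H2.subnormal_nilpotent_le_fitting M hM
  apply H1.isNilpotent_of_comm_comm_eq_bot
  rw [Subgroup.commutator_eq_bot_iff_le_centralizer]
  exact h2.trans (Subgroup.le_centralizer_iff.mp hC)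

/-- Let G be finite, C = C_G(F(G)) the centralizer of the Fitting subgroup, and N a solvable subgroup of C normalized by C. Then N ≤ Z(F(G)). -/
theorem result {G : Type*} [Group G] [Finite G] (N : Subgroup G) (hN : N ≤ Subgroup.centralizer (Cfsg.fittingSubgroup G : Set G)) (hnorm : Subgroup.centralizer (Cfsg.fittingSubgroup G : Set G) ≤ Subgroup.normalizer (N : Set G)) (hsolv : Group.IsSolvable ↥N) : N ≤ (Subgroup.center ↥(Cfsg.fittingSubgroup G)).map (Cfsg.fittingSubgroup G).subtype := by
  rw [map_center_eq]
  haveI := H2.fitting_normal (G := G)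
  have hCn : (Subgroup.centralizer (Cfsg.fittingSubgroup G : Set G)).Normal := inferInstance
  exact le_inf (key N (subnormal_of_normal_in hCn.isSubnormal hN hnorm) hsolv hN) hN

end Cfsg.Agent.S1264
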