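import Cfsg.Statements.S1266
import Cfsg.Agent.Lib_helper5_CharP5
import Cfsg.Agent.S1316

set_option autoImplicit false
open Cfsg

namespace Cfsg.Agent.S1266

open Cfsg.Agent.H5

/-- the preimage of `E(M/O_{p'}(M))` centralizes every normal `p`-subgroup of `M`. -/
theorem comm_normal_pgroup {M : Type*} [Group M] [Finite M] (p : ℕ) [Fact p.Prime]
    (T : Subgroup M) (hTn : T.Normal) (hTp : IsPGroup p T) :
    ⁅(Cfsg.layer (M ⧸ Cfsg.pPrimeCore p M)).comap (QuotientGroup.mk' (Cfsg.pPrimeCore p M)), T⁆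
      = ⊥ := by
  set W := Cfsg.pPrimeCore p M with hW
  set Y := (Cfsg.layer (M ⧸ W)).comap (QuotientGroup.mk' W) with hY
  have hsurj := QuotientGroup.mk'_surjective W
  have h1 : ⁅Y, T⁆ ≤ W := by
    rw [← QuotientGroup.ker_mk' W, ← Subgroup.map_eq_bot_iff, Subgroup.map_commutator, hY,
      Subgroup.map_comap_eq_self_of_surjective hsurj]
    apply layer_solvable
    · exact H1.isSolvable_of_isPGroup (hTp.map _)
    · rw [Subgroup.normalizer_eq_top_iff.2 (hTn.map _ hsurj)]
      exact le_top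
  have h2 : ⁅Y, T⁆ ≤ T := Subgroup.commutator_le_right _ _
  have h3 : W ⊓ T = ⊥ := by
    apply Subgroup.inf_eq_bot_of_coprime
    obtain ⟨n, hn⟩ := hTp.exists_card_eq
    rw [hn]
    exact (H1.card_pPrimeCore_coprime p).pow_right n
  rw [eq_bot_iff, ← h3]
  exact le_inf h1 h2

theorem perfect_mod {M : Type*} [Group M] (p : ℕ) :
    (Cfsg.layer (M ⧸ Cfsg.pPrimeCore p M)).comap (QuotientGroup.mk' (Cfsg.pPrimeCore p M)) ≤
    ⁅(Cfsg.layer (M ⧸ Cfsg.pPrimeCore p M)).comap (QuotientGroup.mk' (Cfsg.pPrimeCore p M)),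
      (Cfsg.layer (M ⧸ Cfsg.pPrimeCore p M)).comap (QuotientGroup.mk' (Cfsg.pPrimeCore p M))⁆ ⊔
      Cfsg.pPrimeCore p M := by
  have hsurj := QuotientGroup.mk'_surjective (Cfsg.pPrimeCore p M)
  have h := Subgroup.map_le_map_iff (f := QuotientGroup.mk' (Cfsg.pPrimeCore p M))
    (H := (Cfsg.layer (M ⧸ Cfsg.pPrimeCore p M)).comap (QuotientGroup.mk' (Cfsg.pPrimeCore p M)))
    (K := ⁅(Cfsg.layer (M ⧸ Cfsg.pPrimeCore p M)).comap (QuotientGroup.mk' (Cfsg.pPrimeCore p M)),
      (Cfsg.layer (M ⧸ Cfsg.pPrimeCore p M)).comap (QuotientGroup.mk' (Cfsg.pPrimeCore p M))⁆)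
  rw [QuotientGroup.ker_mk'] at h
  apply h.1
  rw [Subgroup.map_commutator, Subgroup.map_comap_eq_self_of_surjective hsurj, S1316.layer_perfect]

theorem aux {G : Type*} [Group G] [Finite G] (p : ℕ) [Fact p.Prime] (P N : Subgroup G)
    (hN : N = Subgroup.normalizer (P : Set G)) (hP : IsPGroup p ↥P) :
    (((Cfsg.layer (↥N ⧸ Cfsg.pPrimeCore p ↥N)).comap
      (QuotientGroup.mk' (Cfsg.pPrimeCore p ↥N))).map N.subtype) ≤
      Subgroup.centralizer (Cfsg.pCore p G : Set G) := by
  have hRn : (Cfsg.pCore p G).Normal := H1.pCore_normal p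
  have hRp : IsPGroup p (Cfsg.pCore p G) := H1.pCore_isPGroup p
  have htop : Subgroup.normalizer (Cfsg.pCore p G : Set G) = ⊤ :=
    Subgroup.normalizer_eq_top_iff.2 hRn
  have hPN : P ≤ N := hN ▸ Subgroup.le_normalizer
  have hCN : Subgroup.centralizer (P : Set G) ≤ N := hN ▸ Subgroup.centralizer_le_normalizer _
  set W := Cfsg.pPrimeCore p ↥N with hW
  set Y' := (Cfsg.layer (↥N ⧸ W)).comap (QuotientGroup.mk' W) with hY'
  -- centralizing normal p-subgroups
  have hcomm : ∀ T : Subgroup G, T ≤ N → IsPGroup p T → N ≤ Subgroup.normalizer (T : Set G) →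
      ⁅Y'.map N.subtype, T⁆ = ⊥ := by
    intro T hT hTp hTn
    have h1 := comm_normal_pgroup p (T.subgroupOf N)
      (Subgroup.normal_subgroupOf_of_le_normalizer hTn) hTp.comap_subtype
    have h2 := congrArg (Subgroup.map N.subtype) h1
    rwa [Subgroup.map_commutator, Subgroup.map_subgroupOf_eq_of_le hT, Subgroup.map_bot] at h2
  have hYX : Y'.map N.subtype ≤ Subgroup.centralizer (P : Set G) := by
    rw [← Subgroup.commutator_eq_bot_iff_le_centralizer]
    exact hcomm P hPN hP hN.le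
  have hC : Cfsg.pCore p G ⊓ Subgroup.centralizer (P : Set G) ≤
      Subgroup.centralizer ((Y'.map N.subtype : Subgroup G) : Set G) := by
    have h1 := hcomm (Cfsg.pCore p G ⊓ N) inf_le_right (hRp.to_le inf_le_left)
      (inf_le_normalizer_of_le (htop ▸ le_top))
    rw [Subgroup.commutator_comm, Subgroup.commutator_eq_bot_iff_le_centralizer] at h1
    exact (inf_le_inf le_rfl hCN).trans h1
  have hWY : W ≤ Y' := by
    have h1 := (QuotientGroup.mk' W).ker_le_comap (Cfsg.layer (↥N ⧸ W))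
    rwa [QuotientGroup.ker_mk'] at h1
  have hWc : W.map N.subtype ≤ Subgroup.centralizer (Cfsg.pCore p G : Set G) := by
    apply H1.thompson_PQ p P (W.map N.subtype) hP _ _ (Cfsg.pCore p G) hRp (htop ▸ le_top)
      (htop ▸ le_top)
    · exact hC.trans (Subgroup.centralizer_le (Subgroup.map_mono hWY))
    · rw [Nat.card_congr (W.equivMapOfInjective N.subtype N.subtype_injective).symm.toEquiv]
      exact H1.card_pPrimeCore_coprime p
    · rw [Subgroup.le_centralizer_iff]
      exact (Subgroup.map_mono hWY).trans hYX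
  apply centralizes_of_thompson hRp hP (htop ▸ le_top) (htop ▸ le_top) hYX hC
  have h1 := Subgroup.map_mono (f := N.subtype) (perfect_mod (M := ↥N) p)
  rw [Subgroup.map_sup, Subgroup.map_commutator] at h1
  exact h1.trans (sup_le_sup le_rfl (le_inf (Subgroup.map_mono hWY) hWc))

/-- Let P be a p-subgroup of the finite group G and N = N_G(P). Then the preimage in N of E(N / O_{p'}(N)) centralizes O_p(G). -/
theorem result {G : Type*} [Group G] [Finite G] (p : ℕ) [Fact p.Prime] (P : Subgroup G) (hP : IsPGroup p ↥P) : (((Cfsg.layer (↥(Subgroup.normalizer ((P : Subgroup G) : Set G)) ⧸ Cfsg.pPrimeCore p ↥(Subgroup.normalizer ((P : Subgroup G) : Set G)))).comap (QuotientGroup.mk' (Cfsg.pPrimeCore p ↥(Subgroup.normalizer ((P : Subgroup G) : Set G))))).map (Subgroup.normalizer ((P : Subgroup G) : Set G)).subtype) ≤ Subgroup.centralizer (Cfsg.pCore p G : Set G) := by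
  exact aux p P _ rfl hP

end Cfsg.Agent.S1266
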