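import Cfsg.Statements.S1267
import Cfsg.Agent.Lib_helper5_CharP5

set_option autoImplicit false
open Cfsg

namespace Cfsg.Agent.S1267

open Cfsg.Agent.H5

theorem aux {G : Type*} [Group G] [Finite G] (p : ℕ) [Fact p.Prime] (P N : Subgroup G)
    (hN : N = Subgroup.normalizer (P : Set G)) (hP : P ≤ Cfsg.pCore p G) :
    (Cfsg.layer ↥N).map N.subtype = Cfsg.layer G := by
  have hRn : (Cfsg.pCore p G).Normal := H1.pCore_normal p
  have hRp : IsPGroup p (Cfsg.pCore p G) := H1.pCore_isPGroup p
  have hPp : IsPGroup p P := hRp.to_le hP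
  have hCN : Subgroup.centralizer (P : Set G) ≤ N := hN ▸ Subgroup.centralizer_le_normalizer _
  have hCRN : Subgroup.centralizer (Cfsg.pCore p G : Set G) ≤ N :=
    (Subgroup.centralizer_le hP).trans hCN
  apply le_antisymm
  · rw [Subgroup.map_le_iff_le_comap]
    apply layer_le
    intro L' hL'
    rw [← Subgroup.map_le_iff_le_comap]
    apply component_le_layer
    refine ⟨?_, (qs_map_subtype_iff N L').2 hL'.2⟩
    apply subnormal_map_of_le L' hL'.1 hCRN
    · exact (inferInstance : (Subgroup.centralizer (Cfsg.pCore p G : Set G)).Normal).isSubnormal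
    · exact component_local_centralizes_pCore hPp (hN ▸ Subgroup.le_normalizer) hN.le hCN L' hL'
  · apply layer_le
    intro L hL
    have hLN : L ≤ N := by
      refine le_trans ?_ hCRN
      rw [← Subgroup.commutator_eq_bot_iff_le_centralizer]
      apply component_solvable hL (H1.isSolvable_of_isPGroup hRp)
      rw [Subgroup.normalizer_eq_top_iff.2 hRn]
      exact le_top
    have h1 := component_le_layer (component_subgroupOf hL hLN)
    have h2 := Subgroup.map_mono (f := N.subtype) h1
    rwa [Subgroup.map_subgroupOf_eq_of_le hLN] at h2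

/-- Let G be finite and P ≤ O_p(G). Then E(N_G(P)) = E(G). -/
theorem result {G : Type*} [Group G] [Finite G] (p : ℕ) [Fact p.Prime] (P : Subgroup G) (hP : P ≤ Cfsg.pCore p G) : (Cfsg.layer ↥(Subgroup.normalizer ((P : Subgroup G) : Set G))).map (Subgroup.normalizer ((P : Subgroup G) : Set G)).subtype = Cfsg.layer G := by
  exact aux p P _ rfl hP

end Cfsg.Agent.S1267
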