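import Cfsg.Statements.S1273
import Cfsg.Agent.Lib_helper5_PComp2

set_option autoImplicit false
open Cfsg

namespace Cfsg.Agent.S1273

open Cfsg.Agent.H5

/-- Let K be a p-component of the finite group X and N a normal subgroup of K whose index in K is prime to p. Then N = K. -/
theorem result {X : Type*} [Group X] [Finite X] (p : ℕ) [Fact p.Prime] (K : Subgroup X) (hK : Cfsg.IsPComponent p K) (N : Subgroup ↥K) [N.Normal] (hidx : (N.index).Coprime p) : N = ⊤ := by
  have hp : Fact p.Prime := inferInstance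
  have hidx' : ¬ p ∣ N.index := by
    rw [Nat.coprime_comm, Nat.Prime.coprime_iff_not_dvd hp.out] at hidx
    exact hidx
  have h1 : pElemClosure p K ≤ N.map K.subtype := by
    rw [pElemClosure_le_iff]
    rintro x hx ⟨k, hk⟩
    exact ⟨⟨x, hx⟩, pElem_mem_of_subnormal N (Subgroup.Normal.isSubnormal inferInstance) hidx'
      ⟨x, hx⟩ ⟨k, Subtype.ext hk⟩, rfl⟩
  rw [pcomp_pElemClosure_eq hK] at h1
  rw [eq_top_iff]
  intro x _
  obtain ⟨y, hy, hyx⟩ := h1 x.2
  have : y = x := Subtype.ext hyx
  exact this ▸ hy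

end Cfsg.Agent.S1273
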