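import Cfsg.Statements.S1274
import Cfsg.Agent.Lib_helper5_PComp2

set_option autoImplicit false
open Cfsg

namespace Cfsg.Agent.S1274

open Cfsg.Agent.H5

/-- A p-component K of the finite group X is a normal subgroup of L_{p'}(X). -/
theorem result {X : Type*} [Group X] [Finite X] (p : ℕ) [Fact p.Prime] (K : Subgroup X) (hK : Cfsg.IsPComponent p K) : (K.subgroupOf (Cfsg.pLayer p X)).Normal := by
  apply Subgroup.normal_subgroupOf_of_le_normalizer
  apply sSup_le
  intro K' hK'
  have h1 : K'.map (QuotientGroup.mk' (Cfsg.pPrimeCore p X)) ≤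
      Subgroup.normalizer ((K.map (QuotientGroup.mk' (Cfsg.pPrimeCore p X)) :
        Subgroup (X ⧸ Cfsg.pPrimeCore p X)) : Set (X ⧸ Cfsg.pPrimeCore p X)) :=
    (component_le_layer hK'.2.1).trans (layer_le_normalizer_component hK.2.1)
  rw [Subgroup.map_le_iff_le_comap] at h1
  have h2 := h1.trans (Subgroup.le_normalizer_comap _)
  have h3 := h2.trans (normalizer_le_normalizer_pElemClosure p _)
  have h4 := pcomp_eq_pCompOf hK
  unfold pCompOf at h4
  rw [← h4] at h3
  exact h3

end Cfsg.Agent.S1274
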