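import Cfsg.Statements.S1279
import Cfsg.Agent.Lib_helper5_Balance

set_option autoImplicit false
open Cfsg

namespace Cfsg.Agent.S1279


/-- Let A be a noncyclic elementary abelian p-subgroup of the finite group G such that C_G(a) is solvable for every non-identity a ∈ A. Then a ↦ O_{p'}(C_G(a)) is a solvable A-signalizer functor on G. -/
theorem result {G : Type*} [Group G] [Finite G] (p : ℕ) [Fact p.Prime] (A : Subgroup G) (hA : Cfsg.IsElementaryAbelian p A) (hA2 : p ^ 2 ≤ Nat.card ↥A) (hsolv : ∀ a ∈ A, a ≠ 1 → Group.IsSolvable ↥(Subgroup.centralizer ({a} : Set G))) : Cfsg.IsSolvableSignalizerFunctor p A (fun a => Cfsg.centralizerPPrimeCore p a) := by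
  have hpp := (Fact.out : p.Prime)
  obtain ⟨hAc, hAp⟩ := hA
  have hcomm : ∀ a ∈ A, ∀ b ∈ A, a * b = b * a := fun a ha b hb => setLike_mul_comm ha hb
  refine ⟨⟨?_, ?_, ?_, ?_⟩, ?_⟩
  · intro a _ _
    exact Subgroup.map_subtype_le _
  · intro a _ _ hdvd
    exact (Nat.Prime.coprime_iff_not_dvd hpp).1
      (Cfsg.Agent.H5.card_pPrimeCoreIn_coprime p (Subgroup.centralizer ({a} : Set G))).symm hdvd
  · intro a ha _ b hb x hx
    have hbC : b ∈ Subgroup.centralizer ({a} : Set G) := by
      rw [Subgroup.mem_centralizer_singleton_iff]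
      exact hcomm b hb a ha
    have h1 := Cfsg.Agent.H5.le_normalizer_map_subtype
      (Cfsg.pPrimeCore p ↥(Subgroup.centralizer ({a} : Set G))) (Cfsg.Agent.H1.pPrimeCore_normal p) hbC
    exact (Subgroup.mem_normalizer_iff.1 h1 x).1 hx
  · intro a ha ha1 b hb hb1
    exact Cfsg.Agent.H5.balance_le p a b ⟨1, by rw [pow_one]; exact orderOf_eq_prime (hAp a ha) ha1⟩
      (hcomm a ha b hb) (hsolv b hb hb1)
  · intro a ha ha1
    haveI := hsolv a ha ha1
    have hle : Cfsg.centralizerPPrimeCore p a ≤ Subgroup.centralizer ({a} : Set G) :=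
      Subgroup.map_subtype_le _
    exact Group.isSolvable_of_isSolvable_injective (Subgroup.inclusion_injective hle)

end Cfsg.Agent.S1279
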