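import Cfsg.Statements.S1280
import Cfsg.Agent.Lib_helper5_FixCoset
import Cfsg.Agent.Lib_helper3_Solv
import Cfsg.Agent.Lib_helper1_Coprime

set_option autoImplicit false
open Cfsg

namespace Cfsg.Agent.S1280


/-- Let θ be a solvable A-signalizer functor (A a noncyclic elementary abelian p-subgroup of the finite group G), and X, Y members of its family with Y ≤ N_G(X). Then X ⊔ Y (= XY) is again in the family. -/
theorem result {G : Type*} [Group G] [Finite G] (p : ℕ) [Fact p.Prime] (A : Subgroup G) (hA : Cfsg.IsElementaryAbelian p A) (hA2 : p ^ 2 ≤ Nat.card ↥A) (θ : G → Subgroup G) (hθ : Cfsg.IsSolvableSignalizerFunctor p A θ) (X Y : Subgroup G) (hX : X ∈ Cfsg.signalizerFamily p A θ) (hY : Y ∈ Cfsg.signalizerFamily p A θ) (hn : Y ≤ Subgroup.normalizer (X : Set G)) : X ⊔ Y ∈ Cfsg.signalizerFamily p A θ := by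
  have hpp := (Fact.out : p.Prime)
  obtain ⟨hXs, hXp, hXA, hXθ⟩ := hX
  obtain ⟨hYs, hYp, hYA, hYθ⟩ := hY
  refine ⟨Cfsg.Agent.H3.isSolvable_sup_of_le_normalizer hn hXs hYs, ?_, ?_, ?_⟩
  · intro hdvd
    have h1 := Cfsg.Agent.H1.card_sup_mul_card_inf' X Y hn
    have h2 : p ∣ Nat.card X * Nat.card Y := h1 ▸ Dvd.dvd.mul_right hdvd _
    rcases (Nat.Prime.dvd_mul hpp).1 h2 with h | h
    · exact hXp h
    · exact hYp h
  · intro b hb u hu
    have hle : X ⊔ Y ≤ (X ⊔ Y).comap (MulAut.conj b).toMonoidHom := by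
      refine sup_le ?_ ?_
      · intro x hx
        exact Subgroup.mem_sup_left (hXA b hb x hx)
      · intro y hy
        exact Subgroup.mem_sup_right (hYA b hb y hy)
    exact hle hu
  · intro a ha ha1 g hg
    obtain ⟨x, hx, y₀, hy₀, hgxy⟩ := Cfsg.Agent.H3.mem_sup_of_le_normalizer hn hg.1
    have hga := Subgroup.mem_centralizer_singleton_iff.1 hg.2
    have hgfix : a * g * a⁻¹ = g := by rw [← hga]; group
    have hap : a ^ (p ^ 1) = 1 := by rw [pow_one]; exact hA.2 a ha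
    have hO : (Nat.card (X ⊓ Y : Subgroup G)).Coprime p :=
      Nat.Coprime.coprime_dvd_left (Subgroup.card_dvd_of_le inf_le_left)
        ((Nat.Prime.coprime_iff_not_dvd hpp).2 hXp).symm
    obtain ⟨c, hc1, hc2⟩ := Cfsg.Agent.H5.exists_fixed_in_coset (O := X ⊓ Y) hO (y := a) (k := y₀)
      hap (fun o ho => Subgroup.mem_inf.2 ⟨hXA a ha o ho.1, hYA a ha o ho.2⟩)
      (Subgroup.mem_inf.2 ⟨by
        have e : a * y₀ * a⁻¹ * y₀⁻¹ = (a * x * a⁻¹)⁻¹ * x := by
          have e1 : a * (x * y₀) * a⁻¹ = x * y₀ := by rw [← hgxy]; exact hgfix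
          have e2 : a * y₀ * a⁻¹ = (a * x * a⁻¹)⁻¹ * (a * (x * y₀) * a⁻¹) := by group
          rw [e2, e1]; group
        rw [e]
        exact mul_mem (inv_mem (hXA a ha x hx)) hx, mul_mem (hYA a ha y₀ hy₀) (inv_mem hy₀)⟩)
    have hcY : c ∈ Y := by
      have : c = (c * y₀⁻¹) * y₀ := by group
      rw [this]
      exact mul_mem hc1.2 hy₀
    have hca : c * a = a * c := by
      calc c * a = (a * c * a⁻¹) * a := by rw [hc2]
        _ = a * c := by group
    have hcθ : c ∈ θ a :=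
      hYθ a ha ha1 (Subgroup.mem_inf.2 ⟨hcY, Subgroup.mem_centralizer_singleton_iff.2 hca⟩)
    have hgcX : g * c⁻¹ ∈ X := by
      have : g * c⁻¹ = x * (c * y₀⁻¹)⁻¹ := by rw [hgxy]; group
      rw [this]
      exact mul_mem hx (inv_mem hc1.1)
    have hgcθ : g * c⁻¹ ∈ θ a := by
      apply hXθ a ha ha1
      refine Subgroup.mem_inf.2 ⟨hgcX, ?_⟩
      exact mul_mem hg.2 (inv_mem (Subgroup.mem_centralizer_singleton_iff.2 hca))
    have : g = (g * c⁻¹) * c := by group
    rw [this]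
    exact mul_mem hgcθ hcθ

end Cfsg.Agent.S1280
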