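import Cfsg.Statements.S1281
import Cfsg.Agent.Lib_helper5_FixCoset

set_option autoImplicit false
open Cfsg

namespace Cfsg.Agent.S1281


/-- Let θ be a solvable A-signalizer functor on the finite group G (A a noncyclic elementary abelian p-subgroup) and N a normal subgroup of order prime to p. Then for all non-identity a, b ∈ A, the image of θ a in G / N meets the centralizer of the image of b inside the image of θ b. -/
theorem result {G : Type*} [Group G] [Finite G] (p : ℕ) [Fact p.Prime] (A : Subgroup G) (hA : Cfsg.IsElementaryAbelian p A) (hA2 : p ^ 2 ≤ Nat.card ↥A) (θ : G → Subgroup G) (hθ : Cfsg.IsSolvableSignalizerFunctor p A θ) (N : Subgroup G) [N.Normal] (hN : ¬ p ∣ Nat.card ↥N) (a b : G) (ha : a ∈ A) (ha1 : a ≠ 1) (hb : b ∈ A) (hb1 : b ≠ 1) : (θ a).map (QuotientGroup.mk' N) ⊓ Subgroup.centralizer {QuotientGroup.mk' N b} ≤ (θ b).map (QuotientGroup.mk' N) := by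
  have hpp := (Fact.out : p.Prime)
  obtain ⟨⟨h1, h2, h3, h4⟩, -⟩ := hθ
  rintro _ ⟨⟨t, ht, rfl⟩, hc⟩
  have hc' := Subgroup.mem_centralizer_singleton_iff.1 hc
  have hbp : b ^ (p ^ 1) = 1 := by rw [pow_one]; exact hA.2 b hb
  have hO : (Nat.card (θ a ⊓ N : Subgroup G)).Coprime p :=
    Nat.Coprime.coprime_dvd_left (Subgroup.card_dvd_of_le inf_le_right)
      ((Nat.Prime.coprime_iff_not_dvd hpp).2 hN).symm
  obtain ⟨c, hc1, hc2⟩ := Cfsg.Agent.H5.exists_fixed_in_coset (O := θ a ⊓ N) hO (y := b) (k := t) hbp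
    (fun o ho => Subgroup.mem_inf.2 ⟨h3 a ha ha1 b hb o ho.1,
      (inferInstance : N.Normal).conj_mem o ho.2 b⟩)
    (Subgroup.mem_inf.2 ⟨mul_mem (h3 a ha ha1 b hb t ht) (inv_mem ht), by
      rw [← QuotientGroup.eq_one_iff]
      have : QuotientGroup.mk' N (b * t * b⁻¹ * t⁻¹) = 1 := by
        rw [map_mul, map_mul, map_mul, map_inv, map_inv, ← hc']
        group
      exact this⟩)
  have hcθ : c ∈ θ a := by
    have : c = (c * t⁻¹) * t := by group
    rw [this]
    exact mul_mem hc1.1 ht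
  have hcb : c ∈ θ b := by
    apply h4 a ha ha1 b hb hb1
    refine Subgroup.mem_inf.2 ⟨hcθ, ?_⟩
    rw [Subgroup.mem_centralizer_singleton_iff]
    calc c * b = (b * c * b⁻¹) * b := by rw [hc2]
      _ = b * c := by group
  refine ⟨c, hcb, ?_⟩
  have h5 : QuotientGroup.mk' N (c * t⁻¹) = 1 := (QuotientGroup.eq_one_iff _).2 hc1.2
  rw [map_mul, map_inv, mul_inv_eq_one] at h5
  exact h5

end Cfsg.Agent.S1281
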