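import Cfsg.Statements.S1282
import Cfsg.Agent.Lib_helper7_Gen6
import Cfsg.Agent.Lib_helper7_Alperin

set_option autoImplicit false
open Cfsg

namespace Cfsg.Agent.S1282

open Subgroup Cfsg.Agent.H7
open scoped Pointwise

/-- Let A be an elementary abelian p-subgroup of rank at least 3 of the finite group G, q ≠ p a prime, and Q₁, Q₂ q-subgroups normalized by A with D = Q₁ ∩ Q₂ different from both. Then there is a non-identity a ∈ A such that, for i = 1 and i = 2, N_{Q_i}(D) ∩ C_G(a) is not contained in D. -/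
theorem result {G : Type*} [Group G] [Finite G] (p : ℕ) [Fact p.Prime] (A : Subgroup G) (hA : Cfsg.IsElementaryAbelian p A) (hA3 : p ^ 3 ≤ Nat.card ↥A) (q : ℕ) [Fact q.Prime] (hqp : q ≠ p) (Q₁ Q₂ : Subgroup G) (h₁ : IsPGroup q ↥Q₁) (h₂ : IsPGroup q ↥Q₂) (hA₁ : A ≤ Subgroup.normalizer (Q₁ : Set G)) (hA₂ : A ≤ Subgroup.normalizer (Q₂ : Set G)) (hD₁ : Q₁ ⊓ Q₂ ≠ Q₁) (hD₂ : Q₁ ⊓ Q₂ ≠ Q₂) : ∃ a ∈ A, a ≠ 1 ∧ ¬ (Subgroup.normalizer ((Q₁ ⊓ Q₂ : Subgroup G) : Set G) ⊓ Q₁ ⊓ Subgroup.centralizer {a} ≤ Q₁ ⊓ Q₂) ∧ ¬ (Subgroup.normalizer ((Q₁ ⊓ Q₂ : Subgroup G) : Set G) ⊓ Q₂ ⊓ Subgroup.centralizer {a} ≤ Q₁ ⊓ Q₂) := by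
  classical
  have hp : p.Prime := Fact.out
  have hq : q.Prime := Fact.out
  set D := Q₁ ⊓ Q₂ with hD
  have hAc : ∀ x ∈ A, ∀ y ∈ A, x * y = y * x := fun x hx y hy =>
    congrArg Subtype.val (hA.1.is_comm.comm ⟨x, hx⟩ ⟨y, hy⟩)
  have hAne : A ≠ ⊥ := by
    rintro rfl
    rw [card_bot] at hA3
    have := Nat.one_lt_pow (n := 3) (by norm_num) hp.one_lt
    omega
  have hAD : A ≤ normalizer (D : Set G) := by
    intro a ha
    rw [mem_normalizer_iff]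
    intro h
    rw [hD, mem_inf, mem_inf, mem_normalizer_iff.mp (hA₁ ha) h, mem_normalizer_iff.mp (hA₂ ha) h]
  have key : ∀ Q : Subgroup G, IsPGroup q Q → A ≤ normalizer (Q : Set G) → D ≤ Q → D ≠ Q →
      ∃ B : Subgroup G, B ≤ A ∧ B.relIndex A = p ∧
        ¬ (normalizer (D : Set G) ⊓ Q ⊓ centralizer (B : Set G) ≤ D) := by
    intro Q hQ hAQ hDQ hne
    by_contra hno
    push Not at hno
    have hK : ¬ p ∣ Nat.card ↥(normalizer (D : Set G) ⊓ Q) := by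
      obtain ⟨k, hk⟩ := IsPGroup.iff_card.mp (hQ.to_le (inf_le_right : normalizer (D : Set G) ⊓ Q ≤ Q))
      rw [hk]
      intro hdvd
      exact hqp ((Nat.prime_dvd_prime_iff_eq hp hq).mp (hp.dvd_of_dvd_pow hdvd)).symm
    have hAK : A ≤ normalizer ((normalizer (D : Set G) ⊓ Q : Subgroup G) : Set G) := by
      intro a ha
      rw [mem_normalizer_iff]
      intro h
      rw [mem_inf, mem_inf, mem_normalizer_iff.mp (hAQ ha) h,
        mem_normalizer_iff.mp (le_normalizer (hAD ha)) h]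
    have h1 := hyperplane_generation A (normalizer (D : Set G) ⊓ Q) D hAc hA.2 hAne hK hAK hno
    have h2 := lt_inf_normalizer hQ (lt_of_le_of_ne hDQ hne)
    rw [inf_comm] at h2
    exact absurd h1 (not_le_of_gt h2)
  obtain ⟨B₁, hB₁A, hB₁i, hB₁⟩ := key Q₁ h₁ hA₁ inf_le_left hD₁
  obtain ⟨B₂, hB₂A, hB₂i, hB₂⟩ := key Q₂ h₂ hA₂ inf_le_right hD₂
  have hne : B₁ ⊓ B₂ ≠ ⊥ := by
    intro hbot
    have h1 := relIndex_inf_le (H := B₁) (K := B₂) (L := A)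
    rw [hbot, relIndex_bot_left, hB₁i, hB₂i] at h1
    have h2 : p * p < p ^ 3 := by
      have : p ^ 3 = p * p * p := by ring
      rw [this]
      have hpos : 0 < p * p := Nat.mul_pos hp.pos hp.pos
      nlinarith [hp.one_lt]
    omega
  obtain ⟨⟨a, ha⟩, ha1'⟩ := Subgroup.ne_bot_iff_exists_ne_one.mp hne
  have ha1 : a ≠ 1 := fun h1 => ha1' (Subtype.ext h1)
  refine ⟨a, hB₁A ha.1, ha1, ?_, ?_⟩
  · intro h
    apply hB₁
    refine le_trans (inf_le_inf_left _ ?_) h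
    apply centralizer_le
    rw [Set.singleton_subset_iff]
    exact ha.1
  · intro h
    apply hB₂
    refine le_trans (inf_le_inf_left _ ?_) h
    apply centralizer_le
    rw [Set.singleton_subset_iff]
    exact ha.2

end Cfsg.Agent.S1282
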