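import Cfsg.Statements.S1289
import Cfsg.Agent.Lib_helper5_PComp2

set_option autoImplicit false
open Cfsg

namespace Cfsg.Agent.S1289

open Cfsg.Agent.H5

/-- A p-component K of the finite group X is subnormal, perfect, of order divisible by p, and minimal among the subnormal perfect subgroups of X of order divisible by p. -/
theorem result {X : Type*} [Group X] [Finite X] (p : ℕ) [Fact p.Prime] (K : Subgroup X) (hK : Cfsg.IsPComponent p K) : K.IsSubnormal ∧ ⁅K, K⁆ = K ∧ p ∣ Nat.card ↥K ∧ ∀ H : Subgroup X, H ≤ K → H.IsSubnormal → ⁅H, H⁆ = H → p ∣ Nat.card ↥H → H = K := by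
  have hp : Fact p.Prime := inferInstance
  refine ⟨hK.1, pcomp_perfect hK, ?_, ?_⟩
  · by_contra hnd
    apply component_ne_bot hK.2.1
    have h1 : pElemClosure p K ≤ ⊥ := by
      rw [pElemClosure_le_iff]
      rintro x hx ⟨k, hk⟩
      rw [Subgroup.mem_bot]
      have h2 : orderOf x ∣ p ^ k := orderOf_dvd_of_pow_eq_one hk
      have h3 : orderOf x ∣ Nat.card K := by
        have := orderOf_dvd_natCard (⟨x, hx⟩ : K)
        rwa [← Subgroup.orderOf_coe] at this
      have h4 : (p ^ k).Coprime (Nat.card K) :=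
        ((Nat.Prime.coprime_iff_not_dvd hp.out).2 hnd).pow_left k
      exact orderOf_eq_one_iff.1 (Nat.eq_one_of_dvd_coprimes h4 h2 h3)
    rw [pcomp_pElemClosure_eq hK, le_bot_iff] at h1
    rw [h1, Subgroup.map_bot]
  · intro H hHK hH hperf hdvd
    apply hK.2.2 H hH hHK
    have hle : H.map (QuotientGroup.mk' (Cfsg.pPrimeCore p X)) ≤
        K.map (QuotientGroup.mk' (Cfsg.pPrimeCore p X)) := Subgroup.map_mono hHK
    rcases qs_subnormal_dichotomy hK.2.1.2 hle
      (hH.map (QuotientGroup.mk'_surjective _)).subgroupOf with h | h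
    · exact h
    · exfalso
      -- the image of `H` is abelian and perfect, so trivial
      have h1 : H.map (QuotientGroup.mk' (Cfsg.pPrimeCore p X)) = ⊥ := by
        have h2 : ⁅H.map (QuotientGroup.mk' (Cfsg.pPrimeCore p X)),
            H.map (QuotientGroup.mk' (Cfsg.pPrimeCore p X))⁆ = ⊥ := by
          rw [Subgroup.commutator_eq_bot_iff_le_centralizer]
          exact h.trans (Subgroup.centralizer_le hle)
        rwa [← Subgroup.map_commutator, hperf] at h2
      rw [Subgroup.map_eq_bot_iff, QuotientGroup.ker_mk'] at h1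
      have h3 := H1.card_pPrimeCore_coprime (G := X) p
      rw [Nat.coprime_comm, Nat.Prime.coprime_iff_not_dvd hp.out] at h3
      exact h3 (hdvd.trans (Subgroup.card_dvd_of_le h1))

end Cfsg.Agent.S1289
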