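import Cfsg.Statements.S1303
import Cfsg.Agent.S2431
import Cfsg.Agent.S0261

set_option autoImplicit false
open Cfsg

namespace Cfsg.Agent.S1303

/-- The group X = SL(2, 3): it is 2-constrained, O_{2'}(X) = 1, its centre A = Z(X) contains every involution of X = C_X(A), and X has a subgroup of order 3 (normalized by A) not contained in O_{2'}(X). -/
theorem result : Cfsg.IsPConstrained 2 (Matrix.SpecialLinearGroup (Fin 2) (ZMod 3)) ∧ Cfsg.pPrimeCore 2 (Matrix.SpecialLinearGroup (Fin 2) (ZMod 3)) = ⊥ ∧ (∀ t : Matrix.SpecialLinearGroup (Fin 2) (ZMod 3), orderOf t = 2 → t ∈ Subgroup.center (Matrix.SpecialLinearGroup (Fin 2) (ZMod 3))) ∧ ∃ Q : Subgroup (Matrix.SpecialLinearGroup (Fin 2) (ZMod 3)), Nat.card ↥Q = 3 ∧ ¬ (Q ≤ Cfsg.pPrimeCore 2 (Matrix.SpecialLinearGroup (Fin 2) (ZMod 3))) := by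
  have hodd : Odd (Fintype.card (ZMod 3)) := by rw [ZMod.card]; decide
  have hF : Fintype.card (ZMod 3) = 3 := ZMod.card 3
  have h2 : (2 : ZMod 3) ≠ 0 := by decide
  obtain ⟨S⟩ : Nonempty (Sylow 2 (Matrix.SpecialLinearGroup (Fin 2) (ZMod 3))) := inferInstance
  have hG : Nat.card (Matrix.SpecialLinearGroup (Fin 2) (ZMod 3)) = 24 := by
    rw [Cfsg.Agent.H6.GL2C.card_SL2, hF]; norm_num
  have hN := (Cfsg.Agent.S2431.result hodd S).2.2 (Or.inl (by rw [hF]))
  have hcent := (Cfsg.Agent.S2431.result hodd S).1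
  obtain ⟨k, hk1, ⟨e⟩⟩ := Cfsg.Agent.S0261.result hodd S
  have hSc : Nat.card (S : Subgroup (Matrix.SpecialLinearGroup (Fin 2) (ZMod 3))) = 4 * 2 ^ k := by
    have : NeZero (2 ^ k) := ⟨by positivity⟩
    rw [Nat.card_congr e.toEquiv, Nat.card_eq_fintype_card, QuaternionGroup.card]
  have hle : Nat.card (Subgroup.normalizer
      ((S : Subgroup (Matrix.SpecialLinearGroup (Fin 2) (ZMod 3))) :
      Set (Matrix.SpecialLinearGroup (Fin 2) (ZMod 3)))) ≤ 24 := by
    rw [← hG]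
    exact Subgroup.card_le_card_group _
  have hS' : Nat.card S = Nat.card (S : Subgroup (Matrix.SpecialLinearGroup (Fin 2) (ZMod 3))) := rfl
  have hk : k = 1 := by
    by_contra hne
    have hk2 : 2 ≤ k := by omega
    have : 2 ^ 2 ≤ 2 ^ k := Nat.pow_le_pow_right (by norm_num) hk2
    omega
  subst hk
  have hS8 : Nat.card (S : Subgroup (Matrix.SpecialLinearGroup (Fin 2) (ZMod 3))) = 8 := by
    rw [hSc]; norm_num
  have hNtop : Subgroup.normalizer ((S : Subgroup (Matrix.SpecialLinearGroup (Fin 2) (ZMod 3))) :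
      Set (Matrix.SpecialLinearGroup (Fin 2) (ZMod 3))) = ⊤ := by
    apply Subgroup.eq_top_of_card_eq
    rw [hN, hS', hS8, hG]
  have hSn : (S : Subgroup (Matrix.SpecialLinearGroup (Fin 2) (ZMod 3))).Normal :=
    Subgroup.normalizer_eq_top_iff.mp hNtop
  have hZ := Cfsg.Agent.S2431.card_center (F := ZMod 3) hodd
  have hZS : Subgroup.center (Matrix.SpecialLinearGroup (Fin 2) (ZMod 3)) ≤ S := by
    intro z hz
    apply Cfsg.Agent.S2431.mem_sylow_of_normalizer S z (by rw [hNtop]; trivial) 1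
    have := pow_card_eq_one' (G := Subgroup.center (Matrix.SpecialLinearGroup (Fin 2) (ZMod 3)))
      (x := ⟨z, hz⟩)
    rw [hZ] at this
    rw [pow_one]
    exact congrArg Subtype.val this
  have hcore : Cfsg.pPrimeCore 2 (Matrix.SpecialLinearGroup (Fin 2) (ZMod 3)) = ⊥ := by
    rw [eq_bot_iff]
    apply sSup_le
    rintro N ⟨hNn, hNc⟩
    have hinf : N ⊓ (S : Subgroup (Matrix.SpecialLinearGroup (Fin 2) (ZMod 3))) = ⊥ := by
      apply Subgroup.inf_eq_bot_of_coprime
      rw [hS8]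
      exact Nat.Coprime.pow_right 3 hNc
    have hNZ : N ≤ Subgroup.center (Matrix.SpecialLinearGroup (Fin 2) (ZMod 3)) := by
      rw [← hcent]
      intro n hn
      rw [Subgroup.mem_centralizer_iff]
      intro s hs
      have hxN : n * s * n⁻¹ * s⁻¹ ∈ N := by
        have : n * s * n⁻¹ * s⁻¹ = n * (s * n⁻¹ * s⁻¹) := by group
        rw [this]
        exact mul_mem hn (hNn.conj_mem _ (inv_mem hn) s)
      have hs' : s ∈ (S : Subgroup (Matrix.SpecialLinearGroup (Fin 2) (ZMod 3))) := hs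
      have hxS : n * s * n⁻¹ * s⁻¹ ∈ (S : Subgroup (Matrix.SpecialLinearGroup (Fin 2) (ZMod 3))) :=
        mul_mem (hSn.conj_mem s hs' n) (inv_mem hs')
      have hx : n * s * n⁻¹ * s⁻¹ ∈ N ⊓ (S : Subgroup (Matrix.SpecialLinearGroup (Fin 2) (ZMod 3))) :=
        ⟨hxN, hxS⟩
      rw [hinf, Subgroup.mem_bot] at hx
      calc s * n = (n * s * n⁻¹ * s⁻¹)⁻¹ * (n * s) := by group
        _ = n * s := by rw [hx]; simp
    have hd := Subgroup.card_dvd_of_le hNZ
    rw [hZ] at hd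
    have h1 : Nat.card N = 1 := Nat.Coprime.eq_one_of_dvd hNc hd
    rw [Subgroup.card_eq_one.mp h1]
  refine ⟨?_, hcore, ?_, ?_⟩
  · intro P
    have hSW : (S : Subgroup (Matrix.SpecialLinearGroup (Fin 2) (ZMod 3))) ≤
        Cfsg.pPrimePCore 2 (Matrix.SpecialLinearGroup (Fin 2) (ZMod 3)) := by
      intro x hx
      show QuotientGroup.mk' _ x ∈ Cfsg.pCore 2 _
      have hmem : (S : Subgroup (Matrix.SpecialLinearGroup (Fin 2) (ZMod 3))).map
          (QuotientGroup.mk' (Cfsg.pPrimeCore 2 (Matrix.SpecialLinearGroup (Fin 2) (ZMod 3)))) ≤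
          Cfsg.pCore 2 _ :=
        le_sSup ⟨hSn.map _ (QuotientGroup.mk'_surjective _), S.isPGroup'.map _⟩
      exact hmem ⟨x, hx, rfl⟩
    have hsub : (S : Subgroup (Matrix.SpecialLinearGroup (Fin 2) (ZMod 3))).subgroupOf
        (Cfsg.pPrimePCore 2 (Matrix.SpecialLinearGroup (Fin 2) (ZMod 3))) ≤ P := by
      have hp1 : IsPGroup 2 ((S : Subgroup (Matrix.SpecialLinearGroup (Fin 2) (ZMod 3))).subgroupOf
          (Cfsg.pPrimePCore 2 (Matrix.SpecialLinearGroup (Fin 2) (ZMod 3)))) :=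
        S.isPGroup'.comap_subtype
      have hp := IsPGroup.to_sup_of_normal_left hp1 P.isPGroup'
      have hmax := P.is_maximal' hp le_sup_right
      rw [← hmax]
      exact le_sup_left
    have hSP : (S : Subgroup (Matrix.SpecialLinearGroup (Fin 2) (ZMod 3))) ≤
        (P : Subgroup ↥(Cfsg.pPrimePCore 2 (Matrix.SpecialLinearGroup (Fin 2) (ZMod 3)))).map
          (Cfsg.pPrimePCore 2 (Matrix.SpecialLinearGroup (Fin 2) (ZMod 3))).subtype := by
      intro x hx
      exact ⟨⟨x, hSW hx⟩, hsub (Subgroup.mem_subgroupOf.mpr hx), rfl⟩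
    calc Subgroup.centralizer _ ≤ Subgroup.centralizer
          ((S : Subgroup (Matrix.SpecialLinearGroup (Fin 2) (ZMod 3))) :
            Set (Matrix.SpecialLinearGroup (Fin 2) (ZMod 3))) := Subgroup.centralizer_le hSP
      _ = Subgroup.center _ := hcent
      _ ≤ S := hZS
      _ ≤ _ := hSW
  · intro t ht
    have htt : t * t = 1 := by
      have := pow_orderOf_eq_one t
      rwa [ht, sq] at this
    have htt' : (t : Matrix (Fin 2) (Fin 2) (ZMod 3)) * (t : Matrix (Fin 2) (Fin 2) (ZMod 3)) = 1 := by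
      rw [← Matrix.SpecialLinearGroup.coe_mul, htt]; rfl
    rcases Cfsg.Agent.H6.GL2C.eq_one_or_neg_one_of_sq_eq_one h2 t htt' with h | h
    · exact Cfsg.Agent.S0807.mem_center_of_one t h
    · exact Cfsg.Agent.S0807.mem_center_of_neg_one t h
  · have : Fact (Nat.Prime 3) := ⟨Nat.prime_three⟩
    obtain ⟨c, hc⟩ := exists_prime_orderOf_dvd_card'
      (G := Matrix.SpecialLinearGroup (Fin 2) (ZMod 3)) 3 (by rw [hG]; norm_num)
    refine ⟨Subgroup.zpowers c, by rw [Nat.card_zpowers, hc], ?_⟩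
    rw [hcore, le_bot_iff, Subgroup.zpowers_eq_bot]
    rintro rfl
    simp at hc

end Cfsg.Agent.S1303
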