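import Cfsg.Statements.S1304
import Mathlib

set_option autoImplicit false
open Cfsg

namespace Cfsg.Agent.S1304

open scoped IsMulCommutative in
theorem aux {X : Type*} [Group X] (hperf : commutator X = ⊤) (α : X ≃* X)
    (h : ∀ x : X, α x * x⁻¹ ∈ Subgroup.center X) : ∀ x : X, α x = x := by
  let φ : X →* Subgroup.center X :=
    MonoidHom.mk' (fun x => ⟨α x * x⁻¹, h x⟩) (by
      intro a b
      ext
      show α (a * b) * (a * b)⁻¹ = α a * a⁻¹ * (α b * b⁻¹)
      have hb : (α b * b⁻¹) * a⁻¹ = a⁻¹ * (α b * b⁻¹) :=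
        (Subgroup.mem_center_iff.1 (h b) a⁻¹).symm
      rw [map_mul, mul_inv_rev]
      calc α a * α b * (b⁻¹ * a⁻¹) = α a * ((α b * b⁻¹) * a⁻¹) := by group
        _ = α a * (a⁻¹ * (α b * b⁻¹)) := by rw [hb]
        _ = _ := by group)
  have h1 : commutator X ≤ φ.ker := Abelianization.commutator_subset_ker φ
  rw [hperf] at h1
  intro x
  have h2 : φ x = 1 := h1 (Subgroup.mem_top x)
  have h3 : α x * x⁻¹ = 1 := congrArg Subtype.val h2
  exact mul_inv_eq_one.1 h3


/-- Let X be a perfect group and α an automorphism of X with α(x) x⁻¹ central for every x. Then α is the identity. -/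
theorem result {X : Type*} [Group X] (hperf : commutator X = ⊤) (α : X ≃* X) (h : ∀ x : X, α x * x⁻¹ ∈ Subgroup.center X) : ∀ x : X, α x = x := by
  exact aux hperf α h

end Cfsg.Agent.S1304
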