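import Cfsg.Statements.S1306
import Cfsg.Agent.Lib_helper5_Comp8
import Cfsg.Agent.Lib_helper7_Sylow

set_option autoImplicit false
open Cfsg

namespace Cfsg.Agent.S1306

open Cfsg.Agent.H5

theorem key {G : Type*} [Group G] [Finite G] (L : Subgroup G)
    (hne : ∀ y : G, orderOf y = 2 → y ∈ Subgroup.centralizer (L : Set G) →
      L ≤ Subgroup.centralizer ({y} : Set G) ∧
        Cfsg.IsComponent (L.subgroupOf (Subgroup.centralizer ({y} : Set G))))
    (hnc : ∀ g : G, L.map (MulAut.conj g).toMonoidHom ≠ L →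
      ⁅L, L.map (MulAut.conj g).toMonoidHom⁆ ≠ ⊥)
    (g y : G) (hy : orderOf y = 2) (hy1 : y ∈ Subgroup.centralizer (L : Set G))
    (hy2 : y ∈ (Subgroup.centralizer (L : Set G)).map (MulAut.conj g).toMonoidHom) :
    L.map (MulAut.conj g).toMonoidHom = L := by
  by_contra hcon
  obtain ⟨y', hy', hyy⟩ := hy2
  have hyy' : g * y' * g⁻¹ = y := hyy
  have ho : orderOf y' = 2 := by
    rw [← hy, ← hyy', H7.orderOf_conj']
  obtain ⟨h1, h2⟩ := hne y hy hy1
  obtain ⟨h3, h4⟩ := hne y' ho hy'
  have h5 := component_subgroupOf_conj g h4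
  rw [← centralizer_singleton_conj, hyy'] at h5
  have h6 : L.map (MulAut.conj g).toMonoidHom ≤ Subgroup.centralizer ({y} : Set G) := by
    rw [← hyy', centralizer_singleton_conj]
    exact Subgroup.map_mono h3
  rcases components_in_commute h1 h6 h2 h5 with h | h
  · exact hcon h.symm
  · exact hnc g hcon h

/-- Let G be finite, x an involution and L ≤ C_G(x) a component of C_G(x). Suppose L is a component of C_G(y) for every involution y ∈ C_G(L), and ⁅L, g L g⁻¹⁆ ≠ 1 whenever g L g⁻¹ ≠ L. Then L is a standard subgroup of G. -/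
theorem result {G : Type*} [Group G] [Finite G] (x : G) (hx : orderOf x = 2) (L : Subgroup G) (hLx : L ≤ Subgroup.centralizer ({x} : Set G)) (hL : Cfsg.IsComponent (L.subgroupOf (Subgroup.centralizer ({x} : Set G)))) (hne : ∀ y : G, orderOf y = 2 → y ∈ Subgroup.centralizer (L : Set G) → L ≤ Subgroup.centralizer ({y} : Set G) ∧ Cfsg.IsComponent (L.subgroupOf (Subgroup.centralizer ({y} : Set G)))) (hnc : ∀ g : G, L.map (MulAut.conj g).toMonoidHom ≠ L → ⁅L, L.map (MulAut.conj g).toMonoidHom⁆ ≠ ⊥) : Cfsg.IsStandardSubgroup L := by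
  have hxK : x ∈ Subgroup.centralizer (L : Set G) := by
    rw [Subgroup.mem_centralizer_iff]
    intro l hl
    have := Subgroup.mem_centralizer_singleton_iff.1 (hLx hl)
    exact this
  have hNN : Subgroup.normalizer (L : Set G) ≤
      Subgroup.normalizer (Subgroup.centralizer (L : Set G) : Set G) :=
    normalizer_le_normalizer_centralizer L
  refine ⟨(qs_subgroupOf_iff hLx).1 hL.2, ⟨?_, ?_⟩, hnc, le_antisymm hNN ?_⟩
  · rw [even_iff_two_dvd, ← hx]
    have := orderOf_dvd_natCard (⟨x, hxK⟩ : ↥(Subgroup.centralizer (L : Set G)))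
    rwa [← Subgroup.orderOf_coe] at this
  · intro g hg
    rw [← Nat.not_even_iff_odd, even_iff_two_dvd]
    intro h2
    obtain ⟨y, hy⟩ := exists_prime_orderOf_dvd_card' (G := ↥(Subgroup.centralizer (L : Set G) ⊓
      (Subgroup.centralizer (L : Set G)).map (MulAut.conj g).toMonoidHom)) 2 h2
    have hy' : orderOf (y : G) = 2 := by rw [Subgroup.orderOf_coe, hy]
    have h3 := key L hne hnc g y hy' y.2.1 y.2.2
    exact hg (hNN (H7.map_conj_eq_self_iff.1 h3))
  · intro g hg
    have h1 := H7.map_conj_eq_self_iff.2 hg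
    have h3 := key L hne hnc g x hx hxK (by rw [h1]; exact hxK)
    exact H7.map_conj_eq_self_iff.1 h3

end Cfsg.Agent.S1306
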