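import Cfsg.Statements.S1314
import Mathlib

set_option autoImplicit false
open Cfsg

namespace Cfsg.Agent.S1314

open scoped commutatorElement


/-- Let x be an involution of a group G and L a perfect subgroup with ⁅L, x L x⁻¹⁆ = 1. Then l ↦ l (x l x⁻¹) is a group homomorphism π from L to G whose kernel is central in L and whose image lies in C_G(x); and the commutator subgroup of C_{L ⊔ xLx⁻¹}(x) equals the image of π. -/
theorem result {G : Type*} [Group G] [Finite G] (x : G) (hx : orderOf x = 2) (L : Subgroup G) (hperf : ⁅L, L⁆ = L) (hcomm : ⁅L, L.map (MulAut.conj x).toMonoidHom⁆ = ⊥) : ∃ π : ↥L →* G, (∀ l : ↥L, π l = (l : G) * (x * (l : G) * x⁻¹)) ∧ π.ker ≤ Subgroup.center ↥L ∧ π.range ≤ Subgroup.centralizer ({x} : Set G) ∧ ⁅(L ⊔ L.map (MulAut.conj x).toMonoidHom) ⊓ Subgroup.centralizer ({x} : Set G), (L ⊔ L.map (MulAut.conj x).toMonoidHom) ⊓ Subgroup.centralizer ({x} : Set G)⁆ = π.range := by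
  have hx2 : x * x = 1 := by
    have := pow_orderOf_eq_one x
    rwa [hx, pow_two] at this
  have hxinv : x⁻¹ = x := inv_eq_of_mul_eq_one_left hx2
  -- elements of L commute with conjugates of elements of L
  have hcm : ∀ a ∈ L, ∀ b ∈ L, a * (x * b * x⁻¹) = (x * b * x⁻¹) * a := by
    intro a ha b hb
    have h1 : ⁅a, x * b * x⁻¹⁆ ∈ ⁅L, L.map (MulAut.conj x).toMonoidHom⁆ :=
      Subgroup.commutator_mem_commutator ha ⟨b, hb, rfl⟩
    rw [hcomm, Subgroup.mem_bot, commutatorElement_eq_one_iff_mul_comm] at h1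
    exact h1
  let f : ↥L →* G := L.subtype
  let g : ↥L →* G := (MulAut.conj x).toMonoidHom.comp L.subtype
  have hg : ∀ l : ↥L, g l = x * (l : G) * x⁻¹ := fun _ => rfl
  have hfg : ∀ m n : ↥L, Commute (f m) (g n) := fun m n => hcm m m.2 n n.2
  let μ : ↥L × ↥L →* G := f.noncommCoprod g hfg
  have hμ : ∀ a b : ↥L, μ (a, b) = (a : G) * (x * (b : G) * x⁻¹) := fun _ _ => rfl
  let π : ↥L →* G := μ.comp (MonoidHom.prod (MonoidHom.id _) (MonoidHom.id _))
  have hπ : ∀ l : ↥L, π l = (l : G) * (x * (l : G) * x⁻¹) := fun _ => rfl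
  have hμrange : μ.range = L ⊔ L.map (MulAut.conj x).toMonoidHom := by
    rw [MonoidHom.noncommCoprod_range]
    congr 1
    · exact L.range_subtype
    · rw [MonoidHom.range_eq_map, ← Subgroup.map_map, ← MonoidHom.range_eq_map, L.range_subtype]
  have hrangeC : π.range ≤ Subgroup.centralizer ({x} : Set G) := by
    rintro _ ⟨l, rfl⟩
    rw [Subgroup.mem_centralizer_singleton_iff, hπ]
    have h1 := hcm l l.2 l l.2
    calc (l : G) * (x * (l : G) * x⁻¹) * x = (x * (l : G) * x⁻¹) * (l : G) * x := by rw [h1]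
      _ = x * ((l : G) * (x * (l : G) * x)) := by rw [hxinv]; group
      _ = x * ((l : G) * (x * (l : G) * x⁻¹)) := by rw [hxinv]
  refine ⟨π, hπ, ?_, hrangeC, ?_⟩
  · intro l hl
    rw [MonoidHom.mem_ker, hπ] at hl
    rw [Subgroup.mem_center_iff]
    intro m
    apply Subtype.ext
    show (m : G) * l = l * m
    have h1 : (l : G) = x * (l : G)⁻¹ * x⁻¹ := by
      have := eq_inv_of_mul_eq_one_left hl
      calc (l : G) = (x * (l : G) * x⁻¹)⁻¹ := this
        _ = x * (l : G)⁻¹ * x⁻¹ := by group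
    rw [h1]
    exact hcm m m.2 _ (inv_mem l.2)
  · set M := L ⊔ L.map (MulAut.conj x).toMonoidHom with hM
    have hrangeM : π.range ≤ M := by
      rintro _ ⟨l, rfl⟩
      rw [← hμrange]
      exact ⟨(l, l), rfl⟩
    have hdec : ∀ y ∈ M ⊓ Subgroup.centralizer ({x} : Set G), ∃ a : ↥L, ∃ z : G,
        y = π a * z ∧ z ∈ M ∧ ∀ w ∈ M, z * w = w * z := by
      intro y hy
      have hyM : y ∈ M := hy.1
      have hyC : y ∈ Subgroup.centralizer ({x} : Set G) := hy.2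
      clear hy
      rw [← hμrange] at hyM
      obtain ⟨⟨a, b⟩, rfl⟩ := hyM
      rw [Subgroup.mem_centralizer_singleton_iff, hμ] at hyC
      have e1 : x * ((a : G)⁻¹ * b) * x⁻¹ = (b : G) * (a : G)⁻¹ := by
        have h1 := hcm b b.2 a a.2
        have h2 : (x * (a : G) * x⁻¹) * b = (a : G) * (x * (b : G) * x⁻¹) := by
          have : x * ((a : G) * (x * (b : G) * x⁻¹)) * x⁻¹ = (a : G) * (x * (b : G) * x⁻¹) := by
            rw [← hyC]; group
          rw [← this]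
          have e : x * ((a : G) * (x * (b : G) * x⁻¹)) * x⁻¹ =
              x * (a : G) * x⁻¹ * ((x * x) * (b : G) * (x * x)⁻¹) := by group
          rw [e, hx2]; group
        rw [← h1] at h2
        -- b * (x a x⁻¹) = a * (x b x⁻¹)
        have h3 : (a : G)⁻¹ * b = x * ((b : G) * (a : G)⁻¹) * x⁻¹ := by
          have : (a : G)⁻¹ * ((b : G) * (x * (a : G) * x⁻¹)) * (x * (a : G) * x⁻¹)⁻¹ =
              (a : G)⁻¹ * ((a : G) * (x * (b : G) * x⁻¹)) * (x * (a : G) * x⁻¹)⁻¹ := by rw [h2]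
          calc (a : G)⁻¹ * b = (a : G)⁻¹ * ((b : G) * (x * (a : G) * x⁻¹)) * (x * (a : G) * x⁻¹)⁻¹ := by
                group
            _ = (a : G)⁻¹ * ((a : G) * (x * (b : G) * x⁻¹)) * (x * (a : G) * x⁻¹)⁻¹ := this
            _ = x * ((b : G) * (a : G)⁻¹) * x⁻¹ := by group
        rw [h3]
        have e : x * (x * ((b : G) * (a : G)⁻¹) * x⁻¹) * x⁻¹ =
            (x * x) * ((b : G) * (a : G)⁻¹) * (x * x)⁻¹ := by group
        rw [e, hx2]; group
      refine ⟨a, x * ((a : G)⁻¹ * b) * x⁻¹, ?_, ?_, ?_⟩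
      · rw [hμ, hπ]; group
      · exact Subgroup.mem_sup_right ⟨(a : G)⁻¹ * b, L.mul_mem (L.inv_mem a.2) b.2, rfl⟩
      · intro w hw
        rw [← hμrange] at hw
        obtain ⟨⟨c, d⟩, rfl⟩ := hw
        rw [hμ]
        have c1 := hcm c c.2 ((a : G)⁻¹ * b) (L.mul_mem (L.inv_mem a.2) b.2)
        have c2 := hcm ((b : G) * (a : G)⁻¹) (L.mul_mem b.2 (L.inv_mem a.2)) d d.2
        calc x * ((a : G)⁻¹ * b) * x⁻¹ * ((c : G) * (x * (d : G) * x⁻¹))
            = (x * ((a : G)⁻¹ * b) * x⁻¹ * (c : G)) * (x * (d : G) * x⁻¹) := by group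
          _ = ((c : G) * (x * ((a : G)⁻¹ * b) * x⁻¹)) * (x * (d : G) * x⁻¹) := by rw [c1]
          _ = (c : G) * (((b : G) * (a : G)⁻¹) * (x * (d : G) * x⁻¹)) := by rw [e1]; group
          _ = (c : G) * ((x * (d : G) * x⁻¹) * ((b : G) * (a : G)⁻¹)) := by rw [c2]
          _ = (c : G) * (x * (d : G) * x⁻¹) * (x * ((a : G)⁻¹ * b) * x⁻¹) := by rw [e1]; group
    apply le_antisymm
    · rw [Subgroup.commutator_le]
      intro g1 hg1 g2 hg2
      obtain ⟨a1, z1, rfl, hz1M, hz1⟩ := hdec g1 hg1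
      obtain ⟨a2, z2, rfl, hz2M, hz2⟩ := hdec g2 hg2
      have hp1 : π a1 ∈ M := hrangeM ⟨a1, rfl⟩
      have hp2 : π a2 ∈ M := hrangeM ⟨a2, rfl⟩
      have c1 : z1 * π a2 = π a2 * z1 := hz1 _ hp2
      have c2 : z2 * z1⁻¹ = z1⁻¹ * z2 := hz2 _ (M.inv_mem hz1M)
      have c3 : z2 * (π a1)⁻¹ = (π a1)⁻¹ * z2 := hz2 _ (M.inv_mem hp1)
      have key : ⁅π a1 * z1, π a2 * z2⁆ = ⁅π a1, π a2⁆ := by
        simp only [commutatorElement_def, mul_inv_rev]
        calc π a1 * z1 * (π a2 * z2) * (z1⁻¹ * (π a1)⁻¹) * (z2⁻¹ * (π a2)⁻¹)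
            = π a1 * (z1 * π a2) * (z2 * z1⁻¹) * (π a1)⁻¹ * z2⁻¹ * (π a2)⁻¹ := by group
          _ = π a1 * (π a2 * z1) * (z1⁻¹ * z2) * (π a1)⁻¹ * z2⁻¹ * (π a2)⁻¹ := by rw [c1, c2]
          _ = π a1 * π a2 * (z2 * (π a1)⁻¹) * z2⁻¹ * (π a2)⁻¹ := by group
          _ = π a1 * π a2 * ((π a1)⁻¹ * z2) * z2⁻¹ * (π a2)⁻¹ := by rw [c3]
          _ = π a1 * π a2 * (π a1)⁻¹ * (π a2)⁻¹ := by group
      rw [key, ← map_commutatorElement]
      exact ⟨_, rfl⟩
    · have htop : ⁅(⊤ : Subgroup ↥L), (⊤ : Subgroup ↥L)⁆ = (⊤ : Subgroup ↥L) := by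
        apply Subgroup.map_injective L.subtype_injective
        rw [Subgroup.map_commutator, ← MonoidHom.range_eq_map, L.range_subtype, hperf]
      have h1 : π.range = ⁅π.range, π.range⁆ := by
        conv_lhs => rw [MonoidHom.range_eq_map, ← htop, Subgroup.map_commutator,
          ← MonoidHom.range_eq_map]
      rw [h1]
      exact Subgroup.commutator_mono (le_inf hrangeM hrangeC) (le_inf hrangeM hrangeC)

end Cfsg.Agent.S1314
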