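import Cfsg.Statements.S1318
import Cfsg.Agent.Lib_helper5_Comp6

set_option autoImplicit false
open Cfsg

namespace Cfsg.Agent.S1318

open Cfsg.Agent.H5

/-- Let X be finite and S ≤ F*(X) a subgroup subnormal in F*(X). Then F(S) = F(X) ∩ S (inside X) and S = F(S)E(S). -/
theorem result {X : Type*} [Group X] [Finite X] (S : Subgroup X) (hS : S ≤ Cfsg.generalizedFittingSubgroup X) (hsn : (S.subgroupOf (Cfsg.generalizedFittingSubgroup X)).IsSubnormal) : (Cfsg.fittingSubgroup ↥S).map S.subtype = Cfsg.fittingSubgroup X ⊓ S ∧ Cfsg.fittingSubgroup ↥S ⊔ Cfsg.layer ↥S = ⊤ := by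
  have hS' : S.IsSubnormal := hsn.trans hS (genFitting_normal (G := X)).isSubnormal
  refine ⟨fitting_map_subtype_eq S hS', ?_⟩
  have h1 := subnormal_le_genFitting_decomp S hS' hS
  rw [← fitting_map_subtype_eq S hS', ← layer_map_subtype_eq S hS', ← Subgroup.map_sup] at h1
  rw [eq_top_iff]
  intro x _
  obtain ⟨y, hy, hyx⟩ := h1 x.2
  have : y = x := Subtype.ext hyx
  exact this ▸ hy

end Cfsg.Agent.S1318
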