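import Cfsg.Statements.S1321
import Cfsg.Agent.Lib_helper5_Comp2

set_option autoImplicit false
open Cfsg

namespace Cfsg.Agent.S1321

open Cfsg.Agent.H5

/-- Let X be finite and U ≤ X. Then E(X) is generated by C_{E(X)}(U) together with ⁅E(X), U⁆ (indeed it is their product, ⁅E(X), U⁆ being normal in E(X)). -/
theorem result {X : Type*} [Group X] [Finite X] (U : Subgroup X) : Cfsg.layer X = (Cfsg.layer X ⊓ Subgroup.centralizer (U : Set X)) ⊔ ⁅Cfsg.layer X, U⁆ ∧ ⁅Cfsg.layer X, U⁆ ≤ Cfsg.layer X := by
  haveI hEn : (Cfsg.layer X).Normal := layer_normal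
  have hle : ⁅Cfsg.layer X, U⁆ ≤ Cfsg.layer X := Subgroup.commutator_le_left _ _
  refine ⟨le_antisymm ?_ (sup_le inf_le_left hle), hle⟩
  -- `[E,U]` is normal in `E`, so subnormal in `X`
  have hsn : (⁅Cfsg.layer X, U⁆ : Subgroup X).IsSubnormal := by
    refine Subgroup.IsSubnormal.step _ _ hle hEn.isSubnormal ?_
    exact Subgroup.normal_subgroupOf_of_le_normalizer (Subgroup.normalizer_commutator_ge_left _ _)
  apply layer_le
  intro L hL
  rcases component_subnormal hL hsn with h | h
  · exact h.trans le_sup_right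
  · refine le_trans ?_ le_sup_left
    apply le_inf (component_le_layer hL)
    rw [← Subgroup.commutator_eq_bot_iff_le_centralizer, Subgroup.commutator_comm]
    apply perfect_comm_comm (component_perfect hL)
    rw [eq_bot_iff, ← h, Subgroup.commutator_comm L]
    apply Subgroup.commutator_mono _ le_rfl
    rw [Subgroup.commutator_comm U L]
    exact Subgroup.commutator_mono (component_le_layer hL) le_rfl

end Cfsg.Agent.S1321
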