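import Cfsg.Statements.S1326
import Cfsg.Agent.Lib_helper5_Comp4

set_option autoImplicit false
open Cfsg

namespace Cfsg.Agent.S1326

open Cfsg.Agent.H5

/-- For a finite group X: the Fitting subgroup contains its centralizer if and only if the layer of X is trivial. -/
theorem result {X : Type*} [Group X] [Finite X] : Subgroup.centralizer (Cfsg.fittingSubgroup X : Set X) ≤ Cfsg.fittingSubgroup X ↔ Cfsg.layer X = ⊥ := by
  constructor
  · intro h
    rw [layer_eq_bot_iff]
    intro L hL
    have h1 : L ≤ Cfsg.fittingSubgroup X := by
      refine le_trans ?_ h
      refine (component_le_layer hL).trans ?_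
      rw [← Subgroup.commutator_eq_bot_iff_le_centralizer]
      exact layer_fitting_commute
    apply perfect_not_solvable (component_perfect hL) (component_ne_bot hL)
    haveI : Group.IsNilpotent ↥(Cfsg.fittingSubgroup X) := H2.fitting_isNilpotent
    exact solvable_of_solvable_injective (Subgroup.inclusion_injective h1)
  · intro h
    have h1 := centralizer_genFitting_le (G := X)
    unfold Cfsg.generalizedFittingSubgroup at h1
    rwa [h, bot_sup_eq] at h1

end Cfsg.Agent.S1326
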