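import Cfsg.Statements.S1331
import Cfsg.Agent.Lib_helper7_Gen5

set_option autoImplicit false
open Cfsg

namespace Cfsg.Agent.S1331

/-- Let θ be a solvable A-signalizer functor on the finite group G for the prime p, A elementary abelian of rank at least 3, X a member of the family of θ, and B ≤ A with |B| ≥ p². Then X is generated by the subgroups X ∩ ⋂_{d ∈ D, d ≠ 1} θ d, D ranging over the subgroups of index p in B. -/
theorem result {G : Type*} [Group G] [Finite G] (p : ℕ) [Fact p.Prime] (A : Subgroup G) (hA : Cfsg.IsElementaryAbelian p A) (hA3 : p ^ 3 ≤ Nat.card ↥A) (θ : G → Subgroup G) (hθ : Cfsg.IsSolvableSignalizerFunctor p A θ) (X : Subgroup G) (hX : X ∈ Cfsg.signalizerFamily p A θ) (B : Subgroup G) (hB : B ≤ A) (hB2 : p ^ 2 ≤ Nat.card ↥B) : X = ⨆ D : {D : Subgroup G // D ≤ B ∧ D.relIndex B = p}, X ⊓ Cfsg.signalizerInf (D : Subgroup G) θ := by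
  obtain ⟨hAm, hAe⟩ := hA
  obtain ⟨hXs, hXp, hXA, hXθ⟩ := hX
  have hp : p.Prime := Fact.out
  have hBc : ∀ x ∈ B, ∀ y ∈ B, x * y = y * x := by
    intro x hx y hy
    exact congrArg Subtype.val (mul_comm' (⟨x, hB hx⟩ : A) ⟨y, hB hy⟩)
  have hpg : IsPGroup p B := by
    intro g
    refine ⟨1, ?_⟩
    rw [pow_one]
    exact Subtype.ext (hAe g (hB g.2))
  obtain ⟨n, hn⟩ := hpg.exists_card_eq
  have hcop : (Nat.card B).Coprime (Nat.card X) := by
    rw [hn]
    exact Nat.Coprime.pow_left n ((Nat.Prime.coprime_iff_not_dvd hp).mpr hXp)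
  have hBX : B ≤ Subgroup.normalizer (X : Set G) :=
    Cfsg.Agent.H1.le_normalizer_of_forall (fun g hg x hx => hXA g (hB hg) x hx)
  -- the contribution of a hyperplane
  have hhyp : ∀ D : Subgroup G, D ≤ B → D.relIndex B = p → X ⊓ Subgroup.centralizer (D : Set G) ≤
      ⨆ D : {D : Subgroup G // D ≤ B ∧ D.relIndex B = p}, X ⊓ Cfsg.signalizerInf (D : Subgroup G) θ := by
    intro D hDB hDp
    refine le_trans ?_ (le_iSup (fun D : {D : Subgroup G // D ≤ B ∧ D.relIndex B = p} =>
      X ⊓ Cfsg.signalizerInf (D : Subgroup G) θ) ⟨D, hDB, hDp⟩)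
    refine le_inf inf_le_left ?_
    rw [Cfsg.signalizerInf]
    apply le_iInf
    rintro ⟨a, haD, ha1⟩
    refine le_trans ?_ (hXθ a (hB (hDB haD)) ha1)
    apply inf_le_inf_left
    apply Subgroup.centralizer_le
    intro y hy
    rw [Set.mem_singleton_iff] at hy
    rw [hy]
    exact haD
  -- existence of a hyperplane
  have hex : ∃ D : Subgroup G, D ≤ B ∧ D.relIndex B = p := by
    have hn2 : 2 ≤ n := by
      rw [hn] at hB2
      exact (Nat.pow_le_pow_iff_right hp.one_lt).mp hB2
    obtain ⟨D', hD'⟩ := Sylow.exists_subgroup_card_pow_prime (G := B) p (n := n - 1)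
      (by rw [hn]; exact pow_dvd_pow p (Nat.sub_le n 1))
    refine ⟨D'.map B.subtype, Subgroup.map_subtype_le _, ?_⟩
    have h1 : (D'.map B.subtype).relIndex B * Nat.card (D'.map B.subtype) = Nat.card B :=
      Cfsg.Agent.H1.relIndex_mul_card' (Subgroup.map_subtype_le _)
    rw [Subgroup.card_map_of_injective B.subtype_injective, hD', hn] at h1
    have h2 : p ^ n = p * p ^ (n - 1) := by
      rw [← pow_succ']
      congr 1
      omega
    rw [h2] at h1
    exact Nat.eq_of_mul_eq_mul_right (pow_pos hp.pos _) h1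
  apply le_antisymm
  · apply Cfsg.Agent.H7.coprime_generation_cocyclic B X _ hBc hBX hcop
    intro D hDB hc
    obtain ⟨a, ha, hDa⟩ := hc
    have hrel : D.relIndex B ≤ p := by
      have hZA : Subgroup.zpowers a ≤ B := by rw [Subgroup.zpowers_le]; exact ha
      have hZB : Subgroup.zpowers a ≤ Subgroup.normalizer (D : Set G) := by
        apply Cfsg.Agent.H1.le_normalizer_of_forall
        intro g hg x hx
        rw [hBc g (hZA hg) x (hDB hx), mul_inv_cancel_right]
        exact hx
      let f : Subgroup.zpowers a → ↥B ⧸ D.subgroupOf B := fun z => QuotientGroup.mk ⟨z, hZA z.2⟩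
      have hf : Function.Surjective f := by
        intro q
        induction q using QuotientGroup.induction_on with
        | H x =>
        have hx : (x : G) ∈ ((Subgroup.zpowers a ⊔ D : Subgroup G) : Set G) := by
          rw [sup_comm, hDa]; exact x.2
        rw [Subgroup.coe_mul_of_left_le_normalizer_right _ _ hZB] at hx
        obtain ⟨z, hz, b, hb, hzb⟩ := hx
        refine ⟨⟨z, hz⟩, ?_⟩
        show QuotientGroup.mk _ = QuotientGroup.mk x
        rw [QuotientGroup.eq, Subgroup.mem_subgroupOf]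
        have : z⁻¹ * (x : G) = b := by rw [← hzb]; group
        simpa [this] using hb
      have h1 : Nat.card (↥B ⧸ D.subgroupOf B) ≤ Nat.card (Subgroup.zpowers a) :=
        Nat.card_le_card_of_surjective f hf
      have h2 : Nat.card (Subgroup.zpowers a) ≤ p := by
        rw [Nat.card_zpowers]
        exact Nat.le_of_dvd hp.pos (orderOf_dvd_of_pow_eq_one (hAe a (hB ha)))
      exact h1.trans h2
    have hdvd : D.relIndex B ∣ p ^ n := by
      rw [← hn]
      exact Subgroup.relIndex_dvd_card D B
    obtain ⟨j, _, hj⟩ := (Nat.dvd_prime_pow hp).mp hdvd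
    have hj1 : j ≤ 1 := by
      rw [hj] at hrel
      by_contra hcon
      have h2 : 2 ≤ j := by omega
      have h3 : p ^ 2 ≤ p ^ j := Nat.pow_le_pow_right hp.pos h2
      have h4 : p < p ^ 2 := by
        have := hp.one_lt
        nlinarith
      omega
    interval_cases j
    · -- D = B
      rw [pow_zero, Subgroup.relIndex_eq_one] at hj
      obtain ⟨D₀, hD₀, hD₀p⟩ := hex
      refine le_trans ?_ (hhyp D₀ hD₀ hD₀p)
      apply inf_le_inf_left
      exact Subgroup.centralizer_le (SetLike.coe_subset_coe.mpr (hD₀.trans hj))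
    · rw [pow_one] at hj
      exact hhyp D hDB hj
  · apply iSup_le
    intro D
    exact inf_le_left

end Cfsg.Agent.S1331
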