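import Cfsg.Statements.S1337
import Cfsg.Agent.S0100

set_option autoImplicit false
open Cfsg

namespace Cfsg.Agent.S1337

open Subgroup
open scoped commutatorElement

lemma index_le {P : Type*} [Group P] [Finite P] {p : ℕ} [Fact p.Prime] (hP : IsPGroup p P)
    (A : Subgroup P) [A.Normal] {k : ℕ} (hk : Nat.card A = p ^ k) (hk2 : k ≤ 2) (E : Subgroup P) :
    Nat.card E ≤ p * Nat.card ↥(E ⊓ centralizer (A : Set P)) := by
  classical
  have hpp : p.Prime := Fact.out
  haveI hnil : Group.IsNilpotent P := hP.isNilpotent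
  by_cases hEC : E ≤ centralizer (A : Set P)
  · rw [inf_eq_left.2 hEC]
    exact Nat.le_mul_of_pos_left _ hpp.pos
  obtain ⟨e₀, he₀, hne₀⟩ := SetLike.not_le_iff_exists.1 hEC
  rw [mem_centralizer_iff] at hne₀
  push Not at hne₀
  obtain ⟨a₀, ha₀, hne⟩ := hne₀
  set D := ⁅A, (⊤ : Subgroup P)⁆ with hD
  haveI hDn : D.Normal := by rw [hD]; infer_instance
  have hAne : A ≠ ⊥ := by
    intro hb
    rw [hb] at ha₀
    have : a₀ = 1 := ha₀
    rw [this] at hne
    simp at hne
  have hDA : D < A := S0100.comm_lt A hAne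
  obtain ⟨i, hik, hDi⟩ := S0100.card_lt_pow hP hDA hk
  have hDne : D ≠ ⊥ := by
    intro hb
    have h1 : ⁅a₀, e₀⁆ ∈ D := commutator_mem_commutator ha₀ (mem_top _)
    rw [hb, mem_bot, commutatorElement_eq_one_iff_mul_comm] at h1
    exact hne h1
  have hDD : ⁅D, (⊤ : Subgroup P)⁆ < D := S0100.comm_lt D hDne
  obtain ⟨i', hi'i, hDDi⟩ := S0100.card_lt_pow hP hDD hDi
  obtain ⟨rfl, rfl, rfl⟩ : i' = 0 ∧ i = 1 ∧ k = 2 := by omega
  have hDDb : ⁅D, (⊤ : Subgroup P)⁆ = ⊥ := by
    rw [pow_zero] at hDDi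
    exact eq_bot_of_card_eq _ hDDi
  have hDcent : ∀ d ∈ D, ∀ g : P, d * g = g * d := by
    intro d hd g
    have h1 : ⁅d, g⁆ ∈ ⁅D, (⊤ : Subgroup P)⁆ := commutator_mem_commutator hd (mem_top _)
    rwa [hDDb, mem_bot, commutatorElement_eq_one_iff_mul_comm] at h1
  have ha₀D : a₀ ∉ D := fun hmem => hne (hDcent a₀ hmem e₀)
  have hAeq : D ⊔ zpowers a₀ = A := by
    have hle : D ⊔ zpowers a₀ ≤ A := sup_le hDA.le (by rw [zpowers_le]; exact ha₀)
    by_contra hcon
    obtain ⟨j, hj2, hj⟩ := S0100.card_lt_pow hP (lt_of_le_of_ne hle hcon) hk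
    have hlt : D < D ⊔ zpowers a₀ := lt_of_le_of_ne le_sup_left (fun heq =>
      ha₀D (heq ▸ (le_sup_right (a := D) (mem_zpowers a₀))))
    obtain ⟨j', hj'j, hj'⟩ := S0100.card_lt_pow hP hlt hj
    rw [hDi] at hj'
    have := Nat.pow_right_injective hpp.two_le hj'
    omega
  have hcent : ∀ e : P, e * a₀ = a₀ * e → e ∈ centralizer (A : Set P) := by
    intro e he
    rw [mem_centralizer_iff]
    intro x hx
    rw [← hAeq] at hx
    have hx' : x ∈ D ⊔ zpowers a₀ := hx
    rw [mem_sup_of_normal_left] at hx'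
    obtain ⟨d, hd, w, hw, rfl⟩ := hx'
    obtain ⟨z, rfl⟩ := mem_zpowers_iff.1 hw
    have h1 : Commute e (a₀ ^ z) := (show Commute e a₀ from he).zpow_right z
    rw [mul_assoc, ← h1.eq, ← mul_assoc, hDcent d hd e, mul_assoc]
  have hmemD : ∀ e : P, ⁅e, a₀⁆ ∈ D := by
    intro e
    rw [← commutatorElement_inv]
    exact D.inv_mem (commutator_mem_commutator ha₀ (mem_top _))
  let φ : ↥E →* ↥D := MonoidHom.mk' (fun e => ⟨⁅(e : P), a₀⁆, hmemD e⟩) (by
    intro e e'
    apply Subtype.ext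
    show ⁅(e : P) * e', a₀⁆ = ⁅(e : P), a₀⁆ * ⁅(e' : P), a₀⁆
    have e1 : ⁅(e : P) * e', a₀⁆ = (e : P) * ⁅(e' : P), a₀⁆ * (e : P)⁻¹ * ⁅(e : P), a₀⁆ := by
      simp only [commutatorElement_def]; group
    rw [e1, ← hDcent _ (hmemD e') (e : P), mul_assoc, mul_assoc, ← mul_assoc (e : P), mul_inv_cancel,
      one_mul, hDcent _ (hmemD e')])
  set E₀ := E ⊓ centralizer (A : Set P) with hE₀
  have hker : Nat.card φ.ker ≤ Nat.card E₀ := by
    refine Nat.card_le_card_of_injective (fun x : φ.ker => (⟨x.1.1, ⟨x.1.2, hcent _ ?_⟩⟩ : E₀)) ?_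
    · have h1 : φ x.1 = 1 := x.2
      have h2 : ⁅(x.1 : P), a₀⁆ = 1 := congrArg Subtype.val h1
      exact commutatorElement_eq_one_iff_mul_comm.1 h2
    · intro x y hxy
      apply Subtype.ext
      apply Subtype.ext
      have h0 := congrArg (fun z : E₀ => (z : P)) hxy
      exact h0
  have hrange : Nat.card φ.range ≤ p := by
    have h1 : Nat.card φ.range ≤ Nat.card D := card_le_card_group _
    rwa [hDi, pow_one] at h1
  have hcardE : Nat.card φ.ker * Nat.card φ.range = Nat.card E := by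
    rw [← index_ker]; exact card_mul_index _
  rw [← hcardE, mul_comm]
  exact Nat.mul_le_mul hrange hker

lemma not_rank_iff {P : Type*} [Group P] {p : ℕ} (K : Subgroup P) :
    ¬ Cfsg.PRankLE p 2 ↥K ↔ ∃ F : Subgroup P, F ≤ K ∧ Cfsg.IsElementaryAbelian p F ∧
      p ^ 2 < Nat.card F := by
  constructor
  · intro h
    unfold Cfsg.PRankLE at h
    push Not at h
    obtain ⟨A', hc, he, hcard⟩ := h
    refine ⟨A'.map K.subtype, ?_, ⟨⟨⟨?_⟩⟩, ?_⟩, ?_⟩
    · rintro _ ⟨a, _, rfl⟩; exact a.2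
    · rintro ⟨_, a, ha, rfl⟩ ⟨_, b, hb, rfl⟩
      apply Subtype.ext
      have h0 := congrArg Subtype.val (hc.is_comm.comm ⟨a, ha⟩ ⟨b, hb⟩)
      have h1 := congrArg Subtype.val h0
      exact h1
    · rintro _ ⟨a, ha, rfl⟩
      have := congrArg Subtype.val (he a ha)
      simpa using this
    · rw [Nat.card_congr (Subgroup.equivMapOfInjective _ _ K.subtype_injective).symm.toEquiv]
      exact hcard
  · rintro ⟨F, hFK, hFe, hcard⟩ h
    have h1 := h (F.subgroupOf K) ⟨⟨?_⟩⟩ ?_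
    · rw [H1.card_subgroupOf_of_le hFK] at h1
      omega
    · rintro ⟨a, ha⟩ ⟨b, hb⟩
      apply Subtype.ext
      apply Subtype.ext
      have h0 := congrArg Subtype.val (hFe.1.is_comm.comm ⟨a.1, ha⟩ ⟨b.1, hb⟩)
      exact h0
    · intro a ha
      apply Subtype.ext
      exact hFe.2 a.1 ha

/-- Let P be a finite p-group of p-rank greater than 2. Then P has a normal elementary abelian subgroup U of order p², and for every elementary abelian X ≤ P with |X| ≥ p²: X is joined to U by a chain of pairwise commuting elementary abelian subgroups of order ≥ p² if and only if C_P(X) has p-rank greater than 2. -/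
theorem result {P : Type*} [Group P] [Finite P] (p : ℕ) [Fact p.Prime] (hP : IsPGroup p P) (hrk : ¬ Cfsg.PRankLE p 2 P) : ∃ U : Subgroup P, U.Normal ∧ Cfsg.IsElementaryAbelian p U ∧ Nat.card ↥U = p ^ 2 ∧ ∀ X : Subgroup P, Cfsg.IsElementaryAbelian p X → p ^ 2 ≤ Nat.card ↥X → (Relation.ReflTransGen (fun A B : Subgroup P => Cfsg.IsElementaryAbelian p A ∧ p ^ 2 ≤ Nat.card ↥A ∧ Cfsg.IsElementaryAbelian p B ∧ p ^ 2 ≤ Nat.card ↥B ∧ ∀ a ∈ A, ∀ b ∈ B, a * b = b * a) X U ↔ ¬ Cfsg.PRankLE p 2 ↥(Subgroup.centralizer (X : Set P))) := by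
  classical
  have hpp : p.Prime := Fact.out
  -- an elementary abelian subgroup of order > p^2
  obtain ⟨E, hEc, hEe, hEcard⟩ : ∃ E : Subgroup P, IsMulCommutative E ∧ (∀ a ∈ E, a ^ p = 1) ∧
      p ^ 2 < Nat.card E := by
    unfold Cfsg.PRankLE at hrk
    push Not at hrk
    exact hrk
  have hEea : Cfsg.IsElementaryAbelian p E := ⟨hEc, hEe⟩
  have hcomm_of : ∀ {F : Subgroup P}, Cfsg.IsElementaryAbelian p F → ∀ x ∈ F, ∀ y ∈ F, x * y = y * x := by
    intro F hF x hx y hy
    have h0 := congrArg Subtype.val (hF.1.is_comm.comm ⟨x, hx⟩ ⟨y, hy⟩)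
    exact h0
  have hea_le : ∀ {F F' : Subgroup P}, Cfsg.IsElementaryAbelian p F → F' ≤ F →
      Cfsg.IsElementaryAbelian p F' := by
    intro F F' hF hle
    exact ⟨⟨⟨fun a b => Subtype.ext (hcomm_of hF a.1 (hle a.2) b.1 (hle b.2))⟩⟩,
      fun a ha => hF.2 a (hle ha)⟩
  -- if p < |F| then p^2 ≤ |F|
  have hsq : ∀ F : Subgroup P, p < Nat.card F → p ^ 2 ≤ Nat.card F := by
    intro F hF
    obtain ⟨j, hj⟩ := (hP.to_subgroup F).exists_card_eq
    rw [hj] at hF ⊢
    have : 1 < j := by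
      by_contra hcon
      push Not at hcon
      have := Nat.pow_le_pow_right hpp.pos hcon
      rw [pow_one] at this
      omega
    exact Nat.pow_le_pow_right hpp.pos this
  -- existence of U
  obtain ⟨U, hUn, hUe, hUcard⟩ : ∃ U : Subgroup P, U.Normal ∧ Cfsg.IsElementaryAbelian p U ∧
      Nat.card U = p ^ 2 := by
    let 𝒮 : Set (Subgroup P) := {A | A.Normal ∧ IsMulCommutative A ∧ ∀ a ∈ A, a ^ p ^ 2 = 1}
    have hbot : (⊥ : Subgroup P) ∈ 𝒮 := ⟨inferInstance, inferInstance, fun a ha => by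
      rw [mem_bot] at ha; rw [ha, one_pow]⟩
    obtain ⟨A, -, hAmax⟩ := (Set.toFinite 𝒮).exists_le_maximal hbot
    obtain ⟨hAn, hAc, hAe⟩ := hAmax.prop
    haveI := hAn
    have hAcomm : ∀ x ∈ A, ∀ y ∈ A, x * y = y * x := by
      intro x hx y hy
      have h0 := congrArg Subtype.val (hAc.is_comm.comm ⟨x, hx⟩ ⟨y, hy⟩)
      exact h0
    have hAlp : ∀ x ∈ centralizer (A : Set P), x ^ p ^ 2 = 1 → x ∈ A := by
      intro x hx hxp
      refine S0130.result hP 2 ?_ A hAc hAe ?_ x hx hxp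
      · intro h2
        have h4 : 2 ^ 2 ≤ p ^ 2 := Nat.pow_le_pow_left hpp.two_le 2
        omega
      · intro B hBn hBc hBe hAB
        exact hAmax.eq_of_ge ⟨hBn, hBc, hBe⟩ hAB
    let Ω : Subgroup P :=
      { carrier := {a | a ∈ A ∧ a ^ p = 1}
        one_mem' := ⟨A.one_mem, one_pow _⟩
        mul_mem' := by
          rintro a b ⟨ha, ha'⟩ ⟨hb, hb'⟩
          exact ⟨A.mul_mem ha hb, by
            rw [(show Commute a b from hAcomm a ha b hb).mul_pow, ha', hb', one_mul]⟩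
        inv_mem' := by
          rintro a ⟨ha, ha'⟩
          exact ⟨A.inv_mem ha, by rw [inv_pow, ha', inv_one]⟩ }
    have hΩA : Ω ≤ A := fun a ha => ha.1
    have hΩn : Ω.Normal := ⟨fun a ha g => ⟨hAn.conj_mem a ha.1 g, by rw [conj_pow, ha.2]; group⟩⟩
    have hΩe : Cfsg.IsElementaryAbelian p Ω :=
      ⟨⟨⟨fun a b => Subtype.ext (hAcomm a.1 a.2.1 b.1 b.2.1)⟩⟩, fun a ha => ha.2⟩
    by_cases hΩc : p < Nat.card Ω
    · have hlt : ∀ D : Subgroup P, D ≤ Ω → Nat.card D ≤ p → D < Ω := by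
        intro D hD hDi
        refine lt_of_le_of_ne hD ?_
        rintro rfl
        omega
      obtain ⟨D₁, hD₁n, -, hD₁A, hD₁c⟩ := H7.exists_normal_cover hP
        (inferInstance : (⊥ : Subgroup P).Normal) hΩn (hlt ⊥ bot_le (by simp; exact hpp.pos))
      rw [card_bot, one_mul] at hD₁c
      obtain ⟨D₂, hD₂n, -, hD₂A, hD₂c⟩ := H7.exists_normal_cover hP hD₁n hΩn
        (hlt D₁ hD₁A hD₁c.le)
      rw [hD₁c] at hD₂c
      exact ⟨D₂, hD₂n, hea_le hΩe hD₂A, by rw [hD₂c]; ring⟩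
    · exfalso
      push Not at hΩc
      let ψ : ↥A →* ↥Ω := MonoidHom.mk' (fun a => ⟨(a : P) ^ p, ⟨A.pow_mem a.2 p, by
          rw [← pow_mul, ← pow_two]; exact hAe a a.2⟩⟩) (by
        intro a b
        apply Subtype.ext
        exact (show Commute (a : P) b from hAcomm a a.2 b b.2).mul_pow p)
      have hker : Nat.card ψ.ker ≤ Nat.card Ω := by
        refine Nat.card_le_card_of_injective (fun x : ψ.ker => (⟨x.1.1, ⟨x.1.2, ?_⟩⟩ : Ω)) ?_
        · have h1 : ψ x.1 = 1 := x.2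
          exact congrArg Subtype.val h1
        · intro x y hxy
          apply Subtype.ext
          apply Subtype.ext
          have h0 := congrArg (fun z : Ω => (z : P)) hxy
          exact h0
      have hrange : Nat.card ψ.range ≤ Nat.card Ω := card_le_card_group _
      have hcardA : Nat.card ψ.ker * Nat.card ψ.range = Nat.card A := by
        rw [← index_ker]; exact card_mul_index _
      have hAle : Nat.card A ≤ p ^ 2 := by
        rw [← hcardA, pow_two]
        exact Nat.mul_le_mul (hker.trans hΩc) (hrange.trans hΩc)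
      obtain ⟨k, hk⟩ := (hP.to_subgroup A).exists_card_eq
      have hk2 : k ≤ 2 := by
        rw [hk] at hAle
        exact (Nat.pow_le_pow_iff_right hpp.one_lt).1 hAle
      have h1 := index_le hP A hk hk2 E
      have h2 : E ⊓ centralizer (A : Set P) ≤ Ω := by
        intro x hx
        have hxp : x ^ p = 1 := hEe x hx.1
        exact ⟨hAlp x hx.2 (by rw [pow_two, pow_mul, hxp, one_pow]), hxp⟩
      have h3 : Nat.card ↥(E ⊓ centralizer (A : Set P)) ≤ p := (card_le_of_le h2).trans hΩc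
      have h4 : Nat.card E ≤ p * p := h1.trans (Nat.mul_le_mul_left p h3)
      rw [pow_two] at hEcard
      omega
  haveI := hUn
  refine ⟨U, hUn, hUe, hUcard, ?_⟩
  -- large intersection with C(U)
  have hbig : ∀ F : Subgroup P, p ^ 2 < Nat.card F → p ^ 2 ≤ Nat.card ↥(F ⊓ centralizer (U : Set P)) := by
    intro F hF
    apply hsq
    have h1 := index_le hP U hUcard le_rfl F
    rw [pow_two] at hF
    exact Nat.lt_of_mul_lt_mul_left (hF.trans_le h1)
  have hQU : ¬ Cfsg.PRankLE p 2 ↥(centralizer (U : Set P)) := by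
    rw [not_rank_iff]
    set E₀ := E ⊓ centralizer (U : Set P) with hE₀
    have hE₀c := hbig E hEcard
    have hE₀e : Cfsg.IsElementaryAbelian p E₀ := hea_le hEea inf_le_left
    have hFe : Cfsg.IsElementaryAbelian p (E₀ ⊔ U) := LeadJ.ea_sup hE₀e hUe (fun a ha b hb =>
      (mem_centralizer_iff.1 ha.2 b hb).symm)
    have hFC : E₀ ⊔ U ≤ centralizer (U : Set P) := sup_le inf_le_right (fun u hu => by
      rw [mem_centralizer_iff]
      intro v hv
      exact hcomm_of hUe v hv u hu)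
    by_cases hc : p ^ 2 < Nat.card ↥(E₀ ⊔ U)
    · exact ⟨_, hFC, hFe, hc⟩
    · push Not at hc
      have h1 : U = E₀ ⊔ U := eq_of_le_of_card_ge le_sup_right (by rw [hUcard]; exact hc)
      have h2 : E₀ = E₀ ⊔ U := eq_of_le_of_card_ge le_sup_left (hc.trans hE₀c)
      have h3 : U ≤ E := by rw [h1, ← h2]; exact inf_le_left
      refine ⟨E, ?_, hEea, hEcard⟩
      intro e he
      rw [mem_centralizer_iff]
      intro u hu
      exact hcomm_of hEea u (h3 hu) e he
  intro X hXe hXc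
  constructor
  · intro hchain
    induction hchain using Relation.ReflTransGen.head_induction_on with
    | refl => exact hQU
    | @head X' Y' hab _ ih =>
      obtain ⟨hX'e, hX'c, hY'e, hY'c, hcm⟩ := hab
      have hFe : Cfsg.IsElementaryAbelian p (X' ⊔ Y') := LeadJ.ea_sup hX'e hY'e hcm
      have hFC : X' ⊔ Y' ≤ centralizer (X' : Set P) := sup_le (fun u hu => by
        rw [mem_centralizer_iff]
        intro v hv
        exact hcomm_of hX'e v hv u hu) (fun y hy => by
        rw [mem_centralizer_iff]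
        intro v hv
        exact hcm v hv y hy)
      by_cases hc : p ^ 2 < Nat.card ↥(X' ⊔ Y')
      · exact (not_rank_iff _).2 ⟨_, hFC, hFe, hc⟩
      · push Not at hc
        have h1 : X' = X' ⊔ Y' := eq_of_le_of_card_ge le_sup_left (hc.trans hX'c)
        have h2 : Y' = X' ⊔ Y' := eq_of_le_of_card_ge le_sup_right (hc.trans hY'c)
        have h3 : X' = Y' := h1.trans h2.symm
        rw [h3]; exact ih hY'e hY'c
  · intro hQ
    obtain ⟨F, hFC, hFe, hFc⟩ := (not_rank_iff _).1 hQ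
    set F₀ := F ⊓ centralizer (U : Set P) with hF₀
    have hF₀c := hbig F hFc
    have hF₀e : Cfsg.IsElementaryAbelian p F₀ := hea_le hFe inf_le_left
    refine Relation.ReflTransGen.head (b := F) ⟨hXe, hXc, hFe, hFc.le, ?_⟩
      (Relation.ReflTransGen.head (b := F₀) ⟨hFe, hFc.le, hF₀e, hF₀c, ?_⟩
        (Relation.ReflTransGen.single ⟨hF₀e, hF₀c, hUe, hUcard.ge, ?_⟩))
    · intro a ha b hb
      exact mem_centralizer_iff.1 (hFC hb) a ha
    · intro a ha b hb
      exact hcomm_of hFe a ha b hb.1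
    · intro a ha b hb
      exact (mem_centralizer_iff.1 ha.2 b hb).symm

end Cfsg.Agent.S1337
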