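import Cfsg.Statements.S1343
import Cfsg.Agent.Lib_helper5_ExtLayer

set_option autoImplicit false
open Cfsg

namespace Cfsg.Agent.S1343

open Subgroup Cfsg.Agent.H5 Cfsg.Agent.H5.Ext

/-- Let X be finite. Then L*_{2'}(X) = L_{2'}(X) ⊔ F for some subgroup F of odd order normalized by a Sylow 2-subgroup of X. -/
theorem result {X : Type*} [Group X] [Finite X] : ∃ F : Subgroup X, Odd (Nat.card ↥F) ∧ (∃ S : Sylow 2 X, (S : Subgroup X) ≤ Subgroup.normalizer (F : Set X)) ∧ Cfsg.extendedTwoLayer X = Cfsg.pLayer 2 X ⊔ F := by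
  have hN := NN_normal (X := X)
  have hB := Cfsg.Agent.H1.pPrimeCore_normal (G := X) 2
  obtain ⟨T⟩ : Nonempty (Sylow 2 ↥(NN X)) := inferInstance
  have hT2 : IsPGroup 2 (T1 T) := T.2.map _
  obtain ⟨S, hS⟩ := hT2.exists_le_sylow
  have hTS : T1 T = (S : Subgroup X) ⊓ NN X := by
    have h1 : IsPGroup 2 (((S : Subgroup X) ⊓ NN X).subgroupOf (NN X)) :=
      (S.2.to_le inf_le_left).comap_subtype
    have h2 : (T : Subgroup ↥(NN X)) ≤ ((S : Subgroup X) ⊓ NN X).subgroupOf (NN X) := by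
      intro t ht
      rw [mem_subgroupOf]
      exact ⟨hS ⟨t, ht, rfl⟩, t.2⟩
    have h3 := T.3 h1 h2
    apply le_antisymm (le_inf hS (T1_le T))
    intro x hx
    have hx' : (⟨x, hx.2⟩ : ↥(NN X)) ∈ ((S : Subgroup X) ⊓ NN X).subgroupOf (NN X) :=
      mem_subgroupOf.2 hx
    rw [h3] at hx'
    exact ⟨_, hx', rfl⟩
  have hSn : ∀ s ∈ (S : Subgroup X), (T1 T).map (MulAut.conj s).toMonoidHom = T1 T := by
    intro s hs
    apply map_conj_of_mem_normalizer
    rw [hTS, mem_normalizer_iff]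
    intro x
    constructor
    · rintro ⟨h1, h2⟩
      exact ⟨(S : Subgroup X).mul_mem ((S : Subgroup X).mul_mem hs h1) ((S : Subgroup X).inv_mem hs), hN.conj_mem _ h2 s⟩
    · rintro ⟨h1, h2⟩
      have e : x = s⁻¹ * (s * x * s⁻¹) * s⁻¹⁻¹ := by group
      rw [e]
      exact ⟨(S : Subgroup X).mul_mem ((S : Subgroup X).mul_mem ((S : Subgroup X).inv_mem hs) h1) ((S : Subgroup X).inv_mem ((S : Subgroup X).inv_mem hs)), hN.conj_mem _ h2 s⁻¹⟩
  refine ⟨Cfsg.oddCore X ⊔ DT T, ?_, ⟨S, ?_⟩, ?_⟩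
  · rw [← Nat.coprime_two_right, sup_comm]
    apply Nat.Coprime.coprime_dvd_left (Cfsg.Agent.H2.card_sup_dvd (DT T) (Cfsg.oddCore X))
    apply Nat.Coprime.mul_left
    · exact card_pPrimeCore_map_subtype_coprime _
    · exact Cfsg.Agent.H1.card_pPrimeCore_coprime 2
  · intro s hs
    apply mem_normalizer_of_map_conj
    rw [Subgroup.map_sup, map_conj_of_normal, DT_map_of_normalizes T (hSn s hs)]
  · rw [ext_eq T, sup_assoc]

end Cfsg.Agent.S1343
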