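import Cfsg.Statements.S1344
import Cfsg.Agent.Lib_helper5_ExtLayer
import Cfsg.Agent.Lib_helper5_Sylow

set_option autoImplicit false
open Cfsg

namespace Cfsg.Agent.S1344

open Subgroup Cfsg.Agent.H5 Cfsg.Agent.H5.Ext
open scoped commutatorElement

universe u

variable {X : Type u} [Group X] [Finite X]

/-- an element whose image normalizes the image of a 2-component normalizes the 2-component -/
theorem map_conj_of_image {K : Subgroup X} (hK : Cfsg.IsPComponent 2 K) {g : X}
    (h : (K.map (QuotientGroup.mk' (Cfsg.pPrimeCore 2 X))).map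
      (MulAut.conj (QuotientGroup.mk' (Cfsg.pPrimeCore 2 X) g)).toMonoidHom =
        K.map (QuotientGroup.mk' (Cfsg.pPrimeCore 2 X))) :
    K.map (MulAut.conj g).toMonoidHom = K := by
  have hK' : Cfsg.IsPComponent 2 (K.map (MulAut.conj g).toMonoidHom) :=
    pcomp_map_equiv (MulAut.conj g) hK
  apply pcomp_eq_of_map_eq hK' hK
  rw [← h, Subgroup.map_map, Subgroup.map_map]
  congr 1

theorem map_conj_of_commute {Y : Type*} [Group Y] {K : Subgroup Y} {g : Y}
    (h : ∀ k ∈ K, g * k = k * g) : K.map (MulAut.conj g).toMonoidHom = K := by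
  ext x
  rw [mem_conj_map]
  constructor
  · intro hx
    have h1 := h _ hx
    have h2 : x = g * (g⁻¹ * x * g) * g⁻¹ := by group
    rw [h2, h1]
    simpa using hx
  · intro hx
    have h1 := h _ hx
    have h2 : g⁻¹ * x * g = g⁻¹ * (x * g) := by group
    rw [h2, ← h1]
    simpa using hx

theorem NN_le_normalizer {K : Subgroup X} (hK : Cfsg.IsPComponent 2 K) :
    NN X ≤ normalizer (K : Set X) := by
  have hB := Cfsg.Agent.H1.pPrimeCore_normal (G := X) 2
  apply sup_le
  · apply sSup_le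
    intro K' hK'
    exact pcomp_le_normalizer hK hK'
  · intro g hg
    apply mem_normalizer_of_map_conj
    apply map_conj_of_image hK
    apply map_conj_of_commute
    intro k hk
    have hg' : QuotientGroup.mk' (Cfsg.pPrimeCore 2 X) g ∈
      Cfsg.pCore 2 (X ⧸ Cfsg.pPrimeCore 2 X) := hg
    have hn : (Cfsg.pCore 2 (X ⧸ Cfsg.pPrimeCore 2 X)).Normal := Cfsg.Agent.H1.pCore_normal 2
    have h1 := component_solvable hK.2.1
      (Cfsg.Agent.H1.isSolvable_of_isPGroup
        (Cfsg.Agent.H1.pCore_isPGroup (p := 2) (G := X ⧸ Cfsg.pPrimeCore 2 X)))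
      (by rw [normalizer_eq_top]; exact le_top)
    have h2 : ⁅k, QuotientGroup.mk' (Cfsg.pPrimeCore 2 X) g⁆ ∈
        ⁅K.map (QuotientGroup.mk' (Cfsg.pPrimeCore 2 X)),
          Cfsg.pCore 2 (X ⧸ Cfsg.pPrimeCore 2 X)⁆ := commutator_mem_commutator hk hg'
    rw [h1, mem_bot, commutatorElement_eq_one_iff_commute] at h2
    exact h2.symm.eq

theorem map_conj_of_centralizes {K : Subgroup X} (hK : Cfsg.IsPComponent 2 K)
    (T : Sylow 2 ↥(NN X)) {d : X} (hd : d ∈ centralizer (T1 T : Set X)) :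
    K.map (MulAut.conj d).toMonoidHom = K := by
  have hB := Cfsg.Agent.H1.pPrimeCore_normal (G := X) 2
  set f := QuotientGroup.mk' (Cfsg.pPrimeCore 2 X) with hf
  apply map_conj_of_image hK
  by_contra hne
  have hKb : Cfsg.IsComponent (K.map f) := hK.2.1
  have hKb' := component_conj hKb (f d)
  have hcomm := components_commute hKb hKb' (Ne.symm hne)
  have hKN : K ≤ NN X := (pcomp_le_pLayer hK).trans le_sup_left
  have hcl : pElemClosure 2 (K.map f) ≤ centralizer ((K.map f : Subgroup _) : Set _) := by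
    rw [pElemClosure_le_iff]
    intro xb hxb h2
    obtain ⟨x, hxK, ⟨k, hk⟩, rfl⟩ := exists_pElem_lift f K xb hxb h2
    -- conjugate `x` into `T`
    have hz : IsPGroup 2 (zpowers (⟨x, hKN hxK⟩ : ↥(NN X))) := by
      rintro ⟨y, hy⟩
      obtain ⟨n, rfl⟩ := mem_zpowers_iff.1 hy
      refine ⟨k, ?_⟩
      apply Subtype.ext
      apply Subtype.ext
      show (x ^ n) ^ 2 ^ k = 1
      rw [← zpow_natCast, ← zpow_mul, mul_comm, zpow_mul, zpow_natCast, hk, one_zpow]
    obtain ⟨a, ha⟩ := exists_conj_mem_sylow T _ hz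
    have hy := ha _ (mem_zpowers _)
    set y : X := (a : X) * x * (a : X)⁻¹ with hy_def
    have hyT : y ∈ T1 T := ⟨_, hy, rfl⟩
    have haN : (a : X) ∈ normalizer (K : Set X) := NN_le_normalizer hK a.2
    have hyK : y ∈ K := (mem_normalizer_iff.1 haN x).1 hxK
    have hdy : d * y * d⁻¹ = y := by
      have := mem_centralizer_iff.1 hd y hyT
      rw [← this]; group
    have hyb : f y ∈ (K.map f).map (MulAut.conj (f d)).toMonoidHom := by
      refine ⟨f y, mem_map_of_mem f hyK, ?_⟩
      show f d * f y * (f d)⁻¹ = f y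
      rw [← map_mul, ← map_inv, ← map_mul, hdy]
    have hyc : ∀ kb ∈ K.map f, kb * f y = f y * kb := by
      intro kb hkb
      have h3 : ⁅kb, f y⁆ ∈ ⁅K.map f, (K.map f).map (MulAut.conj (f d)).toMonoidHom⁆ :=
        commutator_mem_commutator hkb hyb
      rw [hcomm, mem_bot, commutatorElement_eq_one_iff_commute] at h3
      exact h3.eq
    rw [mem_centralizer_iff]
    rintro _ ⟨k₁, hk₁, rfl⟩
    have hk₂ : (a : X) * k₁ * (a : X)⁻¹ ∈ K := (mem_normalizer_iff.1 haN k₁).1 hk₁
    have h4 := hyc _ (mem_map_of_mem f hk₂)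
    rw [← map_mul, ← map_mul] at h4 ⊢
    have e1 : k₁ * x = (a : X)⁻¹ * ((a : X) * k₁ * (a : X)⁻¹ * y) * (a : X) := by
      rw [hy_def]; group
    have e2 : x * k₁ = (a : X)⁻¹ * (y * ((a : X) * k₁ * (a : X)⁻¹)) * (a : X) := by
      rw [hy_def]; group
    rw [e1, e2, map_mul, map_mul, h4, ← map_mul, ← map_mul]
  rw [component_pElemClosure_eq (Cfsg.Agent.H1.pPrimeCore_quotient_eq_bot 2) hKb] at hcl
  exact perfect_not_le_centralizer (component_perfect hKb) (component_ne_bot hKb) hcl

/-- Let K be a 2-component of the finite group X. Then K ≤ L*_{2'}(X) and K is normal in L*_{2'}(X). -/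
theorem result {X : Type*} [Group X] [Finite X] (K : Subgroup X) (hK : Cfsg.IsPComponent 2 K) : K ≤ Cfsg.extendedTwoLayer X ∧ (K.subgroupOf (Cfsg.extendedTwoLayer X)).Normal := by
  have hle : K ≤ Cfsg.extendedTwoLayer X :=
    (pcomp_le_pLayer hK).trans (le_sup_left.trans le_sup_left)
  refine ⟨hle, ?_⟩
  rw [normal_subgroupOf_iff_le_normalizer hle, ext_def]
  apply sup_le
  · exact AB_le_NN.trans (NN_le_normalizer hK)
  · apply iSup_le
    intro T d hd
    exact mem_normalizer_of_map_conj (map_conj_of_centralizes hK T (coreOf_le _ hd))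

end Cfsg.Agent.S1344
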