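import Cfsg.Statements.S1386
import Mathlib
import Cfsg.Agent.Lib_helper1_Coprime
import Cfsg.Agent.Lib_helper1_SZ
import Cfsg.Agent.Lib_helper3_Solv

set_option autoImplicit false
open Cfsg

namespace Cfsg.Agent.S1386

theorem le_normalizer_of_comm {G : Type*} [Group G] {A B : Subgroup G}
    (h : ∀ a ∈ A, ∀ b ∈ B, a * b = b * a) : B ≤ Subgroup.normalizer (A : Set G) := by
  apply H1.le_normalizer_of_forall
  intro b hb a ha
  have : b * a * b⁻¹ = a := by rw [← h a ha b hb]; group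
  rw [this]; exact ha

/-- Let G be a finite group, W₁, W₂ subgroups forming a self-normalizing cyclic pair, S a subgroup with W₂ ≤ S and W₁ a complement to S' in S, and (W₁, U, W₂') type-P data for S. Then W₂' = W₂ (that is, C_{S'}(W₁) = W₂). -/
theorem result {G : Type*} [Group G] [Finite G] (W₁ W₂ S U W₂' : Subgroup G) (hW : Cfsg.IsSelfNormalizingCyclic W₁ W₂)
    (hSW : Cfsg.IsComplIn ⁅S, S⁆ W₁ S) (hW₂S : W₂ ≤ S) (hP : Cfsg.IsTypePWith S W₁ U W₂') :
    W₂' = W₂ := by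
  obtain ⟨hW1ne, hW2ne, hW12, hWcomm, -, hWnorm⟩ := hW
  obtain ⟨-, -, hW12', hWcomm', hWcyc', -⟩ := hP.selfNormalizing
  obtain ⟨hS'S, hW1S, hS'W1, hSfac⟩ := hSW
  obtain ⟨w₁, hw₁, hw₁ne⟩ : ∃ w ∈ W₁, w ≠ 1 := by
    by_contra hcon
    push Not at hcon
    exact hW1ne ((Subgroup.eq_bot_iff_forall _).2 hcon)
  obtain ⟨w₂, hw₂, hw₂ne⟩ : ∃ w ∈ W₂, w ≠ 1 := by
    by_contra hcon
    push Not at hcon
    exact hW2ne ((Subgroup.eq_bot_iff_forall _).2 hcon)
  have hcent := hP.W₂_centralizer w₁ hw₁ hw₁ne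
  have hW2'S' : W₂' ≤ ⁅S, S⁆ := by rw [← hcent]; exact inf_le_left
  haveI := hP.W₁_cyclic
  have hW1comm : ∀ a ∈ W₁, ∀ b ∈ W₁, a * b = b * a := by
    intro a ha b hb
    exact congrArg Subtype.val ((IsCyclic.isMulCommutative (α := W₁)).is_comm.comm ⟨a, ha⟩ ⟨b, hb⟩)
  -- coprimality
  have hcop : (Nat.card W₁).Coprime (Nat.card W₂') := by
    have h1 := H1.card_sup_mul_card_inf' W₁ W₂' (le_normalizer_of_comm hWcomm')
    rw [hW12', Subgroup.card_bot, mul_one] at h1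
    have h2 : Nat.card (W₁ ⊔ W₂' : Subgroup G) ∣ Nat.card S :=
      Subgroup.card_dvd_of_le (sup_le hW1S (hW2'S'.trans hS'S))
    rw [h1, ← H1.relIndex_mul_card' hW1S, mul_comm] at h2
    have h3 : Nat.card W₂' ∣ W₁.relIndex S :=
      Nat.dvd_of_mul_dvd_mul_right Nat.card_pos h2
    exact Nat.Coprime.coprime_dvd_right h3 hP.W₁_hall
  have hle : W₂ ≤ W₂' := by
    intro c hc
    obtain ⟨s, hs, w, hw, rfl⟩ := hSfac c (hW₂S hc)
    have hsW : s ∈ W₂' := by
      rw [← hcent]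
      refine ⟨hs, Subgroup.mem_centralizer_singleton_iff.2 ?_⟩
      have h1 : w₁ * (s * w) = (s * w) * w₁ := hWcomm w₁ hw₁ _ hc
      have h2 : w₁ * w = w * w₁ := hW1comm w₁ hw₁ w hw
      have h3 : w₁ * s * w = s * w₁ * w := by
        calc w₁ * s * w = w₁ * (s * w) := by group
          _ = s * w * w₁ := h1
          _ = s * (w * w₁) := by group
          _ = s * (w₁ * w) := by rw [h2]
          _ = s * w₁ * w := by group
      exact (mul_right_cancel h3).symm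
    have hsw : Commute s w := (hWcomm' w hw s hsW).symm
    have h4 : (s * w) ^ Nat.card W₂' = w ^ Nat.card W₂' := by
      rw [hsw.mul_pow]
      have : s ^ Nat.card W₂' = 1 := by
        have := pow_card_eq_one' (x := (⟨s, hsW⟩ : W₂'))
        exact congrArg Subtype.val this
      rw [this, one_mul]
    have h5 : w ^ Nat.card W₂' ∈ W₁ ⊓ W₂ := ⟨W₁.pow_mem hw _, h4 ▸ W₂.pow_mem hc _⟩
    rw [hW12, Subgroup.mem_bot] at h5
    have h6 : w ^ Nat.card W₁ = 1 := by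
      have := pow_card_eq_one' (x := (⟨w, hw⟩ : W₁))
      exact congrArg Subtype.val this
    have h7 : w = 1 := by
      have h70 := pow_gcd_eq_one.2 ⟨h6, h5⟩
      rw [hcop.gcd_eq_one, pow_one] at h70
      exact h70
    rw [h7, mul_one]; exact hsW
  apply le_antisymm _ hle
  intro b hb
  have hxmem : w₁ * w₂ ∈ (↑(W₁ ⊔ W₂) : Set G) \ (↑W₁ ∪ ↑W₂) := by
    refine ⟨Subgroup.mul_mem _ (Subgroup.mem_sup_left hw₁) (Subgroup.mem_sup_right hw₂), ?_⟩
    rintro (h | h)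
    · apply hw₂ne
      have h1 : w₂ ∈ W₁ ⊓ W₂ := ⟨by
        have := W₁.mul_mem (W₁.inv_mem hw₁) h
        simpa using this, hw₂⟩
      rwa [hW12, Subgroup.mem_bot] at h1
    · apply hw₁ne
      have h1 : w₁ ∈ W₁ ⊓ W₂ := ⟨hw₁, by
        have := W₂.mul_mem h (W₂.inv_mem hw₂)
        simpa using this⟩
      rwa [hW12, Subgroup.mem_bot] at h1
  have hN := hWnorm {w₁ * w₂} (Set.singleton_subset_iff.2 hxmem) (Set.singleton_nonempty _)
  have hbw₂ : b * w₂ = w₂ * b := by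
    haveI := hWcyc'
    exact congrArg Subtype.val ((IsCyclic.isMulCommutative (α := (W₁ ⊔ W₂' : Subgroup G))).is_comm.comm
      ⟨b, Subgroup.mem_sup_right hb⟩ ⟨w₂, Subgroup.mem_sup_right (hle hw₂)⟩)
  have hbw₁ : w₁ * b = b * w₁ := hWcomm' w₁ hw₁ b hb
  have hbN : b ∈ Subgroup.normalizer ({w₁ * w₂} : Set G) := by
    have hbx : b * (w₁ * w₂) * b⁻¹ = w₁ * w₂ := by
      calc b * (w₁ * w₂) * b⁻¹ = (b * w₁) * w₂ * b⁻¹ := by group
        _ = (w₁ * b) * w₂ * b⁻¹ := by rw [hbw₁]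
        _ = w₁ * (b * w₂) * b⁻¹ := by group
        _ = w₁ * (w₂ * b) * b⁻¹ := by rw [hbw₂]
        _ = w₁ * w₂ := by group
    rw [Subgroup.mem_set_normalizer_iff]
    intro n
    simp only [Set.mem_singleton_iff]
    constructor
    · rintro rfl; exact hbx
    · intro h
      have h1 : b * n * b⁻¹ = b * (w₁ * w₂) * b⁻¹ := by rw [h, hbx]
      simpa using h1
  rw [hN] at hbN
  obtain ⟨a, ha, c, hc, rfl⟩ := H3.mem_sup_of_le_normalizer (le_normalizer_of_comm hWcomm) hbN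
  have ha' : a ∈ W₁ ⊓ W₂' := ⟨ha, by
    have := W₂'.mul_mem hb (W₂'.inv_mem (hle hc))
    simpa using this⟩
  rw [hW12', Subgroup.mem_bot] at ha'
  rw [ha', one_mul]; exact hc

end Cfsg.Agent.S1386
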