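import Cfsg.Statements.S1441
-- import your own Cfsg.Agent.* helpers here

set_option autoImplicit false
open Cfsg

namespace Cfsg.Agent.S1441

open scoped commutatorElement

/-- Let G be a finite group, H a solvable subgroup and A a subgroup normalizing H. Suppose there is a chain H = H₀ ≥ H₁ ≥ ⋯ ≥ H_n = 1 of subgroups normal in H and normalized by A such that A acts trivially on each factor H_{i-1}/H_i (that is, [H_{i-1}, A] ≤ H_i). Then every prime dividing the index of C_A(H) in A divides the order of H. -/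
theorem result {G : Type*} [Group G] [Finite G] (H A : Subgroup G) (hH : Group.IsSolvable H) (hA : (A ≤ Subgroup.normalizer (H : Set G)))
    (n : ℕ) (c : Fin (n + 1) → Subgroup G) (hc0 : c 0 = H) (hcn : c (Fin.last n) = ⊥) (hanti : Antitone c)
    (hcN : ∀ i, H ≤ Subgroup.normalizer ((c i : Subgroup G) : Set G)) (hcA : ∀ i, A ≤ Subgroup.normalizer ((c i : Subgroup G) : Set G))
    (htriv : ∀ i : Fin n, ⁅c i.castSucc, A⁆ ≤ c i.succ) :
    ∀ p : ℕ, p.Prime → p ∣ (A ⊓ Subgroup.centralizer (H : Set G)).relIndex A → p ∣ Nat.card H := by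
  intro p hp hdvd
  by_contra hpH
  haveI : Fact p.Prime := ⟨hp⟩
  have key : ∀ a ∈ A, ∀ j : ℕ, orderOf a = p ^ j → ∀ i : Fin (n + 1), ∀ h ∈ c i, a * h = h * a := by
    intro a ha j hj i
    induction i using Fin.reverseInduction with
    | last => intro h hh; rw [hcn, Subgroup.mem_bot] at hh; subst hh; simp
    | cast i ih =>
      intro h hh
      set z := ⁅h, a⁆ with hz
      have hzm : z ∈ c i.succ := htriv i (Subgroup.commutator_mem_commutator hh ha)
      have hza : a * z = z * a := ih z hzm
      have hconj : ∀ k : ℕ, a ^ k * h = z⁻¹ ^ k * h * a ^ k := by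
        intro k
        induction k with
        | zero => simp
        | succ k ihk =>
          have h1 : a * h = z⁻¹ * h * a := by rw [hz, commutatorElement_def]; group
          have h2 : Commute a (z⁻¹ ^ k) := ((show Commute a z from hza).inv_right).pow_right k
          calc a ^ (k + 1) * h = a * (a ^ k * h) := by rw [pow_succ', mul_assoc]
            _ = a * (z⁻¹ ^ k * h * a ^ k) := by rw [ihk]
            _ = (a * z⁻¹ ^ k) * h * a ^ k := by group
            _ = (z⁻¹ ^ k * a) * h * a ^ k := by rw [h2.eq]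
            _ = z⁻¹ ^ k * (a * h) * a ^ k := by group
            _ = z⁻¹ ^ k * (z⁻¹ * h * a) * a ^ k := by rw [h1]
            _ = z⁻¹ ^ (k + 1) * h * a ^ (k + 1) := by rw [pow_succ, pow_succ']; group
      have h3 := hconj (orderOf a)
      rw [pow_orderOf_eq_one, one_mul, mul_one] at h3
      have h4 : z ^ orderOf a = 1 := by
        have h40 : z⁻¹ ^ orderOf a = 1 := by
          have h41 : 1 * h = z⁻¹ ^ orderOf a * h := by rw [one_mul]; exact h3
          exact (mul_right_cancel h41).symm
        rwa [inv_pow, inv_eq_one] at h40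
      have hzH : z ∈ H := hc0 ▸ hanti (Fin.zero_le _) hzm
      have h5 : orderOf z ∣ Nat.card H := by
        have h50 := orderOf_dvd_natCard (⟨z, hzH⟩ : H)
        rwa [Subgroup.orderOf_mk] at h50
      have h6 : orderOf z ∣ p ^ j := hj ▸ orderOf_dvd_of_pow_eq_one h4
      have hcop : Nat.Coprime (p ^ j) (Nat.card H) :=
        Nat.Coprime.pow_left j ((Nat.Prime.coprime_iff_not_dvd hp).2 hpH)
      have h7 : orderOf z = 1 := Nat.dvd_one.1 (hcop ▸ Nat.dvd_gcd h6 h5)
      rw [orderOf_eq_one_iff, hz, commutatorElement_eq_one_iff_mul_comm] at h7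
      exact h7.symm
  let S : Sylow p A := default
  have hS : (S : Subgroup A) ≤ (A ⊓ Subgroup.centralizer (H : Set G)).subgroupOf A := by
    intro s hs
    rw [Subgroup.mem_subgroupOf]
    refine ⟨s.2, Subgroup.mem_centralizer_iff.2 ?_⟩
    intro h hh
    obtain ⟨j, hj⟩ := (IsPGroup.iff_orderOf.1 S.isPGroup') ⟨s, hs⟩
    have hj' : orderOf (s : G) = p ^ j := by
      rw [Subgroup.orderOf_mk] at hj
      rwa [Subgroup.orderOf_coe]
    exact (key s s.2 j hj' 0 h (hc0 ▸ hh)).symm
  exact S.not_dvd_index (hdvd.trans (Subgroup.index_dvd_of_le hS))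

end Cfsg.Agent.S1441
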