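import Cfsg.Statements.S1442
import Cfsg.Agent.Lib_helper1_SZ
import Mathlib

set_option autoImplicit false
open Cfsg

namespace Cfsg.Agent.S1442

open scoped commutatorElement

/-- Let G be a finite group, H a nilpotent subgroup and A a subgroup normalizing H with the orders of A and H coprime. Put C = H ∩ C_G(A). If H ∩ C_G(C) ≤ C then A centralizes H. -/
theorem result {G : Type*} [Group G] [Finite G] (H A : Subgroup G) (hH : Group.IsNilpotent H) (hA : (A ≤ Subgroup.normalizer (H : Set G))) (hcop : (Nat.card A).Coprime (Nat.card H))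
    (hC : H ⊓ Subgroup.centralizer (((H ⊓ Subgroup.centralizer (A : Set G)) : Subgroup G) : Set G) ≤ (H ⊓ Subgroup.centralizer (A : Set G))) :
    A ≤ Subgroup.centralizer (H : Set G) := by
  set C := H ⊓ Subgroup.centralizer (A : Set G) with hCdef
  have hCH : C ≤ H := inf_le_left
  have hAC : A ≤ Subgroup.normalizer (C : Set G) := by
    apply Cfsg.Agent.H1.le_normalizer_of_forall
    intro a ha x hx
    have h1 : a * x = x * a := (Subgroup.mem_centralizer_iff.mp hx.2) a ha
    rw [h1, mul_inv_cancel_right]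
    exact hx
  set N := H ⊓ Subgroup.normalizer (C : Set G) with hNdef
  have hAN : A ≤ Subgroup.normalizer (N : Set G) := by
    apply Cfsg.Agent.H1.le_normalizer_of_forall
    intro a ha x hx
    have hx2 : x ∈ Subgroup.normalizer (C : Set G) := hx.2
    have h3 : a * x * a⁻¹ ∈ Subgroup.normalizer (C : Set G) :=
      mul_mem (mul_mem (hAC ha) hx2) (inv_mem (hAC ha))
    exact ⟨Cfsg.Agent.H1.conj_mem_of_le_normalizer hA ha hx.1, h3⟩
  have hHs : Group.IsSolvable H := inferInstance
  have hNs : Group.IsSolvable N := Cfsg.Agent.H1.isSolvable_of_le inf_le_left hHs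
  have hNA : ⁅N, A⁆ ≤ C := by
    apply le_trans _ hC
    rw [Subgroup.commutator_le]
    intro n hn a ha
    refine ⟨?_, ?_⟩
    · rw [commutatorElement_def, mul_assoc, mul_assoc, ← mul_assoc a]
      exact mul_mem hn.1 (Cfsg.Agent.H1.conj_mem_of_le_normalizer hA ha (inv_mem hn.1))
    · show ⁅n, a⁆ ∈ Subgroup.centralizer (C : Set G)
      rw [Subgroup.mem_centralizer_iff]
      intro c hc
      have hc' : n⁻¹ * c * n ∈ C := (Subgroup.mem_normalizer_iff''.mp hn.2 c).mp hc
      have h1 : a * c = c * a := (Subgroup.mem_centralizer_iff.mp hc.2) a ha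
      have h2 : a * (n⁻¹ * c * n) = (n⁻¹ * c * n) * a := (Subgroup.mem_centralizer_iff.mp hc'.2) a ha
      rw [commutatorElement_def]
      have h3 : a⁻¹ * c = c * a⁻¹ := by
        have := congrArg (fun t => a⁻¹ * t * a⁻¹) h1
        simp only [mul_assoc, inv_mul_cancel_left, mul_inv_cancel, mul_one] at this
        exact this.symm
      calc c * (n * a * n⁻¹ * a⁻¹) = n * ((n⁻¹ * c * n) * a) * n⁻¹ * a⁻¹ := by group
        _ = n * (a * (n⁻¹ * c * n)) * n⁻¹ * a⁻¹ := by rw [h2]
        _ = n * a * n⁻¹ * (c * a⁻¹) := by group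
        _ = n * a * n⁻¹ * (a⁻¹ * c) := by rw [h3]
        _ = n * a * n⁻¹ * a⁻¹ * c := by group
  have hNA2 : ⁅⁅N, A⁆, A⁆ = ⊥ := by
    rw [Subgroup.commutator_eq_bot_iff_le_centralizer]
    exact hNA.trans inf_le_right
  have hNA3 : ⁅N, A⁆ = ⊥ := by
    rw [← Cfsg.Agent.H1.coprime_comm_comm A N hAN
      (hcop.coprime_dvd_right (Subgroup.card_dvd_of_le inf_le_left)) (Or.inr hNs)]
    exact hNA2
  have hNC : N ≤ C := by
    rw [Subgroup.commutator_eq_bot_iff_le_centralizer] at hNA3
    exact le_inf inf_le_left hNA3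
  have hCtop : C.subgroupOf H = ⊤ := by
    by_contra hne
    have hlt : C.subgroupOf H < ⊤ := lt_top_iff_ne_top.mpr hne
    have h1 := Group.normalizerCondition_of_isNilpotent (G := H) _ hlt
    rw [← Subgroup.subgroupOf_normalizer_eq hCH] at h1
    have h2 : (Subgroup.normalizer (C : Set G)).subgroupOf H ≤ C.subgroupOf H := by
      intro x hx
      rw [Subgroup.mem_subgroupOf] at hx ⊢
      exact hNC ⟨x.2, hx⟩
    exact absurd h1 (not_lt_of_ge h2)
  rw [Subgroup.subgroupOf_eq_top] at hCtop
  rw [Subgroup.le_centralizer_iff]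
  exact hCtop.trans inf_le_right

end Cfsg.Agent.S1442
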