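import Cfsg.Statements.S1443
import Cfsg.Agent.Lib_helper7_Omega2
import Cfsg.Agent.Lib_helper1_PQ

set_option autoImplicit false
open Cfsg

namespace Cfsg.Agent.S1443

/-- Let G be a finite group, p an odd prime, H a p-subgroup, E an elementary abelian subgroup of H, and A a subgroup of order coprime to p normalizing H. If A centralizes every element of order p in H ∩ C_G(E), then A centralizes H. -/
theorem result {G : Type*} [Group G] [Finite G] (p : ℕ) [Fact p.Prime] (hp : p ≠ 2) (H E A : Subgroup G) (hH : IsPGroup p H) (hE : E ≤ H) (hEe : Cfsg.IsElementaryAbelian p E)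
    (hA : (A ≤ Subgroup.normalizer (H : Set G))) (hcop : (Nat.card A).Coprime p)
    (hfix : ∀ x ∈ (H ⊓ Subgroup.centralizer (E : Set G)), orderOf x = p → A ≤ Subgroup.centralizer ({x} : Set G)) :
    A ≤ Subgroup.centralizer (H : Set G) := by
  obtain ⟨hEm, hEe⟩ := hEe
  have hpp : p.Prime := Fact.out
  have hEc : ∀ x ∈ E, ∀ y ∈ E, x * y = y * x := by
    intro x hx y hy
    exact congrArg Subtype.val (mul_comm' (⟨x, hx⟩ : E) ⟨y, hy⟩)
  have hfix' : ∀ x ∈ H ⊓ Subgroup.centralizer (E : Set G), x ^ p = 1 → ∀ a ∈ A, a * x = x * a := by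
    intro x hx hxp a ha
    by_cases hx1 : x = 1
    · rw [hx1, mul_one, one_mul]
    · have ho : orderOf x = p := orderOf_eq_prime hxp hx1
      exact ((Subgroup.mem_centralizer_iff.mp (hfix x hx ho ha)) x rfl).symm
  have hEA : E ≤ Subgroup.centralizer (A : Set G) := by
    intro e he
    rw [Subgroup.mem_centralizer_iff]
    intro a ha
    apply hfix' e ⟨hE he, ?_⟩ (hEe e he) a ha
    show e ∈ Subgroup.centralizer (E : Set G)
    rw [Subgroup.mem_centralizer_iff]
    intro y hy
    exact hEc y hy e he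
  have hAU : A ≤ Subgroup.normalizer ((H ⊓ Subgroup.centralizer (E : Set G) : Subgroup G) : Set G) := by
    apply Cfsg.Agent.H1.le_normalizer_of_forall
    intro a ha x hx
    refine ⟨Cfsg.Agent.H1.conj_mem_of_le_normalizer hA ha hx.1, ?_⟩
    show a * x * a⁻¹ ∈ Subgroup.centralizer (E : Set G)
    rw [Subgroup.mem_centralizer_iff]
    intro y hy
    have h1 : y * x = x * y := (Subgroup.mem_centralizer_iff.mp hx.2) y hy
    have h2 : a * y = y * a := (Subgroup.mem_centralizer_iff.mp (hEA hy)) a ha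
    have h3 : a⁻¹ * y = y * a⁻¹ := (Subgroup.mem_centralizer_iff.mp (hEA hy)) a⁻¹ (inv_mem ha)
    calc y * (a * x * a⁻¹) = (y * a) * x * a⁻¹ := by group
      _ = a * (y * x) * a⁻¹ := by rw [← h2]; group
      _ = a * x * (y * a⁻¹) := by rw [h1]; group
      _ = a * x * a⁻¹ * y := by rw [← h3]; group
  have h1 := Cfsg.Agent.H7.le_centralizer_of_fix_omega hp (H ⊓ Subgroup.centralizer (E : Set G)) A
    (hH.to_le inf_le_left) hAU hcop hfix'
  exact Cfsg.Agent.H1.thompson_PQ p E A (hH.to_le hE) hcop hEA H hH (hE.trans Subgroup.le_normalizer) hA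
    (Subgroup.le_centralizer_iff.mp h1)

end Cfsg.Agent.S1443
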