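import Cfsg.Statements.S1452
import Cfsg.Agent.S1337

set_option autoImplicit false
open Cfsg

namespace Cfsg.Agent.S1452

open Subgroup

/-- a maximal normal abelian subgroup of a `p`-group is self-centralizing. -/
lemma self_centralizing {R : Type*} [Group R] [Finite R] {p : ℕ} [Fact p.Prime] (hR : IsPGroup p R)
    (A : Subgroup R) (hAn : A.Normal) (hAc : IsMulCommutative A)
    (hmax : ∀ D : Subgroup R, D.Normal → IsMulCommutative D → A ≤ D → D = A) :
    centralizer (A : Set R) = A := by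
  have hpp : p.Prime := Fact.out
  have hcomm : ∀ x ∈ A, ∀ y ∈ A, x * y = y * x := by
    intro x hx y hy
    have h0 := congrArg Subtype.val (hAc.is_comm.comm ⟨x, hx⟩ ⟨y, hy⟩)
    exact h0
  have hAC : A ≤ centralizer (A : Set R) := by
    intro x hx
    rw [mem_centralizer_iff]
    intro y hy
    exact hcomm y hy x hx
  by_contra hne
  have hlt : A < centralizer (A : Set R) := lt_of_le_of_ne hAC (fun h => hne h.symm)
  haveI := hAn
  obtain ⟨D, hDn, hAD, hDC, hDcard⟩ := H7.exists_normal_cover hR hAn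
    (inferInstance : (centralizer (A : Set R)).Normal) hlt
  obtain ⟨d, hdD, hdA⟩ := SetLike.exists_of_lt hAD
  have hle : A ⊔ zpowers d ≤ D := sup_le hAD.le (by rw [zpowers_le]; exact hdD)
  have hlt2 : A < A ⊔ zpowers d := lt_of_le_of_ne le_sup_left (fun h =>
    hdA (h ▸ (le_sup_right (a := A) (mem_zpowers d))))
  have heq : A ⊔ zpowers d = D := by
    apply eq_of_le_of_card_ge hle
    obtain ⟨k, hk⟩ := card_dvd_of_le hlt2.le
    obtain ⟨l, hl⟩ := card_dvd_of_le hle
    have h1 : Nat.card A < Nat.card ↥(A ⊔ zpowers d) := by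
      by_contra hcon
      push Not at hcon
      exact hlt2.ne (eq_of_le_of_card_ge hlt2.le hcon)
    have hApos : 0 < Nat.card A := Nat.card_pos
    rw [hk] at hl h1 ⊢
    rw [hDcard, mul_assoc] at hl
    have hkl : p = k * l := Nat.eq_of_mul_eq_mul_left hApos hl
    have hk1 : k ≠ 1 := by
      rintro rfl
      simp at h1
    have hkp : k = p := by
      rcases (Nat.dvd_prime hpp).1 ⟨l, hkl⟩ with h | h
      · exact absurd h hk1
      · exact h
    rw [hDcard, hkp]
  have hDc : IsMulCommutative D := by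
    rw [← heq]
    apply LeadJ.comm_sup hAc inferInstance
    intro a ha w hw
    obtain ⟨z, rfl⟩ := mem_zpowers_iff.1 hw
    have h1 : a * d = d * a := mem_centralizer_iff.1 (hDC hdD) a ha
    exact ((show Commute a d from h1).zpow_right z).eq
  exact hAD.ne (hmax D hDn hDc hAD.le).symm

/-- Let p be an odd prime and R a finite p-group containing an elementary abelian subgroup of order p ^ 3. If E is a normal elementary abelian subgroup of R of order p ^ 2, then E ≤ A for some normal subgroup A of R with C_R(A) = A that contains an elementary abelian subgroup of order p ^ 3. -/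
theorem result {R : Type*} [Group R] [Finite R] (p : ℕ) [Fact p.Prime] (hp : p ≠ 2) (hR : IsPGroup p R) (hr : ¬ Cfsg.PRankLE p 2 R)
    (E : Subgroup R) [E.Normal] (hE : Cfsg.IsElementaryAbelian p E) (hE2 : Nat.card E = p ^ 2) :
    ∃ A : Subgroup R, E ≤ A ∧ A.Normal ∧ Subgroup.centralizer (A : Set R) = A ∧ ¬ Cfsg.PRankLE p 2 A := by
  classical
  have hpp : p.Prime := Fact.out
  obtain ⟨E', hE'c, hE'e, hE'card⟩ : ∃ E' : Subgroup R, IsMulCommutative E' ∧ (∀ a ∈ E', a ^ p = 1) ∧
      p ^ 2 < Nat.card E' := by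
    unfold Cfsg.PRankLE at hr
    push Not at hr
    exact hr
  have hE'ea : Cfsg.IsElementaryAbelian p E' := ⟨hE'c, hE'e⟩
  have hcomm_of : ∀ {F : Subgroup R}, Cfsg.IsElementaryAbelian p F → ∀ x ∈ F, ∀ y ∈ F, x * y = y * x := by
    intro F hF x hx y hy
    have h0 := congrArg Subtype.val (hF.1.is_comm.comm ⟨x, hx⟩ ⟨y, hy⟩)
    exact h0
  have hea_le : ∀ {F F' : Subgroup R}, Cfsg.IsElementaryAbelian p F → F' ≤ F →
      Cfsg.IsElementaryAbelian p F' := by
    intro F F' hF hle
    exact ⟨⟨⟨fun a b => Subtype.ext (hcomm_of hF a.1 (hle a.2) b.1 (hle b.2))⟩⟩,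
      fun a ha => hF.2 a (hle ha)⟩
  have hsq : ∀ F : Subgroup R, p < Nat.card F → p ^ 2 ≤ Nat.card F := by
    intro F hF
    obtain ⟨j, hj⟩ := (hR.to_subgroup F).exists_card_eq
    rw [hj] at hF ⊢
    have : 1 < j := by
      by_contra hcon
      push Not at hcon
      have := Nat.pow_le_pow_right hpp.pos hcon
      rw [pow_one] at this
      omega
    exact Nat.pow_le_pow_right hpp.pos this
  -- an elementary abelian subgroup of order > p^2 in C(E)
  obtain ⟨F, hFC, hFe, hFcard⟩ : ∃ F : Subgroup R, F ≤ centralizer (E : Set R) ∧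
      Cfsg.IsElementaryAbelian p F ∧ p ^ 2 < Nat.card F := by
    set E₀ := E' ⊓ centralizer (E : Set R) with hE₀
    have hE₀c : p ^ 2 ≤ Nat.card E₀ := by
      apply hsq
      have h1 := S1337.index_le hR E hE2 le_rfl E'
      rw [pow_two] at hE'card
      exact Nat.lt_of_mul_lt_mul_left (hE'card.trans_le h1)
    have hE₀e : Cfsg.IsElementaryAbelian p E₀ := hea_le hE'ea inf_le_left
    have hFe : Cfsg.IsElementaryAbelian p (E₀ ⊔ E) := LeadJ.ea_sup hE₀e hE (fun a ha b hb =>
      (mem_centralizer_iff.1 ha.2 b hb).symm)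
    have hFC : E₀ ⊔ E ≤ centralizer (E : Set R) := sup_le inf_le_right (fun u hu => by
      rw [mem_centralizer_iff]
      intro v hv
      exact hcomm_of hE v hv u hu)
    by_cases hc : p ^ 2 < Nat.card ↥(E₀ ⊔ E)
    · exact ⟨_, hFC, hFe, hc⟩
    · push Not at hc
      have h1 : E = E₀ ⊔ E := eq_of_le_of_card_ge le_sup_right (by rw [hE2]; exact hc)
      have h2 : E₀ = E₀ ⊔ E := eq_of_le_of_card_ge le_sup_left (hc.trans hE₀c)
      have h3 : E ≤ E' := by rw [h1, ← h2]; exact inf_le_left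
      refine ⟨E', ?_, hE'ea, hE'card⟩
      intro e he
      rw [mem_centralizer_iff]
      intro u hu
      exact hcomm_of hE'ea u (h3 hu) e he
  -- maximal normal elementary abelian B ≥ E
  let 𝒮 : Set (Subgroup R) := {B | B.Normal ∧ IsMulCommutative B ∧ ∀ a ∈ B, a ^ p = 1}
  have hE𝒮 : E ∈ 𝒮 := ⟨inferInstance, hE.1, hE.2⟩
  obtain ⟨B, hEB, hBmax⟩ := (Set.toFinite 𝒮).exists_le_maximal hE𝒮
  obtain ⟨hBn, hBc, hBe⟩ := hBmax.prop
  haveI := hBn
  have hAlp : ∀ x ∈ centralizer (B : Set R), x ^ p = 1 → x ∈ B := by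
    intro x hx hxp
    refine S0130.result hR 1 (by rw [pow_one]; exact hp) B hBc (fun a ha => by rw [pow_one]; exact hBe a ha)
      ?_ x hx (by rw [pow_one]; exact hxp)
    intro B' hBn' hBc' hBe' hAB
    exact hBmax.eq_of_ge ⟨hBn', hBc', fun b hb => by simpa using hBe' b hb⟩ hAB
  have hBcard : p ^ 2 < Nat.card B := by
    by_contra hcon
    push Not at hcon
    have hEeq : E = B := eq_of_le_of_card_ge hEB (by rw [hE2]; exact hcon)
    have hFB : F ≤ B := fun x hx => hAlp x (hEeq ▸ hFC hx) (hFe.2 x hx)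
    have := card_le_of_le hFB
    omega
  -- maximal normal abelian A ≥ B
  let 𝒯 : Set (Subgroup R) := {A | A.Normal ∧ IsMulCommutative A}
  obtain ⟨A, hBA, hAmax⟩ := (Set.toFinite 𝒯).exists_le_maximal (show B ∈ 𝒯 from ⟨hBn, hBc⟩)
  obtain ⟨hAn, hAc⟩ := hAmax.prop
  refine ⟨A, hEB.trans hBA, hAn, self_centralizing hR A hAn hAc ?_, ?_⟩
  · intro D hDn hDc hAD
    exact hAmax.eq_of_ge ⟨hDn, hDc⟩ hAD
  · exact (S1337.not_rank_iff A).2 ⟨B, hBA, ⟨hBc, hBe⟩, hBcard⟩

end Cfsg.Agent.S1452
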