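import Cfsg.Statements.S1453
import Cfsg.Agent.S1452

set_option autoImplicit false
open Cfsg

namespace Cfsg.Agent.S1453

open Subgroup
open scoped commutatorElement

/-- Let p be an odd prime and R a finite p-group with an elementary abelian subgroup of order p ^ 3 and an elementary abelian subgroup E of order p ^ 2 contained in no larger elementary abelian subgroup. Let Z₂ be the second centre of R, W the subgroup generated by the elements of Z₂ of order dividing p, and T = C_R(W). Then E is not contained in T; the elements of order dividing p of the centre of R generate a group of order p; W is elementary abelian of order p ^ 2; and T is characteristic in R of index p. -/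
theorem result {R : Type*} [Group R] [Finite R] (p : ℕ) [Fact p.Prime] (hp : p ≠ 2) (hR : IsPGroup p R) (hr : ¬ Cfsg.PRankLE p 2 R)
    (E : Subgroup R) (hE : Cfsg.IsElementaryAbelian p E) (hE2 : Nat.card E = p ^ 2)
    (hEmax : ∀ B : Subgroup R, Cfsg.IsElementaryAbelian p B → E ≤ B → B = E) :
    ¬ E ≤ Subgroup.centralizer ((Subgroup.closure {x : R | x ∈ Subgroup.upperCentralSeries R 2 ∧ x ^ p = 1} : Subgroup R) : Set R) ∧
      Nat.card ↥(Subgroup.closure {x : R | x ∈ Subgroup.center R ∧ x ^ p = 1}) = p ∧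
      (Cfsg.IsElementaryAbelian p (Subgroup.closure {x : R | x ∈ Subgroup.upperCentralSeries R 2 ∧ x ^ p = 1}) ∧
        Nat.card ↥(Subgroup.closure {x : R | x ∈ Subgroup.upperCentralSeries R 2 ∧ x ^ p = 1}) = p ^ 2) ∧
      (Subgroup.centralizer ((Subgroup.closure {x : R | x ∈ Subgroup.upperCentralSeries R 2 ∧ x ^ p = 1} : Subgroup R) : Set R)).Characteristic ∧
      (Subgroup.centralizer ((Subgroup.closure {x : R | x ∈ Subgroup.upperCentralSeries R 2 ∧ x ^ p = 1} : Subgroup R) : Set R)).index = p := by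
  classical
  have hpp : p.Prime := Fact.out
  haveI hnil : Group.IsNilpotent R := hR.isNilpotent
  have hZ2mem : ∀ x : R, x ∈ Subgroup.upperCentralSeries R 2 ↔ ∀ y, ⁅x, y⁆ ∈ center R := by
    intro x
    rw [show (2 : ℕ) = 1 + 1 from rfl, Subgroup.mem_upperCentralSeries_succ_iff,
      Subgroup.upperCentralSeries_one]
  have hEcomm : ∀ x ∈ E, ∀ y ∈ E, x * y = y * x := by
    intro x hx y hy
    have h0 := congrArg Subtype.val (hE.1.is_comm.comm ⟨x, hx⟩ ⟨y, hy⟩)
    exact h0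
  -- (a)
  have hΩE : ∀ x : R, (∀ e ∈ E, e * x = x * e) → x ^ p = 1 → x ∈ E := by
    intro x hx hxp
    have hz : Cfsg.IsElementaryAbelian p (zpowers x) := by
      refine ⟨inferInstance, ?_⟩
      intro a ha
      obtain ⟨k, rfl⟩ := mem_zpowers_iff.1 ha
      rw [← zpow_natCast, ← zpow_mul, mul_comm, zpow_mul, zpow_natCast, hxp, one_zpow]
    have hsup : Cfsg.IsElementaryAbelian p (E ⊔ zpowers x) := by
      refine LeadJ.ea_sup hE hz ?_
      intro a ha b hb
      obtain ⟨k, rfl⟩ := mem_zpowers_iff.1 hb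
      exact ((show Commute a x from hx a ha).zpow_right k).eq
    have heq := hEmax _ hsup le_sup_left
    exact heq ▸ (le_sup_right (a := E) (mem_zpowers x))
  -- (C1)
  have hEnn : ¬ E.Normal := by
    intro hEn
    haveI := hEn
    obtain ⟨A, hEA, _, hCA, hrk⟩ := S1452.result p hp hR hr E hE hE2
    obtain ⟨F, hFA, hFe, hFc⟩ := (S1337.not_rank_iff A).1 hrk
    have hFE : F ≤ E := by
      intro f hf
      apply hΩE f _ (hFe.2 f hf)
      intro e he
      have h1 : f ∈ centralizer (A : Set R) := hCA.symm ▸ hFA hf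
      exact mem_centralizer_iff.1 h1 e (hEA he)
    have := card_le_of_le hFE
    omega
  -- Z₀
  let Z₀ : Subgroup R :=
    { carrier := {x | x ∈ center R ∧ x ^ p = 1}
      one_mem' := ⟨one_mem _, one_pow _⟩
      mul_mem' := by
        rintro a b ⟨ha, ha'⟩ ⟨hb, hb'⟩
        exact ⟨mul_mem ha hb, by
          rw [(show Commute a b from (mem_center_iff.1 ha b).symm).mul_pow, ha', hb', one_mul]⟩
      inv_mem' := by
        rintro a ⟨ha, ha'⟩
        exact ⟨inv_mem ha, by rw [inv_pow, ha', inv_one]⟩ }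
  have hZ₀cl : Subgroup.closure {x : R | x ∈ Subgroup.center R ∧ x ^ p = 1} = Z₀ :=
    Subgroup.closure_eq Z₀
  have hZ₀c : ∀ z ∈ Z₀, ∀ g : R, g * z = z * g := fun z hz g => mem_center_iff.1 hz.1 g
  haveI hZ₀n : Z₀.Normal := ⟨fun z hz g => by
    have e : g * z * g⁻¹ = z := by rw [hZ₀c z hz g]; group
    rw [e]; exact hz⟩
  have hZ₀E : Z₀ ≤ E := fun z hz => hΩE z (fun e _ => hZ₀c z hz e) hz.2
  have hZ₀ne : Z₀ ≠ E := fun h => hEnn (h ▸ hZ₀n)
  have hZ₀lt : Z₀ < E := lt_of_le_of_ne hZ₀E hZ₀ne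
  obtain ⟨i, hi2, hZ₀i⟩ := S0100.card_lt_pow hR hZ₀lt hE2
  -- U
  obtain ⟨U, hUn, hUe, hUcard, -⟩ := S1337.result p hR hr
  haveI := hUn
  have hUne : U ≠ ⊥ := by
    rintro rfl
    rw [card_bot] at hUcard
    have := Nat.one_lt_pow (n := 2) (by norm_num) hpp.one_lt
    omega
  have hUZ2 : ∀ u ∈ U, ∀ r : R, ⁅u, r⁆ ∈ center R := by
    set D := ⁅U, (⊤ : Subgroup R)⁆ with hD
    haveI hDn : D.Normal := by rw [hD]; infer_instance
    have hDU : D < U := S0100.comm_lt U hUne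
    obtain ⟨j, hj2, hDj⟩ := S0100.card_lt_pow hR hDU hUcard
    have hDD : ⁅D, (⊤ : Subgroup R)⁆ = ⊥ := by
      by_cases hDb : D = ⊥
      · rw [hDb]; exact commutator_bot_left _
      · have h1 := S0100.comm_lt D hDb
        obtain ⟨j', hj'j, hj'⟩ := S0100.card_lt_pow hR h1 hDj
        have : j' = 0 := by omega
        rw [this, pow_zero] at hj'
        exact eq_bot_of_card_eq _ hj'
    intro u hu r
    rw [mem_center_iff]
    intro g
    have h1 : ⁅⁅u, r⁆, g⁆ ∈ ⁅D, (⊤ : Subgroup R)⁆ :=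
      commutator_mem_commutator (commutator_mem_commutator hu (mem_top _)) (mem_top _)
    rw [hDD, mem_bot, commutatorElement_eq_one_iff_mul_comm] at h1
    exact h1.symm
  -- (f)
  have hf : ∀ y : R, (∀ r, ⁅y, r⁆ ∈ center R) → y ^ p = 1 → ∀ r, ⁅y, r⁆ ∈ Z₀ := by
    intro y hy hyp r
    refine ⟨hy r, ?_⟩
    obtain ⟨c, hc⟩ : ∃ c, c = ⁅y, r⁆ := ⟨_, rfl⟩
    rw [← hc]
    have hcc : ∀ g, g * c = c * g := fun g => mem_center_iff.1 (hc ▸ hy r) g
    have e1 : r * y * r⁻¹ = c⁻¹ * y := by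
      rw [hc, commutatorElement_def]; group
    have e2 : (r * y * r⁻¹) ^ p = 1 := by rw [conj_pow, hyp]; group
    rw [e1, ((show Commute y c from hcc y).inv_right.symm).mul_pow, hyp, mul_one, inv_pow,
      inv_eq_one] at e2
    exact e2
  -- x ∈ E \ Z₀
  obtain ⟨x, hxE, hxZ⟩ := SetLike.exists_of_lt hZ₀lt
  have hgenE : ∀ y ∈ E, y ∉ Z₀ → Z₀ ⊔ zpowers y = E := by
    intro y hyE hyZ
    have hle : Z₀ ⊔ zpowers y ≤ E := sup_le hZ₀E (by rw [zpowers_le]; exact hyE)
    by_contra hcon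
    obtain ⟨j, hj2, hj⟩ := S0100.card_lt_pow hR (lt_of_le_of_ne hle hcon) hE2
    have hlt : Z₀ < Z₀ ⊔ zpowers y := lt_of_le_of_ne le_sup_left (fun heq =>
      hyZ (heq ▸ (le_sup_right (a := Z₀) (mem_zpowers y))))
    obtain ⟨j', hj'j, hj'⟩ := S0100.card_lt_pow hR hlt hj
    -- then Z₀ = ⊥ and ...
    have hj'0 : j' = 0 := by omega
    have hj1 : j = 1 := by omega
    -- U ∩ center is nontrivial: use u-commutators below; here derive contradiction from Z₀ = ⊥
    have hZb : Z₀ = ⊥ := by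
      rw [hj'0, pow_zero] at hj'
      exact eq_bot_of_card_eq _ hj'
    -- every commutator ⁅u, r⁆ lies in Z₀ = ⊥, so U is central, so U ≤ Z₀
    have hUc : ∀ u ∈ U, u ∈ Z₀ := by
      intro u hu
      refine ⟨?_, hUe.2 u hu⟩
      rw [mem_center_iff]
      intro g
      have h1 := hf u (hUZ2 u hu) (hUe.2 u hu) g
      rw [hZb, mem_bot, commutatorElement_eq_one_iff_mul_comm] at h1
      exact h1.symm
    exact hUne (le_bot_iff.1 (hZb ▸ hUc))
  have hcentE : ∀ y ∈ E, y ∉ Z₀ → ∀ w : R, y * w = w * y → ∀ e ∈ E, e * w = w * e := by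
    intro y hyE hyZ w hw e he
    rw [← hgenE y hyE hyZ, mem_sup_of_normal_left] at he
    obtain ⟨z, hz, v, hv, rfl⟩ := he
    obtain ⟨k, rfl⟩ := mem_zpowers_iff.1 hv
    have h1 : Commute (y ^ k) w := (show Commute y w from hw).zpow_left k
    rw [mul_assoc, h1.eq, ← mul_assoc, ← hZ₀c z hz w, mul_assoc]
  -- U does not centralize x
  have hUx : ∃ u₀ ∈ U, ⁅u₀, x⁆ ≠ 1 := by
    by_contra hcon
    push Not at hcon
    have hUE : U ≤ E := by
      intro u hu
      apply hΩE u _ (hUe.2 u hu)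
      apply hcentE x hxE hxZ u
      exact (commutatorElement_eq_one_iff_mul_comm.1 (hcon u hu)).symm
    have : U = E := eq_of_le_of_card_ge hUE (by rw [hUcard, hE2])
    exact hEnn (this ▸ hUn)
  obtain ⟨u₀, hu₀, hz1⟩ := hUx
  obtain ⟨z, hzdef⟩ : ∃ z, z = ⁅u₀, x⁆ := ⟨_, rfl⟩
  rw [← hzdef] at hz1
  have hzZ : z ∈ Z₀ := hzdef ▸ hf u₀ (hUZ2 u₀ hu₀) (hUe.2 u₀ hu₀) x
  have hzU : z ∈ U := by
    rw [hzdef, commutatorElement_def]
    have e : u₀ * x * u₀⁻¹ * x⁻¹ = u₀ * (x * u₀⁻¹ * x⁻¹) := by group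
    rw [e]
    exact U.mul_mem hu₀ (hUn.conj_mem _ (U.inv_mem hu₀) x)
  have hi1 : i = 1 := by
    have : i ≠ 0 := by
      rintro rfl
      rw [pow_zero] at hZ₀i
      have := eq_bot_of_card_eq _ hZ₀i
      rw [this, mem_bot] at hzZ
      exact hz1 hzZ
    omega
  rw [hi1, pow_one] at hZ₀i
  have hZ₀z : zpowers z = Z₀ := by
    apply eq_of_le_of_card_ge (by rw [zpowers_le]; exact hzZ)
    rw [hZ₀i, Nat.card_zpowers, orderOf_eq_prime hzZ.2 hz1]
  have hZ₀U : Z₀ ≤ U := by rw [← hZ₀z, zpowers_le]; exact hzU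
  -- the commutator homomorphism
  have hmul : ∀ v w : R, (∀ r, ⁅w, r⁆ ∈ center R) → ⁅v * w, x⁆ = ⁅v, x⁆ * ⁅w, x⁆ := by
    intro v w hw
    have e1 : ⁅v * w, x⁆ = v * ⁅w, x⁆ * v⁻¹ * ⁅v, x⁆ := by
      simp only [commutatorElement_def]; group
    have h1 := mem_center_iff.1 (hw x)
    rw [e1, h1 v, mul_assoc, mul_assoc, ← mul_assoc v, mul_inv_cancel, one_mul, ← h1]
  have hpowz : ∀ k : ℕ, ⁅u₀ ^ k, x⁆ = z ^ k := by
    intro k
    induction k with
    | zero => simp
    | succ k ih => rw [pow_succ, hmul _ _ (hUZ2 u₀ hu₀), ih, ← hzdef, pow_succ]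
  have hp3 : 2 < p := lt_of_le_of_ne hpp.two_le (Ne.symm hp)
  have hSW : ∀ y : R, y ∈ Subgroup.upperCentralSeries R 2 → y ^ p = 1 → y ∈ U := by
    intro y hy2 hyp
    have hyc := (hZ2mem y).1 hy2
    have h1 : (⁅y, x⁆)⁻¹ ∈ zpowers z := by rw [hZ₀z]; exact Z₀.inv_mem (hf y hyc hyp x)
    rw [← mem_powers_iff_mem_zpowers] at h1
    obtain ⟨k, hk⟩ := Submonoid.mem_powers_iff _ _ |>.1 h1
    obtain ⟨w, hwdef⟩ : ∃ w, w = u₀ ^ k := ⟨_, rfl⟩
    have hwU : w ∈ U := hwdef ▸ U.pow_mem hu₀ k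
    have hwc := hUZ2 w hwU
    have hwp : w ^ p = 1 := hUe.2 w hwU
    have hwx : ⁅w, x⁆ = (⁅y, x⁆)⁻¹ := by rw [hwdef, hpowz, hk]
    have hy'x : ⁅y * w, x⁆ = 1 := by rw [hmul y w hwc, hwx, mul_inv_cancel]
    have hcZ : ⁅w, y⁆ ∈ Z₀ := hf w hwc hwp y
    have hy'p : (y * w) ^ p = 1 := by
      have h2 := H7.mul_pow_class2 (x := y) (y := w) (c := ⁅w, y⁆)
        (by rw [commutatorElement_def]; group) (hZ₀c _ hcZ y).symm (hZ₀c _ hcZ w).symm p
      obtain ⟨m, hm⟩ := hpp.dvd_choose_self (k := 2) (by norm_num) hp3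
      rw [h2, hyp, hwp, hm, pow_mul, hcZ.2]
      simp
    have hy'E : y * w ∈ E := by
      apply hΩE _ _ hy'p
      apply hcentE x hxE hxZ
      exact (commutatorElement_eq_one_iff_mul_comm.1 hy'x).symm
    have hy'2 : y * w ∈ Subgroup.upperCentralSeries R 2 :=
      mul_mem hy2 ((hZ2mem w).2 hwc)
    have hy'c := (hZ2mem _).1 hy'2
    have hy'Z : y * w ∈ Z₀ := by
      by_contra hnot
      apply hEnn
      refine ⟨fun e he r => ?_⟩
      have he' := he
      rw [← hgenE _ hy'E hnot, mem_sup_of_normal_left] at he'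
      obtain ⟨z', hz', v, hv, rfl⟩ := he'
      obtain ⟨m, rfl⟩ := mem_zpowers_iff.1 hv
      have e1 : r * (z' * (y * w) ^ m) * r⁻¹ = (r * z' * r⁻¹) * (r * (y * w) * r⁻¹) ^ m := by
        rw [conj_zpow]; group
      rw [e1]
      refine E.mul_mem (hZ₀E (hZ₀n.conj_mem z' hz' r)) (E.zpow_mem ?_ m)
      have e2 : r * (y * w) * r⁻¹ = (⁅y * w, r⁆)⁻¹ * (y * w) := by
        rw [commutatorElement_def]; group
      rw [e2]
      exact E.mul_mem (hZ₀E (Z₀.inv_mem (hf _ hy'c hy'p r))) hy'E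
    have e3 : y = (y * w) * w⁻¹ := by group
    rw [e3]
    exact U.mul_mem (hZ₀U hy'Z) (U.inv_mem hwU)
  have hWchar : (Subgroup.closure {x : R | x ∈ Subgroup.upperCentralSeries R 2 ∧ x ^ p = 1}).Characteristic := by
    rw [characteristic_iff_map_le]
    intro φ
    rw [MonoidHom.map_closure, closure_le]
    rintro _ ⟨y, ⟨hy2, hyp⟩, rfl⟩
    apply Subgroup.subset_closure
    refine ⟨?_, ?_⟩
    · have hch : (Subgroup.upperCentralSeries R 2).Characteristic := inferInstance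
      have h1 := (characteristic_iff_map_le.1 hch) φ
      exact h1 ⟨y, hy2, rfl⟩
    · show (φ y) ^ p = 1
      rw [← map_pow, hyp, map_one]
  have hWU : Subgroup.closure {x : R | x ∈ Subgroup.upperCentralSeries R 2 ∧ x ^ p = 1} = U := by
    apply le_antisymm
    · rw [closure_le]
      rintro y ⟨hy2, hyp⟩
      exact hSW y hy2 hyp
    · intro u hu
      exact subset_closure ⟨(hZ2mem u).2 (hUZ2 u hu), hUe.2 u hu⟩
  have hchar : (Subgroup.centralizer ((Subgroup.closure {x : R | x ∈ Subgroup.upperCentralSeries R 2 ∧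
      x ^ p = 1} : Subgroup R) : Set R)).Characteristic := by
    haveI := hWchar
    infer_instance
  rw [hZ₀cl]
  rw [hWU] at hchar ⊢
  have hxT : x ∉ centralizer (U : Set R) := by
    intro hx
    have h1 := mem_centralizer_iff.1 hx u₀ hu₀
    apply hz1
    rw [hzdef, commutatorElement_eq_one_iff_mul_comm]
    exact h1
  refine ⟨fun h => hxT (h hxE), hZ₀i, ⟨hUe, hUcard⟩, hchar, ?_⟩
  -- the index
  have h1 := S1337.index_le hR U hUcard le_rfl ⊤
  rw [top_inf_eq, card_top] at h1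
  have h2 : (centralizer (U : Set R)).index * Nat.card (centralizer (U : Set R)) = Nat.card R :=
    index_mul_card _
  have h3 : (centralizer (U : Set R)).index ≤ p := by
    rw [← h2] at h1
    exact Nat.le_of_mul_le_mul_right h1 Nat.card_pos
  have h4 : (centralizer (U : Set R)).index ≠ 1 := by
    intro h
    rw [index_eq_one] at h
    exact hxT (h ▸ mem_top x)
  obtain ⟨n, hn⟩ := hR.exists_card_eq
  have h5 : (centralizer (U : Set R)).index ∣ p ^ n := hn ▸ index_dvd_card _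
  obtain ⟨j, _, hj⟩ := (Nat.dvd_prime_pow hpp).1 h5
  rw [hj] at h3 h4 ⊢
  have hj0 : j ≠ 0 := by
    rintro rfl
    simp at h4
  have hj1 : j ≤ 1 := by
    have : p ^ j ≤ p ^ 1 := by rwa [pow_one]
    exact (Nat.pow_le_pow_iff_right hpp.one_lt).1 this
  have : j = 1 := by omega
  rw [this, pow_one]

end Cfsg.Agent.S1453
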