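import Cfsg.Statements.S1460
import Cfsg.Agent.Lib_helper7_Transfer2
import Cfsg.Agent.Lib_helper7_Sylow
import Cfsg.Agent.Lib_helper1_SZ
import Mathlib

set_option autoImplicit false
open Cfsg

namespace Cfsg.Agent.S1460

open scoped commutatorElement
open scoped Pointwise

/-- Let G be a finite solvable group, K a normal subgroup and U a subgroup with G = KU, and H ≤ U a subgroup whose order is coprime to that of K. Then H ∩ G' = H ∩ U'; N_G(H) is generated by K ∩ C_G(H) and U ∩ N_G(H); and if gHg⁻¹ ≤ U for some g ∈ G then g = u c with u ∈ U and c ∈ K ∩ C_G(H). -/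
theorem result {G : Type*} [Group G] [Finite G] [Group.IsSolvable G] (K U H : Subgroup G) [K.Normal] (hKU : K ⊔ U = ⊤) (hH : H ≤ U) (hcop : (Nat.card H).Coprime (Nat.card K)) :
    H ⊓ commutator G = H ⊓ ⁅U, U⁆ ∧
      Subgroup.normalizer (H : Set G) = (K ⊓ Subgroup.centralizer (H : Set G)) ⊔ (U ⊓ Subgroup.normalizer (H : Set G)) ∧
      ∀ g : G, H.map (MulAut.conj g).toMonoidHom ≤ U → ∃ u ∈ U, ∃ c ∈ K ⊓ Subgroup.centralizer (H : Set G), g = u * c := by
  have hdisj : ∀ y : G, y ∈ H → y ∈ K → y = 1 := by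
    intro y hyH hyK
    have h1 : y ∈ H ⊓ K := ⟨hyH, hyK⟩
    rwa [(Subgroup.disjoint_of_coprime_natCard hcop).eq_bot, Subgroup.mem_bot] at h1
  have partC : ∀ g : G, H.map (MulAut.conj g).toMonoidHom ≤ U →
      ∃ u ∈ U, ∃ c ∈ K ⊓ Subgroup.centralizer (H : Set G), g = u * c := by
    intro g hg
    have hgtop : g ∈ U ⊔ K := by rw [sup_comm, hKU]; trivial
    obtain ⟨u₁, hu₁, k, hk, rfl⟩ := Subgroup.mem_sup_of_normal_right.mp hgtop
    have hkU : ∀ h ∈ H, k * h * k⁻¹ ∈ U := by
      intro h hh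
      have h1 : (u₁ * k) * h * (u₁ * k)⁻¹ ∈ U := hg (Cfsg.Agent.H7.conj_mem_map_conj _ hh)
      have h2 : k * h * k⁻¹ = u₁⁻¹ * ((u₁ * k) * h * (u₁ * k)⁻¹) * u₁ := by group
      rw [h2]
      exact U.mul_mem (U.mul_mem (U.inv_mem hu₁) h1) hu₁
    have hHD : H ≤ Subgroup.normalizer ((K ⊓ U : Subgroup G) : Set G) := by
      apply Cfsg.Agent.H1.le_normalizer_of_forall
      intro h hh x hx
      exact ⟨‹K.Normal›.conj_mem x hx.1 h, U.mul_mem (U.mul_mem (hH hh) hx.2) (U.inv_mem (hH hh))⟩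
    have hB : MulAut.conj k • H ≤ (K ⊓ U) ⊔ H := by
      intro y hy
      rw [Cfsg.Agent.H1.mem_conj_smul] at hy
      -- y = k * h * k⁻¹ with h = k⁻¹ * y * k
      set h := k⁻¹ * y * k with hh
      have hy2 : y = (k * h * k⁻¹ * h⁻¹) * h := by rw [hh]; group
      rw [hy2]
      refine Subgroup.mul_mem _ (Subgroup.mem_sup_left ⟨?_, ?_⟩) (Subgroup.mem_sup_right hy)
      · have h3 : k * h * k⁻¹ * h⁻¹ = k * (h * k⁻¹ * h⁻¹) := by group
        rw [h3]
        exact K.mul_mem hk (‹K.Normal›.conj_mem _ (K.inv_mem hk) h)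
      · exact U.mul_mem (hkU h hy) (U.inv_mem (hH hy))
    obtain ⟨d, hd, hd'⟩ := Cfsg.Agent.H1.sz_conj_internal (K ⊓ U) H (MulAut.conj k • H) hHD hB
      (Cfsg.Agent.H1.card_conj_smul _ _)
      ((hcop.coprime_dvd_right (Subgroup.card_dvd_of_le inf_le_left)).symm)
      (Or.inl inferInstance)
    refine ⟨u₁ * d, U.mul_mem hu₁ hd.2, d⁻¹ * k, ⟨K.mul_mem (K.inv_mem hd.1) hk, ?_⟩, by group⟩
    show d⁻¹ * k ∈ Subgroup.centralizer (H : Set G)
    rw [Subgroup.mem_centralizer_iff]
    intro h hh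
    have h1 : k * h * k⁻¹ ∈ MulAut.conj d • H := by
      rw [hd', Cfsg.Agent.H1.mem_conj_smul]
      have : k⁻¹ * (k * h * k⁻¹) * k = h := by group
      rw [this]; exact hh
    rw [Cfsg.Agent.H1.mem_conj_smul] at h1
    -- c h c⁻¹ ∈ H
    have h2 : (d⁻¹ * k) * h * (d⁻¹ * k)⁻¹ * h⁻¹ = 1 := by
      apply hdisj
      · have : (d⁻¹ * k) * h * (d⁻¹ * k)⁻¹ = d⁻¹ * (k * h * k⁻¹) * d := by group
        rw [this]
        exact H.mul_mem h1 (H.inv_mem hh)
      · have : (d⁻¹ * k) * h * (d⁻¹ * k)⁻¹ * h⁻¹ = (d⁻¹ * k) * (h * (d⁻¹ * k)⁻¹ * h⁻¹) := by group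
        rw [this]
        exact K.mul_mem (K.mul_mem (K.inv_mem hd.1) hk)
          (‹K.Normal›.conj_mem _ (K.inv_mem (K.mul_mem (K.inv_mem hd.1) hk)) h)
    have h3 : (d⁻¹ * k) * h = h * (d⁻¹ * k) := by
      have := congrArg (fun t => t * h * (d⁻¹ * k)) h2
      simpa [mul_assoc] using this
    exact h3.symm
  refine ⟨?_, ?_, partC⟩
  · apply le_antisymm
    · rintro x ⟨hxH, hxG⟩
      have hxH' : x ∈ H := hxH
      refine ⟨hxH, ?_⟩
      show x ∈ ⁅U, U⁆
      have hstep1 : commutator G ≤ ⁅U, U⁆ ⊔ K := by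
        have h1 : (commutator G).map (QuotientGroup.mk' K) = (⁅U, U⁆).map (QuotientGroup.mk' K) := by
          rw [commutator_def, Subgroup.map_commutator, Subgroup.map_commutator, ← hKU,
            Subgroup.map_sup]
          have : K.map (QuotientGroup.mk' K) = ⊥ := by
            rw [Subgroup.map_eq_bot_iff, QuotientGroup.ker_mk']
          rw [this, bot_sup_eq]
        have h2 := Subgroup.le_comap_map (QuotientGroup.mk' K) (commutator G)
        rw [h1, Subgroup.comap_map_eq, QuotientGroup.ker_mk'] at h2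
        exact h2
      obtain ⟨u', hu', k, hk, hx⟩ := Subgroup.mem_sup_of_normal_right.mp (hstep1 hxG)
      have hU'U : ⁅U, U⁆ ≤ U := Subgroup.commutator_le_self U
      have hkU : k ∈ U := by
        have : k = u'⁻¹ * x := by rw [← hx]; group
        rw [this]
        exact U.mul_mem (U.inv_mem (hU'U hu')) (hH hxH')
      have hmem : ∀ y : U, (y : G) ∈ ⁅U, U⁆ ↔ y ∈ commutator U := by
        intro y
        rw [← Subgroup.map_subtype_commutator]
        constructor
        · rintro ⟨z, hz, hzy⟩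
          have : z = y := Subtype.ext hzy
          rw [← this]; exact hz
        · intro hy
          exact ⟨y, hy, rfl⟩
      have hxn : x ^ Nat.card K ∈ ⁅U, U⁆ := by
        have h1 : (Abelianization.of (⟨x, hH hxH'⟩ : U)) = Abelianization.of (⟨k, hkU⟩ : U) := by
          have h2 : (⟨x, hH hxH'⟩ : U) = ⟨u', hU'U hu'⟩ * ⟨k, hkU⟩ := Subtype.ext hx.symm
          rw [h2, map_mul]
          have h3 : Abelianization.of (⟨u', hU'U hu'⟩ : U) = 1 := by
            rw [← MonoidHom.mem_ker, Abelianization.ker_of]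
            exact (hmem _).mp hu'
          rw [h3, one_mul]
        have h4 : Abelianization.of ((⟨x, hH hxH'⟩ : U) ^ Nat.card K) = 1 := by
          rw [map_pow, h1, ← map_pow]
          have : (⟨k, hkU⟩ : U) ^ Nat.card K = 1 := by
            apply Subtype.ext
            have h5 : (⟨k, hk⟩ : K) ^ Nat.card K = 1 := pow_card_eq_one'
            have h6 : k ^ Nat.card K = 1 := congrArg Subtype.val h5
            exact h6
          rw [this, map_one]
        rw [← MonoidHom.mem_ker, Abelianization.ker_of, ← hmem] at h4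
        simpa using h4
      have hxm : x ^ Nat.card H ∈ ⁅U, U⁆ := by
        have h5 : (⟨x, hxH'⟩ : H) ^ Nat.card H = 1 := pow_card_eq_one'
        have h6 : x ^ Nat.card H = 1 := congrArg Subtype.val h5
        rw [h6]; exact one_mem _
      exact Cfsg.Agent.H7.mem_of_pow_mem_of_coprime hcop hxm hxn
    · apply inf_le_inf_left
      rw [commutator_def]
      exact Subgroup.commutator_mono le_top le_top
  · apply le_antisymm
    · intro g hg
      obtain ⟨u, hu, c, hc, rfl⟩ := partC g (by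
        rw [Cfsg.Agent.H7.map_conj_eq_self_iff.mpr hg]; exact hH)
      have hcN : c ∈ Subgroup.normalizer (H : Set G) := Subgroup.centralizer_le_normalizer _ hc.2
      have huN : u ∈ Subgroup.normalizer (H : Set G) := by
        have : u = (u * c) * c⁻¹ := by group
        rw [this]
        exact Subgroup.mul_mem _ hg (Subgroup.inv_mem _ hcN)
      exact Subgroup.mul_mem _ (Subgroup.mem_sup_right ⟨hu, huN⟩) (Subgroup.mem_sup_left hc)
    · exact sup_le (inf_le_right.trans (Subgroup.centralizer_le_normalizer _)) inf_le_right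

end Cfsg.Agent.S1460
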