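import Cfsg.Statements.S1461
import Cfsg.Agent.Lib_helper7_PLength
import Cfsg.Agent.S1460

set_option autoImplicit false
open Cfsg

namespace Cfsg.Agent.S1461

/-- Let G be a finite solvable group, p a prime with G = O_{p',p,p'}(G), and S a Sylow p-subgroup. Then: if S ≤ G' then S ≤ [N_G(S), N_G(S)]; if Y ⊆ S and xYx⁻¹ ⊆ S then x = g c for some g ∈ N_G(S) and c centralizing Y; and for every p-subgroup Q there is x ∈ C_G(Q ∩ S) with xQx⁻¹ ≤ S. -/
theorem result {G : Type*} [Group G] [Finite G] [Group.IsSolvable G] (p : ℕ) [Fact p.Prime] (hpl : Cfsg.PLengthLE p 1 G) (S : Sylow p G) :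
    ((S : Subgroup G) ≤ commutator G → (S : Subgroup G) ≤ ⁅Subgroup.normalizer ((S : Subgroup G) : Set G), Subgroup.normalizer ((S : Subgroup G) : Set G)⁆) ∧
      (∀ (Y : Set G) (x : G), Y ⊆ (S : Subgroup G) → (fun y => x * y * x⁻¹) '' Y ⊆ (S : Subgroup G) →
        ∃ g ∈ Subgroup.normalizer ((S : Subgroup G) : Set G), ∃ c ∈ Subgroup.centralizer Y, g * c = x) ∧
      ∀ Q : Subgroup G, IsPGroup p Q → ∃ x ∈ Subgroup.centralizer ((Q ⊓ (S : Subgroup G) : Subgroup G) : Set G), Q.map (MulAut.conj x).toMonoidHom ≤ (S : Subgroup G) := by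
  have hp : p.Prime := Fact.out
  obtain ⟨K, hKn, hK, hKU⟩ := Cfsg.Agent.H7.plength_one_frattini hpl S
  set U := Subgroup.normalizer ((S : Subgroup G) : Set G) with hU
  have hSU : (S : Subgroup G) ≤ U := Subgroup.le_normalizer
  have hcopH : ∀ H : Subgroup G, H ≤ (S : Subgroup G) → (Nat.card H).Coprime (Nat.card K) := by
    intro H hH
    obtain ⟨k, hk⟩ := (S.2.to_le hH).exists_card_eq
    rw [hk]
    exact Nat.Coprime.pow_left k hK.symm
  refine ⟨?_, ?_, ?_⟩
  · intro hS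
    have h1 := (Cfsg.Agent.S1460.result K U (S : Subgroup G) hKU hSU (hcopH _ le_rfl)).1
    rw [inf_eq_left.mpr hS] at h1
    exact inf_eq_left.mp h1.symm
  · intro Y x hY hYx
    have hH : Subgroup.closure Y ≤ (S : Subgroup G) := (Subgroup.closure_le _).mpr hY
    have h1 := (Cfsg.Agent.S1460.result K U (Subgroup.closure Y) hKU (hH.trans hSU) (hcopH _ hH)).2.2 x
      (by
        rw [MonoidHom.map_closure, Subgroup.closure_le]
        rintro _ ⟨y, hy, rfl⟩
        exact hSU (hYx ⟨y, hy, rfl⟩))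
    obtain ⟨u, hu, c, hc, rfl⟩ := h1
    refine ⟨u, hu, c, ?_, rfl⟩
    exact Subgroup.centralizer_le Subgroup.subset_closure hc.2
  · intro Q hQ
    obtain ⟨g, hg⟩ := hQ.exists_le_sylow
    obtain ⟨t, ht⟩ := MulAction.exists_smul_eq G g S
    have hQt : Q.map (MulAut.conj t).toMonoidHom ≤ (S : Subgroup G) := by
      rw [← ht]
      exact Subgroup.map_mono hg
    have hH : Q ⊓ (S : Subgroup G) ≤ (S : Subgroup G) := inf_le_right
    have h1 := (Cfsg.Agent.S1460.result K U (Q ⊓ (S : Subgroup G)) hKU (hH.trans hSU) (hcopH _ hH)).2.2 t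
      ((Subgroup.map_mono inf_le_left).trans (hQt.trans hSU))
    obtain ⟨u, hu, c, hc, rfl⟩ := h1
    refine ⟨c, hc.2, ?_⟩
    rintro _ ⟨q, hq, rfl⟩
    have h2 : (u * c) * q * (u * c)⁻¹ ∈ (S : Subgroup G) := hQt (Cfsg.Agent.H7.conj_mem_map_conj _ hq)
    have h3 : u⁻¹ * ((u * c) * q * (u * c)⁻¹) * u ∈ (S : Subgroup G) :=
      (Subgroup.mem_normalizer_iff''.mp hu _).mp h2
    have h4 : u⁻¹ * ((u * c) * q * (u * c)⁻¹) * u = c * q * c⁻¹ := by group
    rw [h4] at h3
    exact h3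

end Cfsg.Agent.S1461
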