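import Cfsg.Statements.S1462
import Cfsg.Agent.S1443
import Cfsg.Agent.Lib_helper7_PLength
import Cfsg.Agent.Lib_helper7_PSolv3
import Cfsg.Agent.Lib_lead_Thompson

set_option autoImplicit false
open Cfsg

namespace Cfsg.Agent.S1462

open Subgroup

lemma isPSolvable_of_plength_one {G : Type*} [Group G] [Finite G] {p : ℕ} [Fact p.Prime]
    (h : Cfsg.PLengthLE p 1 G) : Cfsg.IsPSolvable p G := by
  obtain ⟨K, L, hK, hL, hKL, hKc, ⟨m, hm⟩, hLi⟩ := H7.plength_one_data h
  refine ⟨3, ![⊥, K, L, ⊤], rfl, rfl, ?_, ?_, ?_⟩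
  · rw [Fin.monotone_iff_le_succ]
    intro i
    fin_cases i
    · exact bot_le
    · exact hKL
    · exact le_top
  · intro i
    fin_cases i
    · exact (inferInstance : (⊥ : Subgroup G).Normal)
    · exact hK
    · exact hL
    · exact (inferInstance : (⊤ : Subgroup G).Normal)
  · intro i
    fin_cases i
    · right
      show ((⊥ : Subgroup G).relIndex K).Coprime p
      rw [relIndex_bot_left]; exact hKc
    · left
      exact ⟨m, hm⟩
    · right
      show (L.relIndex ⊤).Coprime p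
      rw [relIndex_top_right]; exact hLi

/-- a `p'`-subgroup centralizing a Sylow `p`-subgroup of a `p`-solvable group lies in `O_{p'}`. -/
lemma le_pPrimeCore_of_centralizes {G : Type*} [Group G] [Finite G] {p : ℕ} [Fact p.Prime]
    (hsol : Cfsg.IsPSolvable p G) (S : Sylow p G) (L : Subgroup G) (hL : (Nat.card L).Coprime p)
    (hLS : L ≤ centralizer ((S : Subgroup G) : Set G)) : L ≤ Cfsg.pPrimeCore p G := by
  have hp : p.Prime := Fact.out
  set N := Cfsg.pPrimeCore p G with hN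
  haveI hNn : N.Normal := H7.pPrimeCore_normal p
  have hq : Cfsg.IsPSolvable p (G ⧸ N) := H7.isPSolvable_quotient hp hsol N
  have hhh := H7.hall_higman_123 hq (H7.pPrimeCore_quotient_self p)
  have hsurj : Function.Surjective (QuotientGroup.mk' N) := QuotientGroup.mk'_surjective N
  have hle : Cfsg.pCore p (G ⧸ N) ≤ (S : Subgroup G).map (QuotientGroup.mk' N) := by
    have := H7.pCore_le_sylow (S.mapSurjective hsurj)
    simpa using this
  intro x hx
  have h1 : QuotientGroup.mk' N x ∈ centralizer (Cfsg.pCore p (G ⧸ N) : Set (G ⧸ N)) := by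
    rw [mem_centralizer_iff]
    intro y hy
    obtain ⟨s, hs, rfl⟩ := hle hy
    rw [← map_mul, ← map_mul, mem_centralizer_iff.1 (hLS hx) s hs]
  have h2 := hhh h1
  -- the image of x is a p-element and a p'-element
  obtain ⟨k, hk⟩ := (H7.pCore_isPGroup p (G := G ⧸ N)) ⟨_, h2⟩
  have hk' : (QuotientGroup.mk' N x) ^ (p ^ k) = 1 := congrArg Subtype.val hk
  have h3 : x ^ Nat.card L = 1 := by
    have := pow_card_eq_one' (G := L) (x := ⟨x, hx⟩)
    exact congrArg Subtype.val this
  have h4 : (QuotientGroup.mk' N x) ^ Nat.card L = 1 := by rw [← map_pow, h3, map_one]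
  have h5 : (QuotientGroup.mk' N x) ^ (Nat.gcd (p ^ k) (Nat.card L)) = 1 :=
    pow_gcd_eq_one.2 ⟨hk', h4⟩
  have h6 : Nat.gcd (p ^ k) (Nat.card L) = 1 := (Nat.Coprime.pow_left k hL.symm)
  rw [h6, pow_one] at h5
  exact (QuotientGroup.eq_one_iff x).1 h5

/-- Let G be a finite solvable group, p an odd prime with G = O_{p',p,p'}(G), E an elementary abelian p-subgroup contained in no larger elementary abelian p-subgroup of G, and L a subgroup of order coprime to p normalized by E. Then L ≤ O_{p'}(G). -/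
theorem result {G : Type*} [Group G] [Finite G] [Group.IsSolvable G] (p : ℕ) [Fact p.Prime] (hp : p ≠ 2) (hpl : Cfsg.PLengthLE p 1 G) (E L : Subgroup G) (hE : Cfsg.IsElementaryAbelian p E)
    (hEmax : ∀ B : Subgroup G, Cfsg.IsElementaryAbelian p B → E ≤ B → B = E) (hL : (Nat.card L).Coprime p) (hEL : E ≤ Subgroup.normalizer (L : Set G)) :
    L ≤ Cfsg.pPrimeCore p G := by
  classical
  have hp' : p.Prime := Fact.out
  have hsol := isPSolvable_of_plength_one hpl
  set N := Cfsg.pPrimeCore p G with hN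
  haveI hNn : N.Normal := H7.pPrimeCore_normal p
  have hNc : (Nat.card N).Coprime p := H7.pPrimeCore_coprime p
  have hEp : IsPGroup p E := fun ⟨a, ha⟩ => ⟨1, by ext; simpa using hE.2 a ha⟩
  obtain ⟨S, hES⟩ := hEp.exists_le_sylow
  obtain ⟨K, hKn, hKc, hKS⟩ := H7.plength_one_frattini hpl S
  have hKN : K ≤ N := H7.le_pPrimeCore hKn hKc
  set NS := normalizer ((S : Subgroup G) : Set G) with hNS
  have hNS_top : N ⊔ NS = ⊤ := top_le_iff.1 (hKS ▸ sup_le_sup_right hKN _)
  set M := N ⊔ L with hM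
  have hMc : (Nat.card M).Coprime p := by
    have h1 := H1.card_sup_mul_card_inf' N L (by rw [normalizer_eq_top]; exact le_top)
    have h2 : Nat.card M ∣ Nat.card N * Nat.card L := ⟨_, h1.symm⟩
    exact Nat.Coprime.coprime_dvd_left h2 (Nat.Coprime.mul_left hNc hL)
  set L₁ := M ⊓ NS with hL₁
  have hL₁c : (Nat.card L₁).Coprime p :=
    Nat.Coprime.coprime_dvd_left (card_dvd_of_le inf_le_left) hMc
  -- Dedekind
  have hML : M ≤ N ⊔ L₁ := by
    intro x hx
    have hx' : x ∈ N ⊔ NS := hNS_top ▸ mem_top x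
    rw [mem_sup_of_normal_left] at hx'
    obtain ⟨n, hn, g, hg, rfl⟩ := hx'
    have hgM : g ∈ M := by
      have : g = n⁻¹ * (n * g) := by group
      rw [this]
      exact M.mul_mem (M.inv_mem (le_sup_left (a := N) hn)) hx
    exact mul_mem (le_sup_left (a := N) (b := L₁) hn) (le_sup_right (a := N) (b := L₁) ⟨hgM, hg⟩)
  -- E normalizes M and NS
  have hES' : E ≤ NS := hES.trans le_normalizer
  have hEMc : ∀ e ∈ E, ∀ x ∈ M, e * x * e⁻¹ ∈ M := by
    intro e he x hx
    rw [hM, mem_sup_of_normal_left] at hx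
    obtain ⟨n, hn, l, hl, rfl⟩ := hx
    have e1 : e * (n * l) * e⁻¹ = (e * n * e⁻¹) * (e * l * e⁻¹) := by group
    rw [e1]
    exact M.mul_mem (le_sup_left (a := N) (hNn.conj_mem n hn e))
      (le_sup_right (a := N) ((mem_normalizer_iff.1 (hEL he) l).1 hl))
  have hinf : ∀ y, y ∈ L₁ → y ∈ (S : Subgroup G) → y = 1 := by
    intro y hy1 hy2
    obtain ⟨k, hk⟩ := S.isPGroup' ⟨y, hy2⟩
    have hk' : y ^ (p ^ k) = 1 := congrArg Subtype.val hk
    have h3 : y ^ Nat.card L₁ = 1 := by
      have := pow_card_eq_one' (G := L₁) (x := ⟨y, hy1⟩)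
      exact congrArg Subtype.val this
    have h5 : y ^ (Nat.gcd (p ^ k) (Nat.card L₁)) = 1 := pow_gcd_eq_one.2 ⟨hk', h3⟩
    have h6 : Nat.gcd (p ^ k) (Nat.card L₁) = 1 := (Nat.Coprime.pow_left k hL₁c.symm)
    rwa [h6, pow_one] at h5
  have hcent : ∀ e ∈ E, ∀ x ∈ L₁, e * x = x * e := by
    intro e he x hx
    have h1 : e * x * e⁻¹ * x⁻¹ ∈ L₁ := by
      refine L₁.mul_mem ⟨hEMc e he x hx.1, ?_⟩ (L₁.inv_mem hx)
      exact NS.mul_mem (NS.mul_mem (hES' he) hx.2) (NS.inv_mem (hES' he))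
    have h2 : e * x * e⁻¹ * x⁻¹ ∈ (S : Subgroup G) := by
      have e1 : e * x * e⁻¹ * x⁻¹ = e * (x * e⁻¹ * x⁻¹) := by group
      rw [e1]
      exact mul_mem (hES he) ((mem_normalizer_iff.1 hx.2 e⁻¹).1 (inv_mem (hES he)))
    have h3 := hinf _ h1 h2
    calc e * x = (e * x * e⁻¹ * x⁻¹) * (x * e) := by group
      _ = x * e := by rw [h3, one_mul]
  have hfix : ∀ x ∈ ((S : Subgroup G) ⊓ centralizer (E : Set G)), orderOf x = p →
      L₁ ≤ centralizer ({x} : Set G) := by
    intro x hx hox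
    have hz : Cfsg.IsElementaryAbelian p (zpowers x) := by
      refine ⟨inferInstance, ?_⟩
      intro a ha
      obtain ⟨k, rfl⟩ := mem_zpowers_iff.1 ha
      rw [← zpow_natCast, ← zpow_mul, mul_comm, zpow_mul, zpow_natCast, ← hox, pow_orderOf_eq_one,
        one_zpow]
    have hsup : Cfsg.IsElementaryAbelian p (E ⊔ zpowers x) := by
      refine LeadJ.ea_sup hE hz ?_
      intro a ha b hb
      obtain ⟨k, rfl⟩ := mem_zpowers_iff.1 hb
      have h0 : a * x = x * a := mem_centralizer_iff.1 hx.2 a ha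
      exact ((show Commute a x from h0).zpow_right k).eq
    have heq := hEmax _ hsup le_sup_left
    have hxE : x ∈ E := heq ▸ (le_sup_right (a := E) (mem_zpowers x))
    intro l hl
    rw [mem_centralizer_singleton_iff]
    exact (hcent x hxE l hl).symm
  have hL₁S := S1443.result p hp (S : Subgroup G) E L₁ S.isPGroup' hES hE inf_le_right hL₁c hfix
  have hL₁N : L₁ ≤ N := le_pPrimeCore_of_centralizes hsol S L₁ hL₁c hL₁S
  exact (le_sup_right (a := N)).trans (hML.trans (sup_le le_rfl hL₁N))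

end Cfsg.Agent.S1462
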