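import Cfsg.Statements.S1467
import Mathlib

set_option autoImplicit false
open Cfsg

namespace Cfsg.Agent.S1467

theorem step_anti {G : Type*} [Group G] {X Y : Subgroup G} (h : X ≤ Y) :
    Cfsg.puigStep Y ≤ Cfsg.puigStep X := by
  unfold Cfsg.puigStep
  apply sSup_le_sSup
  rintro A ⟨hA, hY⟩
  exact ⟨hA, h.trans hY⟩

/-- Let G be a finite group with Puig series L_n(G). Then L_0 = 1, L_1 = G; L_{2n} ≤ L_{2n+2} ≤ L_{2m+3} ≤ L_{2m+1} for all n, m; there is k with L_{2n}(G) = L_*(G) and L_{2n+1}(G) = L(G) for all n ≥ k; L_*(G) ≤ L(G); and applying one Puig step to L_*(G) gives L(G) and to L(G) gives L_*(G). -/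
theorem result {G : Type*} [Group G] [Finite G] :
    Cfsg.puigSeq G 0 = ⊥ ∧ Cfsg.puigSeq G 1 = ⊤ ∧
      (∀ n m : ℕ, Cfsg.puigSeq G (2 * n) ≤ Cfsg.puigSeq G (2 * n + 2) ∧ Cfsg.puigSeq G (2 * n) ≤ Cfsg.puigSeq G (2 * m + 1) ∧
        Cfsg.puigSeq G (2 * m + 3) ≤ Cfsg.puigSeq G (2 * m + 1)) ∧
      (∃ k : ℕ, ∀ n : ℕ, k ≤ n → Cfsg.puigSeq G (2 * n) = Cfsg.puigLower G ∧ Cfsg.puigSeq G (2 * n + 1) = Cfsg.puigSubgroup G) ∧
      Cfsg.puigLower G ≤ Cfsg.puigSubgroup G ∧
      Cfsg.puigStep (Cfsg.puigLower G) = Cfsg.puigSubgroup G ∧ Cfsg.puigStep (Cfsg.puigSubgroup G) = Cfsg.puigLower G := by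
  have hs : ∀ n, Cfsg.puigSeq G (n + 1) = Cfsg.puigStep (Cfsg.puigSeq G n) := fun n => rfl
  have h1 : Cfsg.puigSeq G 1 = ⊤ := by
    rw [eq_top_iff]
    intro g _
    have h10 : Subgroup.zpowers g ≤ Cfsg.puigSeq G 1 := by
      rw [hs 0]; unfold Cfsg.puigStep
      apply le_sSup
      refine ⟨inferInstance, ?_⟩
      show (⊥ : Subgroup G) ≤ _
      exact bot_le
    exact h10 (Subgroup.mem_zpowers g)
  have hE : ∀ n, Cfsg.puigSeq G (2 * n) ≤ Cfsg.puigSeq G (2 * n + 2) := by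
    intro n
    induction n with
    | zero => exact bot_le
    | succ n ih =>
      have h2 := step_anti (step_anti ih)
      rw [Nat.mul_succ]
      exact h2
  have hO : ∀ m, Cfsg.puigSeq G (2 * m + 3) ≤ Cfsg.puigSeq G (2 * m + 1) := fun m => step_anti (hE m)
  have hEO : ∀ k, Cfsg.puigSeq G (2 * k) ≤ Cfsg.puigSeq G (2 * k + 1) := by
    intro k
    induction k with
    | zero => exact bot_le
    | succ k ih =>
      have h2 := step_anti (step_anti ih)
      rw [Nat.mul_succ]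
      exact h2
  have hEmono : Monotone (fun n => Cfsg.puigSeq G (2 * n)) := by
    apply monotone_nat_of_le_succ
    intro n
    have := hE n
    rw [Nat.mul_succ]
    exact this
  have hOanti : Antitone (fun n => Cfsg.puigSeq G (2 * n + 1)) := by
    apply antitone_nat_of_succ_le
    intro n
    have := hO n
    rw [Nat.mul_succ]
    exact this
  have hcross : ∀ n m, Cfsg.puigSeq G (2 * n) ≤ Cfsg.puigSeq G (2 * m + 1) := by
    intro n m
    calc Cfsg.puigSeq G (2 * n) ≤ Cfsg.puigSeq G (2 * (max n m)) := hEmono (le_max_left n m)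
      _ ≤ Cfsg.puigSeq G (2 * (max n m) + 1) := hEO _
      _ ≤ Cfsg.puigSeq G (2 * m + 1) := hOanti (le_max_right n m)
  obtain ⟨k, hk⟩ := WellFoundedGT.monotone_chain_condition
    (⟨fun n => Cfsg.puigSeq G (2 * n), hEmono⟩ : ℕ →o Subgroup G)
  have hk' : ∀ n, k ≤ n → Cfsg.puigSeq G (2 * n) = Cfsg.puigSeq G (2 * k) := fun n hn => (hk n hn).symm
  have hkO : ∀ n, k ≤ n → Cfsg.puigSeq G (2 * n + 1) = Cfsg.puigSeq G (2 * k + 1) := by
    intro n hn
    rw [hs, hs, hk' n hn]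
  have hlow : Cfsg.puigLower G = Cfsg.puigSeq G (2 * k) := by
    unfold Cfsg.puigLower
    apply le_antisymm
    · apply iSup_le
      intro n
      rcases le_total n k with h | h
      · exact hEmono h
      · exact (hk' n h).le
    · exact le_iSup (fun n => Cfsg.puigSeq G (2 * n)) k
  have hup : Cfsg.puigSubgroup G = Cfsg.puigSeq G (2 * k + 1) := by
    unfold Cfsg.puigSubgroup
    apply le_antisymm
    · exact iInf_le (fun n => Cfsg.puigSeq G (2 * n + 1)) k
    · apply le_iInf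
      intro n
      rcases le_total n k with h | h
      · exact hOanti h
      · exact (hkO n h).ge
  refine ⟨rfl, h1, fun n m => ⟨hE n, hcross n m, hO m⟩, ⟨k, fun n hn => ?_⟩, ?_, ?_, ?_⟩
  · rw [hlow, hup]; exact ⟨hk' n hn, hkO n hn⟩
  · rw [hlow, hup]; exact hEO k
  · rw [hlow, hup]; rfl
  · rw [hlow, hup]
    have h3 := hk' (k + 1) (Nat.le_succ k)
    rw [Nat.mul_succ] at h3
    exact h3

end Cfsg.Agent.S1467
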