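import Cfsg.Statements.S1466
import Mathlib
import Cfsg.Agent.S1467
import Cfsg.Agent.Lib_helper1_KInf2

set_option autoImplicit false
open Cfsg

namespace Cfsg.Agent.S1466

theorem cent_step_le {R : Type*} [Group R] [Finite R] [Group.IsNilpotent R] (X : Subgroup R) :
    Subgroup.centralizer ((Cfsg.puigStep X : Subgroup R) : Set R) ≤ Cfsg.puigStep X := by
  have hbot : (⊥ : Subgroup R) ∈
      {A : Subgroup R | IsMulCommutative A ∧ X ≤ Subgroup.normalizer (A : Set R)} := by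
    refine ⟨inferInstance, ?_⟩
    intro x _
    rw [Subgroup.mem_normalizer_iff]
    intro y
    simp [Subgroup.mem_bot]
  obtain ⟨B, -, hB⟩ := (Set.toFinite
    {A : Subgroup R | IsMulCommutative A ∧ X ≤ Subgroup.normalizer (A : Set R)}).exists_le_maximal hbot
  have hBL : B ≤ Cfsg.puigStep X := le_sSup hB.prop
  have hcB : Subgroup.centralizer (B : Set R) ≤ B := by
    by_contra hcon
    obtain ⟨x, hxB, hk⟩ := H1.exists_kExt B hcon
    have hmem : B ⊔ Subgroup.zpowers x ∈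
        {A : Subgroup R | IsMulCommutative A ∧ X ≤ Subgroup.normalizer (A : Set R)} := by
      refine ⟨⟨⟨fun g₁ g₂ => Subtype.ext ?_⟩⟩, hk.le_normalizer_sup X hB.prop.2⟩
      obtain ⟨b₁, hb₁, y₁, hy₁, e₁⟩ := hk.mem_sup g₁.2
      obtain ⟨b₂, hb₂, y₂, hy₂, e₂⟩ := hk.mem_sup g₂.2
      have hbb : Commute b₁ b₂ := by
        have := hB.prop.1.is_comm.comm ⟨b₁, hb₁⟩ ⟨b₂, hb₂⟩
        exact congrArg Subtype.val this
      have hyy : Commute y₁ y₂ := by
        obtain ⟨i, rfl⟩ := Subgroup.mem_zpowers_iff.mp hy₁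
        obtain ⟨j, rfl⟩ := Subgroup.mem_zpowers_iff.mp hy₂
        exact (Commute.refl x).zpow_zpow i j
      have h12 : Commute b₁ y₂ := hk.commute hb₁ hy₂
      have h21 : Commute y₁ b₂ := (hk.commute hb₂ hy₁).symm
      have hfin : Commute (b₁ * y₁) (b₂ * y₂) :=
        (hbb.mul_right h12).mul_left (h21.mul_right hyy)
      show (g₁ : R) * (g₂ : R) = (g₂ : R) * (g₁ : R)
      rw [e₁, e₂]; exact hfin.eq
    have h1 := hB.eq_of_le hmem le_sup_left
    apply hxB
    rw [h1]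
    exact Subgroup.mem_sup_right (Subgroup.mem_zpowers x)
  exact (Subgroup.centralizer_le (by exact_mod_cast hBL)).trans (hcB.trans hBL)

/-- Let p be a prime and R a nontrivial finite p-group. Then for every i > 0, Z(R) ≤ C_R(L_i(R)) ≤ L_i(R); likewise Z(R) ≤ C_R(L_*(R)) ≤ L_*(R) and Z(R) ≤ C_R(L(R)) ≤ L(R); and L(R) ≠ 1, L_*(R) ≠ 1. -/
theorem result {R : Type*} [Group R] [Finite R] (p : ℕ) [Fact p.Prime] (hR : IsPGroup p R) [Nontrivial R] :
    (∀ i : ℕ, 0 < i → Subgroup.center R ≤ Subgroup.centralizer ((Cfsg.puigSeq R i : Subgroup R) : Set R) ∧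
        Subgroup.centralizer ((Cfsg.puigSeq R i : Subgroup R) : Set R) ≤ Cfsg.puigSeq R i) ∧
      (Subgroup.center R ≤ Subgroup.centralizer ((Cfsg.puigLower R : Subgroup R) : Set R) ∧ Subgroup.centralizer ((Cfsg.puigLower R : Subgroup R) : Set R) ≤ Cfsg.puigLower R) ∧
      (Subgroup.center R ≤ Subgroup.centralizer ((Cfsg.puigSubgroup R : Subgroup R) : Set R) ∧ Subgroup.centralizer ((Cfsg.puigSubgroup R : Subgroup R) : Set R) ≤ Cfsg.puigSubgroup R) ∧
      Cfsg.puigSubgroup R ≠ ⊥ ∧ Cfsg.puigLower R ≠ ⊥ := by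
  haveI := hR.isNilpotent
  have hseq : ∀ i : ℕ, 0 < i →
      Subgroup.centralizer ((Cfsg.puigSeq R i : Subgroup R) : Set R) ≤ Cfsg.puigSeq R i := by
    intro i hi
    obtain ⟨j, rfl⟩ := Nat.exists_eq_succ_of_ne_zero hi.ne'
    exact cent_step_le (Cfsg.puigSeq R j)
  obtain ⟨-, -, -, ⟨k, hk⟩, -, -, -⟩ := S1467.result (G := R)
  obtain ⟨hlow, hup⟩ := hk (k + 1) (Nat.le_succ k)
  have hL : Subgroup.centralizer ((Cfsg.puigLower R : Subgroup R) : Set R) ≤ Cfsg.puigLower R := by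
    rw [← hlow]; exact hseq _ (by omega)
  have hU : Subgroup.centralizer ((Cfsg.puigSubgroup R : Subgroup R) : Set R) ≤ Cfsg.puigSubgroup R := by
    rw [← hup]; exact hseq _ (by omega)
  have hne : ∀ K : Subgroup R, Subgroup.centralizer (K : Set R) ≤ K → K ≠ ⊥ := by
    rintro K hK rfl
    have h1 : (⊤ : Subgroup R) ≤ ⊥ := by
      intro x _
      apply hK
      rw [Subgroup.mem_centralizer_iff]
      intro y hy
      have hy' : y = 1 := hy
      rw [hy']; simp
    exact top_ne_bot (le_bot_iff.1 h1)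
  exact ⟨fun i hi => ⟨Subgroup.center_le_centralizer _, hseq i hi⟩,
    ⟨Subgroup.center_le_centralizer _, hL⟩, ⟨Subgroup.center_le_centralizer _, hU⟩, hne _ hU, hne _ hL⟩

end Cfsg.Agent.S1466
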