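import Cfsg.Statements.S1473
import Cfsg.Agent.Lib_helper5_CN
import Cfsg.Agent.Lib_helper7_PSolv3

set_option autoImplicit false
open Cfsg

namespace Cfsg.Agent.S1473

open Subgroup Cfsg.Agent.H5.CN
open scoped commutatorElement

universe u

theorem cn_of_mulEquiv {G G' : Type*} [Group G] [Group G'] (e : G ≃* G') (h : Cfsg.IsCNGroup G) :
    Cfsg.IsCNGroup G' := by
  intro g' hg'
  have h1 : e.symm g' ≠ 1 := by
    intro h2
    apply hg'
    have := congrArg e h2
    simpa using this
  have h2 := nilpotent_map e.toMonoidHom (h _ h1)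
  apply nilpotent_of_le h2
  intro x hx
  rw [mem_centralizer_singleton_iff] at hx
  refine ⟨e.symm x, ?_, by simp⟩
  rw [SetLike.mem_coe, mem_centralizer_singleton_iff, ← map_mul, ← map_mul, hx]

/-- the case of an element of prime order `r ≠ p` -/
theorem caseA {G : Type*} [Group G] [Finite G] (hCN : Cfsg.IsCNGroup G) {p r : ℕ} [Fact p.Prime]
    [Fact r.Prime] (hrp : r ≠ p) (N : Subgroup G) [N.Normal] (hNp : IsPGroup p N)
    (wb : G ⧸ N) (hwb : orderOf wb = r) : Group.IsNilpotent (centralizer ({wb} : Set (G ⧸ N))) := by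
  have hr : r.Prime := Fact.out
  have hp : p.Prime := Fact.out
  obtain ⟨w, rfl⟩ := QuotientGroup.mk'_surjective N wb
  obtain ⟨a, ha, b, hb, hab, ⟨k, hk⟩, hcop⟩ := Cfsg.Agent.H1.exists_p_decomposition r w
  have hb1 : QuotientGroup.mk' N b = 1 := by
    rw [← orderOf_eq_one_iff]
    have h1 : orderOf (QuotientGroup.mk' N b) ∣ orderOf b := orderOf_map_dvd _ _
    have h2 : orderOf (QuotientGroup.mk' N b) ∣ r := by
      obtain ⟨n, rfl⟩ := mem_zpowers_iff.1 hb
      rw [map_zpow, ← hwb]
      exact orderOf_dvd_of_mem_zpowers (zpow_mem (mem_zpowers _) _)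
    exact Nat.eq_one_of_dvd_coprimes hcop h1 h2
  have haw : QuotientGroup.mk' N a = QuotientGroup.mk' N w := by
    rw [hab, map_mul, hb1, mul_one]
  have ha1 : a ≠ 1 := by
    rintro rfl
    rw [map_one] at haw
    rw [← haw, orderOf_one] at hwb
    exact hr.one_lt.ne hwb
  have hNr : (Nat.card N).Coprime r := by
    obtain ⟨n, hn⟩ := hNp.exists_card_eq
    rw [hn]
    exact Nat.Coprime.pow_left n ((Nat.coprime_primes hp hr).2 hrp.symm)
  apply nilpotent_of_le (nilpotent_map (QuotientGroup.mk' N) (hCN a ha1))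
  intro q hq
  have hq' : q ∈ centralizer (((zpowers a).map (QuotientGroup.mk' N) : Subgroup (G ⧸ N)) :
      Set (G ⧸ N)) := by
    rw [MonoidHom.map_zpowers, haw, zpowers_eq_closure, centralizer_closure]
    exact hq
  obtain ⟨x, hx, hxq⟩ := Cfsg.Agent.H7.exists_lift_centralizer N hNr (isPGroup_zpowers hk) hq'
  refine ⟨x, ?_, hxq⟩
  rw [SetLike.mem_coe, mem_centralizer_singleton_iff]
  exact (mem_centralizer_iff.1 hx a (mem_zpowers a)).symm

/-- the case of an element of order `p` -/
theorem caseB {G : Type*} [Group G] [Finite G] (hCN : Cfsg.IsCNGroup G) {p : ℕ} [Fact p.Prime]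
    (N : Subgroup G) [N.Normal] (hNp : IsPGroup p N) (hNc : ∀ a ∈ N, ∀ b ∈ N, a * b = b * a)
    (hN1 : N ≠ ⊥) (wb : G ⧸ N) (hwb : orderOf wb = p) :
    Group.IsNilpotent (centralizer ({wb} : Set (G ⧸ N))) := by
  have hp : p.Prime := Fact.out
  obtain ⟨w, rfl⟩ := QuotientGroup.mk'_surjective N wb
  set f := QuotientGroup.mk' N with hf
  have hf1 : ∀ n : G, f n = 1 ↔ n ∈ N := fun n => QuotientGroup.eq_one_iff n
  have hwN : w ∉ N := by
    intro h
    rw [(hf1 w).2 h, orderOf_one] at hwb
    exact hp.one_lt.ne hwb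
  obtain ⟨k₀, hk₀⟩ : ∃ k, w ^ p ^ k = 1 := by
    have h1 : w ^ p ∈ N := by
      rw [← hf1, map_pow, ← hwb, pow_orderOf_eq_one]
    obtain ⟨j, hj⟩ := hNp ⟨w ^ p, h1⟩
    refine ⟨j + 1, ?_⟩
    have h2 : (w ^ p) ^ p ^ j = 1 := congrArg Subtype.val hj
    rw [pow_succ', pow_mul]; exact h2
  set X : Subgroup G := N ⊔ zpowers w with hX
  have hXp : IsPGroup p X := hNp.to_sup_of_normal_left (isPGroup_zpowers hk₀)
  set K : Subgroup G := (centralizer ({f w} : Set (G ⧸ N))).comap f with hK
  have hNK : N ≤ K := by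
    intro n hn
    rw [hK, mem_comap, (hf1 n).2 hn]
    exact one_mem _
  have hXmap : ∀ x ∈ X, f x ∈ zpowers (f w) := by
    intro x hx
    have h1 : X.map f = zpowers (f w) := by
      rw [hX, Subgroup.map_sup, MonoidHom.map_zpowers]
      have h2 : N.map f = ⊥ := QuotientGroup.map_mk'_self N
      rw [h2, bot_sup_eq]
    rw [← h1]; exact mem_map_of_mem f hx
  have hcomm : ∀ x ∈ X, ∀ k ∈ K, ⁅x, k⁆ ∈ N := by
    intro x hx k hk
    rw [← hf1, map_commutatorElement, commutatorElement_eq_one_iff_commute]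
    obtain ⟨n, hn⟩ := mem_zpowers_iff.1 (hXmap x hx)
    rw [← hn]
    have h1 : Commute (f w) (f k) := (mem_centralizer_singleton_iff.1 hk).symm
    exact h1.zpow_left n
  have hconj : ∀ k ∈ K, ∀ x ∈ X, k * x * k⁻¹ ∈ X := by
    intro k hk x hx
    have h1 : k * x * k⁻¹ = (⁅x, k⁆)⁻¹ * x := by
      rw [commutatorElement_def]; group
    rw [h1]
    exact X.mul_mem (X.inv_mem ((le_sup_left : N ≤ X) (hcomm x hx k hk))) hx
  have hKX : K ≤ normalizer (X : Set G) := by
    intro k hk
    rw [mem_normalizer_iff]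
    intro x
    refine ⟨hconj k hk x, fun h => ?_⟩
    have h1 := hconj k⁻¹ (K.inv_mem hk) _ h
    have h2 : k⁻¹ * (k * x * k⁻¹) * k⁻¹⁻¹ = x := by group
    rwa [h2] at h1
  have hNtop : ∀ T : Subgroup G, T ≤ normalizer (N : Set G) := by
    intro T
    rw [normalizer_eq_top]; exact le_top
  have hi : ∀ y ∈ K, (orderOf y).Coprime p → ∀ n ∈ N, Commute n y := by
    intro y hy hyc n hn
    obtain ⟨m, hm⟩ := hXp.exists_card_eq
    have hAK : zpowers y ≤ normalizer (X : Set G) := (zpowers_le.2 hy).trans hKX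
    obtain ⟨d, hd, c, hc, hwdc⟩ := Cfsg.Agent.H1.coprime_exists_mul (zpowers y) X hAK
      (by rw [Nat.card_zpowers, hm]; exact Nat.Coprime.pow_right m hyc) (Or.inl inferInstance) w
      (mem_sup_right (mem_zpowers w))
    have hdN : d ∈ N := by
      have h1 : ⁅X, zpowers y⁆ ≤ N := by
        rw [commutator_le]
        intro x hx a ha
        exact hcomm x hx a (zpowers_le.2 hy ha)
      exact h1 hd
    have hcN : c ∉ N := by
      intro h
      exact hwN (hwdc ▸ N.mul_mem hdN h)
    have hc1 : c ≠ 1 := fun h => hcN (h ▸ N.one_mem)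
    obtain ⟨hcX, hcy⟩ := mem_inf.1 hc
    have hcy' : y * c = c * y := mem_centralizer_iff.1 hcy y (mem_zpowers y)
    obtain ⟨n₀, hn₀, hn₀o, hn₀c⟩ := Cfsg.Agent.H5.exists_central_orderOf_eq hXp
      (le_sup_left : N ≤ X) (hNtop X) hN1
    have hn₀1 : n₀ ≠ 1 := by
      rintro rfl
      rw [orderOf_one] at hn₀o
      exact hp.one_lt.ne hn₀o
    have h1 : Commute n₀ y := commute_of_nilpotent (hCN c hc1) (x := n₀) (y := y)
      (mem_centralizer_singleton_iff.2 (hn₀c c hcX).symm)
      (mem_centralizer_singleton_iff.2 hcy') (k := 1)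
      (by rw [pow_one, ← hn₀o]; exact pow_orderOf_eq_one _) hyc
    obtain ⟨j, hj⟩ := hNp ⟨n, hn⟩
    have hj' : n ^ p ^ j = 1 := congrArg Subtype.val hj
    exact commute_of_nilpotent (hCN n₀ hn₀1) (mem_centralizer_singleton_iff.2 (hNc n hn n₀ hn₀))
      (mem_centralizer_singleton_iff.2 h1.symm.eq) hj' hyc
  obtain ⟨P, hP⟩ := (hNp.comap_subtype (K := K)).exists_le_sylow
  set P' := (P : Subgroup K).map K.subtype with hP'
  have hP'p : IsPGroup p P' := P.2.map _
  have hNP' : N ≤ P' := fun n hn => ⟨⟨n, hNK hn⟩, hP (mem_subgroupOf.2 hn), rfl⟩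
  obtain ⟨n₁, hn₁, hn₁o, hn₁c⟩ := Cfsg.Agent.H5.exists_central_orderOf_eq hP'p hNP' (hNtop P') hN1
  have hn₁1 : n₁ ≠ 1 := by
    rintro rfl
    rw [orderOf_one] at hn₁o
    exact hp.one_lt.ne hn₁o
  have hKM : K ≤ centralizer ({n₁} : Set G) := by
    rw [← subgroupOf_eq_top, ← index_eq_one]
    by_contra hne
    obtain ⟨q, hq, hqd⟩ := Nat.exists_prime_and_dvd hne
    have : Fact q.Prime := ⟨hq⟩
    by_cases hqp : q = p
    · subst hqp
      have h1 : (P : Subgroup K) ≤ (centralizer ({n₁} : Set G)).subgroupOf K := by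
        intro t ht
        rw [mem_subgroupOf, mem_centralizer_singleton_iff]
        exact hn₁c t ⟨t, ht, rfl⟩
      exact P.not_dvd_index (hqd.trans (index_dvd_of_le h1))
    · obtain ⟨S⟩ : Nonempty (Sylow q K) := inferInstance
      have h1 : (S : Subgroup K) ≤ (centralizer ({n₁} : Set G)).subgroupOf K := by
        intro t ht
        rw [mem_subgroupOf, mem_centralizer_singleton_iff]
        obtain ⟨j, hj⟩ := S.2 ⟨t, ht⟩
        have hto : (orderOf (t : G)).Coprime p := by
          have h2 : (t : G) ^ q ^ j = 1 := congrArg (fun z : (S : Subgroup K) => ((z : K) : G)) hj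
          have h3 := orderOf_dvd_of_pow_eq_one h2
          exact Nat.Coprime.coprime_dvd_left h3
            (Nat.Coprime.pow_left j ((Nat.coprime_primes hq hp).2 hqp))
        exact (hi t t.2 hto n₁ hn₁).symm.eq
      exact S.not_dvd_index (hqd.trans (index_dvd_of_le h1))
  have hKnil := nilpotent_of_le (hCN n₁ hn₁1) hKM
  have h3 := nilpotent_map f hKnil
  rwa [hK, map_comap_eq_self_of_surjective (QuotientGroup.mk'_surjective N)] at h3

theorem cn_quotient_pgroup {G : Type*} [Group G] [Finite G] (hCN : Cfsg.IsCNGroup G) {p : ℕ}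
    [Fact p.Prime] (N : Subgroup G) [N.Normal] (hNp : IsPGroup p N)
    (hNc : ∀ a ∈ N, ∀ b ∈ N, a * b = b * a) (hN1 : N ≠ ⊥) : Cfsg.IsCNGroup (G ⧸ N) := by
  intro xb hxb
  have ho : orderOf xb ≠ 1 := fun h => hxb (orderOf_eq_one_iff.1 h)
  obtain ⟨r, hr, hrd⟩ := Nat.exists_prime_and_dvd ho
  have : Fact r.Prime := ⟨hr⟩
  set wb := xb ^ (orderOf xb / r) with hwb
  have hwo : orderOf wb = r := orderOf_pow_orderOf_div (orderOf_pos xb).ne' hrd
  have hle : centralizer ({xb} : Set (G ⧸ N)) ≤ centralizer ({wb} : Set (G ⧸ N)) := by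
    intro g hg
    rw [mem_centralizer_singleton_iff] at hg ⊢
    have h1 : Commute g xb := hg
    exact (h1.pow_right _).eq
  apply nilpotent_of_le _ hle
  by_cases hrp : r = p
  · subst hrp
    exact caseB hCN N hNp hNc hN1 wb hwo
  · exact caseA hCN hrp N hNp wb hwo

theorem main : ∀ (n : ℕ) (G : Type u) [Group G] [Finite G], Cfsg.IsCNGroup G →
    ∀ (H : Subgroup G) [H.Normal], Group.IsSolvable H → Nat.card G ≤ n →
    Cfsg.IsCNGroup (G ⧸ H) := by
  intro n
  induction n with
  | zero =>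
    intro G _ _ _ H _ _ hn
    exact absurd hn (by have := Nat.card_pos (α := G); omega)
  | succ n ih =>
    intro G _ _ hCN H _ hH hn
    by_cases hH1 : H = ⊥
    · subst hH1
      exact cn_of_mulEquiv (QuotientGroup.quotientBot (G := G)).symm hCN
    · have : Nontrivial H := (Subgroup.nontrivial_iff_ne_bot H).2 hH1
      obtain ⟨p, hp, P, hPc, hPp, hPbot, hPcomm⟩ :=
        Cfsg.Agent.H1.exists_normal_pgroup_of_solvable H
      have : Fact p.Prime := ⟨hp⟩
      set N : Subgroup G := P.map H.subtype with hN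
      have hNn : N.Normal := ConjAct.normal_of_characteristic_of_normal
      have hNH : N ≤ H := map_subtype_le _
      have hNp : IsPGroup p N := hPp.map _
      have hN1 : N ≠ ⊥ := by
        intro h
        apply hPbot
        rw [hN, map_eq_bot_iff_of_injective _ H.subtype_injective] at h
        exact h
      have hNc : ∀ a ∈ N, ∀ b ∈ N, a * b = b * a := by
        rintro _ ⟨a, ha, rfl⟩ _ ⟨b, hb, rfl⟩
        have h1 : (⟨a, ha⟩ : P) * ⟨b, hb⟩ = ⟨b, hb⟩ * ⟨a, ha⟩ := mul_comm' _ _
        have h2 : a * b = b * a := congrArg Subtype.val h1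
        rw [← map_mul, ← map_mul, h2]
      have hCN1 := cn_quotient_pgroup hCN N hNp hNc hN1
      have hcard : Nat.card (G ⧸ N) ≤ n := by
        have h1 := Subgroup.card_eq_card_quotient_mul_card_subgroup N
        have h2 : 1 < Nat.card N := by
          rw [Subgroup.one_lt_card_iff_ne_bot]; exact hN1
        have h3 : 0 < Nat.card (G ⧸ N) := Nat.card_pos
        nlinarith
      have hHn : (H.map (QuotientGroup.mk' N)).Normal :=
        Subgroup.Normal.map inferInstance _ (QuotientGroup.mk'_surjective N)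
      have hHs : Group.IsSolvable (H.map (QuotientGroup.mk' N)) :=
        Group.isSolvable_of_surjective (f := (QuotientGroup.mk' N).subgroupMap H)
          ((QuotientGroup.mk' N).subgroupMap_surjective H)
      have h4 := ih (G ⧸ N) hCN1 (H.map (QuotientGroup.mk' N)) hHs hcard
      exact cn_of_mulEquiv (QuotientGroup.quotientQuotientEquivQuotient N H hNH) h4

/-- Let G be a finite group in which the centralizer of every non-identity element is nilpotent, and H a solvable normal subgroup of G. Then in G/H the centralizer of every non-identity element is nilpotent. -/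
theorem result {G : Type*} [Group G] [Finite G] (hCN : Cfsg.IsCNGroup G) (H : Subgroup G) [H.Normal] (hH : Group.IsSolvable H) :
    Cfsg.IsCNGroup (G ⧸ H) := by
  exact main _ G hCN H hH le_rfl

end Cfsg.Agent.S1473
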