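import Cfsg.Statements.S1475
import Cfsg.Agent.Lib_helper7_Gen2
import Cfsg.Agent.Lib_helper1_Hall
import Cfsg.Agent.Lib_helper7_Sylow

set_option autoImplicit false
open Cfsg

namespace Cfsg.Agent.S1475

open Subgroup Cfsg.Agent.H7

theorem key {V : Type*} [CommGroup V] [Finite V] {F : Type*} [Group F] (ρ : F →* MulAut V)
    (R : Subgroup F) [Finite R] (y : F) (s : ℕ) (hs0 : 0 < s) (hs : y ^ s = 1)
    (hyR : y ∈ normalizer (R : Set F))
    (hCR : ∀ i, 0 < i → i < s → ∀ x ∈ R, x * y ^ i = y ^ i * x → x = 1)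
    (hfy : ∀ v, ρ y v = v → v = 1)
    (hfR : ∀ v, (∀ x ∈ R, ρ x v = v) → v = 1)
    (hcop : (Nat.card R).Coprime (Nat.card V)) (v : V) : v = 1 := by
  classical
  haveI := Fintype.ofFinite R
  have hA : ∀ x : R, ∏ i ∈ Finset.range s, ρ ((x : F) * y ^ i * (x : F)⁻¹) v = 1 := by
    intro x
    have h1 : ∀ i, ρ ((x : F) * y ^ i * (x : F)⁻¹) v =
        ρ (x : F) (((ρ y) ^ i) (ρ (x : F)⁻¹ v)) := by
      intro i
      rw [map_mul, map_mul, map_pow]
      rfl
    simp only [h1]
    rw [← map_prod]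
    set w := ρ (x : F)⁻¹ v with hw
    have hc : (ρ y) ^ s = 1 := by rw [← map_pow, hs, map_one]
    have h2 : ρ y (∏ i ∈ Finset.range s, ((ρ y) ^ i) w) = ∏ i ∈ Finset.range s, ((ρ y) ^ i) w := by
      rw [map_prod]
      have e1 : ∀ k, ρ y (((ρ y) ^ k) w) = ((ρ y) ^ (k + 1)) w := by
        intro k
        rw [pow_succ']; rfl
      simp only [e1]
      have e2 := Finset.prod_range_succ' (fun k => ((ρ y) ^ k) w) s
      have e3 := Finset.prod_range_succ (fun k => ((ρ y) ^ k) w) s
      rw [e2] at e3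
      simp only [hc, pow_zero] at e3
      exact mul_right_cancel e3
    rw [hfy _ h2, map_one]
  have hB : ∀ i ∈ Finset.range s, i ≠ 0 → ∏ x : R, ρ ((x : F) * y ^ i * (x : F)⁻¹) v = 1 := by
    intro i hi hi0
    have hyi : y ^ i ∈ normalizer (R : Set F) := pow_mem hyR i
    let φ : R → R := fun x => ⟨(x : F) * (y ^ i * (x : F)⁻¹ * (y ^ i)⁻¹),
      mul_mem x.2 ((mem_normalizer_iff.mp hyi _).mp (inv_mem x.2))⟩
    have hφ : Function.Injective φ := by
      intro a b hab
      have h1 : (a : F) * (y ^ i * (a : F)⁻¹ * (y ^ i)⁻¹) = (b : F) * (y ^ i * (b : F)⁻¹ * (y ^ i)⁻¹) :=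
        congrArg Subtype.val hab
      have h2 : ((b : F)⁻¹ * a) * y ^ i = y ^ i * ((b : F)⁻¹ * a) := by
        have e1 : (b : F)⁻¹ * a * y ^ i =
            (b : F)⁻¹ * ((a : F) * (y ^ i * (a : F)⁻¹ * (y ^ i)⁻¹)) * y ^ i * a := by group
        rw [e1, h1]
        group
      have h3 := hCR i (Nat.pos_of_ne_zero hi0) (Finset.mem_range.mp hi) _
        (mul_mem (inv_mem b.2) a.2) h2
      exact Subtype.ext (inv_mul_eq_one.mp h3).symm
    have hφb : Function.Bijective φ := Finite.injective_iff_bijective.mp hφ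
    have h1 : ∀ x : R, ρ ((x : F) * y ^ i * (x : F)⁻¹) v = ρ ((φ x : R) : F) (ρ (y ^ i) v) := by
      intro x
      rw [← MulAut.mul_apply, ← map_mul]
      congr 2
      change _ = (x : F) * (y ^ i * (x : F)⁻¹ * (y ^ i)⁻¹) * y ^ i
      group
    simp only [h1]
    rw [hφb.prod_comp (fun x : R => ρ (x : F) (ρ (y ^ i) v))]
    apply hfR
    intro x₀ hx₀
    rw [map_prod]
    have h2 : ∀ x : R, ρ x₀ (ρ (x : F) (ρ (y ^ i) v)) =
        ρ (((⟨x₀, hx₀⟩ : R) * x : R) : F) (ρ (y ^ i) v) := by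
      intro x
      rw [← MulAut.mul_apply, ← map_mul]
      rfl
    simp only [h2]
    exact (Group.mulLeft_bijective (⟨x₀, hx₀⟩ : R)).prod_comp (fun x : R => ρ (x : F) (ρ (y ^ i) v))
  have hC : ∏ x : R, ∏ i ∈ Finset.range s, ρ ((x : F) * y ^ i * (x : F)⁻¹) v = 1 :=
    Finset.prod_eq_one (fun x _ => hA x)
  rw [Finset.prod_comm, Finset.prod_eq_single 0 hB
    (fun h => absurd (Finset.mem_range.mpr hs0) h)] at hC
  simp only [pow_zero, mul_one, mul_inv_cancel, map_one, MulAut.one_apply, Finset.prod_const,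
    Finset.card_univ] at hC
  rw [← Nat.card_eq_fintype_card] at hC
  rw [← orderOf_eq_one_iff]
  exact Nat.eq_one_of_dvd_coprimes hcop (orderOf_dvd_of_pow_eq_one hC) (orderOf_dvd_natCard v)

theorem eppo_comm {G : Type*} [Group G] [Finite G] (h : ∀ g : G, IsPrimePow (orderOf g) ∨ g = 1)
    {a b : G} (hab : Commute a b) (hcop : (orderOf a).Coprime (orderOf b)) : a = 1 ∨ b = 1 := by
  have ho := hab.orderOf_mul_eq_mul_orderOf_of_coprime hcop
  rcases h (a * b) with h1 | h1
  · rw [ho] at h1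
    rcases (hcop.isPrimePow_dvd_mul h1).mp dvd_rfl with h2 | h2
    · right
      rw [← orderOf_eq_one_iff]
      have := Nat.le_of_dvd (orderOf_pos a) h2
      have hb := orderOf_pos b
      have ha := orderOf_pos a
      nlinarith
    · left
      rw [← orderOf_eq_one_iff]
      have := Nat.le_of_dvd (orderOf_pos b) h2
      have hb := orderOf_pos b
      have ha := orderOf_pos a
      nlinarith
  · left
    rw [h1, orderOf_one] at ho
    rw [← orderOf_eq_one_iff]
    exact Nat.eq_one_of_mul_eq_one_right ho.symm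

/-- Let G be a finite solvable group such that the order of every element is a prime power (1 included). Then at most two distinct primes divide the order of G. -/
theorem result {G : Type*} [Group G] [Finite G] [Group.IsSolvable G] (h : ∀ g : G, IsPrimePow (orderOf g) ∨ g = 1) :
    (Nat.card G).primeFactors.card ≤ 2 := by
  classical
  by_contra hcon
  push Not at hcon
  haveI : Nontrivial G := by
    by_contra hnt
    rw [not_nontrivial_iff_subsingleton] at hnt
    have : Nat.card G = 1 := Nat.card_of_subsingleton 1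
    rw [this] at hcon
    simp at hcon
  obtain ⟨p, hp, N, hNc, hNp, hNne, hNcomm⟩ := Cfsg.Agent.H1.exists_normal_pgroup_of_solvable G
  haveI : Fact p.Prime := ⟨hp⟩
  haveI hNn : N.Normal := inferInstance
  obtain ⟨a, m, hm, hG⟩ := Nat.exists_eq_pow_mul_and_not_dvd (Nat.card_pos (α := G)).ne' p hp.ne_one
  have hmp : m.Coprime p := ((Nat.Prime.coprime_iff_not_dvd hp).mpr hm).symm
  have hm0 : m ≠ 0 := by
    rintro rfl
    exact hm (dvd_zero p)
  obtain ⟨K, hK, -⟩ := (Cfsg.Agent.H1.hall_aux _ G m (p ^ a) rfl (by rw [hG, mul_comm])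
    (Nat.Coprime.pow_right a hmp)).1 ⊥ (by simp)
  have hpf : 2 ≤ m.primeFactors.card := by
    have h1 : (Nat.card G).primeFactors ⊆ insert p m.primeFactors := by
      rw [hG]
      intro q hq
      rw [Nat.mem_primeFactors] at hq
      obtain ⟨hq1, hq2, _⟩ := hq
      rcases (Nat.Prime.dvd_mul hq1).mp hq2 with h | h
      · have := (Nat.prime_dvd_prime_iff_eq hq1 hp).mp (hq1.dvd_of_dvd_pow h)
        simp [this]
      · apply Finset.mem_insert_of_mem
        rw [Nat.mem_primeFactors]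
        exact ⟨hq1, h, hm0⟩
    have h2 := Finset.card_le_card h1
    have h3 := Finset.card_insert_le p m.primeFactors
    omega
  haveI : Nontrivial K := by
    rw [← Finite.one_lt_card_iff_nontrivial, hK]
    by_contra hle
    have : m = 1 := by omega
    rw [this] at hpf
    simp at hpf
  obtain ⟨r, hr, R', hR'c, hR'p, hR'ne, -⟩ := Cfsg.Agent.H1.exists_normal_pgroup_of_solvable ↥K
  haveI : Fact r.Prime := ⟨hr⟩
  haveI hR'n : R'.Normal := inferInstance
  obtain ⟨s, hs, hsr⟩ : ∃ s ∈ m.primeFactors, s ≠ r := by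
    by_contra hno
    push Not at hno
    have h1 : m.primeFactors ⊆ {r} := fun q hq => Finset.mem_singleton.mpr (hno q hq)
    have h2 := Finset.card_le_card h1
    simp at h2
    omega
  have hsP : s.Prime := (Nat.mem_primeFactors.mp hs).1
  haveI : Fact s.Prime := ⟨hsP⟩
  have hsm : s ∣ m := (Nat.mem_primeFactors.mp hs).2.1
  have hsp : s ≠ p := by
    rintro rfl
    exact hm hsm
  have hrp : r ≠ p := by
    rintro rfl
    apply hm
    rw [← hK]
    obtain ⟨k, hk⟩ := IsPGroup.iff_card.mp hR'p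
    have hk0 : k ≠ 0 := by
      rintro rfl
      exact hR'ne (card_eq_one.mp (by simpa using hk))
    exact (dvd_pow_self r hk0).trans (hk ▸ card_subgroup_dvd_card R')
  obtain ⟨y', hy'⟩ := exists_prime_orderOf_dvd_card' (G := ↥K) s (hK ▸ hsm)
  set y : G := (y' : G) with hy
  have hyo : orderOf y = s := by rw [hy, Subgroup.orderOf_coe, hy']
  set R := R'.map K.subtype with hR
  have hRord : ∀ x ∈ R, ∃ k, orderOf x ∣ r ^ k := by
    rintro _ ⟨x, hx, rfl⟩
    obtain ⟨k, hk⟩ := hR'p ⟨x, hx⟩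
    refine ⟨k, orderOf_dvd_of_pow_eq_one ?_⟩
    have h1 : x ^ r ^ k = 1 := congrArg Subtype.val hk
    exact congrArg Subtype.val h1
  letI : CommGroup N := { (inferInstance : Group N) with mul_comm := hNcomm.is_comm.comm }
  have hfix : ∀ g : G, g ≠ 1 → (orderOf g).Coprime p → ∀ v : N, MulAut.conjNormal g v = v → v = 1 := by
    intro g hg hgp v hv
    have h1 : g * (v : G) * g⁻¹ = v := by
      have := congrArg Subtype.val hv
      rwa [MulAut.conjNormal_apply] at this
    have h2 : Commute g (v : G) := mul_inv_eq_iff_eq_mul.mp h1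
    obtain ⟨k, hk⟩ := hNp v
    have h3 : orderOf (v : G) ∣ p ^ k := by
      rw [Subgroup.orderOf_coe]
      exact orderOf_dvd_of_pow_eq_one hk
    rcases eppo_comm h h2 (Nat.Coprime.coprime_dvd_right h3 (Nat.Coprime.pow_right k hgp)) with h4 | h4
    · exact absurd h4 hg
    · exact Subtype.ext h4
  have hy1 : y ≠ 1 := by
    intro h1
    rw [h1, orderOf_one] at hyo
    exact hsP.one_lt.ne hyo
  obtain ⟨⟨x₀', hx₀'⟩, hx₀1'⟩ := Subgroup.ne_bot_iff_exists_ne_one.mp hR'ne
  have hx₀R : (x₀' : G) ∈ R := ⟨x₀', hx₀', rfl⟩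
  have hx₀1 : (x₀' : G) ≠ 1 := fun h1 => hx₀1' (Subtype.ext (Subtype.ext h1))
  apply hNne
  rw [eq_bot_iff]
  intro v hv
  rw [mem_bot]
  have := key (V := ↥N) (MulAut.conjNormal : G →* MulAut N) R y s hsP.pos
    (by rw [← hyo]; exact pow_orderOf_eq_one y)
    (by
      rw [← map_conj_eq_self_iff]
      apply eq_of_le_of_card_ge _ (by rw [card_map_conj])
      rw [map_conj_le_iff]
      rintro _ ⟨x, hx, rfl⟩
      exact ⟨y' * x * y'⁻¹, hR'n.conj_mem x hx y', rfl⟩)
    (by
      intro i hi0 his x hx hcomm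
      obtain ⟨k, hk⟩ := hRord x hx
      have ho : orderOf (y ^ i) ∣ s := by
        rw [← hyo]
        exact orderOf_pow_dvd i
      rcases eppo_comm h (show Commute x (y ^ i) from hcomm)
        (Nat.Coprime.coprime_dvd_left hk (Nat.Coprime.coprime_dvd_right ho
          (Nat.Coprime.pow_left k ((Nat.coprime_primes hr hsP).mpr hsr.symm)))) with h4 | h4
      · exact h4
      · exfalso
        have := orderOf_dvd_of_pow_eq_one h4
        rw [hyo] at this
        exact absurd (Nat.le_of_dvd hi0 this) (not_le.mpr his))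
    (hfix y hy1 (by rw [hyo]; exact (Nat.coprime_primes hsP hp).mpr hsp))
    (by
      intro w hw
      obtain ⟨k, hk⟩ := hRord _ hx₀R
      exact hfix _ hx₀1 (Nat.Coprime.coprime_dvd_left hk
        (Nat.Coprime.pow_left k ((Nat.coprime_primes hr hp).mpr hrp))) w (hw _ hx₀R))
    (by
      obtain ⟨k, hk⟩ := IsPGroup.iff_card.mp hR'p
      obtain ⟨j, hj⟩ := IsPGroup.iff_card.mp hNp
      rw [hR, card_map_of_injective K.subtype_injective, hk, hj]
      exact Nat.Coprime.pow k j ((Nat.coprime_primes hr hp).mpr hrp))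
    ⟨v, hv⟩
  exact congrArg Subtype.val this

end Cfsg.Agent.S1475
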