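import Cfsg.Statements.S1491
import Cfsg.Agent.Lib_helper2_Proj4

set_option autoImplicit false
open Cfsg

namespace Cfsg.Agent.S1491

open Cfsg.Agent.H4

/-- Let H be a normal subgroup of the finite group G and θ an irreducible character of H with inertia group T, where T/H is abelian (commutators of T lie in H) and the index of H in T is coprime to the order of H. Then the function induced from θ is the sum of a set of exactly [T:H] irreducible characters of G, each of degree [G:T] * θ(1). -/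
theorem result {G : Type*} [Group G] [Fintype G] (H T : Subgroup G) [hN : H.Normal] (θ : H → ℂ) (hθ : Cfsg.IsIrrCharacter H θ) (hT : ∀ g : G, g ∈ T ↔ ∀ h : H, θ ⟨g * h * g⁻¹, hN.conj_mem h h.2 g⟩ = θ h) (hab : ∀ x ∈ T, ∀ y ∈ T, x * y * x⁻¹ * y⁻¹ ∈ H) (hcop : Nat.Coprime (Nat.card H) (H.relIndex T)) : ∃ C : Finset (G → ℂ), (∀ χ ∈ C, Cfsg.IsIrrCharacter G χ) ∧ C.card = H.relIndex T ∧ Cfsg.indFun H θ = ∑ χ ∈ C, χ ∧ ∀ χ ∈ C, χ 1 = (T.index : ℂ) * θ 1 := by
  classical
  have := Fintype.ofFinite T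
  have hHT : H ≤ T := by
    intro g hg
    rw [hT]
    intro h
    exact IsCharacter.isClassFunction (IsIrrCharacter.isCharacter hθ) h ⟨g, hg⟩
  have hn' : (H.subgroupOf T).Normal := hN.subgroupOf T
  set θ' : H.subgroupOf T → ℂ := fun x => θ ⟨(x : T), Subgroup.mem_subgroupOf.mp x.2⟩ with hθ'def
  have hθ' : IsIrrCharacter (H.subgroupOf T) θ' :=
    IsIrrCharacter.comp_surj (Subgroup.subgroupOfEquivOfLe hHT).toMonoidHom
      (Subgroup.subgroupOfEquivOfLe hHT).surjective hθ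
  have hinv' : ∀ (g : T) (n : H.subgroupOf T),
      θ' ⟨g * n * g⁻¹, hn'.conj_mem (n : T) n.2 g⟩ = θ' n := by
    intro g n
    exact (hT g).1 g.2 ⟨(n : T), Subgroup.mem_subgroupOf.mp n.2⟩
  have hcard : Nat.card (H.subgroupOf T) = Nat.card H :=
    Nat.card_congr (Subgroup.subgroupOfEquivOfLe hHT).toEquiv
  obtain ⟨ψ0, hψ0, hψ0N⟩ := H2.extends_of_coprime_card (H.subgroupOf T) θ' hθ' hinv' (by
    rw [hcard]; exact hcop)
  obtain ⟨e, C, he0, heC, hind, hres, hmem⟩ := ind_of_abelian_quotient (H.subgroupOf T) (by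
    intro x y
    exact Subgroup.mem_subgroupOf.mpr (hab x x.2 y y.2)) θ' hθ' (fun g => funext (hinv' g))
  have hψ0C : (⟨ψ0, hψ0⟩ : IrrCharacter T) ∈ C := by
    rw [hmem, frobenius_reciprocity _ _ _ (IsCharacter.isClassFunction (IsIrrCharacter.isCharacter hψ0))]
    have h1 : (fun n : H.subgroupOf T => ψ0 n) = θ' := funext hψ0N
    show classInner θ' (fun n : H.subgroupOf T => ψ0 n) ≠ 0
    rw [h1, IsIrrCharacter.norm_one hθ']
    exact one_ne_zero
  have hθ1 : θ' 1 = θ 1 := rfl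
  have hθne := IsIrrCharacter.apply_one_ne_zero hθ
  have he1 : e = 1 := by
    have h1 := congrFun (hres _ hψ0C) 1
    simp only [Pi.smul_apply, smul_eq_mul] at h1
    have h2 : ψ0 ((1 : H.subgroupOf T) : T) = θ' 1 := hψ0N 1
    rw [h2, hθ1] at h1
    have h3 : (e : ℂ) = 1 := (mul_right_cancel₀ hθne (by rw [one_mul]; exact h1)).symm
    exact_mod_cast h3
  subst he1
  obtain ⟨c1, c2⟩ := clifford_corr H T hN θ hθ hT hHT
  have hinj : Set.InjOn (fun ψ : IrrCharacter T => indFun T (ψ : T → ℂ)) (C : Set (IrrCharacter T)) := by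
    intro ψ hψ ψ' hψ' heq
    by_contra hne
    have h1 := c2 ψ ψ' hne ((hmem ψ).1 hψ) ((hmem ψ').1 hψ')
    have h2 : indFun T (ψ : T → ℂ) = indFun T (ψ' : T → ℂ) := heq
    rw [h2, IsIrrCharacter.norm_one (c1 ψ' ((hmem ψ').1 hψ'))] at h1
    exact one_ne_zero h1
  refine ⟨C.image (fun ψ : IrrCharacter T => indFun T (ψ : T → ℂ)), ?_, ?_, ?_, ?_⟩
  · intro χ hχ
    obtain ⟨ψ, hψ, rfl⟩ := Finset.mem_image.1 hχ
    exact c1 ψ ((hmem ψ).1 hψ)
  · rw [Finset.card_image_of_injOn hinj]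
    have h9 : C.card = (H.subgroupOf T).index := by simpa using heC
    exact h9
  · rw [Finset.sum_image hinj, ← indFun_sum, ← indFun_trans H T hHT θ, hind]
    simp
  · intro χ hχ
    obtain ⟨ψ, hψ, rfl⟩ := Finset.mem_image.1 hχ
    rw [indFun_apply_one]
    have h1 := congrFun (hres _ hψ) 1
    simp only [Pi.smul_apply, smul_eq_mul, Nat.cast_one, one_mul] at h1
    have h2 : (ψ : T → ℂ) 1 = θ 1 := h1
    rw [h2]

end Cfsg.Agent.S1491
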