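import Cfsg.Statements.S1494
import Mathlib
import Cfsg.Agent.Lib_helper4_CharL

set_option autoImplicit false
open Cfsg

namespace Cfsg.Agent.S1494

open Cfsg Cfsg.Agent.H4

theorem hom_case {A : Type*} [Group A] [Finite A] (f : A →* ℂˣ) (p : ℕ) (hp : p.Prime) (x y : A)
    (hx : x ^ p = 1) :
    ∃ ω : ℂ, IsIntegral ℤ ω ∧ ((f (x * y) : ℂˣ) : ℂ) - ((f y : ℂˣ) : ℂ)
      = (1 - Complex.exp (2 * Real.pi * Complex.I / p)) * ω := by
  set ε := Complex.exp (2 * Real.pi * Complex.I / p) with hεdef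
  have hε : IsPrimitiveRoot ε p := Complex.isPrimitiveRoot_exp p hp.ne_zero
  have hfx : ((f x : ℂˣ) : ℂ) ^ p = 1 := by
    rw [← Units.val_pow_eq_pow_val, ← map_pow, hx, map_one, Units.val_one]
  haveI : NeZero p := ⟨hp.ne_zero⟩
  obtain ⟨k, hk, hkx⟩ := hε.eq_pow_of_pow_eq_one hfx
  have hεint : IsIntegral ℤ ε :=
    IsIntegral.of_pow hp.pos (by rw [hε.pow_eq_one]; exact isIntegral_one)
  have hyint : IsIntegral ℤ ((f y : ℂˣ) : ℂ) :=
    IsIntegral.of_pow (n := Nat.card A) Nat.card_pos (by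
      rw [← Units.val_pow_eq_pow_val, ← map_pow, pow_card_eq_one', map_one, Units.val_one]
      exact isIntegral_one)
  refine ⟨-((f y : ℂˣ) : ℂ) * ∑ i ∈ Finset.range k, ε ^ i, ?_, ?_⟩
  · exact (hyint.neg).mul (IsIntegral.sum _ fun i _ => hεint.pow i)
  · rw [map_mul, Units.val_mul, ← hkx]
    have := mul_neg_geom_sum ε k
    linear_combination (((f y : ℂˣ) : ℂ)) * this

theorem char_case {G : Type*} [Group G] [Finite G] (χ : G → ℂ) (hχ : IsCharacter G χ) (p : ℕ)
    (hp : p.Prime) (x y : G) (hx : orderOf x = p) (hxy : x * y = y * x) :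
    ∃ ω : ℂ, IsIntegral ℤ ω ∧ χ (x * y) - χ y
      = (1 - Complex.exp (2 * Real.pi * Complex.I / p)) * ω := by
  classical
  set A : Subgroup G := Subgroup.closure {x, y} with hA
  have hcommA : IsMulCommutative A := Subgroup.isMulCommutative_closure (by
    intro a ha b hb
    simp only [Set.mem_insert_iff, Set.mem_singleton_iff] at ha hb
    rcases ha with rfl | rfl <;> rcases hb with rfl | rfl <;> first | rfl | exact hxy | exact hxy.symm)
  have hcomm : ∀ a b : A, a * b = b * a := fun a b => hcommA.is_comm.comm a b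
  have hxA : x ∈ A := Subgroup.subset_closure (by simp)
  have hyA : y ∈ A := Subgroup.subset_closure (by simp)
  haveI := Fintype.ofFinite A
  haveI := Fintype.ofFinite (IrrCharacter A)
  obtain ⟨m, hm⟩ := IsCharacter.exists_mult (IsCharacter.restrict A hχ)
  have hval : ∀ a : A, χ a = ∑ ψ : IrrCharacter A, (m ψ : ℂ) * (ψ : A → ℂ) a := by
    intro a
    have := congrFun hm a
    simpa [Finset.sum_apply] using this
  have hlin : ∀ ψ : IrrCharacter A, ∃ ω : ℂ, IsIntegral ℤ ω ∧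
      (ψ : A → ℂ) (⟨x, hxA⟩ * ⟨y, hyA⟩) - (ψ : A → ℂ) ⟨y, hyA⟩
        = (1 - Complex.exp (2 * Real.pi * Complex.I / p)) * ω := by
    intro ψ
    have h1 := irr_linear_of_comm hcomm ψ.2
    have := hom_case (linearHom (IsIrrCharacter.isCharacter ψ.2) h1) p hp ⟨x, hxA⟩ ⟨y, hyA⟩ (by
      ext
      simp [← hx, pow_orderOf_eq_one])
    simpa [linearHom_apply] using this
  choose w hwint hw using hlin
  refine ⟨∑ ψ : IrrCharacter A, (m ψ : ℂ) * w ψ, ?_, ?_⟩
  · refine IsIntegral.sum _ fun ψ _ => IsIntegral.mul ?_ (hwint ψ)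
    exact_mod_cast (isIntegral_algebraMap (R := ℤ) (A := ℂ) (x := (m ψ : ℤ)))
  · have e1 := hval (⟨x, hxA⟩ * ⟨y, hyA⟩)
    have e2 := hval ⟨y, hyA⟩
    simp only [Subgroup.coe_mul] at e1 e2
    rw [e1, e2, ← Finset.sum_sub_distrib, Finset.mul_sum]
    refine Finset.sum_congr rfl fun ψ _ => ?_
    rw [← mul_sub, hw ψ]
    ring

/-- Let χ be a generalized character of the finite group G, p a prime, x an element of order p and y an element commuting with x. Then χ(x * y) − χ(y) = (1 − ε) * ω for some algebraic integer ω, where ε = exp(2πi/p). -/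
theorem result {G : Type*} [Group G] [Finite G] (χ : G → ℂ) (hχ : Cfsg.IsGeneralizedCharacter G χ) (p : ℕ) (hp : p.Prime) (x y : G) (hx : orderOf x = p) (hxy : x * y = y * x) : ∃ ω : ℂ, IsIntegral ℤ ω ∧ χ (x * y) - χ y = (1 - Complex.exp (2 * Real.pi * Complex.I / p)) * ω := by
  obtain ⟨a, b, ha, hb, rfl⟩ := hχ
  obtain ⟨w1, hw1, e1⟩ := char_case a ha p hp x y hx hxy
  obtain ⟨w2, hw2, e2⟩ := char_case b hb p hp x y hx hxy
  refine ⟨w1 - w2, hw1.sub hw2, ?_⟩
  simp only [Pi.sub_apply]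
  linear_combination e1 - e2

end Cfsg.Agent.S1494
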