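import Cfsg.Statements.S1495
import Mathlib
import Cfsg.Agent.Lib_helper4_BlkL

set_option autoImplicit false
open Cfsg

namespace Cfsg.Agent.S1495

open Cfsg.Agent.H4


/-- Let p be a prime, ε = exp(2πi/p), and n an integer such that n = (1 − ε) * ω for some algebraic integer ω. Then p divides n. -/
theorem result (p : ℕ) (hp : p.Prime) (n : ℤ) (ω : ℂ) (hω : IsIntegral ℤ ω) (h : (n : ℂ) = (1 - Complex.exp (2 * Real.pi * Complex.I / p)) * ω) : (p : ℤ) ∣ n := by
  obtain ⟨M, hM⟩ := exists_pModular hp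
  have hp0 : (p : ℂ) ≠ 0 := by exact_mod_cast hp.ne_zero
  have h1 : (Complex.exp (2 * Real.pi * Complex.I / p)) ^ (p ^ 1) = 1 := by
    rw [pow_one, ← Complex.exp_nat_mul]
    rw [mul_div_cancel₀ _ hp0]
    exact Complex.exp_two_pi_mul_I
  have h2 := MemLocalIdeal.neg (root_sub_one_mem hM h1)
  rw [neg_sub] at h2
  have h3 := MemLocalIdeal.mul_right hM h2 (memLocalRing_of_isIntegral hM hω)
  rw [← h, memLocalIdeal_intCast_iff hM] at h3
  exact h3

end Cfsg.Agent.S1495
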