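import Cfsg.Statements.S1496
import Mathlib
import Cfsg.Agent.Lib_lead_Pf1

set_option autoImplicit false
open Cfsg

namespace Cfsg.Agent.S1496

open Cfsg.Agent.H4 Cfsg.Agent.LeadBr


/-- Let H be a subgroup of the finite group G and g an element normalising H whose order is coprime to the order of H. Then for every h ∈ H there are x ∈ H and c ∈ H commuting with g such that x * (h * g) * x⁻¹ = c * g. -/
theorem result {G : Type*} [Group G] [Finite G] (H : Subgroup G) (g : G) (hg : g ∈ Subgroup.normalizer (H : Set G)) (hcop : Nat.Coprime (orderOf g) (Nat.card H)) (h : G) (hh : h ∈ H) : ∃ x ∈ H, ∃ c ∈ H, c * g = g * c ∧ x * (h * g) * x⁻¹ = c * g := by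
  classical
  have hA : Subgroup.zpowers g ≤ Subgroup.normalizer (H : Set G) := Subgroup.zpowers_le.mpr hg
  have hcyc : IsCyclic (Subgroup.zpowers g) := inferInstance
  have hpow : ∀ n : ℕ, ∃ k ∈ H, k * g ^ n = (h * g) ^ n := by
    intro n
    induction n with
    | zero => exact ⟨1, H.one_mem, by simp⟩
    | succ n ih =>
      obtain ⟨k, hk, hkn⟩ := ih
      refine ⟨k * (g ^ n * h * (g ^ n)⁻¹), H.mul_mem hk
        (H1.conj_mem_of_le_normalizer hA (Subgroup.npow_mem_zpowers g n) hh), ?_⟩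
      rw [pow_succ (h * g), ← hkn, pow_succ g]
      group
  obtain ⟨k, hk, hkS⟩ := H1.glauberman_exists (Subgroup.zpowers g) H (Subgroup.zpowers (h * g)) hA
    (by rw [Nat.card_zpowers]; exact hcop)
    (Or.inl (Group.isSolvable_of_comm (comm_of_le_cyclic hcyc le_rfl)))
    (by
      intro a ha
      obtain ⟨n, rfl⟩ := (mem_powers_iff_mem_zpowers).mpr ha
      obtain ⟨k, hk, hkn⟩ := hpow n
      refine ⟨k, hk, ?_⟩
      show k * g ^ n ∈ _
      rw [hkn]
      exact Subgroup.npow_mem_zpowers _ n)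
  have h1 : k * g * k⁻¹ ∈ Subgroup.zpowers (h * g) := by
    apply hkS
    have := Subgroup.smul_mem_pointwise_smul g (MulAut.conj k) _ (Subgroup.mem_zpowers g)
    simpa using this
  obtain ⟨j, hj⟩ := Subgroup.mem_zpowers_iff.mp h1
  have h2 : (h * g) * (k * g * k⁻¹) = (k * g * k⁻¹) * (h * g) := by
    rw [← hj]
    exact ((Commute.refl (h * g)).zpow_right j).eq
  have hgk : g * k * g⁻¹ ∈ H := H1.conj_mem_of_le_normalizer hA (Subgroup.mem_zpowers g) hk
  refine ⟨k⁻¹, H.inv_mem hk, k⁻¹ * h * (g * k * g⁻¹), H.mul_mem (H.mul_mem (H.inv_mem hk) hh) hgk,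
    ?_, by group⟩
  have h3 : (k⁻¹ * h * (g * k * g⁻¹) * g) * g = g * (k⁻¹ * h * (g * k * g⁻¹) * g) := by
    have e1 : (k⁻¹ * h * (g * k * g⁻¹) * g) * g = k⁻¹ * ((h * g) * (k * g * k⁻¹)) * k := by group
    have e2 : g * (k⁻¹ * h * (g * k * g⁻¹) * g) = k⁻¹ * ((k * g * k⁻¹) * (h * g)) * k := by group
    rw [e1, e2, h2]
  have h4 : (k⁻¹ * h * (g * k * g⁻¹) * g) * g = (g * (k⁻¹ * h * (g * k * g⁻¹))) * g := by
    rw [h3]; group
  exact mul_right_cancel h4

end Cfsg.Agent.S1496
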