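import Cfsg.Statements.S1503
import Mathlib
import Cfsg.Agent.Lib_lead_Fk3

set_option autoImplicit false
open Cfsg

namespace Cfsg.Agent.S1503

open Cfsg.Agent.H4 Cfsg.Agent.LeadBr

theorem card_hom_of_comm {W : Type*} [Group W] [Finite W] (h : ∀ a b : W, a * b = b * a) :
    Nat.card (W →* ℂˣ) = Nat.card W := by
  letI : CommGroup W := { (inferInstance : Group W) with mul_comm := h }
  exact CommGroup.card_monoidHom_of_hasEnoughRootsOfUnity W ℂ


/-- Let W₁, W₂ ≤ G with W = W₁ ⊔ W₂ and let χ an orthonormal family of irreducible characters of G up to sign, indexed by the linear characters ω of W, with χ_1 = 1, χ_ω = ω on W outside W₁ ∪ W₂, and the induction identity for (1 − φ)(1 − ψ). If θ is an irreducible character of G orthogonal to χ ω for every linear character ω of W, then θ vanishes at every element of W lying outside W₁ ∪ W₂. -/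
theorem result {G : Type*} [Group G] [Fintype G] (W₁ W₂ : Subgroup G) (hW : Cfsg.IsSelfNormalizingCyclic W₁ W₂) (χ : (↥(W₁ ⊔ W₂) →* ℂˣ) → (G → ℂ)) (hχ : Cfsg.IsCyclicTIFamily W₁ W₂ χ) (θ : G → ℂ) (hθ : Cfsg.IsIrrCharacter G θ) (horth : ∀ ω, Cfsg.classInner θ (χ ω) = 0) (w : ↥(W₁ ⊔ W₂)) (hw₁ : (w : G) ∉ W₁) (hw₂ : (w : G) ∉ W₂) : θ w = 0 := by
  classical
  haveI := Fintype.ofFinite (IrrCharacter G)
  obtain ⟨_, _, _, _, hcyc, hnorm⟩ := hW
  have hcent : Subgroup.centralizer ({(w : G)} : Set G) = W₁ ⊔ W₂ := by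
    refine Eq.trans ?_ (hnorm {(w : G)} (by
      intro x hx
      rw [Set.mem_singleton_iff.mp hx]
      exact ⟨w.2, fun h => h.elim hw₁ hw₂⟩) (Set.singleton_nonempty _))
    ext g
    rw [Subgroup.mem_centralizer_singleton_iff, Subgroup.mem_set_normalizer_iff]
    constructor
    · intro h x
      simp only [Set.mem_singleton_iff]
      constructor
      · rintro rfl
        rw [h]; group
      · intro hx
        have e : x = g⁻¹ * w * g := by rw [← hx]; group
        rw [e]
        calc g⁻¹ * (w : G) * g = g⁻¹ * ((w : G) * g) := by group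
          _ = g⁻¹ * (g * w) := by rw [h]
          _ = w := by group
    · intro h
      have h' : g * w * g⁻¹ = w := (h w).mp rfl
      calc g * (w : G) = (g * w * g⁻¹) * g := by group
        _ = w * g := by rw [h']
  have hsum := sum_normSq_irr (w : G)
  rw [hcent] at hsum
  have hcard : Nat.card (↥(W₁ ⊔ W₂) →* ℂˣ) = Nat.card ↥(W₁ ⊔ W₂) := by
    apply card_hom_of_comm
    intro a b
    haveI := hcyc
    exact (IsCyclic.commGroup (α := ↥(W₁ ⊔ W₂))).mul_comm a b
  haveI : Finite (↥(W₁ ⊔ W₂) →* ℂˣ) := Nat.finite_of_card_ne_zero (by rw [hcard]; exact Nat.card_pos.ne')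
  haveI := Fintype.ofFinite (↥(W₁ ⊔ W₂) →* ℂˣ)
  have hpm : ∀ ω, ∃ ζ : IrrCharacter G, χ ω = ζ ∨ χ ω = -(ζ : G → ℂ) := by
    intro ω
    rcases hχ.irr_or_neg ω with h | h
    · exact ⟨⟨_, h⟩, Or.inl rfl⟩
    · exact ⟨⟨_, h⟩, Or.inr (by simp)⟩
  choose ζ hζ using hpm
  have hneg : ∀ (x y : G → ℂ), Cfsg.classInner x (-y) = -Cfsg.classInner x y := by
    intro x y
    have : -y = (-1 : ℂ) • y := by simp
    rw [this, classInner_smul_right]; simp
  have hneg' : ∀ (x y : G → ℂ), Cfsg.classInner (-x) y = -Cfsg.classInner x y := by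
    intro x y
    have : -x = (-1 : ℂ) • x := by simp
    rw [this, classInner_smul_left]; simp
  have hnormSq : ∀ ω, Complex.normSq ((ζ ω : G → ℂ) w) = 1 := by
    intro ω
    have h1 : Complex.normSq (χ ω w) = 1 := by
      rw [hχ.eq_on ω w hw₁ hw₂, Complex.normSq_eq_norm_sq]
      have h2 : ((ω w : ℂˣ) : ℂ) ^ Nat.card ↥(W₁ ⊔ W₂) = 1 := by
        rw [← Units.val_pow_eq_pow_val, ← map_pow, pow_card_eq_one', map_one, Units.val_one]
      rw [Complex.norm_eq_one_of_pow_eq_one h2 Nat.card_pos.ne']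
      norm_num
    rcases hζ ω with h | h
    · rw [← h]; exact h1
    · have : (ζ ω : G → ℂ) w = - χ ω w := by rw [h]; simp
      rw [this, Complex.normSq_neg]; exact h1
  have hinj : Function.Injective ζ := by
    intro ω ω' h
    by_contra hne
    have h1 := hχ.orthonormal ω ω'
    rw [if_neg hne] at h1
    have h2 := IsIrrCharacter.norm_one (ζ ω').2
    rcases hζ ω with e1 | e1 <;> rcases hζ ω' with e2 | e2 <;> rw [e1, e2, h] at h1
    · rw [h2] at h1; exact one_ne_zero h1
    · rw [hneg, h2] at h1; norm_num at h1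
    · rw [hneg', h2] at h1; norm_num at h1
    · rw [hneg, hneg', h2] at h1; norm_num at h1
  have hθ' : (⟨θ, hθ⟩ : IrrCharacter G) ∉ Finset.univ.image ζ := by
    intro hmem
    obtain ⟨ω, _, hω⟩ := Finset.mem_image.mp hmem
    have h1 := horth ω
    have h2 := IsIrrCharacter.norm_one hθ
    have h3 : (ζ ω : G → ℂ) = θ := congrArg Subtype.val hω
    rcases hζ ω with e | e <;> rw [e, h3] at h1
    · rw [h2] at h1; exact one_ne_zero h1
    · rw [hneg, h2] at h1; norm_num at h1
  have hle : ∑ ξ ∈ insert (⟨θ, hθ⟩ : IrrCharacter G) (Finset.univ.image ζ),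
      Complex.normSq ((ξ : G → ℂ) w) ≤ ∑ ξ : IrrCharacter G, Complex.normSq ((ξ : G → ℂ) w) :=
    Finset.sum_le_sum_of_subset_of_nonneg (Finset.subset_univ _)
      (fun _ _ _ => Complex.normSq_nonneg _)
  rw [Finset.sum_insert hθ', Finset.sum_image (fun a _ b _ h => hinj h), hsum] at hle
  simp only [hnormSq, Finset.sum_const, Finset.card_univ, nsmul_eq_mul, mul_one] at hle
  rw [← Nat.card_eq_fintype_card, hcard] at hle
  have h0 : Complex.normSq (θ w) ≤ 0 := by linarith
  exact Complex.normSq_eq_zero.mp (le_antisymm h0 (Complex.normSq_nonneg _))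

end Cfsg.Agent.S1503
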