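import Cfsg.Statements.S1506
import Mathlib
import Cfsg.Agent.Lib_lead_Fk3

set_option autoImplicit false
open Cfsg

namespace Cfsg.Agent.S1506

open Cfsg.Agent.H4 Cfsg.Agent.LeadBr


/-- Let W₁, W₂ ≤ G form a self-normalising cyclic subgroup W = W₁ ⊔ W₂ and χ an orthonormal family of irreducible characters of G up to sign, indexed by the linear characters ω of W, with χ_1 = 1, χ_ω = ω on W outside W₁ ∪ W₂, and the induction identity for (1 − φ)(1 − ψ). Let θ be a class function of G vanishing at every element of W outside W₁ ∪ W₂. For linear characters φ, φ' of W trivial on W₂ and ψ, ψ' trivial on W₁, the inner products a(ω) = ⟨θ, χ ω⟩ satisfy a(φψ) + a(φ'ψ') = a(φψ') + a(φ'ψ). -/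
theorem result {G : Type*} [Group G] [Fintype G] (W₁ W₂ : Subgroup G) (hW : Cfsg.IsSelfNormalizingCyclic W₁ W₂) (χ : (↥(W₁ ⊔ W₂) →* ℂˣ) → (G → ℂ)) (hχ : Cfsg.IsCyclicTIFamily W₁ W₂ χ) (θ : G → ℂ) (hθ : Cfsg.IsClassFunction G θ) (hθV : ∀ w : ↥(W₁ ⊔ W₂), (w : G) ∉ W₁ → (w : G) ∉ W₂ → θ w = 0) (φ φ' ψ ψ' : ↥(W₁ ⊔ W₂) →* ℂˣ) (hφ₂ : ∀ w : ↥(W₁ ⊔ W₂), (w : G) ∈ W₂ → φ w = 1 ∧ φ' w = 1) (hψ₁ : ∀ w : ↥(W₁ ⊔ W₂), (w : G) ∈ W₁ → ψ w = 1 ∧ ψ' w = 1) : Cfsg.classInner θ (χ (φ * ψ)) + Cfsg.classInner θ (χ (φ' * ψ')) = Cfsg.classInner θ (χ (φ * ψ')) + Cfsg.classInner θ (χ (φ' * ψ)) := by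
  classical
  haveI := Fintype.ofFinite ↥(W₁ ⊔ W₂)
  have hE : ∀ φ ψ : ↥(W₁ ⊔ W₂) →* ℂˣ, (∀ w : ↥(W₁ ⊔ W₂), (w : G) ∈ W₂ → φ w = 1) →
      (∀ w : ↥(W₁ ⊔ W₂), (w : G) ∈ W₁ → ψ w = 1) →
      Cfsg.classInner θ (fun _ => 1) - Cfsg.classInner θ (χ φ) - Cfsg.classInner θ (χ ψ)
        + Cfsg.classInner θ (χ (φ * ψ)) = 0 := by
    intro φ ψ hφ hψ
    have hind : Cfsg.indFun (W₁ ⊔ W₂) (fun w => 1 - (φ w : ℂ) - (ψ w : ℂ) + (φ w : ℂ) * (ψ w : ℂ))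
        = (fun _ => 1) - χ φ - χ ψ + χ (φ * ψ) := by
      by_cases h1 : φ = 1
      · subst h1
        have : (fun w : ↥(W₁ ⊔ W₂) => 1 - (((1 : ↥(W₁ ⊔ W₂) →* ℂˣ) w : ℂˣ) : ℂ) - (ψ w : ℂ)
            + (((1 : ↥(W₁ ⊔ W₂) →* ℂˣ) w : ℂˣ) : ℂ) * (ψ w : ℂ)) = 0 := by
          funext w; simp
        have e1 : (1 : ↥(W₁ ⊔ W₂) →* ℂˣ) * ψ = ψ := one_mul ψ
        rw [this, indFun_zero, e1, hχ.map_one]
        funext g; simp
      by_cases h2 : ψ = 1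
      · subst h2
        have : (fun w : ↥(W₁ ⊔ W₂) => 1 - (φ w : ℂ) - (((1 : ↥(W₁ ⊔ W₂) →* ℂˣ) w : ℂˣ) : ℂ)
            + (φ w : ℂ) * (((1 : ↥(W₁ ⊔ W₂) →* ℂˣ) w : ℂˣ) : ℂ)) = 0 := by
          funext w; simp
        have e1 : φ * (1 : ↥(W₁ ⊔ W₂) →* ℂˣ) = φ := mul_one φ
        rw [this, indFun_zero, e1, hχ.map_one]
        funext g; simp
      · rw [hχ.induced_eq φ ψ h1 h2 hφ hψ]
        funext g; simp
    have h0 : Cfsg.classInner θ (Cfsg.indFun (W₁ ⊔ W₂)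
        (fun w => 1 - (φ w : ℂ) - (ψ w : ℂ) + (φ w : ℂ) * (ψ w : ℂ))) = 0 := by
      rw [← classInner_restrict_eq _ _ hθ]
      unfold Cfsg.classInner
      apply mul_eq_zero_of_right
      apply Finset.sum_eq_zero
      intro w _
      by_cases hw1 : (w : G) ∈ W₁
      · simp [hψ w hw1]
      by_cases hw2 : (w : G) ∈ W₂
      · simp [hφ w hw2]
      · simp [hθV w hw1 hw2]
    rw [hind, classInner_add_right, classInner_sub_right, classInner_sub_right] at h0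
    exact h0
  have e1 := hE φ ψ (fun w hw => (hφ₂ w hw).1) (fun w hw => (hψ₁ w hw).1)
  have e2 := hE φ' ψ' (fun w hw => (hφ₂ w hw).2) (fun w hw => (hψ₁ w hw).2)
  have e3 := hE φ ψ' (fun w hw => (hφ₂ w hw).1) (fun w hw => (hψ₁ w hw).2)
  have e4 := hE φ' ψ (fun w hw => (hφ₂ w hw).2) (fun w hw => (hψ₁ w hw).1)
  linear_combination e1 + e2 - e3 - e4

end Cfsg.Agent.S1506
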