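import Cfsg.Statements.S1512
import Mathlib
import Cfsg.Agent.Lib_lead_Pf1

set_option autoImplicit false
open Cfsg

namespace Cfsg.Agent.S1512

open Cfsg.Agent.H4 Cfsg.Agent.LeadBr


/-- Let K be a normal subgroup of the finite group L and x a non-identity element whose order is coprime to the order of K, such that K ⊓ C_L(y) = W₂ for every non-identity element y of the cyclic group generated by x. Then the number of conjugacy classes of K mapped to themselves by conjugation by x is at most Nat.card W₂. -/
theorem result {L : Type*} [Group L] [Finite L] (K W₂ : Subgroup L) [hK : K.Normal] (x : L) (hx1 : x ≠ 1) (hx : Nat.Coprime (orderOf x) (Nat.card K)) (hC : ∀ y ∈ Subgroup.zpowers x, y ≠ 1 → K ⊓ Subgroup.centralizer ({y} : Set L) = W₂) : Nat.card {C : ConjClasses K // ConjClasses.map (MulEquiv.toMonoidHom ((MulAut.conjNormal x : MulAut K))) C = C} ≤ Nat.card W₂ := by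
  classical
  haveI := Fintype.ofFinite L
  have hW₂K : W₂ ≤ K := by
    rw [← hC x (Subgroup.mem_zpowers x) hx1]; exact inf_le_left
  have hne : Subgroup.zpowers x ≠ ⊥ := by rw [Ne, Subgroup.zpowers_eq_bot]; exact hx1
  have hcent := pf_cent K (Subgroup.zpowers x) W₂ hW₂K hC _ le_rfl hne
  have hcyc : IsCyclic (Subgroup.zpowers x) := inferInstance
  have h := H2.card_classes_inv K (Subgroup.zpowers x) (fun s _ g hg => hK.conj_mem g hg s)
    (by rw [Nat.card_zpowers]; exact hx.symm)
    (Group.isSolvable_of_comm (comm_of_le_cyclic hcyc le_rfl))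
  rw [hcent] at h
  have h2 : Nat.card (ConjClasses W₂) ≤ Nat.card W₂ :=
    Nat.card_le_card_of_surjective (ConjClasses.mk) ConjClasses.mk_surjective
  refine le_trans ?_ (h.le.trans h2)
  have key : ∀ C : ConjClasses K,
      ConjClasses.map (MulEquiv.toMonoidHom ((MulAut.conjNormal x : MulAut K))) C = C →
      ∀ n : ℕ, ∀ g g' : K, (g' : L) = x ^ n * g * (x ^ n)⁻¹ → ConjClasses.mk g = C →
        ConjClasses.mk g' = C := by
    intro C hCx n
    induction n with
    | zero =>
      intro g g' hg hgC
      have : g' = g := Subtype.ext (by simpa using hg)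
      rw [this]; exact hgC
    | succ n ih =>
      intro g g' hg hgC
      have h1 := ih g ⟨x ^ n * g * (x ^ n)⁻¹, hK.conj_mem g g.2 _⟩ rfl hgC
      rw [← hCx, ← h1]
      show ConjClasses.mk g' = ConjClasses.mk (MulAut.conjNormal x _)
      congr 1
      apply Subtype.ext
      rw [MulAut.conjNormal_apply, hg, pow_succ']
      simp [mul_assoc]
  apply Nat.card_le_card_of_injective
    (fun C : {C : ConjClasses K // ConjClasses.map (MulEquiv.toMonoidHom ((MulAut.conjNormal x : MulAut K))) C = C} =>
      (⟨C.1, by
        intro s hs g g' hg hgC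
        obtain ⟨n, rfl⟩ := (mem_powers_iff_mem_zpowers).mpr hs
        exact key C.1 C.2 n g g' hg hgC⟩ :
      {K' : ConjClasses K // ∀ s ∈ Subgroup.zpowers x, ∀ g g' : K, (g' : L) = s * g * s⁻¹ →
        ConjClasses.mk g = K' → ConjClasses.mk g' = K'}))
  intro a b hab
  have h3 : a.1 = b.1 := by
    have := congrArg (fun z => z.1) hab
    exact this
  exact Subtype.ext h3

end Cfsg.Agent.S1512
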