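import Cfsg.Statements.S1513
import Mathlib
import Cfsg.Agent.Lib_lead_Pf1

set_option autoImplicit false
open Cfsg

namespace Cfsg.Agent.S1513

open Cfsg.Agent.H4 Cfsg.Agent.LeadBr


/-- Let L be a finite group with K normal with complement W₁ ≠ 1 a cyclic Hall subgroup, and W₂ ≠ 1 a cyclic subgroup of K equal to C_K(x) for every non-identity x ∈ W₁, with W₁W₂ of odd order. For an irreducible character θ of K: if θ is not fixed under conjugation by some element of W₁, then the function induced from θ to L is an irreducible character of L; and the irreducible characters of K fixed by all of W₁ are exactly Nat.card W₂ in number, each inducing to the sum of Nat.card W₁ pairwise distinct irreducible characters of L. -/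
theorem result {L : Type*} [Group L] [Fintype L] (K W₁ W₂ : Subgroup L) [hK : K.Normal] (hKW₁ : K ⊓ W₁ = ⊥) (hKW₁' : K ⊔ W₁ = ⊤) (hW₁ : W₁ ≠ ⊥) (hW₁c : IsCyclic W₁) (hHall : Nat.Coprime (Nat.card W₁) W₁.index) (hW₂ : W₂ ≠ ⊥) (hW₂c : IsCyclic W₂) (hW₂K : W₂ ≤ K) (hC : ∀ x ∈ W₁, x ≠ 1 → K ⊓ Subgroup.centralizer ({x} : Set L) = W₂) (hodd : Odd (Nat.card ↥(W₁ ⊔ W₂))) : (∀ θ : K → ℂ, Cfsg.IsIrrCharacter K θ → (∃ x ∈ W₁, (fun k : K => θ ⟨x * k * x⁻¹, hK.conj_mem (k : L) k.2 x⟩) ≠ θ) → Cfsg.IsIrrCharacter L (Cfsg.indFun K θ)) ∧ Nat.card {θ : Cfsg.IrrCharacter K // ∀ x ∈ W₁, (fun k : K => (θ : K → ℂ) ⟨x * k * x⁻¹, hK.conj_mem (k : L) k.2 x⟩) = θ} = Nat.card W₂ ∧ (∀ θ : K → ℂ, Cfsg.IsIrrCharacter K θ → (∀ x ∈ W₁, (fun k : K => θ ⟨x * k * x⁻¹, hK.conj_mem (k : L) k.2 x⟩) = θ) → ∃ C : Finset (L → ℂ), C.card = Nat.card W₁ ∧ (∀ μ ∈ C, Cfsg.IsIrrCharacter L μ) ∧ Cfsg.indFun K θ = ∑ μ ∈ C, μ) := by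
  classical
  haveI := Fintype.ofFinite K
  haveI := Fintype.ofFinite (IrrCharacter L)
  haveI := Fintype.ofFinite (IrrCharacter K)
  have hcard : Nat.card K * Nat.card W₁ = Nat.card L := by
    have h := H1.card_sup_mul_card_inf' K W₁ (by rw [Subgroup.normalizer_eq_top]; exact le_top)
    rw [hKW₁, hKW₁', Subgroup.card_bot, mul_one, Subgroup.card_top] at h
    exact h.symm
  have hidx1 : W₁.index = Nat.card K := by
    have h := W₁.index_mul_card
    have hpos : 0 < Nat.card W₁ := Nat.card_pos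
    exact Nat.eq_of_mul_eq_mul_right hpos (h.trans hcard.symm)
  have hidxK : K.index = Nat.card W₁ := by
    have h := K.index_mul_card
    have hpos : 0 < Nat.card K := Nat.card_pos
    exact Nat.eq_of_mul_eq_mul_right hpos (h.trans (by rw [← hcard, mul_comm]))
  have hcop : (Nat.card K).Coprime (Nat.card W₁) := by rw [← hidx1]; exact hHall.symm
  have hdec : ∀ g : L, ∃ k ∈ K, ∃ w ∈ W₁, k * w = g := by
    intro g
    have hg : g ∈ K ⊔ W₁ := by rw [hKW₁']; trivial
    exact Subgroup.mem_sup_of_normal_left.mp hg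
  refine ⟨?_, ?_, ?_⟩
  · intro θ hθ hx
    obtain ⟨x, hx, hxθ⟩ := hx
    rw [isIrrCharacter_iff]
    refine ⟨IsCharacter.ind K (IsIrrCharacter.isCharacter hθ), ?_⟩
    have h1 := card_mul_classInner_ind_ind hK θ θ hθ hθ
    have h2 : Nat.card {g : L // H4.conjFun hK θ g = θ} = Nat.card K := by
      apply Nat.card_congr
      apply Equiv.subtypeEquivRight
      intro g
      constructor
      · intro hg
        by_contra hgK
        obtain ⟨k, hk, w, hw, rfl⟩ := hdec g
        have hw1 : w ≠ 1 := by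
          intro h
          apply hgK
          rw [h, mul_one]; exact hk
        rw [conjFun_mul_left K θ hθ k hk w] at hg
        have := pf_fix K W₁ W₂ hcop hW₁c hW₂c hW₂K hC ⟨θ, hθ⟩ w hw hw1 ((invBy_iff K θ w).mpr hg)
        exact hxθ ((invBy_iff K θ x).mp (this x hx))
      · intro hg
        ext n
        exact IsCharacter.isClassFunction (IsIrrCharacter.isCharacter hθ) n ⟨g, hg⟩
    rw [h2] at h1
    have hne : (Nat.card K : ℂ) ≠ 0 := by exact_mod_cast Nat.card_pos.ne'
    exact mul_left_cancel₀ hne (by rw [h1, mul_one])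
  · rw [← pf_count K W₁ W₂ hcop hW₁c hW₂c hW₂K hC W₁ le_rfl hW₁]
    apply Nat.card_congr
    apply Equiv.subtypeEquivRight
    intro θ
    exact forall₂_congr (fun x _ => (invBy_iff K (θ : K → ℂ) x).symm)
  · intro θ hθ hfix
    have hinv : ∀ g : L, H4.conjFun hK θ g = θ := by
      intro g
      obtain ⟨k, hk, w, hw, rfl⟩ := hdec g
      rw [conjFun_mul_left K θ hθ k hk w]
      exact hfix w hw
    have hcyc : IsCyclic (L ⧸ K) := by
      haveI := hW₁c
      apply isCyclic_of_surjective ((QuotientGroup.mk' K).comp W₁.subtype)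
      intro q
      obtain ⟨g, rfl⟩ := QuotientGroup.mk_surjective q
      obtain ⟨k, hk, w, hw, rfl⟩ := hdec g
      refine ⟨⟨w, hw⟩, ?_⟩
      show (QuotientGroup.mk w : L ⧸ K) = QuotientGroup.mk (k * w)
      rw [QuotientGroup.eq]
      have := hK.conj_mem k hk w⁻¹
      simpa [mul_assoc] using this
    have hab : ∀ x y : L, x * y * x⁻¹ * y⁻¹ ∈ K := by
      intro x y
      rw [← QuotientGroup.eq_one_iff]
      have hc := (IsCyclic.commGroup (α := L ⧸ K)).mul_comm (x : L ⧸ K) (y : L ⧸ K)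
      show (x : L ⧸ K) * (y : L ⧸ K) * (x : L ⧸ K)⁻¹ * (y : L ⧸ K)⁻¹ = 1
      have hc' : (x : L ⧸ K) * (y : L ⧸ K) = (y : L ⧸ K) * (x : L ⧸ K) := hc
      rw [hc']; group
    obtain ⟨e, C, he, hC1, hind, hres, hmem⟩ := ind_of_abelian_quotient K hab θ hθ hinv
    obtain ⟨χ₀, hχ₀, hext⟩ := extends_of_cyclic K hcyc θ hθ (fun g n => congrFun (hinv g) n)
    have hχC : (⟨χ₀, hχ₀⟩ : IrrCharacter L) ∈ C := by
      rw [hmem]
      show classInner (indFun K θ) χ₀ ≠ 0
      rw [frobenius_reciprocity K _ _ (IsCharacter.isClassFunction (IsIrrCharacter.isCharacter hχ₀))]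
      have : (fun n : K => χ₀ n) = θ := funext hext
      rw [this, ((isIrrCharacter_iff θ).mp hθ).2]
      exact one_ne_zero
    have he1 : e = 1 := by
      have h1 := congrFun (hres _ hχC) 1
      simp only [Pi.smul_apply, smul_eq_mul] at h1
      have h2 : χ₀ ((1 : K) : L) = θ 1 := hext 1
      rw [h2] at h1
      have h3 : ((e : ℂ) - 1) * θ 1 = 0 := by linear_combination -h1
      rcases mul_eq_zero.mp h3 with h | h
      · have : (e : ℂ) = 1 := by linear_combination h
        exact_mod_cast this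
      · exact absurd h (IsIrrCharacter.apply_one_ne_zero hθ)
    subst he1
    refine ⟨C.image Subtype.val, ?_, ?_, ?_⟩
    · rw [Finset.card_image_of_injective _ Subtype.val_injective, ← hidxK, ← hC1]; simp
    · intro μ hμ
      obtain ⟨χ, _, rfl⟩ := Finset.mem_image.mp hμ
      exact χ.2
    · rw [hind, Finset.sum_image (fun a _ b _ h => Subtype.val_injective h)]
      simp

end Cfsg.Agent.S1513
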