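import Mathlib
import Cfsg.Statements.S1527

set_option autoImplicit false
open Cfsg

namespace Cfsg.Agent.S1527

theorem card_ne' (α : Type*) [Finite α] (a : α) : Nat.card {x : α // x ≠ a} = Nat.card α - 1 := by
  classical
  haveI := Fintype.ofFinite α
  rw [Nat.card_eq_fintype_card, Nat.card_eq_fintype_card, Fintype.card_subtype_compl,
    Fintype.card_subtype_eq]

/-- Let G be a finite group and H i (i in a finite index type) subgroups of pairwise coprime orders, each of whose underlying sets is a TI-subset of G, such that every non-identity element of G is conjugate to an element of some H i. Then Nat.card G − 1 = Σ_i [G : N_G(H i)] · (Nat.card (H i) − 1). -/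
theorem result {G : Type*} [Group G] [Finite G] {ι : Type*} [Fintype ι] (H : ι → Subgroup G) (hcop : ∀ i j, i ≠ j → Nat.Coprime (Nat.card (H i)) (Nat.card (H j))) (hTI : ∀ i, Cfsg.IsTISubset (H i : Set G)) (hcover : ∀ g : G, g ≠ 1 → ∃ i, ∃ x : G, x * g * x⁻¹ ∈ H i) : Nat.card G - 1 = ∑ i, (Subgroup.normalizer (H i : Set G)).index * (Nat.card (H i) - 1) := by
  classical
  rw [← card_ne' G 1]
  have hsum : ∑ i, (Subgroup.normalizer (H i : Set G)).index * (Nat.card (H i) - 1) =
      Nat.card (Σ i, (G ⧸ Subgroup.normalizer (H i : Set G)) × {h : H i // h ≠ 1}) := by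
    rw [Nat.card_sigma]
    apply Finset.sum_congr rfl
    intro i _
    rw [Nat.card_prod, card_ne', Subgroup.index_eq_card]
  rw [hsum]
  symm
  apply Nat.card_congr
  let f : (Σ i, (G ⧸ Subgroup.normalizer (H i : Set G)) × {h : H i // h ≠ 1}) → {g : G // g ≠ 1} :=
    fun z => ⟨z.2.1.out * (z.2.2.1 : G) * (z.2.1.out)⁻¹, by
      intro h
      apply z.2.2.2
      apply Subtype.ext
      have : ((z.2.2.1 : H z.1) : G) =
          (z.2.1.out)⁻¹ * (z.2.1.out * (z.2.2.1 : G) * (z.2.1.out)⁻¹) * z.2.1.out := by group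
      rw [this, h]; simp⟩
  refine Equiv.ofBijective f ⟨?_, ?_⟩
  · rintro ⟨i, q, h⟩ ⟨j, q', h'⟩ hff
    have hval : q.out * (h.1 : G) * (q.out)⁻¹ = q'.out * (h'.1 : G) * (q'.out)⁻¹ :=
      congrArg Subtype.val hff
    have hij : i = j := by
      by_contra hne
      apply h.2
      have ho : orderOf (h.1 : G) = orderOf (h'.1 : G) := by
        have e1 : orderOf (q.out * (h.1 : G) * (q.out)⁻¹) = orderOf (h.1 : G) := by
          have := (MulAut.conj q.out).orderOf_eq (h.1 : G)
          simpa using this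
        have e2 : orderOf (q'.out * (h'.1 : G) * (q'.out)⁻¹) = orderOf (h'.1 : G) := by
          have := (MulAut.conj q'.out).orderOf_eq (h'.1 : G)
          simpa using this
        rw [← e1, ← e2, hval]
      have h1 : orderOf (h.1 : G) ∣ Nat.card (H i) := by
        rw [Subgroup.orderOf_coe]; exact orderOf_dvd_natCard _
      have h2 : orderOf (h.1 : G) ∣ Nat.card (H j) := by
        rw [ho, Subgroup.orderOf_coe]; exact orderOf_dvd_natCard _
      have h3 := Nat.eq_one_of_dvd_coprimes (hcop i j hne) h1 h2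
      exact Subtype.ext (orderOf_eq_one_iff.1 h3)
    subst hij
    have ht : (q'.out)⁻¹ * q.out ∈ Subgroup.normalizer (H i : Set G) := by
      by_contra hn
      apply h.2
      apply Subtype.ext
      apply hTI i _ hn (h.1 : G) h.1.2
      have : (q'.out)⁻¹ * q.out * (h.1 : G) * ((q'.out)⁻¹ * q.out)⁻¹ =
          (q'.out)⁻¹ * (q.out * (h.1 : G) * (q.out)⁻¹) * q'.out := by group
      rw [this, hval]
      have : (q'.out)⁻¹ * (q'.out * (h'.1 : G) * (q'.out)⁻¹) * q'.out = (h'.1 : G) := by group
      rw [this]; exact h'.1.2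
    have hq : q = q' := by
      rw [← QuotientGroup.out_eq' q, ← QuotientGroup.out_eq' q']
      exact (QuotientGroup.eq.2 ht).symm
    subst hq
    have hh : h = h' := by
      apply Subtype.ext
      apply Subtype.ext
      have := mul_right_cancel hval
      exact mul_left_cancel this
    rw [hh]
  · rintro ⟨g, hg⟩
    obtain ⟨i, x, hx⟩ := hcover g hg
    set q : G ⧸ Subgroup.normalizer (H i : Set G) := QuotientGroup.mk x⁻¹ with hq
    obtain ⟨n, hn⟩ := QuotientGroup.mk_out_eq_mul (Subgroup.normalizer (H i : Set G)) x⁻¹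
    have hmem : (n : G)⁻¹ * (x * g * x⁻¹) * n ∈ H i :=
      (Subgroup.mem_normalizer_iff''.1 n.2 _).1 hx
    have hne : (⟨_, hmem⟩ : H i) ≠ 1 := by
      intro h
      apply hg
      have h1 : (n : G)⁻¹ * (x * g * x⁻¹) * n = 1 := congrArg Subtype.val h
      have : g = x⁻¹ * n * ((n : G)⁻¹ * (x * g * x⁻¹) * n) * (n : G)⁻¹ * x := by group
      rw [this, h1]; group
    refine ⟨⟨i, q, ⟨⟨_, hmem⟩, hne⟩⟩, ?_⟩
    apply Subtype.ext
    change q.out * ((n : G)⁻¹ * (x * g * x⁻¹) * n) * (q.out)⁻¹ = g
    rw [hq, hn]; group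

end Cfsg.Agent.S1527
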