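import Cfsg.Statements.S1528
import Mathlib
import Cfsg.Agent.Lib_helper4_CharI

set_option autoImplicit false
open Cfsg

namespace Cfsg.Agent.S1528

open Cfsg.Agent.H4


/-- Let N be a normal subgroup of the finite group G such that every element of G commuting with a non-identity element of N lies in N. If χ is an irreducible character of G with χ n ≠ χ 1 for some n ∈ N, then χ is the function induced from some irreducible character of N. -/
theorem result {G : Type*} [Group G] [Fintype G] (N : Subgroup G) [N.Normal] (hC : ∀ n ∈ N, n ≠ 1 → Subgroup.centralizer ({n} : Set G) ≤ N) (χ : G → ℂ) (hχ : Cfsg.IsIrrCharacter G χ) (hker : ∃ n ∈ N, χ n ≠ χ 1) : ∃ φ : N → ℂ, Cfsg.IsIrrCharacter N φ ∧ χ = Cfsg.indFun N φ := by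
  classical
  haveI : Fintype N := Fintype.ofFinite _
  have hN : N.Normal := inferInstance
  have hχc := IsIrrCharacter.isCharacter hχ
  have hres : Cfsg.IsCharacter N (fun a : N => χ a) := IsCharacter.restrict N hχc
  have hres0 : (fun a : N => χ a) ≠ 0 := by
    intro h
    exact IsIrrCharacter.apply_one_ne_zero hχ (congrFun h 1)
  obtain ⟨φ, hφ⟩ := IsCharacter.exists_constituent hres hres0
  have hφ1 : (φ : N → ℂ) ≠ fun _ => 1 := by
    intro h1
    obtain ⟨n, hn, hne⟩ := hker
    apply hne
    have h2 := restrict_of_invariant N hN χ hχ φ φ.2 hφ (by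
      intro g
      rw [h1]
      rfl)
    have h3 := congrFun h2 ⟨n, hn⟩
    have h4 := congrFun h2 1
    rw [h1] at h3 h4
    simp only [Pi.smul_apply, smul_eq_mul, mul_one] at h3 h4
    rw [h3]
    exact h4.symm
  have hT : ∀ g : G, g ∈ N ↔ ∀ h : N, (φ : N → ℂ) ⟨g * h * g⁻¹, hN.conj_mem h h.2 g⟩ = (φ : N → ℂ) h := by
    intro g
    constructor
    · intro hg h
      exact IsCharacter.isClassFunction (IsIrrCharacter.isCharacter φ.2) h ⟨g, hg⟩
    · intro h
      by_contra hg
      apply hφ1
      apply eq_one_of_conjFun_eq hN g _ φ.2 (by funext n; exact h n)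
      intro k hk x hx hcomm
      by_contra hx1
      have h5 : k * g ∈ Subgroup.centralizer ({x} : Set G) := by
        rw [Subgroup.mem_centralizer_singleton_iff]
        exact hcomm
      have h6 := hC x hx hx1 h5
      apply hg
      have := N.mul_mem (N.inv_mem hk) h6
      rwa [inv_mul_cancel_left] at this
  obtain ⟨ψ, hψ, hψχ, _⟩ := clifford_corr_surj N hN φ φ.2 N hT le_rfl χ hχ hφ
  exact ⟨ψ, hψ, hψχ.symm⟩

end Cfsg.Agent.S1528
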