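import Cfsg.Statements.S1536
import Mathlib
import Cfsg.Agent.Lib_lead_Pf1
import Cfsg.Agent.S1496

set_option autoImplicit false
open Cfsg

namespace Cfsg.Agent.S1536

open Cfsg.Agent.H4 Cfsg.Agent.LeadBr


/-- Let H be a normal subgroup of the finite group M whose order is coprime to its index. For x ∈ M: some non-principal irreducible character of H is unchanged under h ↦ θ(x h x⁻¹) if and only if some non-identity element of H commutes with x. -/
theorem result {M : Type*} [Group M] [Finite M] (H : Subgroup M) [hN : H.Normal] (hHall : Nat.Coprime (Nat.card H) H.index) (x : M) : (∃ θ : H → ℂ, Cfsg.IsIrrCharacter H θ ∧ θ ≠ (fun _ => 1) ∧ (fun h : H => θ ⟨x * h * x⁻¹, hN.conj_mem h h.2 x⟩) = θ) ↔ ∃ h ∈ H, h ≠ 1 ∧ x * h = h * x := by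
  classical
  haveI := Fintype.ofFinite M
  obtain ⟨E, hE⟩ := Subgroup.exists_right_complement'_of_coprime hHall
  obtain ⟨⟨⟨h₀, hh₀⟩, ⟨e, he⟩⟩, hx0⟩ := (hE.existsUnique x).exists
  simp only at hx0
  subst hx0
  have hcope : Nat.Coprime (orderOf e) (Nat.card H) := by
    have h1 : orderOf e ∣ Nat.card E := Subgroup.orderOf_dvd_natCard E he
    rw [← hE.symm.index_eq_card] at h1
    exact Nat.Coprime.coprime_dvd_left h1 hHall.symm
  obtain ⟨y, hy, c, hc, hce, hyx⟩ := S1496.result H e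
    (by rw [Subgroup.normalizer_eq_top]; trivial) hcope h₀ hh₀
  have hcyc : IsCyclic (Subgroup.zpowers e) := inferInstance
  have hcount := H2.card_irr_inv _ H (Subgroup.zpowers e) rfl (fun s _ g hg => hN.conj_mem g hg s)
    (by rw [Nat.card_zpowers]; exact hcope.symm)
    (Group.isSolvable_of_comm (comm_of_le_cyclic hcyc le_rfl))
  have hmemC : ∀ z : M, z ∈ H ⊓ Subgroup.centralizer (Subgroup.zpowers e : Set M) ↔
      z ∈ H ∧ e * z = z * e := by
    intro z
    rw [Subgroup.mem_inf, Subgroup.mem_centralizer_iff]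
    constructor
    · rintro ⟨h1, h2⟩
      exact ⟨h1, h2 e (Subgroup.mem_zpowers e)⟩
    · rintro ⟨h1, h2⟩
      refine ⟨h1, ?_⟩
      intro s hs
      obtain ⟨j, rfl⟩ := Subgroup.mem_zpowers_iff.mp hs
      exact (Commute.zpow_left (show Commute e z from h2) j).eq
  have hunder : ∀ θ : H → ℂ, H2.InvBy H e θ → H2.InvUnder H (Subgroup.zpowers e) θ := by
    intro θ hθ
    have hmem : e ∈ H2.stabSub H θ :=
      ⟨fun g hg => hN.conj_mem g hg e, fun g hg => by simpa using hN.conj_mem g hg e⁻¹, hθ⟩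
    intro s hs
    exact ((Subgroup.zpowers_le.mpr hmem) hs).2.2
  have htriv : H2.InvUnder H (Subgroup.zpowers e) ((trivIrr H : IrrCharacter H) : H → ℂ) := by
    intro s _ g g' _
    rfl
  have hI : (∃ θ : H → ℂ, Cfsg.IsIrrCharacter H θ ∧ θ ≠ (fun _ => 1) ∧
      (fun h : H => θ ⟨h₀ * e * h * (h₀ * e)⁻¹, hN.conj_mem h h.2 (h₀ * e)⟩) = θ) ↔
      ∃ z ∈ H, z ≠ 1 ∧ e * z = z * e := by
    constructor
    · rintro ⟨θ, hθ, hθ1, hfix⟩
      have hfix' : H4.conjFun hN θ (h₀ * e) = θ := hfix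
      rw [conjFun_mul_left H θ hθ h₀ hh₀ e] at hfix'
      have hinv := hunder θ ((invBy_iff H θ e).mpr hfix')
      have hnt : Nontrivial {χ : IrrCharacter H // H2.InvUnder H (Subgroup.zpowers e) χ} := by
        refine ⟨⟨⟨⟨θ, hθ⟩, hinv⟩, ⟨trivIrr H, htriv⟩, ?_⟩⟩
        intro h
        apply hθ1
        exact congrArg (fun z => (z.1 : H → ℂ)) h
      have h1 := Finite.one_lt_card_iff_nontrivial.mpr hnt
      rw [hcount, card_irr] at h1
      have h2 : Nat.card (ConjClasses ↥(H ⊓ Subgroup.centralizer (Subgroup.zpowers e : Set M))) ≤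
          Nat.card ↥(H ⊓ Subgroup.centralizer (Subgroup.zpowers e : Set M)) :=
        Nat.card_le_card_of_surjective (ConjClasses.mk) ConjClasses.mk_surjective
      have h3 := Finite.one_lt_card_iff_nontrivial.mp (lt_of_lt_of_le h1 h2)
      obtain ⟨z, hz⟩ := exists_ne (1 : ↥(H ⊓ Subgroup.centralizer (Subgroup.zpowers e : Set M)))
      obtain ⟨hz1, hz2⟩ := (hmemC z).mp z.2
      exact ⟨z, hz1, fun h => hz (Subtype.ext h), hz2⟩
    · rintro ⟨z, hzH, hz1, hze⟩
      have hzC := (hmemC z).mpr ⟨hzH, hze⟩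
      have hnt : Nontrivial (ConjClasses ↥(H ⊓ Subgroup.centralizer (Subgroup.zpowers e : Set M))) := by
        refine ⟨⟨ConjClasses.mk ⟨z, hzC⟩, ConjClasses.mk 1, ?_⟩⟩
        rw [Ne, ConjClasses.mk_eq_mk_iff_isConj, isConj_one_left]
        intro h
        exact hz1 (congrArg Subtype.val h)
      have h1 := Finite.one_lt_card_iff_nontrivial.mpr hnt
      rw [← card_irr, ← hcount] at h1
      have h3 := Finite.one_lt_card_iff_nontrivial.mp h1
      obtain ⟨θ, hθ⟩ := exists_ne (⟨trivIrr H, htriv⟩ :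
        {χ : IrrCharacter H // H2.InvUnder H (Subgroup.zpowers e) χ})
      refine ⟨θ.1, θ.1.2, ?_, ?_⟩
      · intro h
        apply hθ
        apply Subtype.ext
        apply Subtype.ext
        exact h
      · show H4.conjFun hN (θ.1 : H → ℂ) (h₀ * e) = θ.1
        rw [conjFun_mul_left H _ θ.1.2 h₀ hh₀ e]
        exact (invBy_iff H _ e).mp (θ.2 e (Subgroup.mem_zpowers e))
  rw [hI]
  constructor
  · rintro ⟨z, hzH, hz1, hze⟩
    -- an element of `H` commuting with `c * e`
    obtain ⟨z', hz'H, hz'1, hz'c⟩ : ∃ z' ∈ H, z' ≠ 1 ∧ (c * e) * z' = z' * (c * e) := by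
      by_cases hc1 : c = 1
      · exact ⟨z, hzH, hz1, by rw [hc1, one_mul]; exact hze⟩
      · refine ⟨c, hc, hc1, ?_⟩
        rw [mul_assoc, ← hce]
    refine ⟨y⁻¹ * z' * y, by simpa using hN.conj_mem z' hz'H y⁻¹, ?_, ?_⟩
    · intro h
      apply hz'1
      have : z' = y * (y⁻¹ * z' * y) * y⁻¹ := by group
      rw [this, h]; group
    · have e1 : h₀ * e = y⁻¹ * (c * e) * y := by rw [← hyx]; group
      rw [e1]
      calc y⁻¹ * (c * e) * y * (y⁻¹ * z' * y) = y⁻¹ * ((c * e) * z') * y := by group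
        _ = y⁻¹ * (z' * (c * e)) * y := by rw [hz'c]
        _ = _ := by group
  · rintro ⟨z, hzH, hz1, hzx⟩
    have hz' : (c * e) * (y * z * y⁻¹) = (y * z * y⁻¹) * (c * e) := by
      rw [← hyx]
      calc y * (h₀ * e) * y⁻¹ * (y * z * y⁻¹) = y * ((h₀ * e) * z) * y⁻¹ := by group
        _ = y * (z * (h₀ * e)) * y⁻¹ := by rw [hzx]
        _ = _ := by group
    refine ⟨y * z * y⁻¹, hN.conj_mem z hzH y, ?_, ?_⟩
    · intro h
      apply hz1
      have : z = y⁻¹ * (y * z * y⁻¹) * y := by group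
      rw [this, h]; group
    · -- `e` is a power of `c * e`
      have hcm : c ^ Nat.card H = 1 := by
        have := pow_card_eq_one' (G := H) (x := ⟨c, hc⟩)
        exact congrArg Subtype.val this
      have hb := Nat.gcd_eq_gcd_ab (Nat.card H) (orderOf e)
      rw [Nat.Coprime.gcd_eq_one hcope.symm] at hb
      have hpow : (c * e) ^ ((Nat.card H : ℤ) * Nat.gcdA (Nat.card H) (orderOf e)) = e := by
        rw [(show Commute c e from hce).mul_zpow, zpow_mul, zpow_natCast, hcm, one_zpow, one_mul]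
        have h5 : (Nat.card H : ℤ) * Nat.gcdA (Nat.card H) (orderOf e)
            = 1 - (orderOf e : ℤ) * Nat.gcdB (Nat.card H) (orderOf e) := by
          push_cast at hb
          linarith
        rw [h5, zpow_sub, zpow_one, zpow_mul, zpow_natCast, pow_orderOf_eq_one, one_zpow, inv_one,
          mul_one]
      have hcomm : Commute (c * e) (y * z * y⁻¹) := hz'
      have h6 := hcomm.zpow_left ((Nat.card H : ℤ) * Nat.gcdA (Nat.card H) (orderOf e))
      rw [hpow] at h6
      exact h6.eq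

end Cfsg.Agent.S1536
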