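import Mathlib
import Cfsg.Statements.S1546

set_option autoImplicit false
open Cfsg

namespace Cfsg.Agent.S1546

theorem geom_eq (p q : ℕ) (hp : 2 ≤ p) : (p ^ q - 1) / (p - 1) = ∑ i ∈ Finset.range q, p ^ i := by
  have h := Nat.geomSum_eq hp q
  exact h.symm

/-- Let p and q be odd primes and N = (p ^ q − 1) / (p − 1) = 1 + p + ⋯ + p^(q−1). Then N is odd; if p ≡ 1 (mod q) then q ∣ N; and if p is not ≡ 1 (mod q) then N is coprime to p − 1 and every divisor of N is ≡ 1 (mod q). -/
theorem result (p q : ℕ) (hp : p.Prime) (hq : q.Prime) (hp2 : p ≠ 2) (hq2 : q ≠ 2) : Odd ((p ^ q - 1) / (p - 1)) ∧ (p % q = 1 → q ∣ (p ^ q - 1) / (p - 1)) ∧ (p % q ≠ 1 → Nat.Coprime ((p ^ q - 1) / (p - 1)) (p - 1) ∧ ∀ x : ℕ, x ∣ (p ^ q - 1) / (p - 1) → x % q = 1) := by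
  have hp2' := hp.two_le
  rw [geom_eq p q hp2']
  have hpodd : Odd p := hp.odd_of_ne_two hp2
  have hqodd : Odd q := hq.odd_of_ne_two hq2
  have hmul : (∑ i ∈ Finset.range q, p ^ i) * (p - 1) = p ^ q - 1 := by
    have h := Nat.geomSum_eq hp2' q
    have h2 : (p - 1) ∣ p ^ q - 1 := by
      have := Nat.sub_dvd_pow_sub_pow p 1 q
      simpa using this
    rw [h, Nat.div_mul_cancel h2]
  -- sum mod (any m with p ≡ 1 mod m) is q
  have hsum : ∀ m : ℕ, p ≡ 1 [MOD m] → (∑ i ∈ Finset.range q, p ^ i) ≡ q [MOD m] := by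
    intro m hm
    have h1 : (∑ i ∈ Finset.range q, p ^ i) ≡ ∑ i ∈ Finset.range q, 1 [MOD m] := by
      apply Nat.ModEq.sum
      intro i _
      simpa using hm.pow i
    simpa using h1
  refine ⟨?_, ?_, ?_⟩
  · have h := hsum 2 (by
      rcases hpodd with ⟨k, rfl⟩
      show (2 * k + 1) % 2 = 1 % 2
      omega)
    rw [Nat.odd_iff] at hqodd ⊢
    rw [← hqodd]
    exact h
  · intro h
    have h1 := hsum q (by
      show p % q = 1 % q
      rw [h, Nat.mod_eq_of_lt hq.one_lt])
    exact (Nat.modEq_zero_iff_dvd).1 (h1.trans (by simp [Nat.ModEq]))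
  · intro h
    have hqnd : ¬ q ∣ p - 1 := by
      intro hd
      apply h
      obtain ⟨k, hk⟩ := hd
      have : p = q * k + 1 := by omega
      rw [this, Nat.mul_add_mod, Nat.mod_eq_of_lt hq.one_lt]
    have hcop : Nat.Coprime (∑ i ∈ Finset.range q, p ^ i) (p - 1) := by
      have h1 := hsum (p - 1) (by
        have : p = (p - 1) + 1 := by omega
        conv_lhs => rw [this]
        simp [Nat.ModEq])
      have h2 : Nat.gcd (∑ i ∈ Finset.range q, p ^ i) (p - 1) = Nat.gcd q (p - 1) := by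
        exact h1.gcd_eq
      show Nat.gcd _ _ = 1
      rw [h2]
      exact (Nat.Prime.coprime_iff_not_dvd hq).2 hqnd
    refine ⟨hcop, ?_⟩
    have hprime : ∀ l : ℕ, l.Prime → l ∣ (∑ i ∈ Finset.range q, p ^ i) → l % q = 1 := by
      intro l hl hd
      haveI : Fact l.Prime := ⟨hl⟩
      haveI : Fact q.Prime := ⟨hq⟩
      have h1 : l ∣ p ^ q - 1 := by rw [← hmul]; exact hd.mul_right _
      have h2 : ((p : ZMod l)) ^ q = 1 := by
        have h3 : ((p ^ q - 1 : ℕ) : ZMod l) = 0 := (ZMod.natCast_eq_zero_iff _ _).2 h1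
        rw [Nat.cast_sub (Nat.one_le_pow _ _ hp.pos)] at h3
        push_cast at h3
        exact sub_eq_zero.1 h3
      have h3 : (p : ZMod l) ≠ 1 := by
        intro h4
        have h5 : ((p - 1 : ℕ) : ZMod l) = 0 := by
          rw [Nat.cast_sub hp.one_le, h4]; simp
        have h6 : l ∣ p - 1 := (ZMod.natCast_eq_zero_iff _ _).1 h5
        have := Nat.dvd_gcd hd h6
        rw [hcop] at this
        exact hl.one_lt.ne' (Nat.dvd_one.1 this)
      have h4 : orderOf (p : ZMod l) = q := orderOf_eq_prime h2 h3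
      have h0 : (p : ZMod l) ≠ 0 := by
        intro h5
        rw [h5, zero_pow hq.ne_zero] at h2
        exact zero_ne_one h2
      have h5 : q ∣ l - 1 := by
        rw [← h4]
        exact ZMod.orderOf_dvd_card_sub_one h0
      obtain ⟨k, hk⟩ := h5
      have : l = q * k + 1 := by have := hl.one_lt; omega
      rw [this, Nat.mul_add_mod, Nat.mod_eq_of_lt hq.one_lt]
    intro x
    induction x using Nat.recOnMul with
    | zero =>
      intro h0
      exfalso
      have h1 := Nat.eq_zero_of_zero_dvd h0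
      have h2 : 0 < ∑ i ∈ Finset.range q, p ^ i := by
        apply Finset.sum_pos
        · intro i _; exact Nat.pow_pos hp.pos
        · exact ⟨0, Finset.mem_range.2 hq.pos⟩
      omega
    | one => intro _; exact Nat.mod_eq_of_lt hq.one_lt
    | prime l hl => exact hprime l hl
    | mul a b ha hb =>
      intro hd
      have h1 := ha ((Nat.dvd_mul_right a b).trans hd)
      have h2 := hb ((Nat.dvd_mul_left b a).trans hd)
      rw [Nat.mul_mod, h1, h2]
      exact Nat.mod_eq_of_lt hq.one_lt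

end Cfsg.Agent.S1546
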