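import Cfsg.Statements.S1551
import Cfsg.Agent.Lib_H9_K192b


set_option autoImplicit false
open scoped Pointwise
open Cfsg

namespace Cfsg.Agent.S1551

open Cfsg.Agent.H9
open Cfsg.Agent.H9.K192
open scoped Pointwise

theorem fix_all {S : Finset (Finset GolayPt)} {c : Equiv.Perm GolayPt} (h : ∀ t ∈ S, c • t = t) : c • S = S := by
  ext u
  rw [Finset.mem_smul_finset]
  constructor
  · rintro ⟨t, ht, rfl⟩
    rw [h t ht]; exact ht
  · intro hu
    exact ⟨u, hu, h u hu⟩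

abbrev GG (S : Finset (Finset GolayPt)) := ↥(MulAction.stabilizer M24 S)

theorem GG_smul {S : Finset (Finset GolayPt)} (g : GG S) : g.1.1 • S = S := g.2

def mkG {S : Finset (Finset GolayPt)} (c : Equiv.Perm GolayPt) (hc : c ∈ KS S) : GG S :=
  ⟨⟨c, hc.1⟩, fix_all hc.2⟩

def act {S : Finset (Finset GolayPt)} (g : GG S) (t : ↥S) : ↥S :=
  ⟨g.1.1 • t.1, by
    have := Finset.smul_mem_smul_finset (a := g.1.1) t.2
    rwa [GG_smul g] at this⟩

def actInst (S : Finset (Finset GolayPt)) : MulAction (GG S) ↥S where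
  smul := act
  one_smul t := Subtype.ext (one_smul _ t.1)
  mul_smul a b t := Subtype.ext (mul_smul a.1.1 b.1.1 t.1)

def phi (S : Finset (Finset GolayPt)) : GG S →* Equiv.Perm ↥S :=
  letI := actInst S
  MulAction.toPermHom (GG S) ↥S

theorem phi_apply {S : Finset (Finset GolayPt)} (g : GG S) (t : ↥S) : ((phi S g t : ↥S) : Finset GolayPt) = g.1.1 • t.1 := rfl

theorem mem_ker {S : Finset (Finset GolayPt)} (g : GG S) : g ∈ (phi S).ker ↔ ∀ t ∈ S, g.1.1 • t = t := by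
  rw [MonoidHom.mem_ker]
  constructor
  · intro h t ht
    have := congrArg (fun e : Equiv.Perm ↥S => ((e ⟨t, ht⟩ : ↥S) : Finset GolayPt)) h
    exact this
  · intro h
    ext1 t
    apply Subtype.ext
    rw [phi_apply]
    exact h t.1 t.2

def eqK (S : Finset (Finset GolayPt)) : {g : GG S // ∀ t ∈ S, g.1.1 • t = t} ≃ ↥(KS S) where
  toFun x := ⟨x.1.1.1, x.1.1.2, x.2⟩
  invFun c := ⟨mkG c.1 c.2, c.2.2⟩
  left_inv _ := rfl
  right_inv _ := rfl

theorem cardK {S : Finset (Finset GolayPt)} (hS : S ∈ sextets) :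
    Nat.card {g : GG S // ∀ t ∈ S, g.1.1 • t = t} = 192 := by
  rw [Nat.card_congr (eqK S), Nat.card_coe_set_eq, (facts hS).1]

theorem phi_surj {S : Finset (Finset GolayPt)} (hS : S ∈ sextets) : (phi S).range = ⊤ := by
  have hk : Nat.card (phi S).ker = 192 := by
    rw [← cardK hS]
    exact Nat.card_congr (Equiv.subtypeEquivRight (fun g => mem_ker g))
  have h1 := (phi S).ker.index_mul_card
  rw [Subgroup.index_ker, hk, card_stab_sextet hS] at h1
  have h2 : Nat.card (phi S).range = 720 := by omega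
  apply Subgroup.eq_top_of_card_eq
  rw [h2, Nat.card_perm, Nat.card_eq_fintype_card, Fintype.card_coe, hS.1]
  rfl

def NNs {S : Finset (Finset GolayPt)} (hS : S ∈ sextets) : Subgroup (GG S) where
  carrier := {x | x.1.1 ∈ KS S ∧ x.1.1 * x.1.1 = 1}
  one_mem' := ⟨⟨M24.one_mem, fun t _ => one_smul _ t⟩, one_mul 1⟩
  mul_mem' := by
    intro a b ha hb
    refine ⟨⟨M24.mul_mem ha.1.1 hb.1.1, fun t ht => ?_⟩, (facts hS).2.2 _ _ ha.1 hb.1 ha.2 hb.2⟩
    show (a.1.1 * b.1.1) • t = t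
    rw [mul_smul, hb.1.2 t ht, ha.1.2 t ht]
  inv_mem' := by
    intro a ha
    have e : (a.1.1)⁻¹ = a.1.1 := (eq_inv_of_mul_eq_one_left ha.2).symm
    show (a.1.1)⁻¹ ∈ KS S ∧ (a.1.1)⁻¹ * (a.1.1)⁻¹ = 1
    rw [e]
    exact ha

theorem NNs_normal {S : Finset (Finset GolayPt)} (hS : S ∈ sextets) : (NNs hS).Normal := by
  constructor
  intro n hn g
  show g.1.1 * n.1.1 * (g.1.1)⁻¹ ∈ KS S ∧ (g.1.1 * n.1.1 * (g.1.1)⁻¹) * (g.1.1 * n.1.1 * (g.1.1)⁻¹) = 1
  refine ⟨?_, (sq_conj _ _).mp hn.2⟩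
  have := (KS_conj g.1.2 S n.1.1).mp hn.1
  rwa [GG_smul g] at this

def eqN {S : Finset (Finset GolayPt)} (hS : S ∈ sextets) :
    ↥(NNs hS) ≃ ↥{g : Equiv.Perm GolayPt | g ∈ KS S ∧ g * g = 1} where
  toFun x := ⟨x.1.1.1, x.2⟩
  invFun c := ⟨mkG c.1 c.2.1, c.2⟩
  left_inv _ := rfl
  right_inv _ := rfl

theorem cardN {S : Finset (Finset GolayPt)} (hS : S ∈ sextets) : Nat.card ↥(NNs hS) = 64 := by
  rw [Nat.card_congr (eqN hS), Nat.card_coe_set_eq, (facts hS).2.1]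


/-- Structure of a sextet stabiliser: it induces every permutation of the six tetrads, the subgroup fixing each tetrad setwise has order 192, and there is a normal subgroup of order 64 consisting of elements squaring to the identity. -/
theorem result (S : Finset (Finset Cfsg.GolayPt)) (hS : S ∈ Cfsg.sextets) : (∀ e : Equiv.Perm ↥S, ∃ g ∈ MulAction.stabilizer Cfsg.M24 S, ∀ t : ↥S, (g : Equiv.Perm Cfsg.GolayPt) • (t : Finset Cfsg.GolayPt) = ((e t : ↥S) : Finset Cfsg.GolayPt)) ∧ Nat.card {g : ↥(MulAction.stabilizer Cfsg.M24 S) // ∀ t ∈ S, ((g : Cfsg.M24) : Equiv.Perm Cfsg.GolayPt) • t = t} = 192 ∧ ∃ N : Subgroup ↥(MulAction.stabilizer Cfsg.M24 S), N.Normal ∧ Nat.card N = 64 ∧ ∀ x ∈ N, x * x = 1 := by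
  refine ⟨?_, cardK hS, NNs hS, NNs_normal hS, cardN hS, ?_⟩
  · intro e
    have he : e ∈ (phi S).range := by rw [phi_surj hS]; exact Subgroup.mem_top _
    obtain ⟨x, hx⟩ := he
    refine ⟨x.1, x.2, fun t => ?_⟩
    rw [← hx]
    rfl
  · intro x hx
    exact Subtype.ext (Subtype.ext hx.2)

end Cfsg.Agent.S1551
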