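import Cfsg.Statements.S1554
import Cfsg.Agent.Lib_H9_OctA8

set_option autoImplicit false
open scoped Pointwise
open Cfsg

namespace Cfsg.Agent.S1554

open Cfsg.Agent.H9
open scoped Pointwise


/-- An octad stabiliser is a split extension: the joint stabiliser of the octad and a point outside it is a complement to the pointwise stabiliser of the octad, and is isomorphic to the alternating group of degree 8. -/
theorem result (o : Finset Cfsg.GolayPt) (ho : o ∈ Cfsg.octads) (p : Cfsg.GolayPt) (hp : p ∉ o) : (Cfsg.M24 ⊓ fixingSubgroup (Equiv.Perm Cfsg.GolayPt) (o : Set Cfsg.GolayPt)) ⊓ (Cfsg.M24 ⊓ MulAction.stabilizer (Equiv.Perm Cfsg.GolayPt) o ⊓ MulAction.stabilizer (Equiv.Perm Cfsg.GolayPt) p) = ⊥ ∧ (Cfsg.M24 ⊓ fixingSubgroup (Equiv.Perm Cfsg.GolayPt) (o : Set Cfsg.GolayPt)) ⊔ (Cfsg.M24 ⊓ MulAction.stabilizer (Equiv.Perm Cfsg.GolayPt) o ⊓ MulAction.stabilizer (Equiv.Perm Cfsg.GolayPt) p) = (Cfsg.M24 ⊓ MulAction.stabilizer (Equiv.Perm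 Cfsg.GolayPt) o) ∧ Nonempty (↥(Cfsg.M24 ⊓ MulAction.stabilizer (Equiv.Perm Cfsg.GolayPt) o ⊓ MulAction.stabilizer (Equiv.Perm Cfsg.GolayPt) p) ≃* alternatingGroup (Fin 8)) := by
  have hK : (Cfsg.M24 ⊓ fixingSubgroup (Equiv.Perm Cfsg.GolayPt) (o : Set Cfsg.GolayPt)) = KO o := rfl
  have hG : (Cfsg.M24 ⊓ MulAction.stabilizer (Equiv.Perm Cfsg.GolayPt) o) = GO o := rfl
  rw [hK, hG]
  have hbot : KO o ⊓ (GO o ⊓ MulAction.stabilizer (Equiv.Perm GolayPt) p) = ⊥ := by
    rw [eq_bot_iff]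
    rintro g ⟨h1, _, h3⟩
    rw [Subgroup.mem_bot]
    exact KO_free ho hp h1 h3
  have split : ∀ g ∈ GO o, ∃ k ∈ KO o, k⁻¹ * g ∈ GO o ⊓ MulAction.stabilizer (Equiv.Perm GolayPt) p := by
    intro g hg
    have hgp : g p ∉ o := by rw [apply_mem_iff_of_smul_eq hg.2]; exact hp
    obtain ⟨k, hk, e⟩ := KO_trans ho hp hgp
    refine ⟨k, hk, (GO o).mul_mem ((GO o).inv_mem (KO_le_GO o hk)) hg, ?_⟩
    show k⁻¹ (g p) = p
    rw [← e, inv_app]
  refine ⟨hbot, ?_, ?_⟩
  · apply le_antisymm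
    · exact sup_le (KO_le_GO o) inf_le_left
    · intro g hg
      obtain ⟨k, hk, h⟩ := split g hg
      have : g = k * (k⁻¹ * g) := by group
      rw [this]
      exact Subgroup.mul_mem_sup hk h
  · let f : ↥(GO o ⊓ MulAction.stabilizer (Equiv.Perm GolayPt) p) →* Equiv.Perm ↥o :=
      (rho o).comp (Subgroup.inclusion inf_le_left)
    have hinj : Function.Injective f := by
      rw [injective_iff_map_eq_one]
      intro a ha
      have h1 : Subgroup.inclusion (inf_le_left : GO o ⊓ MulAction.stabilizer (Equiv.Perm GolayPt) p ≤ GO o) a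
          ∈ (rho o).ker := ha
      rw [ker_rho, Subgroup.mem_subgroupOf] at h1
      exact Subtype.ext (KO_free ho hp h1 a.2.2)
    have hrange : f.range = alternatingGroup ↥o := by
      rw [← rho_range ho]
      apply le_antisymm
      · rintro _ ⟨a, rfl⟩
        exact ⟨_, rfl⟩
      · rintro _ ⟨g, rfl⟩
        obtain ⟨k, hk, h⟩ := split g.1 g.2
        refine ⟨⟨k⁻¹ * g.1, h⟩, ?_⟩
        apply Equiv.ext
        intro x
        apply Subtype.ext
        show k⁻¹ (g.1 x) = g.1 x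
        have hx : g.1 x ∈ o := (apply_mem_iff_of_smul_eq g.2.2).mpr x.2
        have := (mem_KO.mp hk).2 _ hx
        conv_lhs => rw [← this]
        exact inv_app _ _
    have e1 : ↥(GO o ⊓ MulAction.stabilizer (Equiv.Perm GolayPt) p) ≃* ↥(alternatingGroup ↥o) :=
      (MonoidHom.ofInjective hinj).trans (MulEquiv.subgroupCongr hrange)
    have e2 : ↥o ≃ Fin 8 := Finset.equivFinOfCardEq ho.2
    exact ⟨e1.trans (Equiv.altCongrHom e2)⟩

end Cfsg.Agent.S1554
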