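import Cfsg.Statements.S1555
import Cfsg.Agent.Lib_H9_OctA8
import Cfsg.Agent.Lib_H9_Oct2


set_option autoImplicit false
open scoped Pointwise
open Cfsg

namespace Cfsg.Agent.S1555

open Cfsg.Agent.H9
open scoped Pointwise

set_option maxRecDepth 100000 in
theorem cntA : countBelow (fun i => cntG 8 3 5276 0 0 (enc i)) 4096 = 16 := by decide +kernel
set_option maxRecDepth 100000 in
theorem cntB : countBelow (fun i => cntG 8 15 5264 0 0 (enc i)) 4096 = 4 := by decide +kernel

theorem count_meet {k : ℕ} (hk : k ≤ 5) {F N n : ℕ} (hF24 : F < 2 ^ 24) (hN24 : N < 2 ^ 24)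
    (hFc : (ofMask F).card = k) (hFm : ∀ i < k, pt i ∈ ofMask F)
    (hN : ofMask N = ofMask 5279 \ ofMask F)
    (hcount : countBelow (fun i => cntG 8 F N 0 0 (enc i)) 4096 = n)
    {o s : Finset GolayPt} (ho : o ∈ octads) (hs : s ⊆ o) (hsk : s.card = k) :
    {o' : Finset GolayPt | o' ∈ octads ∧ o ∩ o' = s}.ncard = n := by
  obtain ⟨x, hx⟩ := exists_notMem_octad ho
  let y : Fin k ↪ GolayPt := (s.equivFinOfCardEq hsk).symm.toEmbedding.trans (Function.Embedding.subtype _)
  have hy : ∀ i, y i ∈ o := fun i => hs (Subtype.coe_prop _)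
  obtain ⟨h, hh, h1, _, h3⟩ := octad_flag2 hk ho hx y hy
  have hs' : h • ofMask F = s := by
    symm
    apply Finset.eq_of_subset_of_card_le
    · intro p hp
      let i := s.equivFinOfCardEq hsk ⟨p, hp⟩
      have e : y i = p := by simp [y, i]
      rw [← e, ← h3 i]
      exact Finset.smul_mem_smul_finset (hFm i i.2)
    · rw [Finset.card_smul_finset, hFc, hsk]
  have hN' : h • ofMask N = o \ s := by rw [hN, Finset.smul_finset_sdiff, h1, hs']
  have := count_general (w := 8) (F := F) (N := N) (B := 0) (k := 0) hF24 hN24 (by norm_num) hcount hh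
  rw [← this]
  congr 1
  ext o'
  simp only [Set.mem_setOf_eq]
  rw [hs', hN', smul_ofMask_zero]
  constructor
  · rintro ⟨ho', e⟩
    refine ⟨ho'.1, ⟨ho'.2, ?_, ?_⟩, by simp⟩
    · rw [← e]; exact Finset.inter_subset_right
    · rw [Finset.disjoint_left]
      intro p hp hp'
      have := Finset.mem_sdiff.mp hp
      exact this.2 (e ▸ Finset.mem_inter.mpr ⟨this.1, hp'⟩)
  · rintro ⟨hC, ⟨hc, hsub, hdis⟩, _⟩
    refine ⟨⟨hC, hc⟩, ?_⟩
    ext p
    rw [Finset.mem_inter]
    constructor
    · rintro ⟨hpo, hpo'⟩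
      by_contra hps
      exact Finset.disjoint_left.mp hdis (Finset.mem_sdiff.mpr ⟨hpo, hps⟩) hpo'
    · intro hp
      exact ⟨hs hp, hsub hp⟩


/-- Bottom row of the Leech triangle: an octad is met in a prescribed pair of its points by exactly 16 octads and in a prescribed 4-subset by exactly 4 octads. -/
theorem result (o : Finset Cfsg.GolayPt) (ho : o ∈ Cfsg.octads) (s : Finset Cfsg.GolayPt) (hs : s ⊆ o) : (s.card = 2 → {o' : Finset Cfsg.GolayPt | o' ∈ Cfsg.octads ∧ o ∩ o' = s}.ncard = 16) ∧ (s.card = 4 → {o' : Finset Cfsg.GolayPt | o' ∈ Cfsg.octads ∧ o ∩ o' = s}.ncard = 4) := by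
  constructor
  · intro h2
    exact count_meet (k := 2) (by norm_num) (by norm_num) (by norm_num) (by decide +kernel) (by decide +kernel)
      (by decide +kernel) cntA ho hs h2
  · intro h4
    exact count_meet (k := 4) (by norm_num) (by norm_num) (by norm_num) (by decide +kernel) (by decide +kernel)
      (by decide +kernel) cntB ho hs h4

end Cfsg.Agent.S1555
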