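import Cfsg.Statements.S1560
import Cfsg.Agent.Lib_H9_Flags

set_option autoImplicit false
open scoped Pointwise
open Cfsg

namespace Cfsg.Agent.S1560

open Cfsg.Agent.H9
open scoped Pointwise

set_option maxRecDepth 100000 in
theorem cnt4 : countBelow (fun i => cntG 12 0 0 340831 4 (enc i)) 4096 = 495 := by decide +kernel
set_option maxRecDepth 100000 in
theorem cnt6 : countBelow (fun i => cntG 12 0 0 340831 6 (enc i)) 4096 = 1584 := by decide +kernel
set_option maxRecDepth 100000 in
theorem cnt8 : countBelow (fun i => cntG 12 0 0 340831 8 (enc i)) 4096 = 495 := by decide +kernel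

theorem fam_iff (h : Equiv.Perm Cfsg.GolayPt) (s : Finset Cfsg.GolayPt) :
    (s ∈ CC ∧ (s.card = 12 ∧ h • ofMask 0 ⊆ s ∧ Disjoint (h • ofMask 0) s)) ↔ s ∈ Cfsg.dodecads := by
  rw [smul_ofMask_zero, mem_dodecads_iff]
  simp only [Finset.disjoint_empty_left, Finset.empty_subset, and_true]

set_option maxRecDepth 100000 in
theorem chk : allBelow (fun i => !(Nat.beq (pop (enc i)) 12) || Nat.beq (enc i) 340831 ||
    Nat.beq (pop (Nat.land 340831 (enc i))) 0 || Nat.beq (pop (Nat.land 340831 (enc i))) 4 ||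
    Nat.beq (pop (Nat.land 340831 (enc i))) 6 || Nat.beq (pop (Nat.land 340831 (enc i))) 8) 4096 = true := by
  decide +kernel

theorem std {s : Finset Cfsg.GolayPt} (hs : s ∈ Cfsg.dodecads) (hne : s ≠ ofMask 340831) :
    (ofMask 340831 ∩ s).card = 0 ∨ (ofMask 340831 ∩ s).card = 4 ∨ (ofMask 340831 ∩ s).card = 6 ∨
      (ofMask 340831 ∩ s).card = 8 := by
  obtain ⟨i, hi, rfl⟩ := exists_of_mem_CC hs.1
  have h12 : pop (enc i) = 12 := by rw [pop_eq (enc_lt i)]; exact hs.2
  have := (allBelow_iff _ _).mp chk i hi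
  rw [h12] at this
  rw [inter_card_mask (by norm_num), toMask_ofMask (enc_lt i)]
  simp only [Bool.or_eq_true, Nat.beq_eq] at this
  rcases this with ((((h | h) | h) | h) | h) | h
  · exact absurd h (by decide)
  · exact absurd (by rw [h]) hne
  · exact Or.inl h
  · exact Or.inr (Or.inl h)
  · exact Or.inr (Or.inr (Or.inl h))
  · exact Or.inr (Or.inr (Or.inr h))


/-- Intersection numbers of dodecads: a dodecad meets every other dodecad in 0, 4, 6 or 8 points, meeting 495 of them in 4 points, 1584 in 6 points and 495 in 8 points. -/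
theorem result (d : Finset Cfsg.GolayPt) (hd : d ∈ Cfsg.dodecads) : (∀ d' ∈ Cfsg.dodecads, d' ≠ d → (d ∩ d').card = 0 ∨ (d ∩ d').card = 4 ∨ (d ∩ d').card = 6 ∨ (d ∩ d').card = 8) ∧ {d' : Finset Cfsg.GolayPt | d' ∈ Cfsg.dodecads ∧ (d ∩ d').card = 4}.ncard = 495 ∧ {d' : Finset Cfsg.GolayPt | d' ∈ Cfsg.dodecads ∧ (d ∩ d').card = 6}.ncard = 1584 ∧ {d' : Finset Cfsg.GolayPt | d' ∈ Cfsg.dodecads ∧ (d ∩ d').card = 8}.ncard = 495 := by
  obtain ⟨h, hh, rfl⟩ := dodecad_orbit hd
  refine ⟨?_, ?_, ?_, ?_⟩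
  · intro d' hd' hne
    have := std (s := h⁻¹ • d') (smul_mem_dodecads (Cfsg.M24.inv_mem hh) hd') (by
      intro e
      apply hne
      rw [← e, smul_inv_smul])
    rw [card_inter_inv_smul] at this
    exact this
  · exact (congrArg Set.ncard (Set.ext fun s =>
      ((and_congr_left' (fam_iff h s).symm).trans and_assoc))).trans
      (count_general (by norm_num) (by norm_num) (by norm_num) cnt4 hh)
  · exact (congrArg Set.ncard (Set.ext fun s =>
      ((and_congr_left' (fam_iff h s).symm).trans and_assoc))).trans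
      (count_general (by norm_num) (by norm_num) (by norm_num) cnt6 hh)
  · exact (congrArg Set.ncard (Set.ext fun s =>
      ((and_congr_left' (fam_iff h s).symm).trans and_assoc))).trans
      (count_general (by norm_num) (by norm_num) (by norm_num) cnt8 hh)

end Cfsg.Agent.S1560
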