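import Cfsg.Statements.S1567
import Cfsg.Agent.Lib_H9_Co0c

set_option autoImplicit false
open Cfsg

namespace Cfsg.Agent.S1567

open Cfsg.Agent.H9 in
theorem aux_min : allBelow (fun k => Nat.beq k 0 || (Nat.beq k 24 || (inLF (genF k) &&
    decide (sumR (fun i => genF k i ^ 2) 24 = 32)))) 38 = true := by decide +kernel

open Cfsg.Agent.H9 in
theorem aux_h : (inLF (fun j => bsel (Nat.blt j 2) 4 0) &&
    decide (sumR (fun i => (bsel (Nat.blt i 2) 4 0 : ℤ) ^ 2) 24 = 32)) = true := by decide +kernel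

open Cfsg.Agent.H9 in
theorem aux_z : ∀ j < 24, genF 0 j = 0 ∧ genF 24 j = bsel (Nat.blt j 2) 4 0 - genF 1 j := by decide +kernel


/-- The rank-24 lattice is the additive subgroup generated by its 196560 minimal vectors. -/
theorem result : AddSubgroup.closure {x : Cfsg.GolayPt → ℤ | x ∈ Cfsg.leechLattice ∧ Cfsg.sqNorm x = 32} = Cfsg.leechLattice := by
  apply le_antisymm
  · rw [AddSubgroup.closure_le]
    exact fun x hx => hx.1
  · refine H9.leech_le_closure.trans ?_
    rw [AddSubgroup.closure_le]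
    intro x hx
    obtain ⟨k, hk, rfl⟩ := H9.G0_eq hx
    have hmin : ∀ f : ℕ → ℤ, (H9.inLF f && decide (H9.sumR (fun i => f i ^ 2) 24 = 32)) = true →
        H9.vecF f ∈ AddSubgroup.closure {x : GolayPt → ℤ | x ∈ leechLattice ∧ sqNorm x = 32} := by
      intro f hf
      rw [Bool.and_eq_true, decide_eq_true_iff] at hf
      exact AddSubgroup.subset_closure ⟨H9.inLF_spec hf.1, (H9.sqNorm_vecF f).trans hf.2⟩
    have h := (H9.allBelow_iff _ _).mp aux_min k hk
    rw [Bool.or_eq_true, Bool.or_eq_true, Nat.beq_eq, Nat.beq_eq] at h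
    rcases h with rfl | rfl | h
    · have : H9.vecF (H9.genF 0) = 0 := by
        ext p
        exact (aux_z _ (H9.idx_lt p)).1
      rw [SetLike.mem_coe, this]
      exact AddSubgroup.zero_mem _
    · have : H9.vecF (H9.genF 24) = H9.vecF (fun j => H9.bsel (Nat.blt j 2) 4 0) - H9.vecF (H9.genF 1) := by
        ext p
        exact (aux_z _ (H9.idx_lt p)).2
      rw [SetLike.mem_coe, this]
      refine AddSubgroup.sub_mem _ (hmin _ aux_h) (hmin _ ?_)
      have h1 := (H9.allBelow_iff _ _).mp aux_min 1 (by norm_num)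
      exact h1
    · exact hmin _ h

end Cfsg.Agent.S1567
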