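import Cfsg.Statements.S1568
import Cfsg.Agent.Lib_H9_Leech3

set_option autoImplicit false
open Cfsg

namespace Cfsg.Agent.S1568

open Cfsg.Agent.H9

set_option maxRecDepth 100000 in
theorem tval : tot allVals 48 = 16773120 := by decide +kernel

set_option maxRecDepth 100000 in
theorem tval1 : tot [0, 2, -2] 48 = 5275648 := by decide +kernel

set_option maxRecDepth 100000 in
theorem tval2 : tot [-3, -1, 1, 3] 48 = 8290304 := by decide +kernel

def no4 : List ℤ := [-8, -7, -6, -5, -3, -2, -1, 0, 1, 2, 3, 5, 6, 7, 8]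
def no5 : List ℤ := [-8, -7, -6, -4, -3, -2, -1, 0, 1, 2, 3, 4, 6, 7, 8]

set_option maxRecDepth 100000 in
theorem tval3 : tot no4 48 = 16773120 - 3108864 := by decide +kernel

set_option maxRecDepth 100000 in
theorem tval4 : tot no5 48 = 16773120 - 98304 := by decide +kernel

theorem all48 : {x : GolayPt → ℤ | x ∈ leechLattice ∧ sqNorm x = 48}.ncard = 16773120 := by
  have h := count_norm (N := 48) (by norm_num)
  rw [tval] at h
  exact_mod_cast h

theorem bound48 {x : GolayPt → ℤ} (h : sqNorm x = 48) (i : GolayPt) : -8 ≤ x i ∧ x i ≤ 8 := by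
  have := entries_le (le_of_eq h) i
  constructor <;> nlinarith

/-- complement counting -/
theorem compl_count (P : (GolayPt → ℤ) → Prop) (n : ℕ)
    (h : {x : GolayPt → ℤ | x ∈ leechLattice ∧ sqNorm x = 48 ∧ ¬ P x}.ncard = 16773120 - n) (hn : n ≤ 16773120) :
    {x : GolayPt → ℤ | x ∈ leechLattice ∧ sqNorm x = 48 ∧ P x}.ncard = n := by
  have hfin : {x : GolayPt → ℤ | x ∈ leechLattice ∧ sqNorm x = 48}.Finite :=
    Set.finite_of_ncard_ne_zero (by rw [all48]; norm_num)
  have hu : {x : GolayPt → ℤ | x ∈ leechLattice ∧ sqNorm x = 48} =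
      {x : GolayPt → ℤ | x ∈ leechLattice ∧ sqNorm x = 48 ∧ P x} ∪
      {x : GolayPt → ℤ | x ∈ leechLattice ∧ sqNorm x = 48 ∧ ¬ P x} := by
    ext x
    simp only [Set.mem_ofPred_eq, Set.mem_union]
    tauto
  have hd : Disjoint {x : GolayPt → ℤ | x ∈ leechLattice ∧ sqNorm x = 48 ∧ P x}
      {x : GolayPt → ℤ | x ∈ leechLattice ∧ sqNorm x = 48 ∧ ¬ P x} := by
    rw [Set.disjoint_left]
    rintro x ⟨_, _, h1⟩ ⟨_, _, h2⟩
    exact h2 h1
  have := Set.ncard_union_eq hd (hfin.subset (by rw [hu]; exact Set.subset_union_left))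
    (hfin.subset (by rw [hu]; exact Set.subset_union_right))
  rw [← hu, all48, h] at this
  omega

theorem odd_of_mem {x : GolayPt → ℤ} (hx : x ∈ leechLattice) {i : GolayPt} (hi : x i % 2 = 1) (l : GolayPt) :
    x l % 2 = 1 := by
  rw [mem_leech_iff] at hx
  obtain ⟨m, h, _⟩ := hx
  have h1 := h i
  have h2 := h l
  omega

theorem part2 : {x : GolayPt → ℤ | x ∈ leechLattice ∧ sqNorm x = 48 ∧ ∃ i j k, i ≠ j ∧ j ≠ k ∧ i ≠ k ∧
    |x i| = 3 ∧ |x j| = 3 ∧ |x k| = 3}.ncard = 8290304 := by
  have h := count_leech (vals := [-3, -1, 1, 3]) (by decide) (by decide) 48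
  rw [tval2] at h
  rw [← h]
  congr 1
  ext x
  simp only [Set.mem_ofPred_eq, List.mem_cons, List.not_mem_nil, or_false, Nat.cast_ofNat]
  constructor
  · rintro ⟨h1, h2, i, j, k, hij, hjk, hik, hi, hj, hk⟩
    refine ⟨h1, h2, fun l => ?_⟩
    have hodd : ∀ l, x l % 2 = 1 := odd_of_mem h1 (i := i) (by rcases abs_eq (by norm_num : (0:ℤ) ≤ 3) |>.mp hi with h | h <;> rw [h] <;> norm_num)
    have hnn : ∀ l, 0 ≤ x l ^ 2 - 1 := by
      intro l
      have : x l ≠ 0 := by have := hodd l; omega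
      have : 0 < x l ^ 2 := by positivity
      omega
    have hsum : ∑ l, (x l ^ 2 - 1) = 24 := by
      rw [Finset.sum_sub_distrib]
      have : ∑ l, x l ^ 2 = 48 := h2
      rw [this]
      simp
    have sq3 : ∀ t, |x t| = 3 → x t ^ 2 - 1 = 8 := by
      intro t ht
      rw [← sq_abs, ht]; norm_num
    by_cases hl : l = i ∨ l = j ∨ l = k
    · have : |x l| = 3 := by rcases hl with rfl | rfl | rfl <;> assumption
      rcases abs_eq (by norm_num : (0:ℤ) ≤ 3) |>.mp this with h | h <;> rw [h] <;> norm_num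
    · push Not at hl
      have hle := Finset.sum_le_univ_sum_of_nonneg (s := {l, i, j, k}) hnn
      rw [Finset.sum_insert (by simp [hl.1, hl.2.1, hl.2.2]), Finset.sum_insert (by simp [hij, hik]),
        Finset.sum_insert (by simp [hjk]), Finset.sum_singleton, sq3 i hi, sq3 j hj, sq3 k hk, hsum] at hle
      have h0 := hnn l
      have h1 : x l ^ 2 = 1 := by omega
      have hb : -1 ≤ x l ∧ x l ≤ 1 := by constructor <;> nlinarith
      have := hodd l
      omega
  · rintro ⟨h1, h2, h3⟩
    refine ⟨h1, h2, ?_⟩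
    classical
    set T : Finset GolayPt := Finset.univ.filter (fun l => |x l| = 3) with hT
    have hsq : ∀ l, x l ^ 2 = 1 + 8 * ind T l := by
      intro l
      rcases ind_cases T l with ⟨hl, e⟩ | ⟨hl, e⟩
      · rw [e]
        rw [hT, Finset.mem_filter] at hl
        rw [← sq_abs, hl.2]; norm_num
      · rw [e]
        rw [hT, Finset.mem_filter] at hl
        rcases h3 l with h | h | h | h
        · exact absurd ⟨Finset.mem_univ l, by rw [h]; norm_num⟩ hl
        · rw [h]; norm_num
        · rw [h]; norm_num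
        · exact absurd ⟨Finset.mem_univ l, by rw [h]; norm_num⟩ hl
    have hs : (48 : ℤ) = 24 + 8 * T.card := by
      have : ∑ l, x l ^ 2 = 48 := h2
      rw [← this]
      simp only [hsq, Finset.sum_add_distrib, ← Finset.mul_sum, sum_ind]
      simp
    have hc : T.card = 3 := by omega
    obtain ⟨i, j, k, hij, hik, hjk, e⟩ := Finset.card_eq_three.mp hc
    have hm : ∀ t ∈ T, |x t| = 3 := fun t ht => by
      rw [hT, Finset.mem_filter] at ht; exact ht.2
    exact ⟨i, j, k, hij, hjk, hik, hm i (by rw [e]; simp), hm j (by rw [e]; simp), hm k (by rw [e]; simp)⟩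


/-- Shape census of the lattice vectors of sum of squares 48 (customary norm 6): the four families (2^12, 0^12), (±3^3, ±1^21), (±4, ±2^8, 0^15) and (±5, ±1^23) have 5275648, 8290304, 3108864 and 98304 members. -/
theorem result : {x : Cfsg.GolayPt → ℤ | x ∈ Cfsg.leechLattice ∧ Cfsg.sqNorm x = 48 ∧ ∀ i, x i = 0 ∨ x i = 2 ∨ x i = -2}.ncard = 5275648 ∧ {x : Cfsg.GolayPt → ℤ | x ∈ Cfsg.leechLattice ∧ Cfsg.sqNorm x = 48 ∧ ∃ i j k, i ≠ j ∧ j ≠ k ∧ i ≠ k ∧ |x i| = 3 ∧ |x j| = 3 ∧ |x k| = 3}.ncard = 8290304 ∧ {x : Cfsg.GolayPt → ℤ | x ∈ Cfsg.leechLattice ∧ Cfsg.sqNorm x = 48 ∧ ∃ i, |x i| = 4}.ncard = 3108864 ∧ {x : Cfsg.GolayPt → ℤ | x ∈ Cfsg.leechLattice ∧ Cfsg.sqNorm x = 48 ∧ ∃ i, |x i| = 5}.ncard = 98304 := by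
  refine ⟨?_, part2, ?_, ?_⟩
  · have h := count_leech (vals := [0, 2, -2]) (by decide) (by decide) 48
    rw [tval1] at h
    rw [← h]
    congr 1
    ext x
    simp only [Set.mem_ofPred_eq, List.mem_cons, List.not_mem_nil, or_false, Nat.cast_ofNat]
  · apply compl_count _ _ _ (by norm_num)
    have h := count_leech (vals := no4) (by decide) (by decide) 48
    rw [tval3] at h
    rw [← h]
    congr 1
    ext x
    simp only [Set.mem_ofPred_eq, Nat.cast_ofNat, not_exists]
    constructor
    · rintro ⟨h1, h2, h3⟩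
      refine ⟨h1, h2, fun i => ?_⟩
      have hb := bound48 h2 i
      have h4 := h3 i
      have h5 : x i ≠ 4 := by rintro h; apply h4; rw [h]; norm_num
      have h6 : x i ≠ -4 := by rintro h; apply h4; rw [h]; norm_num
      unfold no4
      simp only [List.mem_cons, List.not_mem_nil, or_false]
      omega
    · rintro ⟨h1, h2, h3⟩
      refine ⟨h1, h2, fun i h4 => ?_⟩
      have := h3 i
      unfold no4 at this
      simp only [List.mem_cons, List.not_mem_nil, or_false] at this
      rcases abs_eq (by norm_num : (0:ℤ) ≤ 4) |>.mp h4 with h | h <;> omega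
  · apply compl_count _ _ _ (by norm_num)
    have h := count_leech (vals := no5) (by decide) (by decide) 48
    rw [tval4] at h
    rw [← h]
    congr 1
    ext x
    simp only [Set.mem_ofPred_eq, Nat.cast_ofNat, not_exists]
    constructor
    · rintro ⟨h1, h2, h3⟩
      refine ⟨h1, h2, fun i => ?_⟩
      have hb := bound48 h2 i
      have h4 := h3 i
      have h5 : x i ≠ 5 := by rintro h; apply h4; rw [h]; norm_num
      have h6 : x i ≠ -5 := by rintro h; apply h4; rw [h]; norm_num
      unfold no5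
      simp only [List.mem_cons, List.not_mem_nil, or_false]
      omega
    · rintro ⟨h1, h2, h3⟩
      refine ⟨h1, h2, fun i h4 => ?_⟩
      have := h3 i
      unfold no5 at this
      simp only [List.mem_cons, List.not_mem_nil, or_false] at this
      rcases abs_eq (by norm_num : (0:ℤ) ≤ 5) |>.mp h4 with h | h <;> omega

end Cfsg.Agent.S1568
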