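import Cfsg.Statements.S1578
import Cfsg.Agent.Lib_H9_Co0j

set_option autoImplicit false
open Cfsg

namespace Cfsg.Agent.S1578

/-- A lattice vector of customary norm 6 is the sum of an unordered pair of minimal vectors in exactly 276 ways (552 ordered summands). -/
theorem result (u : ↥Cfsg.leechLattice) (hu : Cfsg.sqNorm (u : Cfsg.GolayPt → ℤ) = 48) : {v : ↥Cfsg.leechLattice | Cfsg.sqNorm (v : Cfsg.GolayPt → ℤ) = 32 ∧ Cfsg.sqNorm ((u - v) : Cfsg.GolayPt → ℤ) = 32}.ncard = 552 := by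
  classical
  rw [← H9.kk3 u hu, ← Set.ncard_image_of_injective _ Subtype.val_injective]
  unfold H9.kk
  rw [← Set.ncard_coe_finset]
  congr 1
  ext x
  simp only [Set.mem_image, Set.mem_ofPred_eq, Finset.coe_filter, H9.mem_Sh]
  constructor
  · rintro ⟨v, ⟨h1, h2⟩, rfl⟩
    exact ⟨⟨v.2, h1⟩, leechLattice.sub_mem u.2 v.2, h2⟩
  · rintro ⟨⟨h1, h2⟩, _, h4⟩
    exact ⟨⟨x, h1⟩, ⟨h2, h4⟩, rfl⟩

end Cfsg.Agent.S1578
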