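import Cfsg.Statements.S1579
import Cfsg.Agent.Lib_H9_Co0f

set_option autoImplicit false
open Cfsg

namespace Cfsg.Agent.S1579

/-- The stabiliser of a vector of customary norm 6 is transitive on the 552 minimal vectors that complete it to a sum of two minimal vectors. -/
theorem result (u v v' : ↥Cfsg.leechLattice) (hu : Cfsg.sqNorm (u : Cfsg.GolayPt → ℤ) = 48) (hv : Cfsg.sqNorm (v : Cfsg.GolayPt → ℤ) = 32 ∧ Cfsg.sqNorm ((u - v) : Cfsg.GolayPt → ℤ) = 32) (hv' : Cfsg.sqNorm (v' : Cfsg.GolayPt → ℤ) = 32 ∧ Cfsg.sqNorm ((u - v') : Cfsg.GolayPt → ℤ) = 32) : ∃ g : ↥Cfsg.Co0, g • u = u ∧ g • v = v' := by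
  obtain ⟨g1, hg1⟩ := H9.trans2 v v' hv.1 hv'.1
  have key : ∀ x : leechLattice, sqNorm (x : GolayPt → ℤ) = 32 →
      sqNorm (((u - x : leechLattice)) : GolayPt → ℤ) = 32 →
      dotInt (x : GolayPt → ℤ) ((u - x : leechLattice) : GolayPt → ℤ) = -8 := by
    intro x h1 h2
    have h := H9.sqNorm_add (x : GolayPt → ℤ) ((u - x : leechLattice) : GolayPt → ℤ)
    have e : (x : GolayPt → ℤ) + ((u - x : leechLattice) : GolayPt → ℤ) = u := by
      rw [AddSubgroup.coe_sub]; abel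
    rw [e, hu, h1, h2] at h
    omega
  have d1 := key v hv.1 hv.2
  have d2 := key v' hv'.1 hv'.2
  obtain ⟨g2, h2, h3⟩ := H9.trans_pair H9.Y_all.2.1 v' (g1 • (u - v)) (u - v') hv'.1
    (by rw [H9.Co0_norm]; exact hv.2) hv'.2 (by rw [← hg1, H9.Co0_dot]; exact d1) d2
  refine ⟨g2 * g1, ?_, by rw [mul_smul, hg1, h2]⟩
  have hu' : u = v + (u - v) := by abel
  rw [mul_smul]
  conv_lhs => rw [hu']
  rw [H9.Co0_add, H9.Co0_add, hg1, h2, h3]
  abel

end Cfsg.Agent.S1579
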