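import Cfsg.Statements.S1581
import Cfsg.Agent.Lib_H9_CfgG
import Cfsg.Agent.Lib_H9_Rk3

set_option autoImplicit false
open Cfsg

namespace Cfsg.Agent.S1581

/-- The McLaughlin group acts with rank 3 and subdegrees 1, 112, 162 on its 275 points: the point stabiliser has two orbits on the remaining points, distinguished by customary inner product 1 or 2 with the fixed point. -/
theorem result (u v x : ↥Cfsg.leechLattice) (hu : Cfsg.sqNorm (u : Cfsg.GolayPt → ℤ) = 48) (hv : Cfsg.sqNorm (v : Cfsg.GolayPt → ℤ) = 32 ∧ Cfsg.sqNorm ((u - v) : Cfsg.GolayPt → ℤ) = 32) (hx : x ∈ {x : ↥Cfsg.leechLattice | Cfsg.sqNorm (x : Cfsg.GolayPt → ℤ) = 32 ∧ Cfsg.sqNorm ((u - x) : Cfsg.GolayPt → ℤ) = 32 ∧ Cfsg.dotInt (v : Cfsg.GolayPt → ℤ) (x : Cfsg.GolayPt → ℤ) = 16}) : {y : ↥Cfsg.leechLattice | y ∈ {x : ↥Cfsg.leechLattice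 | Cfsg.sqNorm (x : Cfsg.GolayPt → ℤ) = 32 ∧ Cfsg.sqNorm ((u - x) : Cfsg.GolayPt → ℤ) = 32 ∧ Cfsg.dotInt (v : Cfsg.GolayPt → ℤ) (x : Cfsg.GolayPt → ℤ) = 16} ∧ Cfsg.dotInt (x : Cfsg.GolayPt → ℤ) (y : Cfsg.GolayPt → ℤ) = 8}.ncard = 112 ∧ {y : ↥Cfsg.leechLattice | y ∈ {x : ↥Cfsg.leechLattice | Cfsg.sqNorm (x : Cfsg.GolayPt → ℤ) = 32 ∧ Cfsg.sqNorm ((u - x) : Cfsg.GolayPt → ℤ) = 32 ∧ Cfsg.dotInt (v : Cfsg.GolayPt → ℤ) (x : Cfsg.GolayPt → ℤ) = 16} ∧ y ≠ x ∧ Cfsg.dotInt (x : Cfsg.GolayPt → ℤ) (y : Cfsg.GolayPt → ℤ) = 16}.ncard = 162 ∧ ∀ y ∈ {x : ↥Cfsg.leechLattice | Cfsg.sqNorm (x : Cfsg.GolayPt → ℤ) = 32 ∧ Cfsg.sqNorm ((u - x) : Cfsg.GolayPt → ℤ) = 32 ∧ Cfsg.dotInt (v : Cfsg.GolayPt → ℤ) (x : Cfsg.GolayPt → ℤ) = 16}, ∀ y' ∈ {x : ↥Cfsg.leechLattice | Cfsg.sqNorm (x : Cfsg.GolayPt → ℤ) = 32 ∧ Cfsg.sqNorm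 ((u - x) : Cfsg.GolayPt → ℤ) = 32 ∧ Cfsg.dotInt (v : Cfsg.GolayPt → ℤ) (x : Cfsg.GolayPt → ℤ) = 16}, y ≠ x → y' ≠ x → Cfsg.dotInt (x : Cfsg.GolayPt → ℤ) (y : Cfsg.GolayPt → ℤ) = Cfsg.dotInt (x : Cfsg.GolayPt → ℤ) (y' : Cfsg.GolayPt → ℤ) → ∃ g : ↥Cfsg.Co0, g • u = u ∧ g • v = v ∧ g • x = x ∧ g • y = y' := by
  have huv : dotInt (u : GolayPt → ℤ) (v : GolayPt → ℤ) = 24 := (H9.sub_min_iff hu hv.1).mp hv.2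
  have conv : ∀ y : ↥leechLattice, y ∈ {x : ↥leechLattice | sqNorm (x : GolayPt → ℤ) = 32 ∧
      sqNorm ((u - x) : GolayPt → ℤ) = 32 ∧ dotInt (v : GolayPt → ℤ) (x : GolayPt → ℤ) = 16} ↔
      (sqNorm (y : GolayPt → ℤ) = 32 ∧ dotInt (u : GolayPt → ℤ) (y : GolayPt → ℤ) = 24 ∧
      dotInt (v : GolayPt → ℤ) (y : GolayPt → ℤ) = 16) := by
    intro y
    constructor
    · rintro ⟨h1, h2, h3⟩
      exact ⟨h1, (H9.sub_min_iff hu h1).mp h2, h3⟩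
    · rintro ⟨h1, h2, h3⟩
      exact ⟨h1, (H9.sub_min_iff hu h1).mpr h2, h3⟩
  have hx' := (conv x).mp hx
  have hg : ∃ g0 : Co0, g0 • H9.UsE = u ∧ g0 • H9.VpL = v ∧ g0 • H9.X1L = x := by
    obtain ⟨g1, e1, e2⟩ := H9.pair32 H9.UsE H9.VpL u v H9.norm_UsE H9.norm_Vp H9.dot_UsVp hu hv.1 huv
    obtain ⟨⟨_, n⟩, d1, d2, _⟩ := H9.mem_S3.mp H9.X1L_mem
    obtain ⟨g2, f1, f2, e3⟩ := (H9.mainE u v hu hv.1 huv).2 (g1 • H9.X1L) x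
      ⟨by rw [H9.Co0_norm]; exact n, by rw [← e1, H9.Co0_dot]; exact d1, by rw [← e2, H9.Co0_dot]; exact d2⟩ hx'
    exact ⟨g2 * g1, by rw [mul_smul, e1, f1], by rw [mul_smul, e2, f2], by rw [mul_smul, e3]⟩
  obtain ⟨c1, c2, t, dots⟩ := H9.rank3 (H9.tab_cardg H9.tbG1_ok) H9.tabG1_orb H9.RG1L_mem H9.cntG1
    (H9.tab_cardg H9.tbG2_ok) H9.tabG2_orb H9.RG2L_mem H9.cntG2 H9.dotsG
    (H9.mem_S3.mp H9.X1L_mem).1.2 u v x hg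
  refine ⟨?_, ?_, ?_⟩
  · rw [← c1]
    congr 1
    ext y
    simp only [Set.mem_ofPred_eq] at conv ⊢
    rw [conv y, and_assoc, and_assoc]
  · rw [← c2]
    congr 1
    ext y
    simp only [Set.mem_ofPred_eq] at conv ⊢
    rw [conv y]
    constructor
    · rintro ⟨⟨h1, h2, h3⟩, _, h4⟩
      exact ⟨h1, h2, h3, h4⟩
    · rintro ⟨h1, h2, h3, h4⟩
      refine ⟨⟨h1, h2, h3⟩, ?_, h4⟩
      rintro rfl
      rw [H9.dotInt_self, h1] at h4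
      norm_num at h4
  · intro y hy y' hy' hne hne' hd
    obtain ⟨n, d1, d2⟩ := (conv y).mp hy
    obtain ⟨n', d1', d2'⟩ := (conv y').mp hy'
    exact t y y' n d1 d2 n' d1' d2' hne hne' hd

end Cfsg.Agent.S1581
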