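import Cfsg.Statements.S1584
import Cfsg.Agent.Lib_H9_CfgH
import Cfsg.Agent.Lib_H9_Rk3

set_option autoImplicit false
open Cfsg

namespace Cfsg.Agent.S1584

/-- The Higman–Sims group acts with rank 3 and subdegrees 1, 22, 77 on its 100 points, the orbits of a point stabiliser being distinguished by customary inner product 1 with the fixed point. -/
theorem result (v w x : ↥Cfsg.leechLattice) (hv : Cfsg.sqNorm (v : Cfsg.GolayPt → ℤ) = 48) (hw : Cfsg.sqNorm (w : Cfsg.GolayPt → ℤ) = 48) (hvw : Cfsg.dotInt (v : Cfsg.GolayPt → ℤ) (w : Cfsg.GolayPt → ℤ) = -32) (hx : x ∈ {x : ↥Cfsg.leechLattice | Cfsg.sqNorm (x : Cfsg.GolayPt → ℤ) = 32 ∧ Cfsg.dotInt (v : Cfsg.GolayPt → ℤ) (x : Cfsg.GolayPt → ℤ) = 24 ∧ Cfsg.dotInt (w : Cfsg.GolayPt → ℤ) (x : Cfsg.GolayPt → ℤ) = -24}) : {y : ↥Cfsg.leechLattice | y ∈ {x : ↥Cfsg.leechLattice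 | Cfsg.sqNorm (x : Cfsg.GolayPt → ℤ) = 32 ∧ Cfsg.dotInt (v : Cfsg.GolayPt → ℤ) (x : Cfsg.GolayPt → ℤ) = 24 ∧ Cfsg.dotInt (w : Cfsg.GolayPt → ℤ) (x : Cfsg.GolayPt → ℤ) = -24} ∧ Cfsg.dotInt (x : Cfsg.GolayPt → ℤ) (y : Cfsg.GolayPt → ℤ) = 8}.ncard = 22 ∧ {y : ↥Cfsg.leechLattice | y ∈ {x : ↥Cfsg.leechLattice | Cfsg.sqNorm (x : Cfsg.GolayPt → ℤ) = 32 ∧ Cfsg.dotInt (v : Cfsg.GolayPt → ℤ) (x : Cfsg.GolayPt → ℤ) = 24 ∧ Cfsg.dotInt (w : Cfsg.GolayPt → ℤ) (x : Cfsg.GolayPt → ℤ) = -24} ∧ y ≠ x ∧ Cfsg.dotInt (x : Cfsg.GolayPt → ℤ) (y : Cfsg.GolayPt → ℤ) ≠ 8}.ncard = 77 ∧ ∀ y ∈ {x : ↥Cfsg.leechLattice | Cfsg.sqNorm (x : Cfsg.GolayPt → ℤ) = 32 ∧ Cfsg.dotInt (v : Cfsg.GolayPt → ℤ) (x : Cfsg.GolayPt → ℤ) = 24 ∧ Cfsg.dotInt (w : Cfsg.GolayPt → ℤ) (x : Cfsg.GolayPt → ℤ) = -24}, ∀ y' ∈ {x : ↥Cfsg.leechLattice | Cfsg.sqNorm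 (x : Cfsg.GolayPt → ℤ) = 32 ∧ Cfsg.dotInt (v : Cfsg.GolayPt → ℤ) (x : Cfsg.GolayPt → ℤ) = 24 ∧ Cfsg.dotInt (w : Cfsg.GolayPt → ℤ) (x : Cfsg.GolayPt → ℤ) = -24}, y ≠ x → y' ≠ x → (Cfsg.dotInt (x : Cfsg.GolayPt → ℤ) (y : Cfsg.GolayPt → ℤ) = 8 ↔ Cfsg.dotInt (x : Cfsg.GolayPt → ℤ) (y' : Cfsg.GolayPt → ℤ) = 8) → ∃ g : ↥Cfsg.Co0, g • v = v ∧ g • w = w ∧ g • x = x ∧ g • y = y' := by
  have hx' : sqNorm (x : GolayPt → ℤ) = 32 ∧ dotInt (v : GolayPt → ℤ) (x : GolayPt → ℤ) = 24 ∧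
      dotInt (w : GolayPt → ℤ) (x : GolayPt → ℤ) = -24 := hx
  have hg : ∃ g0 : Co0, g0 • H9.UsF = v ∧ g0 • H9.WsL = w ∧ g0 • H9.X2L = x := by
    obtain ⟨g1, e1, e2⟩ := H9.pair48 H9.UsF H9.WsL v w H9.norm_UsF H9.norm_Ws H9.dot_UsWs hv hw hvw
    obtain ⟨⟨_, n⟩, d1, d2, _⟩ := H9.mem_S3.mp H9.X2L_mem
    obtain ⟨g2, f1, f2, e3⟩ := (H9.mainF v w hv hw hvw).2 (g1 • H9.X2L) x
      ⟨by rw [H9.Co0_norm]; exact n, by rw [← e1, H9.Co0_dot]; exact d1, by rw [← e2, H9.Co0_dot]; exact d2⟩ hx'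
    exact ⟨g2 * g1, by rw [mul_smul, e1, f1], by rw [mul_smul, e2, f2], by rw [mul_smul, e3]⟩
  obtain ⟨c1, c2, t, dots⟩ := H9.rank3 (H9.tab_cardg H9.tbH1_ok) H9.tabH1_orb H9.RH1L_mem H9.cntH1
    (H9.tab_cardg H9.tbH2_ok) H9.tabH2_orb H9.RH2L_mem H9.cntH2 H9.dotsH
    (H9.mem_S3.mp H9.X2L_mem).1.2 v w x hg
  refine ⟨?_, ?_, ?_⟩
  · refine Eq.trans ?_ c1
    congr 1
    ext y
    simp only [Set.mem_ofPred_eq]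
    rw [and_assoc, and_assoc]
  · refine Eq.trans ?_ c2
    congr 1
    ext y
    simp only [Set.mem_ofPred_eq]
    constructor
    · rintro ⟨⟨h1, h2, h3⟩, hne, h4⟩
      rcases dots y h1 h2 h3 hne with h | h
      · exact absurd h h4
      · exact ⟨h1, h2, h3, h⟩
    · rintro ⟨h1, h2, h3, h4⟩
      refine ⟨⟨h1, h2, h3⟩, ?_, by rw [h4]; norm_num⟩
      rintro rfl
      rw [H9.dotInt_self, h1] at h4
      norm_num at h4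
  · intro y hy y' hy' hne hne' hd
    obtain ⟨n, d1, d2⟩ := hy
    obtain ⟨n', d1', d2'⟩ := hy'
    refine t y y' n d1 d2 n' d1' d2' hne hne' ?_
    rcases dots y n d1 d2 hne with h | h <;> rcases dots y' n' d1' d2' hne' with h' | h'
    · rw [h, h']
    · exact absurd (hd.mp h) (by rw [h']; norm_num)
    · exact absurd (hd.mpr h') (by rw [h]; norm_num)
    · rw [h, h']

end Cfsg.Agent.S1584
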