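import Cfsg.Statements.S1587
import Mathlib

set_option autoImplicit false
open Matrix
open Cfsg

namespace Cfsg.Agent.S1587

/-- First step of the characterisation of the rank-24 lattice: in an even lattice without roots, norm-8 vectors congruent modulo 2 are equal, opposite or orthogonal. -/
theorem result (B : Matrix (Fin 24) (Fin 24) ℤ) (hsymm : B.IsSymm) (hpos : ∀ x : Fin 24 → ℤ, x ≠ 0 → 0 < x ⬝ᵥ (B *ᵥ x)) (heven : ∀ x : Fin 24 → ℤ, (2 : ℤ) ∣ x ⬝ᵥ (B *ᵥ x)) (h2 : ∀ x : Fin 24 → ℤ, x ⬝ᵥ (B *ᵥ x) ≠ 2) (x y : Fin 24 → ℤ) (hx : x ⬝ᵥ (B *ᵥ x) = 8) (hy : y ⬝ᵥ (B *ᵥ y) = 8) (hc : ∀ i, (2 : ℤ) ∣ (x - y) i) : y = x ∨ y = -x ∨ x ⬝ᵥ (B *ᵥ y) = 0 := by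
  have hsym : ∀ u v : Fin 24 → ℤ, u ⬝ᵥ (B *ᵥ v) = v ⬝ᵥ (B *ᵥ u) := by
    intro u v
    rw [Matrix.dotProduct_mulVec, ← Matrix.mulVec_transpose, hsymm.eq, dotProduct_comm]
  have hge : ∀ u : Fin 24 → ℤ, u ≠ 0 → 4 ≤ u ⬝ᵥ (B *ᵥ u) := by
    intro u hu
    have h1 := hpos u hu
    obtain ⟨k, hk⟩ := heven u
    have h3 := h2 u
    omega
  choose z hz using hc
  have hxz : x = y + (2:ℤ) • z := by
    funext i
    have := hz i
    simp only [Pi.sub_apply] at this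
    simp only [Pi.add_apply, Pi.smul_apply, smul_eq_mul]
    linarith
  subst hxz
  have e1 : (y + (2:ℤ)•z) ⬝ᵥ (B *ᵥ (y + (2:ℤ)•z))
      = y ⬝ᵥ (B *ᵥ y) + 4 * (y ⬝ᵥ (B *ᵥ z)) + 4 * (z ⬝ᵥ (B *ᵥ z)) := by
    simp only [Matrix.mulVec_add, Matrix.mulVec_smul, dotProduct_add, add_dotProduct,
      smul_dotProduct, dotProduct_smul, smul_eq_mul]
    rw [hsym z y]; ring
  have e2 : (y + (2:ℤ)•z) ⬝ᵥ (B *ᵥ y) = y ⬝ᵥ (B *ᵥ y) + 2 * (y ⬝ᵥ (B *ᵥ z)) := by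
    simp only [add_dotProduct, smul_dotProduct, smul_eq_mul]
    rw [hsym z y]
  have e3 : (z + y) ⬝ᵥ (B *ᵥ (z + y))
      = y ⬝ᵥ (B *ᵥ y) + 2 * (y ⬝ᵥ (B *ᵥ z)) + (z ⬝ᵥ (B *ᵥ z)) := by
    simp only [Matrix.mulVec_add, dotProduct_add, add_dotProduct]
    rw [hsym z y]; ring
  by_cases hz0 : z = 0
  · left
    subst hz0
    simp
  by_cases hw0 : z + y = 0
  · right; left
    have : y = -z := by
      rw [eq_neg_iff_add_eq_zero, add_comm]; exact hw0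
    rw [this]
    funext i
    simp only [Pi.neg_apply, Pi.add_apply, Pi.smul_apply, smul_eq_mul]
    ring
  right; right
  have h4 := hge z hz0
  have h5 := hge (z + y) hw0
  rw [e2]
  rw [e1] at hx
  rw [e3] at h5
  omega

end Cfsg.Agent.S1587
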