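import Cfsg.Statements.S1588
import Cfsg.Agent.Lib_H9_Cross

set_option autoImplicit false
open Matrix
open Cfsg

namespace Cfsg.Agent.S1588

open Cfsg.Agent.H9

theorem mod2_iff {ι : Type*} (x y : ι → ℤ) :
    ((fun i => ((x i : ℤ) : ZMod 2)) = fun i => ((y i : ℤ) : ZMod 2)) ↔ ∀ i, (2 : ℤ) ∣ (x - y) i := by
  rw [funext_iff]
  refine forall_congr' fun i => ?_
  rw [ZMod.intCast_eq_intCast_iff_dvd_sub, Pi.sub_apply, ← dvd_neg, neg_sub]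
  rfl

theorem dvd_iff_smul {ι : Type*} (w : ι → ℤ) : (∀ i, (2 : ℤ) ∣ w i) ↔ ∃ z : ι → ℤ, w = 2 • z := by
  constructor
  · intro h
    choose z hz using h
    exact ⟨z, by ext i; rw [hz i]; simp⟩
  · rintro ⟨z, rfl⟩ i
    exact ⟨z i, by simp⟩


/-- Second step of the characterisation: under the vector counts of the rank-24 lattice, the norm-8 vectors fall into congruence classes of exactly 48 modulo twice the lattice. -/
theorem result (B : Matrix (Fin 24) (Fin 24) ℤ) (hsymm : B.IsSymm) (hpos : ∀ x : Fin 24 → ℤ, x ≠ 0 → 0 < x ⬝ᵥ (B *ᵥ x)) (heven : ∀ x : Fin 24 → ℤ, (2 : ℤ) ∣ x ⬝ᵥ (B *ᵥ x)) (h2 : ∀ x : Fin 24 → ℤ, x ⬝ᵥ (B *ᵥ x) ≠ 2) (h4 : {x : Fin 24 → ℤ | x ⬝ᵥ (B *ᵥ x) = 4}.ncard = 196560) (h6 : {x : Fin 24 → ℤ | x ⬝ᵥ (B *ᵥ x) = 6}.ncard = 16773120) (h8 : {x : Fin 24 → ℤ | x ⬝ᵥ (B *ᵥ x) = 8}.ncard = 398034000) (x : Fin 24 → ℤ) (hx : x ⬝ᵥ (B *ᵥ x)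 = 8) : {y : Fin 24 → ℤ | y ⬝ᵥ (B *ᵥ y) = 8 ∧ ∀ i, (2 : ℤ) ∣ (x - y) i}.ncard = 48 := by
  have hb : PForm (fun x y : Fin 24 → ℤ => x ⬝ᵥ (B *ᵥ y)) := by
    refine ⟨fun x y z => add_dotProduct _ _ _, fun x y => ?_, hpos⟩
    show x ⬝ᵥ (B *ᵥ y) = y ⬝ᵥ (B *ᵥ x)
    rw [Matrix.dotProduct_mulVec, ← Matrix.mulVec_transpose, hsymm.eq, dotProduct_comm]
  have hmin : ∀ x ∈ (⊤ : AddSubgroup (Fin 24 → ℤ)), x ≠ 0 → 2 * 2 ≤ x ⬝ᵥ (B *ᵥ x) := by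
    intro x _ hx0
    have h1 := hpos x hx0
    have h3 := heven x
    have h4 := h2 x
    omega
  have main := hb.cross_main (by simp) ⊤ (u := 2) (by norm_num) hmin
    (by simpa using h4) (by simpa using h6) (by simpa using h8)
    (Q := Fin 24 → ZMod 2) (by simp [ZMod.card]) (fun x i => ((x i : ℤ) : ZMod 2))
    (by
      intro x _ y _
      rw [mod2_iff, dvd_iff_smul]
      simp)
  have := main.1 x trivial (by simpa using hx)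
  rw [← this]
  congr 1
  ext y
  simp only [Set.mem_ofPred_eq, AddSubgroup.mem_top, true_and]
  rw [dvd_iff_smul]
  norm_num

end Cfsg.Agent.S1588
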