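import Cfsg.Statements.S1591
import Mathlib

set_option autoImplicit false
open Cfsg

namespace Cfsg.Agent.S1591

/-- Any two words of the length-12 ternary code have dot product zero. -/
theorem result (x y : Cfsg.ArrayPt → ZMod 3) (hx : x ∈ Cfsg.ternaryGolayCode) (hy : y ∈ Cfsg.ternaryGolayCode) : ∑ p, x p * y p = 0 := by
  have sum3 : ∀ f : ZMod 3 → ZMod 3, ∑ r, f r = f 0 + f 1 + f 2 := fun f => Fin.sum_univ_three f
  have h3 : (3 : ZMod 3) = 0 := by decide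
  have key : ∀ x : Cfsg.ArrayPt → ZMod 3, x ∈ Cfsg.ternaryGolayCode → ∃ s : ZMod 3,
      (x (0, 0) + x (0, 1) + x (0, 2) = -s) ∧ (x (1, 0) + x (1, 1) + x (1, 2) = -s) ∧
      (x (2, 0) + x (2, 1) + x (2, 2) = -s) ∧ (x (3, 0) + x (3, 1) + x (3, 2) = -s) ∧
      (x (0, 0) + x (1, 0) + x (2, 0) + x (3, 0) = s) ∧
      (x (0, 1) + x (1, 0) + x (2, 1) + x (3, 2) = s) ∧
      (x (0, 0) + x (1, 1) + x (2, 1) + x (3, 1) = s) := by
    intro x hx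
    obtain ⟨s, hs, hs'⟩ := hx
    refine ⟨s, ?_, ?_, ?_, ?_, ?_, ?_, ?_⟩
    · rw [← hs 0, sum3]
    · rw [← hs 1, sum3]
    · rw [← hs 2, sum3]
    · rw [← hs 3, sum3]
    · have := hs' 0 (Submodule.zero_mem _)
      rw [Fin.sum_univ_four] at this
      exact this
    · have := hs' ![1, 0, 1, 2] (Submodule.subset_span (by simp))
      rw [Fin.sum_univ_four] at this
      exact this
    · have := hs' ![0, 1, 1, 1] (Submodule.subset_span (by simp))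
      rw [Fin.sum_univ_four] at this
      exact this
  obtain ⟨s, hxc0, hxc1, hxc2, hxc3, hxt0, hxt1, hxt2⟩ := key x hx
  obtain ⟨s', hyc0, hyc1, hyc2, hyc3, hyt0, hyt1, hyt2⟩ := key y hy
  rw [Fintype.sum_prod_type, Fin.sum_univ_four, sum3, sum3, sum3, sum3]
  linear_combination ((1) * y (0, 2)) * hxc0 + ((1) * y (0, 0) + (1) * y (0, 1) + (1) * y (0, 2) + (-1) * y (1, 0) + (-1) * y (1, 1)) * hxc1 + ((1) * y (0, 0) + (-1) * y (0, 1) + (1) * y (1, 0) + (-1) * y (1, 1) + (1) * y (2, 0)) * hxc2 + ((1) * y (0, 0) + (-1) * y (0, 1) + (1) * y (1, 0) + (-1) * y (1, 1) + (1) * y (3, 0)) * hxc3 + ((-1) * y (0, 0) + (1) * y (0, 1) + (-1) * y (1, 0) + (1) * y (1, 1)) * hxt0 + ((1) * y (0, 1) + (-1) * y (0, 2)) * hxt1 + ((-1) * y (0, 0) + (-1) * y (0, 1) + (-1) * y (0, 2) + (1) * y (1, 0) + (-1) * y (1, 1)) * hxt2 + ((-1) * x (1, 2) + (-1) * x (2, 1) + (1) * x (3, 1) + (1) * x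 (3, 2) + (-1) * s) * hyc0 + ((1) * x (1, 2)) * hyc1 + ((1) * x (2, 2)) * hyc2 + ((1) * x (2, 1) + (-1) * x (2, 2) + (-1) * x (3, 1) + (-1) * x (3, 2)) * hyc3 + ((-1) * x (2, 1) + (1) * x (2, 2) + (-1) * s) * hyt0 + ((-1) * x (2, 1) + (1) * x (2, 2) + (1) * x (3, 1) + (-1) * x (3, 2)) * hyt1 + ((-1) * x (2, 1) + (1) * x (2, 2) + (-1) * x (3, 1) + (1) * x (3, 2)) * hyt2 + ((1) * x (0, 0) * y (0, 0) + (-1) * x (1, 0) * y (0, 1) + (1) * x (1, 0) * y (1, 0) + (1) * x (1, 1) * y (1, 1) + (1) * x (2, 1) * y (0, 0) + (1) * x (2, 1) * y (0, 1) + (1) * x (2, 1) * y (0, 2) + (1) * x (2, 1) * y (1, 1) + (1) * x (2, 1) * y (2, 1) + (-1) * x (2, 1) * s' + (-1) * x (2, 2) * y (0, 0) + (-1) * x (2, 2) * y (1, 0) + (-1) * x (2, 2) * y (2, 0) + (-1) * x (2, 2) * y (2, 1) + (1) * x (2, 2) * s' + (-1) * x (3, 1) * y (1, 0) + (1) * x (3, 1) * y (1, 1) + (1) * x (3, 1) * y (3, 1) + (-1) *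 x (3, 2) * y (0, 0) + (1) * x (3, 2) * y (3, 2) + (-1) * s * y (0, 0) + (1) * s * y (0, 1) + (-1) * s * y (0, 2) + (1) * s * y (1, 1)) * h3

end Cfsg.Agent.S1591
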