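import Cfsg.Statements.S1593
import Mathlib
import Cfsg.Agent.S1591

set_option autoImplicit false
open Cfsg

namespace Cfsg.Agent.S1593

/-- the word on the array with the given table of entries -/
def W (M : Fin 4 → Fin 3 → ZMod 3) : Cfsg.ArrayPt → ZMod 3 := fun p => M p.1 p.2

theorem memW (M : Fin 4 → Fin 3 → ZMod 3) (s : ZMod 3)
    (h1 : ∀ i : Fin 4, ∑ r : ZMod 3, W M (i, r) = -s)
    (h2 : ∀ a b : ZMod 3, ∑ i : Fin 4,
      W M (i, (a • ![0, 1, 1, 1] + b • ![1, 0, 1, 2] : Fin 4 → ZMod 3) i) = s) :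
    W M ∈ Cfsg.ternaryGolayCode := by
  refine ⟨s, h1, ?_⟩
  intro t ht
  rw [Cfsg.tetracode, Submodule.mem_span_pair] at ht
  obtain ⟨a, b, rfl⟩ := ht
  exact h2 a b

theorem edge (c : Cfsg.ArrayPt → (ZMod 3)ˣ)
    (hc : ∀ x ∈ Cfsg.ternaryGolayCode, ∀ y ∈ Cfsg.ternaryGolayCode,
      ∑ p, (c p : ZMod 3) * (x p * y p) = 0)
    (x y : Cfsg.ArrayPt → ZMod 3) (hx : x ∈ Cfsg.ternaryGolayCode) (hy : y ∈ Cfsg.ternaryGolayCode)
    (p0 q0 : Cfsg.ArrayPt) (hne : p0 ≠ q0) (h0 : ∀ r, r ≠ p0 ∧ r ≠ q0 → x r * y r = 0)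
    (h1 : x p0 * y p0 ≠ 0) (h2 : x p0 * y p0 + x q0 * y q0 = 0) : c p0 = c q0 := by
  have h := hc x hx y hy
  rw [Finset.sum_eq_add p0 q0 hne (fun r _ hr => by rw [h0 r hr, mul_zero])
    (fun h => absurd (Finset.mem_univ _) h) (fun h => absurd (Finset.mem_univ _) h)] at h
  have h3 : x q0 * y q0 = - (x p0 * y p0) := by linear_combination h2
  rw [h3] at h
  have h4 : ((c p0 : ZMod 3) - c q0) * (x p0 * y p0) = 0 := by linear_combination h
  rcases mul_eq_zero.1 h4 with h5 | h5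
  · exact Units.ext (sub_eq_zero.1 h5)
  · exact absurd h5 h1

/-- The only sign changes preserving the length-12 ternary code are the identity and negation of all coordinates. -/
theorem result (c : Cfsg.ArrayPt → (ZMod 3)ˣ) (h : (∀ x ∈ Cfsg.ternaryGolayCode, Cfsg.monomialMap 1 c x ∈ Cfsg.ternaryGolayCode)) : (∀ p, c p = 1) ∨ (∀ p, c p = -1) := by
  have hc : ∀ x ∈ Cfsg.ternaryGolayCode, ∀ y ∈ Cfsg.ternaryGolayCode,
      ∑ p, (c p : ZMod 3) * (x p * y p) = 0 := by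
    intro x hx y hy
    have := Cfsg.Agent.S1591.result _ y (h x hx) hy
    rw [← this]
    apply Finset.sum_congr rfl
    intro p _
    show (c p : ZMod 3) * (x p * y p) = ((c p : ZMod 3) * x p) * y p
    ring
  have e0 : c (0, 0) = c (0, 1) :=
    edge c hc (W ![![1, 1, 0], ![0, 0, 2], ![0, 2, 0], ![0, 1, 1]]) (W ![![1, 2, 0], ![1, 2, 0], ![1, 0, 2], ![0, 0, 0]]) (memW _ 1 (by decide) (by decide)) (memW _ 0 (by decide) (by decide))
      (0, 0) (0, 1) (by decide) (by decide) (by decide) (by decide)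
  have e1 : c (0, 1) = c (0, 2) :=
    edge c hc (W ![![0, 1, 1], ![0, 0, 2], ![0, 0, 2], ![1, 1, 0]]) (W ![![0, 1, 2], ![1, 2, 0], ![2, 1, 0], ![0, 0, 0]]) (memW _ 1 (by decide) (by decide)) (memW _ 0 (by decide) (by decide))
      (0, 1) (0, 2) (by decide) (by decide) (by decide) (by decide)
  have e2 : c (0, 2) = c (1, 0) :=
    edge c hc (W ![![0, 0, 1], ![1, 0, 0], ![0, 0, 1], ![1, 2, 1]]) (W ![![0, 1, 2], ![1, 2, 0], ![2, 1, 0], ![0, 0, 0]]) (memW _ 2 (by decide) (by decide)) (memW _ 0 (by decide) (by decide))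
      (0, 2) (1, 0) (by decide) (by decide) (by decide) (by decide)
  have e3 : c (1, 0) = c (1, 1) :=
    edge c hc (W ![![0, 0, 0], ![1, 1, 1], ![0, 0, 0], ![2, 2, 2]]) (W ![![0, 1, 2], ![1, 2, 0], ![2, 1, 0], ![0, 0, 0]]) (memW _ 0 (by decide) (by decide)) (memW _ 0 (by decide) (by decide))
      (1, 0) (1, 1) (by decide) (by decide) (by decide) (by decide)
  have e4 : c (1, 1) = c (1, 2) :=
    edge c hc (W ![![0, 0, 0], ![0, 1, 2], ![0, 1, 2], ![0, 1, 2]]) (W ![![0, 1, 1], ![0, 1, 1], ![2, 0, 0], ![2, 0, 0]]) (memW _ 0 (by decide) (by decide)) (memW _ 1 (by decide) (by decide))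
      (1, 1) (1, 2) (by decide) (by decide) (by decide) (by decide)
  have e5 : c (1, 2) = c (2, 0) :=
    edge c hc (W ![![0, 0, 0], ![0, 1, 2], ![1, 2, 0], ![2, 0, 1]]) (W ![![0, 1, 2], ![2, 0, 1], ![1, 0, 2], ![0, 0, 0]]) (memW _ 0 (by decide) (by decide)) (memW _ 0 (by decide) (by decide))
      (1, 2) (2, 0) (by decide) (by decide) (by decide) (by decide)
  have e6 : c (2, 0) = c (2, 1) :=
    edge c hc (W ![![0, 0, 0], ![0, 0, 0], ![1, 1, 1], ![2, 2, 2]]) (W ![![0, 1, 2], ![1, 2, 0], ![2, 1, 0], ![0, 0, 0]]) (memW _ 0 (by decide) (by decide)) (memW _ 0 (by decide) (by decide))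
      (2, 0) (2, 1) (by decide) (by decide) (by decide) (by decide)
  have e7 : c (2, 1) = c (2, 2) :=
    edge c hc (W ![![0, 0, 0], ![0, 0, 0], ![1, 1, 1], ![2, 2, 2]]) (W ![![0, 1, 2], ![0, 1, 2], ![0, 2, 1], ![0, 0, 0]]) (memW _ 0 (by decide) (by decide)) (memW _ 0 (by decide) (by decide))
      (2, 1) (2, 2) (by decide) (by decide) (by decide) (by decide)
  have e8 : c (2, 2) = c (3, 0) :=
    edge c hc (W ![![0, 0, 0], ![0, 0, 0], ![1, 1, 1], ![2, 2, 2]]) (W ![![0, 1, 0], ![1, 2, 1], ![0, 0, 1], ![1, 0, 0]]) (memW _ 0 (by decide) (by decide)) (memW _ 2 (by decide) (by decide))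
      (2, 2) (3, 0) (by decide) (by decide) (by decide) (by decide)
  have e9 : c (3, 0) = c (3, 1) :=
    edge c hc (W ![![0, 0, 0], ![0, 0, 0], ![1, 1, 1], ![2, 2, 2]]) (W ![![0, 1, 2], ![2, 1, 0], ![0, 0, 0], ![1, 2, 0]]) (memW _ 0 (by decide) (by decide)) (memW _ 0 (by decide) (by decide))
      (3, 0) (3, 1) (by decide) (by decide) (by decide) (by decide)
  have e10 : c (3, 1) = c (3, 2) :=
    edge c hc (W ![![0, 0, 0], ![0, 0, 0], ![1, 1, 1], ![2, 2, 2]]) (W ![![0, 1, 2], ![0, 2, 1], ![0, 0, 0], ![0, 1, 2]]) (memW _ 0 (by decide) (by decide)) (memW _ 0 (by decide) (by decide))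
      (3, 1) (3, 2) (by decide) (by decide) (by decide) (by decide)
  have l0 : c (0, 0) = c (0, 0) := rfl
  have l1 : c (0, 1) = c (0, 0) := e0.symm.trans l0
  have l2 : c (0, 2) = c (0, 0) := e1.symm.trans l1
  have l3 : c (1, 0) = c (0, 0) := e2.symm.trans l2
  have l4 : c (1, 1) = c (0, 0) := e3.symm.trans l3
  have l5 : c (1, 2) = c (0, 0) := e4.symm.trans l4
  have l6 : c (2, 0) = c (0, 0) := e5.symm.trans l5
  have l7 : c (2, 1) = c (0, 0) := e6.symm.trans l6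
  have l8 : c (2, 2) = c (0, 0) := e7.symm.trans l7
  have l9 : c (3, 0) = c (0, 0) := e8.symm.trans l8
  have l10 : c (3, 1) = c (0, 0) := e9.symm.trans l9
  have l11 : c (3, 2) = c (0, 0) := e10.symm.trans l10
  have hall : ∀ p, c p = c (0, 0) := by
    rintro ⟨i, r⟩
    fin_cases i <;> fin_cases r
    exacts [l0, l1, l2, l3, l4, l5, l6, l7, l8, l9, l10, l11]
  have hu : ∀ u : (ZMod 3)ˣ, u = 1 ∨ u = -1 := by decide
  rcases hu (c (0, 0)) with h1 | h1
  · left; intro p; rw [hall p, h1]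
  · right; intro p; rw [hall p, h1]

end Cfsg.Agent.S1593
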