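import Mathlib
import Cfsg.Statements.S1595
import Cfsg.Agent.Lib_helper1_Steiner2

set_option autoImplicit false
open Cfsg

namespace Cfsg.Agent.S1595

open Cfsg.Agent.H1 Finset in

/-- Leech triangle of S(5, 6, 12): blocks meet in 0, 2, 3 or 4 points, and a block is met exactly in a given 2-, 3- or 4-subset by 3, 2, 3 blocks respectively. -/
theorem result {α : Type*} [Fintype α] [DecidableEq α] (hα : Fintype.card α = 12) {B : Set (Finset α)} (hB : Cfsg.IsSteinerSystem 5 6 B) (b : Finset α) (hb : b ∈ B) : (∀ c ∈ B, c ≠ b → (b ∩ c).card = 0 ∨ (b ∩ c).card = 2 ∨ (b ∩ c).card = 3 ∨ (b ∩ c).card = 4) ∧ ∀ s ⊆ b, (s.card = 2 → {c : Finset α | c ∈ B ∧ b ∩ c = s}.ncard = 3) ∧ (s.card = 3 → {c : Finset α | c ∈ B ∧ b ∩ c = s}.ncard = 2) ∧ (s.card = 4 → {c : Finset α | c ∈ B ∧ b ∩ c = s}.ncard = 3) := by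
  have hb6 : b.card = 6 := hB.1 b hb
  constructor
  · intro c hc hcb
    obtain ⟨h0, h1, h2, h3, h4, h5, h6⟩ := s5612_cnt hα hB hb
    have hle := card_inter_le hB hb c
    rw [Finset.inter_comm b c]
    have hne : (c ∩ b).card ≠ 6 := fun h => hcb (eq_of_card_inter hB hb hc h)
    have hnz : ∀ j, (c ∩ b).card = j → cnt B ∅ b j ≠ 0 := fun j hj => cnt_ne_zero hc (Finset.empty_subset c) hj
    generalize (c ∩ b).card = j at *
    interval_cases j
    · left; rfl
    · exact absurd h1 (hnz 1 rfl)
    · right; left; rfl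
    · right; right; left; rfl
    · right; right; right; rfl
    · exact absurd h5 (hnz 5 rfl)
    · exact absurd rfl hne
  · intro s hsb
    have hd : Disjoint s (b \ s) := disjoint_sdiff
    have hX : (b \ s).card = 6 - s.card := by rw [card_sdiff_of_subset hsb, hb6]
    have key : {c : Finset α | c ∈ B ∧ b ∩ c = s}.ncard = cnt B s (b \ s) 0 := by
      rw [cnt_eq_ncard]
      congr 1
      ext c
      simp only [Set.mem_setOf_eq, card_eq_zero]
      constructor
      · rintro ⟨h1, h2⟩
        refine ⟨h1, h2 ▸ inter_subset_right, ?_⟩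
        ext x
        simp only [mem_inter, mem_sdiff, notMem_empty, iff_false]
        rintro ⟨hxc, hxb, hxs⟩
        exact hxs (h2 ▸ mem_inter.mpr ⟨hxb, hxc⟩)
      · rintro ⟨h1, h2, h3⟩
        refine ⟨h1, ?_⟩
        ext x
        simp only [mem_inter]
        constructor
        · rintro ⟨hxb, hxc⟩
          by_contra hxs
          have : x ∈ c ∩ (b \ s) := mem_inter.mpr ⟨hxc, mem_sdiff.mpr ⟨hxb, hxs⟩⟩
          rw [h3] at this
          exact absurd this (notMem_empty x)
        · intro hxs
          exact ⟨hsb hxs, h2 hxs⟩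
    have hpos : 0 < cnt B s (b \ s) (6 - s.card) := by
      have := cnt_pos (X := b \ s) hb hsb
      rwa [inter_eq_right.mpr sdiff_subset, hX] at this
    rw [key]
    refine ⟨?_, ?_, ?_⟩
    · intro hs
      rw [hs] at hX hpos
      have hc : (b \ s).card = 4 := hX
      have e0 := steiner_moment hB s (b \ s) hd 0 (by simp [hs]) 4 hc.le
      have e1 := steiner_moment hB s (b \ s) hd 1 (by simp [hs]) 4 hc.le
      have e2 := steiner_moment hB s (b \ s) hd 2 (by simp [hs]) 4 hc.le
      have e3 := steiner_moment hB s (b \ s) hd 3 (by simp [hs]) 4 hc.le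
      rw [hα, hc, hs] at e0 e1 e2 e3
      simp only [sum_range_succ, sum_range_zero] at e0 e1 e2 e3
      norm_num [Nat.choose] at e0 e1 e2 e3 hpos
      omega
    · intro hs
      rw [hs] at hX hpos
      have hc : (b \ s).card = 3 := hX
      have e0 := steiner_moment hB s (b \ s) hd 0 (by simp [hs]) 3 hc.le
      have e1 := steiner_moment hB s (b \ s) hd 1 (by simp [hs]) 3 hc.le
      have e2 := steiner_moment hB s (b \ s) hd 2 (by simp [hs]) 3 hc.le
      rw [hα, hc, hs] at e0 e1 e2
      simp only [sum_range_succ, sum_range_zero] at e0 e1 e2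
      norm_num [Nat.choose] at e0 e1 e2 hpos
      omega
    · intro hs
      rw [hs] at hX hpos
      have hc : (b \ s).card = 2 := hX
      have e0 := steiner_moment hB s (b \ s) hd 0 (by simp [hs]) 2 hc.le
      have e1 := steiner_moment hB s (b \ s) hd 1 (by simp [hs]) 2 hc.le
      rw [hα, hc, hs] at e0 e1
      simp only [sum_range_succ, sum_range_zero] at e0 e1
      norm_num [Nat.choose] at e0 e1 hpos
      omega

end Cfsg.Agent.S1595
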