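import Cfsg.Statements.S1600
import Cfsg.Agent.Lib_H9_SG

set_option autoImplicit false
open scoped Pointwise
open Cfsg

namespace Cfsg.Agent.S1600

open Cfsg.Agent.H9

def T1600 : ℕ := 161992723030695764103125439439939203189905831729896361729160379347232038800000264732751629819063875070427785679110068146071713275133456038133741527337732997256152331237098647529212062210693165923698931346636379905788126076692104003475778251770531888606694397568666011541821377007794492929007354672754789745200440391863978989584974492624036959654874718462502088346209920398618315592791025615777899550917217095190570807048542338458436573326161990106604355652231366328331446407456271951083348390745937387597906820934457286913860767616845058808696146018973776109121296064931115274710531042805683620627493171005531504417103776036469261298755375907133393889405536781953428783934777915582831885948088662621998579176887603122490717723317969599910798349327197836027407764126073101911583619012844010385780049174282977268524398910958757243646614930117085173033764561400486690816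

theorem lev_ok : levelCheckS T1600 7 [340831] 5 16436384 = true := by decide +kernel

theorem std_trans {x y : GolayPt} (hx : x ∉ ofMask 340831) (hy : y ∉ ofMask 340831) :
    ∃ g ∈ GS 7 [340831], g x = y := by
  have key : ∀ z : GolayPt, z ∉ ofMask 340831 → ∃ g ∈ GS 7 [340831], g (pt 5) = z := by
    intro z hz
    have hz' : z ∈ ofMask 16436384 := by rw [ofMask_compl_D0]; exact Finset.mem_compl.mpr hz
    obtain ⟨g, hg, h⟩ := levelCheckS_spec (by norm_num) lev_ok (idx_lt z) (mem_ofMask.mp hz')
    exact ⟨g, hg, by rw [h, pt_idx]⟩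
  obtain ⟨a, ha, hax⟩ := key x hx
  obtain ⟨b, hb, hby⟩ := key y hy
  refine ⟨b * a⁻¹, (GS 7 [340831]).mul_mem hb ((GS 7 [340831]).inv_mem ha), ?_⟩
  rw [Equiv.Perm.mul_apply, ← hax, ← hby]
  simp

theorem ofMask_seven : ofMask 7 = {pt 2, pt 1, pt 0} := by
  have : (7 : ℕ) = 2 ^ 2 ||| (2 ^ 1 ||| 2 ^ 0) := by decide
  rw [this, ofMask_or, ofMask_or, ofMask_two_pow (by norm_num), ofMask_two_pow (by norm_num),
    ofMask_two_pow (by norm_num)]
  rfl


/-- The pointwise stabiliser of three points of a dodecad inside the dodecad stabiliser (order 72) is transitive on the complementary dodecad. -/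
theorem result (d : Finset Cfsg.GolayPt) (hd : d ∈ Cfsg.dodecads) (p q r : Cfsg.GolayPt) (hp : p ∈ d) (hq : q ∈ d) (hr : r ∈ d) (hpq : p ≠ q) (hpr : p ≠ r) (hqr : q ≠ r) : Nat.card ↥(MulAction.stabilizer Cfsg.M24 d ⊓ MulAction.stabilizer Cfsg.M24 p ⊓ MulAction.stabilizer Cfsg.M24 q ⊓ MulAction.stabilizer Cfsg.M24 r) = 72 ∧ ∀ x ∉ d, ∀ y ∉ d, ∃ g ∈ (MulAction.stabilizer Cfsg.M24 d ⊓ MulAction.stabilizer Cfsg.M24 p ⊓ MulAction.stabilizer Cfsg.M24 q ⊓ MulAction.stabilizer Cfsg.M24 r), ((g : ↥Cfsg.M24) : Equiv.Perm Cfsg.GolayPt) x = y := by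
  have e : ↥(MulAction.stabilizer Cfsg.M24 d ⊓ MulAction.stabilizer Cfsg.M24 p ⊓ MulAction.stabilizer Cfsg.M24 q ⊓
      MulAction.stabilizer Cfsg.M24 r) ≃* SG d {r, q, p} := toPermSub _ _ (by
    intro g
    rw [mem_SG]
    constructor
    · rintro ⟨h1, h2, h3⟩
      exact ⟨h1, ⟨⟨h2, h3 p (by simp)⟩, h3 q (by simp)⟩, h3 r (by simp)⟩
    · rintro ⟨h1, ⟨⟨h2, h3⟩, h4⟩, h5⟩
      refine ⟨h1, h2, ?_⟩
      intro x hx
      simp only [Finset.mem_insert, Finset.mem_singleton] at hx
      rcases hx with rfl | rfl | rfl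
      · exact h5
      · exact h4
      · exact h3)
  refine ⟨by rw [Nat.card_congr e.toEquiv]; exact card_SG_dod3 hd hp hq hr hpq hpr hqr, ?_⟩
  intro x hx y hy
  have hnd0 : [pt 0, pt 1, pt 2].Nodup := by
    have h01 : pt 0 ≠ pt 1 := fun h => by have := pt_injective (by norm_num) (by norm_num) h; omega
    have h02 : pt 0 ≠ pt 2 := fun h => by have := pt_injective (by norm_num) (by norm_num) h; omega
    have h12 : pt 1 ≠ pt 2 := fun h => by have := pt_injective (by norm_num) (by norm_num) h; omega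
    simp [h01, h02, h12]
  obtain ⟨h, hh, hd', hl⟩ := dod_std hd [p, q, r] [pt 0, pt 1, pt 2] (by simp [hpq, hpr, hqr]) hnd0 rfl
    (by simp) (by simp [hp, hq, hr]) (by
      intro a ha
      simp only [List.mem_cons, List.not_mem_nil, or_false] at ha
      rcases ha with rfl | rfl | rfl <;> (rw [mem_ofMask, idx_pt (by norm_num)]; decide))
  simp only [List.map_cons, List.map_nil, List.cons.injEq, and_true] at hl
  obtain ⟨l0, l1, l2⟩ := hl
  subst hd'
  have hx' : h⁻¹ x ∉ ofMask 340831 := fun hm => hx (Finset.inv_smul_mem_iff.mp hm)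
  have hy' : h⁻¹ y ∉ ofMask 340831 := fun hm => hy (Finset.inv_smul_mem_iff.mp hm)
  obtain ⟨g, hg, hgxy⟩ := std_trans hx' hy'
  have hgf : ∀ i < 3, g (pt i) = pt i := by
    intro i hi
    apply hg.2.1
    rw [mem_ofMask, idx_pt (by omega)]
    interval_cases i <;> decide
  have hfix : ∀ i < 3, (h * g * h⁻¹) (h (pt i)) = h (pt i) := by
    intro i hi
    simp [Equiv.Perm.mul_apply, hgf i hi]
  refine ⟨⟨h * g * h⁻¹, M24.mul_mem (M24.mul_mem hh hg.1) (M24.inv_mem hh)⟩, ⟨⟨⟨?_, ?_⟩, ?_⟩, ?_⟩, ?_⟩
  · show (h * g * h⁻¹) • (h • ofMask 340831) = h • ofMask 340831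
    rw [mul_smul, mul_smul, inv_smul_smul, GS_inv_D0 g hg]
  · show (h * g * h⁻¹) p = p
    rw [← l0]; exact hfix 0 (by norm_num)
  · show (h * g * h⁻¹) q = q
    rw [← l1]; exact hfix 1 (by norm_num)
  · show (h * g * h⁻¹) r = r
    rw [← l2]; exact hfix 2 (by norm_num)
  · show (h * g * h⁻¹) x = y
    rw [Equiv.Perm.mul_apply, Equiv.Perm.mul_apply, hgxy]
    simp

end Cfsg.Agent.S1600
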