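import Cfsg.Statements.S1629
import Cfsg.Agent.Lib_helper6_ThreeTranspO

set_option autoImplicit false
open scoped MatrixGroups
open Cfsg

namespace Cfsg.Agent.S1629

/-- The orthogonal transvections of the plus-type orthogonal group in dimension 2m ≥ 6 over the field with two elements form a generating conjugacy class of 3-transpositions. -/
theorem result (m : ℕ) (hm : 3 ≤ m) : Cfsg.IsThreeTranspositionClass {g : ↥(Cfsg.isometryGroup (ZMod 2) (Cfsg.quadFormPlus m (ZMod 2))) | (((g : GL (Fin m ⊕ Fin m) (ZMod 2)) : Matrix (Fin m ⊕ Fin m) (Fin m ⊕ Fin m) (ZMod 2)) - 1).rank = 1} := by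
  classical
  have hF : ∀ c : ZMod 2, c = 0 ∨ c = 1 := by decide
  have hmain := H6.Quad.threeTransp (Q := H6.Quad.qPlus m (ZMod 2)) hF (H6.Quad.nondeg_qPlus m)
    (by simp; omega)
  refine H6.isThreeTranspositionClass_of_equiv
    (H6.Quad.isometryGroupEquiv (H6.Quad.qPlus m (ZMod 2)) _ (H6.Quad.qPlus_apply m)) _ _
    (fun g => ?_) hmain
  rw [Set.mem_ofPred_eq, Set.mem_ofPred_eq, H6.rank_sub_one_eq _ _
    (H6.Quad.isometryGroupEquiv_apply (H6.Quad.qPlus m (ZMod 2)) _ (H6.Quad.qPlus_apply m) g)]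

end Cfsg.Agent.S1629
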