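import Cfsg.Statements.S1630
import Cfsg.Agent.Lib_helper6_ThreeTranspO

set_option autoImplicit false
open scoped MatrixGroups
open Cfsg

namespace Cfsg.Agent.S1630

/-- The orthogonal transvections of the minus-type orthogonal group in dimension ≥ 6 over the field with two elements form a generating conjugacy class of 3-transpositions. -/
theorem result (m : ℕ) (hm : 2 ≤ m) : Cfsg.IsThreeTranspositionClass {g : ↥(Cfsg.isometryGroup (ZMod 2) (Cfsg.quadFormMinus m (ZMod 2) 1 1)) | (((g : GL ((Fin m ⊕ Fin m) ⊕ Fin 2) (ZMod 2)) : Matrix ((Fin m ⊕ Fin m) ⊕ Fin 2) ((Fin m ⊕ Fin m) ⊕ Fin 2) (ZMod 2)) - 1).rank = 1} := by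
  classical
  have hF : ∀ c : ZMod 2, c = 0 ∨ c = 1 := by decide
  have hmain := H6.Quad.threeTransp (Q := H6.Quad.qMinus m (ZMod 2) 1 1) hF
    (H6.Quad.nondeg_qMinus m 1 1 (by decide)) (by simp; omega)
  refine H6.isThreeTranspositionClass_of_equiv
    (H6.Quad.isometryGroupEquiv (H6.Quad.qMinus m (ZMod 2) 1 1) _ (H6.Quad.qMinus_apply m 1 1)) _ _
    (fun g => ?_) hmain
  rw [Set.mem_ofPred_eq, Set.mem_ofPred_eq, H6.rank_sub_one_eq _ _
    (H6.Quad.isometryGroupEquiv_apply (H6.Quad.qMinus m (ZMod 2) 1 1) _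
      (H6.Quad.qMinus_apply m 1 1) g)]

end Cfsg.Agent.S1630
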