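import Cfsg.Statements.S1634
import Cfsg.Agent.Lib_H9_CfgM

set_option autoImplicit false
open Cfsg

namespace Cfsg.Agent.S1634

open Cfsg.Agent.H9

theorem orbit_eq3 {v w x y0 : leechLattice} {s1 s2 s : ℤ}
    (hy0 : sqNorm (y0 : V) = 32 ∧ dotInt (v : V) (y0 : V) = s1 ∧ dotInt (w : V) (y0 : V) = s2 ∧
      dotInt (x : V) (y0 : V) = s)
    (htr : ∀ y y' : leechLattice, (sqNorm (y : V) = 32 ∧ dotInt (v : V) (y : V) = s1 ∧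
      dotInt (w : V) (y : V) = s2 ∧ dotInt (x : V) (y : V) = s) →
      (sqNorm (y' : V) = 32 ∧ dotInt (v : V) (y' : V) = s1 ∧
      dotInt (w : V) (y' : V) = s2 ∧ dotInt (x : V) (y' : V) = s) → ∃ g : Co0, Fix3 v w x g ∧ g • y = y') :
    MulAction.orbit ↥(MulAction.stabilizer ↥Co0 v ⊓ MulAction.stabilizer ↥Co0 w ⊓ MulAction.stabilizer ↥Co0 x) y0 =
      {y : leechLattice | sqNorm (y : V) = 32 ∧ dotInt (v : V) (y : V) = s1 ∧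
        dotInt (w : V) (y : V) = s2 ∧ dotInt (x : V) (y : V) = s} := by
  ext y
  constructor
  · rintro ⟨⟨g, hg⟩, rfl⟩
    have hv : g • v = v := hg.1.1
    have hw : g • w = w := hg.1.2
    have hx : g • x = x := hg.2
    show sqNorm ((g • y0 : leechLattice) : V) = 32 ∧ dotInt (v : V) ((g • y0 : leechLattice) : V) = s1 ∧
      dotInt (w : V) ((g • y0 : leechLattice) : V) = s2 ∧ dotInt (x : V) ((g • y0 : leechLattice) : V) = s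
    have e1 := Co0_dot g v y0
    have e2 := Co0_dot g w y0
    have e3 := Co0_dot g x y0
    rw [hv] at e1
    rw [hw] at e2
    rw [hx] at e3
    rw [Co0_norm, e1, e2, e3]
    exact hy0
  · intro hy
    obtain ⟨g, hf, e⟩ := htr y0 y hy0 hy
    exact ⟨⟨g, ⟨⟨hf.1, hf.2.1⟩, hf.2.2⟩⟩, e⟩


/-- The McLaughlin group acts on 2025 points (minimal vectors orthogonal to v with customary inner product 2 with w) transitively with rank 4 and subdegrees 1, 330, 462, 1232. -/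
theorem result (v w : ↥Cfsg.leechLattice) (hv : Cfsg.sqNorm (v : Cfsg.GolayPt → ℤ) = 32) (hw : Cfsg.sqNorm (w : Cfsg.GolayPt → ℤ) = 32) (hvw : Cfsg.dotInt (v : Cfsg.GolayPt → ℤ) (w : Cfsg.GolayPt → ℤ) = -8) : {x : ↥Cfsg.leechLattice | Cfsg.sqNorm (x : Cfsg.GolayPt → ℤ) = 32 ∧ Cfsg.dotInt (v : Cfsg.GolayPt → ℤ) (x : Cfsg.GolayPt → ℤ) = 0 ∧ Cfsg.dotInt (w : Cfsg.GolayPt → ℤ) (x : Cfsg.GolayPt → ℤ) = 16}.ncard = 2025 ∧ (∀ x ∈ {x : ↥Cfsg.leechLattice | Cfsg.sqNorm (x : Cfsg.GolayPt → ℤ) = 32 ∧ Cfsg.dotInt (v : Cfsg.GolayPt → ℤ) (x : Cfsg.GolayPt → ℤ) = 0 ∧ Cfsg.dotInt (w : Cfsg.GolayPt → ℤ) (x : Cfsg.GolayPt → ℤ) = 16}, ∀ x' ∈ {x : ↥Cfsg.leechLattice | Cfsg.sqNorm (x : Cfsg.GolayPt → ℤ) = 32 ∧ Cfsg.dotInt (v : Cfsg.GolayPt → ℤ) (x : Cfsg.GolayPt → ℤ) = 0 ∧ Cfsg.dotInt (w : Cfsg.GolayPt → ℤ) (x : Cfsg.GolayPt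 → ℤ) = 16}, ∃ g : ↥Cfsg.Co0, g • v = v ∧ g • w = w ∧ g • x = x') ∧ ∀ x ∈ {x : ↥Cfsg.leechLattice | Cfsg.sqNorm (x : Cfsg.GolayPt → ℤ) = 32 ∧ Cfsg.dotInt (v : Cfsg.GolayPt → ℤ) (x : Cfsg.GolayPt → ℤ) = 0 ∧ Cfsg.dotInt (w : Cfsg.GolayPt → ℤ) (x : Cfsg.GolayPt → ℤ) = 16}, ∃ y₁ ∈ {x : ↥Cfsg.leechLattice | Cfsg.sqNorm (x : Cfsg.GolayPt → ℤ) = 32 ∧ Cfsg.dotInt (v : Cfsg.GolayPt → ℤ) (x : Cfsg.GolayPt → ℤ) = 0 ∧ Cfsg.dotInt (w : Cfsg.GolayPt → ℤ) (x : Cfsg.GolayPt → ℤ) = 16}, ∃ y₂ ∈ {x : ↥Cfsg.leechLattice | Cfsg.sqNorm (x : Cfsg.GolayPt → ℤ) = 32 ∧ Cfsg.dotInt (v : Cfsg.GolayPt → ℤ) (x : Cfsg.GolayPt → ℤ) = 0 ∧ Cfsg.dotInt (w : Cfsg.GolayPt → ℤ) (x : Cfsg.GolayPt → ℤ) = 16}, ∃ y₃ ∈ {x : ↥Cfsg.leechLattice | Cfsg.sqNorm (x : Cfsg.GolayPt → ℤ) = 32 ∧ Cfsg.dotInt (v : Cfsg.GolayPt → ℤ) (x : Cfsg.GolayPt → ℤ)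 = 0 ∧ Cfsg.dotInt (w : Cfsg.GolayPt → ℤ) (x : Cfsg.GolayPt → ℤ) = 16}, (MulAction.orbit ↥(MulAction.stabilizer ↥Cfsg.Co0 v ⊓ MulAction.stabilizer ↥Cfsg.Co0 w ⊓ MulAction.stabilizer ↥Cfsg.Co0 x) y₁).ncard = 330 ∧ (MulAction.orbit ↥(MulAction.stabilizer ↥Cfsg.Co0 v ⊓ MulAction.stabilizer ↥Cfsg.Co0 w ⊓ MulAction.stabilizer ↥Cfsg.Co0 x) y₂).ncard = 462 ∧ (MulAction.orbit ↥(MulAction.stabilizer ↥Cfsg.Co0 v ⊓ MulAction.stabilizer ↥Cfsg.Co0 w ⊓ MulAction.stabilizer ↥Cfsg.Co0 x) y₃).ncard = 1232 := by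
  obtain ⟨g0, rfl, rfl⟩ : ∃ g0 : Co0, g0 • VpM = v ∧ g0 • WpM = w := by
    obtain ⟨ga, a1, a2⟩ := pair_trans Y_all.2.1 v w hv hw hvw
    obtain ⟨gb, b1, b2⟩ := pair_trans Y_all.2.1 VpM WpM norm_VpM norm_WpM dot_VpWp
    exact ⟨ga * gb⁻¹, by rw [mul_smul, ← b1, inv_smul_smul, a1], by rw [mul_smul, ← b2, inv_smul_smul, a2]⟩
  obtain ⟨c, t⟩ := cfg2 (tab_cardg tbM_ok) tabM_orb X3L_mem cntM g0
  refine ⟨c, fun x hx x' hx' => t x x' hx hx', ?_⟩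
  intro x hx
  obtain ⟨⟨_, n⟩, d1, d2, _⟩ := mem_S3.mp X3L_mem
  obtain ⟨g2, f1, f2, e3⟩ := t (g0 • X3L) x
    ⟨by rw [Co0_norm]; exact n, by rw [Co0_dot]; exact d1, by rw [Co0_dot]; exact d2⟩ hx
  have E1 : (g2 * g0) • VpM = g0 • VpM := by rw [mul_smul, f1]
  have E2 : (g2 * g0) • WpM = g0 • WpM := by rw [mul_smul, f2]
  have E3 : (g2 * g0) • X3L = x := by rw [mul_smul, e3]
  obtain ⟨c1, t1⟩ := cfg_main (tab_cardg tbN1_ok) tabN1_orb RN1L_mem cntN1 (g2 * g0)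
  obtain ⟨c2, t2⟩ := cfg_main (tab_cardg tbN2_ok) tabN2_orb RN2L_mem cntN2 (g2 * g0)
  obtain ⟨c3, t3⟩ := cfg_main (tab_cardg tbN3_ok) tabN3_orb RN3L_mem cntN3 (g2 * g0)
  have mk : ∀ (R : leechLattice) (s : ℤ), (R : V) ∈ S3 (VpM : V) WpM X3L 0 16 s →
      (sqNorm (((g2 * g0) • R : leechLattice) : V) = 32 ∧
      dotInt (((g2 * g0) • VpM : leechLattice) : V) (((g2 * g0) • R : leechLattice) : V) = 0 ∧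
      dotInt (((g2 * g0) • WpM : leechLattice) : V) (((g2 * g0) • R : leechLattice) : V) = 16 ∧
      dotInt (((g2 * g0) • X3L : leechLattice) : V) (((g2 * g0) • R : leechLattice) : V) = s) := by
    intro R s hR
    obtain ⟨⟨_, n⟩, d1, d2, d3⟩ := mem_S3.mp hR
    exact ⟨by rw [Co0_norm]; exact n, by rw [Co0_dot]; exact d1, by rw [Co0_dot]; exact d2,
      by rw [Co0_dot]; exact d3⟩
  have m1 := mk _ _ RN1L_mem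
  have m2 := mk _ _ RN2L_mem
  have m3 := mk _ _ RN3L_mem
  have o1 := orbit_eq3 m1 t1
  have o2 := orbit_eq3 m2 t2
  have o3 := orbit_eq3 m3 t3
  rw [E1, E2, E3] at o1 o2 o3 m1 m2 m3 c1 c2 c3
  refine ⟨(g2 * g0) • RN1L, ⟨m1.1, m1.2.1, m1.2.2.1⟩, (g2 * g0) • RN2L, ⟨m2.1, m2.2.1, m2.2.2.1⟩,
    (g2 * g0) • RN3L, ⟨m3.1, m3.2.1, m3.2.2.1⟩, ?_⟩
  rw [o1, o2, o3]
  exact ⟨c1, c2, c3⟩

end Cfsg.Agent.S1634
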