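import Mathlib
import Cfsg.Statements.S1635
import Cfsg.Agent.Lib_helper1_Code24
import Cfsg.Agent.S0358
import Cfsg.Agent.S0359

set_option autoImplicit false
open Cfsg

namespace Cfsg.Agent.S1635

theorem golay_min : ∀ w ∈ Cfsg.golayCode, w ≠ 0 → 8 ≤ hammingNorm w := by
  intro w hw h0
  have h1 : hammingNorm w ≠ 0 := fun h => h0 (hammingNorm_eq_zero.1 h)
  rcases Cfsg.Agent.S0359.result w hw with h | h | h | h | h <;> omega

theorem golay_card : Nat.card Cfsg.golayCode = 4096 := H1.card_of_finrank Cfsg.Agent.S0358.result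

theorem card_pt : Fintype.card Cfsg.GolayPt = 24 := by
  simp [Cfsg.GolayPt, ZMod.card]


/-- Coset leaders of the length-24 code: a coset contains a unique word of weight ≤ 3, or else exactly six words of weight 4 and none lighter. -/
theorem result (w : Cfsg.GolayPt → ZMod 2) : ({v : Cfsg.GolayPt → ZMod 2 | hammingNorm v ≤ 4 ∧ w - v ∈ Cfsg.golayCode}.ncard = 1 ∧ ∃ v : Cfsg.GolayPt → ZMod 2, hammingNorm v ≤ 3 ∧ w - v ∈ Cfsg.golayCode) ∨ ({v : Cfsg.GolayPt → ZMod 2 | hammingNorm v ≤ 4 ∧ w - v ∈ Cfsg.golayCode}.ncard = 6 ∧ ∀ v : Cfsg.GolayPt → ZMod 2, w - v ∈ Cfsg.golayCode → hammingNorm v ≤ 4 → hammingNorm v = 4) := by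
  have hset : {v : Cfsg.GolayPt → ZMod 2 | hammingNorm v ≤ 4 ∧ w - v ∈ Cfsg.golayCode}
      = ↑(H1.leaders Cfsg.golayCode w) := by
    ext u
    simp only [Set.mem_setOf_eq, Finset.mem_coe, H1.mem_leaders]
    rw [← neg_sub u w, Submodule.neg_mem_iff]
    tauto
  rw [hset]
  rcases H1.leaders_main golay_min card_pt golay_card w with ⟨u, hu, h3⟩ | ⟨hc, h4, _, _⟩
  · left
    refine ⟨by rw [hu]; simp, u, h3, ?_⟩
    have : u ∈ H1.leaders Cfsg.golayCode w := by rw [hu]; simp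
    rw [← neg_sub u w, Submodule.neg_mem_iff]
    exact (H1.mem_leaders.1 this).1
  · right
    refine ⟨by rw [Set.ncard_coe_finset]; exact hc, ?_⟩
    intro v hv hv4
    apply h4
    rw [H1.mem_leaders]
    refine ⟨?_, hv4⟩
    rw [← neg_sub w v, Submodule.neg_mem_iff]
    exact hv

end Cfsg.Agent.S1635
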