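import Cfsg.Statements.S1636
import Cfsg.Agent.Lib_H9_Fam


set_option autoImplicit false
open Cfsg

namespace Cfsg.Agent.S1636

open Cfsg.Agent.H9

/-- the punctured word -/
def rr (w : GolayPt → ZMod 2) : ZMod 23 → ZMod 2 := fun x => w (some x)

def PC : Set (ZMod 23 → ZMod 2) := {u | ∃ w ∈ golayCode, ∀ x : ZMod 23, u x = w (some x)}

def ff (i : ℕ) : ZMod 23 → ZMod 2 := rr (wordOf (enc i))

theorem norm_rr (n : ℕ) (hn : n < 2 ^ 24) : hammingNorm (rr (wordOf n)) = pop (Nat.land n 8388607) := by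
  have hlt : Nat.land n 8388607 < 2 ^ 24 := and_lt_two_pow24 _ hn
  rw [pop_eq hlt]
  have e : ofMask (Nat.land n 8388607) =
      (Finset.univ.filter (fun x : ZMod 23 => rr (wordOf n) x ≠ 0)).map ⟨some, Option.some_injective _⟩ := by
    ext p
    rw [mem_ofMask, Finset.mem_map]
    have hm : (8388607 : ℕ) = 2 ^ 23 - 1 := by norm_num
    have hb : (Nat.land n 8388607).testBit (idx p) = (n.testBit (idx p) && decide (idx p < 23)) := by
      show (n &&& 8388607).testBit (idx p) = _
      rw [Nat.testBit_and, hm, Nat.testBit_two_pow_sub_one]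
    rw [hb]
    cases p with
    | none =>
      simp [idx]
    | some x =>
      have hx : idx (some x) < 23 := ZMod.val_lt x
      simp only [hx, decide_true, Bool.and_true, Finset.mem_filter, Finset.mem_univ, true_and,
        Function.Embedding.coeFn_mk, Option.some.injEq, exists_eq_right, rr, wordOf]
      by_cases hbit : n.testBit (idx (some x)) = true
      · simp [hbit]
      · simp [hbit]
  rw [e, Finset.card_map]
  rfl

theorem ff_mem (i : ℕ) : ff i ∈ PC := ⟨wordOf (enc i), wordOf_enc_mem i, fun _ => rfl⟩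

theorem ff_surj {u : ZMod 23 → ZMod 2} (hu : u ∈ PC) : ∃ i < 4096, ff i = u := by
  obtain ⟨w, hw, h⟩ := hu
  obtain ⟨i, hi, hs⟩ := exists_of_mem_CC (s := support₂ w) ⟨w, hw, rfl⟩
  refine ⟨i, hi, ?_⟩
  have hwi : w = wordOf (enc i) := by
    apply support₂_injective
    rw [hs, support₂_wordOf]
  funext x
  rw [h x, hwi]
  rfl

set_option maxRecDepth 100000 in
theorem low_ok : allBelow (fun i => Nat.beq (Nat.land (Nat.land (enc i) 8388607) 4095) i) 4096 = true := by
  decide +kernel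

theorem bit_ff (i : ℕ) (x : ZMod 23) : (enc i).testBit x.val = true ↔ ff i x = 1 := by
  show _ ↔ (if (enc i).testBit (idx (some x)) = true then (1 : ZMod 2) else 0) = 1
  by_cases h : (enc i).testBit (idx (some x)) = true
  · rw [if_pos h]; exact ⟨fun _ => rfl, fun _ => h⟩
  · rw [if_neg h]
    constructor
    · intro h'; exact absurd h' h
    · intro h'; exact absurd h' (by decide)

theorem ff_inj {i j : ℕ} (hi : i < 4096) (hj : j < 4096) (h : ff i = ff j) : i = j := by
  have key : enc i % 4096 = enc j % 4096 := by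
    apply Nat.eq_of_testBit_eq
    intro a
    rw [show (4096 : ℕ) = 2 ^ 12 from rfl, Nat.testBit_mod_two_pow, Nat.testBit_mod_two_pow]
    by_cases ha : a < 12
    · have h23 : a < 23 := by omega
      have e1 := bit_ff i (a : ZMod 23)
      have e2 := bit_ff j (a : ZMod 23)
      rw [ZMod.val_natCast, Nat.mod_eq_of_lt h23] at e1 e2
      rw [h] at e1
      have : ((enc i).testBit a = true) ↔ ((enc j).testBit a = true) := e1.trans e2.symm
      simp only [ha, decide_true, Bool.true_and]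
      exact Bool.eq_iff_iff.mpr this
    · simp [ha]
  rw [enc_low hi, enc_low hj] at key
  exact key

theorem cnt (k : ℕ) : {u : ZMod 23 → ZMod 2 | u ∈ PC ∧ hammingNorm u = k}.ncard =
    countBelow (fun i => true && Nat.beq (pop (Nat.land (enc i) 8388607)) k) 4096 :=
  count_enum PC ff 4096 (fun _ => true) (fun i _ _ => ff_mem i)
    (fun u hu => by obtain ⟨i, hi, e⟩ := ff_surj hu; exact ⟨i, hi, rfl, e⟩)
    (fun _ hi _ hj _ _ e => ff_inj hi hj e) (fun u => hammingNorm u = k)
    (fun i => Nat.beq (pop (Nat.land (enc i) 8388607)) k)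
    (fun i _ _ => by rw [beq_iff]; unfold ff; rw [norm_rr _ (enc_lt i)])

theorem cntAll : PC.ncard = 4096 := by
  have h := count_enum PC ff 4096 (fun _ => true) (fun i _ _ => ff_mem i)
    (fun u hu => by obtain ⟨i, hi, e⟩ := ff_surj hu; exact ⟨i, hi, rfl, e⟩)
    (fun _ hi _ hj _ _ e => ff_inj hi hj e) (fun _ => True) (fun _ => true) (fun _ _ _ => by simp)
  have e1 : {x | x ∈ PC ∧ True} = PC := by ext x; simp
  rw [e1, countBelow_eq] at h
  rw [h]
  simp

set_option maxRecDepth 100000 in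
theorem c7 : countBelow (fun i => true && Nat.beq (pop (Nat.land (enc i) 8388607)) 7) 4096 = 253 := by decide +kernel
set_option maxRecDepth 100000 in
theorem c8 : countBelow (fun i => true && Nat.beq (pop (Nat.land (enc i) 8388607)) 8) 4096 = 506 := by decide +kernel
set_option maxRecDepth 100000 in
theorem c11 : countBelow (fun i => true && Nat.beq (pop (Nat.land (enc i) 8388607)) 11) 4096 = 1288 := by decide +kernel
set_option maxRecDepth 100000 in
theorem c12 : countBelow (fun i => true && Nat.beq (pop (Nat.land (enc i) 8388607)) 12) 4096 = 1288 := by decide +kernel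
set_option maxRecDepth 100000 in
theorem c15 : countBelow (fun i => true && Nat.beq (pop (Nat.land (enc i) 8388607)) 15) 4096 = 506 := by decide +kernel
set_option maxRecDepth 100000 in
theorem c16 : countBelow (fun i => true && Nat.beq (pop (Nat.land (enc i) 8388607)) 16) 4096 = 253 := by decide +kernel
set_option maxRecDepth 100000 in
theorem cmin : allBelow (fun i => Nat.beq (pop (Nat.land (enc i) 8388607)) 0 ||
    Nat.ble 7 (pop (Nat.land (enc i) 8388607))) 4096 = true := by decide +kernel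


/-- The punctured length-23 code has weight distribution 0^1 7^253 8^506 11^1288 12^1288 15^506 16^253 23^1. -/
theorem result : {u : ZMod 23 → ZMod 2 | ∃ w ∈ Cfsg.golayCode, ∀ x : ZMod 23, u x = w (some x)}.ncard = 4096 ∧ {u : ZMod 23 → ZMod 2 | u ∈ {u : ZMod 23 → ZMod 2 | ∃ w ∈ Cfsg.golayCode, ∀ x : ZMod 23, u x = w (some x)} ∧ hammingNorm u = 7}.ncard = 253 ∧ {u : ZMod 23 → ZMod 2 | u ∈ {u : ZMod 23 → ZMod 2 | ∃ w ∈ Cfsg.golayCode, ∀ x : ZMod 23, u x = w (some x)} ∧ hammingNorm u = 8}.ncard = 506 ∧ {u : ZMod 23 → ZMod 2 | u ∈ {u : ZMod 23 → ZMod 2 | ∃ w ∈ Cfsg.golayCode, ∀ x : ZMod 23, u x = w (some x)} ∧ hammingNorm u = 11}.ncard = 1288 ∧ {u : ZMod 23 → ZMod 2 | u ∈ {u : ZMod 23 → ZMod 2 | ∃ w ∈ Cfsg.golayCode, ∀ x : ZMod 23, u x = w (some x)} ∧ hammingNorm u = 12}.ncard = 1288 ∧ {u : ZMod 23 → ZMod 2 | u ∈ {u : ZMod 23 → ZMod 2 | ∃ w ∈ Cfsg.golayCode, ∀ x : ZMod 23, u x = w (some x)} ∧ hammingNorm u = 15}.ncard = 506 ∧ {u : ZMod 23 → ZMod 2 | u ∈ {u : ZMod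 23 → ZMod 2 | ∃ w ∈ Cfsg.golayCode, ∀ x : ZMod 23, u x = w (some x)} ∧ hammingNorm u = 16}.ncard = 253 ∧ ∀ u ∈ {u : ZMod 23 → ZMod 2 | ∃ w ∈ Cfsg.golayCode, ∀ x : ZMod 23, u x = w (some x)}, u ≠ 0 → 7 ≤ hammingNorm u := by
  refine ⟨cntAll, (cnt 7).trans c7, (cnt 8).trans c8, (cnt 11).trans c11, (cnt 12).trans c12,
    (cnt 15).trans c15, (cnt 16).trans c16, ?_⟩
  intro u hu hne
  obtain ⟨i, hi, rfl⟩ := ff_surj hu
  have h := (allBelow_iff _ _).mp cmin i hi
  have hn : hammingNorm (ff i) = pop (Nat.land (enc i) 8388607) := norm_rr _ (enc_lt i)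
  rw [← hn] at h
  simp only [Bool.or_eq_true, beq_iff] at h
  rcases h with h | h
  · exact absurd (hammingNorm_eq_zero.mp h) hne
  · exact Nat.le_of_ble_eq_true h

end Cfsg.Agent.S1636
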