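import Mathlib
import Cfsg.Statements.S1637
import Cfsg.Agent.Lib_helper1_Code24
import Cfsg.Agent.S1635

set_option autoImplicit false
open Cfsg

namespace Cfsg.Agent.S1637

theorem norm_option (v : Cfsg.GolayPt → ZMod 2) :
    hammingNorm v = (if v none ≠ 0 then 1 else 0) + hammingNorm (fun x : ZMod 23 => v (some x)) := by
  unfold hammingNorm
  rw [Finset.card_filter, Finset.card_filter, Fintype.sum_option]

theorem dist_eq (x y : ZMod 23 → ZMod 2) : hammingDist x y = hammingNorm (x - y) := by
  unfold hammingDist hammingNorm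
  congr 1
  ext i
  simp [sub_ne_zero]


/-- The punctured length-23 code is a perfect 3-error-correcting code: each word of length 23 is within distance 3 of exactly one codeword. -/
theorem result (u : ZMod 23 → ZMod 2) : ∃! c : ZMod 23 → ZMod 2, c ∈ {u : ZMod 23 → ZMod 2 | ∃ w ∈ Cfsg.golayCode, ∀ x : ZMod 23, u x = w (some x)} ∧ hammingDist u c ≤ 3 := by
  set w : Cfsg.GolayPt → ZMod 2 := fun o => o.elim 0 u with hw
  have hex : ∃ v : Cfsg.GolayPt → ZMod 2, v - w ∈ Cfsg.golayCode ∧
      hammingNorm (fun x : ZMod 23 => v (some x)) ≤ 3 := by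
    rcases H1.leaders_main S1635.golay_min S1635.card_pt S1635.golay_card w with
      ⟨v, hv, h3⟩ | ⟨_, h4, _, hcov⟩
    · have hv' : v ∈ H1.leaders Cfsg.golayCode w := by rw [hv]; simp
      refine ⟨v, (H1.mem_leaders.1 hv').1, ?_⟩
      have := norm_option v
      omega
    · obtain ⟨v, hv, hn⟩ := hcov none
      refine ⟨v, (H1.mem_leaders.1 hv).1, ?_⟩
      have h1 := norm_option v
      rw [if_pos hn, h4 v hv] at h1
      omega
  obtain ⟨v, hvC, hv3⟩ := hex
  refine ⟨fun x => (w - v) (some x), ⟨⟨w - v, ?_, fun x => rfl⟩, ?_⟩, ?_⟩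
  · rw [← neg_sub v w, Submodule.neg_mem_iff]; exact hvC
  · rw [dist_eq]
    have : (u - fun x => (w - v) (some x)) = fun x : ZMod 23 => v (some x) := by
      funext x
      simp [hw]
    rw [this]; exact hv3
  · rintro c ⟨⟨w', hw', hc⟩, hd⟩
    have h1 : hammingDist c (fun x => (w - v) (some x)) ≤ 6 := by
      have h2 := hammingDist_triangle c u (fun x => (w - v) (some x))
      have h3 : hammingDist u (fun x => (w - v) (some x)) ≤ 3 := by
        rw [dist_eq]
        have : (u - fun x => (w - v) (some x)) = fun x : ZMod 23 => v (some x) := by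
          funext x
          simp [hw]
        rw [this]; exact hv3
      rw [hammingDist_comm c u] at h2
      omega
    have hwv : w - v ∈ Cfsg.golayCode := by
      rw [← neg_sub v w, Submodule.neg_mem_iff]; exact hvC
    have h4 : w' = w - v := by
      by_contra hne
      have h5 := S1635.golay_min _ (Cfsg.golayCode.sub_mem hw' hwv) (sub_ne_zero.2 hne)
      have h6 := norm_option (w' - (w - v))
      have h7 : (fun x : ZMod 23 => (w' - (w - v)) (some x))
          = c - fun x => (w - v) (some x) := by
        funext x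
        simp only [Pi.sub_apply, hc x]
      rw [h7, ← dist_eq] at h6
      split_ifs at h6 <;> omega
    funext x
    rw [hc x, h4]

end Cfsg.Agent.S1637
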