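import Cfsg.Statements.S1638
import Cfsg.Agent.Lib_H9_Triad2

set_option autoImplicit false
open scoped Pointwise
open Cfsg

namespace Cfsg.Agent.S1638

open Cfsg.Agent.H9

theorem c0s : cntSub (fun m => Nat.beq (Nat.land 15 m) 0 && spB (Nat.lor 15 m)) 24 2 0 = 30 := by
  decide +kernel
theorem c0n : cntSub (fun m => Nat.beq (Nat.land 15 m) 0 && !spB (Nat.lor 15 m)) 24 2 0 = 160 := by
  decide +kernel

theorem card15 : (ofMask 15).card = 4 := by
  rw [← pop_eq (by norm_num)]; decide +kernel

theorem tetrad_pair_count {T : Finset GolayPt} (hT : T.card = 4) :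
    {U : Finset GolayPt | U.card = 2 ∧ Disjoint T U ∧ special (T ∪ U)}.ncard = 30 ∧
    {U : Finset GolayPt | U.card = 2 ∧ Disjoint T U ∧ ¬ special (T ∪ U)}.ncard = 160 := by
  obtain ⟨h, hh, rfl⟩ := exists_std_set (k := 4) (by norm_num) hT
  have tr1 : {U : Finset GolayPt | U.card = 2 ∧ Disjoint (h • ofMask (2 ^ 4 - 1)) U ∧
      special (h • ofMask (2 ^ 4 - 1) ∪ U)}.ncard =
      {U : Finset GolayPt | U.card = 2 ∧ Disjoint (ofMask 15) U ∧ special (ofMask 15 ∪ U)}.ncard := by
    apply ncard_transport h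
    intro s
    rw [Finset.card_smul_finset, disjoint_smul_iff, ← Finset.smul_finset_union, special_smul hh]
    rfl
  have tr2 : {U : Finset GolayPt | U.card = 2 ∧ Disjoint (h • ofMask (2 ^ 4 - 1)) U ∧
      ¬ special (h • ofMask (2 ^ 4 - 1) ∪ U)}.ncard =
      {U : Finset GolayPt | U.card = 2 ∧ Disjoint (ofMask 15) U ∧ ¬ special (ofMask 15 ∪ U)}.ncard := by
    apply ncard_transport h
    intro s
    rw [Finset.card_smul_finset, disjoint_smul_iff, ← Finset.smul_finset_union, special_smul hh]
    rfl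
  rw [tr1, tr2]
  constructor
  · rw [count_sub 2 _ (fun m => Nat.beq (Nat.land 15 m) 0 && spB (Nat.lor 15 m))]
    · exact c0s
    · intro s hs
      rw [Bool.and_eq_true, ← disjoint_mask (by norm_num)]
      apply and_congr_right
      intro hd
      exact special_union_mask (by norm_num) s (by rw [Finset.card_union_of_disjoint hd, card15, hs]; norm_num)
  · rw [count_sub 2 _ (fun m => Nat.beq (Nat.land 15 m) 0 && !spB (Nat.lor 15 m))]
    · exact c0n
    · intro s hs
      rw [Bool.and_eq_true, ← disjoint_mask (by norm_num)]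
      apply and_congr_right
      intro hd
      rw [special_union_mask (by norm_num) s (by rw [Finset.card_union_of_disjoint hd, card15, hs]; norm_num)]
      simp


/-- Fix two points p ≠ q and a pair s of two further points. Among the pairs avoiding p, q and disjoint from s, exactly 30 lie in an octad together with p, q and s and exactly 160 do not; and any two pairs other than s that meet s in equally many points and agree on that octad property are carried to one another by an element of the group of the length-24 code fixing p, q and s. -/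
theorem result (p q : Cfsg.GolayPt) (hpq : p ≠ q) (s : Finset Cfsg.GolayPt) (hs : (s.card = 2 ∧ p ∉ s ∧ q ∉ s)) : {t : Finset Cfsg.GolayPt | (t.card = 2 ∧ p ∉ t ∧ q ∉ t) ∧ Disjoint s t ∧ (∃ o ∈ Cfsg.octads, p ∈ o ∧ q ∈ o ∧ s ∪ t ⊆ o)}.ncard = 30 ∧ {t : Finset Cfsg.GolayPt | (t.card = 2 ∧ p ∉ t ∧ q ∉ t) ∧ Disjoint s t ∧ ¬ (∃ o ∈ Cfsg.octads, p ∈ o ∧ q ∈ o ∧ s ∪ t ⊆ o)}.ncard = 160 ∧ ∀ t t' : Finset Cfsg.GolayPt, (t.card = 2 ∧ p ∉ t ∧ q ∉ t) → (t'.card = 2 ∧ p ∉ t' ∧ q ∉ t') → t ≠ s → t' ≠ s → (s ∩ t).card = (s ∩ t').card → ((∃ o ∈ Cfsg.octads, p ∈ o ∧ q ∈ o ∧ s ∪ t ⊆ o) ↔ (∃ o ∈ Cfsg.octads, p ∈ o ∧ q ∈ o ∧ s ∪ t' ⊆ o)) → ∃ g : Equiv.Perm Cfsg.GolayPt, g ∈ Cfsg.M24 ∧ g p = p ∧ g q = q ∧ g • s = s ∧ g • t = t' := by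
  have hA : (insert p (insert q s)).card = 4 := by
    rw [Finset.card_insert_of_notMem (by simp [hpq, hs.2.1]), Finset.card_insert_of_notMem hs.2.2, hs.1]
  obtain ⟨c1, c2⟩ := tetrad_pair_count hA
  have hsp : ∀ t : Finset GolayPt, (∃ o ∈ Cfsg.octads, p ∈ o ∧ q ∈ o ∧ s ∪ t ⊆ o) ↔
      special (insert p (insert q s) ∪ t) := by
    intro t
    unfold special
    apply exists_congr
    intro o
    apply and_congr_right
    intro _
    simp only [Finset.union_subset_iff, Finset.insert_subset_iff]
    tauto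
  have hdj : ∀ t : Finset GolayPt, ((t.card = 2 ∧ p ∉ t ∧ q ∉ t) ∧ Disjoint s t ∧ special (insert p (insert q s) ∪ t)) ↔
      (t.card = 2 ∧ Disjoint (insert p (insert q s)) t ∧ special (insert p (insert q s) ∪ t)) := by
    intro t
    simp only [Finset.disjoint_insert_left]
    tauto
  have hdj' : ∀ t : Finset GolayPt, ((t.card = 2 ∧ p ∉ t ∧ q ∉ t) ∧ Disjoint s t ∧ ¬ special (insert p (insert q s) ∪ t)) ↔
      (t.card = 2 ∧ Disjoint (insert p (insert q s)) t ∧ ¬ special (insert p (insert q s) ∪ t)) := by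
    intro t
    simp only [Finset.disjoint_insert_left]
    tauto
  refine ⟨?_, ?_, ?_⟩
  · simp only [hsp, hdj]; exact c1
  · simp only [hsp, hdj']; exact c2
  · intro t t' ht ht' _ _ hi hiff
    rw [hsp, hsp] at hiff
    have e1 : ∀ V : Finset GolayPt, (s \ V).card + (s ∩ V).card = s.card := fun V =>
      Finset.card_sdiff_add_card_inter s V
    have e2 : ∀ V : Finset GolayPt, (V \ s).card + (s ∩ V).card = V.card := fun V => by
      rw [Finset.inter_comm]; exact Finset.card_sdiff_add_card_inter V s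
    have e3 : ∀ V : Finset GolayPt, {p} ∪ ({q} ∪ (s \ V ∪ (s ∩ V ∪ (V \ s ∪ ∅)))) = insert p (insert q s) ∪ V := by
      intro V
      ext x
      simp only [Finset.mem_union, Finset.mem_sdiff, Finset.mem_inter, Finset.notMem_empty, or_false,
        Finset.mem_insert, Finset.mem_singleton]
      tauto
    have dis : ∀ V : Finset GolayPt, p ∉ V → q ∉ V → [{p}, {q}, s \ V, s ∩ V, V \ s].Pairwise Disjoint := by
      intro V hpV hqV
      simp only [List.pairwise_cons, List.mem_cons, List.not_mem_nil, or_false, forall_eq_or_imp, forall_eq,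
        IsEmpty.forall_iff, implies_true, List.Pairwise.nil, and_true, Finset.disjoint_singleton_left,
        Finset.mem_singleton, Finset.mem_sdiff, Finset.mem_inter]
      refine ⟨⟨hpq, fun h => hs.2.1 h.1, fun h => hs.2.1 h.1, fun h => hpV h.1⟩,
        ⟨fun h => hs.2.2 h.1, fun h => hs.2.2 h.1, fun h => hqV h.1⟩, ⟨?_, ?_⟩, ?_⟩
      · rw [Finset.disjoint_left]; intro x hx hy
        exact (Finset.mem_sdiff.mp hx).2 (Finset.mem_inter.mp hy).2
      · rw [Finset.disjoint_left]; intro x hx hy
        exact (Finset.mem_sdiff.mp hy).2 (Finset.mem_sdiff.mp hx).1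
      · rw [Finset.disjoint_left]; intro x hx hy
        exact (Finset.mem_sdiff.mp hy).2 (Finset.mem_inter.mp hx).1
    have hsum : (List.map Finset.card [{p}, {q}, s \ t, s ∩ t, t \ s]).sum ≤ 6 := by
      have := e1 t; have := e2 t
      simp only [List.map_cons, List.map_nil, List.sum_cons, List.sum_nil, Finset.card_singleton]
      omega
    obtain ⟨g, hg, h⟩ := six_sets [{p}, {q}, s \ t, s ∩ t, t \ s] [{p}, {q}, s \ t', s ∩ t', t' \ s]
      (List.Forall₂.cons rfl (List.Forall₂.cons rfl
        (List.Forall₂.cons (by have := e1 t; have := e1 t'; omega)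
        (List.Forall₂.cons hi (List.Forall₂.cons (by have := e2 t; have := e2 t'; omega) List.Forall₂.nil)))))
      (dis t ht.2.1 ht.2.2) (dis t' ht'.2.1 ht'.2.2) hsum
      (by
        intro _
        simpa only [List.foldr_cons, List.foldr_nil, e3] using hiff)
    obtain ⟨hp, hq, h1, h2, h3⟩ : g • ({p} : Finset GolayPt) = {p} ∧ g • ({q} : Finset GolayPt) = {q} ∧
        g • (s \ t) = s \ t' ∧ g • (s ∩ t) = s ∩ t' ∧ g • (t \ s) = t' \ s := by
      cases h with
      | cons h1 h =>
        cases h with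
        | cons h2 h =>
          cases h with
          | cons h3 h =>
            cases h with
            | cons h4 h =>
              cases h with
              | cons h5 _ => exact ⟨h1, h2, h3, h4, h5⟩
    refine ⟨g, hg, ?_, ?_, ?_, ?_⟩
    · rw [Finset.smul_finset_singleton] at hp
      exact Finset.singleton_injective hp
    · rw [Finset.smul_finset_singleton] at hq
      exact Finset.singleton_injective hq
    · have : ∀ V : Finset GolayPt, s = s \ V ∪ s ∩ V := fun V => (Finset.sdiff_union_inter s V).symm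
      conv_lhs => rw [this t]
      rw [Finset.smul_finset_union, h1, h2, ← this t']
    · have : ∀ V : Finset GolayPt, V = V \ s ∪ s ∩ V := fun V => by
        rw [Finset.inter_comm]; exact (Finset.sdiff_union_inter V s).symm
      conv_lhs => rw [this t]
      rw [Finset.smul_finset_union, h3, h2, ← this t']

end Cfsg.Agent.S1638
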