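import Cfsg.Statements.S1641
import Cfsg.Agent.Lib_H9_CfgK

set_option autoImplicit false
open Cfsg

namespace Cfsg.Agent.S1641

open Cfsg.Agent.H9

theorem orbit_eq {u x y0 : leechLattice} {s : ℤ}
    (hy0 : sqNorm (y0 : V) = 32 ∧ dotInt (u : V) (y0 : V) = -16 ∧ dotInt (u : V) (y0 : V) = -16 ∧
      dotInt (x : V) (y0 : V) = s)
    (htr : ∀ y y' : leechLattice, (sqNorm (y : V) = 32 ∧ dotInt (u : V) (y : V) = -16 ∧
      dotInt (u : V) (y : V) = -16 ∧ dotInt (x : V) (y : V) = s) →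
      (sqNorm (y' : V) = 32 ∧ dotInt (u : V) (y' : V) = -16 ∧
      dotInt (u : V) (y' : V) = -16 ∧ dotInt (x : V) (y' : V) = s) → ∃ g : Co0, Fix3 u u x g ∧ g • y = y') :
    MulAction.orbit ↥(MulAction.stabilizer ↥Co0 u ⊓ MulAction.stabilizer ↥Co0 x) y0 =
      {y : leechLattice | sqNorm (y : V) = 32 ∧ dotInt (u : V) (y : V) = -16 ∧
        dotInt (u : V) (y : V) = -16 ∧ dotInt (x : V) (y : V) = s} := by
  ext y
  constructor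
  · rintro ⟨⟨g, hg⟩, rfl⟩
    have hu : g • u = u := hg.1
    have hx : g • x = x := hg.2
    show sqNorm ((g • y0 : leechLattice) : V) = 32 ∧ dotInt (u : V) ((g • y0 : leechLattice) : V) = -16 ∧
      dotInt (u : V) ((g • y0 : leechLattice) : V) = -16 ∧ dotInt (x : V) ((g • y0 : leechLattice) : V) = s
    have e1 := Co0_dot g u y0
    have e2 := Co0_dot g x y0
    rw [hu] at e1
    rw [hx] at e2
    rw [Co0_norm, e1, e2]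
    exact hy0
  · intro hy
    obtain ⟨g, hf, e⟩ := htr y0 y hy0 hy
    exact ⟨⟨g, ⟨hf.1, hf.2.2⟩⟩, e⟩


/-- The third Conway group acts on the 11178 cosets of the Higman–Sims group with rank 5 and subdegrees 1, 352, 1100, 4125, 5600. -/
theorem result (u x : ↥Cfsg.leechLattice) (hu : Cfsg.sqNorm (u : Cfsg.GolayPt → ℤ) = 48) (hx : x ∈ {x : ↥Cfsg.leechLattice | Cfsg.sqNorm (x : Cfsg.GolayPt → ℤ) = 32 ∧ Cfsg.dotInt (u : Cfsg.GolayPt → ℤ) (x : Cfsg.GolayPt → ℤ) = -16}) : ∃ y₁ ∈ {x : ↥Cfsg.leechLattice | Cfsg.sqNorm (x : Cfsg.GolayPt → ℤ) = 32 ∧ Cfsg.dotInt (u : Cfsg.GolayPt → ℤ) (x : Cfsg.GolayPt → ℤ) = -16}, ∃ y₂ ∈ {x : ↥Cfsg.leechLattice | Cfsg.sqNorm (x : Cfsg.GolayPt → ℤ) = 32 ∧ Cfsg.dotInt (u : Cfsg.GolayPt → ℤ) (x : Cfsg.GolayPt → ℤ) = -16}, ∃ y₃ ∈ {x : ↥Cfsg.leechLattice | Cfsg.sqNorm (x : Cfsg.GolayPt → ℤ) = 32 ∧ Cfsg.dotInt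 (u : Cfsg.GolayPt → ℤ) (x : Cfsg.GolayPt → ℤ) = -16}, ∃ y₄ ∈ {x : ↥Cfsg.leechLattice | Cfsg.sqNorm (x : Cfsg.GolayPt → ℤ) = 32 ∧ Cfsg.dotInt (u : Cfsg.GolayPt → ℤ) (x : Cfsg.GolayPt → ℤ) = -16}, (MulAction.orbit ↥(MulAction.stabilizer ↥Cfsg.Co0 u ⊓ MulAction.stabilizer ↥Cfsg.Co0 x) y₁).ncard = 352 ∧ (MulAction.orbit ↥(MulAction.stabilizer ↥Cfsg.Co0 u ⊓ MulAction.stabilizer ↥Cfsg.Co0 x) y₂).ncard = 1100 ∧ (MulAction.orbit ↥(MulAction.stabilizer ↥Cfsg.Co0 u ⊓ MulAction.stabilizer ↥Cfsg.Co0 x) y₃).ncard = 4125 ∧ (MulAction.orbit ↥(MulAction.stabilizer ↥Cfsg.Co0 u ⊓ MulAction.stabilizer ↥Cfsg.Co0 x) y₄).ncard = 5600 ∧ {x : ↥Cfsg.leechLattice | Cfsg.sqNorm (x : Cfsg.GolayPt → ℤ) = 32 ∧ Cfsg.dotInt (u : Cfsg.GolayPt → ℤ) (x : Cfsg.GolayPt → ℤ) = -16} = {x} ∪ MulAction.orbit ↥(MulAction.stabilizer ↥Cfsg.Co0 u ⊓ MulAction.stabilizer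 ↥Cfsg.Co0 x) y₁ ∪ MulAction.orbit ↥(MulAction.stabilizer ↥Cfsg.Co0 u ⊓ MulAction.stabilizer ↥Cfsg.Co0 x) y₂ ∪ MulAction.orbit ↥(MulAction.stabilizer ↥Cfsg.Co0 u ⊓ MulAction.stabilizer ↥Cfsg.Co0 x) y₃ ∪ MulAction.orbit ↥(MulAction.stabilizer ↥Cfsg.Co0 u ⊓ MulAction.stabilizer ↥Cfsg.Co0 x) y₄ := by
  have hx' : sqNorm (x : V) = 32 ∧ dotInt (u : V) (x : V) = -16 := hx
  obtain ⟨g0, rfl, rfl⟩ : ∃ g0 : Co0, g0 • UsL = u ∧ g0 • XsL = x := by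
    obtain ⟨g1, e1⟩ := trans33 UsL u norm_Us hu
    obtain ⟨⟨_, n⟩, d1, _, _⟩ := mem_S3.mp XsL_mem
    obtain ⟨g2, f1, e3⟩ := (mainD u hu).2 (g1 • XsL) x
      ⟨by rw [Co0_norm]; exact n, by rw [← e1, Co0_dot]; exact d1⟩ hx'
    exact ⟨g2 * g1, by rw [mul_smul, e1, f1], by rw [mul_smul, e3]⟩
  obtain ⟨c1, t1⟩ := cfg_main (tab_cardg tbK1_ok) tabK1_orb RK1L_mem cntK1 g0
  obtain ⟨c2, t2⟩ := cfg_main (tab_cardg tbK2_ok) tabK2_orb RK2L_mem cntK2 g0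
  obtain ⟨c3, t3⟩ := cfg_main (tab_cardg tbK3_ok) tabK3_orb RK3L_mem cntK3 g0
  obtain ⟨c4, t4⟩ := cfg_main (tab_cardg tbK4_ok) tabK4_orb RK4L_mem cntK4 g0
  have mk : ∀ (R : leechLattice) (s : ℤ), (R : V) ∈ S3 (UsL : V) UsL XsL (-16) (-16) s →
      (sqNorm ((g0 • R : leechLattice) : V) = 32 ∧ dotInt ((g0 • UsL : leechLattice) : V) ((g0 • R : leechLattice) : V) = -16 ∧
      dotInt ((g0 • UsL : leechLattice) : V) ((g0 • R : leechLattice) : V) = -16 ∧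
      dotInt ((g0 • XsL : leechLattice) : V) ((g0 • R : leechLattice) : V) = s) := by
    intro R s hR
    obtain ⟨⟨_, n⟩, d1, d2, d3⟩ := mem_S3.mp hR
    exact ⟨by rw [Co0_norm]; exact n, by rw [Co0_dot]; exact d1, by rw [Co0_dot]; exact d2,
      by rw [Co0_dot]; exact d3⟩
  have m1 := mk _ _ RK1L_mem
  have m2 := mk _ _ RK2L_mem
  have m3 := mk _ _ RK3L_mem
  have m4 := mk _ _ RK4L_mem
  refine ⟨g0 • RK1L, ⟨m1.1, m1.2.1⟩, g0 • RK2L, ⟨m2.1, m2.2.1⟩, g0 • RK3L, ⟨m3.1, m3.2.1⟩,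
    g0 • RK4L, ⟨m4.1, m4.2.1⟩, ?_⟩
  rw [orbit_eq m1 t1, orbit_eq m2 t2, orbit_eq m3 t3, orbit_eq m4 t4]
  refine ⟨c1, c2, c3, c4, ?_⟩
  ext y
  simp only [Set.mem_union, Set.mem_singleton_iff, Set.mem_ofPred_eq]
  constructor
  · rintro ⟨n, d⟩
    have hm : ((g0⁻¹ • y : leechLattice) : V) ∈ S3 (UsL : V) UsL UsL (-16) (-16) (-16) := by
      rw [mem_S3]
      have e1 := Co0_dot g0 UsL (g0⁻¹ • y)
      rw [smul_inv_smul] at e1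
      exact ⟨⟨(g0⁻¹ • y).2, by rw [Co0_norm]; exact n⟩, by rw [← e1]; exact d, by rw [← e1]; exact d,
        by rw [← e1]; exact d⟩
    have e3 := Co0_dot g0 XsL (g0⁻¹ • y)
    rw [smul_inv_smul] at e3
    rcases dotsK _ hm with h | h | h | h | h
    · exact Or.inl (Or.inl (Or.inl (Or.inr ⟨n, d, d, by rw [e3]; exact h⟩)))
    · exact Or.inl (Or.inl (Or.inr ⟨n, d, d, by rw [e3]; exact h⟩))
    · exact Or.inl (Or.inr ⟨n, d, d, by rw [e3]; exact h⟩)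
    · exact Or.inr ⟨n, d, d, by rw [e3]; exact h⟩
    · refine Or.inl (Or.inl (Or.inl (Or.inl ?_)))
      have h0 := sqNorm_sub ((g0 • XsL : leechLattice) : V) (y : V)
      rw [hx'.1, n, e3, h] at h0
      exact (Subtype.ext (sub_eq_zero.mp (sqNorm_eq_zero (h0.trans (by norm_num))))).symm
  · rintro ((((rfl | h) | h) | h) | h)
    · exact hx'
    · exact ⟨h.1, h.2.1⟩
    · exact ⟨h.1, h.2.1⟩
    · exact ⟨h.1, h.2.1⟩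
    · exact ⟨h.1, h.2.1⟩

end Cfsg.Agent.S1641
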