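import Cfsg.Statements.S1642
import Cfsg.Agent.Lib_H9_CfgF

set_option autoImplicit false
open Cfsg

namespace Cfsg.Agent.S1642

open Cfsg.Agent.H9

def mI : ℕ := 421593854831096359730662659433757234119314711063139825986273016392128679886980937938937471226337977971361361971144925094677331591437321679439550235286262557475995438267994527560667505464493882282734774957099271239784315535174988963608883225444045309996275409006921489822187964926201856333881375978345113668334927709366363756420878085302753387019082865683780565102277582733259145117845246819527205927886811513051797713411851045843416485510894082490316883868574693087208269348025710674358335586930520253345852629507401324435102956000561994119630645432077633705893187903318762145195137532262218459432226059502217849665167127293621374148628327257629091973722500882183770037733086528580476545588949672770584064608588995807215484423459949332026202517286253085681790776557584334458960977128025804787669104673196285846253156105591306215916988803427838056866498834118780404182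

theorem mI_ok : isMat mI = true := by decide +kernel

theorem mI_fix : (matOK mI faF faF && matOK mI fbF fbF) = true := by decide +kernel

def sqOK (M : ℕ) : Bool :=
  allBelow (fun i => allBelow (fun k =>
    decide (sumR (fun j => entM M i j * entM M j k) 24 = bsel (Nat.beq i k) 64 0)) 24) 24

theorem mI_sq : sqOK mI = true := by decide +kernel

theorem matF_matF {M : ℕ} (h : sqOK M = true) (f : ℕ → ℤ) {i : ℕ} (hi : i < 24) :
    matF M (matF M f) i = 64 * f i := by
  have ho : ∀ k ∈ Finset.range 24,
      ∑ j ∈ Finset.range 24, entM M i j * entM M j k = if i = k then 64 else 0 := by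
    intro k hk
    have := (allBelow_iff _ _).mp ((allBelow_iff _ _).mp h i hi) k (Finset.mem_range.mp hk)
    rw [decide_eq_true_iff, sumR_eq, bsel_eq] at this
    simp only [Nat.beq_eq] at this
    exact this
  simp only [matF, sumR_eq, Finset.mul_sum]
  rw [Finset.sum_comm]
  have h2 : ∀ k ∈ Finset.range 24, (∑ j ∈ Finset.range 24, entM M i j * (entM M j k * f k)) =
      (if i = k then 64 else 0) * f k := by
    intro k hk
    rw [← ho k hk, Finset.sum_mul]
    exact Finset.sum_congr rfl (fun j _ => by ring)
  rw [Finset.sum_congr rfl h2]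
  simp only [ite_mul, zero_mul]
  rw [Finset.sum_ite_eq, if_pos (Finset.mem_range.mpr hi)]

theorem matG_matG {x : V} (hx : x ∈ leechLattice) : matG mI (matG mI x) = x := by
  have hl : latOK mI = true := by
    have := mI_ok
    unfold isMat at this
    rw [Bool.and_eq_true] at this
    exact this.2
  obtain ⟨m1, e1⟩ := matG_spec hl hx
  obtain ⟨_, e2⟩ := matG_spec hl m1
  have h3 : matV mI (matV mI x) = (64 : ℤ) • x := by
    conv_lhs => rw [← vecF_pt x, matV_vecF, matV_vecF]
    ext p
    simp only [vecF, Pi.smul_apply, smul_eq_mul]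
    rw [matF_matF mI_sq _ (idx_lt p), pt_idx]
  have h4 : matV mI ((8 : ℤ) • matG mI x) = (8 : ℤ) • matV mI (matG mI x) :=
    map_zsmul (matHom mI) 8 (matG mI x)
  rw [e1, h4, e2] at h3
  ext p
  have := congrFun h3 p
  simp only [Pi.smul_apply, smul_eq_mul] at this
  omega

theorem noFix : allB2 (fun i => !(matOK mI (vecOf (getE tbF i)) (vecOf (getE tbF i)))) 100 = true := by
  decide +kernel

theorem matOK_of_eq {M a b : ℕ} (hl : latOK M = true) (ha : dec a ∈ leechLattice) (h : matG M (dec a) = dec b) :
    matOK M a b = true := by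
  unfold matOK
  rw [allBelow_iff]
  intro i hi
  rw [decide_eq_true_iff]
  have e := (matG_spec hl ha).2
  rw [h, dec_eq_vecF, matV_vecF, dec_eq_vecF] at e
  have := congrFun e (pt i)
  simp only [vecF, Pi.smul_apply, smul_eq_mul, idx_pt hi] at this
  exact this


/-- Some involution of the Higman–Sims group acts without fixed points on its 100 points. -/
theorem result (v w : ↥Cfsg.leechLattice) (hv : Cfsg.sqNorm (v : Cfsg.GolayPt → ℤ) = 48) (hw : Cfsg.sqNorm (w : Cfsg.GolayPt → ℤ) = 48) (hvw : Cfsg.dotInt (v : Cfsg.GolayPt → ℤ) (w : Cfsg.GolayPt → ℤ) = -32) : ∃ g : ↥Cfsg.Co0, g • v = v ∧ g • w = w ∧ orderOf g = 2 ∧ ∀ x ∈ {x : ↥Cfsg.leechLattice | Cfsg.sqNorm (x : Cfsg.GolayPt → ℤ) = 32 ∧ Cfsg.dotInt (v : Cfsg.GolayPt → ℤ) (x : Cfsg.GolayPt → ℤ) = 24 ∧ Cfsg.dotInt (w : Cfsg.GolayPt → ℤ) (x : Cfsg.GolayPt → ℤ) = -24}, g • x ≠ x := by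
  obtain ⟨g0, rfl, rfl⟩ := pair48 UsF WsL v w norm_UsF norm_Ws dot_UsWs hv hw hvw
  have hL := lmap_mat mI_ok
  have hl : latOK mI = true := by
    have := mI_ok
    unfold isMat at this
    rw [Bool.and_eq_true] at this
    exact this.2
  set γ : Co0 := hL.toCo0 with hγ
  have hfix := mI_fix
  rw [Bool.and_eq_true] at hfix
  have f1 : γ • UsF = UsF := Subtype.ext ((hL.toCo0_apply UsF).trans (matOK_spec hfix.1))
  have f2 : γ • WsL = WsL := Subtype.ext ((hL.toCo0_apply WsL).trans (matOK_spec hfix.2))
  have hsq : γ * γ = 1 := by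
    apply Subtype.ext
    apply Equiv.ext
    intro y
    apply Subtype.ext
    show (((γ * γ) • y : leechLattice) : V) = y
    rw [mul_smul, hL.toCo0_apply, hL.toCo0_apply]
    exact matG_matG y.2
  have hnf : ∀ y : leechLattice, (y : V) ∈ S3 (UsF : V) WsL WsL 24 (-24) (-24) → γ • y ≠ y := by
    intro y hy e
    rw [← tabF_eq] at hy
    have key := tab_forall (L := tbF) (N := 100) (fun z => z ∈ leechLattice → matG mI z ≠ z)
      (fun a => !(matOK mI a a)) (by
        intro a ha hm he
        rw [Bool.not_eq_true'] at ha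
        rw [matOK_of_eq hl hm he] at ha
        exact absurd ha (by decide)) noFix
    exact key _ hy y.2 ((hL.toCo0_apply y).symm.trans (congrArg Subtype.val e))
  refine ⟨g0 * γ * g0⁻¹, by rw [mul_smul, mul_smul, inv_smul_smul, f1],
    by rw [mul_smul, mul_smul, inv_smul_smul, f2], ?_, ?_⟩
  · apply orderOf_eq_prime
    · rw [pow_two]
      calc g0 * γ * g0⁻¹ * (g0 * γ * g0⁻¹) = g0 * (γ * γ) * g0⁻¹ := by group
        _ = 1 := by rw [hsq, mul_one, mul_inv_cancel]
    · intro h1
      have h2 : γ = 1 := by
        have : γ = g0⁻¹ * (g0 * γ * g0⁻¹) * g0 := by group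
        rw [this, h1]; group
      exact hnf X2L X2L_mem (by rw [h2, one_smul])
  · rintro x ⟨n, d1, d2⟩ e
    apply hnf (g0⁻¹ • x)
    · rw [mem_S3]
      have e1 := Co0_dot g0 UsF (g0⁻¹ • x)
      have e2 := Co0_dot g0 WsL (g0⁻¹ • x)
      rw [smul_inv_smul] at e1 e2
      exact ⟨⟨(g0⁻¹ • x).2, by rw [Co0_norm]; exact n⟩, by rw [← e1]; exact d1, by rw [← e2]; exact d2,
        by rw [← e2]; exact d2⟩
    · rw [mul_smul, mul_smul] at e
      rw [← e, inv_smul_smul]
      conv_rhs => rw [← e]
      rw [inv_smul_smul]

end Cfsg.Agent.S1642
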