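import Cfsg.Statements.S1691
import Mathlib

set_option autoImplicit false
open Cfsg

namespace Cfsg.Agent.S1691

open Cfsg.Spor

theorem sgn_rel : ∀ r ∈ (coxRelators Fi24.edges ∪ {r | r ∈ Fi24.extra} : Set (FreeGroup Fi24.Gen)),
    FreeGroup.lift (fun _ : Fi24.Gen => (-1 : ℤˣ)) r = 1 := by
  intro r hr
  rcases hr with ⟨x, hx, y, hy, rfl⟩ | hr
  · simp [map_pow, map_mul]
  · simp only [Fi24.extra, Set.mem_setOf_eq, List.mem_cons, List.not_mem_nil, or_false] at hr
    rcases hr with rfl | rfl
    · simp only [map_pow, map_mul, map_inv, FreeGroup.lift_apply_of]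
      decide
    · simp only [map_pow, map_mul, map_inv, FreeGroup.lift_apply_of]
      decide

noncomputable def sgn : Fi24 →* ℤˣ := PresentedGroup.toGroup sgn_rel

theorem sgn_of (x : Fi24.Gen) : sgn (PresentedGroup.of x) = -1 := PresentedGroup.toGroup.of sgn_rel

noncomputable def psi {Q : Type*} [CommGroup Q] (t : Q) (ht : t * t = 1) : ℤˣ →* Q where
  toFun u := if u = 1 then 1 else t
  map_one' := by simp
  map_mul' := by
    intro u v
    have h1 : ¬ ((-1 : ℤˣ) = 1) := by decide
    rcases Int.units_eq_one_or u with rfl | rfl <;> rcases Int.units_eq_one_or v with rfl | rfl <;>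
      simp [ht, h1]

theorem step {Q : Type*} [CommGroup Q] {X Y : Q} (hX : X * X = 1) (hY : Y * Y = 1)
    (h : (X * Y) ^ 3 = 1) : X = Y := by
  have h1 : (X * Y) ^ 3 = X * Y := by
    rw [mul_pow, pow_succ, pow_two, hX, one_mul, pow_succ, pow_two, hY, one_mul]
  rw [h1] at h
  calc X = X * (Y * Y) := by rw [hY, mul_one]
    _ = (X * Y) * Y := by rw [mul_assoc]
    _ = Y := by rw [h, one_mul]

theorem rel (x y : Fi24.Gen) :
    ((PresentedGroup.of x : Fi24) * PresentedGroup.of y) ^ coxLabel Fi24.edges x y = 1 := by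
  have hx : x ∈ coxNodes Fi24.edges := by cases x <;> decide
  have hy : y ∈ coxNodes Fi24.edges := by cases y <;> decide
  have := PresentedGroup.one_of_mem (rels := (coxRelators Fi24.edges ∪ {r | r ∈ Fi24.extra} : Set (FreeGroup Fi24.Gen)))
    (x := (FreeGroup.of x * FreeGroup.of y) ^ coxLabel Fi24.edges x y) (Or.inl ⟨x, hx, y, hy, rfl⟩)
  rw [map_pow, map_mul] at this
  exact this

noncomputable def X (x : Fi24.Gen) : Abelianization Fi24 := Abelianization.of (PresentedGroup.of x : Fi24)

theorem X_rel (x y : Fi24.Gen) : (X x * X y) ^ coxLabel Fi24.edges x y = 1 := by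
  have := congrArg Abelianization.of (rel x y)
  rw [map_pow, map_mul, map_one] at this
  exact this

theorem X_sq (x : Fi24.Gen) : X x * X x = 1 := by
  have := X_rel x x
  have h : coxLabel Fi24.edges x x = 1 := by simp [coxLabel]
  rwa [h, pow_one] at this

theorem X_edge (x y : Fi24.Gen) (h : coxLabel Fi24.edges x y = 3) : X x = X y := by
  have := X_rel x y
  rw [h] at this
  exact step (X_sq x) (X_sq y) this

theorem X_all (x : Fi24.Gen) : X x = X Fi24.Gen.d := by
  have hc : X Fi24.Gen.c = X Fi24.Gen.d := X_edge _ _ (by decide)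
  have hb : X Fi24.Gen.b = X Fi24.Gen.d := (X_edge _ _ (by decide)).trans hc
  have ha : X Fi24.Gen.a = X Fi24.Gen.d := (X_edge _ _ (by decide)).trans hb
  have hk : X Fi24.Gen.k = X Fi24.Gen.d := (X_edge _ _ (by decide)).trans ha
  have hl : X Fi24.Gen.l = X Fi24.Gen.d := (X_edge _ _ (by decide)).trans hk
  have he : X Fi24.Gen.e = X Fi24.Gen.d := X_edge _ _ (by decide)
  have hf : X Fi24.Gen.f = X Fi24.Gen.d := (X_edge _ _ (by decide)).trans he
  have hg : X Fi24.Gen.g = X Fi24.Gen.d := (X_edge _ _ (by decide)).trans hf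
  have hj : X Fi24.Gen.j = X Fi24.Gen.d := (X_edge _ _ (by decide)).trans hg
  have hh : X Fi24.Gen.h = X Fi24.Gen.d := X_edge _ _ (by decide)
  have hi : X Fi24.Gen.i = X Fi24.Gen.d := (X_edge _ _ (by decide)).trans hh
  cases x <;> first | assumption | rfl


/-- The commutator subgroup of the presented group Fi₂₄ has index 2 (the presented group is Fi₂₄′:2 with Fi₂₄′ its derived subgroup). -/
theorem result : (commutator Cfsg.Spor.Fi24).index = 2 := by
  have hfac : (Abelianization.of : Cfsg.Spor.Fi24 →* Abelianization Cfsg.Spor.Fi24)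
      = (psi (X Cfsg.Spor.Fi24.Gen.d) (X_sq _)).comp sgn := by
    apply PresentedGroup.ext
    intro x
    rw [MonoidHom.comp_apply, sgn_of]
    have h1 : ¬ ((-1 : ℤˣ) = 1) := by decide
    show X x = if (-1 : ℤˣ) = 1 then 1 else X Cfsg.Spor.Fi24.Gen.d
    rw [if_neg h1, X_all]
  have hker : commutator Cfsg.Spor.Fi24 = sgn.ker := by
    apply le_antisymm
    · exact Abelianization.commutator_subset_ker sgn
    · intro x hx
      rw [MonoidHom.mem_ker] at hx
      have : Abelianization.of x = 1 := by
        rw [hfac, MonoidHom.comp_apply, hx, map_one]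
      rwa [← MonoidHom.mem_ker, Abelianization.ker_of] at this
  have hsurj : Function.Surjective sgn := by
    intro u
    rcases Int.units_eq_one_or u with rfl | rfl
    · exact ⟨1, map_one _⟩
    · exact ⟨_, sgn_of Cfsg.Spor.Fi24.Gen.d⟩
  rw [hker, Subgroup.index_ker, MonoidHom.range_eq_top.2 hsurj, Subgroup.card_top,
    Nat.card_eq_fintype_card, Fintype.card_units_int]

end Cfsg.Agent.S1691
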