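import Cfsg.Statements.S1754
import Cfsg.Agent.Lib_helper5_Comp3
import Cfsg.Agent.Lib_helper5_Basic

set_option autoImplicit false
open Cfsg

namespace Cfsg.Agent.S1754

open Cfsg.Agent.H5

/-- Let A be a standard subgroup of the finite group G (A quasisimple, C_G(A) tightly embedded of even order, A commuting elementwise with no other conjugate of itself, and N_G(A) = N_G(C_G(A))), and let t be an involution of G centralizing A. Then the centralizer of t lies in the normalizer of A; in particular A, viewed inside C_G(t), is a component of C_G(t). -/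
theorem result {G : Type*} [Group G] [Finite G]
    (A : Subgroup G) (hA : Cfsg.IsStandardSubgroup A) (t : G) (ht : orderOf t = 2) (htA : t ∈ Subgroup.centralizer (A : Set G)) :
    Subgroup.centralizer ({t} : Set G) ≤ Subgroup.normalizer (A : Set G) ∧
      Cfsg.IsComponent (A.subgroupOf (Subgroup.centralizer ({t} : Set G))) := by
  obtain ⟨hq, ⟨_, htight⟩, _, hnorm⟩ := hA
  have h1 : Subgroup.centralizer ({t} : Set G) ≤ Subgroup.normalizer (A : Set G) := by
    intro g hg
    rw [hnorm]
    by_contra hcon
    have hodd := htight g hcon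
    have htmem : t ∈ Subgroup.centralizer (A : Set G) ⊓
        (Subgroup.centralizer (A : Set G)).map (MulAut.conj g).toMonoidHom := by
      refine Subgroup.mem_inf.2 ⟨htA, ⟨t, htA, ?_⟩⟩
      change g * t * g⁻¹ = t
      rw [Subgroup.mem_centralizer_singleton_iff] at hg
      rw [hg]; group
    exact (Nat.not_even_iff_odd.2 hodd) (even_card_of_invol_mem _ t ht htmem)
  refine ⟨h1, ?_⟩
  have hAC : A ≤ Subgroup.centralizer ({t} : Set G) := by
    intro a ha
    rw [Subgroup.mem_centralizer_singleton_iff]
    exact (Subgroup.mem_centralizer_iff.1 htA) a ha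
  exact ⟨(Subgroup.normal_subgroupOf_of_le_normalizer h1).isSubnormal,
    (qs_subgroupOf_iff hAC).2 hq⟩

end Cfsg.Agent.S1754
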