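import Cfsg.Statements.S1756
import Mathlib
import Cfsg.Agent.Lib_lead_XS1

set_option autoImplicit false
open Cfsg

namespace Cfsg.Agent.S1756

open scoped commutatorElement


/-- Let Q be an extraspecial 2-subgroup of the finite group G (special with centre of order 2) and t an involution of G normalizing Q such that the centralizer of t in Q has index at most 2 in Q. Then t lies in the product of Q with the centralizer of Q. -/
theorem result {G : Type*} [Group G] [Finite G] (Q : Subgroup G)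
    (hQ : Cfsg.IsExtraspecial 2 ↥Q) (t : G) (ht : orderOf t = 2) (htN : t ∈ Subgroup.normalizer (Q : Set G))
    (hi : (Subgroup.centralizer ({t} : Set G) ⊓ Q).relIndex Q ≤ 2) :
    t ∈ Q ⊔ Subgroup.centralizer (Q : Set G) := by
  have : Fact (Nat.Prime 2) := ⟨Nat.prime_two⟩
  have hX := Cfsg.Agent.LeadXS.XS.of_extraspecial hQ
  have hN : ∀ x, x ∈ Q ↔ t * x * t⁻¹ ∈ Q := fun x => Subgroup.mem_normalizer_iff.1 htN x
  have ht2 : t * t = 1 := by rw [← pow_two, ← ht]; exact pow_orderOf_eq_one t
  have htinv : t⁻¹ = t := inv_eq_of_mul_eq_one_left ht2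
  have hZ : ∀ z ∈ Q, (∀ y ∈ Q, y * z = z * y) → t * z = z * t := by
    intro z hz hzc
    by_cases h1 : z = 1
    · subst h1; simp
    have hz' : (⟨z, hz⟩ : Q) ∈ Subgroup.center Q := by
      rw [Subgroup.mem_center_iff]
      intro y
      exact Subtype.ext (hzc y y.2)
    have hz'' : (⟨t * z * t⁻¹, (hN z).1 hz⟩ : Q) ∈ Subgroup.center Q := by
      rw [Subgroup.mem_center_iff]
      intro y
      apply Subtype.ext
      show (y : G) * (t * z * t⁻¹) = (t * z * t⁻¹) * y
      have hy : t⁻¹ * y * t ∈ Q := by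
        rw [hN]
        have : t * (t⁻¹ * y * t) * t⁻¹ = y := by group
        rw [this]; exact y.2
      have h3 := hzc _ hy
      calc (y : G) * (t * z * t⁻¹) = t * ((t⁻¹ * y * t) * z) * t⁻¹ := by group
        _ = (t * z * t⁻¹) * y := by rw [h3]; group
    obtain ⟨u, _, hu⟩ := (Nat.card_eq_two_iff' (1 : Subgroup.center Q)).1 hX.card_center
    have a1 := hu ⟨_, hz'⟩ (by
      intro h
      exact h1 (congrArg (fun v : Subgroup.center Q => ((v : Q) : G)) h))
    have a2 := hu ⟨_, hz''⟩ (by
      intro h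
      have h4 : t * z * t⁻¹ = 1 := congrArg (fun v : Subgroup.center Q => ((v : Q) : G)) h
      apply h1
      have : z = t⁻¹ * (t * z * t⁻¹) * t := by group
      rw [this, h4]; group)
    have h5 : t * z * t⁻¹ = z :=
      congrArg (fun v : Subgroup.center Q => ((v : Q) : G)) (a2.trans a1.symm)
    calc t * z = (t * z * t⁻¹) * t := by group
      _ = z * t := by rw [h5]
  apply hX.mem_sup_centralizer Q t
  intro x hx
  have hw : ⁅t, x⁆ ∈ Q := by
    rw [commutatorElement_def]; exact Q.mul_mem ((hN x).1 hx) (Q.inv_mem hx)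
  refine ⟨hw, ?_⟩
  by_cases hxc : t * x = x * t
  · have : ⁅t, x⁆ = 1 := commutatorElement_eq_one_iff_mul_comm.2 hxc
    intro y _; rw [this]; simp
  set C : Subgroup Q := (Subgroup.centralizer ({t} : Set G) ⊓ Q).subgroupOf Q with hC
  have hmemC : ∀ a : Q, a ∈ C ↔ t * a = a * t := by
    intro a
    rw [hC, Subgroup.mem_subgroupOf, Subgroup.mem_inf, Subgroup.mem_centralizer_iff]
    simp [a.2]
  have hidx : C.index = 2 := by
    have h1 : C.index ≤ 2 := hi
    have h0 : C.index ≠ 0 := Subgroup.index_ne_zero_of_finite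
    have h1' : C.index ≠ 1 := by
      intro h
      rw [Subgroup.index_eq_one] at h
      exact hxc ((hmemC ⟨x, hx⟩).1 (h ▸ Subgroup.mem_top _))
    omega
  have h2 : ∀ a ∈ Q, ∀ b ∈ Q, t * a ≠ a * t → t * b ≠ b * t → t * (a * b) = (a * b) * t := by
    intro a ha b hb h1 h2
    have := (Subgroup.mul_mem_iff_of_index_two hidx (a := ⟨a, ha⟩) (b := ⟨b, hb⟩)).2
      (by rw [hmemC, hmemC]; exact iff_of_false h1 h2)
    exact (hmemC _).1 this
  have hxinv : t * x⁻¹ ≠ x⁻¹ * t := by
    intro h
    apply hxc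
    calc t * x = x * (x⁻¹ * t) * x := by group
      _ = x * t := by rw [← h]; group
  set w := ⁅t, x⁆ with hwdef
  have hwC : ∀ c ∈ Q, t * c = c * t → c * w = w * c := by
    intro c hc hct
    have hz := hX.comm_mem ⟨c, hc⟩ ⟨x, hx⟩
    set z : G := ⁅c, x⁆ with hzdef
    have hzQ : z ∈ Q := by
      rw [hzdef, commutatorElement_def]
      exact Q.mul_mem (Q.mul_mem (Q.mul_mem hc hx) (Q.inv_mem hc)) (Q.inv_mem hx)
    have hzc : ∀ y ∈ Q, y * z = z * y := by
      intro y hy
      exact congrArg Subtype.val (Subgroup.mem_center_iff.1 hz ⟨y, hy⟩)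
    have htz := hZ z hzQ hzc
    have hct' : c * t⁻¹ = t⁻¹ * c := by
      rw [htinv]; exact hct.symm
    have s1 : c * w * c⁻¹ = (c * t) * x * c⁻¹ * (c * t⁻¹) * x⁻¹ * c⁻¹ := by
      rw [hwdef, commutatorElement_def]; group
    rw [← hct, hct'] at s1
    have s2 : t * c * x * c⁻¹ * (t⁻¹ * c) * x⁻¹ * c⁻¹ = (t * z) * x * t⁻¹ * x⁻¹ * z⁻¹ := by
      rw [hzdef, commutatorElement_def]; group
    have s3 : (z * t) * x * t⁻¹ * x⁻¹ * z⁻¹ = (z * w) * z⁻¹ := by
      rw [hwdef, commutatorElement_def]; group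
    rw [s2, htz, s3, ← hzc w hw] at s1
    calc c * w = (c * w * c⁻¹) * c := by group
      _ = w * c := by rw [s1]; group
  have hwt : t * w = w * t := by
    have h3 : t * (t * x * t⁻¹) ≠ (t * x * t⁻¹) * t := by
      intro h
      apply hxc
      calc t * x = t⁻¹ * (t * (t * x * t⁻¹)) * t := by group
        _ = x * t := by rw [h]; group
    have := h2 _ ((hN x).1 hx) _ (Q.inv_mem hx) h3 hxinv
    rw [hwdef, commutatorElement_def]
    exact this
  have hww : w * w = 1 := by
    have h3 : t * w * t⁻¹ = w⁻¹ := by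
      rw [hwdef, commutatorElement_def]
      calc t * (t * x * t⁻¹ * x⁻¹) * t⁻¹ = (t * t) * x * t⁻¹ * x⁻¹ * t⁻¹ := by group
        _ = x * t * x⁻¹ * t⁻¹ := by rw [ht2, htinv]; group
        _ = (t * x * t⁻¹ * x⁻¹)⁻¹ := by group
    have h4 : t * w * t⁻¹ = w := by rw [hwt]; group
    rw [h4] at h3
    calc w * w = w * w⁻¹ := by rw [← h3]
      _ = 1 := by group
  have hwx : x * w = w * x := by
    have hx2 := hX.pow ⟨x, hx⟩
    have hx2c : ∀ y ∈ Q, y * (x * x) = (x * x) * y := by
      intro y hy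
      have := congrArg Subtype.val (Subgroup.mem_center_iff.1 hx2 ⟨y, hy⟩)
      simpa [pow_two] using this
    have h3 := hZ (x * x) (Q.mul_mem hx hx) hx2c
    have h4 : (w * x) * (w * x) = x * x := by
      calc (w * x) * (w * x) = (t * (x * x)) * t⁻¹ := by
            rw [hwdef, commutatorElement_def]; group
        _ = x * x := by rw [h3]; group
    have h5 : w * x * w = x := by
      calc w * x * w = ((w * x) * (w * x)) * x⁻¹ := by group
        _ = x := by rw [h4]; group
    calc x * w = (w * w) * x * w := by rw [hww]; group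
      _ = w * (w * x * w) := by group
      _ = w * x := by rw [h5]
  intro y hy
  by_cases hyc : t * y = y * t
  · exact hwC y hy hyc
  · have h6 := hwC _ (Q.mul_mem hy (Q.inv_mem hx)) (h2 y hy _ (Q.inv_mem hx) hyc hxinv)
    calc y * w = (y * x⁻¹) * (x * w) := by group
      _ = ((y * x⁻¹) * w) * x := by rw [hwx]; group
      _ = w * y := by rw [h6]; group

end Cfsg.Agent.S1756
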