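import Cfsg.Statements.S1757
import Mathlib

set_option autoImplicit false
open Cfsg

namespace Cfsg.Agent.S1757

/-- Let p be a prime and A, B p-subgroups of the finite group G, each of which meets every conjugate of itself other than itself trivially. Suppose the order of A is at most that of B, A and B intersect trivially, and B normalizes A. Then A and B commute elementwise. -/
theorem result {G : Type*} [Group G] [Finite G] (p : ℕ) [Fact p.Prime] (A B : Subgroup G)
    (hA : IsPGroup p ↥A) (hB : IsPGroup p ↥B)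
    (hAti : ∀ g : G, A.map (MulAut.conj g).toMonoidHom = A ∨ A.map (MulAut.conj g).toMonoidHom ⊓ A = ⊥)
    (hBti : ∀ g : G, B.map (MulAut.conj g).toMonoidHom = B ∨ B.map (MulAut.conj g).toMonoidHom ⊓ B = ⊥)
    (hle : Nat.card ↥A ≤ Nat.card ↥B) (hAB : A ⊓ B = ⊥) (hN : B ≤ Subgroup.normalizer (A : Set G)) : ⁅A, B⁆ = ⊥ := by
  classical
  have hnorm : ∀ a ∈ A, B.map (MulAut.conj a).toMonoidHom = B := by
    intro a ha
    by_cases ha1 : a = 1
    · subst ha1; ext x; simp
    rcases hBti a with h | h
    · exact h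
    · exfalso
      have hconjA : ∀ b ∈ B, b * a * b⁻¹ ∈ A := by
        intro b hb
        exact (Subgroup.le_normalizer_iff.mp hN) b hb a ha
      let f : B → A := fun b => ⟨b * a * b⁻¹, hconjA b b.2⟩
      have hf : Function.Injective f := by
        intro b b' hbb
        have h1 : (b : G) * a * (b : G)⁻¹ = b' * a * (b' : G)⁻¹ := congrArg Subtype.val hbb
        -- c = b'⁻¹ b commutes with a
        have h2 : a * ((b' : G)⁻¹ * b) * a⁻¹ = (b' : G)⁻¹ * b := by
          have : a = (b' : G)⁻¹ * ((b : G) * a * (b : G)⁻¹) * b' := by rw [h1]; group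
          calc a * ((b' : G)⁻¹ * b) * a⁻¹
              = ((b' : G)⁻¹ * ((b : G) * a * (b : G)⁻¹) * b') * ((b' : G)⁻¹ * b) * a⁻¹ := by rw [← this]
            _ = (b' : G)⁻¹ * b := by group
        have hc : (b' : G)⁻¹ * b ∈ B := B.mul_mem (B.inv_mem b'.2) b.2
        have h3 : (b' : G)⁻¹ * b ∈ B.map (MulAut.conj a).toMonoidHom ⊓ B :=
          ⟨⟨_, hc, h2⟩, hc⟩
        rw [h, Subgroup.mem_bot, inv_mul_eq_one] at h3
        exact (Subtype.ext h3).symm
      have h1 : (1 : A) ∉ Set.range f := by
        rintro ⟨b, hb⟩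
        have h2 : (b : G) * a * (b : G)⁻¹ = 1 := congrArg Subtype.val hb
        have h3 : a = 1 := by
          have : a = (b : G)⁻¹ * ((b : G) * a * (b : G)⁻¹) * b := by group
          rw [this, h2]; group
        exact ha1 h3
      have hlt : Nat.card B < Nat.card A := by
        haveI := Fintype.ofFinite A
        haveI := Fintype.ofFinite B
        rw [Nat.card_eq_fintype_card, Nat.card_eq_fintype_card]
        exact Fintype.card_lt_of_injective_of_notMem f hf h1
      omega
  rw [Subgroup.commutator_eq_bot_iff_le_centralizer]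
  intro a ha
  rw [Subgroup.mem_centralizer_iff]
  intro b hb
  have h1 : a * b * a⁻¹ ∈ B := by
    rw [← hnorm a ha]; exact ⟨b, hb, rfl⟩
  have h2 : b * a⁻¹ * b⁻¹ ∈ A := (Subgroup.le_normalizer_iff.mp hN) b hb a⁻¹ (A.inv_mem ha)
  have h3 : a * b * a⁻¹ * b⁻¹ ∈ A ⊓ B :=
    ⟨by have := A.mul_mem ha h2; simpa [mul_assoc] using this, B.mul_mem h1 (B.inv_mem hb)⟩
  rw [hAB, Subgroup.mem_bot] at h3
  have : a * b = b * a := by
    have h4 : a * b = (a * b * a⁻¹ * b⁻¹) * (b * a) := by group
    rw [h4, h3, one_mul]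
  exact this.symm

end Cfsg.Agent.S1757
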