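import Cfsg.Statements.S1780
import Mathlib

set_option autoImplicit false
open Cfsg

namespace Cfsg.Agent.S1780

/-- Let A be a finite abelian 2-group and t an automorphism of A whose order is a power of 2. If every element of A fixed by t² is fixed by t, then t fixes every element of A. -/
theorem result {A : Type*} [CommGroup A] [Finite A]
    (hA : IsPGroup 2 A) (t : MulAut A) (ht : ∃ k : ℕ, orderOf t = 2 ^ k) (hC : ∀ a : A, t (t a) = a → t a = a) :
    ∀ a : A, t a = a := by
  obtain ⟨k, hk⟩ := ht
  have hcomm : ∀ (e : ℕ) (a : A), (t ^ e) (t a) = t ((t ^ e) a) := by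
    intro e a
    rw [← MulAut.mul_apply, ← MulAut.mul_apply, ← pow_succ, ← pow_succ']
  have L1 : ∀ i : ℕ, ∀ a : A, a ^ 2 = 1 → (t ^ (2 ^ i)) a = a → t a = a := by
    intro i
    induction i with
    | zero => intro a _ h; simpa using h
    | succ i ih =>
      intro a ha h
      set g := t ^ (2 ^ i) with hg
      have hgg : g (g a) = a := by
        rw [← MulAut.mul_apply, hg, ← pow_add, ← two_mul, ← pow_succ']; exact h
      have hga : (g a) ^ 2 = 1 := by rw [← map_pow, ha, map_one]
      have hta : (t a) ^ 2 = 1 := by rw [← map_pow, ha, map_one]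
      have hw : t (a * g a) = a * g a := by
        apply ih
        · rw [mul_pow, ha, hga, one_mul]
        · rw [map_mul, hgg, mul_comm]
      have he : t (a * t a) = a * t a := by
        apply ih
        · rw [mul_pow, ha, hta, one_mul]
        · rw [map_mul, hcomm]
          rw [map_mul] at hw
          -- hw : t a * t (g a) = a * g a
          have h1 : t (g a) = (t a)⁻¹ * (a * g a) := by rw [← hw]; group
          have h2 : (t a)⁻¹ = t a := by
            rw [inv_eq_iff_mul_eq_one, ← sq, hta]
          rw [h1, h2]
          calc g a * (t a * (a * g a)) = (a * t a) * (g a) ^ 2 := by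
                rw [sq]; simp only [mul_comm, mul_left_comm]
            _ = a * t a := by rw [hga, mul_one]
      apply hC
      rw [map_mul] at he
      have h3 : t a * t (t a) = t a * a := by rw [he, mul_comm]
      exact mul_left_cancel h3
  have L2 : ∀ a : A, a ^ 2 = 1 → t a = a := by
    intro a ha
    apply L1 k a ha
    rw [← hk, pow_orderOf_eq_one]; rfl
  have L3 : ∀ m : ℕ, ∀ a : A, a ^ (2 ^ m) = 1 → t a = a := by
    intro m
    induction m with
    | zero => intro a h; simp at h; rw [h, map_one]
    | succ m ih =>
      intro a h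
      have h1 : t (a ^ 2) = a ^ 2 := by
        apply ih
        rw [← pow_mul, ← pow_succ']; exact h
      have hz : t (a⁻¹ * t a) = a⁻¹ * t a := by
        apply L2
        rw [mul_pow, inv_pow, ← map_pow, h1, inv_mul_cancel]
      apply hC
      have h2 : t a = a * (a⁻¹ * t a) := by group
      calc t (t a) = t (a * (a⁻¹ * t a)) := by rw [← h2]
        _ = t a * (a⁻¹ * t a) := by rw [map_mul, hz]
        _ = a * (a⁻¹ * t a) ^ 2 := by rw [sq]; group
        _ = a := by rw [mul_pow, inv_pow, ← map_pow, h1, inv_mul_cancel, mul_one]
  intro a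
  obtain ⟨m, hm⟩ := hA a
  exact L3 m a hm

end Cfsg.Agent.S1780
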