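import Cfsg.Statements.S1785
import Cfsg.Agent.S0100

set_option autoImplicit false
open Cfsg

namespace Cfsg.Agent.S1785

open Subgroup

lemma comm_of {X : Type*} [Group X] {p : ℕ} {F : Subgroup X} (hF : Cfsg.IsElementaryAbelian p F) :
    ∀ x ∈ F, ∀ y ∈ F, x * y = y * x := by
  intro x hx y hy
  have h0 := congrArg Subtype.val (hF.1.is_comm.comm ⟨x, hx⟩ ⟨y, hy⟩)
  exact h0

lemma ea_le {X : Type*} [Group X] {p : ℕ} {F F' : Subgroup X} (hF : Cfsg.IsElementaryAbelian p F)
    (hle : F' ≤ F) : Cfsg.IsElementaryAbelian p F' :=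
  ⟨⟨⟨fun a b => Subtype.ext (comm_of hF a.1 (hle a.2) b.1 (hle b.2))⟩⟩, fun a ha => hF.2 a (hle ha)⟩

lemma ea_zpowers {X : Type*} [Group X] {p : ℕ} {c : X} (hc : c ^ p = 1) :
    Cfsg.IsElementaryAbelian p (zpowers c) := by
  refine ⟨inferInstance, ?_⟩
  intro a ha
  obtain ⟨k, rfl⟩ := mem_zpowers_iff.1 ha
  rw [← zpow_natCast, ← zpow_mul, mul_comm, zpow_mul, zpow_natCast, hc, one_zpow]

lemma inv_lemma {X : Type*} [Group X] [Finite X] (F : Subgroup X)
    (hFc : ∀ x ∈ F, ∀ y ∈ F, x * y = y * x) (hF2 : ∀ x ∈ F, x ^ 2 = 1)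
    (t : X) (ht : t ^ 2 = 1) (htF : ∀ x ∈ F, t * x * t⁻¹ ∈ F) :
    Nat.card F ≤ Nat.card ↥(F ⊓ centralizer {t}) ^ 2 := by
  have htt : t * t = 1 := by rw [← pow_two]; exact ht
  have hti : t⁻¹ = t := inv_eq_of_mul_eq_one_right htt
  let φ : ↥F →* ↥(F ⊓ centralizer {t}) := MonoidHom.mk'
    (fun f => ⟨(f : X) * (t * f * t⁻¹), ⟨F.mul_mem f.2 (htF f f.2), by
      show (f : X) * (t * f * t⁻¹) ∈ centralizer {t}
      rw [mem_centralizer_singleton_iff]
      have h1 := hFc f f.2 _ (htF f f.2)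
      calc (f : X) * (t * f * t⁻¹) * t = (t * f * t⁻¹) * f * t := by rw [h1]
        _ = t * f * (t⁻¹ * f * t) := by group
        _ = t * f * (t * f * t⁻¹) := by rw [hti]
        _ = t * (f * (t * f * t⁻¹)) := by group⟩⟩)
    (by
      intro f g
      apply Subtype.ext
      show ((f : X) * g) * (t * (f * g) * t⁻¹) = (f * (t * f * t⁻¹)) * (g * (t * g * t⁻¹))
      have h1 := hFc g g.2 _ (htF f f.2)
      calc ((f : X) * g) * (t * (f * g) * t⁻¹) = f * (g * (t * f * t⁻¹)) * (t * g * t⁻¹) := by group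
        _ = f * ((t * f * t⁻¹) * g) * (t * g * t⁻¹) := by rw [h1]
        _ = _ := by group)
  have hker : Nat.card φ.ker ≤ Nat.card ↥(F ⊓ centralizer {t}) := by
    refine Nat.card_le_card_of_injective
      (fun x : φ.ker => (⟨x.1.1, ⟨x.1.2, ?_⟩⟩ : ↥(F ⊓ centralizer {t}))) ?_
    · have h1 : φ x.1 = 1 := x.2
      have h2 : (x.1 : X) * (t * x.1 * t⁻¹) = 1 := congrArg Subtype.val h1
      have h3 : (x.1 : X) * x.1 = 1 := by rw [← pow_two]; exact hF2 _ x.1.2
      have h4 : t * x.1 * t⁻¹ = (x.1 : X) := mul_left_cancel (h2.trans h3.symm)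
      show (x.1 : X) ∈ centralizer {t}
      rw [mem_centralizer_singleton_iff]
      calc (x.1 : X) * t = (t * x.1 * t⁻¹) * t := by rw [h4]
        _ = t * x.1 := by group
    · intro x y hxy
      apply Subtype.ext
      apply Subtype.ext
      have h0 := congrArg (fun z : ↥(F ⊓ centralizer {t}) => (z : X)) hxy
      exact h0
  have hrange : Nat.card φ.range ≤ Nat.card ↥(F ⊓ centralizer {t}) := card_le_card_group _
  have hcard : Nat.card φ.ker * Nat.card φ.range = Nat.card F := by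
    rw [← index_ker]; exact card_mul_index _
  rw [← hcard, pow_two]
  exact Nat.mul_le_mul hker hrange

lemma cent_step {X : Type*} [Group X] [Finite X] (E A : Subgroup X) [E.Normal]
    (hE : Cfsg.IsElementaryAbelian 2 E) (hA : Cfsg.IsElementaryAbelian 2 A) (D' : Subgroup X)
    (hD' : D' ≤ A) (a : X) (ha : a ∈ A) :
    Nat.card ↥(E ⊓ centralizer (D' : Set X)) ≤
      Nat.card ↥(E ⊓ centralizer ((D' ⊔ zpowers a : Subgroup X) : Set X)) ^ 2 := by
  have h1 := inv_lemma (E ⊓ centralizer (D' : Set X))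
    (fun x hx y hy => comm_of hE x hx.1 y hy.1) (fun x hx => hE.2 x hx.1) a (hA.2 a ha) (by
      intro x hx
      refine ⟨(inferInstance : E.Normal).conj_mem x hx.1 a, ?_⟩
      show a * x * a⁻¹ ∈ centralizer (D' : Set X)
      rw [mem_centralizer_iff]
      intro d hd
      have h2 := comm_of hA a ha d (hD' hd)
      have h3 := mem_centralizer_iff.1 hx.2 d hd
      calc d * (a * x * a⁻¹) = (d * a) * x * a⁻¹ := by group
        _ = a * (d * x) * a⁻¹ := by rw [← h2]; group
        _ = a * x * (d * a⁻¹) := by rw [h3]; group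
        _ = a * x * (a⁻¹ * d) := by
            have : d * a⁻¹ = a⁻¹ * d := ((show Commute a d from h2).inv_left).eq.symm
            rw [this]
        _ = a * x * a⁻¹ * d := by group)
  refine h1.trans (Nat.pow_le_pow_left (card_le_of_le ?_) 2)
  rintro x ⟨⟨hxE, hxD⟩, hxa⟩
  refine ⟨hxE, ?_⟩
  have hle : D' ⊔ zpowers a ≤ centralizer {x} := by
    refine sup_le ?_ ?_
    · intro d hd
      rw [mem_centralizer_singleton_iff]
      exact mem_centralizer_iff.1 hxD d hd
    · rw [zpowers_le, mem_centralizer_singleton_iff]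
      exact (mem_centralizer_singleton_iff.1 hxa).symm
  show x ∈ centralizer ((D' ⊔ zpowers a : Subgroup X) : Set X)
  rw [mem_centralizer_iff]
  intro y hy
  exact mem_centralizer_singleton_iff.1 (hle hy)

lemma cent_bound {X : Type*} [Group X] [Finite X] (E A : Subgroup X) [E.Normal]
    (hE : Cfsg.IsElementaryAbelian 2 E) (hA : Cfsg.IsElementaryAbelian 2 A) :
    ∀ n : ℕ, ∀ D' : Subgroup X, D' ≤ A → Nat.card A ≤ 2 ^ n * Nat.card D' →
      Nat.card ↥(E ⊓ centralizer (D' : Set X)) ≤ Nat.card ↥(E ⊓ centralizer (A : Set X)) ^ (2 ^ n) := by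
  intro n
  induction n with
  | zero =>
    intro D' hD' hc
    have : D' = A := eq_of_le_of_card_ge hD' (by simpa using hc)
    rw [this]; simp
  | succ n ih =>
    intro D' hD' hc
    by_cases heq : D' = A
    · rw [heq]
      exact Nat.le_self_pow (by positivity) _
    · obtain ⟨a, ha, haD⟩ := SetLike.exists_of_lt (lt_of_le_of_ne hD' heq)
      have hle : D' ⊔ zpowers a ≤ A := sup_le hD' (by rw [zpowers_le]; exact ha)
      have hlt : D' < D' ⊔ zpowers a := lt_of_le_of_ne le_sup_left (fun h =>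
        haD (h ▸ (le_sup_right (a := D') (mem_zpowers a))))
      have hcard : 2 * Nat.card D' ≤ Nat.card ↥(D' ⊔ zpowers a) := by
        obtain ⟨k, hk⟩ := card_dvd_of_le hlt.le
        have h1 : Nat.card D' < Nat.card ↥(D' ⊔ zpowers a) := by
          by_contra hcon
          push Not at hcon
          exact hlt.ne (eq_of_le_of_card_ge hlt.le hcon)
        rw [hk] at h1 ⊢
        have hk2 : 2 ≤ k := by
          by_contra hcon
          push Not at hcon
          interval_cases k <;> simp at h1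
        calc 2 * Nat.card D' = Nat.card D' * 2 := mul_comm _ _
          _ ≤ Nat.card D' * k := Nat.mul_le_mul_left _ hk2
      have h2 := ih (D' ⊔ zpowers a) hle (by
        calc Nat.card A ≤ 2 ^ (n + 1) * Nat.card D' := hc
          _ = 2 ^ n * (2 * Nat.card D') := by ring
          _ ≤ _ := Nat.mul_le_mul_left _ hcard)
      calc Nat.card ↥(E ⊓ centralizer (D' : Set X))
          ≤ Nat.card ↥(E ⊓ centralizer ((D' ⊔ zpowers a : Subgroup X) : Set X)) ^ 2 :=
            cent_step E A hE hA D' hD' a ha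
        _ ≤ (Nat.card ↥(E ⊓ centralizer (A : Set X)) ^ (2 ^ n)) ^ 2 := Nat.pow_le_pow_left h2 2
        _ = _ := by rw [← pow_mul, pow_succ]

/-- Let X be a finite 2-group having a normal elementary abelian subgroup of order at least 32. Then (a) for any two elementary abelian subgroups A, B of X of order 8 there is a chain A = A₁, A₂, …, Aₙ = B of elementary abelian subgroups of order 8 in which consecutive members commute elementwise; and (b) every elementary abelian subgroup of X of order 4 is contained in an elementary abelian subgroup of order 8. -/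
theorem result {X : Type*} [Group X] [Finite X]
    (hX : IsPGroup 2 X) (E : Subgroup X) [E.Normal] (hE : Cfsg.IsElementaryAbelian 2 E) (hE32 : 32 ≤ Nat.card ↥E) :
    (∀ A B : Subgroup X, Cfsg.IsElementaryAbelian 2 A → Nat.card ↥A = 8 → Cfsg.IsElementaryAbelian 2 B → Nat.card ↥B = 8 →
        Relation.ReflTransGen
          (fun C D : Subgroup X => Cfsg.IsElementaryAbelian 2 C ∧ Nat.card ↥C = 8 ∧ Cfsg.IsElementaryAbelian 2 D ∧ Nat.card ↥D = 8 ∧ ⁅C, D⁆ = ⊥)
          A B) ∧
      (∀ V : Subgroup X, Cfsg.IsElementaryAbelian 2 V → Nat.card ↥V = 4 →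
        ∃ A : Subgroup X, V ≤ A ∧ Cfsg.IsElementaryAbelian 2 A ∧ Nat.card ↥A = 8) := by
  classical
  haveI : Fact (Nat.Prime 2) := ⟨Nat.prime_two⟩
  have hEcomm := comm_of hE
  have hnum : ∀ m n : ℕ, 32 ≤ (2 ^ m) ^ (2 ^ n) → 5 ≤ m * 2 ^ n := by
    intro m n h
    rw [← pow_mul] at h
    have h' : (2 : ℕ) ^ 5 ≤ 2 ^ (m * 2 ^ n) := by
      calc (2 : ℕ) ^ 5 = 32 := by norm_num
        _ ≤ _ := h
    exact (Nat.pow_le_pow_iff_right (by norm_num)).1 h'
  have hzc : ∀ c : X, c ^ 2 = 1 → Nat.card (zpowers c) ≤ 2 := by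
    intro c hc
    rw [Nat.card_zpowers]
    exact Nat.le_of_dvd (by norm_num) (orderOf_dvd_of_pow_eq_one hc)
  have hsupcard : ∀ (D : Subgroup X) (c : X), c ^ 2 = 1 → (∀ d ∈ D, d * c = c * d) →
      Nat.card ↥(D ⊔ zpowers c) ≤ Nat.card D * 2 := by
    intro D c hc hcd
    have hn : zpowers c ≤ normalizer (D : Set X) := by
      apply H1.le_normalizer_of_forall
      intro g hg x hx
      obtain ⟨z, rfl⟩ := mem_zpowers_iff.1 hg
      have h1 : Commute x (c ^ z) := (show Commute x c from hcd x hx).zpow_right z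
      have e : c ^ z * x * (c ^ z)⁻¹ = x := by rw [← h1.eq]; group
      rw [e]; exact hx
    have h1 := H1.card_sup_mul_card_inf' D (zpowers c) hn
    calc Nat.card ↥(D ⊔ zpowers c) ≤ Nat.card ↥(D ⊔ zpowers c) * Nat.card ↥(D ⊓ zpowers c) :=
          Nat.le_mul_of_pos_right _ Nat.card_pos
      _ = Nat.card D * Nat.card (zpowers c) := h1
      _ ≤ Nat.card D * 2 := Nat.mul_le_mul_left _ (hzc c hc)
  have step : ∀ A : Subgroup X, Cfsg.IsElementaryAbelian 2 A → Nat.card A = 8 → ¬ A ≤ E →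
      ∃ A' : Subgroup X, Cfsg.IsElementaryAbelian 2 A' ∧ Nat.card A' = 8 ∧ ⁅A, A'⁆ = ⊥ ∧
        Nat.card ↥(A ⊓ E) < Nat.card ↥(A' ⊓ E) := by
    intro A hA hA8 hAE
    set D := A ⊓ E with hD
    have hDA : D < A := lt_of_le_of_ne inf_le_left (fun h => hAE (h ▸ inf_le_right))
    obtain ⟨i, hi3, hDi⟩ := S0100.card_lt_pow hX hDA (k := 3) (by rw [hA8]; norm_num)
    have hcD : E ⊓ centralizer (D : Set X) = E := inf_eq_left.2 (fun e he => by
      rw [mem_centralizer_iff]; intro d hd; exact hEcomm d hd.2 e he)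
    have hb := cent_bound E A hE hA (3 - i) D hDA.le (by
      rw [hA8, hDi, ← pow_add]
      have : 3 - i + i = 3 := by omega
      rw [this]; norm_num)
    rw [hcD] at hb
    obtain ⟨m, hm⟩ := (hX.to_subgroup (E ⊓ centralizer (A : Set X))).exists_card_eq
    rw [hm] at hb
    have h5 := hnum m (3 - i) (hE32.trans hb)
    have hmi : i < m := by
      interval_cases i <;> simp at h5 <;> omega
    set C := E ⊓ centralizer (A : Set X) with hC
    have hDC : D ≤ C := fun d hd => ⟨hd.2, by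
      show d ∈ centralizer (A : Set X)
      rw [mem_centralizer_iff]; intro a ha; exact comm_of hA a ha d hd.1⟩
    have hDCne : D < C := lt_of_le_of_ne hDC (fun h => by
      have h1 : Nat.card D = Nat.card C := by rw [h]
      rw [hDi, hm] at h1
      have := Nat.pow_right_injective (le_refl 2) h1
      omega)
    obtain ⟨c, hcC, hcD'⟩ := SetLike.exists_of_lt hDCne
    have hc2 : c ^ 2 = 1 := hE.2 c hcC.1
    have hAc : ∀ a ∈ A, a * c = c * a := fun a ha => mem_centralizer_iff.1 hcC.2 a ha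
    have hAhat : Cfsg.IsElementaryAbelian 2 (A ⊔ zpowers c) :=
      LeadJ.ea_sup hA (ea_zpowers hc2) (by
        intro a ha b hb
        obtain ⟨z, rfl⟩ := mem_zpowers_iff.1 hb
        exact ((show Commute a c from hAc a ha).zpow_right z).eq)
    set H := D ⊔ zpowers c with hH
    have hHhat : H ≤ A ⊔ zpowers c := sup_le (inf_le_left.trans le_sup_left) le_sup_right
    have hHE : H ≤ E := sup_le inf_le_right (by rw [zpowers_le]; exact hcC.1)
    have hDH : D < H := lt_of_le_of_ne le_sup_left (fun h =>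
      hcD' (h ▸ (le_sup_right (a := D) (mem_zpowers c))))
    obtain ⟨h, hHh⟩ := (hX.to_subgroup H).exists_card_eq
    have hh3 : h ≤ 3 := by
      have h1 := hsupcard D c hc2 (fun d hd => hAc d hd.1)
      rw [← hH, hHh, hDi, ← pow_succ] at h1
      have := (Nat.pow_le_pow_iff_right (by norm_num : 1 < 2)).1 h1
      omega
    have hdvd : 2 ^ 3 ∣ Nat.card ↥(A ⊔ zpowers c) := by
      have := card_dvd_of_le (le_sup_left : A ≤ A ⊔ zpowers c)
      rw [hA8] at this
      exact this
    obtain ⟨K, hK8, hHK⟩ := Sylow.exists_subgroup_card_pow_prime_le 2 hdvd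
      (H.subgroupOf (A ⊔ zpowers c)) (by rw [H1.card_subgroupOf_of_le hHhat]; exact hHh) hh3
    have hA'le : K.map (A ⊔ zpowers c).subtype ≤ A ⊔ zpowers c := by
      rintro _ ⟨y, _, rfl⟩; exact y.2
    have hHA' : H ≤ K.map (A ⊔ zpowers c).subtype := by
      intro x hx
      exact ⟨⟨x, hHhat hx⟩, hHK (mem_subgroupOf.2 hx), rfl⟩
    refine ⟨K.map (A ⊔ zpowers c).subtype, ea_le hAhat hA'le, ?_, ?_, ?_⟩
    · rw [Nat.card_congr (Subgroup.equivMapOfInjective _ _ (subtype_injective _)).symm.toEquiv, hK8]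
      norm_num
    · rw [commutator_eq_bot_iff_le_centralizer]
      intro a ha
      rw [mem_centralizer_iff]
      intro y hy
      exact comm_of hAhat y (hA'le hy) a (le_sup_left (a := A) ha)
    · have h1 : Nat.card D < Nat.card H := by
        by_contra hcon
        push Not at hcon
        exact hDH.ne (eq_of_le_of_card_ge hDH.le hcon)
      exact h1.trans_le (card_le_of_le (le_inf hHA' hHE))
  have reach : ∀ n : ℕ, ∀ A : Subgroup X, Cfsg.IsElementaryAbelian 2 A → Nat.card A = 8 →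
      8 ≤ Nat.card ↥(A ⊓ E) + n → ∃ A' : Subgroup X, A' ≤ E ∧ Cfsg.IsElementaryAbelian 2 A' ∧
        Nat.card A' = 8 ∧ Relation.ReflTransGen
          (fun C D : Subgroup X => Cfsg.IsElementaryAbelian 2 C ∧ Nat.card ↥C = 8 ∧
            Cfsg.IsElementaryAbelian 2 D ∧ Nat.card ↥D = 8 ∧ ⁅C, D⁆ = ⊥) A A' := by
    intro n
    induction n with
    | zero =>
      intro A hA hA8 hn
      have h1 : A ⊓ E = A := eq_of_le_of_card_ge inf_le_left (by rw [hA8]; simpa using hn)
      exact ⟨A, h1 ▸ inf_le_right, hA, hA8, Relation.ReflTransGen.refl⟩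
    | succ n ih =>
      intro A hA hA8 hn
      by_cases hAE : A ≤ E
      · exact ⟨A, hAE, hA, hA8, Relation.ReflTransGen.refl⟩
      · obtain ⟨A', hA', hA'8, hcomm, hlt⟩ := step A hA hA8 hAE
        obtain ⟨A'', h1, h2, h3, h4⟩ := ih A' hA' hA'8 (by omega)
        exact ⟨A'', h1, h2, h3, Relation.ReflTransGen.head ⟨hA, hA8, hA', hA'8, hcomm⟩ h4⟩
  constructor
  · intro A B hA hA8 hB hB8
    obtain ⟨A', hA'E, hA'e, hA'8, hAA'⟩ := reach 8 A hA hA8 (by omega)
    obtain ⟨B', hB'E, hB'e, hB'8, hBB'⟩ := reach 8 B hB hB8 (by omega)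
    have hsymm : Symmetric (fun C D : Subgroup X => Cfsg.IsElementaryAbelian 2 C ∧ Nat.card ↥C = 8 ∧
        Cfsg.IsElementaryAbelian 2 D ∧ Nat.card ↥D = 8 ∧ ⁅C, D⁆ = ⊥) := by
      rintro C D ⟨h1, h2, h3, h4, h5⟩
      exact ⟨h3, h4, h1, h2, by rw [commutator_comm]; exact h5⟩
    have hmid : ⁅A', B'⁆ = ⊥ := by
      rw [commutator_eq_bot_iff_le_centralizer]
      intro a ha
      rw [mem_centralizer_iff]
      intro y hy
      exact hEcomm y (hB'E hy) a (hA'E ha)
    have hrevgen : ∀ C₀ D₀ : Subgroup X, Relation.ReflTransGen (fun C D : Subgroup X =>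
        Cfsg.IsElementaryAbelian 2 C ∧
        Nat.card ↥C = 8 ∧ Cfsg.IsElementaryAbelian 2 D ∧ Nat.card ↥D = 8 ∧ ⁅C, D⁆ = ⊥) C₀ D₀ →
        Relation.ReflTransGen (fun C D : Subgroup X => Cfsg.IsElementaryAbelian 2 C ∧
        Nat.card ↥C = 8 ∧ Cfsg.IsElementaryAbelian 2 D ∧ Nat.card ↥D = 8 ∧ ⁅C, D⁆ = ⊥) D₀ C₀ := by
      intro C₀ D₀ h
      induction h with
      | refl => exact Relation.ReflTransGen.refl
      | tail _ hbc ih => exact Relation.ReflTransGen.head (hsymm hbc) ih
    have hrev := hrevgen B B' hBB'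
    exact hAA'.trans (Relation.ReflTransGen.head ⟨hA'e, hA'8, hB'e, hB'8, hmid⟩ hrev)
  · intro V hV hV4
    have hb := cent_bound E V hE hV 2 ⊥ bot_le (by rw [hV4]; simp)
    have hcbot : E ⊓ centralizer ((⊥ : Subgroup X) : Set X) = E := inf_eq_left.2 (fun e _ => by
      rw [mem_centralizer_iff]
      intro d hd
      have : d = 1 := hd
      rw [this]; simp)
    rw [hcbot] at hb
    obtain ⟨m, hm⟩ := (hX.to_subgroup (E ⊓ centralizer (V : Set X))).exists_card_eq
    rw [hm] at hb
    have h5 := hnum m 2 (hE32.trans hb)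
    have hm2 : 2 ≤ m := by omega
    set C := E ⊓ centralizer (V : Set X) with hC
    have hCV : ¬ C ≤ V := by
      intro hle
      have h4 : Nat.card V ≤ Nat.card C := by
        rw [hV4, hm]
        calc 4 = 2 ^ 2 := by norm_num
          _ ≤ 2 ^ m := Nat.pow_le_pow_right (by norm_num) hm2
      have heq : C = V := eq_of_le_of_card_ge hle h4
      have hVE : V ≤ E := heq ▸ inf_le_left
      have hCE : C = E := inf_eq_left.2 (fun e he => by
        rw [mem_centralizer_iff]; intro d hd; exact hEcomm d (hVE hd) e he)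
      have : Nat.card E = 4 := by rw [← hCE, heq, hV4]
      omega
    obtain ⟨c, hcC, hcV⟩ := SetLike.not_le_iff_exists.1 hCV
    have hc2 : c ^ 2 = 1 := hE.2 c hcC.1
    have hVc : ∀ a ∈ V, a * c = c * a := fun a ha => mem_centralizer_iff.1 hcC.2 a ha
    have hAe : Cfsg.IsElementaryAbelian 2 (V ⊔ zpowers c) :=
      LeadJ.ea_sup hV (ea_zpowers hc2) (by
        intro a ha b hb
        obtain ⟨z, rfl⟩ := mem_zpowers_iff.1 hb
        exact ((show Commute a c from hVc a ha).zpow_right z).eq)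
    refine ⟨V ⊔ zpowers c, le_sup_left, hAe, ?_⟩
    have hle := hsupcard V c hc2 hVc
    rw [hV4] at hle
    have hlt : V < V ⊔ zpowers c := lt_of_le_of_ne le_sup_left (fun h =>
      hcV (h ▸ (le_sup_right (a := V) (mem_zpowers c))))
    obtain ⟨k, hk⟩ := card_dvd_of_le hlt.le
    have h1 : Nat.card V < Nat.card ↥(V ⊔ zpowers c) := by
      by_contra hcon
      push Not at hcon
      exact hlt.ne (eq_of_le_of_card_ge hlt.le hcon)
    rw [hV4] at hk h1
    omega

end Cfsg.Agent.S1785
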