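import Cfsg.Statements.S1850
import Cfsg.Agent.Lib_helper5_CharP6
import Cfsg.Agent.Lib_helper5_CharP4
import Cfsg.Agent.Lib_helper5_CharP3

set_option autoImplicit false
open Cfsg

namespace Cfsg.Agent.S1850

open Subgroup Cfsg.Agent.H5

/-- Let G be a non-abelian finite simple QTKE-group and T a Sylow 2-subgroup of G. If U is a nontrivial 2-subgroup of G with U ∩ Z(T) ≠ 1, then F*(N_G(U)) = O₂(N_G(U)). -/
theorem result {G : Type*} [Group G] [Finite G] [IsSimpleGroup G]
    (hG : ¬ IsMulCommutative G) (hQ : Cfsg.IsQTKE G) (T : Sylow 2 G) (U : Subgroup G)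
    (hU : IsPGroup 2 ↥U) (hZ : U ⊓ ((T : Subgroup G) ⊓ Subgroup.centralizer ((T : Subgroup G) : Set G)) ≠ ⊥) :
    Subgroup.normalizer (U : Set G) ∈ Cfsg.calHe G := by
  haveI : Fact (Nat.Prime 2) := ⟨Nat.prime_two⟩
  obtain ⟨⟨z, hz⟩, hz0⟩ := Subgroup.ne_bot_iff_exists_ne_one.1 hZ
  have hz1 : z ≠ 1 := fun h => hz0 (Subtype.ext h)
  have hzU : z ∈ U := hz.1
  have hzC : z ∈ centralizer ((T : Subgroup G) : Set G) := hz.2.2
  set V := zpowers z with hV
  have hVU : V ≤ U := zpowers_le.2 hzU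
  have hVp : IsPGroup 2 V := hU.to_le hVU
  have hV1 : V ≠ ⊥ := by
    intro h
    apply hz1
    have h1 : z ∈ V := mem_zpowers z
    rw [h] at h1
    exact mem_bot.1 h1
  have hTV : (T : Subgroup G) ≤ centralizer (V : Set G) := by
    rw [le_centralizer_iff, hV, zpowers_le]
    exact hzC
  have hM : IsOfCharacteristicTwo ↥(normalizer (V : Set G)) :=
    hQ.2.2 _ ⟨V, hVp, hV1, rfl⟩ ⟨T, hTV.trans (centralizer_le_normalizer _)⟩
  have h1 : CharPIn 2 (normalizer (V : Set G)) := (charPIn_iff_centralizer_le 2 _).2 hM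
  have h2 : CharPIn 2 (centralizer (V : Set G)) :=
    h1.centralizer_of_centralizer_le le_normalizer hVp (centralizer_le_normalizer _)
  have h3 : CharPIn 2 (centralizer (U : Set G)) := CharPIn.centralizer_mono hU V hVU h2
  have h4 : CharPIn 2 (normalizer (U : Set G)) := by
    apply charPIn_of_centralizer_pCoreIn
    have hUO : U ≤ pCoreIn 2 (normalizer (U : Set G)) := le_pCoreIn le_normalizer hU le_rfl
    apply h3.of_normal
    · exact inf_le_right.trans (centralizer_le hUO)
    · exact (centralizer_le_normalizer _).trans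
        (le_normalizer_inf_centralizer (le_normalizer_pCoreIn 2 _))
  exact (charPIn_iff_genFitting 2 _).1 h4

end Cfsg.Agent.S1850
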