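import Cfsg.Statements.S1959
import Cfsg.Agent.Lib_helper7_Family

set_option autoImplicit false
open Cfsg

namespace Cfsg.Agent.S1959

theorem rc_ne_bot {G : Type*} [Group G] {k : G} {A : Subgroup G} (h : A ≠ ⊥) : H7.rc k A ≠ ⊥ := by
  intro he
  apply h
  rw [H7.rc, Subgroup.map_eq_bot_iff_of_injective _ (MulAut.conj k⁻¹).injective] at he
  exact he

theorem lcs_inv_coe {G : Type*} [Group G] (y : G) (B : Subgroup G) :
    H7.lcs y⁻¹ (B : Set G) = ((H7.rc y B : Subgroup G) : Set G) := by
  rw [H7.lcs_subgroup]; rfl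

/-- Let p be a prime, G a finite group with Sylow p-subgroup S, and 𝓦 a set of conjugacy functors for p on G. Suppose that 𝓦 controls strong fusion in N_G(T) for every nonidentity subgroup T of S for which N_S(T) is a Sylow p-subgroup of N_G(T). Then 𝓦 controls strong fusion in G. (A set of functors controls strong fusion in a subgroup H when, for a Sylow p-subgroup T' of H, every conjugation of a tuple of elements of T' into T' by an element of H is a composite of conjugations inside the normalizers N_H(W(T')), W ∈ 𝓦, all intermediate tuples staying in T'.) -/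
theorem result {G : Type*} [Group G] [Finite G] {p : ℕ} [Fact p.Prime] (S : Sylow p G) (𝓦 : Set (Subgroup G → Subgroup G)) (h𝓦 : ∀ W ∈ 𝓦, Cfsg.IsConjugacyFunctor p W) (hloc : ∀ T : Subgroup G, T ≤ (S : Subgroup G) → T ≠ ⊥ → ¬ p ∣ ((S : Subgroup G) ⊓ Subgroup.normalizer ((T : Subgroup G) : Set G)).relIndex (Subgroup.normalizer ((T : Subgroup G) : Set G)) → Cfsg.FamilyControlsStrongFusionIn p 𝓦 (Subgroup.normalizer ((T : Subgroup G) : Set G))) : Cfsg.FamilyControlsStrongFusionIn p 𝓦 ⊤ := by
  classical
  rw [H7.family_iff]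
  refine ⟨S, H7.Sylow_isSylowIn_top S, ?_⟩
  have main : ∀ Q : Subgroup G, Q ≤ S → ∀ g, H7.rc g Q ≤ S → H7.FamD 𝓦 S Q g := by
    apply H7.alperin_abstract S (H7.FamD 𝓦 S)
    · intro Q Q' g hle h
      exact h.mono hle
    · intro Q g h h1 h2
      exact h1.trans h2
    · intro Q g h
      exact h.symm
    · intro Q hQ IH
      have E : ∀ n : ℕ, ∀ X : Subgroup G, X ≤ S → Nat.card (S : Subgroup G) - Nat.card X = n →
          Nat.card Q ≤ Nat.card X → X ≠ ⊥ → ∀ W ∈ 𝓦,
          ∀ y ∈ Subgroup.normalizer ((W X : Subgroup G) : Set G), ∀ B : Subgroup G, B ≤ X →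
            H7.rc y B ≤ X → H7.FamD 𝓦 S B y := by
        intro n
        induction n using Nat.strong_induction_on with
        | _ n ih =>
        intro X hX hn hQX hX1 W hW y hy B hB hyB
        by_cases hXS : X = S
        · rw [hXS] at hy hB hyB
          refine ⟨y⁻¹, ?_, fun a _ => by simp⟩
          have := H7.LChain.step (X := H7.stepSet 𝓦 ⊤ S) (T := ((S : Subgroup G) : Set G)) (A := (B : Set G)) 1 y⁻¹
            (H7.LChain.nil hB) ⟨W, hW, trivial, Subgroup.inv_mem _ hy⟩
            (by rw [mul_one, lcs_inv_coe]; exact hyB)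
          simpa using this
        have hlt : X < S := lt_of_le_of_ne hX hXS
        have hXp : IsPGroup p X := S.2.to_le hX
        have hT1S : W X ≤ S := ((h𝓦 W hW X hXp).1).trans hX
        have hgrow : X < (S : Subgroup G) ⊓ Subgroup.normalizer ((W X : Subgroup G) : Set G) :=
          lt_of_lt_of_le (H7.lt_inf_normalizer S.2 hlt)
            (inf_le_inf_left _ (H7.IsConjugacyFunctor.normalizer_le (h𝓦 W hW) hXp))
        obtain ⟨k, hk1, hk2, hk3⟩ := H7.exists_fully_normalized' S hT1S
        set V := H7.rc k (W X) with hV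
        set SV := (S : Subgroup G) ⊓ Subgroup.normalizer (V : Set G) with hSV
        have hV1 : V ≠ ⊥ := rc_ne_bot ((h𝓦 W hW X hXp).2.1 hX1)
        have hc1 := H7.card_lt_of_lt hgrow
        have hc2 : Nat.card ((S : Subgroup G) ⊓ Subgroup.normalizer ((W X : Subgroup G) : Set G) : Subgroup G)
            ≤ Nat.card SV := by
          rw [← H7.card_rc k]
          exact Subgroup.card_le_of_le hk3
        have hc3 : Nat.card SV ≤ Nat.card (S : Subgroup G) := Subgroup.card_le_of_le inf_le_left
        have hSV1 : SV ≠ ⊥ := by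
          intro h
          apply hV1
          have : V ≤ SV := le_inf hk1 Subgroup.le_normalizer
          rw [h] at this
          exact le_bot_iff.1 this
        have hN1 := IH _ inf_le_left (by omega) k (hk3.trans inf_le_left)
        have hBk : H7.FamD 𝓦 S B k := hN1.mono (hB.trans hgrow.le)
        have hyBk : H7.FamD 𝓦 S (H7.rc y B) k := hN1.mono (hyB.trans hgrow.le)
        have hy' : k⁻¹ * y * k ∈ Subgroup.normalizer (V : Set G) := by
          rw [hV, H7.normalizer_rc, H7.mem_rc]
          simpa [mul_assoc] using hy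
        have hB' : H7.rc k B ≤ SV := (H7.rc_mono k (hB.trans hgrow.le)).trans hk3
        have e1 : H7.rc (k⁻¹ * y * k) (H7.rc k B) = H7.rc k (H7.rc y B) := by
          rw [← H7.rc_mul, ← H7.rc_mul]; congr 1; group
        have hB'' : H7.rc (k⁻¹ * y * k) (H7.rc k B) ≤ SV := by
          rw [e1]; exact (H7.rc_mono k (hyB.trans hgrow.le)).trans hk3
        obtain ⟨c, hc, hca⟩ := H7.family_all h𝓦 (hloc V hk1 hV1 hk2.2.2) hk2 (H7.rc k B : Subgroup G)
          (k⁻¹ * y * k)⁻¹ (Subgroup.inv_mem _ hy') hB' (by rw [lcs_inv_coe]; exact hB'')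
        have hD1 : H7.FamD 𝓦 S (H7.rc k B) c⁻¹ := H7.FamD.of_LChain inf_le_left
          (ih _ (by omega) SV inf_le_left rfl (by omega) hSV1) hc
        have hD2 : H7.FamD 𝓦 S (H7.rc k B) (k⁻¹ * y * k) := hD1.congr (by
          intro a ha
          have := hca a ha
          simpa using this)
        have hD3 := (hBk.trans hD2).trans (by
          have := hyBk.symm
          rw [H7.rc_mul, e1]; exact this)
        have e2 : k * (k⁻¹ * y * k) * k⁻¹ = y := by group
        rwa [e2] at hD3
      obtain ⟨k, hk1, hk2, -⟩ := H7.exists_fully_normalized' S hQ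
      refine ⟨_, hk1, ⟨k, rfl⟩, hk2, ?_⟩
      intro m hm
      by_cases hQ1 : Q = ⊥
      · refine ⟨1, H7.LChain.nil hk1, ?_⟩
        intro a ha
        have : a = 1 := by
          rw [hQ1, H7.mem_rc] at ha
          have h3 : k * a * k⁻¹ = 1 := by simpa using ha
          have : a = k⁻¹ * (k * a * k⁻¹) * k := by group
          rw [this, h3]; group
        rw [this]; simp
      set U := H7.rc k Q with hU
      have hU1 : U ≠ ⊥ := rc_ne_bot hQ1
      set S0 := (S : Subgroup G) ⊓ Subgroup.normalizer (U : Set G) with hS0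
      have hUS0 : U ≤ S0 := le_inf hk1 Subgroup.le_normalizer
      have hS01 : S0 ≠ ⊥ := by
        intro h
        apply hU1
        rw [h] at hUS0
        exact le_bot_iff.1 hUS0
      obtain ⟨c, hc, hca⟩ := H7.family_all h𝓦 (hloc U hk1 hU1 hk2.2.2) hk2 (U : Subgroup G)
          m⁻¹ (Subgroup.inv_mem _ hm) hUS0 (by rw [lcs_inv_coe, H7.rc_eq_self_iff.2 hm]; exact hUS0)
      have hD1 : H7.FamD 𝓦 S U c⁻¹ := H7.FamD.of_LChain inf_le_left
          (E _ S0 inf_le_left rfl (by rw [← H7.card_rc k Q]; exact Subgroup.card_le_of_le hUS0) hS01) hc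
      exact hD1.congr (by
          intro a ha
          have := hca a ha
          simpa using this)
  intro A h _ hA hAh
  have h1 : Subgroup.closure A ≤ (S : Subgroup G) := (Subgroup.closure_le _).2 hA
  have h2 : H7.rc h⁻¹ (Subgroup.closure A) ≤ (S : Subgroup G) := by
    rw [H7.rc, inv_inv, MonoidHom.map_closure, Subgroup.closure_le]
    rintro _ ⟨a, ha, rfl⟩
    have := hAh ⟨a, ha, rfl⟩
    simpa [MulAut.conj_apply] using this
  obtain ⟨c, hc, hca⟩ := main _ h1 h⁻¹ h2
  exact ⟨c, hc.mono Subgroup.subset_closure, fun a ha => by simpa using hca a (Subgroup.subset_closure ha)⟩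

end Cfsg.Agent.S1959
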