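import Cfsg.Statements.S1960
import Cfsg.Agent.Lib_helper7_AlperinAbs
import Cfsg.Agent.Lib_helper7_Transfer

set_option autoImplicit false
open Cfsg

namespace Cfsg.Agent.S1960

open scoped commutatorElement

open H7 in
theorem family_all {G : Type*} [Group G] [Finite G] {p : ℕ} [Fact p.Prime]
    {𝓦 : Set (Subgroup G → Subgroup G)} (h𝓦 : ∀ W ∈ 𝓦, Cfsg.IsConjugacyFunctor p W) {H : Subgroup G}
    (h : Cfsg.FamilyControlsTransferIn p 𝓦 H) {T' : Subgroup G} (hT' : IsSylowIn p T' H) :
    T' ⊓ ⁅H, H⁆ = ⨆ W ∈ 𝓦, T' ⊓ ⁅H ⊓ Subgroup.normalizer ((W T' : Subgroup G) : Set G),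
      H ⊓ Subgroup.normalizer ((W T' : Subgroup G) : Set G)⁆ := by
  obtain ⟨T, hTH, hTp, hTi, hT⟩ := h
  obtain ⟨k, hkH, hk⟩ := hT'.conj_eq (T := T) ⟨hTH, hTp, hTi⟩
  have := congrArg (fun X => X.map (MulAut.conj k).toMonoidHom) hT
  simp only [map_conj_inf, Subgroup.map_commutator, map_conj_of_mem hkH, hk, Subgroup.map_iSup,
    ← normalizer_map_conj] at this
  rw [this]
  refine iSup_congr fun W => iSup_congr fun hW => ?_
  rw [← (h𝓦 W hW T hTp).2.2 k, hk]

theorem rc_commutator {G : Type*} [Group G] (k : G) (A B : Subgroup G) :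
    H7.rc k ⁅A, B⁆ = ⁅H7.rc k A, H7.rc k B⁆ := Subgroup.map_commutator _ _ _

theorem rc_ne_bot {G : Type*} [Group G] {k : G} {A : Subgroup G} (h : A ≠ ⊥) : H7.rc k A ≠ ⊥ := by
  intro he
  apply h
  rw [H7.rc, Subgroup.map_eq_bot_iff_of_injective _ (MulAut.conj k⁻¹).injective] at he
  exact he

/-- Let p be a prime, G a finite group with Sylow p-subgroup S, and 𝓦 a set of conjugacy functors for p on G. Suppose that 𝓦 controls transfer in N_G(T) for every nonidentity subgroup T of S for which N_S(T) is a Sylow p-subgroup of N_G(T): for a Sylow p-subgroup T' of N_G(T), the intersection of T' with the derived subgroup of N_G(T) is generated by its intersections with the derived subgroups of the normalizers in N_G(T) of the W(T'), W ∈ 𝓦. Then 𝓦 controls transfer in G: S ∩ G' is generated by the subgroups S ∩ (N_G(W(S)))', W ∈ 𝓦. -/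
theorem result {G : Type*} [Group G] [Finite G] {p : ℕ} [Fact p.Prime] (S : Sylow p G) (𝓦 : Set (Subgroup G → Subgroup G)) (h𝓦 : ∀ W ∈ 𝓦, Cfsg.IsConjugacyFunctor p W) (hloc : ∀ T : Subgroup G, T ≤ (S : Subgroup G) → T ≠ ⊥ → ¬ p ∣ ((S : Subgroup G) ⊓ Subgroup.normalizer ((T : Subgroup G) : Set G)).relIndex (Subgroup.normalizer ((T : Subgroup G) : Set G)) → Cfsg.FamilyControlsTransferIn p 𝓦 (Subgroup.normalizer ((T : Subgroup G) : Set G))) : Cfsg.FamilyControlsTransferIn p 𝓦 ⊤ := by
  classical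
  refine ⟨S, le_top, S.2, (H7.Sylow_isSylowIn_top S).2.2, ?_⟩
  set K : Subgroup G := ⨆ W ∈ 𝓦, (S : Subgroup G) ⊓
    ⁅⊤ ⊓ Subgroup.normalizer ((W (S : Subgroup G) : Subgroup G) : Set G),
      ⊤ ⊓ Subgroup.normalizer ((W (S : Subgroup G) : Subgroup G) : Set G)⁆ with hK
  have hKtop : ∀ W ∈ 𝓦, (S : Subgroup G) ⊓ ⁅Subgroup.normalizer ((W (S : Subgroup G) : Subgroup G) : Set G),
      Subgroup.normalizer ((W (S : Subgroup G) : Subgroup G) : Set G)⁆ ≤ K := by
    intro W hW
    have := le_iSup₂ (f := fun (W : Subgroup G → Subgroup G) (_ : W ∈ 𝓦) => (S : Subgroup G) ⊓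
      ⁅⊤ ⊓ Subgroup.normalizer ((W (S : Subgroup G) : Subgroup G) : Set G),
        ⊤ ⊓ Subgroup.normalizer ((W (S : Subgroup G) : Subgroup G) : Set G)⁆) W hW
    rw [top_inf_eq] at this
    exact this
  apply le_antisymm
  swap
  · refine iSup₂_le fun W _ => ?_
    exact inf_le_inf_left _ (Subgroup.commutator_mono le_top le_top)
  set D : Subgroup G → G → Prop := fun Q g => ∀ a ∈ Q, a⁻¹ * (g⁻¹ * a * g) ∈ K with hD
  have main : ∀ Q : Subgroup G, Q ≤ S → ∀ g, H7.rc g Q ≤ S → D Q g := by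
    apply H7.alperin_abstract S D
    · intro Q Q' g hle h a ha
      exact h a (hle ha)
    · intro Q g h h1 h2 a ha
      have e : a⁻¹ * ((g * h)⁻¹ * a * (g * h)) =
          (a⁻¹ * (g⁻¹ * a * g)) * ((g⁻¹ * a * g)⁻¹ * (h⁻¹ * (g⁻¹ * a * g) * h)) := by group
      rw [e]
      refine K.mul_mem (h1 a ha) (h2 _ ?_)
      rw [H7.mem_rc]; simpa [mul_assoc] using ha
    · intro Q g h b hb
      rw [H7.mem_rc] at hb
      have := K.inv_mem (h _ hb)
      have e : (((g * b * g⁻¹)⁻¹ * (g⁻¹ * (g * b * g⁻¹) * g)))⁻¹ = b⁻¹ * (g⁻¹⁻¹ * b * g⁻¹) := by group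
      rwa [e] at this
    · intro Q hQ IH
      -- the claim E
      have E : ∀ n : ℕ, ∀ X : Subgroup G, X ≤ S → Nat.card (S : Subgroup G) - Nat.card X = n →
          Nat.card Q ≤ Nat.card X → X ≠ ⊥ → ∀ W ∈ 𝓦,
          X ⊓ ⁅Subgroup.normalizer ((W X : Subgroup G) : Set G),
            Subgroup.normalizer ((W X : Subgroup G) : Set G)⁆ ≤ K := by
        intro n
        induction n using Nat.strong_induction_on with
        | _ n ih =>
        intro X hX hn hQX hX1 W hW
        by_cases hXS : X = S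
        · rw [hXS]; exact hKtop W hW
        have hlt : X < S := lt_of_le_of_ne hX hXS
        have hXp : IsPGroup p X := S.2.to_le hX
        have hT1S : W X ≤ S := ((h𝓦 W hW X hXp).1).trans hX
        have hgrow : X < (S : Subgroup G) ⊓ Subgroup.normalizer ((W X : Subgroup G) : Set G) :=
          lt_of_lt_of_le (H7.lt_inf_normalizer S.2 hlt)
            (inf_le_inf_left _ (H7.IsConjugacyFunctor.normalizer_le (h𝓦 W hW) hXp))
        obtain ⟨k, hk1, hk2, hk3⟩ := H7.exists_fully_normalized' S hT1S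
        set V := H7.rc k (W X) with hV
        set SV := (S : Subgroup G) ⊓ Subgroup.normalizer (V : Set G) with hSV
        have hV1 : V ≠ ⊥ := rc_ne_bot ((h𝓦 W hW X hXp).2.1 hX1)
        have hc1 := H7.card_lt_of_lt hgrow
        have hc2 : Nat.card ((S : Subgroup G) ⊓ Subgroup.normalizer ((W X : Subgroup G) : Set G) : Subgroup G)
            ≤ Nat.card SV := by
          rw [← H7.card_rc k]
          exact Subgroup.card_le_of_le hk3
        have hc3 : Nat.card SV ≤ Nat.card (S : Subgroup G) := Subgroup.card_le_of_le inf_le_left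
        have hSV1 : SV ≠ ⊥ := by
          intro h
          apply hV1
          have : V ≤ SV := le_inf hk1 Subgroup.le_normalizer
          rw [h] at this
          exact le_bot_iff.1 this
        have hSVK : SV ⊓ ⁅Subgroup.normalizer (V : Set G), Subgroup.normalizer (V : Set G)⁆ ≤ K := by
          rw [family_all h𝓦 (hloc V hk1 hV1 hk2.2.2) hk2]
          refine iSup₂_le fun W' hW' => ?_
          refine le_trans ?_ (ih _ (by omega) SV inf_le_left rfl (by omega) hSV1 W' hW')
          exact inf_le_inf_left _ (Subgroup.commutator_mono inf_le_right inf_le_right)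
        intro z hz
        have hzN1 : z ∈ (S : Subgroup G) ⊓ Subgroup.normalizer ((W X : Subgroup G) : Set G) := hgrow.le hz.1
        have hzk1 : k⁻¹ * z * k ∈ SV := by
          apply hk3
          rw [H7.mem_rc]; simpa [mul_assoc] using hzN1
        have hzk2 : k⁻¹ * z * k ∈ ⁅Subgroup.normalizer (V : Set G), Subgroup.normalizer (V : Set G)⁆ := by
          rw [hV, H7.normalizer_rc, ← rc_commutator, H7.mem_rc]
          simpa [mul_assoc] using hz.2
        have h1 : k⁻¹ * z * k ∈ K := hSVK ⟨hzk1, hzk2⟩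
        have h2 : z⁻¹ * (k⁻¹ * z * k) ∈ K :=
          IH _ inf_le_left (by omega) k (hk3.trans inf_le_left) z hzN1
        have e : z = (k⁻¹ * z * k) * (z⁻¹ * (k⁻¹ * z * k))⁻¹ := by group
        rw [e]
        exact K.mul_mem h1 (K.inv_mem h2)
      obtain ⟨k, hk1, hk2, -⟩ := H7.exists_fully_normalized' S hQ
      refine ⟨_, hk1, ⟨k, rfl⟩, hk2, ?_⟩
      intro m hm a ha
      by_cases hQ1 : Q = ⊥
      · have : a = 1 := by
          rw [hQ1, H7.mem_rc] at ha
          have h3 : k * a * k⁻¹ = 1 := by simpa using ha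
          have : a = k⁻¹ * (k * a * k⁻¹) * k := by group
          rw [this, h3]; group
        rw [this]; simp
      set U := H7.rc k Q with hU
      have hU1 : U ≠ ⊥ := rc_ne_bot hQ1
      set S0 := (S : Subgroup G) ⊓ Subgroup.normalizer (U : Set G) with hS0
      have hUS0 : U ≤ S0 := le_inf hk1 Subgroup.le_normalizer
      have hS01 : S0 ≠ ⊥ := by
        intro h
        apply hU1
        rw [h] at hUS0
        exact le_bot_iff.1 hUS0
      have hS0K : S0 ⊓ ⁅Subgroup.normalizer (U : Set G), Subgroup.normalizer (U : Set G)⁆ ≤ K := by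
        rw [family_all h𝓦 (hloc U hk1 hU1 hk2.2.2) hk2]
        refine iSup₂_le fun W' hW' => ?_
        refine le_trans ?_ (E _ S0 inf_le_left rfl ?_ hS01 W' hW')
        · exact inf_le_inf_left _ (Subgroup.commutator_mono inf_le_right inf_le_right)
        · rw [← H7.card_rc k Q]; exact Subgroup.card_le_of_le hUS0
      apply hS0K
      have hma : m⁻¹ * a * m ∈ U := by
        have := (Subgroup.mem_normalizer_iff.1 (Subgroup.inv_mem _ hm) a).1 ha
        simpa using this
      refine ⟨hUS0 (U.mul_mem (U.inv_mem ha) hma), ?_⟩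
      have e2 : a⁻¹ * (m⁻¹ * a * m) = ⁅a⁻¹, m⁻¹⁆ := by
        rw [commutatorElement_def]; group
      rw [e2]
      exact Subgroup.commutator_mem_commutator (Subgroup.le_normalizer (U.inv_mem ha))
        (Subgroup.inv_mem _ hm)
  have h1 : (S : Subgroup G) ⊓ ⁅(⊤ : Subgroup G), ⊤⁆ = (S : Subgroup G).focalSubgroup := by
    rw [inf_comm, ← commutator_def]
    exact Subgroup.commutator_inf_eq_focalSubgroup S
  rw [h1, Subgroup.focalSubgroup_def, Subgroup.closure_le]
  rintro g ⟨hgS, x, hxS, u, rfl⟩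
  have hxu : u * x⁻¹ * u⁻¹ ∈ (S : Subgroup G) := by
    have := (S : Subgroup G).mul_mem ((S : Subgroup G).inv_mem hxS) hgS
    rw [commutatorElement_def] at this
    simpa [mul_assoc] using this
  have hz : Subgroup.zpowers x⁻¹ ≤ (S : Subgroup G) := by
    rw [Subgroup.zpowers_le]; exact (S : Subgroup G).inv_mem hxS
  have hz2 : H7.rc u⁻¹ (Subgroup.zpowers x⁻¹) ≤ (S : Subgroup G) := by
    rw [H7.rc, MonoidHom.map_zpowers, Subgroup.zpowers_le]
    simpa [MulAut.conj_apply] using hxu
  have := main _ hz u⁻¹ hz2 x⁻¹ (Subgroup.mem_zpowers _)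
  rw [commutatorElement_def]
  simpa [mul_assoc] using this

end Cfsg.Agent.S1960
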