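import Cfsg.Statements.S1962
import Cfsg.Agent.Lib_helper7_Transfer

set_option autoImplicit false
open Cfsg

namespace Cfsg.Agent.S1962

/-- Local-to-global control of transfer through well-placed subgroups. Let p be a prime, G a finite group with Sylow p-subgroup S, and W a conjugacy functor for p on G. If W controls transfer in N_G(T) for every nonidentity subgroup T of S that is well placed in S with respect to W, then W controls transfer in G: S ∩ G' = S ∩ (N_G(W(S)))'. -/
theorem result {G : Type*} [Group G] [Finite G] {p : ℕ} [Fact p.Prime] (S : Sylow p G) (W : Subgroup G → Subgroup G) (hW : Cfsg.IsConjugacyFunctor p W) (hloc : ∀ T : Subgroup G, T ≠ ⊥ → Cfsg.IsWellPlaced p W (S : Subgroup G) T → Cfsg.ControlsTransferIn p W (Subgroup.normalizer ((T : Subgroup G) : Set G))) : Cfsg.ControlsTransferIn p W ⊤ := by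
  refine ⟨S, le_top, S.2, (H7.Sylow_isSylowIn_top S).2.2, ?_⟩
  apply le_antisymm
  · refine le_inf inf_le_left ?_
    have h1 : (S : Subgroup G) ⊓ ⁅(⊤ : Subgroup G), ⊤⁆ = (S : Subgroup G).focalSubgroup := by
      rw [inf_comm, ← commutator_def]
      exact Subgroup.commutator_inf_eq_focalSubgroup S
    rw [h1, Subgroup.focalSubgroup_def, Subgroup.closure_le, top_inf_eq]
    rintro g ⟨hgS, x, hxS, u, rfl⟩
    have hxu : u * x⁻¹ * u⁻¹ ∈ (S : Subgroup G) := by
      have := (S : Subgroup G).mul_mem ((S : Subgroup G).inv_mem hxS) hgS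
      rw [commutatorElement_def] at this
      simpa [mul_assoc] using this
    have hc := H7.chain_wellPlaced S hW {x⁻¹} u⁻¹
      (by rintro _ rfl; exact (S : Subgroup G).inv_mem hxS)
      (by
        rintro _ ⟨_, rfl, rfl⟩
        show (u⁻¹)⁻¹ * x⁻¹ * u⁻¹ ∈ (S : Subgroup G)
        rw [inv_inv]; exact hxu)
    have := H7.chain_transfer S hW hloc hc x⁻¹ rfl
    rw [commutatorElement_def]
    simpa [mul_assoc] using this
  · exact inf_le_inf_left _ (Subgroup.commutator_mono le_top le_top)

end Cfsg.Agent.S1962
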