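import Cfsg.Statements.S1965
import Cfsg.Agent.Lib_helper7_Alperin

set_option autoImplicit false
open Cfsg

namespace Cfsg.Agent.S1965

/-- Let p be a prime, G a finite group with Sylow p-subgroup S and 𝓕 a set of subgroups of S. Suppose that every subgroup T of S is G-conjugate to some member U of 𝓕 for which N_S(U) is a Sylow p-subgroup of N_G(U). Then 𝓕 is a conjugation family for S in G. -/
theorem result {G : Type*} [Group G] [Finite G] {p : ℕ} [Fact p.Prime] (S : Sylow p G) (𝓕 : Set (Subgroup G)) (h𝓕 : ∀ U ∈ 𝓕, U ≤ (S : Subgroup G)) (h : ∀ T : Subgroup G, T ≤ (S : Subgroup G) → ∃ U ∈ 𝓕, (∃ g : G, T.map (MulAut.conj g).toMonoidHom = U) ∧ ¬ p ∣ ((S : Subgroup G) ⊓ Subgroup.normalizer ((U : Subgroup G) : Set G)).relIndex (Subgroup.normalizer ((U : Subgroup G) : Set G))) : Cfsg.IsConjugationFamily 𝓕 (S : Subgroup G) := by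
  classical
  refine ⟨h𝓕, ?_⟩
  intro A g _ hA hAg
  set R : Subgroup G → G → Prop := fun T x => T ∈ 𝓕 ∧ x ∈ Subgroup.normalizer (T : Set G) with hR
  have H := H7.alperin_general (R := R) S (fun T x h => h.2)
    (fun T x h => ⟨h.1, Subgroup.inv_mem _ h.2⟩) (by
      intro Q hQ _
      obtain ⟨U, hU, ⟨k, hk⟩, hrel⟩ := h Q hQ
      refine ⟨U, h𝓕 U hU, ⟨k⁻¹, by simpa [H7.rc] using hk⟩,
        ⟨inf_le_right, S.2.to_le inf_le_left, hrel⟩, ?_⟩
      intro m hm
      exact H7.Chain.single (T := U) ⟨hU, hm⟩ subset_rfl)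
  obtain ⟨n, T, x, h1, h2, h3, h4⟩ := (H7.alperin_general_set S H A g hA hAg).exists_fin
  exact ⟨n, T, x, h1, fun i => (h2 i).1, fun i => (h2 i).2, h3, h4⟩

end Cfsg.Agent.S1965
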