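import Cfsg.Statements.S1966
import Cfsg.Agent.Lib_helper7_Chain
import Cfsg.Agent.Lib_helper7_Cores

set_option autoImplicit false
open Cfsg

namespace Cfsg.Agent.S1966

theorem chain_contains {G : Type*} [Group G] {R : Subgroup G → G → Prop} {O : Subgroup G} (hO : O.Normal)
    {A : Set G} {g : G} (h : H7.Chain R A g) (hOA : (O : Set G) ⊆ A) :
    H7.Chain (fun T x => R T x ∧ O ≤ T) A g := by
  induction h with
  | nil A => exact H7.Chain.nil A
  | cons A T x g hR hAT _ ih =>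
    refine H7.Chain.cons A T x g ⟨hR, hOA.trans hAT⟩ hAT (ih ?_)
    intro a ha
    rw [H7.mem_rcs]
    exact hOA (hO.conj_mem a ha x)

/-- Let p be a prime, G a finite group with Sylow p-subgroup S and 𝓕 a conjugation family for S in G. Then the members of 𝓕 containing O_p(G) still form a conjugation family for S in G. -/
theorem result {G : Type*} [Group G] [Finite G] {p : ℕ} [Fact p.Prime] (S : Sylow p G) (𝓕 : Set (Subgroup G)) (h : Cfsg.IsConjugationFamily 𝓕 (S : Subgroup G)) : Cfsg.IsConjugationFamily {T : Subgroup G | T ∈ 𝓕 ∧ Cfsg.pCore p G ≤ T} (S : Subgroup G) := by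
  refine ⟨fun T hT => h.1 T hT.1, ?_⟩
  intro A g hne hA hAg
  have hO : (Cfsg.pCore p G).Normal := H7.pCore_normal p
  have hOS : Cfsg.pCore p G ≤ (S : Subgroup G) := H7.pCore_le_sylow S
  have hA' : A ∪ (Cfsg.pCore p G : Set G) ⊆ (S : Subgroup G) := Set.union_subset hA hOS
  have hAg' : (fun a => g⁻¹ * a * g) '' (A ∪ (Cfsg.pCore p G : Set G)) ⊆ (S : Subgroup G) := by
    rw [Set.image_union]
    refine Set.union_subset hAg ?_
    rintro _ ⟨a, ha, rfl⟩
    have := hO.conj_mem a ha g⁻¹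
    rw [inv_inv] at this
    exact hOS this
  obtain ⟨n, T, x, h1, h2, h3, h4, h5⟩ := h.2 _ g (hne.mono Set.subset_union_left) hA' hAg'
  have hc : H7.Chain (fun T x => T ∈ 𝓕 ∧ x ∈ Subgroup.normalizer (T : Set G))
      (A ∪ (Cfsg.pCore p G : Set G)) g := H7.Chain.of_fin T x h1 (fun i => ⟨h2 i, h3 i⟩) h4 h5
  obtain ⟨n, T, x, h1, h2, h3, h4⟩ :=
    ((chain_contains hO hc Set.subset_union_right).mono (Set.subset_union_left (s := A))).exists_fin
  exact ⟨n, T, x, h1, fun i => ⟨(h2 i).1.1, (h2 i).2⟩, fun i => (h2 i).1.2, h3, h4⟩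

end Cfsg.Agent.S1966
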