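import Cfsg.Statements.S1967
import Cfsg.Agent.Lib_helper7_Functors

set_option autoImplicit false
open Cfsg

namespace Cfsg.Agent.S1967

/-- Let p be a prime, G a finite group with Sylow p-subgroup S and W a conjugacy functor for p on G. Then W controls strong fusion in G if and only if, whenever T ≤ S and g ∈ G satisfy gTg⁻¹ ≤ S, one can write g = n c with n ∈ N_G(W(S)) and c ∈ C_G(T). -/
theorem result {G : Type*} [Group G] [Finite G] {p : ℕ} [Fact p.Prime] (S : Sylow p G) (W : Subgroup G → Subgroup G) (hW : Cfsg.IsConjugacyFunctor p W) : Cfsg.ControlsStrongFusionIn p W ⊤ ↔ ∀ (T : Subgroup G) (g : G), T ≤ (S : Subgroup G) → T.map (MulAut.conj g).toMonoidHom ≤ (S : Subgroup G) → ∃ n ∈ Subgroup.normalizer ((W (S : Subgroup G) : Subgroup G) : Set G), ∃ c ∈ Subgroup.centralizer (T : Set G), g = n * c := by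
  constructor
  · intro h T g hT hTg
    obtain ⟨y, hy, hyA⟩ := H7.ControlsStrongFusionIn.all hW h (H7.Sylow_isSylowIn_top S) (T : Set G) g trivial hT
      (by
        rintro _ ⟨a, ha, rfl⟩
        exact hTg (H7.conj_mem_map_conj g ha))
    refine ⟨y, hy.2, y⁻¹ * g, ?_, by group⟩
    rw [Subgroup.mem_centralizer_iff]
    intro a ha
    have := hyA a ha
    calc a * (y⁻¹ * g) = y⁻¹ * (y * a * y⁻¹) * g := by group
      _ = y⁻¹ * (g * a * g⁻¹) * g := by rw [this]
      _ = y⁻¹ * g * a := by group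
  · intro h
    refine ⟨S, le_top, S.2, (H7.Sylow_isSylowIn_top S).2.2, ?_⟩
    intro A g _ hA hAg
    have h1 : Subgroup.closure A ≤ (S : Subgroup G) := (Subgroup.closure_le _).2 hA
    have h2 : (Subgroup.closure A).map (MulAut.conj g).toMonoidHom ≤ (S : Subgroup G) := by
      rw [MonoidHom.map_closure, Subgroup.closure_le]
      rintro _ ⟨a, ha, rfl⟩
      have := hAg ⟨a, ha, rfl⟩
      simpa [MulAut.conj_apply] using this
    obtain ⟨n, hn, c, hc, rfl⟩ := h _ g h1 h2
    refine ⟨n, ⟨trivial, hn⟩, ?_⟩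
    intro a ha
    have := (Subgroup.mem_centralizer_iff.1 hc) a (Subgroup.subset_closure ha)
    calc n * a * n⁻¹ = n * (a * c) * c⁻¹ * n⁻¹ := by group
      _ = n * (c * a) * c⁻¹ * n⁻¹ := by rw [this]
      _ = n * c * a * (n * c)⁻¹ := by group

end Cfsg.Agent.S1967
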