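import Cfsg.Statements.S1968
import Cfsg.Agent.Lib_helper7_Functors
import Mathlib.Data.Set.Finite.Lemmas

set_option autoImplicit false
open Cfsg

namespace Cfsg.Agent.S1968

theorem chain_normalizes {G : Type*} [Group G] {p : ℕ} {W : Subgroup G → Subgroup G} {S A : Subgroup G}
    (hall : ∀ T : Subgroup G, Cfsg.IsWellPlaced p W S T → A ≤ T →
      Subgroup.normalizer (T : Set G) ≤ Subgroup.normalizer (A : Set G))
    {B : Set G} {g : G}
    (h : H7.Chain (fun T x => Cfsg.IsWellPlaced p W S T ∧ x ∈ Subgroup.normalizer (T : Set G)) B g)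
    (hB : B = (A : Set G)) : g ∈ Subgroup.normalizer (A : Set G) := by
  induction h with
  | nil B => exact Subgroup.one_mem _
  | cons B T x g hR hBT _ ih =>
    subst hB
    have hx : x ∈ Subgroup.normalizer (A : Set G) := hall T hR.1 hBT hR.2
    exact Subgroup.mul_mem _ hx (ih (H7.rcs_subgroup_of_mem_normalizer hx))

/-- Let p be a prime, G a finite group with Sylow p-subgroup S and W a conjugacy functor for p on G with Z(P) ≤ W(P) for every p-subgroup P. Let A be a subgroup of Z(S) normalized by N_G(W(S)) that is not weakly closed in S with respect to G. Then there is a subgroup T of S, well placed in S with respect to W, such that: A ≤ T; N_G(W(N_S(T))) normalizes A; N_S(T) is a Sylow p-subgroup of N_G(T); A ≤ Z(N_S(T)); and A is not weakly closed in N_S(T) with respect to N_G(T), that is, some N_G(T)-conjugate of A other than A lies in N_S(T). -/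
theorem result {G : Type*} [Group G] [Finite G] {p : ℕ} [Fact p.Prime] (S : Sylow p G) (W : Subgroup G → Subgroup G) (hW : Cfsg.IsConjugacyFunctor p W) (hWZ : ∀ P : Subgroup G, IsPGroup p ↥P → P ⊓ Subgroup.centralizer (P : Set G) ≤ W P) (A : Subgroup G) (hAZ : A ≤ (S : Subgroup G) ⊓ Subgroup.centralizer ((S : Subgroup G) : Set G)) (hAN : Subgroup.normalizer ((W (S : Subgroup G) : Subgroup G) : Set G) ≤ Subgroup.normalizer ((A : Subgroup G) : Set G)) (hnwc : ¬ Cfsg.IsWeaklyClosed A (S : Subgroup G)) : ∃ T : Subgroup G, Cfsg.IsWellPlaced p W (S : Subgroup G) T ∧ A ≤ T ∧ Subgroup.normalizer ((W ((S : Subgroup G) ⊓ Subgroup.normalizer ((T : Subgroup G) : Set G)) : Subgroup G) : Set G) ≤ Subgroup.normalizer ((A : Subgroup G) : Set G) ∧ ¬ p ∣ ((S : Subgroup G) ⊓ Subgroup.normalizer ((T : Subgroup G) : Set G)).relIndex (Subgroup.normalizer ((T : Subgroup G) : Set G)) ∧ A ≤ Subgroup.centralizer (((S : Subgroup G) ⊓ Subgroup.normalizer ((T : Subgroup G) : Set G) : Subgroup G) : Set G) ∧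 ∃ g ∈ Subgroup.normalizer ((T : Subgroup G) : Set G), A.map (MulAut.conj g).toMonoidHom ≤ (S : Subgroup G) ⊓ Subgroup.normalizer ((T : Subgroup G) : Set G) ∧ A.map (MulAut.conj g).toMonoidHom ≠ A := by
  classical
  have hAS : A ≤ (S : Subgroup G) := hAZ.trans inf_le_left
  -- the set of bad well placed subgroups
  set 𝒯 : Set (Subgroup G) := {T | Cfsg.IsWellPlaced p W (S : Subgroup G) T ∧ A ≤ T ∧
    ¬ Subgroup.normalizer (T : Set G) ≤ Subgroup.normalizer (A : Set G)} with h𝒯
  have hne : 𝒯.Nonempty := by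
    by_contra hcon
    rw [Set.not_nonempty_iff_eq_empty] at hcon
    apply hnwc
    refine ⟨hAS, ?_⟩
    intro g hg
    have hall : ∀ T : Subgroup G, Cfsg.IsWellPlaced p W (S : Subgroup G) T → A ≤ T →
        Subgroup.normalizer (T : Set G) ≤ Subgroup.normalizer (A : Set G) := by
      intro T hT hAT
      by_contra hc
      have : T ∈ 𝒯 := ⟨hT, hAT, hc⟩
      rw [hcon] at this
      exact this
    have hc := H7.chain_wellPlaced S hW (A : Set G) g⁻¹ hAS (by
      rintro _ ⟨a, ha, rfl⟩
      have := hg (H7.conj_mem_map_conj g ha)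
      show (g⁻¹)⁻¹ * a * g⁻¹ ∈ (S : Subgroup G)
      rw [inv_inv]; exact this)
    have := chain_normalizes hall hc rfl
    rw [H7.map_conj_eq_self_iff]
    simpa using this
  obtain ⟨T, hT, hmax⟩ := Set.exists_max_image 𝒯
    (fun T => Nat.card ((S : Subgroup G) ⊓ Subgroup.normalizer (T : Set G) : Subgroup G)) (Set.toFinite _) hne
  obtain ⟨hTwp, hAT, hTN⟩ := hT
  set S0 := (S : Subgroup G) ⊓ Subgroup.normalizer (T : Set G) with hS0
  have hS0p : IsPGroup p S0 := S.2.to_le inf_le_left
  have hAS0 : A ≤ S0 := le_inf hAS (hAT.trans Subgroup.le_normalizer)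
  have hAC : A ≤ Subgroup.centralizer (S0 : Set G) :=
    (hAZ.trans inf_le_right).trans (Subgroup.centralizer_le inf_le_left)
  have hAT1 : A ≤ W S0 := (le_inf hAS0 hAC).trans (hWZ S0 hS0p)
  refine ⟨T, hTwp, hAT, ?_, hTwp.2 0, hAC, ?_⟩
  · by_contra hc
    have hT1 : W S0 ∈ 𝒯 := ⟨H7.IsWellPlaced.next hW S.2 hTwp, hAT1, hc⟩
    have h1 := hmax _ hT1
    by_cases hS0S : S0 = S
    · apply hc
      rw [← hS0, hS0S]; exact hAN
    · have hlt : S0 < S := lt_of_le_of_ne inf_le_left hS0S
      have hgrow : S0 < (S : Subgroup G) ⊓ Subgroup.normalizer ((W S0 : Subgroup G) : Set G) :=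
        lt_of_lt_of_le (H7.lt_inf_normalizer S.2 hlt)
          (inf_le_inf_left _ (H7.IsConjugacyFunctor.normalizer_le hW hS0p))
      have := H7.card_lt_of_lt hgrow
      omega
  · obtain ⟨g, hg, hgA⟩ := SetLike.not_le_iff_exists.1 hTN
    refine ⟨g, hg, ?_, ?_⟩
    · have h1 : A.map (MulAut.conj g).toMonoidHom ≤ T := by
        have := Subgroup.map_mono (f := (MulAut.conj g).toMonoidHom) hAT
        rwa [H7.map_conj_eq_self_iff.2 hg] at this
      exact h1.trans (le_inf hTwp.1 Subgroup.le_normalizer)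
    · intro he
      exact hgA (H7.map_conj_eq_self_iff.1 he)

end Cfsg.Agent.S1968
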