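import Mathlib
import Cfsg.Statements.S1978
import Cfsg.Agent.Lib_helper1_KInf2

set_option autoImplicit false
open Cfsg

namespace Cfsg.Agent.S1978

open Cfsg.Agent.H1

/-- Let P be a finite p-group. Each of the two K-infinity subgroups of P contains its own centralizer in P, which in turn contains Z(P); in particular both are nontrivial when P is. -/
theorem result {P : Type*} [Group P] [Finite P] {p : ℕ} [Fact p.Prime] (hP : IsPGroup p P) : Subgroup.centralizer (Cfsg.kInfLower P : Set P) ≤ Cfsg.kInfLower P ∧ Subgroup.center P ≤ Subgroup.centralizer (Cfsg.kInfLower P : Set P) ∧ Subgroup.centralizer (Cfsg.kInfUpper P : Set P) ≤ Cfsg.kInfUpper P ∧ Subgroup.center P ≤ Subgroup.centralizer (Cfsg.kInfUpper P : Set P) := by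
  have : Group.IsNilpotent P := hP.isNilpotent
  obtain ⟨n, hn⟩ := kSeq_stabilize (P := P)
  have h1 := (hn n le_rfl).1
  have h2 := (hn (n + 1) (Nat.le_succ n)).2
  have hbot := abelian_normal_mem_families (⊥ : Subgroup P) inferInstance
  refine ⟨?_, Subgroup.center_le_centralizer _, ?_, Subgroup.center_le_centralizer _⟩
  · rw [← h1]
    exact centralizer_sSup_le _ (Or.inr (Or.inl ⟨_, rfl⟩)) ⟨⊥, hbot.2.1 _⟩
  · rw [← h2, kSeqOdd_succ']
    exact centralizer_sSup_le _ (Or.inr (Or.inr ⟨_, rfl⟩)) ⟨⊥, hbot.2.2 _⟩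

end Cfsg.Agent.S1978
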