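import Cfsg.Statements.S2007
import Cfsg.Agent.S0071
import Mathlib

set_option autoImplicit false
open Cfsg

namespace Cfsg.Agent.S2007

theorem commute_of_comm_fixed {G : Type*} [Group G] (g r : G)
    (hc : g * (r⁻¹ * (g * r * g⁻¹)) = (r⁻¹ * (g * r * g⁻¹)) * g)
    (hcop : (orderOf g).Coprime (orderOf (r⁻¹ * (g * r * g⁻¹)))) : g * r = r * g := by
  set c := r⁻¹ * (g * r * g⁻¹) with hcdef
  have hgr : g * r = r * c * g := by rw [hcdef]; group
  have hpow : ∀ n : ℕ, g ^ n * r = r * c ^ n * g ^ n := by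
    intro n
    induction n with
    | zero => simp
    | succ n ih =>
      have hcn : g * c ^ n = c ^ n * g := ((show Commute g c from hc).pow_right n).eq
      calc g ^ (n + 1) * r = g * (g ^ n * r) := by rw [pow_succ']; group
        _ = g * (r * c ^ n * g ^ n) := by rw [ih]
        _ = (g * r) * c ^ n * g ^ n := by group
        _ = (r * c * g) * c ^ n * g ^ n := by rw [hgr]
        _ = r * c * (g * c ^ n) * g ^ n := by group
        _ = r * c * (c ^ n * g) * g ^ n := by rw [hcn]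
        _ = r * c ^ (n + 1) * g ^ (n + 1) := by rw [pow_succ' c, pow_succ' g]; group
  have h1 := hpow (orderOf g)
  rw [pow_orderOf_eq_one, one_mul, mul_one] at h1
  have h2 : c ^ orderOf g = 1 := by
    have : r * 1 = r * c ^ orderOf g := by rw [mul_one]; exact h1
    exact (mul_left_cancel this).symm
  have h3 : orderOf c = 1 :=
    Nat.eq_one_of_dvd_coprimes hcop (orderOf_dvd_of_pow_eq_one h2) dvd_rfl
  rw [orderOf_eq_one_iff] at h3
  rw [hgr, h3, mul_one]

/-- Let p be a prime, G a finite group with Sylow p-subgroup S, and T a normal subgroup of S containing C_S(T). If N_G(T)/C_G(T) is a p-group (every element of N_G(T) of order prime to p centralizes T), then N_G(T) has a normal p-complement. -/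
theorem result {G : Type*} [Group G] [Finite G] {p : ℕ} [Fact p.Prime] (S : Sylow p G) (T : Subgroup G) (hTS : T ≤ (S : Subgroup G)) (hTn : (S : Subgroup G) ≤ Subgroup.normalizer ((T : Subgroup G) : Set G)) (hC : (S : Subgroup G) ⊓ Subgroup.centralizer ((T : Subgroup G) : Set G) ≤ T) (hN : ∀ g ∈ Subgroup.normalizer ((T : Subgroup G) : Set G), (orderOf g).Coprime p → g ∈ Subgroup.centralizer ((T : Subgroup G) : Set G)) : Cfsg.HasNormalPComplement p ↥(Subgroup.normalizer ((T : Subgroup G) : Set G)) := by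
  set N := Subgroup.normalizer ((T : Subgroup G) : Set G) with hNdef
  refine ⟨S.subtype hTn, ?_⟩
  rw [Cfsg.Agent.S0071.result (S.subtype hTn)]
  intro Q hQ g hg hgp
  rw [Subgroup.mem_centralizer_iff]
  intro r hr
  have hmemS : ∀ x : N, x ∈ Q → (x : G) ∈ (S : Subgroup G) := by
    intro x hx
    have := hQ hx
    rwa [Sylow.coe_subtype, Subgroup.mem_subgroupOf] at this
  have hgT : (g : G) ∈ Subgroup.centralizer ((T : Subgroup G) : Set G) := by
    apply hN g g.2
    rw [Subgroup.orderOf_coe]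
    exact hgp
  have hcQ : r⁻¹ * (g * r * g⁻¹) ∈ Q :=
    Q.mul_mem (Q.inv_mem hr) ((Subgroup.mem_normalizer_iff.mp hg r).mp hr)
  have hcS := hmemS _ hcQ
  have hrS := hmemS _ hr
  have hcT : ((r⁻¹ * (g * r * g⁻¹) : N) : G) ∈ T := by
    apply hC
    refine ⟨hcS, ?_⟩
    show ((r⁻¹ * (g * r * g⁻¹) : N) : G) ∈ Subgroup.centralizer ((T : Subgroup G) : Set G)
    rw [Subgroup.mem_centralizer_iff]
    intro t ht
    have h1 : (r : G)⁻¹ * t * r ∈ T := (Subgroup.mem_normalizer_iff''.mp (hTn hrS) t).mp ht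
    have h2 : t * (g : G) = g * t := (Subgroup.mem_centralizer_iff.mp hgT) t ht
    have h3 : ((r : G)⁻¹ * t * r) * (g : G) = g * ((r : G)⁻¹ * t * r) :=
      (Subgroup.mem_centralizer_iff.mp hgT) _ h1
    have h4 : t * (g : G)⁻¹ = (g : G)⁻¹ * t := by
      have := congrArg (fun z => (g : G)⁻¹ * z * (g : G)⁻¹) h2
      simp only [mul_assoc, inv_mul_cancel_left, mul_inv_cancel, mul_one] at this
      exact this.symm
    have h5 : ((r : G)⁻¹ * t * r) * (g : G)⁻¹ = (g : G)⁻¹ * ((r : G)⁻¹ * t * r) := by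
      have := congrArg (fun z => (g : G)⁻¹ * z * (g : G)⁻¹) h3
      simp only [mul_assoc, inv_mul_cancel_left, mul_inv_cancel, mul_one] at this
      simpa [mul_assoc] using this.symm
    push_cast
    -- want: t * (r⁻¹ g r g⁻¹) = (r⁻¹ g r g⁻¹) * t
    have h6 : (r : G) * ((r : G)⁻¹ * t * r) = t * r := by group
    have h7 : t * (r : G)⁻¹ = (r : G)⁻¹ * ((r : G) * t * (r : G)⁻¹) := by group
    have h8 : (r : G) * t * (r : G)⁻¹ ∈ T := (Subgroup.mem_normalizer_iff.mp (hTn hrS) t).mp ht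
    have h9 : ((r : G) * t * (r : G)⁻¹) * (g : G) = g * ((r : G) * t * (r : G)⁻¹) :=
      (Subgroup.mem_centralizer_iff.mp hgT) _ h8
    calc t * ((r : G)⁻¹ * ((g : G) * r * (g : G)⁻¹))
        = (r : G)⁻¹ * (((r : G) * t * (r : G)⁻¹) * g) * r * (g : G)⁻¹ := by group
      _ = (r : G)⁻¹ * (g * ((r : G) * t * (r : G)⁻¹)) * r * (g : G)⁻¹ := by rw [h9]
      _ = (r : G)⁻¹ * g * r * (t * (g : G)⁻¹) := by group
      _ = (r : G)⁻¹ * g * r * ((g : G)⁻¹ * t) := by rw [h4]
      _ = (r : G)⁻¹ * ((g : G) * r * (g : G)⁻¹) * t := by group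
  have hgc : g * (r⁻¹ * (g * r * g⁻¹)) = (r⁻¹ * (g * r * g⁻¹)) * g := by
    apply Subtype.ext
    exact ((Subgroup.mem_centralizer_iff.mp hgT) _ hcT).symm
  have hcop : (orderOf g).Coprime (orderOf (r⁻¹ * (g * r * g⁻¹))) := by
    obtain ⟨k, hk⟩ := (IsPGroup.iff_orderOf.mp S.2) ⟨_, hcS⟩
    rw [Subgroup.orderOf_mk, Subgroup.orderOf_coe] at hk
    rw [hk]
    exact Nat.Coprime.pow_right k hgp
  exact (commute_of_comm_fixed g r hgc hcop).symm

end Cfsg.Agent.S2007
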