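import Mathlib
import Cfsg.Statements.S2009

set_option autoImplicit false
open Cfsg

namespace Cfsg.Agent.S2009

theorem exists_third {H : Type*} [Group H] [Finite H] (z : H) (hz : orderOf z = 2) (E : Subgroup H)
    (hE : IsKleinFour ↥E) : ∃ b ∈ E, b ≠ 1 ∧ b ≠ z := by
  by_contra hcon
  push Not at hcon
  have hle : E ≤ Subgroup.zpowers z := by
    intro b hb
    by_cases h1 : b = 1
    · rw [h1]; exact one_mem _
    · rw [hcon b hb h1]; exact Subgroup.mem_zpowers z
  have h4 : Nat.card E = 4 := hE.card_four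
  have := Subgroup.card_dvd_of_le hle
  rw [h4, Nat.card_zpowers, hz] at this
  omega

theorem proper_normal_eq_bot {H : Type*} [Group H] [Finite H] (z : H) (hz : orderOf z = 2)
    (hN : ∀ N : Subgroup H, N.Normal → N ≠ ⊤ → N ⊓ Subgroup.centralizer ({z} : Set H) = ⊥)
    (E : Subgroup H) (hE : IsKleinFour ↥E) (hzE : z ∈ E) (hc : ∀ e ∈ E, e ≠ 1 → IsConj z e)
    (N : Subgroup H) (hNn : N.Normal) (hNt : N ≠ ⊤) : N = ⊥ := by
  have hz1 : z ≠ 1 := by
    rintro rfl
    simp at hz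
  -- fixed point freeness
  have hfpf : ∀ e ∈ E, e ≠ 1 → ∀ n ∈ N, e * n * e⁻¹ = n → n = 1 := by
    intro e he he1 n hn hen
    obtain ⟨g, hg⟩ := isConj_iff.mp (hc e he he1)
    have h1 : g⁻¹ * n * g ∈ N ⊓ Subgroup.centralizer ({z} : Set H) := by
      refine Subgroup.mem_inf.mpr ⟨?_, ?_⟩
      · have := hNn.conj_mem n hn g⁻¹
        simpa using this
      · rw [Subgroup.mem_centralizer_singleton_iff]
        have h2 : e * n = n * e := by
          rw [mul_inv_eq_iff_eq_mul] at hen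
          exact hen
        rw [← hg] at h2
        calc g⁻¹ * n * g * z = g⁻¹ * (n * (g * z * g⁻¹)) * g := by group
          _ = g⁻¹ * (g * z * g⁻¹ * n) * g := by rw [h2]
          _ = z * (g⁻¹ * n * g) := by group
    rw [hN N hNn hNt, Subgroup.mem_bot] at h1
    have : n = g * (g⁻¹ * n * g) * g⁻¹ := by group
    rw [this, h1]; group
  have hsq : ∀ e ∈ E, e * e = 1 := by
    intro e he
    have := hE.exponent_two
    have h2 : (⟨e, he⟩ : E) ^ 2 = 1 := by
      rw [← this]; exact Monoid.pow_exponent_eq_one _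
    have h3 := congrArg Subtype.val h2
    simpa [sq] using h3
  -- inversion
  have hinv : ∀ e ∈ E, e ≠ 1 → ∀ n ∈ N, e * n * e⁻¹ = n⁻¹ := by
    intro e he he1
    have hee := hsq e he
    have heinv : e⁻¹ = e := inv_eq_of_mul_eq_one_left hee
    let φ : N → N := fun n => ⟨(n : H)⁻¹ * (e * n * e⁻¹),
      mul_mem (inv_mem n.2) (hNn.conj_mem _ n.2 e)⟩
    have hφ : Function.Injective φ := by
      intro n m hnm
      have h1 : (n : H)⁻¹ * (e * n * e⁻¹) = (m : H)⁻¹ * (e * m * e⁻¹) := congrArg Subtype.val hnm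
      have h2 : e * ((m : H) * (n : H)⁻¹) * e⁻¹ = (m : H) * (n : H)⁻¹ := by
        calc e * ((m : H) * (n : H)⁻¹) * e⁻¹ = (e * m * e⁻¹) * (e * n * e⁻¹)⁻¹ := by group
          _ = (m : H) * ((m : H)⁻¹ * (e * m * e⁻¹)) * (e * n * e⁻¹)⁻¹ := by group
          _ = (m : H) * ((n : H)⁻¹ * (e * n * e⁻¹)) * (e * n * e⁻¹)⁻¹ := by rw [h1]
          _ = (m : H) * (n : H)⁻¹ := by group
      have h3 := hfpf e he he1 _ (mul_mem m.2 (inv_mem n.2)) h2
      apply Subtype.ext
      exact (mul_inv_eq_one.mp h3).symm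
    have hsurj : Function.Surjective φ := Finite.surjective_of_injective hφ
    intro n hn
    obtain ⟨m, hm⟩ := hsurj ⟨n, hn⟩
    have hm' : (m : H)⁻¹ * (e * m * e⁻¹) = n := congrArg Subtype.val hm
    rw [← hm']
    calc e * ((m : H)⁻¹ * (e * m * e⁻¹)) * e⁻¹ = e * (m : H)⁻¹ * e * m * (e * e)⁻¹ := by group
      _ = e * (m : H)⁻¹ * e * m := by rw [hee]; group
      _ = e * (m : H)⁻¹ * e⁻¹ * m := by rw [heinv]
      _ = ((m : H)⁻¹ * (e * m * e⁻¹))⁻¹ := by group
  obtain ⟨b, hb, hb1, hbz⟩ := exists_third z hz E hE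
  have hzb : z * b ≠ 1 := by
    intro h
    apply hbz
    have h1 := hsq z hzE
    exact (mul_left_cancel (h.trans h1.symm))
  rw [eq_bot_iff]
  intro n hn
  rw [Subgroup.mem_bot]
  apply hfpf (z * b) (mul_mem hzE hb) hzb n hn
  calc z * b * n * (z * b)⁻¹ = z * (b * n * b⁻¹) * z⁻¹ := by group
    _ = z * n⁻¹ * z⁻¹ := by rw [hinv b hb hb1 n hn]
    _ = (n⁻¹)⁻¹ := hinv z hzE hz1 _ (inv_mem hn)
    _ = n := inv_inv n

/-- Let H be a finite group and z an involution such that every proper normal subgroup of H meets the centralizer of z trivially, and suppose z lies in a Klein four-subgroup E of H all three of whose involutions are conjugate to z in H. Then H is simple. -/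
theorem result {H : Type*} [Group H] [Finite H] (z : H) (hz : orderOf z = 2) (hN : ∀ N : Subgroup H, N.Normal → N ≠ ⊤ → N ⊓ Subgroup.centralizer ({z} : Set H) = ⊥) (E : Subgroup H) (hE : IsKleinFour ↥E) (hzE : z ∈ E) (hc : ∀ e ∈ E, e ≠ 1 → IsConj z e) : IsSimpleGroup H := by
  have hz1 : z ≠ 1 := by
    rintro rfl
    simp at hz
  have : Nontrivial H := ⟨⟨z, 1, hz1⟩⟩
  refine ⟨fun N hNn => ?_⟩
  by_cases h : N = ⊤
  · right; exact h
  · left; exact proper_normal_eq_bot z hz hN E hE hzE hc N hNn h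

end Cfsg.Agent.S2009
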