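import Cfsg.Statements.S2578
import Cfsg.Agent.Lib_helper6_RegUnipConj
import Cfsg.Agent.Lib_helper6_SqZero

set_option autoImplicit false
open Cfsg

namespace Cfsg.Agent.S2578

/-- Conjugation of an element of `SL` by an element of `GL`. -/
def conjSL {F : Type*} [Field F] {n : ℕ} (g : GL (Fin n) F)
    (u : Matrix.SpecialLinearGroup (Fin n) F) : Matrix.SpecialLinearGroup (Fin n) F :=
  ⟨(g : Matrix (Fin n) (Fin n) F) * u * ((g⁻¹ : GL (Fin n) F) : Matrix (Fin n) (Fin n) F), by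
    rw [Matrix.det_mul, Matrix.det_mul, u.2, mul_one, ← Matrix.det_mul, ← Units.val_mul,
      mul_inv_cancel]
    simp⟩

theorem toGL_conjSL {F : Type*} [Field F] {n : ℕ} (g : GL (Fin n) F)
    (u : Matrix.SpecialLinearGroup (Fin n) F) :
    Matrix.SpecialLinearGroup.toGL (conjSL g u) = g * Matrix.SpecialLinearGroup.toGL u * g⁻¹ := by
  apply Units.ext
  rfl

theorem conjSL_sub_one {F : Type*} [Field F] {n : ℕ} (g : GL (Fin n) F)
    (u : Matrix.SpecialLinearGroup (Fin n) F) :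
    (conjSL g u : Matrix (Fin n) (Fin n) F) - 1 =
      (g : Matrix (Fin n) (Fin n) F) * ((u : Matrix (Fin n) (Fin n) F) - 1) *
        ((g⁻¹ : GL (Fin n) F) : Matrix (Fin n) (Fin n) F) := by
  have h2 : (g : Matrix (Fin n) (Fin n) F) * ((g⁻¹ : GL (Fin n) F) : Matrix (Fin n) (Fin n) F) = 1 := by
    rw [← Units.val_mul, mul_inv_cancel, Units.val_one]
  rw [mul_sub, sub_mul, mul_one, h2]
  rfl

theorem isConj_SL_iff {F : Type*} [Field F] {n : ℕ} (a b : Matrix.SpecialLinearGroup (Fin n) F) :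
    IsConj a b ↔ ∃ h : GL (Fin n) F, Matrix.GeneralLinearGroup.det h = 1 ∧
      h * Matrix.SpecialLinearGroup.toGL a * h⁻¹ = Matrix.SpecialLinearGroup.toGL b := by
  rw [isConj_iff]
  constructor
  · rintro ⟨c, hc⟩
    refine ⟨Matrix.SpecialLinearGroup.toGL c, ?_, ?_⟩
    · apply Units.ext
      exact c.2
    · rw [← map_inv, ← map_mul, ← map_mul, hc]
  · rintro ⟨h, hdet, hh⟩
    have hd : (h : Matrix (Fin n) (Fin n) F).det = 1 := congrArg Units.val hdet
    obtain ⟨c, hc⟩ : ∃ c : Matrix.SpecialLinearGroup (Fin n) F,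
        Matrix.SpecialLinearGroup.toGL c = h := ⟨⟨h, hd⟩, Units.ext rfl⟩
    refine ⟨c, ?_⟩
    apply Matrix.SpecialLinearGroup.toGL_injective
    rw [map_mul, map_mul, map_inv, hc, hh]

/-- Regular unipotent classes of SL_n(q): for n ≥ 2 over the field with q elements, the matrices u of determinant one with (u − 1)^n = 0 and rank(u − 1) = n − 1 form a single GL_n(q)-class which splits into exactly gcd(n, q − 1) conjugacy classes of SL_n(q). -/
theorem result {F : Type*} [Field F] [Fintype F] {q : ℕ} (hF : Fintype.card F = q) {n : ℕ} (hn : 2 ≤ n) : Nat.card {C : ConjClasses (Matrix.SpecialLinearGroup (Fin n) F) // ∃ u : Matrix.SpecialLinearGroup (Fin n) F, ConjClasses.mk u = C ∧ ((u : Matrix (Fin n) (Fin n) F) - 1) ^ n = 0 ∧ ((u : Matrix (Fin n) (Fin n) F) - 1).rank = n - 1} = Nat.gcd n (q - 1) := by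
  classical
  subst hF
  have hn1 : 1 ≤ n := by omega
  obtain ⟨u₀, hu₀⟩ : ∃ u₀ : Matrix.SpecialLinearGroup (Fin n) F,
      (u₀ : Matrix (Fin n) (Fin n) F) = 1 + H6.shiftMat F n :=
    ⟨⟨_, H6.det_one_add_shiftMat n⟩, rfl⟩
  have hu₀s : (u₀ : Matrix (Fin n) (Fin n) F) - 1 = H6.shiftMat F n := by
    rw [hu₀, add_sub_cancel_left]
  have hV : Module.finrank F (Fin n → F) = n := Module.finrank_fin_fun F
  -- the predicate is invariant
  have hP : ∀ g : GL (Fin n) F, ((conjSL g u₀ : Matrix (Fin n) (Fin n) F) - 1) ^ n = 0 ∧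
      ((conjSL g u₀ : Matrix (Fin n) (Fin n) F) - 1).rank = n - 1 := by
    intro g
    rw [conjSL_sub_one, hu₀s]
    constructor
    · rw [Units.conj_pow, H6.shiftMat_pow_self, mul_zero, zero_mul]
    · rw [Matrix.rank_mul_eq_left_of_isUnit_det _ _
          ((Matrix.isUnit_iff_isUnit_det _).mp (g⁻¹).isUnit),
        Matrix.rank_mul_eq_right_of_isUnit_det _ _
          ((Matrix.isUnit_iff_isUnit_det _).mp g.isUnit), H6.rank_shiftMat hn1]
  have hN0 : (Matrix.toLin' (H6.shiftMat F n)) ^ n = 0 := by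
    rw [← Matrix.toLin'_pow, H6.shiftMat_pow_self, map_zero]
  have hreg0 : Module.finrank F (LinearMap.ker (Matrix.toLin' (H6.shiftMat F n))) ≤ 1 :=
    (H6.finrank_ker_shiftMat hn1).le
  obtain ⟨f, hf⟩ : ∃ f : GL (Fin n) F → {C : ConjClasses (Matrix.SpecialLinearGroup (Fin n) F) //
      ∃ u : Matrix.SpecialLinearGroup (Fin n) F, ConjClasses.mk u = C ∧
        ((u : Matrix (Fin n) (Fin n) F) - 1) ^ n = 0 ∧
        ((u : Matrix (Fin n) (Fin n) F) - 1).rank = n - 1},
      ∀ g, (f g).1 = ConjClasses.mk (conjSL g u₀) :=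
    ⟨fun g => ⟨ConjClasses.mk (conjSL g u₀), conjSL g u₀, rfl, hP g⟩, fun g => rfl⟩
  have hsurj : Function.Surjective f := by
    rintro ⟨C, u, rfl, hnil, hrk⟩
    obtain ⟨g, hg⟩ := H6.regular_conj (Matrix.toLin' (H6.shiftMat F n))
      (Matrix.toLin' ((u : Matrix (Fin n) (Fin n) F) - 1)) hn1 hN0
      (by rw [← Matrix.toLin'_pow, hnil, map_zero]) hV hreg0
      (by
        apply H6.finrank_ker_mulVecLin_le
        rw [hrk, Fintype.card_fin])
    have hG : (LinearMap.toMatrix' (g : (Fin n → F) →ₗ[F] (Fin n → F))).det ≠ 0 := by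
      rw [LinearMap.det_toMatrix']
      exact (LinearEquiv.isUnit_det' g).ne_zero
    have hcomm : LinearMap.toMatrix' (g : (Fin n → F) →ₗ[F] (Fin n → F)) * H6.shiftMat F n =
        ((u : Matrix (Fin n) (Fin n) F) - 1) *
          LinearMap.toMatrix' (g : (Fin n → F) →ₗ[F] (Fin n → F)) := by
      apply Matrix.toLin'.injective
      rw [Matrix.toLin'_mul, Matrix.toLin'_mul, Matrix.toLin'_toMatrix']
      apply LinearMap.ext
      intro v
      exact hg v
    refine ⟨Matrix.GeneralLinearGroup.mkOfDetNeZero _ hG, Subtype.ext ?_⟩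
    rw [hf]
    congr 1
    apply Matrix.SpecialLinearGroup.toGL_injective
    rw [toGL_conjSL, mul_inv_eq_iff_eq_mul]
    apply Units.ext
    rw [← hu₀s, mul_sub, sub_mul, mul_one, one_mul] at hcomm
    simpa using hcomm
  obtain ⟨K, hK⟩ : ∃ K : Subgroup (GL (Fin n) F),
      K = (powMonoidHom n : Fˣ →* Fˣ).range.comap Matrix.GeneralLinearGroup.det := ⟨_, rfl⟩
  have key : ∀ g g' : GL (Fin n) F, IsConj (conjSL g u₀) (conjSL g' u₀) ↔ g⁻¹ * g' ∈ K := by
    intro g g'
    rw [isConj_SL_iff, toGL_conjSL, toGL_conjSL, hK, Subgroup.mem_comap, MonoidHom.mem_range]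
    obtain ⟨U, hU⟩ : ∃ U, U = Matrix.SpecialLinearGroup.toGL u₀ := ⟨_, rfl⟩
    rw [← hU]
    constructor
    · rintro ⟨h, hdet, hh⟩
      have hc : (g'⁻¹ * h * g) * U = U * (g'⁻¹ * h * g) := by
        have h1 : g'⁻¹ * (h * (g * U * g⁻¹) * h⁻¹) * g' = U := by rw [hh]; group
        calc (g'⁻¹ * h * g) * U
            = (g'⁻¹ * (h * (g * U * g⁻¹) * h⁻¹) * g') * (g'⁻¹ * h * g) := by group
          _ = U * (g'⁻¹ * h * g) := by rw [h1]
      obtain ⟨c, hcdef⟩ : ∃ c, c = g'⁻¹ * h * g := ⟨_, rfl⟩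
      rw [← hcdef] at hc
      have hc' : (c : Matrix (Fin n) (Fin n) F) * H6.shiftMat F n =
          H6.shiftMat F n * (c : Matrix (Fin n) (Fin n) F) := by
        have h1 : (c : Matrix (Fin n) (Fin n) F) * (u₀ : Matrix (Fin n) (Fin n) F) =
            (u₀ : Matrix (Fin n) (Fin n) F) * (c : Matrix (Fin n) (Fin n) F) := by
          have := congrArg (fun x : GL (Fin n) F => (x : Matrix (Fin n) (Fin n) F)) hc
          rw [hU] at this
          simpa using this
        rw [← hu₀s, mul_sub, sub_mul, h1, mul_one, one_mul]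
      obtain ⟨a, ha⟩ := H6.det_of_commute_regular (Matrix.toLin' (H6.shiftMat F n)) hn1 hN0 hV
        hreg0 (Matrix.toLin' (c : Matrix (Fin n) (Fin n) F))
        (by rw [Module.End.mul_eq_comp, Module.End.mul_eq_comp, ← Matrix.toLin'_mul,
          ← Matrix.toLin'_mul, hc'])
      rw [LinearMap.det_toLin'] at ha
      have ha0 : a ≠ 0 := by
        rintro rfl
        rw [zero_pow (by omega)] at ha
        exact (Matrix.GeneralLinearGroup.det c).ne_zero ha
      refine ⟨(Units.mk0 a ha0)⁻¹, ?_⟩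
      have h1 : Matrix.GeneralLinearGroup.det c = (Units.mk0 a ha0) ^ n := Units.ext (by
        simpa using ha)
      rw [hcdef, map_mul, map_mul, hdet, mul_one, map_inv] at h1
      rw [powMonoidHom_apply, inv_pow, ← h1, map_mul, map_inv, mul_inv, inv_inv, mul_comm]
    · rintro ⟨a, ha⟩
      rw [powMonoidHom_apply] at ha
      refine ⟨g' * Matrix.GeneralLinearGroup.scalar (Fin n) a⁻¹ * g⁻¹, ?_, ?_⟩
      · rw [map_mul, map_mul, Matrix.GeneralLinearGroup.det_scalar, Fintype.card_fin, inv_pow, ha,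
          map_mul, map_inv]
        rw [mul_inv, inv_inv]
        have : ∀ x y : Fˣ, x * (y * x⁻¹) * y⁻¹ = 1 := by
          intro x y
          rw [mul_comm y, mul_inv_cancel_left, mul_inv_cancel]
        exact this _ _
      · have hz := Matrix.GeneralLinearGroup.scalar_commute a⁻¹ U
        calc g' * Matrix.GeneralLinearGroup.scalar (Fin n) a⁻¹ * g⁻¹ * (g * U * g⁻¹) *
              (g' * Matrix.GeneralLinearGroup.scalar (Fin n) a⁻¹ * g⁻¹)⁻¹
            = g' * (Matrix.GeneralLinearGroup.scalar (Fin n) a⁻¹ * U) *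
              (Matrix.GeneralLinearGroup.scalar (Fin n) a⁻¹)⁻¹ * g'⁻¹ := by group
          _ = g' * U * g'⁻¹ := by rw [hz]; group
  have hker : Setoid.ker f = QuotientGroup.leftRel K := by
    ext g g'
    rw [Setoid.ker_def, QuotientGroup.leftRel_apply, ← key, ← ConjClasses.mk_eq_mk_iff_isConj,
      ← hf, ← hf]
    exact Subtype.ext_iff
  have h1 : Nat.card {C : ConjClasses (Matrix.SpecialLinearGroup (Fin n) F) //
      ∃ u : Matrix.SpecialLinearGroup (Fin n) F, ConjClasses.mk u = C ∧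
        ((u : Matrix (Fin n) (Fin n) F) - 1) ^ n = 0 ∧
        ((u : Matrix (Fin n) (Fin n) F) - 1).rank = n - 1} = K.index := by
    rw [← Nat.card_congr (Setoid.quotientKerEquivOfSurjective f hsurj), hker]
    rfl
  haveI : Nonempty (Fin n) := ⟨⟨0, hn1⟩⟩
  rw [h1, hK, Subgroup.index_comap_of_surjective _ Matrix.GeneralLinearGroup.det_surjective,
    IsCyclic.index_powMonoidHom_range, Nat.card_units, Nat.card_eq_fintype_card, Nat.gcd_comm]

end Cfsg.Agent.S2578
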