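import Cfsg.Statements.S2301
import Cfsg.Agent.Lib_helper6_SL2Classes
import Cfsg.Agent.S2578

set_option autoImplicit false
open Cfsg

namespace Cfsg.Agent.S2301

theorem sq_zero_of_unipotent {F : Type*} [Field F] {g : Matrix (Fin 2) (Fin 2) F}
    (ht : g.trace = 1 + 1) (hd : g.det = 1) : (g - 1) * (g - 1) = 0 := by
  rw [Matrix.trace_fin_two] at ht
  rw [Matrix.det_fin_two] at hd
  ext i j
  fin_cases i <;> fin_cases j <;> simp [Matrix.mul_apply, Fin.sum_univ_two]
  · linear_combination g 0 0 * ht - hd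
  · linear_combination g 0 1 * ht
  · linear_combination g 1 0 * ht
  · linear_combination g 1 1 * ht - hd

theorem rank_eq_one {F : Type*} [Field F] {N : Matrix (Fin 2) (Fin 2) F} (h : N * N = 0)
    (h0 : N ≠ 0) : N.rank = 1 := by
  have h1 := H6.sqzero_two_mul_le (Matrix.toLin' N)
    (by rw [Module.End.mul_eq_comp, ← Matrix.toLin'_mul, h, map_zero])
  rw [H6.finrank_range_toLin', Module.finrank_fin_fun] at h1
  have h2 : N.rank ≠ 0 := fun h => h0 (H6.eq_zero_of_rank_eq_zero N h)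
  omega

theorem unip_of_order {F : Type*} [Field F] (p : ℕ) [Fact p.Prime] [CharP F p]
    (g : Matrix.SpecialLinearGroup (Fin 2) F) (hg : orderOf g = p) :
    (g : Matrix (Fin 2) (Fin 2) F).trace = 1 + 1 ∧
      H6.GL2C.NonScalar (g : Matrix (Fin 2) (Fin 2) F) ∧ (g : Matrix (Fin 2) (Fin 2) F) ≠ 1 := by
  have h2 : g ^ p = 1 := by have := pow_orderOf_eq_one g; rwa [hg] at this
  have h2' : (g : Matrix (Fin 2) (Fin 2) F) ^ (p ^ 1) = 1 := by
    rw [pow_one, ← Matrix.SpecialLinearGroup.coe_pow, h2]; rfl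
  obtain ⟨ht, hd⟩ := H6.GL2C.trace_det_of_pow_char_pow p _ 1 h2'
  have hne : (g : Matrix (Fin 2) (Fin 2) F) ≠ 1 := by
    intro h1
    have : g = 1 := Subtype.ext h1
    rw [this, orderOf_one] at hg
    exact (Fact.out : p.Prime).one_lt.ne hg
  exact ⟨ht, H6.GL2C.nonScalar_of_unipotent ht hd hne, hne⟩

/-- Over a finite field with q elements of odd characteristic p, the elements of order p of SL₂ (the non-identity unipotent elements) fall into exactly two conjugacy classes, each of size (q² − 1)/2; two upper unitriangular matrices with non-zero off-diagonal entries b and b′ are conjugate exactly when bb′ is a square. -/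
theorem result {F : Type*} [Field F] [Fintype F] (p : ℕ) [Fact p.Prime] [CharP F p] (hp : p ≠ 2) :
    Nat.card {C : ConjClasses (Matrix.SpecialLinearGroup (Fin 2) F) // ∃ g : Matrix.SpecialLinearGroup (Fin 2) F, orderOf g = p ∧ ConjClasses.mk g = C} = 2 ∧
    (∀ g : Matrix.SpecialLinearGroup (Fin 2) F, orderOf g = p → Nat.card (ConjClasses.mk g).carrier = (Fintype.card F ^ 2 - 1) / 2) ∧
    ∀ g h : Matrix.SpecialLinearGroup (Fin 2) F, (g : Matrix (Fin 2) (Fin 2) F) 0 0 = 1 → (g : Matrix (Fin 2) (Fin 2) F) 1 1 = 1 → (g : Matrix (Fin 2) (Fin 2) F) 1 0 = 0 → (g : Matrix (Fin 2) (Fin 2) F) 0 1 ≠ 0 →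
      (h : Matrix (Fin 2) (Fin 2) F) 0 0 = 1 → (h : Matrix (Fin 2) (Fin 2) F) 1 1 = 1 → (h : Matrix (Fin 2) (Fin 2) F) 1 0 = 0 → (h : Matrix (Fin 2) (Fin 2) F) 0 1 ≠ 0 →
      (IsConj g h ↔ IsSquare ((g : Matrix (Fin 2) (Fin 2) F) 0 1 * (h : Matrix (Fin 2) (Fin 2) F) 0 1)) := by
  have hpp : p.Prime := Fact.out
  have h20 : (2 : F) ≠ 0 := by
    intro h
    have h' : ((2 : ℕ) : F) = 0 := by exact_mod_cast h
    rw [CharP.cast_eq_zero_iff F p] at h'
    exact hp ((Nat.prime_dvd_prime_iff_eq hpp Nat.prime_two).mp h')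
  obtain ⟨n, -, hq⟩ := FiniteField.card F p
  have hodd : Odd (Fintype.card F) := by rw [hq]; exact (hpp.odd_of_ne_two hp).pow
  refine ⟨?_, ?_, ?_⟩
  · have h1 := S2578.result (F := F) rfl (le_refl 2)
    have hg : Nat.gcd 2 (Fintype.card F - 1) = 2 := by
      obtain ⟨k, hk⟩ := hodd
      apply Nat.gcd_eq_left
      exact ⟨k, by omega⟩
    rw [hg] at h1
    refine Eq.trans ?_ h1
    refine Nat.card_congr (Equiv.subtypeEquivRight (fun C => ?_))
    constructor
    · rintro ⟨g, hg, hC⟩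
      obtain ⟨ht, hns, hne⟩ := unip_of_order p g hg
      have hsq := sq_zero_of_unipotent ht g.2
      exact ⟨g, hC, by rw [sq]; exact hsq, rank_eq_one hsq (sub_ne_zero.mpr hne)⟩
    · rintro ⟨u, hC, hsq, hr⟩
      refine ⟨u, ?_, hC⟩
      apply orderOf_eq_prime
      · apply Subtype.ext
        rw [Matrix.SpecialLinearGroup.coe_pow]
        have h3 : (u : Matrix (Fin 2) (Fin 2) F) = ((u : Matrix (Fin 2) (Fin 2) F) - 1) + 1 := by
          rw [sub_add_cancel]
        rw [h3, add_pow_char_of_commute _ (Commute.one_right _), one_pow,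
          ← Nat.sub_add_cancel hpp.two_le, pow_add, hsq, mul_zero, zero_add]
        rfl
      · intro h1
        rw [h1] at hr
        simp at hr
  · intro g hg
    obtain ⟨ht, hns, hne⟩ := unip_of_order p g hg
    have h1 := H6.GL2C.card_carrier_mul_card_centralizer g
    rw [H6.GL2C.card_centralizer_SL g hns, ht,
      H6.GL2C.card_nrm_eq_one_double (mul_one (1 : F)), H6.GL2C.card_sq_eq_one_odd h20,
      H6.GL2C.card_SL2] at h1
    have h2 : Nat.card (ConjClasses.mk g).carrier * 2 = Fintype.card F ^ 2 - 1 := by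
      apply Nat.eq_of_mul_eq_mul_left (Fintype.card_pos (α := F))
      rw [← h1]; ring
    omega
  · intro g h g00 g11 g10 g01 h00 h11 h10 h01
    rw [isConj_iff]
    constructor
    · rintro ⟨c, hc⟩
      have hc' : c * g = h * c := by rw [← hc]; group
      have hm : (c : Matrix (Fin 2) (Fin 2) F) * (g : Matrix (Fin 2) (Fin 2) F) =
          (h : Matrix (Fin 2) (Fin 2) F) * (c : Matrix (Fin 2) (Fin 2) F) := congrArg Subtype.val hc'
      have e00 := congrFun (congrFun hm 0) 0
      have e01 := congrFun (congrFun hm 0) 1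
      simp only [Matrix.mul_apply, Fin.sum_univ_two, g00, g11, g10, h00, h11, h10] at e00 e01
      have hz : (c : Matrix (Fin 2) (Fin 2) F) 1 0 = 0 := by
        have : (h : Matrix (Fin 2) (Fin 2) F) 0 1 * (c : Matrix (Fin 2) (Fin 2) F) 1 0 = 0 := by
          linear_combination -e00
        exact (mul_eq_zero.mp this).resolve_left h01
      have hdet := c.2
      rw [Matrix.det_fin_two, hz, mul_zero, sub_zero] at hdet
      refine ⟨(c : Matrix (Fin 2) (Fin 2) F) 0 0 * (g : Matrix (Fin 2) (Fin 2) F) 0 1, ?_⟩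
      linear_combination (-(g : Matrix (Fin 2) (Fin 2) F) 0 1 * (h : Matrix (Fin 2) (Fin 2) F) 0 1) * hdet - (c : Matrix (Fin 2) (Fin 2) F) 0 0 * (g : Matrix (Fin 2) (Fin 2) F) 0 1 * e01
    · rintro ⟨s, hs⟩
      have hs0 : s ≠ 0 := by
        rintro rfl
        rw [mul_zero] at hs
        exact (mul_ne_zero g01 h01) hs
      obtain ⟨c, hc⟩ : ∃ c : Matrix.SpecialLinearGroup (Fin 2) F,
          (c : Matrix (Fin 2) (Fin 2) F) = !![s / (g : Matrix (Fin 2) (Fin 2) F) 0 1, 0; 0,
            (g : Matrix (Fin 2) (Fin 2) F) 0 1 / s] :=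
        ⟨⟨_, by rw [Matrix.det_fin_two_of]; field_simp; ring⟩, rfl⟩
      refine ⟨c, ?_⟩
      rw [mul_inv_eq_iff_eq_mul]
      apply Subtype.ext
      rw [Matrix.SpecialLinearGroup.coe_mul, Matrix.SpecialLinearGroup.coe_mul, hc]
      ext i j
      fin_cases i <;> fin_cases j <;>
        simp [Matrix.mul_apply, Fin.sum_univ_two, g00, g11, g10, h00, h11, h10]
      field_simp
      linear_combination -hs

end Cfsg.Agent.S2301
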