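import Cfsg.Statements.S2302
import Cfsg.Agent.Lib_helper6_SL2Classes

set_option autoImplicit false
open Cfsg

namespace Cfsg.Agent.S2302

theorem aux {F : Type*} [Field F] [Fintype F] [CharP F 2]
    (g : Matrix.SpecialLinearGroup (Fin 2) F) (hg : orderOf g = 2) :
    (g : Matrix (Fin 2) (Fin 2) F).trace = 1 + 1 ∧
      H6.GL2C.NonScalar (g : Matrix (Fin 2) (Fin 2) F) := by
  have : Fact (Nat.Prime 2) := ⟨Nat.prime_two⟩
  have h2 : g ^ 2 = 1 := by have := pow_orderOf_eq_one g; rwa [hg] at this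
  have h2' : (g : Matrix (Fin 2) (Fin 2) F) ^ (2 ^ 1) = 1 := by
    rw [pow_one, ← Matrix.SpecialLinearGroup.coe_pow, h2]; rfl
  obtain ⟨ht, hd⟩ := H6.GL2C.trace_det_of_pow_char_pow 2 _ 1 h2'
  refine ⟨ht, H6.GL2C.nonScalar_of_unipotent ht hd ?_⟩
  intro h1
  have : g = 1 := Subtype.ext h1
  rw [this, orderOf_one] at hg
  omega

/-- Over a finite field with q elements of characteristic 2, the involutions of SL₂ (the non-identity unipotent elements) form a single conjugacy class, of size q² − 1. -/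
theorem result {F : Type*} [Field F] [Fintype F] [CharP F 2] (g h : Matrix.SpecialLinearGroup (Fin 2) F) (hg : orderOf g = 2) (hh : orderOf h = 2) :
    IsConj g h ∧ Nat.card (ConjClasses.mk g).carrier = Fintype.card F ^ 2 - 1 := by
  obtain ⟨htg, hnsg⟩ := aux g hg
  obtain ⟨hth, hnsh⟩ := aux h hh
  have hsc : ∀ x : Matrix.SpecialLinearGroup (Fin 2) F,
      H6.GL2C.NonScalar (x : Matrix (Fin 2) (Fin 2) F) →
      ∀ c : F, (x : Matrix (Fin 2) (Fin 2) F) ≠ Matrix.scalar (Fin 2) c := by
    intro x hx c hc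
    rcases hx with h | h | h
    · exact h (by rw [hc]; simp)
    · exact h (by rw [hc]; simp)
    · exact h (by rw [hc]; simp)
  have hsq : ∀ a : F, IsSquare a := fun a => FiniteField.isSquare_of_char_two
    (by rw [ringChar.eq_iff]; infer_instance) a
  constructor
  · have h1 := H6.GL2.isConj_compSL hsq g (hsc g hnsg)
    have h2 := H6.GL2.isConj_compSL hsq h (hsc h hnsh)
    rw [htg] at h1
    rw [hth] at h2
    exact h1.trans h2.symm
  · have h1 := H6.GL2C.card_carrier_mul_card_centralizer g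
    have h20 : (2 : F) = 0 := by
      have := CharP.cast_eq_zero F 2
      exact_mod_cast this
    rw [H6.GL2C.card_centralizer_SL g hnsg, htg,
      H6.GL2C.card_nrm_eq_one_double (mul_one (1 : F)), H6.GL2C.card_sq_eq_one_even h20, one_mul,
      H6.GL2C.card_SL2, mul_comm] at h1
    exact Nat.eq_of_mul_eq_mul_left Fintype.card_pos h1

end Cfsg.Agent.S2302
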