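import Cfsg.Statements.S2303
import Cfsg.Agent.Lib_helper6_GL2Cent

set_option autoImplicit false
open Cfsg

namespace Cfsg.Agent.S2303

/-- Over a finite field with q elements: a diagonal element of GL₂ with two distinct diagonal entries has centralizer of order (q − 1)² (so q(q + 1) conjugates), and an element of GL₂ with no eigenvector in F² has centralizer of order q² − 1 (so q(q − 1) conjugates). -/
theorem result {F : Type*} [Field F] [Fintype F] (g : Matrix.GeneralLinearGroup (Fin 2) F) :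
    ((g : Matrix (Fin 2) (Fin 2) F) 0 1 = 0 → (g : Matrix (Fin 2) (Fin 2) F) 1 0 = 0 → (g : Matrix (Fin 2) (Fin 2) F) 0 0 ≠ (g : Matrix (Fin 2) (Fin 2) F) 1 1 →
      Nat.card (Subgroup.centralizer ({g} : Set (Matrix.GeneralLinearGroup (Fin 2) F))) = (Fintype.card F - 1) ^ 2) ∧
    ((∀ (c : F) (v : Fin 2 → F), v ≠ 0 → (g : Matrix (Fin 2) (Fin 2) F).mulVec v ≠ c • v) →
      Nat.card (Subgroup.centralizer ({g} : Set (Matrix.GeneralLinearGroup (Fin 2) F))) = Fintype.card F ^ 2 - 1) := by
  constructor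
  · intro h01 h10 hne
    have hns : H6.GL2C.NonScalar (g : Matrix (Fin 2) (Fin 2) F) := Or.inr (Or.inr hne)
    rw [H6.GL2C.card_centralizer_GL g hns]
    have ht : (g : Matrix (Fin 2) (Fin 2) F).trace =
        (g : Matrix (Fin 2) (Fin 2) F) 0 0 + (g : Matrix (Fin 2) (Fin 2) F) 1 1 :=
      Matrix.trace_fin_two _
    have hd : (g : Matrix (Fin 2) (Fin 2) F).det =
        (g : Matrix (Fin 2) (Fin 2) F) 0 0 * (g : Matrix (Fin 2) (Fin 2) F) 1 1 := by
      rw [Matrix.det_fin_two, h01, zero_mul, sub_zero]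
    rw [ht, hd]
    exact H6.GL2C.card_nrm_ne_zero_split hne
  · intro h
    rw [H6.GL2C.card_centralizer_GL g (H6.GL2C.nonScalar_of_no_eigenvector h)]
    exact H6.GL2C.card_nrm_ne_zero_aniso (H6.GL2C.aniso_of_no_eigenvector h)

end Cfsg.Agent.S2303
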