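import Cfsg.Statements.S2305
import Mathlib
import Cfsg.Agent.Lib_lead_Mk2

set_option autoImplicit false
open Cfsg

namespace Cfsg.Agent.S2305

open Cfsg.Agent.H4


/-- Over a finite field F, for multiplicative characters α, β, α′, β′ of F, the characters of GL₂ induced from the linear characters b ↦ α(b₁₁) β(b₂₂) and b ↦ α′(b₁₁) β′(b₂₂) of the upper triangular subgroup coincide exactly when {α, β} = {α′, β′} as unordered pairs. -/
theorem result {F : Type*} [Field F] [Fintype F] [DecidableEq F] (α β α' β' : MulChar F ℂ) :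
    Cfsg.indFun (Cfsg.upperTriangularGL 2 F) (fun b => α (((b : Matrix.GeneralLinearGroup (Fin 2) F) : Matrix (Fin 2) (Fin 2) F) 0 0) * β (((b : Matrix.GeneralLinearGroup (Fin 2) F) : Matrix (Fin 2) (Fin 2) F) 1 1)) = Cfsg.indFun (Cfsg.upperTriangularGL 2 F) (fun b => α' (((b : Matrix.GeneralLinearGroup (Fin 2) F) : Matrix (Fin 2) (Fin 2) F) 0 0) * β' (((b : Matrix.GeneralLinearGroup (Fin 2) F) : Matrix (Fin 2) (Fin 2) F) 1 1)) ↔
      (α = α' ∧ β = β') ∨ (α = β' ∧ β = α') := by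
  classical
  haveI := Fintype.ofFinite (IrrCharacter (Matrix.GeneralLinearGroup (Fin 2) F))
  have hirr : ∀ a b : MulChar F ℂ, a ≠ b → IsIrrCharacter (Matrix.GeneralLinearGroup (Fin 2) F)
      (indFun (upperTriangularGL 2 F) (Cfsg.Agent.LeadBr.psFun a b)) := by
    intro a b hab
    rw [isIrrCharacter_iff]
    refine ⟨IsCharacter.ind _ (Cfsg.Agent.LeadBr.psFun_isCharacter a b), ?_⟩
    have := Cfsg.Agent.LeadBr.gl2_inner a b a b
    rw [if_pos ⟨rfl, rfl⟩, if_neg (fun h => hab h.1), add_zero] at this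
    exact this
  show indFun (upperTriangularGL 2 F) (Cfsg.Agent.LeadBr.psFun α β)
    = indFun (upperTriangularGL 2 F) (Cfsg.Agent.LeadBr.psFun α' β') ↔ _
  constructor
  · intro h
    have h1 := Cfsg.Agent.LeadBr.gl2_inner α β α' β'
    have h2 := Cfsg.Agent.LeadBr.gl2_inner α β α β
    rw [← h, h2, if_pos ⟨rfl, rfl⟩] at h1
    by_contra hcon
    push Not at hcon
    have e1 : ¬ (α = α' ∧ β = β') := fun h => hcon.1 h.1 h.2
    have e2 : ¬ (α = β' ∧ β = α') := fun h => hcon.2 h.1 h.2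
    simp only [if_neg e1, if_neg e2] at h1
    split_ifs at h1 <;> norm_num at h1
  · rintro (⟨rfl, rfl⟩ | ⟨rfl, rfl⟩)
    · rfl
    · by_cases hab : α = β
      · rw [hab]
      · apply irr_eq_of_classInner_ne_zero (hirr α β hab) (hirr β α (Ne.symm hab))
        rw [Cfsg.Agent.LeadBr.gl2_inner α β β α, if_neg (fun h => hab h.1), if_pos ⟨rfl, rfl⟩]
        norm_num

end Cfsg.Agent.S2305
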