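import Cfsg.Statements.S2306
import Mathlib
import Cfsg.Agent.Lib_lead_Mk3

set_option autoImplicit false
open Cfsg

namespace Cfsg.Agent.S2306

open Cfsg.Agent.H4


/-- Over a finite field F, for a multiplicative character α of F, the function induced to SL₂ from the linear character b ↦ α(b₁₁) of the upper triangular subgroup is an irreducible character if and only if α² ≠ 1. -/
theorem result {F : Type*} [Field F] [Fintype F] [DecidableEq F] (α : MulChar F ℂ) :
    Cfsg.IsIrrCharacter (Matrix.SpecialLinearGroup (Fin 2) F) (Cfsg.indFun ((Cfsg.upperTriangularGL 2 F).comap Matrix.SpecialLinearGroup.toGL) (fun b => α (((b : Matrix.SpecialLinearGroup (Fin 2) F) : Matrix (Fin 2) (Fin 2) F) 0 0))) ↔ α ^ 2 ≠ 1 := by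
  classical
  haveI := Fintype.ofFinite (IrrCharacter (Matrix.SpecialLinearGroup (Fin 2) F))
  have h := Cfsg.Agent.LeadBr.sl2_inner α α
  rw [if_pos rfl] at h
  have hiff : α = α⁻¹ ↔ α ^ 2 = 1 := by
    rw [eq_inv_iff_mul_eq_one, pow_two]
  show IsIrrCharacter _ (indFun (Cfsg.Agent.LeadBr.BSL F) (Cfsg.Agent.LeadBr.sFun α)) ↔ _
  rw [isIrrCharacter_iff]
  constructor
  · rintro ⟨_, h1⟩ h2
    rw [h1, if_pos (hiff.mpr h2)] at h
    norm_num at h
  · intro h2
    refine ⟨IsCharacter.ind _ (Cfsg.Agent.LeadBr.sFun_isCharacter α), ?_⟩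
    rw [h, if_neg (fun h3 => h2 (hiff.mp h3)), add_zero]

end Cfsg.Agent.S2306
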