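import Cfsg.Statements.S2329
import Cfsg.Agent.Lib_helper6_SqZero
import Cfsg.Agent.Lib_helper6_RegUnip

set_option autoImplicit false
open Cfsg

namespace Cfsg.Agent.S2329

/-- Over a finite field of characteristic p, any two elements of order p of GL₂ are conjugate: there is a single conjugacy class of non-identity unipotent elements. -/
theorem result {F : Type*} [Field F] [Fintype F] (p : ℕ) [Fact p.Prime] [CharP F p] (g h : Matrix.GeneralLinearGroup (Fin 2) F)
    (hg : orderOf g = p) (hh : orderOf h = p) : IsConj g h := by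
  have key : ∀ c : Matrix.GeneralLinearGroup (Fin 2) F, orderOf c = p →
      ((c : Matrix (Fin 2) (Fin 2) F) - 1) * ((c : Matrix (Fin 2) (Fin 2) F) - 1) = 0 ∧
      ((c : Matrix (Fin 2) (Fin 2) F) - 1).rank = 1 := by
    intro c hc
    have h1 : c ^ p = 1 := by rw [← hc]; exact pow_orderOf_eq_one c
    have h2 : (c : Matrix (Fin 2) (Fin 2) F) ^ p = 1 := by
      have := congrArg (fun x : Matrix.GeneralLinearGroup (Fin 2) F =>
        (x : Matrix (Fin 2) (Fin 2) F)) h1
      simpa using this
    have h3 : ((c : Matrix (Fin 2) (Fin 2) F) - 1) ^ p = 0 := by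
      rw [sub_pow_char_of_commute _ (Commute.one_right _), h2, one_pow, sub_self]
    have h4 : ((c : Matrix (Fin 2) (Fin 2) F) - 1) * ((c : Matrix (Fin 2) (Fin 2) F) - 1) = 0 := by
      apply Matrix.toLin'.injective
      rw [map_zero]
      apply LinearMap.ext
      intro v
      have h5 := H6.pow_finrank_apply_eq_zero
        (Matrix.toLin' ((c : Matrix (Fin 2) (Fin 2) F) - 1)) (n := p)
        (by rw [← Matrix.toLin'_pow, h3, map_zero]) ⊤ (fun _ _ => trivial)
        (w := v) trivial
      rw [finrank_top, Module.finrank_fin_fun, ← Matrix.toLin'_pow, pow_two] at h5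
      exact h5
    refine ⟨h4, ?_⟩
    have h6 := H6.sqzero_two_mul_le (Matrix.toLin' ((c : Matrix (Fin 2) (Fin 2) F) - 1))
      (by rw [Module.End.mul_eq_comp, ← Matrix.toLin'_mul, h4, map_zero])
    rw [H6.finrank_range_toLin', Module.finrank_fin_fun] at h6
    have h7 : ((c : Matrix (Fin 2) (Fin 2) F) - 1).rank ≠ 0 := by
      intro h0
      replace h0 := H6.eq_zero_of_rank_eq_zero _ h0
      have : c = 1 := by
        apply Units.ext
        exact sub_eq_zero.mp h0
      rw [this, orderOf_one] at hc
      exact (Fact.out : p.Prime).one_lt.ne hc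
    omega
  exact H6.GL_isConj_of_sqzero g h (key g hg).1 (key h hh).1 (by rw [(key g hg).2, (key h hh).2])

end Cfsg.Agent.S2329
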