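import Cfsg.Statements.S2368
import Mathlib

set_option autoImplicit false
open Cfsg

namespace Cfsg.Agent.S2368

theorem nilp_pow {F : Type*} [Field F] {m : ℕ} (N : Matrix (Fin m) (Fin m) F) (K : ℕ)
    (h : N ^ K = 0) : N ^ m = 0 := by
  have h1 : N ^ (K + m) = 0 := pow_eq_zero_of_le (Nat.le_add_right _ _) h
  have h2 : Module.finrank F (Fin m → F) = m := by simp
  have h3 := Module.End.ker_pow_eq_ker_pow_finrank_of_le (K := F) (V := Fin m → F)
    (f := Matrix.toLin' N) (m := K + m) (by rw [h2]; omega)
  rw [h2, ← Matrix.toLin'_pow, ← Matrix.toLin'_pow, h1] at h3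
  have h4 : LinearMap.ker (Matrix.toLin' (N ^ m)) = ⊤ := by
    rw [← h3]; simp
  rw [LinearMap.ker_eq_top] at h4
  have h5 : Matrix.toLin' (N ^ m) = Matrix.toLin' (0 : Matrix (Fin m) (Fin m) F) := by
    rw [h4]; simp
  exact Matrix.toLin'.injective h5

/-- the shift matrix -/
def shiftM (F : Type*) [Field F] (m : ℕ) : Matrix (Fin m) (Fin m) F :=
  fun i j => if j.val = i.val + 1 then 1 else 0

theorem shiftM_pow (F : Type*) [Field F] (m k : ℕ) (i j : Fin m) :
    (shiftM F m ^ k) i j = if j.val = i.val + k then 1 else 0 := by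
  induction k generalizing i j with
  | zero =>
    rw [pow_zero, Matrix.one_apply]
    by_cases h : i = j
    · subst h; simp
    · rw [if_neg h, if_neg]
      intro h2
      exact h (Fin.ext (by omega))
  | succ k ih =>
    rw [pow_succ, Matrix.mul_apply]
    by_cases h : j.val = i.val + (k + 1)
    · rw [if_pos h]
      have hl : i.val + k < m := by have := j.2; omega
      rw [Finset.sum_eq_single (⟨i.val + k, hl⟩ : Fin m)]
      · rw [ih, if_pos rfl, one_mul]
        show (if j.val = (i.val + k) + 1 then (1 : F) else 0) = 1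
        rw [if_pos (by omega)]
      · intro b _ hb
        rw [ih, if_neg, zero_mul]
        intro h2
        exact hb (Fin.ext h2)
      · intro h2
        exact absurd (Finset.mem_univ _) h2
    · rw [if_neg h]
      apply Finset.sum_eq_zero
      intro l _
      rw [ih]
      by_cases h2 : l.val = i.val + k
      · have : shiftM F m l j = 0 := by
          show (if j.val = l.val + 1 then (1 : F) else 0) = 0
          rw [if_neg (by omega)]
        rw [this, mul_zero]
      · rw [if_neg h2, zero_mul]

/-- Let F be a finite field of characteristic p and m ≥ 1. Every element of GL(m, F) of p-power order has order less than p·m, and GL(m, F) has an element of p-power order at least m; so the largest order of a p-element of GL(m, F) is the least power of p that is at least m. -/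
theorem result {F : Type*} [Field F] [Fintype F] (p : ℕ) [Fact p.Prime] [CharP F p] (m : ℕ) (hm : 1 ≤ m) :
    (∀ g : Matrix.GeneralLinearGroup (Fin m) F, (∃ j : ℕ, orderOf g = p ^ j) → orderOf g < p * m) ∧
      ∃ g : Matrix.GeneralLinearGroup (Fin m) F, (∃ j : ℕ, orderOf g = p ^ j) ∧ m ≤ orderOf g := by
  classical
  haveI : NeZero m := ⟨by omega⟩
  have hp : p.Prime := Fact.out
  have hclog : m ≤ p ^ Nat.clog p m := Nat.le_pow_clog hp.one_lt m
  have hclog2 : p ^ Nat.clog p m < p * m := by
    rcases Nat.lt_or_ge 1 m with h | h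
    · have h1 := Nat.pow_pred_clog_lt_self hp.one_lt h
      have h2 : 0 < Nat.clog p m := Nat.clog_pos hp.one_lt h
      have h3 : Nat.clog p m = (Nat.clog p m).pred + 1 := by
        rw [Nat.pred_eq_sub_one]; omega
      rw [h3, pow_succ, mul_comm]
      exact Nat.mul_lt_mul_of_pos_left h1 hp.pos
    · have : m = 1 := by omega
      subst this
      simp [Nat.clog_one_right, hp.one_lt]
  constructor
  · rintro g ⟨j, hj⟩
    have h1 : ((g : Matrix (Fin m) (Fin m) F) - 1) ^ p ^ j = 0 := by
      rw [sub_pow_char_pow_of_commute p j (Commute.one_right _), one_pow, ← Units.val_pow_eq_pow_val,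
        ← hj, pow_orderOf_eq_one]
      simp
    have h2 := nilp_pow _ _ h1
    have h3 : ((g : Matrix (Fin m) (Fin m) F) - 1) ^ p ^ Nat.clog p m = 0 :=
      pow_eq_zero_of_le hclog h2
    rw [sub_pow_char_pow_of_commute p _ (Commute.one_right _), one_pow, sub_eq_zero,
      ← Units.val_pow_eq_pow_val] at h3
    have h4 : g ^ p ^ Nat.clog p m = 1 := Units.ext h3
    exact lt_of_le_of_lt (Nat.le_of_dvd (pow_pos hp.pos _) (orderOf_dvd_of_pow_eq_one h4)) hclog2
  · have hdet : (1 + shiftM F m).det ≠ 0 := by
      have h1 : (1 + shiftM F m).det = ∏ i, (1 + shiftM F m) i i := by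
        apply Matrix.det_of_upperTriangular
        intro a b hab
        have hab' : b.val < a.val := hab
        rw [Matrix.add_apply, Matrix.one_apply, if_neg (by rintro rfl; omega)]
        show (0 : F) + (if b.val = a.val + 1 then (1 : F) else 0) = 0
        rw [if_neg (by omega), add_zero]
      rw [h1]
      apply Finset.prod_ne_zero_iff.2
      intro i _
      rw [Matrix.add_apply, Matrix.one_apply, if_pos rfl]
      show (1 : F) + (if i.val = i.val + 1 then (1 : F) else 0) ≠ 0
      rw [if_neg (by omega), add_zero]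
      exact one_ne_zero
    have hpow : ∀ k : ℕ, ((Matrix.GeneralLinearGroup.mkOfDetNeZero _ hdet ^ p ^ k :
        Matrix.GeneralLinearGroup (Fin m) F) : Matrix (Fin m) (Fin m) F) = 1 + shiftM F m ^ p ^ k := by
      intro k
      rw [Units.val_pow_eq_pow_val]
      show (1 + shiftM F m) ^ p ^ k = _
      rw [add_pow_char_pow_of_commute p k (Commute.one_left _), one_pow]
    have hord : orderOf (Matrix.GeneralLinearGroup.mkOfDetNeZero _ hdet) ∣ p ^ Nat.clog p m := by
      apply orderOf_dvd_of_pow_eq_one
      apply Units.ext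
      rw [hpow]
      have : shiftM F m ^ p ^ Nat.clog p m = 0 := by
        ext i j
        rw [shiftM_pow, if_neg]
        · rfl
        · have := j.2; omega
      rw [this, add_zero]; rfl
    obtain ⟨j, -, hj⟩ := (Nat.dvd_prime_pow hp).1 hord
    refine ⟨Matrix.GeneralLinearGroup.mkOfDetNeZero _ hdet, ⟨j, hj⟩, ?_⟩
    by_contra hlt
    push_neg at hlt
    rw [hj] at hlt
    have h1 := hpow j
    rw [← hj, pow_orderOf_eq_one] at h1
    have h2 : shiftM F m ^ orderOf (Matrix.GeneralLinearGroup.mkOfDetNeZero _ hdet) = 0 := by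
      have h3 : ((1 : Matrix.GeneralLinearGroup (Fin m) F) : Matrix (Fin m) (Fin m) F) = 1 := rfl
      rw [h3] at h1
      exact (add_eq_left.1 h1.symm)
    rw [hj] at h2
    have h3 := congrFun (congrFun h2 ⟨0, by omega⟩) ⟨p ^ j, hlt⟩
    rw [shiftM_pow, if_pos (by simp)] at h3
    exact one_ne_zero h3

end Cfsg.Agent.S2368
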