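import Cfsg.Statements.S2428
import Cfsg.Agent.Lib_helper6_SL2NormClasses

set_option autoImplicit false
open Cfsg

namespace Cfsg.Agent.S2428

open H6.GL2C

theorem two_ne_zero_of_odd {F : Type*} [Field F] [Fintype F] (hodd : Odd (Fintype.card F)) :
    (2 : F) ≠ 0 := by
  intro h
  have hchar : ringChar F = 2 := by
    have h' : ((2 : ℕ) : F) = 0 := by exact_mod_cast h
    have := ringChar.dvd h'
    rcases (Nat.dvd_prime Nat.prime_two).mp this with h1 | h1
    · exact absurd h1 (CharP.ringChar_ne_one)
    · exact h1
  have := FiniteField.even_card_iff_char_two.mp hchar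
  rw [Nat.odd_iff] at hodd
  omega

/-- Let F be a finite field with q elements, q odd, and let d be a diagonal element of SL₂ over F whose diagonal entry a has a² ≠ 1 (such d exist exactly when q > 3). Then the centraliser of d is precisely the diagonal subgroup T; the normaliser of T has order 2(q − 1) and exactly (q + 5)/2 conjugacy classes; and every element of that normaliser outside T has square equal to −1. -/
theorem result {F : Type*} [Field F] [Fintype F] (hodd : Odd (Fintype.card F))
    (d : Matrix.SpecialLinearGroup (Fin 2) F) (hd01 : (d : Matrix (Fin 2) (Fin 2) F) 0 1 = 0) (hd10 : (d : Matrix (Fin 2) (Fin 2) F) 1 0 = 0) (hda : (d : Matrix (Fin 2) (Fin 2) F) 0 0 ^ 2 ≠ 1) :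
    (∀ g : Matrix.SpecialLinearGroup (Fin 2) F, g ∈ Subgroup.centralizer ({d} : Set (Matrix.SpecialLinearGroup (Fin 2) F)) ↔ ((g : Matrix (Fin 2) (Fin 2) F) 0 1 = 0 ∧ (g : Matrix (Fin 2) (Fin 2) F) 1 0 = 0)) ∧
    Nat.card (Subgroup.normalizer ((Subgroup.centralizer ({d} : Set (Matrix.SpecialLinearGroup (Fin 2) F))) : Set (Matrix.SpecialLinearGroup (Fin 2) F))) = 2 * (Fintype.card F - 1) ∧
    Nat.card (ConjClasses (Subgroup.normalizer ((Subgroup.centralizer ({d} : Set (Matrix.SpecialLinearGroup (Fin 2) F))) : Set (Matrix.SpecialLinearGroup (Fin 2) F)))) = (Fintype.card F + 5) / 2 ∧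
    ∀ g : Matrix.SpecialLinearGroup (Fin 2) F, g ∈ Subgroup.normalizer ((Subgroup.centralizer ({d} : Set (Matrix.SpecialLinearGroup (Fin 2) F))) : Set (Matrix.SpecialLinearGroup (Fin 2) F)) →
      g ∉ Subgroup.centralizer ({d} : Set (Matrix.SpecialLinearGroup (Fin 2) F)) → ((g * g) : Matrix (Fin 2) (Fin 2) F) = -1 := by
  have h20 := two_ne_zero_of_odd hodd
  have hq : 2 ≤ Fintype.card F := Fintype.one_lt_card
  set a := (d : Matrix (Fin 2) (Fin 2) F) 0 0 with ha
  set e := (d : Matrix (Fin 2) (Fin 2) F) 1 1 with he
  have hae : a * e = 1 := by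
    have := d.2
    rw [Matrix.det_fin_two, hd01, hd10] at this
    linear_combination this
  have hne : a ≠ e := by
    intro h
    apply hda
    rw [sq]
    nth_rewrite 2 [h]
    exact hae
  have hns : NonScalar (d : Matrix (Fin 2) (Fin 2) F) := Or.inr (Or.inr hne)
  have htr : (d : Matrix (Fin 2) (Fin 2) F).trace = a + e := Matrix.trace_fin_two _
  have hreg : ∀ l : F, (d : Matrix (Fin 2) (Fin 2) F).trace = l + l → l * l ≠ 1 := by
    intro l hl hl1
    apply hne
    rw [htr] at hl
    have e1 : (a - e) ^ 2 = 0 := by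
      linear_combination (a + e + l + l) * hl + 4 * hl1 - 4 * hae
    exact sub_eq_zero.mp (pow_eq_zero_iff (by norm_num) |>.mp e1)
  have hx : d ≠ d⁻¹ := by
    intro h
    apply hda
    have h1 : d * d = 1 := by
      nth_rewrite 2 [h]
      exact mul_inv_cancel d
    have h3 := congrFun (congrFun (congrArg Subtype.val h1) 0) 0
    rw [Matrix.SpecialLinearGroup.coe_mul, Matrix.mul_apply, Fin.sum_univ_two, hd01] at h3
    simp at h3
    rw [sq]; exact h3
  have hcardT : Nat.card (Subgroup.centralizer ({d} : Set (Matrix.SpecialLinearGroup (Fin 2) F))) =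
      Fintype.card F - 1 := by
    rw [card_centralizer_SL d hns, htr]
    exact card_nrm_eq_one_split hne hae
  refine ⟨?_, ?_, ?_, ?_⟩
  · intro g
    rw [Subgroup.mem_centralizer_singleton_iff]
    constructor
    · intro h
      have h' : (g : Matrix (Fin 2) (Fin 2) F) * (d : Matrix (Fin 2) (Fin 2) F) =
        (d : Matrix (Fin 2) (Fin 2) F) * (g : Matrix (Fin 2) (Fin 2) F) := congrArg Subtype.val h
      have h01 := congrFun (congrFun h' 0) 1
      have h10 := congrFun (congrFun h' 1) 0
      simp only [Matrix.mul_apply, Fin.sum_univ_two, hd01, hd10] at h01 h10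
      constructor
      · have : (g : Matrix (Fin 2) (Fin 2) F) 0 1 * (a - e) = 0 := by
          linear_combination -h01
        rcases mul_eq_zero.mp this with h | h
        · exact h
        · exact absurd (sub_eq_zero.mp h) hne
      · have : (g : Matrix (Fin 2) (Fin 2) F) 1 0 * (a - e) = 0 := by
          linear_combination h10
        rcases mul_eq_zero.mp this with h | h
        · exact h
        · exact absurd (sub_eq_zero.mp h) hne
    · rintro ⟨h01, h10⟩
      apply Subtype.ext
      rw [Matrix.SpecialLinearGroup.coe_mul, Matrix.SpecialLinearGroup.coe_mul]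
      ext i j
      fin_cases i <;> fin_cases j <;>
        simp [Matrix.mul_apply, Fin.sum_univ_two, hd01, hd10, h01, h10, mul_comm]
  · rw [card_normalizer_centralizer h20 d hns hreg hx, hcardT]
  · have := card_conjClasses_normalizer h20 d hns hreg hx
    rw [hcardT] at this
    omega
  · intro g hg hgT
    have h1 : g * d * g⁻¹ = d⁻¹ := by
      rcases (mem_normalizer_centralizer_iff h20 d hns hreg g).mp hg with h | h
      · exfalso
        apply hgT
        exact Subgroup.mem_centralizer_singleton_iff.mpr (mul_inv_eq_iff_eq_mul.mp h)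
      · exact h
    exact sq_eq_neg_one_of_invert d g hx h1

end Cfsg.Agent.S2428
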