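import Cfsg.Statements.S2429
import Cfsg.Agent.Lib_helper6_SL2NormClasses
import Cfsg.Agent.Lib_helper6_SL2Cover
import Cfsg.Agent.S2428

set_option autoImplicit false
open Cfsg

namespace Cfsg.Agent.S2429

open H6.GL2C

theorem not_isSquare_disc_of_aniso {F : Type*} [Field F] (h2 : (2 : F) ≠ 0) {t : F}
    (h : ∀ a b, nrm t 1 a b = 0 → a = 0 ∧ b = 0) : ¬ IsSquare (t ^ 2 - 4) := by
  rintro ⟨s, hs⟩
  have := h (-(t + s) / 2) 1 (by
    unfold nrm
    field_simp
    linear_combination -hs)
  exact one_ne_zero this.2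

theorem exists_mem_centralizer_trace {F : Type*} [Field F] [Fintype F] (h2 : (2 : F) ≠ 0)
    (x : Matrix.SpecialLinearGroup (Fin 2) F)
    (hx : ∀ a b, nrm (x : Matrix (Fin 2) (Fin 2) F).trace 1 a b = 0 → a = 0 ∧ b = 0) {τ : F}
    (hτ : ∀ a b, nrm τ 1 a b = 0 → a = 0 ∧ b = 0) :
    ∃ y : Matrix.SpecialLinearGroup (Fin 2) F, y * x = x * y ∧
      (y : Matrix (Fin 2) (Fin 2) F).trace = τ := by
  classical
  set t := (x : Matrix (Fin 2) (Fin 2) F).trace with ht
  have h1 := not_isSquare_disc_of_aniso h2 hx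
  have h3 := not_isSquare_disc_of_aniso h2 hτ
  have ht0 : t ^ 2 - 4 ≠ 0 := by
    intro h; apply h1; rw [h]; exact IsSquare.zero
  have hτ0 : τ ^ 2 - 4 ≠ 0 := by
    intro h; apply h3; rw [h]; exact IsSquare.zero
  have hsq : IsSquare ((τ ^ 2 - 4) * (t ^ 2 - 4)) := by
    rw [← quadraticChar_one_iff_isSquare (mul_ne_zero hτ0 ht0), map_mul,
      quadraticChar_neg_one_iff_not_isSquare.mpr h1, quadraticChar_neg_one_iff_not_isSquare.mpr h3]
    norm_num
  obtain ⟨c, hc⟩ := hsq
  set b := c / (t ^ 2 - 4) with hb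
  have hb2 : b ^ 2 * (t ^ 2 - 4) = τ ^ 2 - 4 := by
    rw [hb]
    field_simp
    linear_combination -hc
  have hn : nrm t 1 ((τ - b * t) / 2) b = 1 := by
    unfold nrm
    field_simp
    linear_combination -hb2
  refine ⟨linSL x _ _ hn, ?_, ?_⟩
  · apply Subtype.ext
    exact lin_commute _ _ _
  · show (lin _ _ _).trace = τ
    rw [trace_lin]
    field_simp
    ring

/-- Let F be a finite field with q elements, q odd. Then SL₂ over F contains a cyclic subgroup T′ of order q + 1 (a non-split torus) with the following properties: T′ is its own centraliser, and indeed the centraliser of each element of T′ other than 1 and −1 is exactly T′; every element of SL₂ having no eigenvector in F² is conjugate to an element of T′; the normaliser of T′ has order 2(q + 1) and exactly (q + 7)/2 conjugacy classes; and every element of that normaliser outside T′ has square −1. -/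
theorem result {F : Type*} [Field F] [Fintype F] (hodd : Odd (Fintype.card F)) :
    ∃ T' : Subgroup (Matrix.SpecialLinearGroup (Fin 2) F), IsCyclic T' ∧ Nat.card T' = Fintype.card F + 1 ∧
      Subgroup.centralizer ((T' : Set (Matrix.SpecialLinearGroup (Fin 2) F))) = T' ∧
      (∀ g : Matrix.SpecialLinearGroup (Fin 2) F, g ∈ T' → (g : Matrix (Fin 2) (Fin 2) F) ≠ 1 → (g : Matrix (Fin 2) (Fin 2) F) ≠ -1 → Subgroup.centralizer ({g} : Set (Matrix.SpecialLinearGroup (Fin 2) F)) = T') ∧
      (∀ g : Matrix.SpecialLinearGroup (Fin 2) F, (∀ (c : F) (v : Fin 2 → F), v ≠ 0 → (g : Matrix (Fin 2) (Fin 2) F).mulVec v ≠ c • v) → ∃ h : Matrix.SpecialLinearGroup (Fin 2) F, h * g * h⁻¹ ∈ T') ∧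
      Nat.card (Subgroup.normalizer (T' : Set (Matrix.SpecialLinearGroup (Fin 2) F))) = 2 * (Fintype.card F + 1) ∧
      Nat.card (ConjClasses (Subgroup.normalizer (T' : Set (Matrix.SpecialLinearGroup (Fin 2) F)))) = (Fintype.card F + 7) / 2 ∧
      ∀ g : Matrix.SpecialLinearGroup (Fin 2) F, g ∈ Subgroup.normalizer (T' : Set (Matrix.SpecialLinearGroup (Fin 2) F)) → g ∉ T' → ((g * g) : Matrix (Fin 2) (Fin 2) F) = -1 := by
  have h20 := S2428.two_ne_zero_of_odd hodd
  have hq : 2 ≤ Fintype.card F := Fintype.one_lt_card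
  obtain ⟨t, ht⟩ := exists_aniso (F := F)
  set x := H6.GL2.compSL t with hxdef
  have hxa : ∀ a b, nrm (x : Matrix (Fin 2) (Fin 2) F).trace 1 a b = 0 → a = 0 ∧ b = 0 := by
    rw [hxdef, trace_compSL]; exact ht
  have hns : NonScalar (x : Matrix (Fin 2) (Fin 2) F) := nonScalar_compSL t
  have hreg : ∀ l : F, (x : Matrix (Fin 2) (Fin 2) F).trace = l + l → l * l ≠ 1 := by
    intro l hl hl1
    have := hxa (-l) 1 (by rw [hl]; unfold nrm; linear_combination -hl1)
    exact one_ne_zero this.2
  have hx : x ≠ x⁻¹ := by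
    intro h
    have h1 : x * x = 1 := by
      nth_rewrite 2 [h]
      exact mul_inv_cancel x
    rcases eq_one_or_neg_one_of_sq_eq_one h20 x (congrArg Subtype.val h1) with h | h
    · rcases hns with h' | h' | h' <;> simp [h] at h'
    · rcases hns with h' | h' | h' <;> simp [h] at h'
  have hcardT : Nat.card (Subgroup.centralizer ({x} : Set (Matrix.SpecialLinearGroup (Fin 2) F))) =
      Fintype.card F + 1 := by
    rw [card_centralizer_SL x hns]
    exact card_nrm_eq_one_aniso hxa
  have hxT : x ∈ Subgroup.centralizer ({x} : Set (Matrix.SpecialLinearGroup (Fin 2) F)) :=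
    Subgroup.mem_centralizer_singleton_iff.mpr rfl
  have hTcomm : ∀ a ∈ Subgroup.centralizer ({x} : Set (Matrix.SpecialLinearGroup (Fin 2) F)),
      ∀ b ∈ Subgroup.centralizer ({x} : Set (Matrix.SpecialLinearGroup (Fin 2) F)),
      a * b = b * a := by
    intro a ha b hb
    have ha' : a * x = x * a := Subgroup.mem_centralizer_singleton_iff.mp ha
    have hb' : b * x = x * b := Subgroup.mem_centralizer_singleton_iff.mp hb
    apply Subtype.ext
    exact commute_of_commute_nonScalar hns (congrArg Subtype.val ha') (congrArg Subtype.val hb')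
  refine ⟨Subgroup.centralizer ({x} : Set (Matrix.SpecialLinearGroup (Fin 2) F)),
    isCyclic_centralizer_aniso x hxa, hcardT, ?_, ?_, ?_, ?_, ?_, ?_⟩
  · apply le_antisymm
    · apply Subgroup.centralizer_le
      intro y hy
      rw [Set.mem_singleton_iff] at hy
      rw [hy]; exact hxT
    · intro y hy
      rw [Subgroup.mem_centralizer_iff]
      intro p hp
      exact hTcomm p hp y hy
  · intro g hg hg1 hgm1
    have hgx : g * x = x * g := Subgroup.mem_centralizer_singleton_iff.mp hg
    have hgns : NonScalar (g : Matrix (Fin 2) (Fin 2) F) := by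
      by_contra hns'
      have h1 := eq_smul_one_of_not_nonScalar hns'
      have hdet := g.2
      rw [h1] at hdet
      simp at hdet
      have h3 : (g : Matrix (Fin 2) (Fin 2) F) 0 0 = 1 ∨ (g : Matrix (Fin 2) (Fin 2) F) 0 0 = -1 :=
        hdet
      rcases h3 with h3 | h3
      · apply hg1; rw [h1, h3, one_smul]
      · apply hgm1; rw [h1, h3, neg_smul, one_smul]
    ext y
    rw [Subgroup.mem_centralizer_singleton_iff, Subgroup.mem_centralizer_singleton_iff]
    constructor
    · intro hy
      apply Subtype.ext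
      exact commute_of_commute_nonScalar hgns (congrArg Subtype.val hy)
        (congrArg Subtype.val hgx.symm)
    · intro hy
      apply Subtype.ext
      exact commute_of_commute_nonScalar hns (congrArg Subtype.val hy) (congrArg Subtype.val hgx)
  · intro g hg
    have hga := aniso_of_no_eigenvector hg
    rw [g.2] at hga
    obtain ⟨y, hyx, hyt⟩ := exists_mem_centralizer_trace h20 x hxa hga
    have hya : ∀ a b, nrm (y : Matrix (Fin 2) (Fin 2) F).trace 1 a b = 0 → a = 0 ∧ b = 0 := by
      rw [hyt]; exact hga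
    obtain ⟨h, hh⟩ := isConj_iff.mp (isConj_SL_of_trace_eq g y (nonScalar_of_no_eigenvector hg)
      (nonScalar_of_aniso_trace hya) hyt.symm (exists_nrm_eq hga))
    exact ⟨h, by rw [hh]; exact Subgroup.mem_centralizer_singleton_iff.mpr hyx⟩
  · rw [card_normalizer_centralizer h20 x hns hreg hx, hcardT]
  · have := card_conjClasses_normalizer h20 x hns hreg hx
    rw [hcardT] at this
    omega
  · intro g hg hgT
    have h1 : g * x * g⁻¹ = x⁻¹ := by
      rcases (mem_normalizer_centralizer_iff h20 x hns hreg g).mp hg with h | h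
      · exfalso
        apply hgT
        exact Subgroup.mem_centralizer_singleton_iff.mpr (mul_inv_eq_iff_eq_mul.mp h)
      · exact h
    exact sq_eq_neg_one_of_invert x g hx h1

end Cfsg.Agent.S2429
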