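import Cfsg.Statements.S2430
import Cfsg.Agent.Lib_helper6_SL2Norm

set_option autoImplicit false
open Cfsg

namespace Cfsg.Agent.S2430

open H6.GL2C

theorem exists_central {F : Type*} [Field F] [Fintype F] (ℓ : ℕ) [Fact ℓ.Prime]
    (hℓ : ℓ ≠ 2) (P : Sylow ℓ (Matrix.SpecialLinearGroup (Fin 2) F))
    (hdvd : ℓ ∣ Nat.card (Matrix.SpecialLinearGroup (Fin 2) F)) :
    ∃ x : Matrix.SpecialLinearGroup (Fin 2) F, x ∈ P ∧ (∀ y ∈ P, y * x = x * y) ∧
      NonScalar (x : Matrix (Fin 2) (Fin 2) F) ∧ x ≠ x⁻¹ ∧ ℓ ∣ orderOf x := by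
  have hℓp : ℓ.Prime := Fact.out
  have hne : (P : Subgroup (Matrix.SpecialLinearGroup (Fin 2) F)) ≠ ⊥ := P.ne_bot_of_dvd_card hdvd
  have hnt : Nontrivial (P : Subgroup (Matrix.SpecialLinearGroup (Fin 2) F)) :=
    (Subgroup.nontrivial_iff_ne_bot _).mpr hne
  have hcn := P.isPGroup'.center_nontrivial
  obtain ⟨z, hz⟩ := exists_ne (1 : Subgroup.center
    (P : Subgroup (Matrix.SpecialLinearGroup (Fin 2) F)))
  have hx1 : ((z : (P : Subgroup (Matrix.SpecialLinearGroup (Fin 2) F))) :
      Matrix.SpecialLinearGroup (Fin 2) F) ≠ 1 := by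
    intro h
    apply hz
    apply Subtype.ext
    apply Subtype.ext
    exact h
  set x : Matrix.SpecialLinearGroup (Fin 2) F :=
    ((z : (P : Subgroup (Matrix.SpecialLinearGroup (Fin 2) F))) :
      Matrix.SpecialLinearGroup (Fin 2) F) with hx
  obtain ⟨k, hk⟩ := (IsPGroup.iff_orderOf.mp P.isPGroup')
    (z : (P : Subgroup (Matrix.SpecialLinearGroup (Fin 2) F)))
  replace hk : orderOf x = ℓ ^ k := by rw [hx, Subgroup.orderOf_coe]; exact hk
  have hk0 : k ≠ 0 := by
    rintro rfl
    rw [pow_zero, orderOf_eq_one_iff] at hk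
    exact hx1 hk
  have hsq : x ^ 2 ≠ 1 := by
    intro h
    have h1 := orderOf_dvd_of_pow_eq_one h
    rw [hk] at h1
    have h2 : ℓ ∣ 2 := (dvd_pow_self ℓ hk0).trans h1
    exact hℓ ((Nat.prime_dvd_prime_iff_eq hℓp Nat.prime_two).mp h2)
  refine ⟨x, (z : (P : Subgroup (Matrix.SpecialLinearGroup (Fin 2) F))).2, ?_, ?_, ?_, ?_⟩
  · intro y hy
    have := Subgroup.mem_center_iff.mp z.2 ⟨y, hy⟩
    exact congrArg Subtype.val this
  · by_contra hns
    have hc := (mem_center_iff_not_nonScalar x).mpr hns
    have hcard : Nat.card (Subgroup.center (Matrix.SpecialLinearGroup (Fin 2) F)) ∣ 2 := by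
      rw [H6.card_center_SL_field 2 (by norm_num)]
      exact Nat.gcd_dvd_left _ _
    apply hsq
    have h5 := pow_card_eq_one' (x := (⟨x, hc⟩ :
          Subgroup.center (Matrix.SpecialLinearGroup (Fin 2) F)))
    obtain ⟨j, hj⟩ := hcard
    have h8 : (⟨x, hc⟩ : Subgroup.center (Matrix.SpecialLinearGroup (Fin 2) F)) ^
        (Nat.card (Subgroup.center (Matrix.SpecialLinearGroup (Fin 2) F)) * j) = 1 := by
      rw [pow_mul, h5, one_pow]
    rw [← hj] at h8
    exact congrArg Subtype.val h8
  · intro h
    apply hsq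
    rw [sq]
    nth_rewrite 2 [h]
    exact mul_inv_cancel x
  · rw [hk]; exact dvd_pow_self ℓ hk0

theorem structure_of {F : Type*} [Field F] [Fintype F] (h2 : (2 : F) ≠ 0) (ℓ : ℕ) [Fact ℓ.Prime]
    (P : Sylow ℓ (Matrix.SpecialLinearGroup (Fin 2) F))
    (x : Matrix.SpecialLinearGroup (Fin 2) F) (hxP : x ∈ P) (hxc : ∀ y ∈ P, y * x = x * y)
    (hns : NonScalar (x : Matrix (Fin 2) (Fin 2) F))
    (hreg : ∀ l : F, (x : Matrix (Fin 2) (Fin 2) F).trace = l + l → l * l ≠ 1) :
    Subgroup.centralizer ((P : Subgroup (Matrix.SpecialLinearGroup (Fin 2) F)) :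
      Set (Matrix.SpecialLinearGroup (Fin 2) F)) =
      Subgroup.centralizer ({x} : Set (Matrix.SpecialLinearGroup (Fin 2) F)) ∧
    Subgroup.normalizer ((P : Subgroup (Matrix.SpecialLinearGroup (Fin 2) F)) :
      Set (Matrix.SpecialLinearGroup (Fin 2) F)) =
      Subgroup.normalizer ((Subgroup.centralizer
      ({x} : Set (Matrix.SpecialLinearGroup (Fin 2) F)) :
        Subgroup (Matrix.SpecialLinearGroup (Fin 2) F)) :
        Set (Matrix.SpecialLinearGroup (Fin 2) F)) := by
  set T := Subgroup.centralizer ({x} : Set (Matrix.SpecialLinearGroup (Fin 2) F)) with hT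
  have hPT : (P : Subgroup (Matrix.SpecialLinearGroup (Fin 2) F)) ≤ T := by
    intro y hy
    exact Subgroup.mem_centralizer_singleton_iff.mpr (hxc y hy)
  have hTcomm : ∀ a ∈ T, ∀ b ∈ T, a * b = b * a := by
    intro a ha b hb
    have ha' : a * x = x * a := Subgroup.mem_centralizer_singleton_iff.mp ha
    have hb' : b * x = x * b := Subgroup.mem_centralizer_singleton_iff.mp hb
    apply Subtype.ext
    exact commute_of_commute_nonScalar hns (congrArg Subtype.val ha') (congrArg Subtype.val hb')
  constructor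
  · apply le_antisymm
    · apply Subgroup.centralizer_le
      intro y hy
      rw [Set.mem_singleton_iff] at hy
      rw [hy]; exact hxP
    · intro y hy
      rw [Subgroup.mem_centralizer_iff]
      intro p hp
      exact hTcomm p (hPT hp) y hy
  · ext g
    constructor
    · intro hg
      apply mem_normalizer_centralizer_of
      have h1 : g * x * g⁻¹ ∈ (P : Subgroup (Matrix.SpecialLinearGroup (Fin 2) F)) :=
        (Subgroup.mem_normalizer_iff.mp hg x).mp hxP
      exact eq_or_eq_inv_of_commute_of_trace h2 x _ hns hreg (hxc _ h1) (trace_conj g x)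
    · intro hg
      apply Sylow.smul_eq_iff_mem_normalizer.mp
      have hgP : ((g • P : Sylow ℓ (Matrix.SpecialLinearGroup (Fin 2) F)) :
          Subgroup (Matrix.SpecialLinearGroup (Fin 2) F)) ≤ T := by
        intro y hy
        rw [Sylow.coe_subgroup_smul, Subgroup.mem_smul_pointwise_iff_exists] at hy
        obtain ⟨p, hp, rfl⟩ := hy
        exact (Subgroup.mem_normalizer_iff.mp hg p).mp (hPT hp)
      have hnorm : ((P.subtype hPT : Sylow ℓ T) : Subgroup T).Normal := by
        constructor
        intro n hn t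
        have : t * n * t⁻¹ = n := by
          rw [mul_inv_eq_iff_eq_mul]
          exact Subtype.ext (hTcomm t t.2 n n.2)
        rwa [this]
      have huniq := Sylow.unique_of_normal (P.subtype hPT) hnorm
      exact Sylow.subtype_injective (hP := hgP) (hQ := hPT) (Subsingleton.elim _ _)

/-- Let F be a finite field with q elements, q odd, ℓ an odd prime, and P a Sylow ℓ-subgroup of SL₂ over F. If ℓ divides q − 1, the centraliser of P is cyclic of order q − 1 (a split torus) and the normaliser of P has order 2(q − 1); if ℓ divides q + 1, the centraliser of P is cyclic of order q + 1 (a non-split torus) and the normaliser of P has order 2(q + 1). -/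
theorem result {F : Type*} [Field F] [Fintype F] (hodd : Odd (Fintype.card F)) (ℓ : ℕ) [Fact ℓ.Prime] (hℓ : ℓ ≠ 2)
    (P : Sylow ℓ (Matrix.SpecialLinearGroup (Fin 2) F)) :
    (ℓ ∣ Fintype.card F - 1 →
      Nat.card (Subgroup.centralizer ((P : Subgroup (Matrix.SpecialLinearGroup (Fin 2) F)) : Set (Matrix.SpecialLinearGroup (Fin 2) F))) = Fintype.card F - 1 ∧
      IsCyclic (Subgroup.centralizer ((P : Subgroup (Matrix.SpecialLinearGroup (Fin 2) F)) : Set (Matrix.SpecialLinearGroup (Fin 2) F))) ∧
      Nat.card (Subgroup.normalizer ((P : Subgroup (Matrix.SpecialLinearGroup (Fin 2) F)) : Set (Matrix.SpecialLinearGroup (Fin 2) F))) = 2 * (Fintype.card F - 1)) ∧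
    (ℓ ∣ Fintype.card F + 1 →
      Nat.card (Subgroup.centralizer ((P : Subgroup (Matrix.SpecialLinearGroup (Fin 2) F)) : Set (Matrix.SpecialLinearGroup (Fin 2) F))) = Fintype.card F + 1 ∧
      IsCyclic (Subgroup.centralizer ((P : Subgroup (Matrix.SpecialLinearGroup (Fin 2) F)) : Set (Matrix.SpecialLinearGroup (Fin 2) F))) ∧
      Nat.card (Subgroup.normalizer ((P : Subgroup (Matrix.SpecialLinearGroup (Fin 2) F)) : Set (Matrix.SpecialLinearGroup (Fin 2) F))) = 2 * (Fintype.card F + 1)) := by
  have hℓp : ℓ.Prime := Fact.out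
  have h20 : (2 : F) ≠ 0 := by
    intro h
    have hchar : ringChar F = 2 := by
      have h' : ((2 : ℕ) : F) = 0 := by exact_mod_cast h
      have := ringChar.dvd h'
      rcases (Nat.dvd_prime Nat.prime_two).mp this with h1 | h1
      · exact absurd h1 (CharP.ringChar_ne_one)
      · exact h1
    have := FiniteField.even_card_iff_char_two.mp hchar
    rw [Nat.odd_iff] at hodd
    omega
  have hq : 2 ≤ Fintype.card F := Fintype.one_lt_card
  have hnot2 : ¬ ℓ ∣ 2 := fun h => hℓ ((Nat.prime_dvd_prime_iff_eq hℓp Nat.prime_two).mp h)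
  have hnot1 : ¬ ℓ ∣ 1 := fun h => hℓp.one_lt.ne' (Nat.dvd_one.mp h)
  have hcardG : Nat.card (Matrix.SpecialLinearGroup (Fin 2) F) =
      Fintype.card F * ((Fintype.card F + 1) * (Fintype.card F - 1)) := by
    rw [card_SL2, sq_sub_one_eq _ (by omega)]
  have hmain : ∀ x : Matrix.SpecialLinearGroup (Fin 2) F, x ∈ P → (∀ y ∈ P, y * x = x * y) →
      NonScalar (x : Matrix (Fin 2) (Fin 2) F) → x ≠ x⁻¹ →
      (∀ l : F, (x : Matrix (Fin 2) (Fin 2) F).trace = l + l → l * l ≠ 1) →
      IsCyclic (Subgroup.centralizer ({x} : Set (Matrix.SpecialLinearGroup (Fin 2) F))) →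
      ∀ N, Nat.card (Subgroup.centralizer ({x} : Set (Matrix.SpecialLinearGroup (Fin 2) F))) = N →
      Nat.card (Subgroup.centralizer ((P : Subgroup (Matrix.SpecialLinearGroup (Fin 2) F)) : Set (Matrix.SpecialLinearGroup (Fin 2) F))) = N ∧
      IsCyclic (Subgroup.centralizer ((P : Subgroup (Matrix.SpecialLinearGroup (Fin 2) F)) : Set (Matrix.SpecialLinearGroup (Fin 2) F))) ∧
      Nat.card (Subgroup.normalizer ((P : Subgroup (Matrix.SpecialLinearGroup (Fin 2) F)) : Set (Matrix.SpecialLinearGroup (Fin 2) F))) = 2 * N := by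
    intro x hxP hxc hns hxinv hreg hcyc N hN
    obtain ⟨h1, h3⟩ := structure_of h20 ℓ P x hxP hxc hns hreg
    rw [h1, h3, card_normalizer_centralizer h20 x hns hreg hxinv, hN]
    exact ⟨rfl, hcyc, rfl⟩
  have hdvdT : ∀ x : Matrix.SpecialLinearGroup (Fin 2) F, ℓ ∣ orderOf x →
      ℓ ∣ Nat.card (Subgroup.centralizer ({x} : Set (Matrix.SpecialLinearGroup (Fin 2) F))) := by
    intro x hx
    have hmem : x ∈ Subgroup.centralizer ({x} : Set (Matrix.SpecialLinearGroup (Fin 2) F)) :=
      Subgroup.mem_centralizer_singleton_iff.mpr rfl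
    have := orderOf_dvd_natCard (⟨x, hmem⟩ : Subgroup.centralizer
      ({x} : Set (Matrix.SpecialLinearGroup (Fin 2) F)))
    rw [Subgroup.orderOf_mk] at this
    exact hx.trans this
  constructor
  · intro hdvd
    obtain ⟨x, hxP, hxc, hns, hxinv, hord⟩ := exists_central ℓ hℓ P (by
      rw [hcardG]
      exact (hdvd.mul_left _).mul_left _)
    have hT := hdvdT x hord
    rw [card_centralizer_SL x hns] at hT
    rcases split_or_aniso (x : Matrix (Fin 2) (Fin 2) F).trace 1 with ⟨l, m, ht, hd⟩ | h
    · by_cases hlm : l = m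
      · exfalso
        subst hlm
        rw [ht, card_nrm_eq_one_double hd.symm, card_sq_eq_one_odd h20] at hT
        have h3 : ℓ ∣ Fintype.card F := by
          rcases (Nat.Prime.dvd_mul hℓp).mp hT with h | h
          · exact absurd h hnot2
          · exact h
        apply hnot1
        have := Nat.dvd_sub h3 hdvd
        rwa [show Fintype.card F - (Fintype.card F - 1) = 1 by omega] at this
      · refine hmain x hxP hxc hns hxinv ?_ (isCyclic_centralizer_split x hns ht hd.symm hlm) _ ?_
        · intro l' hl' hl'1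
          -- both (l, m) and (l', l') are root pairs
          apply hlm
          have e1 : (l - l') ^ 2 = 0 := by
            have : l + m = l' + l' := by rw [← ht, hl']
            have hm : m = l' + l' - l := by linear_combination this
            rw [hm] at hd
            linear_combination hl'1 + hd
          have e2 : l = l' := sub_eq_zero.mp (pow_eq_zero_iff (by norm_num) |>.mp e1)
          have : l + m = l' + l' := by rw [← ht, hl']
          rw [e2] at this ⊢
          linear_combination -this
        · rw [card_centralizer_SL x hns, ht]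
          exact card_nrm_eq_one_split hlm hd.symm
    · exfalso
      rw [card_nrm_eq_one_aniso h] at hT
      apply hnot2
      have := Nat.dvd_sub hT hdvd
      rwa [show Fintype.card F + 1 - (Fintype.card F - 1) = 2 by omega] at this
  · intro hdvd
    obtain ⟨x, hxP, hxc, hns, hxinv, hord⟩ := exists_central ℓ hℓ P (by
      rw [hcardG]
      exact (hdvd.mul_right _).mul_left _)
    have hT := hdvdT x hord
    rw [card_centralizer_SL x hns] at hT
    rcases split_or_aniso (x : Matrix (Fin 2) (Fin 2) F).trace 1 with ⟨l, m, ht, hd⟩ | h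
    · exfalso
      by_cases hlm : l = m
      · subst hlm
        rw [ht, card_nrm_eq_one_double hd.symm, card_sq_eq_one_odd h20] at hT
        have h3 : ℓ ∣ Fintype.card F := by
          rcases (Nat.Prime.dvd_mul hℓp).mp hT with h | h
          · exact absurd h hnot2
          · exact h
        apply hnot1
        have := Nat.dvd_sub hdvd h3
        rwa [show Fintype.card F + 1 - Fintype.card F = 1 by omega] at this
      · rw [ht, card_nrm_eq_one_split hlm hd.symm] at hT
        apply hnot2
        have := Nat.dvd_sub hdvd hT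
        rwa [show Fintype.card F + 1 - (Fintype.card F - 1) = 2 by omega] at this
    · refine hmain x hxP hxc hns hxinv ?_ (isCyclic_centralizer_aniso x h) _ ?_
      · intro l' hl' hl'1
        have := (h (-l') 1 (by rw [hl']; unfold nrm; linear_combination -hl'1)).2
        exact one_ne_zero this
      · rw [card_centralizer_SL x hns]
        exact card_nrm_eq_one_aniso h

end Cfsg.Agent.S2430
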