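import Cfsg.Statements.S2540
import Cfsg.Agent.S2578
import Cfsg.Agent.S0249
import Cfsg.Agent.Lib_helper6_SLn

set_option autoImplicit false
open Cfsg

namespace Cfsg.Agent.S2540

open scoped commutatorElement
theorem normalized_dichotomy {S Γ : Type*} [Group S] [Group Γ] (ι : S →* Γ)
    (hι : Function.Injective ι) (hn : ι.range.Normal)
    (hperf : commutator S = ⊤) (hsimple : IsSimpleGroup (S ⧸ Subgroup.center S))
    (H : Subgroup Γ) (hH : ∀ s : S, ∀ g ∈ H, ι s * g * (ι s)⁻¹ ∈ H) :
    H ≤ Subgroup.centralizer (ι.range : Set Γ) ∨ ι.range ≤ H := by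
  have hH₀n : (H.comap ι).Normal := by
    constructor
    intro a ha s
    rw [Subgroup.mem_comap] at ha ⊢
    rw [map_mul, map_mul, map_inv]
    exact hH s _ ha
  have hmapn : ((H.comap ι).map (QuotientGroup.mk' (Subgroup.center S))).Normal :=
    hH₀n.map _ (QuotientGroup.mk'_surjective _)
  rcases hmapn.eq_bot_or_eq_top with hbot | htop
  · left
    have hle : H.comap ι ≤ Subgroup.center S := by
      rw [(Subgroup.map_eq_bot_iff _), QuotientGroup.ker_mk'] at hbot
      exact hbot
    have hK : ⁅ι.range, H⁆ ≤ Subgroup.centralizer (ι.range : Set Γ) := by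
      rw [Subgroup.commutator_le]
      rintro _ ⟨s, rfl⟩ h hh
      have h1 : ⁅ι s, h⁆ ∈ H := by
        rw [commutatorElement_def]
        exact H.mul_mem (hH s h hh) (H.inv_mem hh)
      have h2 : ⁅ι s, h⁆ ∈ ι.range := by
        rw [commutatorElement_def, mul_assoc, mul_assoc]
        refine ι.range.mul_mem ⟨s, rfl⟩ ?_
        rw [← mul_assoc]
        exact hn.conj_mem _ (ι.range.inv_mem ⟨s, rfl⟩) h
      obtain ⟨z, hz⟩ := h2
      have hz0 : z ∈ Subgroup.center S := hle (by rw [Subgroup.mem_comap, hz]; exact h1)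
      rw [← hz, Subgroup.mem_centralizer_iff]
      rintro _ ⟨t, rfl⟩
      rw [← map_mul, ← map_mul, (Subgroup.mem_center_iff.mp hz0 t)]
    have e1 : ⁅⁅ι.range, H⁆, ι.range⁆ = ⊥ := Subgroup.commutator_eq_bot_iff_le_centralizer.mpr hK
    have e2 : ⁅⁅H, ι.range⁆, ι.range⁆ = ⊥ := by rw [Subgroup.commutator_comm H]; exact e1
    have e3 := Subgroup.commutator_commutator_eq_bot_of_rotate e1 e2
    have e4 : ⁅ι.range, ι.range⁆ = ι.range := by
      rw [MonoidHom.range_eq_map, ← Subgroup.map_commutator]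
      congr 1
    rw [e4, Subgroup.commutator_comm] at e3
    exact Subgroup.commutator_eq_bot_iff_le_centralizer.mp e3
  · right
    have hall : H.comap ι = ⊤ := by
      rw [eq_top_iff, ← hperf, commutator_def, Subgroup.commutator_le]
      intro a _ b _
      have ha : QuotientGroup.mk' (Subgroup.center S) a ∈
          (H.comap ι).map (QuotientGroup.mk' (Subgroup.center S)) := by rw [htop]; trivial
      obtain ⟨h, hh, hha⟩ := ha
      have hz : h⁻¹ * a ∈ Subgroup.center S := QuotientGroup.eq.mp hha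
      have hcomm := Subgroup.mem_center_iff.mp hz b
      have e : ⁅a, b⁆ = h * (b * h⁻¹ * b⁻¹) := by
        have ha' : a = h * (h⁻¹ * a) := by group
        rw [commutatorElement_def]
        calc a * b * a⁻¹ * b⁻¹ = h * ((h⁻¹ * a) * b) * a⁻¹ * b⁻¹ := by group
          _ = h * (b * (h⁻¹ * a)) * a⁻¹ * b⁻¹ := by rw [hcomm]
          _ = h * (b * h⁻¹ * b⁻¹) := by group
      rw [e]
      exact (H.comap ι).mul_mem hh (hH₀n.conj_mem _ ((H.comap ι).inv_mem hh) b)
    rintro _ ⟨s, rfl⟩
    have : s ∈ H.comap ι := by rw [hall]; trivial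
    exact this

/-- Let F be a finite field and n ≥ 1, excluding the case n = 2 with #F ≤ 3. A subgroup of GL_n(F) that is normalized by every element of SL_n(F) either consists of scalar matrices or contains SL_n(F). -/
theorem result {F : Type*} [Field F] [Fintype F] (n : ℕ) (hn : 1 ≤ n) (hex : ¬ (n = 2 ∧ Fintype.card F ≤ 3)) (G : Subgroup (Matrix.GeneralLinearGroup (Fin n) F)) (hG : ∀ s : Matrix.SpecialLinearGroup (Fin n) F, ∀ g ∈ G, (Matrix.SpecialLinearGroup.toGL s) * g * (Matrix.SpecialLinearGroup.toGL s)⁻¹ ∈ G) : (∀ g ∈ G, ∃ c : F, (g : Matrix (Fin n) (Fin n) F) = c • (1 : Matrix (Fin n) (Fin n) F)) ∨ (Matrix.SpecialLinearGroup.toGL : Matrix.SpecialLinearGroup (Fin n) F →* _).range ≤ G := by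
  classical
  rcases Nat.lt_or_ge n 2 with h1 | h2
  · left
    obtain rfl : n = 1 := by omega
    intro g _
    refine ⟨(g : Matrix (Fin 1) (Fin 1) F) 0 0, ?_⟩
    ext i j
    have hi : i = 0 := Subsingleton.elim _ _
    have hj : j = 0 := Subsingleton.elim _ _
    rw [hi, hj]
    simp
  have hnorm : (Matrix.SpecialLinearGroup.toGL :
      Matrix.SpecialLinearGroup (Fin n) F →* GL (Fin n) F).range.Normal := by
    constructor
    rintro _ ⟨s, rfl⟩ g
    exact ⟨Cfsg.Agent.S2578.conjSL g s, Cfsg.Agent.S2578.toGL_conjSL g s⟩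
  have hps : commutator (Matrix.SpecialLinearGroup (Fin n) F) = ⊤ ∧
      IsSimpleGroup (Matrix.SpecialLinearGroup (Fin n) F ⧸
        Subgroup.center (Matrix.SpecialLinearGroup (Fin n) F)) := by
    rcases Nat.lt_or_ge n 3 with h3 | h3
    · obtain rfl : n = 2 := by omega
      have hc : 4 ≤ Fintype.card F := by
        by_contra h
        exact hex ⟨rfl, by omega⟩
      have hF : ∃ a : F, a ≠ 0 ∧ a ^ 2 ≠ 1 := by
        obtain ⟨x, hx⟩ : IsCyclic Fˣ := by infer_instance
        refine ⟨x, Units.ne_zero x, fun h => ?_⟩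
        have h5 : orderOf x ≤ 2 := orderOf_le_of_pow_eq_one zero_lt_two (Units.ext <| by simpa using h)
        rw [orderOf_eq_card_of_forall_mem_zpowers hx, Nat.card_units, Nat.card_eq_fintype_card] at h5
        omega
      obtain ⟨a, ha, hasq⟩ := hF
      exact ⟨Matrix.SL2.commutator_eq_top ha hasq,
        Matrix.ProjectiveSpecialLinearGroup.rank_two_simple' ⟨a, ha, hasq⟩⟩
    · exact ⟨H6.commutator_SL_eq_top_of_three_le (by simpa using h3),
        Cfsg.Agent.S0249.result n h3⟩
  rcases normalized_dichotomy Matrix.SpecialLinearGroup.toGL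
    Matrix.SpecialLinearGroup.toGL_injective hnorm hps.1 hps.2 G hG with h | h
  · left
    intro g hg
    have hcen := h hg
    rw [Subgroup.mem_centralizer_iff] at hcen
    have hsc : (g : Matrix (Fin n) (Fin n) F) ∈ Set.range (Matrix.scalar (Fin n)) := by
      apply Matrix.mem_range_scalar_of_commute_transvectionStruct
      intro t
      obtain ⟨s, hs⟩ : ∃ s : Matrix.SpecialLinearGroup (Fin n) F,
          (s : Matrix (Fin n) (Fin n) F) = t.toMatrix := ⟨⟨t.toMatrix, t.det⟩, rfl⟩
      have h5 := hcen (Matrix.SpecialLinearGroup.toGL s) ⟨s, rfl⟩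
      have h6 := congrArg (fun x : GL (Fin n) F => (x : Matrix (Fin n) (Fin n) F)) h5
      simp only [Units.val_mul, Matrix.SpecialLinearGroup.coe_GL_coe_matrix, hs] at h6
      exact h6
    obtain ⟨c, hc⟩ := hsc
    refine ⟨c, ?_⟩
    rw [← hc, Matrix.scalar_apply, Matrix.smul_one_eq_diagonal]
  · right
    exact h

end Cfsg.Agent.S2540
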