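import Cfsg.Statements.S2541
import Mathlib

set_option autoImplicit false
open Cfsg

namespace Cfsg.Agent.S2541

theorem no8 (σ : Equiv.Perm (Fin 6)) : orderOf σ ≠ 8 := by
  intro h
  have h4 : orderOf σ ∣ 4 := by
    rw [← Equiv.Perm.lcm_cycleType, Multiset.lcm_dvd]
    intro n hn
    have h1 : n ∣ 8 := h ▸ Equiv.Perm.dvd_of_mem_cycleType hn
    have h2 : n ≤ 6 := by
      have := Equiv.Perm.le_card_support_of_mem_cycleType hn
      have h3 := σ.support.card_le_univ
      simp at h3; omega
    interval_cases n <;> omega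
  rw [h] at h4; omega


/-- Let F be a field with 9 elements. The symmetric group S_6 is not isomorphic to PGL_2(F) (although both have index-2 subgroups isomorphic to A_6). -/
theorem result {F : Type*} [Field F] [Fintype F] (hF : Fintype.card F = 9) : ¬ Nonempty (Equiv.Perm (Fin 6) ≃* Matrix.ProjGenLinGroup (Fin 2) F) := by
  classical
  rintro ⟨e⟩
  obtain ⟨ζ, hζ⟩ := IsCyclic.exists_generator (α := Fˣ)
  have hord : orderOf ζ = 8 := by
    rw [orderOf_eq_card_of_forall_mem_zpowers hζ, Nat.card_eq_fintype_card, Fintype.card_units, hF]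
  let D : Fˣ →* Matrix.GeneralLinearGroup (Fin 2) F :=
    Units.map ((Matrix.diagonalRingHom (Fin 2) F).toMonoidHom.comp (MonoidHom.mulSingle (fun _ => F) 0))
  have hD : ∀ (u : Fˣ) (i j : Fin 2), ((D u : Matrix.GeneralLinearGroup (Fin 2) F) : Matrix (Fin 2) (Fin 2) F) i j
      = Matrix.diagonal (Pi.mulSingle (0 : Fin 2) (u : F)) i j := fun u i j => rfl
  have hinj : Function.Injective (Matrix.ProjGenLinGroup.mk.comp D) := by
    rw [injective_iff_map_eq_one]
    intro u hu
    rw [MonoidHom.comp_apply, Matrix.ProjGenLinGroup.mk_eq_one,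
      Matrix.GeneralLinearGroup.center_eq_range_scalar] at hu
    obtain ⟨v, hv⟩ := hu
    have h00 := congrArg (fun M : Matrix.GeneralLinearGroup (Fin 2) F => (M : Matrix (Fin 2) (Fin 2) F) 0 0) hv
    have h11 := congrArg (fun M : Matrix.GeneralLinearGroup (Fin 2) F => (M : Matrix (Fin 2) (Fin 2) F) 1 1) hv
    simp only [hD] at h00 h11
    simp at h00 h11
    ext
    rw [← h00, h11]
  have h8 : orderOf (Matrix.ProjGenLinGroup.mk.comp D ζ) = 8 := by
    rw [orderOf_injective _ hinj, hord]
  apply no8 (e.symm (Matrix.ProjGenLinGroup.mk.comp D ζ))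
  rw [MulEquiv.orderOf_eq, h8]

end Cfsg.Agent.S2541
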