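import Cfsg.Statements.S2550
import Cfsg.Agent.S0819
import Cfsg.Agent.Lib_helper6_SLCard

set_option autoImplicit false
open Cfsg

namespace Cfsg.Agent.S2550

def compA (F : Type*) [Field F] : Matrix (Fin 4) (Fin 4) F :=
  !![0,0,0,1; 1,0,0,1; 0,1,0,0; 0,0,1,0]

theorem compA_sq (F : Type*) [Field F] : compA F ^ 2 = !![0,0,1,0; 0,0,1,1; 1,0,0,1; 0,1,0,0] := by
  rw [pow_two]
  ext i j
  fin_cases i <;> fin_cases j <;> simp [compA, Matrix.mul_apply, Fin.sum_univ_four]

theorem compA_pow4 (F : Type*) [Field F] : compA F ^ 4 = compA F + 1 := by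
  have h : compA F ^ 4 = (compA F ^ 2) ^ 2 := by rw [← pow_mul]
  rw [h, compA_sq, pow_two]
  ext i j
  fin_cases i <;> fin_cases j <;> simp [compA, Matrix.mul_apply, Fin.sum_univ_four, Matrix.one_apply]

open Polynomial in
theorem compA_pow15 (F : Type*) [Field F] (h2 : (2 : F) = 0) : compA F ^ 15 = 1 := by
  have h2' : (2 : F[X]) = 0 := by
    rw [show (2 : F[X]) = C 2 from (map_ofNat C 2).symm, h2, map_zero]
  have hid : (X : F[X]) ^ 15 - 1 = (X ^ 4 - X - 1) *
      (3 + 3 * X + X ^ 2 + X ^ 3 + 2 * X ^ 4 + X ^ 5 + X ^ 7 + X ^ 8 + X ^ 11) := by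
    linear_combination (1 + 3 * X + 2 * X ^ 2 + X ^ 3) * h2'
  have h := congrArg (aeval (compA F)) hid
  have h0 : aeval (compA F) ((X : F[X]) ^ 4 - X - 1) = 0 := by
    simp only [map_sub, map_pow, aeval_X, map_one]
    rw [compA_pow4]
    abel
  rw [map_mul, h0, zero_mul] at h
  simp only [map_sub, map_pow, aeval_X, map_one] at h
  exact sub_eq_zero.mp h

theorem compA_pow3_apply (F : Type*) [Field F] : (compA F ^ 3) 3 0 = 1 := by
  rw [pow_succ, compA_sq]
  simp [compA, Matrix.mul_apply, Fin.sum_univ_four]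

theorem compA_pow5_apply (F : Type*) [Field F] : (compA F ^ 5) 1 0 = 1 := by
  rw [pow_succ, compA_pow4]
  simp [compA, Matrix.mul_apply, Fin.sum_univ_four, Matrix.one_apply, Matrix.add_apply]

theorem exists_orderOf_15 {F : Type*} [Field F] [Fintype F] (hF : Fintype.card F = 2) :
    ∃ x : Matrix.ProjectiveSpecialLinearGroup (Fin 4) F, orderOf x = 15 := by
  classical
  have h2 : (2 : F) = 0 := by
    have h : ((2 : ℕ) : F) = 0 := by rw [← hF]; exact Nat.cast_card_eq_zero F
    exact_mod_cast h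
  have hall : ∀ a : F, a ≠ 0 → a = 1 := by
    intro a ha
    have := FiniteField.pow_card_sub_one_eq_one a ha
    rw [hF] at this
    simpa using this
  have hdet : (compA F).det = 1 := by
    apply hall
    intro h0
    have := congrArg Matrix.det (compA_pow15 F h2)
    rw [Matrix.det_pow, h0] at this
    simp at this
  obtain ⟨s, hs⟩ : ∃ s : Matrix.SpecialLinearGroup (Fin 4) F,
      (s : Matrix (Fin 4) (Fin 4) F) = compA F := ⟨⟨_, hdet⟩, rfl⟩
  have hns : ∀ (k : ℕ) (i j : Fin 4), i ≠ j → (compA F ^ k) i j = 1 →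
      (QuotientGroup.mk s : Matrix.ProjectiveSpecialLinearGroup (Fin 4) F) ^ k ≠ 1 := by
    intro k i j hij hk h1
    rw [← QuotientGroup.mk_pow] at h1
    have hmem := (QuotientGroup.eq_one_iff _).mp h1
    rw [Matrix.SpecialLinearGroup.mem_center_iff] at hmem
    obtain ⟨c, -, hc⟩ := hmem
    rw [Matrix.SpecialLinearGroup.coe_pow, hs] at hc
    rw [← hc] at hk
    simp [Matrix.scalar_apply, Matrix.diagonal_apply_ne _ hij] at hk
  refine ⟨QuotientGroup.mk s, ?_⟩
  apply orderOf_eq_of_pow_and_pow_div_prime (by norm_num)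
  · rw [← QuotientGroup.mk_pow]
    have : s ^ 15 = 1 := by
      apply Subtype.ext
      rw [Matrix.SpecialLinearGroup.coe_pow, hs, compA_pow15 F h2]
      rfl
    rw [this]
    rfl
  · intro p hp hpd
    have hp' : p = 3 ∨ p = 5 := by
      have h15 : (15 : ℕ) = 3 * 5 := by norm_num
      rw [h15] at hpd
      rcases (Nat.Prime.dvd_mul hp).mp hpd with h | h
      · left; exact (Nat.prime_dvd_prime_iff_eq hp (by norm_num)).mp h
      · right; exact (Nat.prime_dvd_prime_iff_eq hp (by norm_num)).mp h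
    rcases hp' with rfl | rfl
    · exact hns 5 1 0 (by decide) (compA_pow5_apply F)
    · exact hns 3 3 0 (by decide) (compA_pow3_apply F)

/-- Let F be a field with 2 elements and K a field with 4 elements. PSL_4(F) and PSL_3(K) have the same order (20160) but are not isomorphic. -/
theorem result {F K : Type*} [Field F] [Fintype F] [Field K] [Fintype K] (hF : Fintype.card F = 2) (hK : Fintype.card K = 4) : Nat.card (Matrix.ProjectiveSpecialLinearGroup (Fin 4) F) = Nat.card (Matrix.ProjectiveSpecialLinearGroup (Fin 3) K) ∧ ¬ Nonempty (Matrix.ProjectiveSpecialLinearGroup (Fin 4) F ≃* Matrix.ProjectiveSpecialLinearGroup (Fin 3) K) := by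
  constructor
  · have h1 := H6.card_PSL_field (F := F) 4 (by norm_num)
    have h2 := H6.card_PSL_field (F := K) 3 (by norm_num)
    rw [hF] at h1
    rw [hK] at h2
    simp [Fin.prod_univ_succ] at h1 h2
    omega
  · rintro ⟨e⟩
    obtain ⟨x, hx⟩ := exists_orderOf_15 hF
    exact Cfsg.Agent.S0819.result hK (e x) (by rw [MulEquiv.orderOf_eq]; exact hx)

end Cfsg.Agent.S2550
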