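import Cfsg.Statements.S2552
import Mathlib

set_option autoImplicit false
open Cfsg

namespace Cfsg.Agent.S2552

theorem exists_equiv_map_le {F V : Type*} [Field F] [AddCommGroup V] [Module F V]
    [FiniteDimensional F V] (U₁ U₂ : Submodule F V)
    (h : Module.finrank F U₁ = Module.finrank F U₂) :
    ∃ e : V ≃ₗ[F] V, ∀ x ∈ U₁, e x ∈ U₂ := by
  obtain ⟨W₁, hW₁⟩ := Submodule.exists_isCompl U₁
  obtain ⟨W₂, hW₂⟩ := Submodule.exists_isCompl U₂
  have h1 := Submodule.finrank_add_eq_of_isCompl hW₁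
  have h2 := Submodule.finrank_add_eq_of_isCompl hW₂
  have hW : Module.finrank F W₁ = Module.finrank F W₂ := by omega
  let eU : U₁ ≃ₗ[F] U₂ := LinearEquiv.ofFinrankEq _ _ h
  let eW : W₁ ≃ₗ[F] W₂ := LinearEquiv.ofFinrankEq _ _ hW
  refine ⟨(Submodule.prodEquivOfIsCompl U₁ W₁ hW₁).symm ≪≫ₗ (eU.prodCongr eW) ≪≫ₗ
    (Submodule.prodEquivOfIsCompl U₂ W₂ hW₂), ?_⟩
  intro x hx
  have h3 := Submodule.prodEquivOfIsCompl_symm_apply_left U₁ W₁ hW₁ (⟨x, hx⟩ : U₁)
  simp only [LinearEquiv.trans_apply]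
  simp only [] at h3
  rw [h3, Submodule.coe_prodEquivOfIsCompl']
  simp

/-- Let F be a finite field and n ≥ 1. For every k, the special linear group SL_n(F) acts transitively on the set of k-dimensional subspaces of F^n: any two subspaces of the same dimension are carried onto each other by some matrix of determinant 1. -/
theorem result {F : Type*} [Field F] [Fintype F] (n : ℕ) (hn : 1 ≤ n) (U₁ U₂ : Submodule F (Fin n → F)) (h : Module.finrank F U₁ = Module.finrank F U₂) : ∃ g : Matrix.SpecialLinearGroup (Fin n) F, U₁.map ((Matrix.SpecialLinearGroup.toLin' g : (Fin n → F) ≃ₗ[F] (Fin n → F)) : (Fin n → F) →ₗ[F] (Fin n → F)) = U₂ := by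
  classical
  by_cases hU : U₁ = ⊥
  · refine ⟨1, ?_⟩
    subst hU
    rw [finrank_bot] at h
    have h2 : U₂ = ⊥ := Submodule.finrank_eq_zero.mp h.symm
    rw [h2, Submodule.map_bot]
  obtain ⟨v, hv, hv0⟩ := (Submodule.ne_bot_iff _).mp hU
  obtain ⟨j, hj⟩ : ∃ j, v j ≠ 0 := by
    by_contra hcon
    push Not at hcon
    exact hv0 (funext hcon)
  obtain ⟨e, he⟩ := exists_equiv_map_le U₁ U₂ h
  set E : Matrix (Fin n) (Fin n) F := LinearMap.toMatrix' (e : (Fin n → F) →ₗ[F] (Fin n → F)) with hE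
  have hEdet : E.det ≠ 0 := by
    rw [hE, LinearMap.det_toMatrix']
    exact (LinearEquiv.isUnit_det' e).ne_zero
  set d := E.det with hd
  set w : Fin n → F := Pi.single j ((d⁻¹ - 1) / v j) with hw
  set S : Matrix (Fin n) (Fin n) F := 1 + Matrix.replicateCol Unit v * Matrix.replicateRow Unit w with hS
  have hSdet : S.det = d⁻¹ := by
    rw [hS, Matrix.det_one_add_replicateCol_mul_replicateRow, hw, single_dotProduct]
    field_simp
    ring
  have hdet : (E * S).det = 1 := by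
    rw [Matrix.det_mul, hSdet, ← hd, mul_inv_cancel₀ hEdet]
  have hSx : ∀ x : Fin n → F, S.mulVec x = x + (w ⬝ᵥ x) • v := by
    intro x
    rw [hS, Matrix.add_mulVec, Matrix.one_mulVec, ← Matrix.mulVec_mulVec]
    congr 1
    ext a
    simp [Matrix.mulVec, dotProduct, Matrix.replicateCol, Matrix.replicateRow, mul_comm]
  refine ⟨⟨E * S, hdet⟩, ?_⟩
  apply Submodule.eq_of_le_of_finrank_eq
  · rintro _ ⟨x, hx, rfl⟩
    have h1 : ((Matrix.SpecialLinearGroup.toLin' (⟨E * S, hdet⟩ : Matrix.SpecialLinearGroup (Fin n) F) :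
        (Fin n → F) ≃ₗ[F] (Fin n → F)) : (Fin n → F) →ₗ[F] (Fin n → F)) x = e (S.mulVec x) := by
      change Matrix.toLin' (E * S) x = _
      simp only [Matrix.toLin'_apply]
      rw [← Matrix.mulVec_mulVec, hE, LinearMap.toMatrix'_mulVec]
      rfl
    rw [h1, hSx]
    exact he _ (U₁.add_mem hx (U₁.smul_mem _ hv))
  · rw [← h]
    exact LinearEquiv.finrank_map_eq _ _

end Cfsg.Agent.S2552
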