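import Cfsg.Statements.S2562
import Cfsg.Agent.Lib_helper6_LagCount
import Cfsg.Agent.Lib_helper6_DicksonMat

set_option autoImplicit false
open Cfsg

namespace Cfsg.Agent.S2562

/-- Witt indices over the field of two elements, m ≥ 1: for the plus-type form Σ xᵢyᵢ in dimension 2m some m-dimensional subspace is totally singular and no totally singular subspace has larger dimension; for the minus-type form Σ xᵢyᵢ + (z₁² + z₁z₂ + z₂²) in dimension 2m the maximal dimension of a totally singular subspace is m − 1. -/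
theorem result (m : ℕ) (hm : 1 ≤ m) :
    (∃ U : Submodule (ZMod 2) (Fin m ⊕ Fin m → ZMod 2), (∀ u ∈ U, Cfsg.quadFormPlus m (ZMod 2) u = 0) ∧ Module.finrank (ZMod 2) ↥U = m) ∧
    (∀ U : Submodule (ZMod 2) (Fin m ⊕ Fin m → ZMod 2), (∀ u ∈ U, Cfsg.quadFormPlus m (ZMod 2) u = 0) → Module.finrank (ZMod 2) ↥U ≤ m) ∧
    (∃ U : Submodule (ZMod 2) ((Fin (m - 1) ⊕ Fin (m - 1)) ⊕ Fin 2 → ZMod 2), (∀ u ∈ U, Cfsg.quadFormMinus (m - 1) (ZMod 2) 1 1 u = 0) ∧ Module.finrank (ZMod 2) ↥U = m - 1) ∧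
    (∀ U : Submodule (ZMod 2) ((Fin (m - 1) ⊕ Fin (m - 1)) ⊕ Fin 2 → ZMod 2), (∀ u ∈ U, Cfsg.quadFormMinus (m - 1) (ZMod 2) 1 1 u = 0) → Module.finrank (ZMod 2) ↥U ≤ m - 1) := by
  classical
  refine ⟨⟨_, H6.Quad.singular_ker_inr m, H6.Quad.finrank_ker_inr m⟩, fun U hU => ?_, ?_,
    fun U hU => ?_⟩
  · have h1 := H6.Quad.two_mul_finrank_le (H6.Quad.nondeg_qPlus (F := ZMod 2) m) U (by
      intro u hu
      rw [H6.Quad.qPlus_apply]; exact hU u hu)
    have h2 : Module.finrank (ZMod 2) (Fin m ⊕ Fin m → ZMod 2) = 2 * m := by simp; ring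
    omega
  · set φ : (Fin (m - 1) → ZMod 2) →ₗ[ZMod 2] ((Fin (m - 1) ⊕ Fin (m - 1)) ⊕ Fin 2 → ZMod 2) :=
      LinearMap.pi (fun j => Sum.elim (Sum.elim (fun i => LinearMap.proj i) (fun _ => 0))
        (fun _ => 0) j) with hφ
    have hinj : Function.Injective φ := by
      intro x y hxy
      ext i
      exact congrFun hxy (Sum.inl (Sum.inl i))
    refine ⟨LinearMap.range φ, ?_, ?_⟩
    · rintro _ ⟨x, rfl⟩
      simp [Cfsg.quadFormMinus, hφ]
    · rw [LinearMap.finrank_range_of_inj hinj]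
      simp
  · exact H6.Quad.finrank_lt_of_singular_qMinus (m - 1) 1 1 (by decide) U (by
      intro u hu
      rw [H6.Quad.qMinus_apply]; exact hU u hu)

end Cfsg.Agent.S2562
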