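import Cfsg.Statements.S2567
import Mathlib

set_option autoImplicit false
open Cfsg

namespace Cfsg.Agent.S2567

theorem lift_unique {G : Type*} [Group G] (m r : ℕ) (hr : r.Prime) (hcop : Nat.Coprime r m)
    (hZ : ∀ z ∈ Subgroup.center G, z ^ m = 1) (x : G ⧸ Subgroup.center G) (hx : orderOf x = r) :
    ∃! g : G, (QuotientGroup.mk g : G ⧸ Subgroup.center G) = x ∧ orderOf g = r := by
  obtain ⟨g0, rfl⟩ := QuotientGroup.mk_surjective x
  have hz : g0 ^ r ∈ Subgroup.center G := by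
    rw [← QuotientGroup.eq_one_iff, QuotientGroup.mk_pow, ← hx, pow_orderOf_eq_one]
  have hbez : (r : ℤ) * Nat.gcdA r m + m * Nat.gcdB r m = 1 := by
    have := Nat.gcd_eq_gcd_ab r m
    rw [hcop.gcd_eq_one] at this
    exact_mod_cast this.symm
  have hw : (g0 ^ r) ^ (-(Nat.gcdA r m)) ∈ Subgroup.center G := Subgroup.zpow_mem _ hz _
  have hwr : ((g0 ^ r) ^ (-(Nat.gcdA r m))) ^ r = (g0 ^ r)⁻¹ := by
    have h1 : (g0 ^ r) ^ ((m:ℤ) * Nat.gcdB r m) = 1 := by
      rw [zpow_mul, zpow_natCast, hZ _ hz, one_zpow]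
    have h2 : (g0 ^ r) ^ ((r:ℤ) * Nat.gcdA r m) = g0 ^ r := by
      have : (g0 ^ r) ^ ((r:ℤ) * Nat.gcdA r m + m * Nat.gcdB r m) = g0 ^ r := by rw [hbez, zpow_one]
      rwa [zpow_add, h1, mul_one] at this
    rw [← zpow_natCast, ← zpow_mul, neg_mul, zpow_neg, mul_comm, h2]
  refine ⟨g0 * (g0 ^ r) ^ (-(Nat.gcdA r m)), ⟨?_, ?_⟩, ?_⟩
  · rw [QuotientGroup.mk_mul, (QuotientGroup.eq_one_iff _).2 hw, mul_one]
  · have hcomm : Commute g0 ((g0 ^ r) ^ (-(Nat.gcdA r m))) := Subgroup.mem_center_iff.1 hw g0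
    have hp : (g0 * (g0 ^ r) ^ (-(Nat.gcdA r m))) ^ r = 1 := by
      rw [hcomm.mul_pow, hwr, mul_inv_cancel]
    rcases (Nat.dvd_prime hr).1 (orderOf_dvd_of_pow_eq_one hp) with h | h
    · exfalso
      rw [orderOf_eq_one_iff] at h
      have h1 : (QuotientGroup.mk g0 : G ⧸ Subgroup.center G) = 1 := by
        have : (QuotientGroup.mk (g0 * (g0 ^ r) ^ (-(Nat.gcdA r m))) : G ⧸ Subgroup.center G) = 1 := by
          rw [h]; rfl
        rwa [QuotientGroup.mk_mul, (QuotientGroup.eq_one_iff _).2 hw, mul_one] at this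
      rw [h1, orderOf_one] at hx
      exact hr.one_lt.ne hx
    · exact h
  · -- uniqueness
    have huniq : ∀ g g' : G, (QuotientGroup.mk g : G ⧸ Subgroup.center G) = QuotientGroup.mk g' →
        orderOf g = r → orderOf g' = r → g' = g := by
      intro g g' hgg hg hg'
      have hzc : g⁻¹ * g' ∈ Subgroup.center G := QuotientGroup.eq.1 hgg
      have hcomm : Commute g (g⁻¹ * g') := Subgroup.mem_center_iff.1 hzc g
      have h1 : (g * (g⁻¹ * g')) ^ r = g ^ r * (g⁻¹ * g') ^ r := hcomm.mul_pow r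
      rw [mul_inv_cancel_left, ← hg', pow_orderOf_eq_one, hg', ← hg, pow_orderOf_eq_one, one_mul] at h1
      have h2 : orderOf (g⁻¹ * g') ∣ r := by
        rw [← hg]; exact orderOf_dvd_of_pow_eq_one h1.symm
      have h3 : orderOf (g⁻¹ * g') ∣ m := orderOf_dvd_of_pow_eq_one (hZ _ hzc)
      have h4 : orderOf (g⁻¹ * g') = 1 := Nat.eq_one_of_dvd_coprimes hcop h2 h3
      rw [orderOf_eq_one_iff] at h4
      exact (inv_mul_eq_one.1 h4).symm
    rintro y ⟨hy1, hy2⟩
    apply huniq _ _ _ _ hy2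
    · rw [hy1, QuotientGroup.mk_mul, (QuotientGroup.eq_one_iff _).2 hw, mul_one]
    · have hcomm : Commute g0 ((g0 ^ r) ^ (-(Nat.gcdA r m))) := Subgroup.mem_center_iff.1 hw g0
      have hp : (g0 * (g0 ^ r) ^ (-(Nat.gcdA r m))) ^ r = 1 := by
        rw [hcomm.mul_pow, hwr, mul_inv_cancel]
      rcases (Nat.dvd_prime hr).1 (orderOf_dvd_of_pow_eq_one hp) with h | h
      · exfalso
        rw [orderOf_eq_one_iff] at h
        have h1 : (QuotientGroup.mk g0 : G ⧸ Subgroup.center G) = 1 := by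
          have : (QuotientGroup.mk (g0 * (g0 ^ r) ^ (-(Nat.gcdA r m))) : G ⧸ Subgroup.center G) = 1 := by
            rw [h]; rfl
          rwa [QuotientGroup.mk_mul, (QuotientGroup.eq_one_iff _).2 hw, mul_one] at this
        rw [h1, orderOf_one] at hx
        exact hr.one_lt.ne hx
      · exact h

/-- Lifting elements of prime order from PGL to GL: let F be a finite field with q elements, r a prime not dividing q − 1, and x an element of order r in GL_n(F) modulo its centre (the scalar matrices). Then x has exactly one preimage in GL_n(F) of order r. -/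
theorem result {F : Type*} [Field F] [Fintype F] {q n r : ℕ} (hF : Fintype.card F = q) (hr : r.Prime) (hdiv : ¬ r ∣ q - 1) (x : GL (Fin n) F ⧸ Subgroup.center (GL (Fin n) F)) (hx : orderOf x = r) : ∃! g : GL (Fin n) F, (QuotientGroup.mk g : GL (Fin n) F ⧸ Subgroup.center (GL (Fin n) F)) = x ∧ orderOf g = r := by
  classical
  apply lift_unique (q - 1) r hr ((Nat.Prime.coprime_iff_not_dvd hr).2 hdiv) _ x hx
  intro z hz
  rw [Matrix.GeneralLinearGroup.center_eq_range_scalar] at hz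
  obtain ⟨u, rfl⟩ := hz
  rw [← map_pow]
  have : u ^ (q - 1) = 1 := by
    rw [← hF, ← Fintype.card_units]
    exact pow_card_eq_one
  rw [this, map_one]

end Cfsg.Agent.S2567
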