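import Cfsg.Statements.S2569
import Cfsg.Agent.Lib_helper6_SemisimpleDet

set_option autoImplicit false
open Cfsg

namespace Cfsg.Agent.S2569

/-- In GL_n over a finite field of characteristic p, the conjugacy class of a semisimple element (an element of order prime to p) under the special linear group is its whole GL-conjugacy class: for every such x and every invertible g there is h of determinant one with h x h⁻¹ = g x g⁻¹. -/
theorem result {F : Type*} [Field F] [Fintype F] {p : ℕ} [Fact p.Prime] [CharP F p] {n : ℕ} (x g : GL (Fin n) F) (hx : (orderOf x).Coprime p) : ∃ h : GL (Fin n) F, (h : Matrix (Fin n) (Fin n) F).det = 1 ∧ h * x * h⁻¹ = g * x * g⁻¹ := by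
  classical
  have hp : p.Prime := Fact.out
  rcases Nat.eq_zero_or_pos n with rfl | hn
  · exact ⟨g, Matrix.det_isEmpty, rfl⟩
  haveI : Nonempty (Fin n) := ⟨⟨0, hn⟩⟩
  have hm0 : 0 < orderOf x := orderOf_pos x
  obtain ⟨m, hm⟩ : ∃ m, m = orderOf x := ⟨_, rfl⟩
  rw [← hm] at hx hm0
  have hmF : (m : F) ≠ 0 := by
    intro h
    rw [CharP.cast_eq_zero_iff F p m] at h
    have := Nat.Coprime.eq_one_of_dvd hx.symm h
    exact hp.one_lt.ne' this
  have hsq : Squarefree ((Polynomial.X : Polynomial F) ^ m - Polynomial.C 1) :=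
    (Polynomial.separable_X_pow_sub_C (1 : F) hmF one_ne_zero).squarefree
  have hxm : (x : Matrix (Fin n) (Fin n) F) ^ m = 1 := by
    have h1 : x ^ m = 1 := by rw [hm]; exact pow_orderOf_eq_one x
    have := congrArg (fun y : GL (Fin n) F => (y : Matrix (Fin n) (Fin n) F)) h1
    simpa using this
  have hae : Polynomial.aeval (Matrix.toLin' (x : Matrix (Fin n) (Fin n) F))
      ((Polynomial.X : Polynomial F) ^ m - Polynomial.C 1) = 0 := by
    rw [map_sub, map_pow, Polynomial.aeval_X, Polynomial.aeval_C, ← Matrix.toLin'_pow, hxm,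
      Matrix.toLin'_one, map_one]
    exact sub_self _
  have hdg : (g : Matrix (Fin n) (Fin n) F).det ≠ 0 := (Matrix.GeneralLinearGroup.det g).ne_zero
  obtain ⟨c, hc, hdet⟩ := H6.exists_commute_det (Matrix.toLin' (x : Matrix (Fin n) (Fin n) F)) _
    hsq hae ((g : Matrix (Fin n) (Fin n) F).det)⁻¹
  have hC : (LinearMap.toMatrix' c).det ≠ 0 := by
    rw [LinearMap.det_toMatrix', hdet]
    exact inv_ne_zero hdg
  have hcomm : LinearMap.toMatrix' c * (x : Matrix (Fin n) (Fin n) F) =
      (x : Matrix (Fin n) (Fin n) F) * LinearMap.toMatrix' c := by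
    apply Matrix.toLin'.injective
    rw [Matrix.toLin'_mul, Matrix.toLin'_mul, Matrix.toLin'_toMatrix']
    apply LinearMap.ext
    intro v
    exact hc v
  obtain ⟨C, hCv⟩ : ∃ C : GL (Fin n) F, (C : Matrix (Fin n) (Fin n) F) = LinearMap.toMatrix' c :=
    ⟨Matrix.GeneralLinearGroup.mkOfDetNeZero _ hC, rfl⟩
  have hCx : C * x = x * C := by
    apply Units.ext
    rw [Units.val_mul, Units.val_mul, hCv]
    exact hcomm
  refine ⟨g * C, ?_, ?_⟩
  · rw [Units.val_mul, Matrix.det_mul, hCv, LinearMap.det_toMatrix', hdet, mul_inv_cancel₀ hdg]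
  · calc g * C * x * (g * C)⁻¹ = g * (C * x) * C⁻¹ * g⁻¹ := by group
      _ = g * x * g⁻¹ := by rw [hCx]; group

end Cfsg.Agent.S2569
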