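import Cfsg.Statements.S2571
import Cfsg.Agent.Lib_helper6_RegUnipCent

set_option autoImplicit false
open Cfsg

namespace Cfsg.Agent.S2571

/-- Centraliser of a regular unipotent element in GL_n(q): if u is an invertible n × n matrix over the field with q elements, n ≥ 1, with (u − 1)^n = 0 and rank(u − 1) = n − 1 (a single unipotent Jordan block), then its centraliser in GL_n(q) has order (q − 1) q^(n−1). -/
theorem result {F : Type*} [Field F] [Fintype F] {q n : ℕ} (hF : Fintype.card F = q) (hn : 1 ≤ n) (u : GL (Fin n) F) (hnil : ((u : Matrix (Fin n) (Fin n) F) - 1) ^ n = 0) (hreg : ((u : Matrix (Fin n) (Fin n) F) - 1).rank = n - 1) : Nat.card ↥(Subgroup.centralizer ({u} : Set (GL (Fin n) F))) = (q - 1) * q ^ (n - 1) := by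
  classical
  subst hF
  set N : Module.End F (Fin n → F) := Matrix.toLin' ((u : Matrix (Fin n) (Fin n) F) - 1) with hNdef
  have hN : N ^ n = 0 := by
    rw [hNdef, ← Matrix.toLin'_pow, hnil, map_zero]
  have hV : Module.finrank F (Fin n → F) = n := by rw [Module.finrank_fin_fun]
  have hreg' : Module.finrank F (LinearMap.ker N) ≤ 1 := by
    apply H6.finrank_ker_mulVecLin_le
    rw [hreg, Fintype.card_fin]
  rw [← H6.card_centralizer_regular_nilpotent N hn hN hV hreg']
  apply Nat.card_congr
  refine Equiv.subtypeEquiv (Matrix.GeneralLinearGroup.toLin (n := Fin n) (R := F)).toEquiv ?_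
  intro g
  rw [Subgroup.mem_centralizer_singleton_iff]
  have hval : (((Matrix.GeneralLinearGroup.toLin (n := Fin n) (R := F)).toEquiv g :
      (Module.End F (Fin n → F))ˣ) : Module.End F (Fin n → F)) =
      Matrix.toLin' (g : Matrix (Fin n) (Fin n) F) := rfl
  rw [hval, hNdef, Module.End.mul_eq_comp, Module.End.mul_eq_comp, ← Matrix.toLin'_mul, ← Matrix.toLin'_mul]
  constructor
  · intro h
    have h1 : (g : Matrix (Fin n) (Fin n) F) * u = u * g := by
      have := congrArg (fun x : GL (Fin n) F => (x : Matrix (Fin n) (Fin n) F)) h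
      simpa using this
    rw [mul_sub, sub_mul, h1, mul_one, one_mul]
  · intro h
    have h1 := Matrix.toLin'.injective h
    rw [mul_sub, sub_mul, mul_one, one_mul] at h1
    apply Units.ext
    simpa using h1

end Cfsg.Agent.S2571
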