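import Cfsg.Statements.S2573
import Cfsg.Agent.Lib_helper6_RegUnip

set_option autoImplicit false
open Cfsg

namespace Cfsg.Agent.S2573

/-- The invariant subspaces of a regular unipotent matrix form a chain: over a finite field, if u is an n × n matrix with (u − 1)^n = 0 and rank(u − 1) = n − 1, then every subspace W of F^n with u W ⊆ W is the kernel of (u − 1)^(dim W); so u has at most one invariant subspace of each dimension. -/
theorem result {F : Type*} [Field F] [Finite F] {n : ℕ} (u : Matrix (Fin n) (Fin n) F) (hnil : (u - 1) ^ n = 0) (hreg : (u - 1).rank = n - 1) (W : Submodule F (Fin n → F)) (hW : ∀ v ∈ W, u.mulVec v ∈ W) : W = LinearMap.ker (Matrix.mulVecLin ((u - 1) ^ Module.finrank F W)) := by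
  have hpow : ∀ k, Matrix.mulVecLin ((u - 1) ^ k) =
      (Matrix.mulVecLin (u - 1) : Module.End F (Fin n → F)) ^ k := fun k =>
    Matrix.toLin'_pow (u - 1) k
  rw [hpow]
  apply H6.eq_ker_pow_of_invariant (n := n)
  · rw [← hpow, hnil]
    exact Matrix.mulVecLin_zero
  · exact H6.finrank_ker_mulVecLin_le _ (by simpa using hreg)
  · intro v hv
    rw [Matrix.mulVecLin_apply, Matrix.sub_mulVec, Matrix.one_mulVec]
    exact W.sub_mem (hW v hv) hv

end Cfsg.Agent.S2573
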