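import Cfsg.Statements.S2574
import Cfsg.Agent.Lib_helper6_RegUnip
import Cfsg.Agent.Lib_helper6_SympGen

set_option autoImplicit false
open Cfsg

namespace Cfsg.Agent.S2574

/-- A regular unipotent element of the symplectic group has totally isotropic small invariant subspaces: over a finite field, if u ∈ Sp_2m(F) satisfies (u − 1)^(2m) = 0 and rank(u − 1) = 2m − 1, and W is a u-invariant subspace with 2 dim W ≤ 2m, then the alternating form vanishes identically on W. -/
theorem result {F : Type*} [Field F] [Finite F] {m : ℕ} (u : Matrix.symplecticGroup (Fin m) F) (hnil : ((u : Matrix (Fin m ⊕ Fin m) (Fin m ⊕ Fin m) F) - 1) ^ (2 * m) = 0) (hreg : ((u : Matrix (Fin m ⊕ Fin m) (Fin m ⊕ Fin m) F) - 1).rank = 2 * m - 1) (W : Submodule F (Fin m ⊕ Fin m → F)) (hW : ∀ v ∈ W, (u : Matrix (Fin m ⊕ Fin m) (Fin m ⊕ Fin m) F).mulVec v ∈ W) (hdim : 2 * Module.finrank F W ≤ 2 * m) : ∀ v ∈ W, ∀ w ∈ W, Cfsg.sympForm m F v w = 0 := by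
  classical
  obtain ⟨M, hM⟩ : ∃ M, M = (u : Matrix (Fin m ⊕ Fin m) (Fin m ⊕ Fin m) F) - 1 := ⟨_, rfl⟩
  rw [← hM] at hnil hreg
  have hpow : ∀ k, Matrix.mulVecLin (M ^ k) =
      (Matrix.mulVecLin M : Module.End F (Fin m ⊕ Fin m → F)) ^ k := fun k =>
    Matrix.toLin'_pow M k
  have hN : (Matrix.mulVecLin M : Module.End F (Fin m ⊕ Fin m → F)) ^ (2 * m) = 0 := by
    rw [← hpow, hnil]
    exact Matrix.mulVecLin_zero
  have hk := H6.finrank_ker_mulVecLin_le M (by rw [hreg]; simp; omega)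
  have hNW : ∀ (W' : Submodule F (Fin m ⊕ Fin m → F)),
      (∀ v ∈ W', (u : Matrix (Fin m ⊕ Fin m) (Fin m ⊕ Fin m) F).mulVec v ∈ W') →
      ∀ v ∈ W', (Matrix.mulVecLin M : Module.End F (Fin m ⊕ Fin m → F)) v ∈ W' := by
    intro W' hW' v hv
    rw [Matrix.mulVecLin_apply, hM, Matrix.sub_mulVec, Matrix.one_mulVec]
    exact W'.sub_mem (hW' v hv) hv
  -- `u` maps `W` onto `W`
  have hmap : W.map (Matrix.mulVecLin (u : Matrix (Fin m ⊕ Fin m) (Fin m ⊕ Fin m) F)) = W := by
    apply Submodule.eq_of_le_of_finrank_eq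
    · rintro _ ⟨x, hx, rfl⟩
      exact hW x hx
    · exact (LinearEquiv.finrank_eq (Submodule.equivMapOfInjective _
        (H6.symp_mulVec_injective u) W)).symm
  have hperp : ∀ v ∈ (H6.sympB m F).orthogonal W,
      (u : Matrix (Fin m ⊕ Fin m) (Fin m ⊕ Fin m) F).mulVec v ∈ (H6.sympB m F).orthogonal W := by
    intro v hv
    rw [LinearMap.BilinForm.mem_orthogonal_iff] at hv ⊢
    intro w hw
    rw [← hmap] at hw
    obtain ⟨w', hw', rfl⟩ := hw
    change H6.sympB m F _ _ = 0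
    rw [H6.sympB_apply, Matrix.mulVecLin_apply, H6.symp_preserves, ← H6.sympB_apply]
    exact hv w' hw'
  have hfr := LinearMap.BilinForm.finrank_orthogonal (H6.sympB_nondegenerate (m := m) (F := F)) W
  have hV : Module.finrank F (Fin m ⊕ Fin m → F) = 2 * m := by simp; omega
  have hle := H6.le_of_invariant_of_finrank_le _ hN hk W ((H6.sympB m F).orthogonal W)
    (hNW W hW) (hNW _ hperp) (by omega)
  intro v hv w hw
  have := LinearMap.BilinForm.mem_orthogonal_iff.mp (hle hw) v hv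
  rw [← H6.sympB_apply]
  exact this

end Cfsg.Agent.S2574
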