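import Cfsg.Statements.S2575
import Mathlib

set_option autoImplicit false
open Cfsg

namespace Cfsg.Agent.S2575

theorem exists_orderOf_eq_of_dvd {G : Type*} [Group G] [Finite G] (g : G) {d : ℕ}
    (hd : d ∣ orderOf g) : ∃ g' : G, orderOf g' = d := by
  obtain ⟨e, he⟩ := hd
  have hpos := orderOf_pos g
  have he0 : e ≠ 0 := by rintro rfl; rw [mul_zero] at he; omega
  refine ⟨g ^ e, ?_⟩
  rw [orderOf_pow_of_dvd he0 ⟨d, by rw [he, mul_comm]⟩, he]
  exact Nat.mul_div_cancel _ (Nat.pos_of_ne_zero he0)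

theorem two_adic_decomp (n : ℕ) (hn : n ≠ 0) : ∃ r, Odd r ∧ n = 2 ^ padicValNat 2 n * r := by
  obtain ⟨r, hr⟩ := pow_padicValNat_dvd (p := 2) (n := n)
  refine ⟨r, ?_, hr⟩
  rw [← Nat.not_even_iff_odd]
  rintro ⟨s, hs⟩
  apply pow_succ_padicValNat_not_dvd (p := 2) hn
  refine ⟨s, ?_⟩
  conv_lhs => rw [hr, hs]
  ring

theorem key {F : Type*} [Field F] [Fintype F] {q : ℕ} (hF : Fintype.card F = q) (hq : Odd q)
    {n : ℕ} (hn : 1 ≤ n) :
    (∃ c : F, c ≠ 0 ∧ c ^ n = -1) ↔ padicValNat 2 n < padicValNat 2 (q - 1) := by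
  classical
  have hchar : ringChar F ≠ 2 := by
    intro h
    have := FiniteField.even_card_of_char_two h
    rw [hF] at this
    obtain ⟨t, ht⟩ := hq
    omega
  have hne : (-1 : F) ≠ 1 := Ring.neg_one_ne_one_of_char_ne_two hchar
  have hq1 : q - 1 ≠ 0 := by
    have := Fintype.one_lt_card (α := F)
    omega
  obtain ⟨r, hr, hqr⟩ := two_adic_decomp (q - 1) hq1
  obtain ⟨n', hn', hnn⟩ := two_adic_decomp n (by omega)
  constructor
  · rintro ⟨c, hc0, hc⟩
    by_contra hlt
    push Not at hlt
    obtain ⟨t, ht⟩ : 2 ^ padicValNat 2 (q - 1) ∣ n :=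
      (pow_dvd_pow 2 hlt).trans pow_padicValNat_dvd
    have h1 : c ^ (n * r) = 1 := by
      have : n * r = (q - 1) * t := by
        conv_lhs => rw [ht]
        conv_rhs => rw [hqr]
        ring
      rw [this, pow_mul, ← hF, FiniteField.pow_card_sub_one_eq_one c hc0, one_pow]
    rw [pow_mul, hc, hr.neg_one_pow] at h1
    exact hne h1
  · intro hlt
    obtain ⟨g, hg⟩ := IsCyclic.exists_ofOrder_eq_natCard (α := Fˣ)
    rw [Nat.card_eq_fintype_card, Fintype.card_units, hF] at hg
    have hdvd : 2 ^ (padicValNat 2 n + 1) ∣ orderOf g := by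
      rw [hg]
      exact (pow_dvd_pow 2 hlt).trans pow_padicValNat_dvd
    obtain ⟨u, hu⟩ := exists_orderOf_eq_of_dvd g hdvd
    set a := padicValNat 2 n with ha
    have hw2 : (u ^ 2 ^ a) * (u ^ 2 ^ a) = 1 := by
      rw [← pow_add, ← two_mul, ← pow_succ', ← hu, pow_orderOf_eq_one]
    have hw1 : u ^ 2 ^ a ≠ 1 := by
      intro h
      have h2 := orderOf_dvd_of_pow_eq_one h
      rw [hu] at h2
      have h3 := Nat.le_of_dvd (by positivity) h2
      rw [pow_succ] at h3
      have : 0 < 2 ^ a := by positivity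
      omega
    have hwF : ((u : F) ^ 2 ^ a) = -1 := by
      have h1 : ((u : F) ^ 2 ^ a) * ((u : F) ^ 2 ^ a) = 1 := by
        have := congrArg (Units.val) hw2
        simpa using this
      rcases mul_self_eq_one_iff.mp h1 with h | h
      · exfalso
        apply hw1
        ext
        simpa using h
      · exact h
    refine ⟨(u : F), u.ne_zero, ?_⟩
    rw [hnn, pow_mul, hwF, hn'.neg_one_pow]

/-- Which diagonal involutions of PGL_n(q) lie in PSL_n(q), q odd: for the diagonal matrix t with i entries −1 and n − i entries 1, some non-zero scalar multiple of t has determinant one if and only if i is even or the 2-part of q − 1 exceeds the 2-part of n (that is, −1 is an n-th power in the field exactly in the latter case). -/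
theorem result {F : Type*} [Field F] [Fintype F] {q : ℕ} (hF : Fintype.card F = q) (hq : Odd q) {n : ℕ} (hn : 1 ≤ n) (i : ℕ) (hi : i ≤ n) : (∃ c : F, c ≠ 0 ∧ (c • Matrix.diagonal (fun j : Fin n => if (j : ℕ) < i then (-1 : F) else 1)).det = 1) ↔ (Even i ∨ padicValNat 2 n < padicValNat 2 (q - 1)) := by
  classical
  have hprod : ∏ j : Fin n, (if (j : ℕ) < i then (-1 : F) else 1) = (-1) ^ i := by
    rw [Fin.prod_univ_eq_prod_range (fun j => if j < i then (-1 : F) else 1) n]
    rw [Finset.prod_ite, Finset.prod_const_one, mul_one, Finset.prod_const]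
    congr 1
    have : (Finset.range n).filter (· < i) = Finset.range i := by
      ext j
      simp only [Finset.mem_filter, Finset.mem_range]
      omega
    rw [this, Finset.card_range]
  have hdet : ∀ c : F, (c • Matrix.diagonal (fun j : Fin n => if (j : ℕ) < i then (-1 : F) else 1)).det
      = c ^ n * (-1) ^ i := by
    intro c
    rw [Matrix.det_smul, Matrix.det_diagonal, hprod, Fintype.card_fin]
  simp only [hdet]
  rcases Nat.even_or_odd i with hi' | hi'
  · constructor
    · intro _; exact Or.inl hi'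
    · intro _
      exact ⟨1, one_ne_zero, by rw [one_pow, hi'.neg_one_pow, one_mul]⟩
  · rw [hi'.neg_one_pow, ← key hF hq hn]
    constructor
    · rintro ⟨c, hc0, hc⟩
      right
      refine ⟨c, hc0, ?_⟩
      have : c ^ n = -(c ^ n * -1) := by ring
      rw [this, hc]
    · rintro (h | ⟨c, hc0, hc⟩)
      · exact absurd h (Nat.not_even_iff_odd.mpr hi')
      · exact ⟨c, hc0, by rw [hc]; ring⟩

end Cfsg.Agent.S2575
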