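import Cfsg.Statements.S2579
import Cfsg.Agent.Lib_helper6_SqZero

set_option autoImplicit false
open Cfsg

namespace Cfsg.Agent.S2579

/-- In SL_n(F) with n ≥ 3, over a finite field F, any two transvections (matrices t with t − 1 of rank one and square zero) are conjugate by an element of SL_n(F). -/
theorem result {F : Type*} [Field F] [Finite F] {n : ℕ} (hn : 3 ≤ n) (s t : Matrix.SpecialLinearGroup (Fin n) F) (hs : Cfsg.IsTransvection (s : Matrix (Fin n) (Fin n) F)) (ht : Cfsg.IsTransvection (t : Matrix (Fin n) (Fin n) F)) : IsConj s t := by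
  apply H6.SL_isConj_of_sqzero s t hs.2 ht.2 (by rw [hs.1, ht.1])
  left
  rw [hs.1]
  omega

end Cfsg.Agent.S2579
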