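import Cfsg.Statements.S2585
import Cfsg.Agent.Lib_helper6_SympGen
import Cfsg.Agent.Lib_helper6_QuadStd

set_option autoImplicit false
open Cfsg

namespace Cfsg.Agent.S2585

theorem exists_sqrt_linear {F V : Type*} [Field F] [Finite F] [CharP F 2] [AddCommGroup V]
    [Module F V] (D : V → F) (hadd : ∀ u v, D (u + v) = D u + D v)
    (hsmul : ∀ (c : F) v, D (c • v) = c * c * D v) :
    ∃ ℓ : V →ₗ[F] F, ∀ v, D v = ℓ v * ℓ v := by
  have : Fact (Nat.Prime 2) := ⟨Nat.prime_two⟩
  have : PerfectRing F 2 := PerfectRing.ofFiniteOfIsReduced 2 F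
  refine ⟨{ toFun := fun v => (frobeniusEquiv F 2).symm (D v)
            map_add' := fun u v => by rw [hadd, map_add]
            map_smul' := fun c v => by
              rw [hsmul, map_mul, RingHom.id_apply, smul_eq_mul]
              congr 1
              rw [← sq, ← frobenius_def, frobeniusEquiv_symm_apply_frobenius] }, fun v => ?_⟩
  change D v = (frobeniusEquiv F 2).symm (D v) * (frobeniusEquiv F 2).symm (D v)
  rw [← sq, frobeniusEquiv_symm_pow_p]

/-- Over a finite field of characteristic two every element of the symplectic group is orthogonal for a suitable quadratic form: for each A in Sp_2m(F) there is a quadratic form Q on F^(2m) whose polar form is the alternating form defining Sp_2m(F) (so Q is non-degenerate) and which A preserves. Equivalently, for m ≥ 1, Sp_2m(F) is the union of the conjugates of its two orthogonal subgroups O⁺_2m(F) and O⁻_2m(F). -/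
theorem result {F : Type*} [Field F] [Fintype F] [CharP F 2] {m : ℕ} (A : Matrix.symplecticGroup (Fin m) F) : ∃ Q : QuadraticForm F (Fin m ⊕ Fin m → F), (∀ u v : Fin m ⊕ Fin m → F, QuadraticMap.polar ⇑Q u v = Cfsg.sympForm m F u v) ∧ ∀ v : Fin m ⊕ Fin m → F, Q ((A : Matrix (Fin m ⊕ Fin m) (Fin m ⊕ Fin m) F).mulVec v) = Q v := by
  classical
  have h2 : (2 : F) = 0 := CharTwo.two_eq_zero
  have hneg : ∀ x : F, -x = x := fun x => CharTwo.neg_eq x
  obtain ⟨M, hM⟩ : ∃ M, M = (A : Matrix (Fin m ⊕ Fin m) (Fin m ⊕ Fin m) F) := ⟨_, rfl⟩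
  obtain ⟨M', hM'⟩ : ∃ M', M' = ((A⁻¹ : Matrix.symplecticGroup (Fin m) F) :
    Matrix (Fin m ⊕ Fin m) (Fin m ⊕ Fin m) F) := ⟨_, rfl⟩
  have hMM' : M * M' = 1 := by
    rw [hM, hM']
    have : ((A * A⁻¹ : Matrix.symplecticGroup (Fin m) F) :
      Matrix (Fin m ⊕ Fin m) (Fin m ⊕ Fin m) F) = 1 := by rw [mul_inv_cancel]; rfl
    exact this
  have hM'M : M' * M = 1 := by
    rw [hM, hM']
    have : ((A⁻¹ * A : Matrix.symplecticGroup (Fin m) F) :
      Matrix (Fin m ⊕ Fin m) (Fin m ⊕ Fin m) F) = 1 := by rw [inv_mul_cancel]; rfl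
    exact this
  have hpres : ∀ u v, Cfsg.sympForm m F (M.mulVec u) (M.mulVec v) = Cfsg.sympForm m F u v := by
    intro u v; rw [hM]; exact H6.symp_preserves A u v
  have hpol : ∀ u v, H6.Quad.pol (H6.Quad.qPlus m F) u v = Cfsg.sympForm m F u v := by
    intro u v
    rw [H6.Quad.pol_qPlus, H6.sympForm_eq_sum]
    refine Finset.sum_congr rfl fun i _ => ?_
    rw [sub_eq_add_neg, hneg]; ring
  rw [← hM]
  -- the defect of `Q₀`
  obtain ⟨ℓ, hℓ⟩ := exists_sqrt_linear
    (fun v => H6.Quad.qPlus m F (M.mulVec v) + H6.Quad.qPlus m F v)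
    (by
      intro u v
      simp only [Matrix.mulVec_add, H6.Quad.Q_add, hpol, hpres]
      linear_combination (Cfsg.sympForm m F u v) * h2)
    (by
      intro c v
      simp only [Matrix.mulVec_smul, H6.Quad.Q_smul]
      ring)
  -- Riesz representation
  obtain ⟨a, ha⟩ : ∃ a, ∀ v, ℓ v = Cfsg.sympForm m F v a := by
    refine ⟨((H6.sympB m F).toDual H6.sympB_nondegenerate).symm ℓ, fun v => ?_⟩
    rw [H6.sympForm_swap, hneg, ← H6.sympB_apply, LinearMap.BilinForm.apply_toDual_symm_apply]
  -- `a` lies in the range of `A⁻¹ + 1`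
  obtain ⟨S, hS⟩ : ∃ S : (Fin m ⊕ Fin m → F) →ₗ[F] (Fin m ⊕ Fin m → F),
      ∀ w, S w = M'.mulVec w + w := ⟨Matrix.mulVecLin M' + LinearMap.id, fun w => rfl⟩
  have hker : ∀ w, w ∈ LinearMap.ker S ↔ M.mulVec w = w := by
    intro w
    rw [LinearMap.mem_ker, hS]
    constructor
    · intro h
      have h1 : M'.mulVec w = w := by
        have := eq_neg_of_add_eq_zero_left h
        rw [this]
        ext i
        exact hneg _
      have := congrArg M.mulVec h1
      rw [Matrix.mulVec_mulVec, hMM', Matrix.one_mulVec] at this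
      exact this.symm
    · intro h
      have := congrArg M'.mulVec h
      rw [Matrix.mulVec_mulVec, hM'M, Matrix.one_mulVec] at this
      rw [← this]
      ext i
      exact CharTwo.add_self_eq_zero _
  have hrange : LinearMap.range S = (H6.sympB m F).orthogonal (LinearMap.ker S) := by
    apply Submodule.eq_of_le_of_finrank_eq
    · rintro _ ⟨w, rfl⟩
      rw [LinearMap.BilinForm.mem_orthogonal_iff]
      intro k hk
      change H6.sympB m F k (S w) = 0
      rw [hker] at hk
      rw [H6.sympB_apply, hS, H6.sympForm_add_right]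
      have : Cfsg.sympForm m F k (M'.mulVec w) = Cfsg.sympForm m F k w := by
        rw [← hpres k, hk, Matrix.mulVec_mulVec, hMM', Matrix.one_mulVec]
      rw [this]
      exact CharTwo.add_self_eq_zero _
    · have h1 := LinearMap.finrank_range_add_finrank_ker S
      have h3 := LinearMap.BilinForm.finrank_orthogonal (H6.sympB_nondegenerate (m := m) (F := F))
        (LinearMap.ker S)
      omega
  have haS : a ∈ LinearMap.range S := by
    rw [hrange, LinearMap.BilinForm.mem_orthogonal_iff]
    intro k hk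
    change H6.sympB m F k a = 0
    rw [hker] at hk
    rw [H6.sympB_apply, ← ha]
    have := hℓ k
    simp only [hk] at this
    rw [CharTwo.add_self_eq_zero] at this
    exact mul_self_eq_zero.mp this.symm
  obtain ⟨w, hw⟩ := haS
  obtain ⟨φ, hφ⟩ : ∃ φ : (Fin m ⊕ Fin m → F) →ₗ[F] F, ∀ v, φ v = Cfsg.sympForm m F v w :=
    ⟨(H6.sympB m F).flip w, fun v => H6.sympB_apply v w⟩
  refine ⟨H6.Quad.qPlus m F + QuadraticMap.linMulLin φ φ, fun u v => ?_, fun v => ?_⟩
  · rw [← hpol, QuadraticMap.polarBilin_apply_apply]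
    simp only [QuadraticMap.polar, add_apply, QuadraticMap.linMulLin_apply, map_add]
    linear_combination (φ u * φ v) * h2
  · simp only [add_apply, QuadraticMap.linMulLin_apply, hφ]
    have h1 := hℓ v
    have h3 : Cfsg.sympForm m F (M.mulVec v) w = Cfsg.sympForm m F v (M'.mulVec w) := by
      rw [← hpres v, Matrix.mulVec_mulVec, hMM', Matrix.one_mulVec]
    have h4 : ℓ v = Cfsg.sympForm m F v (M'.mulVec w) + Cfsg.sympForm m F v w := by
      rw [ha, ← hw, hS, H6.sympForm_add_right]
    rw [h3]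
    rw [h4] at h1
    linear_combination h1 + (Cfsg.sympForm m F v (M'.mulVec w) * Cfsg.sympForm m F v (M'.mulVec w) -
      H6.Quad.qPlus m F v + Cfsg.sympForm m F v (M'.mulVec w) * Cfsg.sympForm m F v w) * h2

end Cfsg.Agent.S2585
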