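import Cfsg.Statements.S2594
import Cfsg.Agent.Lib_helper6_AltTransv

set_option autoImplicit false
open Cfsg

namespace Cfsg.Agent.S2594

/-- Over a finite field with q elements, q even, an element t of Sp_2m(F) with rank(t − 1) = 1 (a symplectic transvection) has centraliser in Sp_2m(F) of order q^(2m−1) · |Sp_(2m−2)(q)| = q^(2m−1) · q^((m−1)²) · Π_(i=1)^(m−1) (q^(2i) − 1). -/
theorem result {F : Type*} [Field F] [Fintype F] [CharP F 2] {q : ℕ} (hF : Fintype.card F = q) {m : ℕ} (hm : 1 ≤ m) (t : Matrix.symplecticGroup (Fin m) F) (ht : ((t : Matrix (Fin m ⊕ Fin m) (Fin m ⊕ Fin m) F) - 1).rank = 1) : Nat.card ↥(Subgroup.centralizer ({t} : Set ↥(Matrix.symplecticGroup (Fin m) F))) = q ^ (2 * m - 1) * (q ^ ((m - 1) ^ 2) * ∏ i : Fin (m - 1), (q ^ (2 * ((i : ℕ) + 1)) - 1)) := by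
  classical
  obtain ⟨k, rfl⟩ : ∃ k, m = k + 1 := ⟨m - 1, by omega⟩
  change Nat.card _ = q ^ (2 * (k + 1) - 1) * (q ^ (k ^ 2) *
    ∏ i : Fin k, (q ^ (2 * ((i : ℕ) + 1)) - 1))
  have hB := H6.sympB_nondegenerate (m := k + 1) (F := F)
  have hA := H6.sympB_isAlt (m := k + 1) (F := F)
  set g0 := H6.sympEquivIsom t with hg0
  have hrank : Module.finrank F (LinearMap.range (g0.1.toLinearMap - LinearMap.id)) = 1 := by
    rw [← H6.rank_sub_one_eq _ _ (H6.sympEquivIsom_apply t)]; exact ht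
  obtain ⟨v, c, hv, hc, hg0v⟩ := H6.Alt.eq_transv_of_rank_one hB hA g0.2 hrank
  have hcomm : ∀ g : Matrix.symplecticGroup (Fin (k + 1)) F,
      g ∈ Subgroup.centralizer ({t} : Set (Matrix.symplecticGroup (Fin (k + 1)) F)) ↔
      (H6.sympEquivIsom g).1 v = v := by
    intro g
    rw [Subgroup.mem_centralizer_singleton_iff,
      ← H6.Alt.commute_transv_iff hB hA (H6.sympEquivIsom g).2 hv hc, ← hg0v]
    constructor
    · intro h
      have := congrArg (fun x => (H6.sympEquivIsom x).1) h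
      simp only [map_mul] at this
      exact this
    · intro h
      apply H6.sympEquivIsom.injective
      apply Subtype.ext
      rw [map_mul, map_mul]
      exact h
  have e : ↥(Subgroup.centralizer ({t} : Set (Matrix.symplecticGroup (Fin (k + 1)) F))) ≃
      ↥(H6.Alt.PS (H6.sympB (k + 1) F) (⊥ ⊔ Submodule.span F {v})) :=
    { toFun := fun g => ⟨(H6.sympEquivIsom g.1).1, (H6.sympEquivIsom g.1).2, fun z hz => by
        rw [bot_sup_eq] at hz
        obtain ⟨a, rfl⟩ := Submodule.mem_span_singleton.mp hz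
        rw [map_smul, (hcomm g.1).mp g.2]⟩
      invFun := fun h => ⟨H6.sympEquivIsom.symm ⟨h.1, h.2.1⟩, by
        rw [hcomm, MulEquiv.apply_symm_apply]
        exact h.2.2 v (by rw [bot_sup_eq]; exact Submodule.mem_span_singleton_self v)⟩
      left_inv := fun g => by
        apply Subtype.ext
        simp
      right_inv := fun h => by
        apply Subtype.ext
        simp }
  rw [Nat.card_congr e]
  have h1 := H6.Alt.card_PS_step hB hA ⊥ (x := v) (by simpa using hv)
  rw [H6.Alt.PS_bot, H6.Alt.card_Isom hB hA (k + 1) (by simp; ring)] at h1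
  have h2 : Nat.card {y : Fin (k + 1) ⊕ Fin (k + 1) → F | y ∉ (⊥ : Submodule F _) ∧
      ∀ z ∈ (⊥ : Submodule F (Fin (k + 1) ⊕ Fin (k + 1) → F)),
        H6.sympB (k + 1) F z y = H6.sympB (k + 1) F z v} = q ^ (2 * (k + 1)) - 1 := by
    have : {y : Fin (k + 1) ⊕ Fin (k + 1) → F | y ∉ (⊥ : Submodule F _) ∧
      ∀ z ∈ (⊥ : Submodule F (Fin (k + 1) ⊕ Fin (k + 1) → F)),
        H6.sympB (k + 1) F z y = H6.sympB (k + 1) F z v} = {0}ᶜ := by
      ext y
      simp only [Set.mem_ofPred_eq, Submodule.mem_bot, Set.mem_compl_iff, Set.mem_singleton_iff]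
      constructor
      · exact fun h => h.1
      · intro h
        exact ⟨h, fun z hz => by rw [hz]; simp⟩
    rw [this, Nat.card_coe_set_eq, Set.ncard_compl, Set.ncard_singleton]
    simp [hF]
    ring_nf
  rw [h2, Nat.card_eq_fintype_card, hF, Finset.prod_range_succ] at h1
  have hpos : 0 < q ^ (2 * (k + 1)) - 1 := by
    have : 1 < q := hF ▸ Fintype.one_lt_card
    have : 1 < q ^ (2 * (k + 1)) := Nat.one_lt_pow (by omega) this
    omega
  apply Nat.eq_of_mul_eq_mul_left hpos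
  rw [← h1, Finset.prod_range (fun i => q ^ (2 * (i + 1)) - 1)]
  have e1 : q ^ ((k + 1) ^ 2) = q ^ (2 * (k + 1) - 1) * q ^ (k ^ 2) := by
    rw [← pow_add]
    congr 1
    have : 2 * (k + 1) - 1 = 2 * k + 1 := by omega
    rw [this]
    ring
  rw [e1]
  generalize q ^ (2 * (k + 1)) - 1 = a
  generalize ∏ i : Fin k, (q ^ (2 * ((i : ℕ) + 1)) - 1) = b
  ring

end Cfsg.Agent.S2594
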