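import Cfsg.Statements.S2609
import Cfsg.Agent.Lib_helper6_Spinor2

set_option autoImplicit false
open Cfsg

namespace Cfsg.Agent.S2609

/-- Spinor norm criterion for Ω over a finite field of odd order: let Q be a quadratic form on F^n, n ≥ 2, with non-degenerate polar form, and let g be an isometry written as a product of reflections in non-singular vectors v_1, …, v_k. Then g lies in Ω (the commutator subgroup of the orthogonal group) if and only if k is even and Q(v_1)⋯Q(v_k) is a square; in particular, for g of determinant one, whether that product is a square does not depend on the chosen factorisation (it is the spinor norm of g). -/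
theorem result {F : Type*} [Field F] [Fintype F] (h2 : (2 : F) ≠ 0) {n : ℕ} (hn : 2 ≤ n) (Q : QuadraticForm F (Fin n → F)) (hQ : (QuadraticMap.polarBilin Q).Nondegenerate) (g : ↥(Cfsg.isometryGroup F ⇑Q)) (vs : List (Fin n → F)) (hvs : ∀ v ∈ vs, Q v ≠ 0) (hg : ((g : Matrix.GeneralLinearGroup (Fin n) F) : Matrix (Fin n) (Fin n) F) = (vs.map (fun v => Cfsg.reflectionMatrix ⇑Q v)).prod) : g ∈ Cfsg.Omega F ⇑Q ↔ (Even vs.length ∧ IsSquare (vs.map (fun v => Q v)).prod) := by
  change g ∈ commutator (Cfsg.isometryGroup F ⇑Q) ↔ _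
  rw [H6.mem_commutator_equiv (H6.Quad.isometryGroupEquiv Q ⇑Q (fun _ => rfl))]
  have key : ∀ (ws : List (Fin n → F)), (∀ v ∈ ws, Q v ≠ 0) → ∀ x,
      ((ws.map (H6.Quad.Rf' hQ)).prod).1 x =
        ((ws.map (fun v => Cfsg.reflectionMatrix ⇑Q v)).prod).mulVec x := by
    intro ws
    induction ws with
    | nil => intro _ x; simp
    | cons v ws ih =>
      intro hws x
      simp only [List.map_cons, List.prod_cons]
      rw [← Matrix.mulVec_mulVec, ← ih (fun w hw => hws w (List.mem_cons_of_mem _ hw)),
        H6.Quad.reflectionMatrix_mulVec, H6.Quad.Rf'_eq hQ v (hws v List.mem_cons_self)]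
      change (H6.Quad.Rf hQ v _).1 (((ws.map (H6.Quad.Rf' hQ)).prod).1 x) = _
      rw [H6.Quad.Rf_apply]
  have heq : H6.Quad.isometryGroupEquiv Q ⇑Q (fun _ => rfl) g = (vs.map (H6.Quad.Rf' hQ)).prod := by
    apply Subtype.ext
    ext1 x
    rw [H6.Quad.isometryGroupEquiv_apply, hg, key vs hvs]
  rw [heq]
  exact H6.Quad.prod_mem_commutator_iff h2 hQ (by simpa using hn) vs hvs

end Cfsg.Agent.S2609
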