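import Cfsg.Statements.S2611
import Cfsg.Agent.Lib_helper6_OmegaPlus

set_option autoImplicit false
open Cfsg

namespace Cfsg.Agent.S2611

/-- For the hyperbolic quadratic form Σ x_i y_i on F^(2m) (F finite, m ≥ 1, excluding m = 2 over the field of two elements) and an invertible m × m matrix A, the block-diagonal isometry diag(A, (A⁻¹)ᵀ), which stabilises the two maximal totally singular subspaces x = 0 and y = 0, lies in Ω⁺_2m(F) (the commutator subgroup of the orthogonal group) if and only if det A is a square in F. -/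
theorem result {F : Type*} [Field F] [Fintype F] {m : ℕ} (hm : 1 ≤ m) (h : Fintype.card F ≠ 2 ∨ m ≠ 2) (A : GL (Fin m) F) : (∃ g : ↥(Cfsg.isometryGroup F (Cfsg.quadFormPlus m F)), g ∈ Cfsg.Omega F (Cfsg.quadFormPlus m F) ∧ ((g : Matrix.GeneralLinearGroup (Fin m ⊕ Fin m) F) : Matrix (Fin m ⊕ Fin m) (Fin m ⊕ Fin m) F) = Matrix.fromBlocks (A : Matrix (Fin m) (Fin m) F) 0 0 ((A : Matrix (Fin m) (Fin m) F)⁻¹).transpose) ↔ IsSquare (A : Matrix (Fin m) (Fin m) F).det := by
  classical
  have hval := H6.Quad.levi_val m A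
  have hiff : (∃ g : ↥(Cfsg.isometryGroup F (Cfsg.quadFormPlus m F)),
      g ∈ Cfsg.Omega F (Cfsg.quadFormPlus m F) ∧
      ((g : Matrix.GeneralLinearGroup (Fin m ⊕ Fin m) F) :
        Matrix (Fin m ⊕ Fin m) (Fin m ⊕ Fin m) F) =
        Matrix.fromBlocks (A : Matrix (Fin m) (Fin m) F) 0 0
          ((A : Matrix (Fin m) (Fin m) F)⁻¹).transpose) ↔
      H6.Quad.levi m F A ∈ Cfsg.Omega F (Cfsg.quadFormPlus m F) := by
    constructor
    · rintro ⟨g, hg, hgv⟩
      have : g = H6.Quad.levi m F A := Subtype.ext (Units.ext (hgv.trans hval.symm))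
      rwa [← this]
    · intro hg
      exact ⟨_, hg, hval⟩
  rw [hiff]
  by_cases h2 : (2 : F) = 0
  · have hex : Nat.card F ≠ 2 ∨ Fintype.card (Fin m ⊕ Fin m) ≠ 4 := by
      rcases h with h | h
      · left; rwa [Nat.card_eq_fintype_card]
      · right; simp; omega
    have : CharP F 2 := CharTwo.of_one_ne_zero_of_two_eq_zero one_ne_zero h2
    have hsq := FiniteField.isSquare_of_char_two (F := F) (ringChar.eq F 2)
      (A : Matrix (Fin m) (Fin m) F).det
    simp only [hsq, iff_true]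
    rw [H6.Quad.mem_Omega_iff_dickM h2 (H6.Quad.qPlus m F) (H6.Quad.nondeg_qPlus m) hex _
      (H6.Quad.qPlus_apply m), ← H6.Quad.even_lag_iff_dickM (H6.Quad.qPlus m F)
      (H6.Quad.nondeg_qPlus m) hex _ (H6.Quad.qPlus_apply m) (by simp; ring) _
      (H6.Quad.finrank_ker_inr m) (H6.Quad.singular_ker_inr m)]
    set U₀ := LinearMap.ker (LinearMap.funLeft F F (Sum.inr : Fin m → Fin m ⊕ Fin m)) with hU₀
    have hmap : U₀.map (Matrix.mulVecLin ((H6.Quad.levi m F A :
        Matrix.GeneralLinearGroup (Fin m ⊕ Fin m) F) :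
        Matrix (Fin m ⊕ Fin m) (Fin m ⊕ Fin m) F)) = U₀ := by
      apply Submodule.eq_of_le_of_finrank_eq
      · rintro _ ⟨x, hx, rfl⟩
        have hx' : x ∘ Sum.inr = 0 := LinearMap.mem_ker.mp hx
        rw [hU₀, LinearMap.mem_ker, Matrix.mulVecLin_apply, hval, Matrix.fromBlocks_mulVec, hx']
        funext i
        simp [LinearMap.funLeft_apply]
      · rw [← H6.Quad.equiv_toLin (H6.Quad.qPlus m F) _ (H6.Quad.qPlus_apply m),
          H6.Quad.finrank_map_isom]
    rw [hmap, inf_idem, H6.Quad.finrank_ker_inr]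
    simp
  · exact H6.Quad.levi_mem_iff h2 hm A

end Cfsg.Agent.S2611
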