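import Cfsg.Statements.S2612
import Cfsg.Agent.Lib_helper6_OmegaPlus
import Cfsg.Agent.Lib_helper6_ReflProd

set_option autoImplicit false
open Cfsg

namespace Cfsg.Agent.S2612

/-- The swap of the two standard maximal totally singular subspaces. -/
def sP (m : ℕ) (F : Type*) [Field F] : Cfsg.isometryGroup F (Cfsg.quadFormPlus m F) :=
  ⟨⟨Matrix.fromBlocks 0 1 1 0, Matrix.fromBlocks 0 1 1 0, by
      rw [Matrix.fromBlocks_multiply]; simp, by
      rw [Matrix.fromBlocks_multiply]; simp⟩, fun u _ => by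
    change Cfsg.quadFormPlus m F ((Matrix.fromBlocks 0 1 1 0 :
      Matrix (Fin m ⊕ Fin m) (Fin m ⊕ Fin m) F).mulVec u) = Cfsg.quadFormPlus m F u
    rw [H6.Quad.quadFormPlus_eq_dotProduct, H6.Quad.quadFormPlus_eq_dotProduct,
      Matrix.fromBlocks_mulVec]
    simp only [Matrix.zero_mulVec, add_zero, zero_add, Sum.elim_comp_inl, Sum.elim_comp_inr,
      Matrix.one_mulVec]
    exact dotProduct_comm _ _⟩

theorem sP_mulVec (m : ℕ) (F : Type*) [Field F] (v : Fin m ⊕ Fin m → F) :
    ((sP m F : Matrix.GeneralLinearGroup (Fin m ⊕ Fin m) F) :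
      Matrix (Fin m ⊕ Fin m) (Fin m ⊕ Fin m) F).mulVec v = Sum.elim (v ∘ Sum.inr) (v ∘ Sum.inl) := by
  change (Matrix.fromBlocks 0 1 1 0 : Matrix (Fin m ⊕ Fin m) (Fin m ⊕ Fin m) F).mulVec v = _
  rw [Matrix.fromBlocks_mulVec]
  simp

theorem inf_eq_bot {F : Type*} [Field F] {m : ℕ}
    (g : ↥(Cfsg.isometryGroup F (Cfsg.quadFormPlus m F)))
    (hg : ∀ v : Fin m ⊕ Fin m → F, (∀ i, v (Sum.inr i) = 0) → ∀ i,
      (((g : Matrix.GeneralLinearGroup (Fin m ⊕ Fin m) F) :
        Matrix (Fin m ⊕ Fin m) (Fin m ⊕ Fin m) F).mulVec v) (Sum.inl i) = 0) :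
    LinearMap.ker (LinearMap.funLeft F F (Sum.inr : Fin m → Fin m ⊕ Fin m)) ⊓
      (LinearMap.ker (LinearMap.funLeft F F (Sum.inr : Fin m → Fin m ⊕ Fin m))).map
        (Matrix.mulVecLin ((g : Matrix.GeneralLinearGroup (Fin m ⊕ Fin m) F) :
          Matrix (Fin m ⊕ Fin m) (Fin m ⊕ Fin m) F)) = ⊥ := by
  rw [eq_bot_iff]
  rintro x ⟨hx, ⟨y, hy, rfl⟩⟩
  have hy' : ∀ i, y (Sum.inr i) = 0 := fun i => congrFun (LinearMap.mem_ker.mp hy) i
  have hx' : ∀ i, _ = (0 : F) := fun i => congrFun (LinearMap.mem_ker.mp hx) i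
  rw [Submodule.mem_bot]
  funext k
  rcases k with k | k
  · exact hg y hy' k
  · exact hx' k

/-- For the hyperbolic quadratic form Σ x_i y_i on F^(2m) (F finite, m ≥ 1, excluding m = 2 over the field of two elements), Ω⁺_2m(F) (the commutator subgroup of the orthogonal group) contains an element interchanging the two complementary maximal totally singular subspaces {y = 0} and {x = 0} if and only if m is even (dimension divisible by 4). -/
theorem result {F : Type*} [Field F] [Fintype F] {m : ℕ} (hm : 1 ≤ m) (h : Fintype.card F ≠ 2 ∨ m ≠ 2) : (∃ g : ↥(Cfsg.isometryGroup F (Cfsg.quadFormPlus m F)), g ∈ Cfsg.Omega F (Cfsg.quadFormPlus m F) ∧ (∀ v : Fin m ⊕ Fin m → F, (∀ i, v (Sum.inr i) = 0) → ∀ i, (((g : Matrix.GeneralLinearGroup (Fin m ⊕ Fin m) F) : Matrix (Fin m ⊕ Fin m) (Fin m ⊕ Fin m) F).mulVec v) (Sum.inl i) = 0) ∧ (∀ v : Fin m ⊕ Fin m → F, (∀ i, v (Sum.inl i) = 0) → ∀ i, (((g : Matrix.GeneralLinearGroup (Fin m ⊕ Fin m) F) : Matrix (Fin m ⊕ Fin m) (Fin m ⊕ Fin m)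 F).mulVec v) (Sum.inr i) = 0)) ↔ Even m := by
  classical
  have hQ := H6.Quad.nondeg_qPlus (F := F) m
  constructor
  · rintro ⟨g, hg, h1, -⟩
    have := H6.Quad.even_lag_of_mem_Omega (H6.Quad.qPlus m F) hQ _ (H6.Quad.qPlus_apply m)
      (by simp; ring) _ (H6.Quad.finrank_ker_inr m) (H6.Quad.singular_ker_inr m) hg
    rw [inf_eq_bot g h1] at this
    simpa using this
  · intro hme
    have hs1 : ∀ v : Fin m ⊕ Fin m → F, (∀ i, v (Sum.inr i) = 0) → ∀ i,
        (((sP m F : Matrix.GeneralLinearGroup (Fin m ⊕ Fin m) F) :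
          Matrix (Fin m ⊕ Fin m) (Fin m ⊕ Fin m) F).mulVec v) (Sum.inl i) = 0 := by
      intro v hv i
      rw [sP_mulVec]
      exact hv i
    refine ⟨sP m F, ?_, hs1, ?_⟩
    · by_cases h2 : (2 : F) = 0
      · have hex : Nat.card F ≠ 2 ∨ Fintype.card (Fin m ⊕ Fin m) ≠ 4 := by
          rcases h with h | h
          · left; rwa [Nat.card_eq_fintype_card]
          · right; simp; omega
        rw [H6.Quad.mem_Omega_iff_dickM h2 (H6.Quad.qPlus m F) hQ hex _
          (H6.Quad.qPlus_apply m), ← H6.Quad.even_lag_iff_dickM (H6.Quad.qPlus m F)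
          hQ hex _ (H6.Quad.qPlus_apply m) (by simp; ring) _
          (H6.Quad.finrank_ker_inr m) (H6.Quad.singular_ker_inr m), inf_eq_bot _ hs1]
        simpa using hme
      · set u : Fin m → (Fin m ⊕ Fin m → F) :=
          fun i => Pi.single (Sum.inl i) 1 - Pi.single (Sum.inr i) 1 with hu
        have hQu : ∀ i, H6.Quad.qPlus m F (u i) = -1 := by
          intro i
          rw [H6.Quad.qPlus_apply]
          simp [Cfsg.quadFormPlus, hu, Pi.single_apply]
        have hQu' : ∀ i, H6.Quad.qPlus m F (u i) ≠ 0 := fun i => by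
          rw [hQu]; exact neg_ne_zero.mpr one_ne_zero
        have hB : ∀ x i, H6.Quad.pol (H6.Quad.qPlus m F) x (u i) =
            x (Sum.inr i) - x (Sum.inl i) := by
          intro x i
          rw [H6.Quad.pol_qPlus]
          simp [hu, Pi.single_apply, Finset.sum_add_distrib, mul_sub, sub_mul,
            Finset.sum_sub_distrib]
          ring
        rw [H6.mem_commutator_equiv (H6.Quad.isometryGroupEquiv (H6.Quad.qPlus m F) _
          (H6.Quad.qPlus_apply m))]
        have : H6.Quad.isometryGroupEquiv (H6.Quad.qPlus m F) _ (H6.Quad.qPlus_apply m) (sP m F) =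
            ((List.ofFn u).map (H6.Quad.Rf' hQ)).prod := by
          apply Subtype.ext
          ext1 x
          rw [H6.Quad.isometryGroupEquiv_apply, sP_mulVec, H6.Quad.prod_ofFn_Rf'_apply hQ u hQu'
            (by
              intro i j hij
              rw [hB]
              simp [hu, Pi.single_apply, hij, Ne.symm hij])]
          simp only [hB, hQu]
          funext k
          rcases k with k | k
          · simp [hu, Pi.single_apply, Finset.sum_apply]
            ring
          · simp [hu, Pi.single_apply, Finset.sum_apply]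
            ring
        rw [this, H6.Quad.prod_ofFn_mem_commutator_iff h2 hQ (by simp; omega) u hQu']
        refine ⟨hme, ?_⟩
        simp only [hQu, Finset.prod_const, Finset.card_univ, Fintype.card_fin]
        rw [hme.neg_one_pow]
        exact IsSquare.one
    · intro v hv i
      rw [sP_mulVec]
      exact hv i

end Cfsg.Agent.S2612
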