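import Cfsg.Statements.S2614
import Cfsg.Agent.Lib_helper6_Spinor3

set_option autoImplicit false
open Cfsg

namespace Cfsg.Agent.S2614

/-- For the form x_0² + Σ x_j y_j on F^(2m+1), F finite with q elements, q odd, and 1 ≤ i ≤ m: the involution of determinant one negating the first i hyperbolic pairs (and fixing x_0 and the other pairs) lies in Ω_(2m+1)(q) (commutator subgroup of the orthogonal group) if and only if q^i ≡ 1 (mod 4); its (−1)-eigenspace is a hyperbolic 2i-space. -/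
theorem result {F : Type*} [Field F] [Fintype F] {q : ℕ} (hF : Fintype.card F = q) (hq : Odd q) {m : ℕ} (i : ℕ) (hi : 1 ≤ i) (him : i ≤ m) : (∃ g : ↥(Cfsg.isometryGroup F (Cfsg.quadFormOdd m F)), g ∈ Cfsg.Omega F (Cfsg.quadFormOdd m F) ∧ ((g : Matrix.GeneralLinearGroup (Unit ⊕ (Fin m ⊕ Fin m)) F) : Matrix (Unit ⊕ (Fin m ⊕ Fin m)) (Unit ⊕ (Fin m ⊕ Fin m)) F) = Matrix.diagonal (fun k : Unit ⊕ (Fin m ⊕ Fin m) => if (Sum.elim (fun _ : Unit => i) (Sum.elim (fun j : Fin m => (j : ℕ)) (fun j : Fin m => (j : ℕ))) k) < i then (-1 : F) else 1)) ↔ q ^ i % 4 = 1 := by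
  classical
  have h2 := H6.Quad.two_ne_zero_of_odd hF hq
  obtain ⟨α, hα⟩ := FiniteField.exists_nonsquare (F := F) (by
    intro hchar
    apply h2
    have := ringChar.Nat.cast_ringChar (R := F)
    rw [hchar] at this
    exact_mod_cast this)
  obtain ⟨d, hd1, hd2, hd3, hd4⟩ := H6.Quad.exists_negPairs h2 (H6.Quad.nondeg_qOdd h2 m) hα
    (fun j : Fin m => (Sum.inr (Sum.inl j) : Unit ⊕ (Fin m ⊕ Fin m))) (fun j => Sum.inr (Sum.inr j))
    (by
      rintro (j | j) (j' | j') h <;> simp_all)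
    (fun j => by rw [H6.Quad.qOdd_apply]; simp [Cfsg.quadFormOdd])
    (fun j => by rw [H6.Quad.qOdd_apply]; simp [Cfsg.quadFormOdd])
    (fun x j => by rw [H6.Quad.pol_qOdd]; simp [Pi.single_apply])
    (fun x j => by rw [H6.Quad.pol_qOdd]; simp [Pi.single_apply]) i him
  rw [H6.Quad.exists_mem_Omega_iff (H6.Quad.qOdd m F) _ (H6.Quad.qOdd_apply m) d]
  · exact H6.Quad.negPairs_mem_iff hF hq (H6.Quad.nondeg_qOdd h2 m) (by simp; omega) hα d hd3 hd4
  · intro x
    funext k
    rw [Matrix.mulVec_diagonal]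
    by_cases hk : (Sum.elim (fun _ : Unit => i) (Sum.elim (fun j : Fin m => (j : ℕ))
        (fun j : Fin m => (j : ℕ))) k) < i
    · rw [if_pos hk, hd1 x k (by
        rcases k with j | j | j
        · simp at hk
        · exact ⟨j, hk, Or.inl rfl⟩
        · exact ⟨j, hk, Or.inr rfl⟩)]
      ring
    · rw [if_neg hk, hd2 x k (by
        rintro ⟨j, hj, rfl | rfl⟩
        · exact hk hj
        · exact hk hj)]
      ring

end Cfsg.Agent.S2614
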