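import Cfsg.Statements.S2615
import Cfsg.Agent.Lib_helper6_Spinor3

set_option autoImplicit false
open Cfsg

namespace Cfsg.Agent.S2615

/-- For an elliptic form Σ_(j<m−1) x_j y_j + (z₁² + a z₁z₂ + b z₂²) (anisotropic binary part) on F^(2m), F finite with q elements, q odd, and 1 ≤ i ≤ m − 1: the involution negating the first i hyperbolic pairs and fixing the rest lies in Ω⁻_2m(q) (commutator subgroup of the orthogonal group) if and only if q^i ≡ 1 (mod 4). -/
theorem result {F : Type*} [Field F] [Fintype F] {q : ℕ} (hF : Fintype.card F = q) (hq : Odd q) {m : ℕ} (a b : F) (hab : ∀ z₁ z₂ : F, z₁ ^ 2 + a * z₁ * z₂ + b * z₂ ^ 2 = 0 → z₁ = 0 ∧ z₂ = 0) (i : ℕ) (hi : 1 ≤ i) (him : i + 1 ≤ m) : (∃ g : ↥(Cfsg.isometryGroup F (Cfsg.quadFormMinus (m - 1) F a b)), g ∈ Cfsg.Omega F (Cfsg.quadFormMinus (m - 1) F a b) ∧ ((g : Matrix.GeneralLinearGroup ((Fin (m - 1) ⊕ Fin (m - 1)) ⊕ Fin 2) F) : Matrix ((Fin (m - 1) ⊕ Fin (m - 1)) ⊕ Fin 2) ((Fin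 (m - 1) ⊕ Fin (m - 1)) ⊕ Fin 2) F) = Matrix.diagonal (fun k : (Fin (m - 1) ⊕ Fin (m - 1)) ⊕ Fin 2 => if (Sum.elim (Sum.elim (fun j : Fin (m - 1) => (j : ℕ)) (fun j : Fin (m - 1) => (j : ℕ))) (fun _ : Fin 2 => i) k) < i then (-1 : F) else 1)) ↔ q ^ i % 4 = 1 := by
  classical
  have h2 := H6.Quad.two_ne_zero_of_odd hF hq
  obtain ⟨α, hα⟩ := FiniteField.exists_nonsquare (F := F) (by
    intro hchar
    apply h2
    have := ringChar.Nat.cast_ringChar (R := F)
    rw [hchar] at this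
    exact_mod_cast this)
  obtain ⟨d, hd1, hd2, hd3, hd4⟩ := H6.Quad.exists_negPairs h2
    (H6.Quad.nondeg_qMinus (m - 1) a b hab) hα
    (fun j : Fin (m - 1) => (Sum.inl (Sum.inl j) : (Fin (m - 1) ⊕ Fin (m - 1)) ⊕ Fin 2))
    (fun j => Sum.inl (Sum.inr j))
    (by
      rintro (j | j) (j' | j') h
      · simpa using h
      · simp at h
      · simp at h
      · simpa using h)
    (fun j => by rw [H6.Quad.qMinus_apply]; simp [Cfsg.quadFormMinus])
    (fun j => by rw [H6.Quad.qMinus_apply]; simp [Cfsg.quadFormMinus])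
    (fun x j => by rw [H6.Quad.pol_qMinus]; simp [Pi.single_apply])
    (fun x j => by rw [H6.Quad.pol_qMinus]; simp [Pi.single_apply]) i (by omega)
  rw [H6.Quad.exists_mem_Omega_iff (H6.Quad.qMinus (m - 1) F a b) _
    (H6.Quad.qMinus_apply (m - 1) a b) d]
  · exact H6.Quad.negPairs_mem_iff hF hq (H6.Quad.nondeg_qMinus (m - 1) a b hab) (by simp) hα d
      hd3 hd4
  · intro x
    funext k
    rw [Matrix.mulVec_diagonal]
    by_cases hk : (Sum.elim (Sum.elim (fun j : Fin (m - 1) => (j : ℕ))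
        (fun j : Fin (m - 1) => (j : ℕ))) (fun _ : Fin 2 => i) k) < i
    · rw [if_pos hk, hd1 x k (by
        rcases k with (j | j) | j
        · exact ⟨j, hk, Or.inl rfl⟩
        · exact ⟨j, hk, Or.inr rfl⟩
        · simp at hk)]
      ring
    · rw [if_neg hk, hd2 x k (by
        rintro ⟨j, hj, rfl | rfl⟩
        · exact hk hj
        · exact hk hj)]
      ring

end Cfsg.Agent.S2615
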