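import Cfsg.Statements.S2619
import Cfsg.Agent.Lib_helper6_QuadClass

set_option autoImplicit false
open Cfsg

namespace Cfsg.Agent.S2619

/-- Over a finite field of characteristic two, given an alternating bilinear form B on a finite-dimensional space, a basis (v_i) and scalars (λ_i), there is exactly one quadratic form whose polar form is B and whose value at each v_i is λ_i. -/
theorem result {F V ι : Type*} [Field F] [Finite F] [CharP F 2] [AddCommGroup V] [Module F V] [Fintype ι] (b : Module.Basis ι F V) (B : LinearMap.BilinForm F V) (hB : B.IsAlt) (c : ι → F) : ∃! Q : QuadraticForm F V, QuadraticMap.polarBilin Q = B ∧ ∀ i, Q (b i) = c i := by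
  classical
  letI : LinearOrder ι := LinearOrder.lift' (Fintype.equivFin ι) (Fintype.equivFin ι).injective
  obtain ⟨M, hM⟩ : ∃ M : Matrix ι ι F, ∀ i j, M i j =
      if i = j then c i else if i < j then B (b i) (b j) else 0 := ⟨_, fun _ _ => rfl⟩
  have hB' : ∀ i j, Matrix.toBilin b M (b i) (b j) = M i j := by
    intro i j
    rw [← LinearMap.BilinForm.toMatrix_apply b, LinearMap.BilinForm.toMatrix_toBilin]
  refine ⟨(Matrix.toBilin b M).toQuadraticMap, ⟨?_, ?_⟩, ?_⟩
  · apply LinearMap.BilinForm.ext_basis b
    intro i j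
    rw [QuadraticMap.polarBilin_apply_apply, LinearMap.BilinMap.polar_toQuadraticMap, hB', hB',
      hM, hM]
    rcases lt_trichotomy i j with h | h | h
    · rw [if_neg h.ne, if_pos h, if_neg h.ne', if_neg h.asymm, add_zero]
    · subst h
      rw [if_pos rfl, hB, CharTwo.add_self_eq_zero]
    · rw [if_neg h.ne', if_neg h.asymm, if_neg h.ne, if_pos h, zero_add, ← hB.neg_eq,
        CharTwo.neg_eq]
  · intro i
    rw [LinearMap.BilinMap.toQuadraticMap_apply, hB', hM, if_pos rfl]
  · rintro Q' ⟨h1, h2⟩
    apply H6.Quad.ext_of_basis b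
    · intro i j
      change QuadraticMap.polarBilin Q' _ _ = QuadraticMap.polarBilin _ _ _
      rw [h1, QuadraticMap.polarBilin_apply_apply, LinearMap.BilinMap.polar_toQuadraticMap, hB',
        hB', hM, hM]
      rcases lt_trichotomy i j with h | h | h
      · rw [if_neg h.ne, if_pos h, if_neg h.ne', if_neg h.asymm, add_zero]
      · subst h
        rw [if_pos rfl, hB, CharTwo.add_self_eq_zero]
      · rw [if_neg h.ne', if_neg h.asymm, if_neg h.ne, if_pos h, zero_add, ← hB.neg_eq,
          CharTwo.neg_eq]
    · intro i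
      rw [h2, LinearMap.BilinMap.toQuadraticMap_apply, hB', hM, if_pos rfl]

end Cfsg.Agent.S2619
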