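import Cfsg.Statements.S2622
import Cfsg.Agent.Lib_helper6_QuadBasis

set_option autoImplicit false
open Cfsg

namespace Cfsg.Agent.S2622

theorem mem_orth_singleton {F V : Type*} [Field F] [AddCommGroup V] [Module F V]
    (B : LinearMap.BilinForm F V) (v w : V) :
    w ∈ B.orthogonal (Submodule.span F {v}) ↔ B v w = 0 := by
  rw [LinearMap.BilinForm.mem_orthogonal_iff]
  constructor
  · intro h
    exact h v (Submodule.mem_span_singleton_self v)
  · intro h x hx
    obtain ⟨c, rfl⟩ := Submodule.mem_span_singleton.mp hx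
    change B (c • v) w = 0
    rw [map_smul, LinearMap.smul_apply, h, smul_zero]

theorem exists_good {F V : Type*} [Field F] [Finite F] [CharP F 2] [AddCommGroup V] [Module F V]
    [FiniteDimensional F V] (B : LinearMap.BilinForm F V) (hS : B.IsSymm) (hB : B.Nondegenerate)
    (hna : ∃ v : V, B v v ≠ 0) (hd : 2 ≤ Module.finrank F V) :
    ∃ v w : V, B v v = 1 ∧ B v w = 0 ∧ B w w ≠ 0 := by
  have := Fintype.ofFinite F
  obtain ⟨v₁, hv₁⟩ := hna
  obtain ⟨s, hs⟩ := FiniteField.isSquare_of_char_two (ringChar.eq F 2) (B v₁ v₁)⁻¹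
  obtain ⟨v₀, hv₀⟩ : ∃ v₀, B v₀ v₀ = 1 := ⟨s • v₁, by
    simp only [map_smul, LinearMap.smul_apply, smul_eq_mul]
    rw [← mul_assoc, ← hs, inv_mul_cancel₀ hv₁]⟩
  by_cases h : ∃ w, B v₀ w = 0 ∧ B w w ≠ 0
  · obtain ⟨w, h1, h2⟩ := h
    exact ⟨v₀, w, hv₀, h1, h2⟩
  · push Not at h
    have hfr := LinearMap.BilinForm.finrank_orthogonal hB (Submodule.span F {v₀})
    have hv₀0 : v₀ ≠ 0 := by
      rintro rfl
      simp at hv₀
    rw [finrank_span_singleton hv₀0] at hfr
    have hne : B.orthogonal (Submodule.span F {v₀}) ≠ ⊥ := by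
      intro h'
      rw [h', finrank_bot] at hfr
      omega
    obtain ⟨e, heP, he0⟩ := Submodule.exists_mem_ne_zero_of_ne_bot hne
    rw [mem_orth_singleton] at heP
    obtain ⟨x, hx⟩ : ∃ x, B e x ≠ 0 := by
      by_contra hcon
      push Not at hcon
      exact he0 (hB.1 e hcon)
    have hev : B e v₀ = 0 := by rw [hS.eq, heP]
    obtain ⟨f, hvf, hef⟩ : ∃ f, B v₀ f = 0 ∧ B e f = 1 := by
      refine ⟨(B e x)⁻¹ • (x - B v₀ x • v₀), ?_, ?_⟩
      · rw [map_smul, map_sub, map_smul, hv₀]; simp
      · rw [map_smul, map_sub, map_smul, hev, smul_zero, sub_zero, smul_eq_mul,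
          inv_mul_cancel₀ hx]
    have hee := h e heP
    have hff := h f hvf
    have hfv : B f v₀ = 0 := by rw [hS.eq, hvf]
    refine ⟨v₀ + e, v₀ + f, ?_, ?_, ?_⟩
    · simp only [map_add, LinearMap.add_apply, hv₀, heP, hev, hee]; simp
    · simp only [map_add, LinearMap.add_apply, hv₀, hvf, hev, hef]
      simp [CharTwo.add_self_eq_zero]
    · simp only [map_add, LinearMap.add_apply, hv₀, hvf, hfv, hff]; simp

theorem exists_family {F : Type*} [Field F] [Finite F] [CharP F 2] (n : ℕ) :
    ∀ (V : Type*) [AddCommGroup V] [Module F V] [FiniteDimensional F V]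
    (B : LinearMap.BilinForm F V), B.IsSymm → B.Nondegenerate → (∃ v : V, B v v ≠ 0) →
    Module.finrank F V = n → ∃ b : Fin n → V, ∀ i j, B (b i) (b j) = if i = j then 1 else 0 := by
  induction n with
  | zero =>
    intro V _ _ _ B _ _ _ _
    exact ⟨Fin.elim0, fun i => i.elim0⟩
  | succ k ih =>
    intro V _ _ _ B hS hB hna hV
    have := Fintype.ofFinite F
    rcases Nat.eq_zero_or_pos k with rfl | hk
    · obtain ⟨v₁, hv₁⟩ := hna
      obtain ⟨s, hs⟩ := FiniteField.isSquare_of_char_two (ringChar.eq F 2) (B v₁ v₁)⁻¹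
      refine ⟨fun _ => s • v₁, fun i j => ?_⟩
      have hij : i = j := by
        apply Fin.ext
        omega
      rw [if_pos hij]
      simp only [map_smul, LinearMap.smul_apply, smul_eq_mul]
      rw [← mul_assoc, ← hs, inv_mul_cancel₀ hv₁]
    · obtain ⟨v, w, hvv, hvw, hww⟩ := exists_good B hS hB hna (by omega)
      have hv0 : v ≠ 0 := by
        rintro rfl
        simp at hvv
      have hfr := LinearMap.BilinForm.finrank_orthogonal hB (Submodule.span F {v})
      rw [finrank_span_singleton hv0, hV] at hfr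
      obtain ⟨b', hb'⟩ := ih (B.orthogonal (Submodule.span F {v}))
        (B.restrict (B.orthogonal (Submodule.span F {v})))
        (hS.restrict _)
        (LinearMap.BilinForm.restrict_nondegenerate_orthogonal_spanSingleton B hB hS.isRefl
          (by rw [hvv]; exact one_ne_zero))
        ⟨⟨w, (mem_orth_singleton B v w).mpr hvw⟩, hww⟩ (by omega)
      have hvb : ∀ i, B v (b' i : V) = 0 := fun i => (mem_orth_singleton B v _).mp (b' i).2
      have hbv : ∀ i, B (b' i : V) v = 0 := fun i => by rw [hS.eq, hvb]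
      refine ⟨Fin.cons v (fun i => (b' i : V)), fun i j => ?_⟩
      refine Fin.cases ?_ (fun i => ?_) i <;> refine Fin.cases ?_ (fun j => ?_) j
      · simpa using hvv
      · simp only [Fin.cons_zero, Fin.cons_succ, (Fin.succ_ne_zero j).symm, if_false]
        exact hvb j
      · simp only [Fin.cons_zero, Fin.cons_succ, Fin.succ_ne_zero i, if_false]
        exact hbv i
      · simp only [Fin.cons_succ, Fin.succ_inj]
        exact hb' i j

/-- Over a finite field of characteristic two, a non-degenerate symmetric bilinear form that is not alternating (some vector v has B(v, v) ≠ 0) admits an orthonormal basis. -/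
theorem result {F V : Type*} [Field F] [Finite F] [CharP F 2] [AddCommGroup V] [Module F V] [FiniteDimensional F V] {n : ℕ} (hV : Module.finrank F V = n) (B : LinearMap.BilinForm F V) (hS : B.IsSymm) (hB : B.Nondegenerate) (hna : ∃ v : V, B v v ≠ 0) : ∃ b : Module.Basis (Fin n) F V, ∀ i j, B (b i) (b j) = if i = j then 1 else 0 := by
  obtain ⟨b, hb⟩ := exists_family n V B hS hB hna hV
  have hli : LinearIndependent F b := H6.Quad.li_of_dual B b b hb
  rcases Nat.eq_zero_or_pos n with rfl | hn
  · have : Subsingleton V := Module.finrank_zero_iff.mp hV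
    exact ⟨Module.Basis.empty V, fun i => i.elim0⟩
  · have : Nonempty (Fin n) := ⟨⟨0, hn⟩⟩
    refine ⟨basisOfLinearIndependentOfCardEqFinrank hli (by simp [hV]), ?_⟩
    simp only [coe_basisOfLinearIndependentOfCardEqFinrank]
    exact hb

end Cfsg.Agent.S2622
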