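import Cfsg.Statements.S2623
import Cfsg.Agent.Lib_helper6_Disc2

set_option autoImplicit false
open Cfsg

namespace Cfsg.Agent.S2623

/-- Over a finite field of odd order, two quadratic forms on F^n with non-degenerate polar forms are isometric (related by an invertible linear change of variables) if and only if their discriminants (determinants of the Gram matrices of their polar forms) lie in the same square class. -/
theorem result {F : Type*} [Field F] [Fintype F] (h2 : (2 : F) ≠ 0) {n : ℕ} (Q₁ Q₂ : QuadraticForm F (Fin n → F)) (h₁ : (QuadraticMap.polarBilin Q₁).Nondegenerate) (h₂ : (QuadraticMap.polarBilin Q₂).Nondegenerate) : (∃ g : (Fin n → F) ≃ₗ[F] (Fin n → F), ∀ v, Q₂ (g v) = Q₁ v) ↔ IsSquare ((Matrix.of (fun i j : Fin n => QuadraticMap.polar ⇑Q₁ (Pi.single i 1) (Pi.single j 1))).det * (Matrix.of (fun i j : Fin n => QuadraticMap.polar ⇑Q₂ (Pi.single i 1) (Pi.single j 1))).det) := by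
  classical
  have e₁ : Matrix.of (fun i j : Fin n => QuadraticMap.polar ⇑Q₁ (Pi.single i 1) (Pi.single j 1)) =
      H6.Quad.gram (H6.Quad.pol Q₁) (Pi.basisFun F (Fin n)) := by
    ext i j
    simp [H6.Quad.gram_apply]
  have e₂ : Matrix.of (fun i j : Fin n => QuadraticMap.polar ⇑Q₂ (Pi.single i 1) (Pi.single j 1)) =
      H6.Quad.gram (H6.Quad.pol Q₂) (Pi.basisFun F (Fin n)) := by
    ext i j
    simp [H6.Quad.gram_apply]
  rw [e₁, e₂]
  constructor
  · rintro ⟨g, hg⟩
    apply H6.Quad.isSquare_disc_mul_of_isometry _ _ g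
    intro x y
    simp only [H6.Quad.pol, QuadraticMap.polarBilin_apply_apply, QuadraticMap.polar, ← map_add, hg]
  · intro hsq
    obtain ⟨g, hg⟩ := H6.Quad.exists_isometry_of_isSquare h2 (H6.Quad.pol Q₁) (H6.Quad.pol Q₂)
      ⟨fun x y => H6.Quad.pol_comm x y⟩ ⟨fun x y => H6.Quad.pol_comm x y⟩ h₁ h₂ rfl _ _ hsq
    refine ⟨g, fun v => ?_⟩
    have := hg v v
    rw [H6.Quad.pol_self, H6.Quad.pol_self] at this
    exact mul_left_cancel₀ h2 this

end Cfsg.Agent.S2623
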