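import Cfsg.Statements.S2624
import Cfsg.Agent.Lib_helper6_Disc2

set_option autoImplicit false
open Cfsg

namespace Cfsg.Agent.S2624

/-- For a quadratic form Q on F^n with non-degenerate polar form, F finite and n ≥ 2 even, every non-zero scalar c is the multiplier of some similarity: there is an invertible linear map g with Q(g v) = c·Q(v) for all v. -/
theorem result {F : Type*} [Field F] [Fintype F] {n : ℕ} (hn : 2 ≤ n) (he : Even n) (Q : QuadraticForm F (Fin n → F)) (hQ : (QuadraticMap.polarBilin Q).Nondegenerate) (c : F) (hc : c ≠ 0) : ∃ g : (Fin n → F) ≃ₗ[F] (Fin n → F), ∀ v, Q (g v) = c * Q v := by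
  classical
  by_cases h2 : (2 : F) = 0
  · have : CharP F 2 := CharTwo.of_one_ne_zero_of_two_eq_zero one_ne_zero h2
    obtain ⟨s, hs⟩ := FiniteField.isSquare_of_char_two (F := F) (ringChar.eq F 2) c
    have hs0 : s ≠ 0 := by
      rintro rfl
      exact hc (by rw [hs, mul_zero])
    refine ⟨LinearEquiv.smulOfNeZero F _ s hs0, fun v => ?_⟩
    rw [LinearEquiv.smulOfNeZero_apply, H6.Quad.Q_smul, hs]
  · have hpol : ∀ x y, H6.Quad.pol (c • Q) x y = c * H6.Quad.pol Q x y := by
      intro x y
      simp only [H6.Quad.pol, QuadraticMap.polarBilin_apply_apply, QuadraticMap.polar,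
        QuadraticMap.smul_apply, smul_eq_mul]
      ring
    have hnd : (H6.Quad.pol (c • Q)).Nondegenerate := by
      apply H6.Quad.nondeg_of_left
      intro v hv
      apply hQ.1
      intro w
      have := hv w
      rw [hpol] at this
      exact (mul_eq_zero.mp this).resolve_left hc
    have hg1 : H6.Quad.gram (H6.Quad.pol (c • Q)) (Pi.basisFun F (Fin n)) =
        c • H6.Quad.gram (H6.Quad.pol Q) (Pi.basisFun F (Fin n)) := by
      ext i j
      simp only [H6.Quad.gram_apply, hpol, Matrix.smul_apply, smul_eq_mul]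
    obtain ⟨g, hg⟩ := H6.Quad.exists_isometry_of_isSquare h2 (H6.Quad.pol (c • Q)) (H6.Quad.pol Q)
      ⟨fun x y => H6.Quad.pol_comm x y⟩ ⟨fun x y => H6.Quad.pol_comm x y⟩ hnd hQ rfl
      (Pi.basisFun F (Fin n)) (Pi.basisFun F (Fin n)) (by
        rw [hg1, Matrix.det_smul, Fintype.card_fin]
        obtain ⟨k, rfl⟩ := he
        exact ⟨c ^ k * (H6.Quad.gram (H6.Quad.pol Q) (Pi.basisFun F (Fin (k + k)))).det, by ring⟩)
    refine ⟨g, fun v => ?_⟩
    have := hg v v
    rw [hpol, H6.Quad.pol_self, H6.Quad.pol_self] at this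
    apply mul_left_cancel₀ h2
    linear_combination this

end Cfsg.Agent.S2624
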