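import Cfsg.Statements.S2625
import Cfsg.Agent.Lib_helper6_Disc2

set_option autoImplicit false
open Cfsg

namespace Cfsg.Agent.S2625

/-- For a quadratic form Q on F^n with non-degenerate polar form, F finite and n odd (so |F| is odd), the multiplier of any similarity is a square: if g is an invertible linear map with Q(g v) = c·Q(v) for all v then c is a square. -/
theorem result {F : Type*} [Field F] [Fintype F] {n : ℕ} (hn : Odd n) (Q : QuadraticForm F (Fin n → F)) (hQ : (QuadraticMap.polarBilin Q).Nondegenerate) (g : (Fin n → F) ≃ₗ[F] (Fin n → F)) (c : F) (hg : ∀ v, Q (g v) = c * Q v) : IsSquare c := by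
  classical
  set b := Pi.basisFun F (Fin n) with hb
  have hpol : ∀ x y, H6.Quad.pol Q (g x) (g y) = c * H6.Quad.pol Q x y := by
    intro x y
    simp only [H6.Quad.pol, QuadraticMap.polarBilin_apply_apply, QuadraticMap.polar, ← map_add, hg]
    ring
  have h1 : H6.Quad.gram (H6.Quad.pol Q) (b.map g) = c • H6.Quad.gram (H6.Quad.pol Q) b := by
    ext i j
    simp [H6.Quad.gram_apply, hpol]
  obtain ⟨s, hs, e⟩ := H6.Quad.exists_det_gram_eq (H6.Quad.pol Q) b (b.map g)
  rw [h1, Matrix.det_smul, Fintype.card_fin] at e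
  have hd := H6.Quad.det_gram_ne_zero hQ b
  have e' : c ^ n = s * s := mul_right_cancel₀ hd e
  obtain ⟨k, rfl⟩ := hn
  by_cases hc : c = 0
  · rw [hc]; exact IsSquare.zero
  · refine ⟨s / c ^ k, ?_⟩
    have : c ^ (2 * k + 1) = c ^ k * c ^ k * c := by ring
    rw [this] at e'
    field_simp
    linear_combination e'

end Cfsg.Agent.S2625
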