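import Cfsg.Statements.S2627
import Cfsg.Agent.Lib_helper6_OmegaFunct

set_option autoImplicit false
open Cfsg

namespace Cfsg.Agent.S2627

/-- For an orthogonal direct sum Q = Q₁ ⊕ Q₂ of quadratic forms with non-degenerate polar forms over a finite field, an isometry g₁ of Q₁ extended by the identity on the second summand lies in Ω(Q) (the commutator subgroup of the orthogonal group of Q) if and only if g₁ lies in Ω(Q₁). (Excluded: the field of two elements when the first summand or the whole space has dimension 4, where the commutator subgroup of O⁺₄(2) is smaller than the group usually called Ω.) -/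
theorem result {F : Type*} [Field F] [Fintype F] {k l : ℕ} (h : Fintype.card F ≠ 2 ∨ (k ≠ 4 ∧ k + l ≠ 4)) (Q₁ : QuadraticForm F (Fin k → F)) (Q₂ : QuadraticForm F (Fin l → F)) (h₁ : (QuadraticMap.polarBilin Q₁).Nondegenerate) (h₂ : (QuadraticMap.polarBilin Q₂).Nondegenerate) (g₁ : ↥(Cfsg.isometryGroup F ⇑Q₁)) : (∃ g : ↥(Cfsg.isometryGroup F (fun v : Fin k ⊕ Fin l → F => Q₁ (v ∘ Sum.inl) + Q₂ (v ∘ Sum.inr))), g ∈ Cfsg.Omega F (fun v : Fin k ⊕ Fin l → F => Q₁ (v ∘ Sum.inl) + Q₂ (v ∘ Sum.inr)) ∧ ((g : Matrix.GeneralLinearGroup (Fin k ⊕ Fin l) F) : Matrix (Fin k ⊕ Fin l) (Fin k ⊕ Fin l) F) = Matrix.fromBlocks ((g₁ : Matrix.GeneralLinearGroup (Fin k) F) : Matrix (Fin k) (Fin k) F) 0 0 1) ↔ g₁ ∈ Cfsg.Omega F ⇑Q₁ := by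
  classical
  set Qs := H6.Quad.qSum Q₁ Q₂ with hQs
  have hQ : (H6.Quad.pol Qs).Nondegenerate := H6.Quad.nondeg_qSum h₁ h₂
  set e₁ := H6.Quad.isometryGroupEquiv Q₁ ⇑Q₁ (fun _ => rfl) with he₁
  set e := H6.Quad.isometryGroupEquiv Qs _ (H6.Quad.qSum_apply Q₁ Q₂) with he
  set φ : H6.IsomOf (F := F) (H6.Quad.bet Q₁) →* H6.IsomOf (F := F) (H6.Quad.bet Qs) :=
    e.toMonoidHom.comp (((H6.Quad.blockO ⇑Q₁ ⇑Q₂).comp (MonoidHom.inl _ _)).comp
      e₁.symm.toMonoidHom) with hφ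
  have hφe : ∀ x, φ (e₁ x) = e (H6.Quad.blockO ⇑Q₁ ⇑Q₂ (x, 1)) := by
    intro x
    change e (H6.Quad.blockO ⇑Q₁ ⇑Q₂ (e₁.symm (e₁ x), 1)) = _
    rw [MulEquiv.symm_apply_apply]
  have key := H6.Quad.mem_commutator_iff_of_Rf_hom h₁ hQ
    (by
      rcases h with h | h
      · left; rwa [Nat.card_eq_fintype_card]
      · right; simpa using h.1)
    (by
      rcases h with h | h
      · left; rwa [Nat.card_eq_fintype_card]
      · right; simpa using h.2)
    (by simp) φ (fun u => Sum.elim u 0)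
    (fun u => by rw [hQs, H6.Quad.qSum_apply]; simp)
    (fun u hu hu' => by
      rw [← H6.Quad.equiv_reflElt Q₁ h₁ u hu, ← he₁, hφe]
      apply Subtype.ext
      ext1 x
      rw [he, H6.Quad.isometryGroupEquiv_apply, H6.Quad.Rf_apply, H6.Quad.blockO_val,
        Matrix.fromBlocks_mulVec, hQs, H6.Quad.pol_qSum, H6.Quad.qSum_apply]
      change Sum.elim ((Cfsg.reflectionMatrix ⇑Q₁ u).mulVec (x ∘ Sum.inl) + _) _ = _
      rw [H6.Quad.reflectionMatrix_mulVec]
      funext i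
      rcases i with i | i
      · simp
      · simp) (e₁ g₁)
  rw [hφe, ← H6.mem_commutator_equiv, ← H6.mem_commutator_equiv] at key
  constructor
  · rintro ⟨g, hg, hgv⟩
    have : g = H6.Quad.blockO ⇑Q₁ ⇑Q₂ (g₁, 1) := Subtype.ext (Units.ext hgv)
    rw [this] at hg
    exact key.mp hg
  · intro hg
    exact ⟨_, key.mpr hg, rfl⟩

end Cfsg.Agent.S2627
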