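import Cfsg.Statements.S2631
import Cfsg.Agent.Lib_helper6_OmegaTrans

set_option autoImplicit false
open Cfsg

namespace Cfsg.Agent.S2631

/-- For the hyperbolic form Σ x_i y_i on F^(2m) over a finite field (m ≥ 1, excluding m = 2 over the field of two elements), Ω (the commutator subgroup of the orthogonal group) acts transitively on each of the two classes of maximal totally singular subspaces: if U and W are m-dimensional totally singular subspaces with m − dim(U ∩ W) even, some element of Ω carries U to W. -/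
theorem result {F : Type*} [Field F] [Fintype F] {m : ℕ} (hm : 1 ≤ m) (h : Fintype.card F ≠ 2 ∨ m ≠ 2) (U W : Submodule F (Fin m ⊕ Fin m → F)) (hU : Module.finrank F U = m) (hW : Module.finrank F W = m) (hU0 : ∀ u ∈ U, Cfsg.quadFormPlus m F u = 0) (hW0 : ∀ w ∈ W, Cfsg.quadFormPlus m F w = 0) (he : Even (m - Module.finrank F ↥(U ⊓ W))) : ∃ g : ↥(Cfsg.isometryGroup F (Cfsg.quadFormPlus m F)), g ∈ Cfsg.Omega F (Cfsg.quadFormPlus m F) ∧ U.map (Matrix.mulVecLin ((g : Matrix.GeneralLinearGroup (Fin m ⊕ Fin m) F) : Matrix (Fin m ⊕ Fin m) (Fin m ⊕ Fin m) F)) = W := by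
  classical
  apply H6.Quad.exists_Omega_of_abstract (H6.Quad.qPlus m F) _ (H6.Quad.qPlus_apply m)
    (fun f => U.map f = W)
  apply H6.Quad.omega_trans_lagrangian (H6.Quad.nondeg_qPlus m) _ hm (by simp; ring) U W hU hW
    (fun u hu => by rw [H6.Quad.qPlus_apply, hU0 u hu])
    (fun u hu => by rw [H6.Quad.qPlus_apply, hW0 u hu]) he
  rcases h with h | h
  · left; rwa [Nat.card_eq_fintype_card]
  · right; simp; omega

end Cfsg.Agent.S2631
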