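import Cfsg.Statements.S2634
import Cfsg.Agent.Lib_helper6_OmegaTrans

set_option autoImplicit false
open Cfsg

namespace Cfsg.Agent.S2634

/-- Over a finite field of characteristic two, Ω (the commutator subgroup of the orthogonal group of a quadratic form Q on F^n with non-degenerate polar form; excluding dimension 4 over the field of two elements) acts transitively on the non-singular 1-spaces: for u, v with Q(u) ≠ 0 and Q(v) ≠ 0 some element of Ω carries the line through u to the line through v. -/
theorem result {F : Type*} [Field F] [Fintype F] [CharP F 2] {n : ℕ} (h : Fintype.card F ≠ 2 ∨ n ≠ 4) (Q : QuadraticForm F (Fin n → F)) (hQ : (QuadraticMap.polarBilin Q).Nondegenerate) (u v : Fin n → F) (hu : Q u ≠ 0) (hv : Q v ≠ 0) : ∃ g : ↥(Cfsg.isometryGroup F ⇑Q), g ∈ Cfsg.Omega F ⇑Q ∧ (F ∙ ((g : Matrix.GeneralLinearGroup (Fin n) F) : Matrix (Fin n) (Fin n) F).mulVec u) = F ∙ v := by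
  classical
  have h2 : (2 : F) = 0 := CharTwo.two_eq_zero
  have := H6.Quad.exists_Omega_of_abstract Q ⇑Q (fun _ => rfl)
    (fun f => (Submodule.span F {u}).map f = Submodule.span F {v})
    (H6.Quad.omega_trans_line h2 hQ (by
      rcases h with h | h
      · left; rwa [Nat.card_eq_fintype_card]
      · right; simpa using h) u v hu hv)
  obtain ⟨g, hg, hgm⟩ := this
  refine ⟨g, hg, ?_⟩
  rw [← hgm, Submodule.map_span, Set.image_singleton]
  rfl

end Cfsg.Agent.S2634
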