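import Cfsg.Statements.S2635
import Cfsg.Agent.Lib_helper6_DicksonMat
import Cfsg.Agent.Lib_helper6_OBlock

set_option autoImplicit false
open Cfsg

namespace Cfsg.Agent.S2635

/-- Over a finite field of characteristic two, for a quadratic form Q on F^n with non-degenerate polar form, n ≥ 2, other than dimension 4 over the field of two elements, Ω (the commutator subgroup of the orthogonal group) is exactly the subgroup generated by the products of two reflections (orthogonal transvections) x ↦ x − Q(v)⁻¹ f(x, v) v, Q(v) ≠ 0: the products of an even number of reflections. -/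
theorem result {F : Type*} [Field F] [Fintype F] [CharP F 2] {n : ℕ} (hn : 2 ≤ n) (h : Fintype.card F ≠ 2 ∨ n ≠ 4) (Q : QuadraticForm F (Fin n → F)) (hQ : (QuadraticMap.polarBilin Q).Nondegenerate) : Cfsg.Omega F ⇑Q = Subgroup.closure {g : ↥(Cfsg.isometryGroup F ⇑Q) | ∃ u v : Fin n → F, Q u ≠ 0 ∧ Q v ≠ 0 ∧ ((g : Matrix.GeneralLinearGroup (Fin n) F) : Matrix (Fin n) (Fin n) F) = Cfsg.reflectionMatrix ⇑Q u * Cfsg.reflectionMatrix ⇑Q v} := by
  classical
  have h2 : (2 : F) = 0 := CharTwo.two_eq_zero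
  have hex : Nat.card F ≠ 2 ∨ Fintype.card (Fin n) ≠ 4 := by
    rcases h with h | h
    · left; rwa [Nat.card_eq_fintype_card]
    · right; simpa using h
  set S : Set ↥(Cfsg.isometryGroup F ⇑Q) := {g | ∃ u v : Fin n → F, Q u ≠ 0 ∧ Q v ≠ 0 ∧
    ((g : Matrix.GeneralLinearGroup (Fin n) F) : Matrix (Fin n) (Fin n) F) =
      Cfsg.reflectionMatrix ⇑Q u * Cfsg.reflectionMatrix ⇑Q v} with hS
  have hmem : ∀ u v (hu : Q u ≠ 0) (hv : Q v ≠ 0),
      H6.Quad.reflElt Q u hu * H6.Quad.reflElt Q v hv ∈ Subgroup.closure S := fun u v hu hv =>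
    Subgroup.subset_closure ⟨u, v, hu, hv, rfl⟩
  have hsq : ∀ u (hu : Q u ≠ 0), (H6.Quad.reflElt Q u hu)⁻¹ = H6.Quad.reflElt Q u hu := by
    intro u hu
    apply (H6.Quad.isometryGroupEquiv Q ⇑Q (fun _ => rfl)).injective
    rw [map_inv, H6.Quad.equiv_reflElt Q hQ]
    exact inv_eq_of_mul_eq_one_left (H6.Quad.Rf_mul_self hQ u hu)
  apply le_antisymm
  · intro g hg
    obtain ⟨u₀, hu₀⟩ := H6.Quad.exists_nonsingular hQ (by simp; omega)
    have key : ∀ x : ↥(Cfsg.isometryGroup F ⇑Q), x ∈ Subgroup.closure S ∨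
        x * H6.Quad.reflElt Q u₀ hu₀ ∈ Subgroup.closure S := by
      intro x
      have hx : x ∈ Subgroup.closure
          {g : Cfsg.isometryGroup F ⇑Q | ∃ v hv, g = H6.Quad.reflElt Q v hv} := by
        rw [H6.Quad.closure_reflElt Q hQ hex]; trivial
      have step : ∀ (x : ↥(Cfsg.isometryGroup F ⇑Q)) (v : Fin n → F) (hv : Q v ≠ 0),
          (x ∈ Subgroup.closure S ∨ x * H6.Quad.reflElt Q u₀ hu₀ ∈ Subgroup.closure S) →
          (x * H6.Quad.reflElt Q v hv ∈ Subgroup.closure S ∨
            x * H6.Quad.reflElt Q v hv * H6.Quad.reflElt Q u₀ hu₀ ∈ Subgroup.closure S) := by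
        intro x v hv hx
        rcases hx with hx | hx
        · right
          rw [mul_assoc]
          exact mul_mem hx (hmem _ _ _ _)
        · left
          have : x * H6.Quad.reflElt Q v hv = (x * H6.Quad.reflElt Q u₀ hu₀) *
              (H6.Quad.reflElt Q u₀ hu₀ * H6.Quad.reflElt Q v hv) := by
            have e : H6.Quad.reflElt Q u₀ hu₀ * H6.Quad.reflElt Q u₀ hu₀ = 1 := by
              have := inv_mul_cancel (H6.Quad.reflElt Q u₀ hu₀)
              rwa [hsq] at this
            rw [mul_assoc, ← mul_assoc (H6.Quad.reflElt Q u₀ hu₀), e, one_mul]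
          rw [this]
          exact mul_mem hx (hmem _ _ _ _)
      induction hx using Subgroup.closure_induction_right with
      | one => left; exact one_mem _
      | mul_right x _ y hy ih =>
        obtain ⟨v, hv, rfl⟩ := hy
        exact step x v hv ih
      | mul_inv_cancel x _ y hy ih =>
        obtain ⟨v, hv, rfl⟩ := hy
        rw [hsq]
        exact step x v hv ih
    have hle : ∀ x ∈ Subgroup.closure S, H6.Quad.dickM Q hQ ⇑Q (fun _ => rfl) x = 1 := by
      intro x hx
      have : Subgroup.closure S ≤ (H6.Quad.dickM Q hQ ⇑Q (fun _ => rfl)).ker := by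
        rw [Subgroup.closure_le]
        rintro y ⟨u, v, hu, hv, hy⟩
        have : y = H6.Quad.reflElt Q u hu * H6.Quad.reflElt Q v hv :=
          Subtype.ext (Units.ext hy)
        rw [SetLike.mem_coe, MonoidHom.mem_ker, this, map_mul, H6.Quad.dickM_reflElt,
          H6.Quad.dickM_reflElt]
        rfl
      exact this hx
    rcases key g with h' | h'
    · exact h'
    · exfalso
      have h3 := hle _ h'
      rw [map_mul, H6.Quad.dickM_reflElt, H6.Quad.dickM_eq_one_of_mem Q hQ _ _ hg] at h3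
      exact absurd h3 (by decide)
  · rw [Subgroup.closure_le]
    rintro y ⟨u, v, hu, hv, hy⟩
    have : y = H6.Quad.reflElt Q u hu * H6.Quad.reflElt Q v hv :=
      Subtype.ext (Units.ext hy)
    rw [SetLike.mem_coe, H6.Quad.mem_Omega_iff_dickM h2 Q hQ hex _ (fun _ => rfl), this, map_mul,
      H6.Quad.dickM_reflElt, H6.Quad.dickM_reflElt]
    rfl

end Cfsg.Agent.S2635
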