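import Cfsg.Statements.S2638
import Cfsg.Agent.Lib_helper6_IrredCent

set_option autoImplicit false
open Cfsg

namespace Cfsg.Agent.S2638

/-- If an element x of GL_n(q), n ≥ 1, has prime order r and the multiplicative order of q modulo r is n (r is a primitive prime divisor of q^n − 1, so x acts irreducibly), then the centraliser of x in GL_n(q) is cyclic of order q^n − 1 (the multiplicative group of the field with q^n elements, a Singer cycle). -/
theorem result {F : Type*} [Field F] [Fintype F] {p q : ℕ} [Fact p.Prime] [CharP F p] (hF : Fintype.card F = q) {n r : ℕ} (hn : 1 ≤ n) (hr : r.Prime) (hrp : r ≠ p) (hi : orderOf (q : ZMod r) = n) (x : GL (Fin n) F) (hx : orderOf x = r) : IsCyclic ↥(Subgroup.centralizer ({x} : Set (GL (Fin n) F))) ∧ Nat.card ↥(Subgroup.centralizer ({x} : Set (GL (Fin n) F))) = q ^ n - 1 := by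
  classical
  subst hF
  haveI : Fact r.Prime := ⟨hr⟩
  haveI : Nonempty (Fin n) := ⟨⟨0, hn⟩⟩
  obtain ⟨X, hX⟩ : ∃ X : Module.End F (Fin n → F),
      X = Matrix.toLin' (x : Matrix (Fin n) (Fin n) F) := ⟨_, rfl⟩
  have hxr : (x : Matrix (Fin n) (Fin n) F) ^ r = 1 := by
    have h1 : x ^ r = 1 := by rw [← hx]; exact pow_orderOf_eq_one x
    have := congrArg (fun y : GL (Fin n) F => (y : Matrix (Fin n) (Fin n) F)) h1
    simpa using this
  have hXr : X ^ r = 1 := by
    rw [hX, ← Matrix.toLin'_pow, hxr, Matrix.toLin'_one]
    rfl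
  have hX1 : X ≠ 1 := by
    intro h
    have h1 : (x : Matrix (Fin n) (Fin n) F) = 1 := by
      apply Matrix.toLin'.injective
      rw [← hX, h, Matrix.toLin'_one]
      rfl
    have h2 : x = 1 := Units.ext h1
    rw [h2, orderOf_one] at hx
    exact hr.one_lt.ne hx
  have hirr : H6.IrredEnd X :=
    H6.irredEnd_of_order X hXr hX1 hn (Module.finrank_fin_fun F) hi
  have hmem : ∀ g : GL (Fin n) F, g ∈ Subgroup.centralizer ({x} : Set (GL (Fin n) F)) ↔
      Matrix.toLin' (g : Matrix (Fin n) (Fin n) F) * X =
        X * Matrix.toLin' (g : Matrix (Fin n) (Fin n) F) := by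
    intro g
    rw [Subgroup.mem_centralizer_singleton_iff, hX, Module.End.mul_eq_comp, Module.End.mul_eq_comp,
      ← Matrix.toLin'_mul, ← Matrix.toLin'_mul]
    constructor
    · intro h
      have h1 : (g : Matrix (Fin n) (Fin n) F) * x = x * g := by
        have := congrArg (fun y : GL (Fin n) F => (y : Matrix (Fin n) (Fin n) F)) h
        simpa using this
      rw [h1]
    · intro h
      have h1 := Matrix.toLin'.injective h
      apply Units.ext
      simpa using h1
  constructor
  · let f : ↥(Subgroup.centralizer ({x} : Set (GL (Fin n) F))) →* Module.End F (Fin n → F) :=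
      { toFun := fun g => Matrix.toLin' ((g : GL (Fin n) F) : Matrix (Fin n) (Fin n) F)
        map_one' := by
          simp only [Subgroup.coe_one, Units.val_one, Matrix.toLin'_one]
          rfl
        map_mul' := fun a b => by
          simp only [Subgroup.coe_mul, Units.val_mul, Matrix.toLin'_mul]
          rfl }
    refine hirr.isCyclic f ?_ ?_
    · intro a b hab
      apply Subtype.ext
      apply Units.ext
      exact Matrix.toLin'.injective hab
    · intro g
      exact (hmem g.1).mp g.2
  · have h := hirr.card_centralizer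
    rw [Module.finrank_fin_fun] at h
    rw [← h]
    apply Nat.card_congr
    refine Equiv.subtypeEquiv (Matrix.GeneralLinearGroup.toLin (n := Fin n) (R := F)).toEquiv ?_
    intro g
    exact hmem g

end Cfsg.Agent.S2638
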