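import Cfsg.Statements.S2668
-- import your own Cfsg.Agent.* helpers here

set_option autoImplicit false
open Cfsg

namespace Cfsg.Agent.S2668

theorem mem_fix {X : Type*} [Group X] (τ : MulAut X) (x : X) :
    x ∈ (MulEquiv.toMonoidHom τ).eqLocus (MonoidHom.id X) ↔ τ x = x := Iff.rfl

theorem prod_tel {X : Type*} [Group X] (σ : MulAut X) (a : X) (d : ℕ) :
    ((List.range d).map (fun i => (σ ^ i) (a * (σ a)⁻¹))).prod = a * ((σ ^ d) a)⁻¹ := by
  induction d with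
  | zero => simp
  | succ d ih =>
    rw [List.range_succ, List.map_append, List.prod_append, ih]
    simp [pow_succ, MulAut.mul_apply, mul_assoc]

theorem pow_comm_apply {X : Type*} [Group X] (σ : MulAut X) (e : ℕ) (a : X) :
    (σ ^ e) (σ a) = σ ((σ ^ e) a) := by
  rw [← MulAut.mul_apply, ← MulAut.mul_apply, ← pow_succ, ← pow_succ']

theorem pow_fix {X : Type*} [Group X] (σ : MulAut X) (x : X) (hx : σ x = x) (n : ℕ) :
    (σ ^ n) x = x := by
  induction n with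
  | zero => simp
  | succ n ih => rw [pow_succ, MulAut.mul_apply, hx, ih]

theorem x_fixed {X : Type*} [Group X] (σ : MulAut X) (e : ℕ) (a : X)
    (hg : (σ ^ e) (a * (σ a)⁻¹) = a * (σ a)⁻¹) :
    σ (((σ ^ e) a)⁻¹ * a) = ((σ ^ e) a)⁻¹ * a := by
  have h1 := pow_comm_apply σ e a
  rw [map_mul, map_inv] at hg ⊢
  rw [h1] at hg
  have h2 : (σ ((σ ^ e) a))⁻¹ = ((σ ^ e) a)⁻¹ * (a * (σ a)⁻¹) := by rw [← hg]; group
  rw [h2]; group

theorem pow_pow_apply {X : Type*} [Group X] (τ : MulAut X) (a : X)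
    (hx : τ ((τ a)⁻¹ * a) = (τ a)⁻¹ * a) (k : ℕ) :
    ((τ ^ k) a)⁻¹ * a = ((τ a)⁻¹ * a) ^ k := by
  induction k with
  | zero => simp
  | succ k ih =>
    have h1 : τ a = a * ((τ a)⁻¹ * a)⁻¹ := by group
    have h2 : (τ ^ k) ((τ a)⁻¹ * a) = (τ a)⁻¹ * a := pow_fix τ _ hx k
    have h3 : (τ ^ (k+1)) a = (τ ^ k) a * ((τ a)⁻¹ * a)⁻¹ := by
      rw [pow_succ, MulAut.mul_apply]
      conv_lhs => rw [h1]
      rw [map_mul, map_inv, h2]
    rw [h3, pow_succ', ← ih]; group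


/-- Shintani descent and powers (abstract form). Let `σ` be an automorphism of a group `X`, `e ≥ 1` and `d ≥ 1`, let `g` be fixed by `σᵉ` and let `a` satisfy `g = a σ(a)⁻¹`, so that the Shintani map of `(X, σ, e)` sends the class of `g σ` to the class of `x = σᵉ(a)⁻¹ a`. Put `h = g σ(g) ⋯ σ^(d-1)(g)`, the part in `X` of the `d`-th power `(g σ)^d = h σ^d`. Then `h = a σ^d(a)⁻¹` (so `a` also serves for `h` with respect to `σ^d`), `h` is fixed by `(σ^d)ᵉ`, and `(σ^d)ᵉ(a)⁻¹ a = x^d`: the Shintani map of `(X, σ^d, e)` sends the class of `(g σ)^d` to the class of `x^d`. (When `d` divides `e`, the Shintani map of `(X, σ^d, e/d)` sends it to the class of `x` itself, since `(σ^d)^(e/d) = σᵉ`.) -/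
theorem result {X : Type*} [Group X] (σ : MulAut X) (e d : ℕ) (he : 1 ≤ e) (hd : 1 ≤ d)
    (g : X) (hg : g ∈ (MulEquiv.toMonoidHom (σ ^ e)).eqLocus (MonoidHom.id X)) (a : X) (ha : g = a * (σ a)⁻¹) :
    ((List.range d).map (fun i => (σ ^ i) g)).prod = a * ((σ ^ d) a)⁻¹ ∧
      ((List.range d).map (fun i => (σ ^ i) g)).prod ∈ (MulEquiv.toMonoidHom ((σ ^ d) ^ e)).eqLocus (MonoidHom.id X) ∧
      (((σ ^ d) ^ e) a)⁻¹ * a = (((σ ^ e) a)⁻¹ * a) ^ d := by
  subst ha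
  have hg' : (σ ^ e) (a * (σ a)⁻¹) = a * (σ a)⁻¹ := hg
  have hx := x_fixed σ e a hg'
  refine ⟨prod_tel σ a d, ?_, ?_⟩
  · rw [mem_fix]
    have hfix : ∀ i : ℕ, ((σ ^ d) ^ e) ((σ ^ i) (a * (σ a)⁻¹)) = (σ ^ i) (a * (σ a)⁻¹) := by
      intro i
      have h1 : ((σ ^ d) ^ e) = (σ ^ e) ^ d := pow_right_comm σ d e
      have h2 : ((σ ^ e) ^ d) * (σ ^ i) = (σ ^ i) * ((σ ^ e) ^ d) := by
        rw [← pow_mul, ← pow_add, ← pow_add, add_comm]
      rw [h1, ← MulAut.mul_apply, h2, MulAut.mul_apply, pow_fix (σ ^ e) _ hg' d]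
    rw [map_list_prod, List.map_map]
    congr 1
    apply List.map_congr_left
    intro i _
    exact hfix i
  · have h1 : ((σ ^ d) ^ e) = (σ ^ e) ^ d := pow_right_comm σ d e
    rw [h1]
    exact pow_pow_apply (σ ^ e) a (pow_fix σ _ hx e) d

end Cfsg.Agent.S2668
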