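import Cfsg.Statements.S2760
import Cfsg.Agent.Lib_helper5_CharP6

set_option autoImplicit false
open Cfsg

namespace Cfsg.Agent.S2760


/-- Let G be a finite group with C_G(O₂(G)) ≤ O₂(G) and H a subgroup of G such that H is normal in G, or the subgroup O²(H) generated by the elements of H of odd order is normal in G. Then C_H(O₂(H)) ≤ O₂(H). -/
theorem result {G : Type*} [Group G] [Finite G] (hchar : Subgroup.centralizer (Cfsg.pCore 2 G : Set G) ≤ Cfsg.pCore 2 G) (H : Subgroup G) (hH : H.Normal ∨ ((Cfsg.pResidual 2 ↥H).map H.subtype).Normal) : Subgroup.centralizer (Cfsg.pCore 2 ↥H : Set ↥H) ≤ Cfsg.pCore 2 ↥H := by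
  haveI : Fact (Nat.Prime 2) := ⟨Nat.prime_two⟩
  have htop : Cfsg.Agent.H5.CharPIn 2 (⊤ : Subgroup G) := by
    refine ⟨Cfsg.pCore 2 G, le_top, Cfsg.Agent.H1.pCore_isPGroup 2, ?_, ?_⟩
    · rw [Subgroup.normalizer_eq_top_iff.2 (Cfsg.Agent.H1.pCore_normal 2)]
    · rw [top_inf_eq]; exact hchar
  rw [← Cfsg.Agent.H5.charPIn_iff_centralizer_le]
  rcases hH with hH | hH
  · exact htop.of_normal le_top (by rw [Subgroup.normalizer_eq_top_iff.2 hH])
  · have hK := htop.of_normal (K := (Cfsg.pResidual 2 ↥H).map H.subtype) le_top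
      (by rw [Subgroup.normalizer_eq_top_iff.2 hH])
    apply hK.of_pgroup_extension (Subgroup.map_subtype_le _)
      (by rw [Subgroup.normalizer_eq_top_iff.2 hH]; exact le_top)
    intro y hy hyc
    refine ⟨⟨y, hy⟩, Subgroup.subset_closure ?_, rfl⟩
    change Nat.Coprime (orderOf (⟨y, hy⟩ : H)) 2
    rw [Subgroup.orderOf_mk]
    exact hyc

end Cfsg.Agent.S2760
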