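import Mathlib
import Cfsg.Statements.S2761
import Cfsg.Agent.S1012

set_option autoImplicit false
open Cfsg

namespace Cfsg.Agent.S2761

abbrev M3 := Matrix (Fin 3) (Fin 3) (ZMod 2)
abbrev SL3 := Matrix.SpecialLinearGroup (Fin 3) (ZMod 2)

def cond (M : M3) : Prop := M 2 0 = 0 ∧ M 2 1 = 0 ∧ M 2 2 = 1

theorem row_mul (A B : M3) (h : cond A) (j : Fin 3) : (A * B) 2 j = B 2 j := by
  rw [Matrix.mul_apply, Fin.sum_univ_three, h.1, h.2.1, h.2.2]
  simp

def T : Subgroup SL3 where
  carrier := {M | (M : M3) 2 0 = 0 ∧ (M : M3) 2 1 = 0 ∧ (M : M3) 2 2 = 1}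
  one_mem' := by
    refine ⟨?_, ?_, ?_⟩ <;> simp
  mul_mem' := by
    intro A B hA hB
    have h := row_mul (A : M3) (B : M3) hA
    refine ⟨?_, ?_, ?_⟩
    · rw [Matrix.SpecialLinearGroup.coe_mul, h]; exact hB.1
    · rw [Matrix.SpecialLinearGroup.coe_mul, h]; exact hB.2.1
    · rw [Matrix.SpecialLinearGroup.coe_mul, h]; exact hB.2.2
  inv_mem' := by
    intro A hA
    have h := row_mul (A : M3) ((A⁻¹ : SL3) : M3) hA
    have h1 : (A : M3) * ((A⁻¹ : SL3) : M3) = 1 := by
      rw [← Matrix.SpecialLinearGroup.coe_mul, mul_inv_cancel]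
      rfl
    rw [h1] at h
    refine ⟨?_, ?_, ?_⟩
    · rw [← h]; simp
    · rw [← h]; simp
    · rw [← h]; simp

theorem qd_eq : Cfsg.qd 2 = T := Subgroup.closure_eq T

set_option maxRecDepth 100000 in
theorem card_aux : Fintype.card {M : M3 // (M 0 0 * M 1 1 * M 2 2 - M 0 0 * M 1 2 * M 2 1 - M 0 1 * M 1 0 * M 2 2 + M 0 1 * M 1 2 * M 2 0 + M 0 2 * M 1 0 * M 2 1 - M 0 2 * M 1 1 * M 2 0 = 1) ∧ M 2 0 = 0 ∧ M 2 1 = 0 ∧ M 2 2 = 1} = 24 := by
  decide

set_option maxRecDepth 100000 in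
theorem ord_aux : ∀ M : M3, M 2 0 = 0 → M 2 1 = 0 → M 2 2 = 1 →
    M * M * M * M * M * M = 1 → (M * M = 1 ∨ M * M * M = 1) := by
  decide

theorem card_T : Nat.card T = 24 := by
  rw [← card_aux, ← Nat.card_eq_fintype_card]
  apply Nat.card_congr
  refine
    { toFun := fun x => ⟨(x.1 : M3), by
        have := x.1.2
        rw [Matrix.det_fin_three] at this
        exact this, x.2⟩
      invFun := fun y => ⟨⟨y.1, by
        rw [Matrix.det_fin_three]
        exact y.2.1⟩, y.2.2⟩
      left_inv := fun x => rfl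
      right_inv := fun y => rfl }

/-- The group Qd(2), the natural semidirect product of an elementary abelian group of order 4 by SL₂(2) (realised as the affine subgroup of SL₃(2)), is isomorphic to the symmetric group of degree 4. -/
theorem result : Nonempty (↥(Cfsg.qd 2) ≃* Equiv.Perm (Fin 4)) := by
  rw [qd_eq]
  apply Cfsg.Agent.S1012.result card_T
  intro g hg
  have h6 : g ^ 6 = 1 := by
    rw [← hg]
    exact pow_orderOf_eq_one g
  have hm : ∀ k : ℕ, (((g ^ k : T) : SL3) : M3) = ((g : SL3) : M3) ^ k := by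
    intro k
    rw [Subgroup.coe_pow, Matrix.SpecialLinearGroup.coe_pow]
  have h6' : ((g : SL3) : M3) ^ 6 = 1 := by
    rw [← hm, h6]
    rfl
  have key := ord_aux ((g : SL3) : M3) g.2.1 g.2.2.1 g.2.2.2 (by
    rw [← h6']
    simp only [pow_succ, pow_zero, one_mul])
  rcases key with h | h
  · have h2 : g ^ 2 = 1 := by
      apply Subtype.ext
      apply Subtype.ext
      rw [hm, pow_two, h]
      rfl
    have := orderOf_dvd_of_pow_eq_one h2
    rw [hg] at this
    omega
  · have h3 : g ^ 3 = 1 := by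
      apply Subtype.ext
      apply Subtype.ext
      rw [hm, pow_succ, pow_two, h]
      rfl
    have := orderOf_dvd_of_pow_eq_one h3
    rw [hg] at this
    omega

end Cfsg.Agent.S2761
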