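import Cfsg.Statements.S3116
import Cfsg.Agent.Lib_helper7_MaxClass5

set_option autoImplicit false
open Cfsg

namespace Cfsg.Agent.S3116

/-- The automorphism group of a dihedral 2-group of order at least 8, or of a quasi-dihedral (semidihedral) 2-group of order at least 16, is a 2-group. -/
theorem result {X : Type*} [Group X] [Finite X] (h2 : IsPGroup 2 X)
    (h : (∃ n : ℕ, 4 ≤ n ∧ Nonempty (X ≃* DihedralGroup n)) ∨ Cfsg.IsQuasiDihedral X) : IsPGroup 2 (MulAut X) := by
  rcases h with ⟨n, hn, ⟨e⟩⟩ | ⟨n, hn3, hcard, x, y, hx, hy, hrel⟩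
  · haveI : NeZero n := ⟨by omega⟩
    have hcard : Nat.card X = 2 * n := by
      rw [Nat.card_congr e.toEquiv, DihedralGroup.nat_card]
    obtain ⟨k, hk⟩ := h2.exists_card_eq
    obtain ⟨a, ha⟩ : ∃ a : X, a = e.symm (DihedralGroup.r 1) := ⟨_, rfl⟩
    obtain ⟨y, hy⟩ : ∃ y : X, y = e.symm (DihedralGroup.sr 0) := ⟨_, rfl⟩
    have hord : orderOf a = n := by
      rw [ha, MulEquiv.orderOf_eq, DihedralGroup.orderOf_r_one]
    obtain ⟨m, hm⟩ : ∃ m, n = 2 ^ m := by
      have h1 : n ∣ 2 ^ k := by rw [← hk, hcard]; exact Dvd.intro_left 2 rfl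
      obtain ⟨m, -, hm⟩ := (Nat.dvd_prime_pow Nat.prime_two).1 h1
      exact ⟨m, hm⟩
    have hidx2 : (Subgroup.zpowers a).index = 2 := by
      have := Subgroup.card_mul_index (Subgroup.zpowers a)
      rw [Nat.card_zpowers, hord, hcard, mul_comm 2 n] at this
      exact Nat.eq_of_mul_eq_mul_left (by omega) this
    have hyn : y ∉ Subgroup.zpowers a := by
      rintro ⟨s, hs⟩
      have h1 : e (a ^ s) = e y := congrArg e hs
      rw [map_zpow, ha, hy, MulEquiv.apply_symm_apply, MulEquiv.apply_symm_apply,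
        DihedralGroup.r_one_zpow] at h1
      exact absurd h1 (by simp)
    have h1 : y * a * y⁻¹ = a⁻¹ := by
      apply e.injective
      rw [map_mul, map_mul, map_inv, map_inv, ha, hy, MulEquiv.apply_symm_apply,
        MulEquiv.apply_symm_apply]
      simp
    have h3 : y ^ 2 = 1 := by
      apply e.injective
      rw [map_pow, hy, MulEquiv.apply_symm_apply, pow_two, map_one]
      simp
    intro α
    apply H7.exists_pow_eq_one_of_cyclic_index_two a m (hord.trans hm) hidx2 α
    by_contra hmem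
    have h5 := H7.sq_of_not_mem_dihedral hidx2 hyn h1 h3 (α a) hmem
    rw [← map_pow, map_eq_one_iff α α.injective, ← orderOf_dvd_iff_pow_eq_one, hord] at h5
    have := Nat.le_of_dvd (by norm_num) h5
    omega
  · have hidx2 : (Subgroup.zpowers x).index = 2 :=
      H7.index_zpowers_eq_two hcard x (by rw [hx]; ring)
    have h4 : 2 ^ 2 ≤ 2 ^ (n - 1) := Nat.pow_le_pow_right (by norm_num) (by omega)
    have h5 : 2 ^ n = 2 * 2 ^ (n - 1) := by rw [← pow_succ']; congr 1; omega
    have hyn : y ∉ Subgroup.zpowers x := by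
      intro hmem
      have hc := H7.zpowers_comm x y hmem x (Subgroup.mem_zpowers x)
      rw [hc, mul_inv_cancel_right] at hrel
      have h6 : x ^ 1 = x ^ (2 ^ (n - 1) - 1) := by rw [pow_one]; exact hrel
      rw [pow_eq_pow_iff_modEq, hx] at h6
      have := Nat.ModEq.eq_of_lt_of_lt h6 (by omega) (by omega)
      omega
    have hy2 : y ^ 2 = 1 := by rw [← hy, pow_orderOf_eq_one]
    intro α
    apply H7.exists_pow_eq_one_of_cyclic_index_two x n hx hidx2 α
    by_contra hmem
    have h7 := H7.pow_four_of_not_mem hx (by omega) hidx2 hyn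
      (Or.inr (Or.inr ⟨hn3, hrel, hy2⟩)) (α x) hmem
    rw [← map_pow, map_eq_one_iff α α.injective, ← orderOf_dvd_iff_pow_eq_one, hx] at h7
    have := Nat.le_of_dvd (by norm_num) h7
    omega

end Cfsg.Agent.S3116
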