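import Cfsg.Statements.S3704
import Mathlib
import Cfsg.Agent.Lib_helper4_CharH

set_option autoImplicit false
open Cfsg

namespace Cfsg.Agent.S3704

open Cfsg Cfsg.Agent.H4

/-- Let G be a finite group acting faithfully and 2-transitively on a finite set Ω of size n, and let H be a subgroup of index n in G which is not transitive on Ω and fixes no point of Ω. Then H has exactly two orbits on Ω. -/
theorem result {G Ω : Type*} [Group G] [Finite G] [MulAction G Ω] [FaithfulSMul G Ω] [Finite Ω] (h2 : MulAction.IsMultiplyPretransitive G Ω 2) (H : Subgroup G) (hidx : H.index = Nat.card Ω) (hnt : ¬ MulAction.IsPretransitive H Ω) (hfix : ∀ a : Ω, ∃ h : H, h • a ≠ a) : Nat.card (MulAction.orbitRel.Quotient H Ω) = 2 := by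
  classical
  haveI := Fintype.ofFinite G
  haveI := Fintype.ofFinite Ω
  haveI : Fintype H := Fintype.ofFinite H
  haveI : Fintype (Quotient (MulAction.orbitRel H Ω)) := Fintype.ofFinite _
  haveI := Fintype.ofFinite (IrrCharacter G)
  haveI := Fintype.ofFinite (IrrCharacter H)
  haveI hpt : MulAction.IsPretransitive G Ω := MulAction.isPretransitive_of_is_two_pretransitive
  have hX : 2 ≤ Nat.card Ω := by
    by_contra hlt
    apply hnt
    have h1 : Nat.card Ω ≤ 1 := by omega
    have h2 : Subsingleton Ω := (Finite.card_le_one_iff_subsingleton).1 h1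
    exact ⟨fun x y => ⟨1, Subsingleton.elim _ _⟩⟩
  haveI : Nonempty Ω := by
    by_contra h
    rw [not_nonempty_iff] at h
    rw [Nat.card_of_isEmpty] at hX
    omega
  obtain ⟨x0⟩ := ‹Nonempty Ω›
  obtain ⟨π, hπ⟩ : ∃ π : G → ℂ, π = fun g => (Nat.card (MulAction.fixedBy Ω g) : ℂ) := ⟨_, rfl⟩
  have hχ : IsIrrCharacter G (π - fun _ => 1) := by
    rw [hπ]
    exact (two_transitive_iff Ω hX).2 h2
  have hind : π = indFun (MulAction.stabilizer G x0) (fun _ => 1) := by
    rw [hπ]; exact permChar_eq_ind Ω x0
  have hchar : IsCharacter G π := by rw [hind]; exact IsCharacter.ind _ IsCharacter.one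
  have h1 : classInner π (fun _ => 1) = 1 := by
    rw [hind, frobenius_reciprocity _ _ _ (IsCharacter.isClassFunction IsCharacter.one)]
    haveI := Fintype.ofFinite (IrrCharacter (MulAction.stabilizer G x0))
    exact ((isIrrCharacter_iff _).mp (trivIrr (MulAction.stabilizer G x0)).2).2
  have h1' : classInner (fun _ => 1) π = 1 := by
    rw [← classInner_conj_symm, h1, map_one]
  have h11 : classInner (fun _ : G => (1 : ℂ)) (fun _ => 1) = 1 :=
    ((isIrrCharacter_iff _).mp (trivIrr G).2).2
  obtain ⟨θ, hθd⟩ : ∃ θ : G → ℂ, θ = indFun H (fun _ => 1) := ⟨_, rfl⟩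
  have hθ : IsCharacter G θ := by rw [hθd]; exact IsCharacter.ind _ IsCharacter.one
  have hθ1 : classInner θ (fun _ => 1) = 1 := by
    rw [hθd, frobenius_reciprocity _ _ _ (IsCharacter.isClassFunction IsCharacter.one)]
    exact ((isIrrCharacter_iff _).mp (trivIrr H).2).2
  have hθπ : classInner θ π = (Nat.card (MulAction.orbitRel.Quotient H Ω) : ℂ) := by
    rw [hθd, frobenius_reciprocity _ _ _ (IsCharacter.isClassFunction hchar)]
    have hb := MulAction.sum_card_fixedBy_eq_card_orbits_mul_card_group H Ω
    unfold classInner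
    have : ∑ h : H, (1 : ℂ) * (starRingEnd ℂ) (π h)
        = ((∑ h : H, Fintype.card (MulAction.fixedBy Ω h) : ℕ) : ℂ) := by
      push_cast
      apply Finset.sum_congr rfl
      intro h _
      rw [hπ]
      simp only [one_mul, map_natCast, Nat.card_eq_fintype_card]
      rfl
    rw [this, hb]
    have hH : (Nat.card H : ℂ) ≠ 0 := card_ne_zero_C
    rw [Nat.card_eq_fintype_card] at hH ⊢
    push_cast
    rw [Nat.card_eq_fintype_card]
    field_simp
  have hθ1v : θ 1 = (Nat.card Ω : ℂ) := by
    rw [hθd, indFun_apply_one, hidx, mul_one]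
  have hπ1v : π 1 = (Nat.card Ω : ℂ) := by
    rw [hπ]
    simp only
    congr 1
    apply Nat.card_congr
    exact { toFun := fun x => x.1
            invFun := fun x => ⟨x, one_smul G x⟩
            left_inv := fun x => rfl
            right_inv := fun x => rfl }
  obtain ⟨r, hr⟩ : ∃ r : ℕ, r = Nat.card (MulAction.orbitRel.Quotient H Ω) := ⟨_, rfl⟩
  rw [← hr] at hθπ ⊢
  have hr0 : r ≠ 0 := by
    rw [hr]
    haveI : Nonempty (MulAction.orbitRel.Quotient H Ω) := ⟨Quotient.mk'' x0⟩
    exact Nat.card_pos.ne'
  have hr1 : r ≠ 1 := by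
    intro h
    apply hnt
    rw [MulAction.pretransitive_iff_subsingleton_quotient]
    rw [hr] at h
    exact (Finite.card_le_one_iff_subsingleton).1 h.le
  have hθa : IsCharacter G (θ - fun _ => 1) :=
    IsCharacter.sub_constituent hθ (trivIrr G).2 (by
      show classInner θ (fun _ => 1) ≠ 0
      rw [hθ1]; exact one_ne_zero)
  have hin1 : classInner (θ - fun _ => 1) (π - fun _ => 1) = (r : ℂ) - 1 := by
    rw [classInner_sub_left, classInner_sub_right, classInner_sub_right, hθπ, hθ1, h1', h11]
    ring
  have hχχ : classInner (π - fun _ => 1) (π - fun _ => 1) = 1 := ((isIrrCharacter_iff _).mp hχ).2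
  by_contra hr2
  have hr3 : 3 ≤ r := by omega
  have hθb : IsCharacter G (θ - (fun _ => 1) - (π - fun _ => 1)) :=
    IsCharacter.sub_constituent hθa hχ (by
      rw [hin1]
      intro h
      have : (r : ℂ) = 1 := by linear_combination h
      exact hr1 (by exact_mod_cast this))
  have hθc : IsCharacter G (θ - (fun _ => 1) - (π - fun _ => 1) - (π - fun _ => 1)) :=
    IsCharacter.sub_constituent hθb hχ (by
      rw [classInner_sub_left, hin1, hχχ]
      intro h
      have : (r : ℂ) = 2 := by linear_combination h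
      exact hr2 (by exact_mod_cast this))
  obtain ⟨k, hk⟩ := IsCharacter.apply_one hθc
  simp only [Pi.sub_apply, hθ1v, hπ1v] at hk
  have : ((k + Nat.card Ω : ℕ) : ℂ) = (1 : ℕ) := by
    push_cast
    linear_combination -hk
  have h5 : k + Nat.card Ω = 1 := by exact_mod_cast this
  omega

end Cfsg.Agent.S3704
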