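import Cfsg.Statements.S3733

set_option autoImplicit false
open Cfsg

namespace Cfsg.Agent.S3733

/-- conjugation by an element of `A` as an endomorphism of `V`. -/
def actHom {G : Type*} [Group G] (A V : Subgroup G) (hAV : A ≤ Subgroup.normalizer (V : Set G))
    (a : A) : V →* V where
  toFun v := ⟨a * v * (a : G)⁻¹, (Subgroup.mem_normalizer_iff.1 (hAV a.2) v).1 v.2⟩
  map_one' := by apply Subtype.ext; simp
  map_mul' x y := by apply Subtype.ext; simp [mul_assoc]

/-- Let A and V be subgroups of a finite group with V abelian and nontrivial and A normalizing V. Suppose a nonempty finite family of proper subgroups of A partitions A: every non-identity element of A lies in exactly one member. If the number of members minus one is coprime to the order of V, then some member B of the family has a non-identity fixed point on V, that is V ∩ C(B) ≠ 1. -/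
theorem result {G : Type*} [Group G] [Finite G] (A V : Subgroup G) (hVab : IsMulCommutative V) (hV : V ≠ ⊥) (hAV : A ≤ Subgroup.normalizer (V : Set G)) (𝒜 : Finset (Subgroup G)) (hne : 𝒜.Nonempty) (hprop : ∀ B ∈ 𝒜, B < A) (hpart : ∀ a ∈ A, a ≠ 1 → ∃! B, B ∈ 𝒜 ∧ a ∈ B) (hk : (𝒜.card - 1).Coprime (Nat.card V)) : ∃ B ∈ 𝒜, V ⊓ Subgroup.centralizer (B : Set G) ≠ ⊥ := by
  classical
  by_contra hcon
  have hcon' : ∀ B ∈ 𝒜, V ⊓ Subgroup.centralizer (B : Set G) = ⊥ := by
    intro B hB
    by_contra h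
    exact hcon ⟨B, hB, h⟩
  letI : CommGroup V := { (inferInstance : Group V) with
    mul_comm := fun a b => Subtype.ext (setLike_mul_comm a.2 b.2) }
  haveI : Fintype A := Fintype.ofFinite A
  let φ := actHom A V hAV
  have hφmul : ∀ (a b : A) (v : V), φ a (φ b v) = φ (a * b) v := by
    intro a b v
    apply Subtype.ext
    change (a : G) * (b * v * (b : G)⁻¹) * (a : G)⁻¹ = ((a * b : A) : G) * v * ((a * b : A) : G)⁻¹
    simp [mul_assoc]
  let F : Subgroup G → Finset A := fun B => Finset.univ.filter (fun a : A => (a : G) ∈ B)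
  have hF : ∀ (B : Subgroup G) (a : A), a ∈ F B ↔ (a : G) ∈ B := by
    intro B a
    simp [F]
  -- the norm is centralized
  have hcent : ∀ (B : Subgroup G) (v : V), B ≤ A →
      ((∏ a ∈ F B, φ a v : V) : G) ∈ Subgroup.centralizer (B : Set G) := by
    intro B v hBA
    rw [Subgroup.mem_centralizer_iff]
    intro c hc
    have h1 : φ ⟨c, hBA hc⟩ (∏ a ∈ F B, φ a v) = ∏ a ∈ F B, φ a v := by
      rw [map_prod]
      simp only [hφmul]
      apply Finset.prod_equiv (Equiv.mulLeft (⟨c, hBA hc⟩ : A))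
      · intro a
        rw [hF, hF]
        change (a : G) ∈ B ↔ c * (a : G) ∈ B
        exact (Subgroup.mul_mem_cancel_left B hc).symm
      · intro a _
        rfl
    have h2 : c * ((∏ a ∈ F B, φ a v : V) : G) * c⁻¹ = ((∏ a ∈ F B, φ a v : V) : G) :=
      congrArg Subtype.val h1
    calc c * ((∏ a ∈ F B, φ a v : V) : G)
        = (c * ((∏ a ∈ F B, φ a v : V) : G) * c⁻¹) * c := by group
      _ = _ := by rw [h2]
  obtain ⟨B₀, hB₀⟩ := hne
  have hN1 : ∀ B ∈ 𝒜, ∀ v : V, ∏ a ∈ F B, φ a v = 1 := by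
    intro B hB v
    have h1 : ((∏ a ∈ F B, φ a v : V) : G) ∈ V ⊓ Subgroup.centralizer (B : Set G) :=
      Subgroup.mem_inf.2 ⟨(∏ a ∈ F B, φ a v : V).2, hcent B v (hprop B hB).le⟩
    rw [hcon' B hB, Subgroup.mem_bot] at h1
    exact Subtype.ext h1
  have hNA : ∀ v : V, ∏ a ∈ F A, φ a v = 1 := by
    intro v
    have h1 : ((∏ a ∈ F A, φ a v : V) : G) ∈ V ⊓ Subgroup.centralizer (B₀ : Set G) :=
      Subgroup.mem_inf.2 ⟨(∏ a ∈ F A, φ a v : V).2,
        Subgroup.centralizer_le (show (B₀ : Set G) ⊆ (A : Set G) from (hprop B₀ hB₀).le)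
          (hcent A v le_rfl)⟩
    rw [hcon' B₀ hB₀, Subgroup.mem_bot] at h1
    exact Subtype.ext h1
  have hone : ∀ B : Subgroup G, (1 : A) ∈ F B := fun B => (hF B 1).2 (one_mem B)
  have hφ1 : ∀ v : V, φ 1 v = v := by
    intro v
    apply Subtype.ext
    change ((1 : A) : G) * v * ((1 : A) : G)⁻¹ = v
    simp
  have hunion : 𝒜.biUnion (fun B => (F B).erase 1) = (F A).erase 1 := by
    ext a
    simp only [Finset.mem_biUnion, Finset.mem_erase, hF]
    constructor
    · rintro ⟨B, _, ha1, _⟩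
      exact ⟨ha1, a.2⟩
    · rintro ⟨ha1, _⟩
      obtain ⟨B, ⟨hB, haB⟩, _⟩ := hpart a a.2 (fun h => ha1 (Subtype.ext h))
      exact ⟨B, hB, ha1, haB⟩
  have hdisj : (𝒜 : Set (Subgroup G)).PairwiseDisjoint (fun B => (F B).erase 1) := by
    intro B hB B' hB' hne'
    rw [Function.onFun, Finset.disjoint_left]
    intro a ha ha'
    rw [Finset.mem_erase, hF] at ha ha'
    obtain ⟨B'', _, huniq⟩ := hpart a a.2 (fun h => ha.1 (Subtype.ext h))
    exact hne' ((huniq B ⟨hB, ha.2⟩).trans (huniq B' ⟨hB', ha'.2⟩).symm)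
  have hpow : ∀ v : V, v ^ (𝒜.card - 1) = 1 := by
    intro v
    have e1 : ∏ B ∈ 𝒜, ∏ a ∈ F B, φ a v = v ^ 𝒜.card * ∏ a ∈ (F A).erase 1, φ a v := by
      rw [← hunion, Finset.prod_biUnion hdisj, ← Finset.prod_const, ← Finset.prod_mul_distrib]
      apply Finset.prod_congr rfl
      intro B _
      rw [← Finset.mul_prod_erase (F B) _ (hone B), hφ1]
    have e2 : ∏ B ∈ 𝒜, ∏ a ∈ F B, φ a v = 1 := Finset.prod_eq_one (fun B hB => hN1 B hB v)
    have e3 : v * ∏ a ∈ (F A).erase 1, φ a v = 1 := by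
      have := Finset.mul_prod_erase (F A) (fun a => φ a v) (hone A)
      rw [hφ1, hNA v] at this
      exact this
    have hk : 𝒜.card = (𝒜.card - 1) + 1 := by
      have : 0 < 𝒜.card := Finset.card_pos.2 ⟨B₀, hB₀⟩
      omega
    rw [e2, hk, pow_succ, mul_assoc, e3, mul_one] at e1
    exact e1.symm
  apply hV
  rw [eq_bot_iff]
  intro v hv
  have h1 := hpow ⟨v, hv⟩
  have h2 : (⟨v, hv⟩ : V) ^ Nat.card V = 1 := pow_card_eq_one'
  have h3 := pow_gcd_eq_one.2 ⟨h1, h2⟩
  rw [Nat.Coprime.gcd_eq_one hk, pow_one] at h3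
  rw [Subgroup.mem_bot]
  exact congrArg Subtype.val h3

end Cfsg.Agent.S3733
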