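import Cfsg.Statements.S3735
import Cfsg.Agent.Lib_helper1_SZ
import Cfsg.Agent.Lib_helper3_Solv

set_option autoImplicit false
open Cfsg

namespace Cfsg.Agent.S3735

/-- Clifford's Theorem for actions on finite abelian groups, first part. Let H and V be subgroups of a finite group with V abelian and H normalizing V, and let A be a normal subgroup of H. If every H-invariant subgroup of V has an H-invariant complement in V, then every A-invariant subgroup of V has an A-invariant complement in V. -/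
theorem result {G : Type*} [Group G] [Finite G] (H A V : Subgroup G) (hVab : IsMulCommutative V) (hHV : H ≤ Subgroup.normalizer (V : Set G)) (hAH : A ≤ H) (hAn : H ≤ Subgroup.normalizer (A : Set G)) (hss : ∀ U : Subgroup G, U ≤ V → H ≤ Subgroup.normalizer (U : Set G) → ∃ W : Subgroup G, W ≤ V ∧ H ≤ Subgroup.normalizer (W : Set G) ∧ U ⊓ W = ⊥ ∧ U ⊔ W = V) (U : Subgroup G) (hUV : U ≤ V) (hAU : A ≤ Subgroup.normalizer (U : Set G)) : ∃ W : Subgroup G, W ≤ V ∧ A ≤ Subgroup.normalizer (W : Set G) ∧ U ⊓ W = ⊥ ∧ U ⊔ W = V := by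
  classical
  have hcomm : ∀ x ∈ V, ∀ y ∈ V, x * y = y * x := by
    intro x hx y hy
    exact congrArg Subtype.val (hVab.is_comm.comm (⟨x, hx⟩ : V) ⟨y, hy⟩)
  have hAV : A ≤ Subgroup.normalizer (V : Set G) := hAH.trans hHV
  -- normalizers of sup and inf
  have hsup : ∀ W₁ W₂ : Subgroup G, A ≤ Subgroup.normalizer (W₁ : Set G) →
      A ≤ Subgroup.normalizer (W₂ : Set G) → A ≤ Subgroup.normalizer ((W₁ ⊔ W₂ : Subgroup G) : Set G) := by
    intro W₁ W₂ h1 h2
    apply H1.le_normalizer_of_forall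
    intro a ha x hx
    have h3 : (W₁ ⊔ W₂).map (MulAut.conj a).toMonoidHom ≤ W₁ ⊔ W₂ := by
      rw [Subgroup.map_sup]
      apply sup_le_sup
      · rintro _ ⟨y, hy, rfl⟩
        exact H1.conj_mem_of_le_normalizer h1 ha hy
      · rintro _ ⟨y, hy, rfl⟩
        exact H1.conj_mem_of_le_normalizer h2 ha hy
    exact h3 ⟨x, hx, rfl⟩
  have hinf : ∀ W₁ W₂ : Subgroup G, A ≤ Subgroup.normalizer (W₁ : Set G) →
      A ≤ Subgroup.normalizer (W₂ : Set G) → A ≤ Subgroup.normalizer ((W₁ ⊓ W₂ : Subgroup G) : Set G) := by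
    intro W₁ W₂ h1 h2
    apply H1.le_normalizer_of_forall
    intro a ha x hx
    exact ⟨H1.conj_mem_of_le_normalizer h1 ha hx.1, H1.conj_mem_of_le_normalizer h2 ha hx.2⟩
  -- minimal invariant subgroups
  let Min : Subgroup G → Prop := fun M => M ≤ V ∧ A ≤ Subgroup.normalizer (M : Set G) ∧ M ≠ ⊥ ∧
    ∀ M' : Subgroup G, A ≤ Subgroup.normalizer (M' : Set G) → M' ≤ M → M' = ⊥ ∨ M' = M
  have hexMin : ∀ T : Subgroup G, T ≤ V → A ≤ Subgroup.normalizer (T : Set G) → T ≠ ⊥ →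
      ∃ M, Min M ∧ M ≤ T := by
    intro T hTV hAT hT
    obtain ⟨M, hM⟩ := (Set.toFinite {M : Subgroup G | A ≤ Subgroup.normalizer (M : Set G) ∧ M ≠ ⊥ ∧
      M ≤ T}).exists_minimal ⟨T, hAT, hT, le_refl T⟩
    refine ⟨M, ⟨hM.1.2.2.trans hTV, hM.1.1, hM.1.2.1, ?_⟩, hM.1.2.2⟩
    intro M' hM' hle
    by_cases h0 : M' = ⊥
    · exact Or.inl h0
    · exact Or.inr (le_antisymm hle (hM.2 ⟨hM', h0, hle.trans hM.1.2.2⟩ hle))
  let S : Subgroup G := ⨆ M : {M : Subgroup G // Min M}, M.1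
  have hSV : S ≤ V := iSup_le (fun M => M.2.1)
  have hconjMin : ∀ h ∈ H, ∀ M : Subgroup G, Min M → Min (M.map (MulAut.conj h).toMonoidHom) := by
    intro h hh M hM
    have hAconj : ∀ (k : G), k ∈ H → ∀ W : Subgroup G, A ≤ Subgroup.normalizer (W : Set G) →
        A ≤ Subgroup.normalizer ((W.map (MulAut.conj k).toMonoidHom : Subgroup G) : Set G) := by
      intro k hk W hW
      apply H1.le_normalizer_of_forall
      rintro a ha _ ⟨y, hy, rfl⟩
      refine ⟨(k⁻¹ * a * k) * y * (k⁻¹ * a * k)⁻¹, ?_, ?_⟩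
      · exact H1.conj_mem_of_le_normalizer hW (H1.conj_mem_of_le_normalizer' hAn hk ha) hy
      · simp only [MulEquiv.coe_toMonoidHom, MulAut.conj_apply]
        group
    refine ⟨?_, hAconj h hh M hM.2.1, ?_, ?_⟩
    · rintro _ ⟨y, hy, rfl⟩
      exact H1.conj_mem_of_le_normalizer hHV hh (hM.1 hy)
    · intro h0
      apply hM.2.2.1
      rw [eq_bot_iff] at h0 ⊢
      intro y hy
      have h1 : (MulAut.conj h).toMonoidHom y ∈ (⊥ : Subgroup G) := h0 ⟨y, hy, rfl⟩
      rw [Subgroup.mem_bot] at h1 ⊢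
      exact (map_eq_one_iff _ (MulAut.conj h).injective).mp h1
    · intro M' hM' hle
      have h1 := hM.2.2.2 (M'.map (MulAut.conj h⁻¹).toMonoidHom) (hAconj h⁻¹ (H.inv_mem hh) M' hM') (by
        rintro _ ⟨y, hy, rfl⟩
        obtain ⟨z, hz, rfl⟩ := hle hy
        simpa [mul_assoc] using hz)
      have hback : (M'.map (MulAut.conj h⁻¹).toMonoidHom).map (MulAut.conj h).toMonoidHom = M' := by
        rw [Subgroup.map_map]
        ext y
        constructor
        · rintro ⟨z, hz, rfl⟩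
          simpa [mul_assoc] using hz
        · intro hy
          exact ⟨y, hy, by simp [mul_assoc]⟩
      rcases h1 with h1 | h1
      · left
        rw [← hback, h1, Subgroup.map_bot]
      · right
        rw [← hback, h1]
  have hHS : H ≤ Subgroup.normalizer (S : Set G) := by
    apply H1.le_normalizer_of_forall
    intro h hh x hx
    have h3 : S.map (MulAut.conj h).toMonoidHom ≤ S := by
      rw [Subgroup.map_iSup]
      apply iSup_le
      intro M
      exact le_iSup (fun M : {M : Subgroup G // Min M} => M.1) ⟨_, hconjMin h hh M.1 M.2⟩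
    exact h3 ⟨x, hx, rfl⟩
  have hSeq : S = V := by
    obtain ⟨T, hTV, hHT, hST, hSTV⟩ := hss S hSV hHS
    have hT : T = ⊥ := by
      by_contra hT
      obtain ⟨M, hM, hMT⟩ := hexMin T hTV (hAH.trans hHT) hT
      apply hM.2.2.1
      rw [eq_bot_iff, ← hST]
      exact le_inf (le_iSup (fun M : {M : Subgroup G // Min M} => M.1) ⟨M, hM⟩) hMT
    rw [hT, sup_bot_eq] at hSTV
    exact hSTV
  -- a maximal invariant subgroup meeting `U` trivially
  obtain ⟨W, hW⟩ := (Set.toFinite {W : Subgroup G | W ≤ V ∧ A ≤ Subgroup.normalizer (W : Set G) ∧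
    U ⊓ W = ⊥}).exists_maximal ⟨⊥, bot_le, by
      apply H1.le_normalizer_of_forall
      intro a _ x hx
      rw [Subgroup.mem_bot] at hx ⊢
      rw [hx]; simp, inf_bot_eq U⟩
  refine ⟨W, hW.1.1, hW.1.2.1, hW.1.2.2, le_antisymm (sup_le hUV hW.1.1) ?_⟩
  rw [← hSeq]
  apply iSup_le
  rintro ⟨M, hM⟩
  show M ≤ U ⊔ W
  by_contra hMle
  have h1 : M ⊓ (U ⊔ W) = ⊥ := by
    rcases hM.2.2.2 (M ⊓ (U ⊔ W)) (hinf _ _ hM.2.1 (hsup _ _ hAU hW.1.2.1)) inf_le_left with h | h
    · exact h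
    · exact absurd (inf_eq_left.mp h) hMle
  have hMW : M ≤ Subgroup.normalizer (W : Set G) := by
    apply H1.le_normalizer_of_forall
    intro m hm w hw
    rw [hcomm m (hM.1 hm) w (hW.1.1 hw)]
    simpa using hw
  have h2 : U ⊓ (W ⊔ M) = ⊥ := by
    rw [eq_bot_iff]
    intro x hx
    obtain ⟨w, hw, m, hm, hxe⟩ := H3.mem_sup_of_le_normalizer hMW hx.2
    have hm1 : m ∈ M ⊓ (U ⊔ W) := by
      refine ⟨hm, ?_⟩
      have : m = w⁻¹ * x := by rw [hxe]; group
      rw [this]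
      exact Subgroup.mul_mem _ (Subgroup.mem_sup_right (W.inv_mem hw)) (Subgroup.mem_sup_left hx.1)
    rw [h1, Subgroup.mem_bot] at hm1
    rw [hm1, mul_one] at hxe
    rw [← hW.1.2.2]
    exact ⟨hx.1, hxe ▸ hw⟩
  have h3 := hW.2 (show W ⊔ M ∈ {W : Subgroup G | W ≤ V ∧ A ≤ Subgroup.normalizer (W : Set G) ∧
    U ⊓ W = ⊥} from ⟨sup_le hW.1.1 hM.1, hsup _ _ hW.1.2.1 hM.2.1, h2⟩) le_sup_left
  exact hMle ((le_sup_right.trans h3).trans le_sup_right)

end Cfsg.Agent.S3735
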