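import Cfsg.Statements.S3736
import Cfsg.Agent.Lib_helper1_MinAct
import Cfsg.Agent.Lib_helper7_Comm

set_option autoImplicit false
open Cfsg

namespace Cfsg.Agent.S3736

open Subgroup
open scoped commutatorElement

/-- fixed points of a coprime action with `[P, A] = P` lie in the derived subgroup. -/
theorem fix_le_comm {X : Type*} [Group X] [Finite X] {p : ℕ} [Fact p.Prime] (A P : Subgroup X)
    (hP : IsPGroup p P) (hAP : A ≤ normalizer (P : Set X)) (hAp : (Nat.card A).Coprime p)
    (hPA : ⁅P, A⁆ = P) : P ⊓ centralizer (A : Set X) ≤ ⁅P, P⁆ := by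
  classical
  letI : Fintype A := Fintype.ofFinite A
  let φ : A → (P →* P) := fun a =>
    { toFun := fun x => ⟨a * x * a⁻¹, (mem_normalizer_iff.1 (hAP a.2) x).1 x.2⟩
      map_one' := Subtype.ext (by simp)
      map_mul' := fun x y => Subtype.ext (by simp) }
  let ν : P →* Abelianization P := ∏ a : A, (Abelianization.of (G := P)).comp (φ a)
  have hν : ∀ g, ν g = ∏ a : A, Abelianization.of (φ a g) := by
    intro g
    simp only [ν, MonoidHom.finsetProd_apply]
    rfl
  have hνφ : ∀ (b : A) (x : P), ν (φ b x) = ν x := by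
    intro b x
    rw [hν, hν]
    have h1 : ∀ a : A, φ a (φ b x) = φ (a * b) x := by
      intro a
      apply Subtype.ext
      show (a : X) * ((b : X) * x * (b : X)⁻¹) * (a : X)⁻¹ = ((a * b : A) : X) * x * ((a * b : A) : X)⁻¹
      rw [Subgroup.coe_mul]; group
    simp only [h1]
    exact Fintype.prod_equiv (Equiv.mulRight b) _ _ (fun a => rfl)
  have hker : P ≤ (ν.ker).map P.subtype := by
    conv_lhs => rw [← hPA]
    rw [Subgroup.commutator_le]
    intro x hx b hb
    refine ⟨(⟨x, hx⟩ : P) * (φ ⟨b, hb⟩ ⟨x, hx⟩)⁻¹, ?_, ?_⟩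
    · show (⟨x, hx⟩ : P) * (φ ⟨b, hb⟩ ⟨x, hx⟩)⁻¹ ∈ ν.ker
      rw [MonoidHom.mem_ker, map_mul, map_inv, hνφ, mul_inv_cancel]
    · show x * (b * x * b⁻¹)⁻¹ = ⁅x, b⁆
      rw [commutatorElement_def]; group
  intro x hx
  have hxP := (mem_inf.1 hx).1
  have hxA := (mem_inf.1 hx).2
  have hν1 : ν ⟨x, hxP⟩ = 1 := by
    obtain ⟨y, hy, hyx⟩ := hker hxP
    have : y = ⟨x, hxP⟩ := Subtype.ext hyx
    rw [← this]; exact hy
  have h3 : (Abelianization.of (⟨x, hxP⟩ : P)) ^ (Nat.card A) = 1 := by
    rw [hν] at hν1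
    have h5 : ∀ a : A, φ a ⟨x, hxP⟩ = ⟨x, hxP⟩ := by
      intro a
      apply Subtype.ext
      show (a : X) * x * (a : X)⁻¹ = x
      rw [(mem_centralizer_iff.1 hxA) a a.2]; group
    simp only [h5] at hν1
    rw [Finset.prod_const, Finset.card_univ, ← Nat.card_eq_fintype_card] at hν1
    exact hν1
  obtain ⟨k, hk⟩ := hP ⟨x, hxP⟩
  have h6 : (Abelianization.of (⟨x, hxP⟩ : P)) ^ (p ^ k) = 1 := by rw [← map_pow, hk, map_one]
  have h7 : orderOf (Abelianization.of (⟨x, hxP⟩ : P)) ∣ Nat.gcd (Nat.card A) (p ^ k) :=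
    Nat.dvd_gcd (orderOf_dvd_of_pow_eq_one h3) (orderOf_dvd_of_pow_eq_one h6)
  rw [Nat.Coprime.pow_right k hAp, Nat.dvd_one, orderOf_eq_one_iff] at h7
  have h8 : (⟨x, hxP⟩ : P) ∈ _root_.commutator P := by
    rw [← Abelianization.ker_of, MonoidHom.mem_ker]; exact h7
  have h9 : (_root_.commutator P).map P.subtype = ⁅P, P⁆ := by
    rw [commutator_def, Subgroup.map_commutator, ← MonoidHom.range_eq_map, Subgroup.range_subtype]
  rw [← h9]
  exact ⟨_, h8, rfl⟩

/-- The Hall–Higman reduction for a minimal non-trivial action. Let B, A and P be subgroups of a finite group with P a p-group, B normalizing P, and A a normal subgroup of B of order prime to p. Suppose A does not centralize P but centralizes every proper B-invariant subgroup of P. Then [P, A] = P; P is elementary abelian or special; B acts irreducibly on P/Φ(P), that is, the only B-invariant subgroups of P containing Φ(P) are Φ(P) and P; and if p is odd then every element of P has order dividing p. -/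
theorem result {X : Type*} [Group X] [Finite X] {p : ℕ} [Fact p.Prime] (B A P : Subgroup X) (hP : IsPGroup p P) (hBP : B ≤ Subgroup.normalizer (P : Set X)) (hAB : A ≤ B) (hAn : B ≤ Subgroup.normalizer (A : Set X)) (hAp : (Nat.card A).Coprime p) (hnt : ⁅P, A⁆ ≠ ⊥) (hmin : ∀ U : Subgroup X, U < P → B ≤ Subgroup.normalizer (U : Set X) → ⁅U, A⁆ = ⊥) : ⁅P, A⁆ = P ∧ (Cfsg.IsElementaryAbelian p P ∨ Cfsg.IsSpecial p ↥P) ∧ (∀ U : Subgroup X, (frattini ↥P).map P.subtype ≤ U → U ≤ P → B ≤ Subgroup.normalizer (U : Set X) → U = (frattini ↥P).map P.subtype ∨ U = P) ∧ (p ≠ 2 → ∀ x ∈ P, x ^ p = 1) := by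
  have hp : p.Prime := Fact.out
  have hAP : A ≤ normalizer (P : Set X) := hAB.trans hBP
  have hcop : (Nat.card A).Coprime (Nat.card P) := by
    obtain ⟨k, hk⟩ := hP.exists_card_eq
    rw [hk]; exact Nat.Coprime.pow_right _ hAp
  have hPsol : Group.IsSolvable P := Cfsg.Agent.H1.isSolvable_of_isPGroup hP
  -- Step 1
  have hPA : ⁅P, A⁆ = P := by
    by_contra hne
    have hle : ⁅P, A⁆ ≤ P := Cfsg.Agent.H1.commutator_le_of_le_normalizer hAP
    have hB : B ≤ normalizer ((⁅P, A⁆ : Subgroup X) : Set X) := fun b hb =>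
      Cfsg.Agent.H7.mem_normalizer_commutator (hBP hb) (hAn hb)
    have h1 := hmin _ (lt_of_le_of_ne hle hne) hB
    rw [Cfsg.Agent.H1.coprime_comm_comm A P hAP hcop (Or.inr hPsol)] at h1
    exact hnt h1
  have hPne : P ≠ ⊥ := by
    intro h
    apply hnt
    rw [h]; exact Subgroup.commutator_bot_left _
  have hchar : ∀ C : Subgroup P, C.Characteristic →
      B ≤ normalizer ((C.map P.subtype : Subgroup X) : Set X) := by
    intro C hC
    haveI := hC
    exact hBP.trans (Cfsg.Agent.H1.normalizer_le_normalizer_map_of_characteristic P C)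
  set F := (frattini P).map P.subtype with hF
  have hFlt : F < P := by
    refine lt_of_le_of_ne (map_subtype_le _) ?_
    intro he
    have h1 : frattini P = ⊤ := by
      apply Subgroup.map_injective P.subtype_injective
      rw [← hF, he, ← MonoidHom.range_eq_map, Subgroup.range_subtype]
    have h2 : (⊥ : Subgroup P) = ⊤ := by
      apply frattini_nongenerating
      rw [h1]; simp
    apply hPne
    rw [eq_bot_iff]
    intro x hx
    have h3 : (⟨x, hx⟩ : P) ∈ (⊥ : Subgroup P) := by rw [h2]; trivial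
    rw [mem_bot] at h3
    simpa using congrArg Subtype.val h3
  have hFA : ⁅F, A⁆ = ⊥ := hmin F hFlt (hchar _ inferInstance)
  have hPF : ⁅P, F⁆ = ⊥ := by
    have h2 : ⁅F, P⁆ ≤ F := by
      apply Cfsg.Agent.H1.commutator_le_of_le_normalizer
      exact Subgroup.le_normalizer.trans
        (Cfsg.Agent.H1.normalizer_le_normalizer_map_of_characteristic P (frattini P))
    have h3 : ⁅⁅F, P⁆, A⁆ = ⊥ := by
      rw [eq_bot_iff, ← hFA]
      exact commutator_mono h2 le_rfl
    have h4 : ⁅⁅A, F⁆, P⁆ = ⊥ := by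
      rw [commutator_comm A F, hFA]; exact Subgroup.commutator_bot_left _
    have h5 := commutator_commutator_eq_bot_of_rotate h4 h3
    rwa [hPA] at h5
  have hfix := fix_le_comm A P hP hAP hAp hPA
  have hcommap : (_root_.commutator P).map P.subtype = ⁅P, P⁆ := by
    rw [commutator_def, Subgroup.map_commutator, ← MonoidHom.range_eq_map, Subgroup.range_subtype]
  have hP'F : ⁅P, P⁆ ≤ F := by
    rw [← hcommap]
    exact map_mono (Cfsg.Agent.H1.pgroup_frattini p hP).1
  have hcent : ∀ U : Subgroup X, U ≤ P → ⁅U, A⁆ = ⊥ → U ≤ ⁅P, P⁆ := by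
    intro U hU hUA
    refine le_trans (le_inf hU ?_) hfix
    rwa [commutator_eq_bot_iff_le_centralizer] at hUA
  have hFeq : F = ⁅P, P⁆ := le_antisymm (hcent F hFlt.le hFA) hP'F
  have hpowF : ∀ x ∈ P, x ^ p ∈ F := fun x hx =>
    ⟨⟨x, hx⟩ ^ p, (Cfsg.Agent.H1.pgroup_frattini p hP).2 _, rfl⟩
  have hFcommP : ∀ f ∈ F, ∀ u ∈ P, Commute f u := by
    intro f hf u hu
    have h1 : ⁅u, f⁆ ∈ ⁅P, F⁆ := commutator_mem_commutator hu hf
    rw [hPF, mem_bot, commutatorElement_eq_one_iff_mul_comm] at h1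
    exact h1.symm
  have hFcommA : ∀ f ∈ F, ∀ a ∈ A, Commute f a := by
    intro f hf a ha
    have h1 : ⁅f, a⁆ ∈ ⁅F, A⁆ := commutator_mem_commutator hf ha
    rw [hFA, mem_bot, commutatorElement_eq_one_iff_mul_comm] at h1
    exact h1
  refine ⟨hPA, ?_, ?_, ?_⟩
  · by_cases hab : ⁅P, P⁆ = ⊥
    · left
      refine ⟨⟨⟨fun a b => Subtype.ext ?_⟩⟩, ?_⟩
      · have h1 : ⁅(a : X), (b : X)⁆ ∈ ⁅P, P⁆ := commutator_mem_commutator a.2 b.2
        rw [hab, mem_bot, commutatorElement_eq_one_iff_mul_comm] at h1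
        exact h1
      · intro a ha
        have := hpowF a ha
        rwa [hFeq, hab, mem_bot] at this
    · right
      set Z := (center P).map P.subtype with hZ
      have hZlt : Z < P := by
        refine lt_of_le_of_ne (map_subtype_le _) ?_
        intro he
        apply hab
        rw [eq_bot_iff, Subgroup.commutator_le]
        intro a ha b hb
        rw [mem_bot, commutatorElement_eq_one_iff_mul_comm]
        rw [← he] at ha
        obtain ⟨a', ha', rfl⟩ := ha
        exact (congrArg Subtype.val ((mem_center_iff.1 ha') ⟨b, hb⟩)).symm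
      have hZA : ⁅Z, A⁆ = ⊥ := hmin Z hZlt (hchar _ inferInstance)
      have hZF : Z ≤ F := hFeq ▸ hcent Z hZlt.le hZA
      have hFZ : F ≤ Z := by
        intro f hf
        refine ⟨⟨f, hFlt.le hf⟩, ?_, rfl⟩
        show (⟨f, hFlt.le hf⟩ : P) ∈ center P
        rw [mem_center_iff]
        intro u
        exact Subtype.ext (hFcommP f hf u u.2).eq.symm
      have hFZeq : F = Z := le_antisymm hFZ hZF
      refine ⟨hP, ?_, ?_⟩
      · exact Subgroup.map_injective P.subtype_injective hFZeq
      · apply Subgroup.map_injective P.subtype_injective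
        rw [hcommap, ← hFeq]; exact hFZeq
  · intro U hFU hUP hBU
    by_cases hU : U = P
    · right; exact hU
    · left
      have h1 := hmin U (lt_of_le_of_ne hUP hU) hBU
      exact le_antisymm (hFeq ▸ hcent U hUP h1) hFU
  · intro hp2
    have hcommF : ∀ a ∈ P, ∀ b ∈ P, ⁅b, a⁆ ∈ F := fun a ha b hb =>
      hP'F (commutator_mem_commutator hb ha)
    have hcpow : ∀ a ∈ P, ∀ b ∈ P, ⁅b, a⁆ ^ p = 1 := by
      intro a ha b hb
      have hcF := hcommF a ha b hb
      have hba : b * a = ⁅b, a⁆ * (a * b) := by rw [commutatorElement_def]; group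
      have h1 := (Cfsg.Agent.H1.mul_pow_of_central_comm (hFcommP _ hcF a ha) (hFcommP _ hcF b hb)
        hba p).1
      have h2 : Commute (b ^ p) a := hFcommP _ (hpowF b hb) a ha
      rw [h2.eq] at h1
      have h3 : ⁅b, a⁆ ^ p * (a * b ^ p) = 1 * (a * b ^ p) := by rw [← h1, one_mul]
      exact mul_right_cancel h3
    have hchoose : p ∣ p.choose 2 := by
      rcases hp.eq_two_or_odd' with h2 | hodd
      · exact absurd h2 hp2
      · obtain ⟨k, hk⟩ := hodd
        have : Nat.choose p 2 = p * k := by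
          rw [Nat.choose_two_right, hk]
          have : (2 * k + 1) * (2 * k + 1 - 1) = 2 * ((2 * k + 1) * k) := by
            rw [Nat.add_sub_cancel]; ring
          rw [this, Nat.mul_div_cancel_left _ (by norm_num)]
        rw [this]
        exact dvd_mul_right _ _
    have hmulpow : ∀ a ∈ P, ∀ b ∈ P, (a * b) ^ p = a ^ p * b ^ p := by
      intro a ha b hb
      have hcF := hcommF a ha b hb
      have hba : b * a = ⁅b, a⁆ * (a * b) := by rw [commutatorElement_def]; group
      have h1 := (Cfsg.Agent.H1.mul_pow_of_central_comm (hFcommP _ hcF a ha) (hFcommP _ hcF b hb)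
        hba p).2
      obtain ⟨k, hk⟩ := hchoose
      rw [h1, hk, pow_mul, hcpow a ha b hb, one_pow, mul_one]
    let E : Subgroup X :=
      { carrier := {x | x ∈ P ∧ x ^ p = 1}
        one_mem' := ⟨one_mem _, one_pow _⟩
        mul_mem' := by
          rintro a b ⟨ha, ha'⟩ ⟨hb, hb'⟩
          exact ⟨mul_mem ha hb, by rw [hmulpow a ha b hb, ha', hb', one_mul]⟩
        inv_mem' := by
          rintro a ⟨ha, ha'⟩
          exact ⟨inv_mem ha, by rw [inv_pow, ha', inv_one]⟩ }
    have hPE : P ≤ E := by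
      conv_lhs => rw [← hPA]
      rw [Subgroup.commutator_le]
      intro x hx a ha
      have hx' : a * x⁻¹ * a⁻¹ ∈ P := (mem_normalizer_iff.1 (hAP ha) _).1 (inv_mem hx)
      have hw : ⁅x, a⁆ = x * (a * x⁻¹ * a⁻¹) := by rw [commutatorElement_def]; group
      refine ⟨hw ▸ mul_mem hx hx', ?_⟩
      have h1 : Commute (x ^ p) a := hFcommA _ (hpowF x hx) a ha
      rw [hw, hmulpow x hx _ hx', conj_pow, inv_pow, ← h1.inv_left.eq]
      group
    intro x hx
    exact (hPE hx).2

end Cfsg.Agent.S3736
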