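import Cfsg.Statements.S3741
import Mathlib

set_option autoImplicit false
open Cfsg

namespace Cfsg.Agent.S3741

open scoped commutatorElement

theorem norm_le_cent {G : Type*} [Group G] [Finite G] {p : ℕ} [Fact p.Prime] (hG : IsPGroup p G)
    (Z : Subgroup G) (hZ : Nat.card Z = p) :
    Subgroup.normalizer (Z : Set G) ≤ Subgroup.centralizer (Z : Set G) := by
  intro g hg
  have hpp : p.Prime := Fact.out
  have : IsCyclic Z := isCyclic_of_prime_card hZ
  have h1 : orderOf (Z.normalizerMonoidHom ⟨g, hg⟩) ∣ Nat.card (MulAut Z) := orderOf_dvd_natCard _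
  rw [IsCyclic.card_mulAut, hZ, Nat.totient_prime hpp] at h1
  obtain ⟨k, hk⟩ := hG g
  have h2 : orderOf (Z.normalizerMonoidHom ⟨g, hg⟩) ∣ p ^ k := by
    apply orderOf_dvd_of_pow_eq_one
    rw [← map_pow]
    have : (⟨g, hg⟩ : Subgroup.normalizer (Z : Set G)) ^ p ^ k = 1 := Subtype.ext (by simpa using hk)
    rw [this, map_one]
  have hcop : Nat.Coprime (p - 1) (p ^ k) := by
    apply Nat.Coprime.pow_right
    apply Nat.Coprime.symm
    rw [Nat.Prime.coprime_iff_not_dvd hpp]
    intro h
    have h5 := Nat.le_of_dvd (by have := hpp.two_le; omega) h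
    have := hpp.two_le
    omega
  have h3 : orderOf (Z.normalizerMonoidHom ⟨g, hg⟩) = 1 := Nat.eq_one_of_dvd_coprimes hcop h1 h2
  have h4 : (⟨g, hg⟩ : Subgroup.normalizer (Z : Set G)) ∈ Z.normalizerMonoidHom.ker := by
    rw [MonoidHom.mem_ker]; exact orderOf_eq_one_iff.1 h3
  rw [Subgroup.normalizerMonoidHom_ker, Subgroup.mem_subgroupOf] at h4
  exact h4

theorem one_side {G : Type*} [Group G] [Finite G] {p : ℕ} [Fact p.Prime] (A B : Subgroup G)
    (hcard : Nat.card ↥⁅A, B⁆ = p) (hBc : B ≤ Subgroup.centralizer ((⁅A, B⁆ : Subgroup G) : Set G)) :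
    p * Nat.card {x : A × B // (x.1 : G) * x.2 = x.2 * x.1} +
        Nat.card B * Nat.card ((Subgroup.centralizer (B : Set G)).subgroupOf A)
      = p * Nat.card B * Nat.card ((Subgroup.centralizer (B : Set G)).subgroupOf A) +
        Nat.card A * Nat.card B := by
  classical
  have hpp : p.Prime := Fact.out
  let _ : Fintype A := Fintype.ofFinite A
  let _ : Fintype B := Fintype.ofFinite B
  let f : A → (B →* (⁅A, B⁆ : Subgroup G)) := fun a =>
    { toFun := fun b => ⟨⁅(a : G), (b : G)⁆, Subgroup.commutator_mem_commutator a.2 b.2⟩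
      map_one' := by ext; simp
      map_mul' := by
        intro b b'
        ext
        have hz := (Subgroup.mem_centralizer_iff.1 (hBc b.2)) ⁅(a : G), (b' : G)⁆
          (Subgroup.commutator_mem_commutator a.2 b'.2)
        simp only [Subgroup.coe_mul]
        calc ⁅(a : G), (b : G) * b'⁆ = ⁅(a : G), (b : G)⁆ * ((b : G) * ⁅(a : G), (b' : G)⁆) * (b : G)⁻¹ := by
              simp only [commutatorElement_def]; group
          _ = ⁅(a : G), (b : G)⁆ * (⁅(a : G), (b' : G)⁆ * (b : G)) * (b : G)⁻¹ := by rw [hz]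
          _ = ⁅(a : G), (b : G)⁆ * ⁅(a : G), (b' : G)⁆ := by rw [mul_assoc, mul_inv_cancel_right] }
  have hfa : ∀ (a : A) (b : B), ((f a b : (⁅A, B⁆ : Subgroup G)) : G) = ⁅(a : G), (b : G)⁆ := fun a b => rfl
  let χ : A → ℕ := fun a => if (a : G) ∈ Subgroup.centralizer (B : Set G) then 1 else 0
  have key : ∀ a : A, p * Nat.card {b : B // (a : G) * b = b * a} + Nat.card B * χ a
      = p * Nat.card B * χ a + Nat.card B := by
    intro a
    have hker : Nat.card (f a).ker = Nat.card {b : B // (a : G) * b = b * a} := by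
      apply Nat.card_congr
      apply Equiv.subtypeEquivRight
      intro b
      rw [MonoidHom.mem_ker, ← commutatorElement_eq_one_iff_mul_comm, ← hfa, Subtype.ext_iff]
      rfl
    have hidx := Subgroup.card_mul_index (f a).ker
    rw [Subgroup.index_ker, hker] at hidx
    by_cases ha : (a : G) ∈ Subgroup.centralizer (B : Set G)
    · have hχ : χ a = 1 := if_pos ha
      have hall : Nat.card {b : B // (a : G) * b = b * a} = Nat.card B := by
        apply Nat.card_congr
        apply Equiv.subtypeUnivEquiv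
        intro b
        exact ((Subgroup.mem_centralizer_iff.1 ha) b b.2).symm
      rw [hχ, hall]; ring
    · have hχ : χ a = 0 := if_neg ha
      have : Fact (Nat.card ↥⁅A, B⁆).Prime := ⟨hcard ▸ hpp⟩
      have hr : (f a).range = ⊤ := by
        rcases Subgroup.eq_bot_or_eq_top_of_prime_card (f a).range with h | h
        · exfalso
          apply ha
          rw [Subgroup.mem_centralizer_iff]
          intro b hb
          have h1 : f a ⟨b, hb⟩ ∈ (f a).range := ⟨_, rfl⟩
          rw [h, Subgroup.mem_bot, Subtype.ext_iff, hfa] at h1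
          exact (commutatorElement_eq_one_iff_mul_comm.1 h1).symm
        · exact h
      rw [hr, Subgroup.card_top, hcard] at hidx
      rw [hχ, ← hidx]; ring
  have hN : Nat.card {x : A × B // (x.1 : G) * x.2 = x.2 * x.1}
      = ∑ a : A, Nat.card {b : B // (a : G) * b = b * a} := by
    rw [Nat.card_congr (Equiv.subtypeProdEquivSigmaSubtype
      (fun (a : A) (b : B) => (a : G) * b = b * a)), Nat.card_sigma]
  have hC : Nat.card ((Subgroup.centralizer (B : Set G)).subgroupOf A) = ∑ a : A, χ a := by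
    have : Nat.card ((Subgroup.centralizer (B : Set G)).subgroupOf A)
        = Nat.card {a : A // (a : G) ∈ Subgroup.centralizer (B : Set G)} := rfl
    rw [this, Nat.card_eq_fintype_card, Fintype.card_subtype, Finset.card_filter]
  rw [hN, hC, Finset.mul_sum, Finset.mul_sum, Finset.mul_sum, ← Finset.sum_add_distrib,
    Finset.sum_congr rfl (fun a _ => key a), Finset.sum_add_distrib, Finset.sum_const,
    Finset.card_univ, smul_eq_mul, Nat.card_eq_fintype_card (α := A)]


/-- Let A and B be subgroups of a finite p-group with [A, B] ≤ A ∩ B and [A, B] of order at most p. Then |A : C_A(B)| = |B : C_B(A)|. -/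
theorem result {G : Type*} [Group G] [Finite G] {p : ℕ} [Fact p.Prime] (hG : IsPGroup p G) (A B : Subgroup G) (hAB : ⁅A, B⁆ ≤ A ⊓ B) (hcard : Nat.card ↥⁅A, B⁆ ≤ p) : (A ⊓ Subgroup.centralizer (B : Set G)).relIndex A = (B ⊓ Subgroup.centralizer (A : Set G)).relIndex B := by
  classical
  have hpp : p.Prime := Fact.out
  by_cases hZ : ⁅A, B⁆ = ⊥
  · have h1 : A ≤ Subgroup.centralizer (B : Set G) := Subgroup.commutator_eq_bot_iff_le_centralizer.1 hZ
    have h2 : B ≤ Subgroup.centralizer (A : Set G) := by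
      rw [Subgroup.commutator_comm] at hZ
      exact Subgroup.commutator_eq_bot_iff_le_centralizer.1 hZ
    rw [Subgroup.relIndex_eq_one.2 (le_inf le_rfl h1), Subgroup.relIndex_eq_one.2 (le_inf le_rfl h2)]
  have hc : Nat.card ↥⁅A, B⁆ = p := by
    obtain ⟨k, hk⟩ := (hG.to_subgroup ⁅A, B⁆).exists_card_eq
    rcases k with _ | _ | k
    · exfalso; apply hZ
      rw [pow_zero] at hk
      exact Subgroup.card_eq_one.1 hk
    · simpa using hk
    · exfalso
      rw [hk] at hcard
      have : p ^ 1 < p ^ (k + 1 + 1) := Nat.pow_lt_pow_right hpp.one_lt (by omega)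
      rw [pow_one] at this
      omega
  -- A and B normalize Z
  have hconjA : ∀ a ∈ A, ∀ z ∈ ⁅A, B⁆, a * z * a⁻¹ ∈ ⁅A, B⁆ := by
    intro a ha z hz
    have h1 : ⁅a, z⁆ ∈ ⁅A, B⁆ := Subgroup.commutator_mem_commutator ha (hAB hz).2
    have h2 : a * z * a⁻¹ = ⁅a, z⁆ * z := by rw [commutatorElement_def]; group
    rw [h2]; exact mul_mem h1 hz
  have hconjB : ∀ b ∈ B, ∀ z ∈ ⁅A, B⁆, b * z * b⁻¹ ∈ ⁅A, B⁆ := by
    intro b hb z hz
    have h1 : ⁅z, b⁆ ∈ ⁅A, B⁆ := Subgroup.commutator_mem_commutator (hAB hz).1 hb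
    have h2 : b * z * b⁻¹ = ⁅z, b⁆⁻¹ * z := by rw [commutatorElement_def]; group
    rw [h2]; exact mul_mem (inv_mem h1) hz
  have hnorm : ∀ (H : Subgroup G), (∀ a ∈ H, ∀ z ∈ ⁅A, B⁆, a * z * a⁻¹ ∈ ⁅A, B⁆) →
      H ≤ Subgroup.normalizer ((⁅A, B⁆ : Subgroup G) : Set G) := by
    intro H hH a ha
    rw [Subgroup.mem_normalizer_iff]
    intro z
    refine ⟨hH a ha z, fun h => ?_⟩
    have := hH a⁻¹ (inv_mem ha) _ h
    simpa [mul_assoc] using this
  have hAc : A ≤ Subgroup.centralizer ((⁅A, B⁆ : Subgroup G) : Set G) := (hnorm A hconjA).trans (norm_le_cent hG _ hc)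
  have hBc : B ≤ Subgroup.centralizer ((⁅A, B⁆ : Subgroup G) : Set G) := (hnorm B hconjB).trans (norm_le_cent hG _ hc)
  have e1 := one_side (p := p) A B hc hBc
  have e2 := one_side (p := p) B A (by rw [Subgroup.commutator_comm]; exact hc)
    (by rw [Subgroup.commutator_comm]; exact hAc)
  have eN : Nat.card {x : A × B // (x.1 : G) * x.2 = x.2 * x.1}
      = Nat.card {x : B × A // (x.1 : G) * x.2 = x.2 * x.1} :=
    Nat.card_congr ((Equiv.prodComm A B).subtypeEquiv (fun x => eq_comm))
  rw [eN] at e1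
  rw [Subgroup.inf_relIndex_left, Subgroup.inf_relIndex_left]
  have i1 := Subgroup.index_mul_card ((Subgroup.centralizer (B : Set G)).subgroupOf A)
  have i2 := Subgroup.index_mul_card ((Subgroup.centralizer (A : Set G)).subgroupOf B)
  change (Subgroup.centralizer (B : Set G)).relIndex A * _ = _ at i1
  change (Subgroup.centralizer (A : Set G)).relIndex B * _ = _ at i2
  have pA : 0 < Nat.card ((Subgroup.centralizer (B : Set G)).subgroupOf A) := Nat.card_pos
  have pB : 0 < Nat.card ((Subgroup.centralizer (A : Set G)).subgroupOf B) := Nat.card_pos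
  generalize Nat.card ((Subgroup.centralizer (B : Set G)).subgroupOf A) = cA at *
  generalize Nat.card ((Subgroup.centralizer (A : Set G)).subgroupOf B) = cB at *
  generalize (Subgroup.centralizer (B : Set G)).relIndex A = rA at *
  generalize (Subgroup.centralizer (A : Set G)).relIndex B = rB at *
  generalize Nat.card {x : B × A // (x.1 : G) * x.2 = x.2 * x.1} = N at *
  generalize Nat.card A = a at *
  generalize Nat.card B = b at *
  obtain ⟨q, rfl⟩ : ∃ q, p = q + 1 := ⟨p - 1, by have := hpp.two_le; omega⟩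
  have hq : 0 < q := by have := hpp.two_le; omega
  have e3 : q * (b * cA) = q * (a * cB) := by nlinarith
  have e4 : b * cA = a * cB := Nat.eq_of_mul_eq_mul_left hq e3
  rw [← i1, ← i2] at e4
  have e5 : (cA * cB) * rB = (cA * cB) * rA := by nlinarith
  exact (Nat.eq_of_mul_eq_mul_left (Nat.mul_pos pA pB) e5).symm

end Cfsg.Agent.S3741
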