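import Mathlib
import Cfsg.Statements.S3742
import Cfsg.Agent.S1012

set_option autoImplicit false
open Cfsg

namespace Cfsg.Agent.S3742

open QuaternionGroup

abbrev Q := QuaternionGroup 2

def f (x y : Q) : Q → Q
  | a k => x ^ k.val
  | xa k => y * x ^ k.val

def cond (x y : Q) : Prop := x * x = a 2 ∧ y * y = a 2 ∧ y * x * y⁻¹ = x⁻¹

instance (x y : Q) : Decidable (cond x y) := by
  unfold cond
  infer_instance

set_option maxRecDepth 100000 in
theorem f_mul : ∀ x y : Q, cond x y → ∀ g h : Q, f x y (g * h) = f x y g * f x y h := by decide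

set_option maxRecDepth 100000 in
theorem f_inj : ∀ x y : Q, cond x y → ∀ g h : Q, f x y g = f x y h → g = h := by decide

set_option maxRecDepth 100000 in
theorem card_pairs : Fintype.card {p : Q × Q // cond p.1 p.2} = 24 := by decide

theorem uniq_inv : ∀ z : Q, z * z = 1 → z ≠ 1 → z = a 2 := by decide
theorem gen_a : ∀ k : ZMod 4, (a k : Q) = (a 1) ^ k.val := by decide
theorem gen_xa : ∀ k : ZMod 4, (xa k : Q) = xa 0 * (a 1) ^ k.val := by decide
theorem cond_ij : cond (a 1 : Q) (xa 0) := by decide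

set_option maxRecDepth 100000 in
theorem ord6 : ∀ x y : Q, cond x y → (f x y)^[6] (a 1) = a 1 → (f x y)^[6] (xa 0) = xa 0 →
    ((f x y)^[2] (a 1) = a 1 ∧ (f x y)^[2] (xa 0) = xa 0) ∨
      ((f x y)^[3] (a 1) = a 1 ∧ (f x y)^[3] (xa 0) = xa 0) := by decide

theorem cond_of_aut (φ : MulAut Q) : cond (φ (a 1)) (φ (xa 0)) := by
  have hz : φ (a 2) = a 2 := by
    apply uniq_inv
    · rw [← map_mul]
      have : (a 2 : Q) * a 2 = 1 := by decide
      rw [this, map_one]
    · intro h
      have : (a 2 : Q) = 1 := φ.injective (by rw [h, map_one])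
      exact absurd this (by decide)
  obtain ⟨h1, h2, h3⟩ := cond_ij
  refine ⟨?_, ?_, ?_⟩
  · rw [← map_mul, h1, hz]
  · rw [← map_mul, h2, hz]
  · rw [← map_inv, ← map_mul, ← map_mul, h3, map_inv]

theorem aut_eq_f (φ : MulAut Q) (g : Q) : φ g = f (φ (a 1)) (φ (xa 0)) g := by
  cases g with
  | a k =>
    show φ (a k) = (φ (a 1)) ^ k.val
    rw [gen_a k, map_pow]
  | xa k =>
    show φ (xa k) = φ (xa 0) * (φ (a 1)) ^ k.val
    rw [gen_xa k, map_mul, map_pow]

theorem aut_ext (φ ψ : MulAut Q) (h1 : φ (a 1) = ψ (a 1)) (h2 : φ (xa 0) = ψ (xa 0)) : φ = ψ := by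
  ext g
  rw [aut_eq_f φ, aut_eq_f ψ, h1, h2]

noncomputable def mkAut (x y : Q) (h : cond x y) : MulAut Q :=
  MulEquiv.ofBijective (MonoidHom.mk' (f x y) (f_mul x y h))
    (Finite.injective_iff_bijective.mp (fun g k hgk => f_inj x y h g k hgk))

theorem f_i (x y : Q) : f x y (a 1) = x := pow_one x
theorem f_j (x y : Q) : f x y (xa 0) = y := by
  show y * x ^ 0 = y
  rw [pow_zero, mul_one]

theorem card_aut : Nat.card (MulAut Q) = 24 := by
  rw [← card_pairs, ← Nat.card_eq_fintype_card]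
  apply Nat.card_congr
  exact
    { toFun := fun φ => ⟨(φ (a 1), φ (xa 0)), cond_of_aut φ⟩
      invFun := fun p => mkAut p.1.1 p.1.2 p.2
      left_inv := fun φ => aut_ext _ _ (f_i (φ (a 1)) (φ (xa 0))) (f_j (φ (a 1)) (φ (xa 0)))
      right_inv := fun p => Subtype.ext (Prod.ext (f_i p.1.1 p.1.2) (f_j p.1.1 p.1.2)) }

/-- The automorphism group of the quaternion group of order 8 is isomorphic to the symmetric group of degree 4. -/
theorem result : Nonempty (MulAut (QuaternionGroup 2) ≃* Equiv.Perm (Fin 4)) := by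
  apply Cfsg.Agent.S1012.result card_aut
  intro φ hφ
  have h6 : φ ^ 6 = 1 := by
    rw [← hφ]
    exact pow_orderOf_eq_one φ
  have hit : ∀ (k : ℕ) (g : Q), (φ ^ k) g = (f (φ (a 1)) (φ (xa 0)))^[k] g := by
    intro k
    induction k with
    | zero =>
      intro g
      rfl
    | succ k ih =>
      intro g
      rw [pow_succ, MulAut.mul_apply, ih, Function.iterate_succ_apply, ← aut_eq_f φ g]
  have key := ord6 _ _ (cond_of_aut φ) (by rw [← hit, h6]; rfl) (by rw [← hit, h6]; rfl)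
  rcases key with ⟨h1, h2⟩ | ⟨h1, h2⟩
  · have h : φ ^ 2 = 1 := aut_ext _ _ (by rw [hit, h1]; rfl) (by rw [hit, h2]; rfl)
    have := orderOf_dvd_of_pow_eq_one h
    rw [hφ] at this
    omega
  · have h : φ ^ 3 = 1 := aut_ext _ _ (by rw [hit, h1]; rfl) (by rw [hit, h2]; rfl)
    have := orderOf_dvd_of_pow_eq_one h
    rw [hφ] at this
    omega

end Cfsg.Agent.S3742
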