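import Cfsg.Statements.S3744
import Cfsg.Agent.Lib_helper7_PSolvHall

set_option autoImplicit false
open Cfsg

namespace Cfsg.Agent.S3744

/-- A finite p-soluble group has a p-complement, all its p-complements are conjugate, and every subgroup of order prime to p lies in one of them. Here a p-complement is a subgroup of order prime to p whose index is a power of p. -/
theorem result {G : Type*} [Group G] [Finite G] {p : ℕ} [Fact p.Prime] (hG : Cfsg.IsPSolvable p G) : (∃ H : Subgroup G, (Nat.card H).Coprime p ∧ ∃ n : ℕ, H.index = p ^ n) ∧ (∀ H₁ H₂ : Subgroup G, (Nat.card H₁).Coprime p → (∃ n : ℕ, H₁.index = p ^ n) → (Nat.card H₂).Coprime p → (∃ n : ℕ, H₂.index = p ^ n) → ∃ g : G, H₂ = H₁.map (MulAut.conj g).toMonoidHom) ∧ (∀ U : Subgroup G, (Nat.card U).Coprime p → ∃ H : Subgroup G, (Nat.card H).Coprime p ∧ (∃ n : ℕ, H.index = p ^ n) ∧ ∃ g : G, U.map (MulAut.conj g).toMonoidHom ≤ H) := by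
  have hpp : p.Prime := Fact.out
  obtain ⟨m, a, hcard, hmp, hD, hC⟩ := Cfsg.Agent.H7.psolv_hall hG
  have conv1 : ∀ H : Subgroup G, Nat.card H = m → (Nat.card H).Coprime p ∧ ∃ n : ℕ, H.index = p ^ n := by
    intro H hH
    refine ⟨hH ▸ hmp, a, ?_⟩
    have h1 := H.card_mul_index
    rw [hH, hcard] at h1
    exact Nat.eq_of_mul_eq_mul_left (hH ▸ Nat.card_pos) h1
  have conv2 : ∀ H : Subgroup G, (Nat.card H).Coprime p → (∃ n : ℕ, H.index = p ^ n) → Nat.card H = m := by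
    rintro H hH ⟨n, hn⟩
    have h1 := H.card_mul_index
    rw [hn, hcard] at h1
    apply Nat.dvd_antisymm
    · exact (Nat.Coprime.pow_right a hH).dvd_of_dvd_mul_right (Dvd.intro _ h1)
    · exact (Nat.Coprime.pow_right n hmp).dvd_of_dvd_mul_right (Dvd.intro _ h1.symm)
  refine ⟨?_, ?_, ?_⟩
  · obtain ⟨H, hH, -⟩ := hD ⊥ (by rw [Subgroup.card_bot]; exact Nat.coprime_one_left p)
    exact ⟨H, conv1 H hH⟩
  · intro H₁ H₂ h1 h1' h2 h2'
    obtain ⟨g, hg⟩ := hC H₁ H₂ (conv2 H₁ h1 h1') (conv2 H₂ h2 h2')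
    exact ⟨g, hg.symm⟩
  · intro U hU
    obtain ⟨H, hH, hUH⟩ := hD U hU
    refine ⟨H, (conv1 H hH).1, (conv1 H hH).2, 1, ?_⟩
    rintro _ ⟨u, hu, rfl⟩
    simpa using hUH hu

end Cfsg.Agent.S3744
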