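import Cfsg.Statements.S3747
import Cfsg.Agent.Lib_helper5_Comp5

set_option autoImplicit false
open Cfsg

namespace Cfsg.Agent.S3747

open Cfsg.Agent.H5

theorem center_sSup_components {G : Type*} [Group G] [Finite G] (S : Set (Subgroup G))
    (hS : ∀ L ∈ S, Cfsg.IsComponent L)
    (hZ : ∀ L ∈ S, L ⊓ Subgroup.centralizer (L : Set G) = ⊥) :
    sSup S ⊓ Subgroup.centralizer ((sSup S : Subgroup G) : Set G) = ⊥ := by
  classical
  have hfin : S.Finite := Set.toFinite _
  have h1 : sSup S = ⨆ L ∈ hfin.toFinset, L := by
    rw [sSup_eq_iSup]; simp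
  rw [h1, eq_bot_iff]
  refine (center_finset_components hfin.toFinset (fun L hL => hS L (by simpa using hL))).trans ?_
  apply iSup₂_le
  intro L hL
  rw [hZ L (by simpa using hL)]

theorem conj_family_normal {G : Type*} [Group G] (K : Subgroup G) :
    (sSup (Set.range fun g : G => K.map (MulAut.conj g).toMonoidHom)).Normal := by
  constructor
  intro n hn h
  have h1 : sSup (Set.range fun g : G => K.map (MulAut.conj g).toMonoidHom) ≤
      (sSup (Set.range fun g : G => K.map (MulAut.conj g).toMonoidHom)).comap
        (MulAut.conj h).toMonoidHom := by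
    apply sSup_le
    rintro _ ⟨g, rfl⟩
    rw [← Subgroup.map_le_iff_le_comap, Subgroup.map_map]
    apply le_sSup
    refine ⟨h * g, ?_⟩
    congr 1
    ext x
    simp [mul_assoc]
  exact h1 hn

theorem normalClosure_eq_sSup {G : Type*} [Group G] (K : Subgroup G) :
    Subgroup.normalClosure (K : Set G) =
      sSup (Set.range fun g : G => K.map (MulAut.conj g).toMonoidHom) := by
  apply le_antisymm
  · haveI := conj_family_normal K
    apply Subgroup.normalClosure_le_normal
    have : K ≤ sSup (Set.range fun g : G => K.map (MulAut.conj g).toMonoidHom) := by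
      apply le_sSup
      refine ⟨1, ?_⟩
      ext x
      simp
    exact this
  · apply sSup_le
    rintro _ ⟨g, rfl⟩
    rintro _ ⟨k, hk, rfl⟩
    exact (Subgroup.normalClosure_normal).conj_mem k (Subgroup.le_normalClosure hk) g

theorem part_a {G : Type*} [Group G] [Finite G] (K : Subgroup G) (hK : Cfsg.IsComponent K)
    (hZ : Subgroup.center ↥K = ⊥) :
    Subgroup.normalClosure (K : Set G) ≠ ⊥ ∧ ∀ N : Subgroup G, N.Normal →
      N ≤ Subgroup.normalClosure (K : Set G) → N = ⊥ ∨ N = Subgroup.normalClosure (K : Set G) := by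
  have hKM : K ≤ Subgroup.normalClosure (K : Set G) := Subgroup.le_normalClosure
  constructor
  · intro h
    apply component_ne_bot hK
    rw [eq_bot_iff, ← h]; exact hKM
  · intro N hN hNM
    rcases component_subnormal hK hN.isSubnormal with h | h
    · right
      exact le_antisymm hNM (Subgroup.normalClosure_le_normal h)
    · left
      have hZK : K ⊓ Subgroup.centralizer (K : Set G) = ⊥ := by
        rw [← map_center_eq, hZ, Subgroup.map_bot]
      have h1 : Subgroup.normalClosure (K : Set G) ≤ Subgroup.centralizer (N : Set G) := by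
        apply Subgroup.normalClosure_le_normal
        rwa [Subgroup.commutator_eq_bot_iff_le_centralizer] at h
      have h2 : N ≤ Subgroup.normalClosure (K : Set G) ⊓
          Subgroup.centralizer ((Subgroup.normalClosure (K : Set G) : Subgroup G) : Set G) :=
        le_inf hNM (Subgroup.le_centralizer_iff.1 h1)
      rw [normalClosure_eq_sSup, center_sSup_components] at h2
      · exact le_bot_iff.1 h2
      · rintro _ ⟨g, rfl⟩
        exact component_conj hK g
      · rintro _ ⟨g, rfl⟩
        rw [eq_bot_iff]
        intro x hx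
        rw [Subgroup.mem_inf] at hx
        obtain ⟨⟨k, hk, rfl⟩, hx2⟩ := hx
        have hk2 : k ∈ K ⊓ Subgroup.centralizer (K : Set G) := by
          refine Subgroup.mem_inf.2 ⟨hk, ?_⟩
          rw [Subgroup.mem_centralizer_iff]
          intro y hy
          have h3 := (Subgroup.mem_centralizer_iff.1 hx2) (g * y * g⁻¹) ⟨y, hy, rfl⟩
          change g * y * g⁻¹ * (g * k * g⁻¹) = g * k * g⁻¹ * (g * y * g⁻¹) at h3
          have h4 : g * (y * k) * g⁻¹ = g * (k * y) * g⁻¹ := by
            calc g * (y * k) * g⁻¹ = g * y * g⁻¹ * (g * k * g⁻¹) := by group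
              _ = g * k * g⁻¹ * (g * y * g⁻¹) := h3
              _ = g * (k * y) * g⁻¹ := by group
          exact mul_left_cancel (mul_right_cancel h4)
        rw [hZK, Subgroup.mem_bot] at hk2
        rw [hk2, map_one]
        exact Subgroup.one_mem _

/-- Let G be a finite group. (a) If K is a component of G with trivial centre, then the normal closure of K in G is a minimal normal subgroup of G. (b) If the Fitting subgroup of G is trivial, then the layer E(G) is generated by the minimal normal subgroups of G. -/
theorem result {G : Type*} [Group G] [Finite G] : (∀ K : Subgroup G, Cfsg.IsComponent K → Subgroup.center ↥K = ⊥ → (Subgroup.normalClosure (K : Set G) ≠ ⊥ ∧ ∀ N : Subgroup G, N.Normal → N ≤ Subgroup.normalClosure (K : Set G) → N = ⊥ ∨ N = Subgroup.normalClosure (K : Set G))) ∧ (Cfsg.fittingSubgroup G = ⊥ → sSup {N : Subgroup G | N ≠ ⊥ ∧ N.Normal ∧ ∀ N' : Subgroup G, N'.Normal → N' ≤ N → N' = ⊥ ∨ N' = N} = Cfsg.layer G) := by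
  refine ⟨part_a, ?_⟩
  intro hF
  have hFs : Cfsg.generalizedFittingSubgroup G = Cfsg.layer G := by
    unfold Cfsg.generalizedFittingSubgroup
    rw [hF, sup_bot_eq]
  haveI hEn := layer_normal (G := G)
  apply le_antisymm
  · apply sSup_le
    rintro N ⟨hne, hNn, hmin⟩
    haveI := hNn
    rcases hmin (N ⊓ Cfsg.layer G) inferInstance inf_le_left with h | h
    · exfalso
      apply hne
      have h1 : ⁅N, Cfsg.layer G⁆ = ⊥ := by
        rw [eq_bot_iff, ← h]
        exact Subgroup.commutator_le_inf _ _
      rw [Subgroup.commutator_eq_bot_iff_le_centralizer] at h1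
      have h2 := centralizer_genFitting_le (G := G)
      rw [hFs] at h2
      rw [eq_bot_iff, ← h]
      exact le_inf le_rfl (h1.trans h2)
    · rw [← h]; exact inf_le_right
  · apply layer_le
    intro K hK
    have hZ : Subgroup.center ↥K = ⊥ := by
      have h1 : K ⊓ Subgroup.centralizer (K : Set G) ≤
          Cfsg.layer G ⊓ Subgroup.centralizer (Cfsg.layer G : Set G) := by
        rw [layer_inf_centralizer_eq_iSup]
        exact le_iSup (fun L : {K : Subgroup G // Cfsg.IsComponent K} =>
          (L : Subgroup G) ⊓ Subgroup.centralizer ((L : Subgroup G) : Set G)) ⟨K, hK⟩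
      rw [layer_inf_centralizer_eq, hF, bot_inf_eq, le_bot_iff, ← map_center_eq] at h1
      exact (Subgroup.map_eq_bot_iff_of_injective _ K.subtype_injective).1 h1
    obtain ⟨h1, h2⟩ := part_a K hK hZ
    refine le_trans Subgroup.le_normalClosure (le_sSup ⟨h1, Subgroup.normalClosure_normal, h2⟩)

end Cfsg.Agent.S3747
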