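import Cfsg.Statements.S3748
import Cfsg.Agent.Lib_helper2_Subnormal2

set_option autoImplicit false
open Pointwise
open Cfsg

namespace Cfsg.Agent.S3748

open Cfsg.Agent.H2

/-- Call a proper subgroup M of G primitive when M = N_G(N) for every non-trivial normal subgroup N of M. If M is a primitive subgroup of the finite group G, then no non-trivial subnormal subgroup of G is contained in M; in particular M ∩ F(G) = 1. -/
theorem result {G : Type*} [Group G] [Finite G] (M : Subgroup G) (hM : M ≠ ⊤) (hprim : ∀ N : Subgroup G, N ≤ M → M ≤ Subgroup.normalizer (N : Set G) → N ≠ ⊥ → Subgroup.normalizer (N : Set G) = M) : (∀ L : Subgroup G, L.IsSubnormal → L ≤ M → L = ⊥) ∧ M ⊓ Cfsg.fittingSubgroup G = ⊥ := by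
  have key : ∀ L : Subgroup G, L.IsSubnormal → L ≤ M → L = ⊥ := by
    intro L hL hLM
    by_contra hne
    have htop : (⊤ : Subgroup G) ≠ ⊥ := by
      intro h
      apply hM
      rw [eq_top_iff, h]
      exact bot_le
    obtain ⟨K, -, hK⟩ := exists_minNormal_le (⊤ : Subgroup G) inferInstance htop
    set X : Subgroup G := ⨆ m : M, L.map (MulAut.conj (m : G)).toMonoidHom with hX
    have hXM : X ≤ M := by
      apply iSup_le
      rintro m _ ⟨l, hl, rfl⟩
      simp only [MulEquiv.toMonoidHom_eq_coe, MonoidHom.coe_coe, MulAut.conj_apply]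
      exact M.mul_mem (M.mul_mem m.2 (hLM hl)) (M.inv_mem m.2)
    have hLX : L ≤ X := by
      refine le_trans ?_ (le_iSup (fun m : M => L.map (MulAut.conj (m : G)).toMonoidHom) 1)
      intro x hx
      exact ⟨x, hx, by simp⟩
    have hXne : X ≠ ⊥ := by
      intro h
      apply hne
      rw [eq_bot_iff, ← h]
      exact hLX
    have hMX : M ≤ Subgroup.normalizer (X : Set G) := by
      intro m hm
      rw [Subgroup.mem_normalizer_iff_map_conj_eq]
      have hle : ∀ m ∈ M, X.map (MulAut.conj m : G →* G) ≤ X := by
        intro m hm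
        rw [hX, Subgroup.map_iSup]
        apply iSup_le
        intro m'
        refine le_trans ?_ (le_iSup (fun m : M => L.map (MulAut.conj (m : G)).toMonoidHom) (⟨m, hm⟩ * m'))
        rw [Subgroup.map_map]
        apply le_of_eq
        congr 1
        ext x
        simp [MulAut.conj_apply, mul_assoc]
      apply le_antisymm (hle m hm)
      intro x hx
      have := hle m⁻¹ (M.inv_mem hm) ⟨x, hx, rfl⟩
      exact ⟨_, this, by simp [MulAut.conj_apply, mul_assoc]⟩
    have hKX : K ≤ Subgroup.normalizer (X : Set G) := by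
      intro k hk
      rw [Subgroup.mem_normalizer_iff_map_conj_eq, hX, Subgroup.map_iSup]
      congr 1
      ext1 m
      have hsn : (L.map (MulAut.conj (m : G)).toMonoidHom).IsSubnormal :=
        hL.map (MulAut.conj (m : G)).surjective
      have := minNormal_le_normalizer hsn hK hk
      rwa [Subgroup.mem_normalizer_iff_map_conj_eq] at this
    have h1 := hprim X hXM hMX hXne
    have hKM : K ≤ M := h1 ▸ hKX
    have hKn : K.Normal := hK.1
    have h2 : Subgroup.normalizer (K : Set G) = ⊤ := Subgroup.normalizer_eq_top_iff.mpr hKn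
    have h3 := hprim K hKM (by rw [h2]; exact le_top) hK.2.1
    exact hM (h3 ▸ h2)
  refine ⟨key, ?_⟩
  apply key _ _ inf_le_left
  have hF : (Cfsg.fittingSubgroup G).IsSubnormal := (fitting_normal).isSubnormal
  have hnil : Group.IsNilpotent (Cfsg.fittingSubgroup G) := fitting_isNilpotent
  have h1 : ((M ⊓ Cfsg.fittingSubgroup G).subgroupOf (Cfsg.fittingSubgroup G)).IsSubnormal :=
    isSubnormal_of_isNilpotent _
  exact h1.trans inf_le_right hF

end Cfsg.Agent.S3748
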