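import Cfsg.Statements.S3749
import Cfsg.Agent.Lib_helper5_Large
import Cfsg.Agent.Lib_helper1_Coprime
import Cfsg.Agent.Lib_helper7_SE

set_option autoImplicit false
open Cfsg

namespace Cfsg.Agent.S3749


/-- Call a proper subgroup M of G primitive when M = N_G(N) for every non-trivial normal subgroup N of M. Let M be a primitive subgroup of the finite group G, p a prime with O_p(M) ≠ 1, and N a normal subgroup of G with M ∩ N = 1. Then p does not divide the order of N; for every prime q there is exactly one Sylow q-subgroup of N normalized by M; and if the order of N has at least two prime divisors then M is not a maximal subgroup of G. -/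
theorem result {G : Type*} [Group G] [Finite G] (M : Subgroup G) (hM : M ≠ ⊤) (hprim : ∀ N : Subgroup G, N ≤ M → M ≤ Subgroup.normalizer (N : Set G) → N ≠ ⊥ → Subgroup.normalizer (N : Set G) = M) {p : ℕ} [Fact p.Prime] (hOp : Cfsg.pCore p ↥M ≠ ⊥) (N : Subgroup G) [N.Normal] (hMN : M ⊓ N = ⊥) : ¬ p ∣ Nat.card N ∧ (∀ q : ℕ, [Fact q.Prime] → ∃! Q : Sylow q ↥N, M ≤ Subgroup.normalizer ((Q : Subgroup ↥N).map N.subtype : Set G)) ∧ ((∃ q r : ℕ, q.Prime ∧ r.Prime ∧ q ≠ r ∧ q ∣ Nat.card N ∧ r ∣ Nat.card N) → ¬ IsCoatom M) := by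
  have hP1 : H5.pCoreIn p M ≠ ⊥ := H5.pCoreIn_ne_bot hOp
  have hPM : H5.pCoreIn p M ≤ M := H5.pCoreIn_le p M
  have hMP : M ≤ Subgroup.normalizer (H5.pCoreIn p M : Set G) := H5.le_normalizer_pCoreIn p M
  have hPp : IsPGroup p (H5.pCoreIn p M) := H5.pCoreIn_isPGroup p M
  generalize H5.pCoreIn p M = P at hP1 hPM hMP hPp
  have hNP : Subgroup.normalizer (P : Set G) = M := hprim P hPM hMP hP1
  have hCN : ∀ n ∈ N, n ∈ Subgroup.centralizer (P : Set G) → n = 1 := by
    intro n hn hc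
    have h1 : n ∈ M := by
      rw [← hNP]; exact Subgroup.centralizer_le_normalizer _ hc
    have : n ∈ M ⊓ N := Subgroup.mem_inf.2 ⟨h1, hn⟩
    rw [hMN] at this
    exact Subgroup.mem_bot.1 this
  -- (1)
  have h1 : ¬ p ∣ Nat.card N := by
    intro hdvd
    obtain ⟨x, hx⟩ := exists_prime_orderOf_dvd_card' (G := N) p hdvd
    obtain ⟨R, hR⟩ := hPp.exists_le_sylow
    have hxp : IsPGroup p (Subgroup.zpowers (x : G)) := by
      apply H7.isPGroup_zpowers_of_orderOf
      rw [Subgroup.orderOf_coe, hx]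
    obtain ⟨a, ha⟩ := H5.exists_conj_mem_sylow R _ hxp
    have hax : a * (x : G) * a⁻¹ ∈ (R : Subgroup G) ⊓ N :=
      Subgroup.mem_inf.2 ⟨ha _ (Subgroup.mem_zpowers _), ‹N.Normal›.conj_mem _ x.2 a⟩
    have hne : (R : Subgroup G) ⊓ N ≠ ⊥ := by
      intro h
      rw [h, Subgroup.mem_bot] at hax
      have hx1 : (x : G) = 1 := by
        have : (x : G) = a⁻¹ * (a * (x : G) * a⁻¹) * a := by group
        rw [this, hax]; group
      have : orderOf (x : G) = p := by rw [Subgroup.orderOf_coe, hx]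
      rw [hx1, orderOf_one] at this
      exact (Fact.out : p.Prime).one_lt.ne this
    have hn : (R : Subgroup G) ≤ Subgroup.normalizer (((R : Subgroup G) ⊓ N : Subgroup G) : Set G) := by
      rw [inf_comm]
      apply H5.inf_le_normalizer_of_le
      rw [Subgroup.normalizer_eq_top]
      exact le_top
    have h2 := H5.inf_centralizer_ne_bot_of_pgroup R.isPGroup' inf_le_left hn hne
    apply h2
    rw [eq_bot_iff]
    intro n hn
    rw [Subgroup.mem_bot]
    obtain ⟨hn1, hn2⟩ := Subgroup.mem_inf.1 hn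
    exact hCN n (Subgroup.mem_inf.1 hn1).2 (Subgroup.centralizer_le hR hn2)
  have hcop : (Nat.card P).Coprime (Nat.card N) := by
    obtain ⟨k, hk⟩ := (IsPGroup.iff_card.1 hPp)
    rw [hk]
    exact Nat.Coprime.pow_left _ ((Nat.Prime.coprime_iff_not_dvd Fact.out).2 h1)
  have hsolv : Group.IsSolvable P := H1.isSolvable_of_isPGroup hPp
  have hPN : P ≤ Subgroup.normalizer (N : Set G) := by
    rw [Subgroup.normalizer_eq_top]; exact le_top
  have huniq : ∀ (q : ℕ) [Fact q.Prime] (Q Q' : Sylow q ↥N),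
      P ≤ Subgroup.normalizer ((Q : Subgroup ↥N).map N.subtype : Set G) →
      P ≤ Subgroup.normalizer ((Q' : Subgroup ↥N).map N.subtype : Set G) → Q = Q' := by
    intro q _ Q Q' hQ hQ'
    obtain ⟨c, hc, hcQ⟩ := H1.coprime_invariant_sylow_conj P N hPN hcop (Or.inl hsolv) q Q Q' hQ hQ'
    have : c = 1 := Subtype.ext (hCN c c.2 hc)
    rw [this, one_smul] at hcQ
    exact hcQ
  have h2 : ∀ q : ℕ, [Fact q.Prime] → ∃! Q : Sylow q ↥N,
      M ≤ Subgroup.normalizer ((Q : Subgroup ↥N).map N.subtype : Set G) := by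
    intro q _
    obtain ⟨Q, hQ⟩ := H1.coprime_invariant_sylow_exists P N hPN hcop (Or.inl hsolv) q
    refine ⟨Q, ?_, fun Q' hQ' => (huniq q Q Q' hQ (hPM.trans hQ')).symm⟩
    apply H7.le_normalizer_of_forall_map_conj_le
    intro m hm
    have hle : ((Q : Subgroup ↥N).map N.subtype).map (MulAut.conj m).toMonoidHom ≤ N := by
      rw [H7.map_conj_le_iff]
      rintro _ ⟨x, -, rfl⟩
      exact ‹N.Normal›.conj_mem _ x.2 m
    have hq : IsPGroup q (((Q : Subgroup ↥N).map N.subtype).map (MulAut.conj m).toMonoidHom) :=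
      (Q.isPGroup'.map _).map _
    have hPn : P ≤ Subgroup.normalizer
        ((((Q : Subgroup ↥N).map N.subtype).map (MulAut.conj m).toMonoidHom : Subgroup G) : Set G) := by
      rw [H7.normalizer_map_conj]
      have := Subgroup.map_mono (f := (MulAut.conj m).toMonoidHom) hQ
      rwa [H7.map_conj_eq_self_iff.2 (hMP hm)] at this
    obtain ⟨Q2, hQ2, hQ2n⟩ := H1.coprime_invariant_psubgroup_le_sylow P N hPN hcop (Or.inl hsolv) q _
      hle hq hPn
    have hQQ2 := huniq q Q Q2 hQ hQ2n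
    rw [← hQQ2] at hQ2
    exact hQ2
  refine ⟨h1, h2, ?_⟩
  rintro ⟨q, r, hq, hr, hqr, hqN, hrN⟩ hco
  haveI : Fact q.Prime := ⟨hq⟩
  obtain ⟨Q, hQ, -⟩ := h2 q
  have hQN : (Q : Subgroup ↥N).map N.subtype ≤ N := Subgroup.map_subtype_le _
  have hQ1 : (Q : Subgroup ↥N).map N.subtype ≠ ⊥ := by
    rw [Ne, Subgroup.map_eq_bot_iff_of_injective _ N.subtype_injective]
    exact Q.ne_bot_of_dvd_card hqN
  have hinf : (Q : Subgroup ↥N).map N.subtype ⊓ M = ⊥ := by
    rw [eq_bot_iff, ← hMN, inf_comm]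
    exact inf_le_inf le_rfl hQN
  have hlt : M < M ⊔ (Q : Subgroup ↥N).map N.subtype := by
    refine lt_of_le_of_ne le_sup_left ?_
    intro h
    apply hQ1
    rw [eq_bot_iff, ← hinf]
    exact le_inf le_rfl (by rw [h]; exact le_sup_right)
  have htop := hco.2 _ hlt
  have c1 := H1.card_sup_mul_card_inf' ((Q : Subgroup ↥N).map N.subtype) M hQ
  have c2 := H1.card_sup_mul_card_inf' N M (by rw [Subgroup.normalizer_eq_top]; exact le_top)
  rw [hinf, Subgroup.card_bot, mul_one, sup_comm, htop] at c1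
  rw [inf_comm, hMN, Subgroup.card_bot, mul_one] at c2
  have c3 : Nat.card (N ⊔ M : Subgroup G) ≤ Nat.card (⊤ : Subgroup G) := Subgroup.card_le_of_le le_top
  rw [c1, c2] at c3
  have c4 : Nat.card N ≤ Nat.card ((Q : Subgroup ↥N).map N.subtype) :=
    Nat.le_of_mul_le_mul_right c3 Nat.card_pos
  have c5 : (Q : Subgroup ↥N).map N.subtype = N := Subgroup.eq_of_le_of_card_ge hQN c4
  have c6 : IsPGroup q N := by
    rw [← c5]; exact Q.isPGroup'.map _
  obtain ⟨k, hk⟩ := IsPGroup.iff_card.1 c6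
  rw [hk] at hrN
  exact hqr ((Nat.prime_dvd_prime_iff_eq hr hq).1 (hr.dvd_of_dvd_pow hrN)).symm

end Cfsg.Agent.S3749
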