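import Cfsg.Statements.S3750
import Cfsg.Agent.Lib_helper5_Comp6

set_option autoImplicit false
open Cfsg

namespace Cfsg.Agent.S3750

open Cfsg.Agent.H5

/-- Call a proper subgroup M of G primitive when M = N_G(N) for every non-trivial normal subgroup N of M. Let M be a primitive subgroup of the finite group G and N a normal subgroup of G with M ∩ F*(N) ≠ 1. Then F(G) = 1 and F*(N) = F*(G) = E(G); in particular every minimal normal subgroup of G is contained in N. -/
theorem result {G : Type*} [Group G] [Finite G] (M : Subgroup G) (hM : M ≠ ⊤) (hprim : ∀ N : Subgroup G, N ≤ M → M ≤ Subgroup.normalizer (N : Set G) → N ≠ ⊥ → Subgroup.normalizer (N : Set G) = M) (N : Subgroup G) [N.Normal] (hMF : M ⊓ (Cfsg.generalizedFittingSubgroup ↥N).map N.subtype ≠ ⊥) : Cfsg.fittingSubgroup G = ⊥ ∧ (Cfsg.generalizedFittingSubgroup ↥N).map N.subtype = Cfsg.generalizedFittingSubgroup G ∧ Cfsg.generalizedFittingSubgroup G = Cfsg.layer G ∧ ∀ K : Subgroup G, K.Normal → K ≠ ⊥ → (∀ K' : Subgroup G, K'.Normal → K' ≤ K → K' = ⊥ ∨ K' = K) → K ≤ N :=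 by
  have hNsn : N.IsSubnormal := Subgroup.Normal.isSubnormal inferInstance
  rw [genFitting_map_subtype_eq N hNsn] at hMF ⊢
  haveI hFn : (Cfsg.generalizedFittingSubgroup G).Normal := genFitting_normal
  haveI hFNn : (Cfsg.generalizedFittingSubgroup G ⊓ N).Normal := inferInstance
  -- normal subgroups of `G` inside `M` are trivial
  have hcore : ∀ K : Subgroup G, K.Normal → K ≤ M → K = ⊥ := by
    intro K hK hKM
    by_contra hne
    have h1 : Subgroup.normalizer (K : Set G) = ⊤ := Subgroup.normalizer_eq_top_iff.2 hK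
    have h2 := hprim K hKM (by rw [h1]; exact le_top) hne
    exact hM (h2 ▸ h1)
  have hD : Subgroup.normalizer ((M ⊓ (Cfsg.generalizedFittingSubgroup G ⊓ N) : Subgroup G) : Set G)
      = M := by
    apply hprim _ inf_le_left _ hMF
    rw [inf_comm]
    apply inf_le_normalizer_of_le
    rw [Subgroup.normalizer_eq_top_iff.2 hFNn]
    exact le_top
  have hC : Subgroup.centralizer ((Cfsg.generalizedFittingSubgroup G ⊓ N : Subgroup G) : Set G)
      = ⊥ := by
    apply hcore _ inferInstance
    calc Subgroup.centralizer ((Cfsg.generalizedFittingSubgroup G ⊓ N : Subgroup G) : Set G)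
        ≤ Subgroup.centralizer
          ((M ⊓ (Cfsg.generalizedFittingSubgroup G ⊓ N) : Subgroup G) : Set G) :=
          Subgroup.centralizer_le inf_le_right
      _ ≤ Subgroup.normalizer
          ((M ⊓ (Cfsg.generalizedFittingSubgroup G ⊓ N) : Subgroup G) : Set G) :=
          Subgroup.centralizer_le_normalizer _
      _ = M := hD
  have hF : Cfsg.fittingSubgroup G = ⊥ := by
    by_contra hne
    haveI : Nontrivial ↥(Cfsg.fittingSubgroup G) := (Subgroup.nontrivial_iff_ne_bot _).2 hne
    haveI : Group.IsNilpotent ↥(Cfsg.fittingSubgroup G) := H1.fitting_nilpotent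
    apply Group.IsNilpotent.center_ne_bot (G := ↥(Cfsg.fittingSubgroup G))
    rw [← Subgroup.map_eq_bot_iff_of_injective _ (Subgroup.subtype_injective _), eq_bot_iff, ← hC]
    refine le_trans ?_ (Subgroup.centralizer_le (inf_le_left :
      Cfsg.generalizedFittingSubgroup G ⊓ N ≤ Cfsg.generalizedFittingSubgroup G))
    rw [Subgroup.le_centralizer_iff]
    unfold Cfsg.generalizedFittingSubgroup
    apply sup_le
    · have h1 : Cfsg.layer G ≤ Subgroup.centralizer (Cfsg.fittingSubgroup G : Set G) := by
        rw [← Subgroup.commutator_eq_bot_iff_le_centralizer]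
        exact layer_fitting_commute
      exact h1.trans (Subgroup.centralizer_le (Subgroup.map_subtype_le _))
    · intro x hx
      rw [Subgroup.mem_centralizer_iff]
      rintro _ ⟨z, hz, rfl⟩
      exact congrArg Subtype.val ((Subgroup.mem_center_iff.1 hz) ⟨x, hx⟩).symm
  have hFE : Cfsg.generalizedFittingSubgroup G = Cfsg.layer G := by
    unfold Cfsg.generalizedFittingSubgroup
    rw [hF, sup_bot_eq]
  have hcent : ∀ K : Subgroup G, ⁅K, N⁆ = ⊥ → K = ⊥ := by
    intro K hK
    rw [Subgroup.commutator_eq_bot_iff_le_centralizer] at hK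
    rw [eq_bot_iff, ← hC]
    exact hK.trans (Subgroup.centralizer_le inf_le_right)
  have hEN : Cfsg.layer G ≤ N := by
    apply layer_le
    intro L hL
    rcases component_subnormal hL hNsn with h | h
    · exact h
    · exact absurd (hcent L h) (component_ne_bot hL)
  refine ⟨hF, ?_, hFE, ?_⟩
  · rw [inf_eq_left, hFE]
    exact hEN
  · intro K hK hK1 hmin
    rcases hmin (K ⊓ N) inferInstance inf_le_left with h | h
    · exfalso
      apply hK1
      apply hcent
      rw [eq_bot_iff, ← h]
      exact Subgroup.commutator_le_inf K N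
    · exact inf_eq_left.1 h

end Cfsg.Agent.S3750
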