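import Cfsg.Statements.S3760

set_option autoImplicit false
open Pointwise
open Cfsg

namespace Cfsg.Agent.S3760

theorem mem_map_conj {G : Type*} [Group G] (K : Subgroup G) (g x : G) :
    x ∈ K.map (MulAut.conj g).toMonoidHom ↔ g⁻¹ * x * g ∈ K := by
  constructor
  · rintro ⟨k, hk, rfl⟩
    simpa [MulAut.conj_apply, mul_assoc] using hk
  · intro h
    exact ⟨_, h, by simp [MulAut.conj_apply, mul_assoc]⟩

/-- Let the group G act transitively on a set X, let x ∈ X with stabilizer H = G_x, and let K ≤ H. Then N_G(K) acts transitively on the set of fixed points of K if and only if every G-conjugate of K contained in H is already an H-conjugate of K. -/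
theorem result {G : Type*} [Group G] {X : Type*} [MulAction G X] (htrans : ∀ a b : X, ∃ g : G, g • a = b) (x : X) (K : Subgroup G) (hK : K ≤ MulAction.stabilizer G x) : (∀ a b : X, (∀ k ∈ K, k • a = a) → (∀ k ∈ K, k • b = b) → ∃ g ∈ Subgroup.normalizer (K : Set G), g • a = b) ↔ ∀ g : G, K.map (MulAut.conj g).toMonoidHom ≤ MulAction.stabilizer G x → ∃ h ∈ MulAction.stabilizer G x, K.map (MulAut.conj g).toMonoidHom = K.map (MulAut.conj h).toMonoidHom := by
  constructor
  · intro H g hg
    have h1 : ∀ k ∈ K, k • x = x := fun k hk => hK hk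
    have h2 : ∀ k ∈ K, k • (g⁻¹ • x) = g⁻¹ • x := by
      intro k hk
      have : g * k * g⁻¹ ∈ K.map (MulAut.conj g).toMonoidHom := ⟨k, hk, by simp [MulAut.conj_apply]⟩
      have h3 := hg this
      rw [MulAction.mem_stabilizer_iff] at h3
      rw [eq_inv_smul_iff, ← mul_smul, ← mul_smul]
      exact h3
    obtain ⟨n, hn, hnx⟩ := H x (g⁻¹ • x) h1 h2
    refine ⟨g * n, ?_, ?_⟩
    · rw [MulAction.mem_stabilizer_iff, mul_smul, hnx, smul_inv_smul]
    · ext y
      rw [mem_map_conj, mem_map_conj]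
      rw [Subgroup.mem_normalizer_iff''] at hn
      rw [hn (g⁻¹ * y * g)]
      simp [mul_assoc]
  · intro H
    have key : ∀ a : X, (∀ k ∈ K, k • a = a) → ∃ n ∈ Subgroup.normalizer (K : Set G), n • x = a := by
      intro a ha
      obtain ⟨g, hg⟩ := htrans a x
      have h1 : K.map (MulAut.conj g).toMonoidHom ≤ MulAction.stabilizer G x := by
        rintro _ ⟨k, hk, rfl⟩
        rw [MulAction.mem_stabilizer_iff]
        simp only [MulEquiv.toMonoidHom_eq_coe, MonoidHom.coe_coe, MulAut.conj_apply]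
        rw [mul_smul, mul_smul, ← hg, inv_smul_smul, ha k hk]
      obtain ⟨h, hh, hEq⟩ := H g h1
      refine ⟨g⁻¹ * h, ?_, ?_⟩
      · rw [Subgroup.mem_normalizer_iff]
        intro k
        have := SetLike.ext_iff.mp hEq (h * k * h⁻¹)
        rw [mem_map_conj, mem_map_conj] at this
        have e1 : h⁻¹ * (h * k * h⁻¹) * h = k := by group
        rw [e1] at this
        rw [← this]
        have e2 : g⁻¹ * h * k * (g⁻¹ * h)⁻¹ = g⁻¹ * (h * k * h⁻¹) * g := by group
        rw [e2]
      · rw [MulAction.mem_stabilizer_iff] at hh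
        rw [mul_smul, hh, ← hg, inv_smul_smul]
    intro a b ha hb
    obtain ⟨n, hn, hna⟩ := key a ha
    obtain ⟨m, hm, hmb⟩ := key b hb
    refine ⟨m * n⁻¹, mul_mem hm (inv_mem hn), ?_⟩
    rw [mul_smul, ← hna, inv_smul_smul, hmb]

end Cfsg.Agent.S3760
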