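import Cfsg.Statements.S3763
import Mathlib
import Cfsg.Agent.Lib_lead_XS9

set_option autoImplicit false
open Cfsg

namespace Cfsg.Agent.S3763

open Cfsg.Agent.LeadXS in
theorem prank_succ {E : Type*} [Group E] [Finite E] (h : XS 2 E) {n : ℕ}
    (hn : Nat.card E = 2 ^ (2 * n + 1)) : Cfsg.PRankLE 2 (n + 1) E := by
  have : Fact (Nat.Prime 2) := ⟨Nat.prime_two⟩
  intro A hA _
  apply (h.card_abelian_le hn A _).1
  intro a ha
  rw [Subgroup.mem_centralizer_iff]
  intro b hb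
  exact congrArg Subtype.val (mul_comm' (⟨b, hb⟩ : A) ⟨a, ha⟩)

open Cfsg.Agent.LeadXS in
theorem hp_iff {E : Type*} [Group E] [Finite E] (h : XS 2 E) {n : ℕ}
    (hn : Nat.card E = 2 ^ (2 * n + 1)) : HP n E ↔ ¬ Cfsg.PRankLE 2 n E := by
  have : Fact (Nat.Prime 2) := ⟨Nat.prime_two⟩
  constructor
  · rintro ⟨A, hA, hAc⟩ hr
    have := hr A hA.1 hA.2
    rw [hAc] at this
    have h2 : 2 ^ n < 2 ^ (n + 1) := Nat.pow_lt_pow_right (by norm_num) (by omega)
    omega
  · intro hr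
    unfold Cfsg.PRankLE at hr
    push Not at hr
    obtain ⟨A, hA1, hA2, hA3⟩ := hr
    refine ⟨A, ⟨hA1, hA2⟩, ?_⟩
    have h1 := prank_succ h hn A hA1 hA2
    obtain ⟨k, hk⟩ := (h.pgroup.to_subgroup A).exists_card_eq
    rw [hk] at h1 hA3 ⊢
    have h3 : n < k := (Nat.pow_lt_pow_iff_right (by norm_num)).1 hA3
    have h4 : k ≤ n + 1 := (Nat.pow_le_pow_iff_right (by norm_num)).1 h1
    have : k = n + 1 := by omega
    rw [this]


/-- Let E be an extraspecial 2-group of order 2^(2n+1). Then the largest elementary abelian subgroups of E have order 2^n or 2^(n+1); and two extraspecial 2-groups of the same order whose largest elementary abelian subgroups have the same order are isomorphic. -/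
theorem result {E : Type*} [Group E] [Finite E] (hE : Cfsg.IsExtraspecial 2 E) (n : ℕ) (hn : Nat.card E = 2 ^ (2 * n + 1)) : ((Cfsg.PRankLE 2 n E ∧ ¬ Cfsg.PRankLE 2 (n - 1) E) ∨ (Cfsg.PRankLE 2 (n + 1) E ∧ ¬ Cfsg.PRankLE 2 n E)) ∧ ∀ (E' : Type*) [Group E'] [Finite E'], Cfsg.IsExtraspecial 2 E' → Nat.card E' = Nat.card E → (∀ k : ℕ, Cfsg.PRankLE 2 k E ↔ Cfsg.PRankLE 2 k E') → Nonempty (E ≃* E') := by
  have : Fact (Nat.Prime 2) := ⟨Nat.prime_two⟩
  have hX := Cfsg.Agent.LeadXS.XS.of_extraspecial hE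
  constructor
  · by_cases hp : Cfsg.Agent.LeadXS.HP n E
    · right
      exact ⟨prank_succ hX hn, (hp_iff hX hn).1 hp⟩
    · left
      refine ⟨not_not.1 (fun hh => hp ((hp_iff hX hn).2 hh)), ?_⟩
      obtain ⟨m, hm1, hm⟩ := hX.card
      have hnm : n = m := by
        rw [hn] at hm
        have := Nat.pow_right_injective (le_refl 2) hm
        omega
      obtain ⟨m', rfl⟩ : ∃ m', n = m' + 1 := ⟨n - 1, by omega⟩
      obtain ⟨A, hA, hAc⟩ := Cfsg.Agent.LeadXS.hp_pred m' E hX.toXS0 hn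
      intro hr
      have := hr A hA.1 hA.2
      rw [hAc] at this
      have h2 : 2 ^ (m' + 1 - 1) < 2 ^ (m' + 1) := Nat.pow_lt_pow_right (by norm_num) (by omega)
      omega
  · intro E' _ _ hE' hc hr
    have hX' := Cfsg.Agent.LeadXS.XS.of_extraspecial hE'
    have hn' : Nat.card E' = 2 ^ (2 * n + 1) := hc.trans hn
    apply Cfsg.Agent.LeadXS.iso_two n E E' hX.toXS0 hX'.toXS0 hn hn'
    rw [hp_iff hX hn, hp_iff hX' hn', hr n]

end Cfsg.Agent.S3763
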