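import Cfsg.Statements.S3766
import Mathlib
import Cfsg.Agent.Lib_helper5_Comp6
import Cfsg.Agent.Lib_helper1_Cores

set_option autoImplicit false
open Cfsg

namespace Cfsg.Agent.S3766

open Cfsg.Agent
open scoped commutatorElement

/-- iterated commutator with `D`. -/
def it {G : Type*} [Group G] (D : Subgroup G) : ℕ → Subgroup G → Subgroup G
  | 0, A => A
  | (k+1), A => ⁅it D k A, D⁆

theorem it_mono {G : Type*} [Group G] (D : Subgroup G) (k : ℕ) {A B : Subgroup G} (h : A ≤ B) :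
    it D k A ≤ it D k B := by
  induction k with
  | zero => exact h
  | succ k ih => exact Subgroup.commutator_mono ih le_rfl

theorem it_mono2 {G : Type*} [Group G] {D E : Subgroup G} (hDE : D ≤ E) (k : ℕ) (A : Subgroup G) :
    it D k A ≤ it E k A := by
  induction k with
  | zero => exact le_rfl
  | succ k ih => exact Subgroup.commutator_mono ih hDE

theorem it_add {G : Type*} [Group G] (D : Subgroup G) (k l : ℕ) (A : Subgroup G) :
    it D (k + l) A = it D k (it D l A) := by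
  induction k with
  | zero => simp [it]
  | succ k ih =>
    have : k + 1 + l = (k + l) + 1 := by omega
    rw [this]
    show ⁅it D (k + l) A, D⁆ = ⁅it D k (it D l A), D⁆
    rw [ih]

theorem it_bot {G : Type*} [Group G] (D : Subgroup G) (k : ℕ) : it D k ⊥ = ⊥ := by
  induction k with
  | zero => rfl
  | succ k ih =>
    show ⁅it D k ⊥, D⁆ = ⊥
    rw [ih, Subgroup.commutator_bot_left]

theorem lcs_map {G : Type*} [Group G] (D : Subgroup G) (k : ℕ) :
    D.lowerCentralSeries k = it D k D := by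
  induction k with
  | zero => rfl
  | succ k ih =>
    show ⁅D.lowerCentralSeries k, D⁆ = ⁅it D k D, D⁆
    rw [ih]

theorem nilp_iff {G : Type*} [Group G] (D : Subgroup G) :
    Group.IsNilpotent ↥D ↔ ∃ k, it D k D = ⊥ := by
  rw [Subgroup.isNilpotent_iff_lowerCentralSeries]
  simp only [lcs_map]

theorem comm_sup_le {G : Type*} [Group G] (V T F : Subgroup G) [V.Normal] :
    ⁅V ⊔ T, F⁆ ≤ V ⊔ ⁅T, F⁆ := by
  rw [Subgroup.commutator_le]
  intro x hx f hf
  rw [Subgroup.mem_sup_of_normal_left] at hx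
  obtain ⟨v, hv, t, ht, rfl⟩ := hx
  have e : ⁅v * t, f⁆ = v * ⁅t, f⁆ * (f * v⁻¹ * f⁻¹) := by
    simp only [commutatorElement_def]; group
  rw [e]
  refine mul_mem (mul_mem (Subgroup.mem_sup_left hv) (Subgroup.mem_sup_right
    (Subgroup.commutator_mem_commutator ht hf))) (Subgroup.mem_sup_left ?_)
  exact ‹V.Normal›.conj_mem _ (inv_mem hv) f

/-- A nilpotent normal subgroup centralizes every chief factor. -/
theorem fwd {G : Type*} [Group G] (F : Subgroup G) [F.Normal] (hF : Group.IsNilpotent ↥F)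
    (U V : Subgroup G) (hU : U.Normal) (hV : V.Normal) (hlt : V < U)
    (hch : ∀ W : Subgroup G, W.Normal → V ≤ W → W ≤ U → W = V ∨ W = U) : ⁅U, F⁆ ≤ V := by
  have := hU
  have := hV
  have hUF : ⁅U, F⁆ ≤ U := Subgroup.commutator_le_left U F
  rcases hch (V ⊔ ⁅U, F⁆) inferInstance le_sup_left (sup_le hlt.le hUF) with h | h
  · rw [← h]; exact le_sup_right
  · exfalso
    have key : ∀ k, U ≤ V ⊔ it F k U := by
      intro k
      induction k with
      | zero => exact le_sup_right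
      | succ k ih =>
        calc U = V ⊔ ⁅U, F⁆ := h.symm
          _ ≤ V ⊔ ⁅V ⊔ it F k U, F⁆ := sup_le_sup le_rfl (Subgroup.commutator_mono ih le_rfl)
          _ ≤ V ⊔ (V ⊔ ⁅it F k U, F⁆) := sup_le_sup le_rfl (comm_sup_le _ _ _)
          _ = V ⊔ it F (k+1) U := by rw [← sup_assoc, sup_idem]; rfl
    obtain ⟨k, hk⟩ := (nilp_iff F).1 hF
    have h1 : it F (k + 1) U ≤ it F k F := by
      rw [it_add]
      apply it_mono
      exact Subgroup.commutator_le_right U F
    have h2 := key (k + 1)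
    rw [hk] at h1
    rw [le_bot_iff.1 h1, sup_bot_eq] at h2
    exact absurd hlt (not_lt_of_ge h2)

/-- The subgroup of elements of `N` centralizing all chief factors below `F`. -/
def cc {G : Type*} [Group G] (N F : Subgroup G) : Subgroup G where
  carrier := {g | g ∈ N ∧ ∀ U V : Subgroup G, (U.Normal ∧ V.Normal ∧ V < U ∧
      ∀ W : Subgroup G, W.Normal → V ≤ W → W ≤ U → W = V ∨ W = U) → U ≤ F →
      ∀ u ∈ U, u * g * u⁻¹ * g⁻¹ ∈ V}
  one_mem' := by
    refine ⟨one_mem _, ?_⟩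
    intro U V _ _ u _
    simp
  mul_mem' := by
    rintro a b ⟨ha, ha'⟩ ⟨hb, hb'⟩
    refine ⟨mul_mem ha hb, ?_⟩
    intro U V hc hUF u hu
    have e : u * (a * b) * u⁻¹ * (a * b)⁻¹ = (u * a * u⁻¹ * a⁻¹) * (a * (u * b * u⁻¹ * b⁻¹) * a⁻¹) := by
      group
    rw [e]
    exact mul_mem (ha' U V hc hUF u hu) (hc.2.1.conj_mem _ (hb' U V hc hUF u hu) a)
  inv_mem' := by
    rintro a ⟨ha, ha'⟩
    refine ⟨inv_mem ha, ?_⟩
    intro U V hc hUF u hu
    have e : u * a⁻¹ * u⁻¹ * a⁻¹⁻¹ = a⁻¹ * (u * a * u⁻¹ * a⁻¹)⁻¹ * a⁻¹⁻¹ := by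
      group
    rw [e]
    exact hc.2.1.conj_mem _ (inv_mem (ha' U V hc hUF u hu)) a⁻¹

theorem cc_normal {G : Type*} [Group G] (N F : Subgroup G) [N.Normal] : (cc N F).Normal := by
  constructor
  rintro a ⟨ha, ha'⟩ x
  refine ⟨‹N.Normal›.conj_mem _ ha x, ?_⟩
  intro U V hc hUF u hu
  have e : u * (x * a * x⁻¹) * u⁻¹ * (x * a * x⁻¹)⁻¹ =
      x * ((x⁻¹ * u * x⁻¹⁻¹) * a * (x⁻¹ * u * x⁻¹⁻¹)⁻¹ * a⁻¹) * x⁻¹ := by
    group
  rw [e]
  exact hc.2.1.conj_mem _ (ha' U V hc hUF _ (hc.1.conj_mem _ hu x⁻¹)) x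

/-- Every normal subgroup below `F` is killed by iterated commutation with `cc N F`. -/
theorem kill {G : Type*} [Group G] [Finite G] (N F : Subgroup G) :
    ∀ (n : ℕ) (U : Subgroup G), Nat.card U ≤ n → U.Normal → U ≤ F → ∃ k, it (cc N F) k U = ⊥ := by
  intro n
  induction n with
  | zero =>
    intro U hU
    exact absurd hU (by have := Nat.card_pos (α := ↥U); omega)
  | succ n ih =>
    intro U hcard hU hUF
    by_cases hbot : U = ⊥
    · exact ⟨0, hbot⟩
    -- choose V maximal normal below U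
    have hex : ∃ V : Subgroup G, V.Normal ∧ V < U := ⟨⊥, inferInstance, bot_lt_iff_ne_bot.2 hbot⟩
    obtain ⟨V, ⟨hVn, hVlt⟩, hmax⟩ :=
      (Set.toFinite {V : Subgroup G | V.Normal ∧ V < U}).exists_maximal hex
    have hch : ∀ W : Subgroup G, W.Normal → V ≤ W → W ≤ U → W = V ∨ W = U := by
      intro W hW hVW hWU
      by_cases h : W = U
      · exact Or.inr h
      · left
        exact le_antisymm (hmax ⟨hW, lt_of_le_of_ne hWU h⟩ hVW) hVW
    have h1 : ⁅U, cc N F⁆ ≤ V := by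
      rw [Subgroup.commutator_le]
      intro u hu c hc
      exact hc.2 U V ⟨hU, hVn, hVlt, hch⟩ hUF u hu
    have hVcard : Nat.card V ≤ n := by
      have := H1.card_lt_card_of_lt hVlt
      omega
    obtain ⟨k, hk⟩ := ih V hVcard hVn (hVlt.le.trans hUF)
    refine ⟨k + 1, ?_⟩
    rw [it_add]
    apply le_bot_iff.1
    rw [← hk]
    exact it_mono _ _ h1

theorem bwd {G : Type*} [Group G] [Finite G] [Group.IsSolvable G] (N : Subgroup G) [N.Normal]
    (F : Subgroup G) (hFeq : F = Cfsg.fittingSubgroup G ⊓ N) (g : G) (hgN : g ∈ N)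
    (hg : ∀ U V : Subgroup G, (U.Normal ∧ V.Normal ∧ V < U ∧
      ∀ W : Subgroup G, W.Normal → V ≤ W → W ≤ U → W = V ∨ W = U) → U ≤ F →
      ∀ u ∈ U, u * g * u⁻¹ * g⁻¹ ∈ V) : g ∈ F := by
  have hFGn : (Cfsg.fittingSubgroup G).Normal := H1.fitting_normal
  have hFn : F.Normal := by rw [hFeq]; infer_instance
  have hCn : (cc N F).Normal := cc_normal N F
  have key : ∀ (n : ℕ) (A : Subgroup G), Nat.card A ≤ n → A.Normal → A ≤ cc N F → A ≤ F := by
    intro n
    induction n with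
    | zero =>
      intro A hA
      exact absurd hA (by have := Nat.card_pos (α := ↥A); omega)
    | succ n ih =>
      intro A hcard hA hAC
      by_cases hbot : A = ⊥
      · rw [hbot]; exact bot_le
      have hlt : ⁅A, A⁆ < A := Group.IsSolvable.commutator_lt_of_ne_bot hbot
      have h1 : ⁅A, A⁆ ≤ F := by
        apply ih
        · have := H1.card_lt_card_of_lt hlt
          omega
        · infer_instance
        · exact hlt.le.trans hAC
      obtain ⟨k, hk⟩ := kill N F _ F le_rfl hFn le_rfl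
      have h2 : it A (k + 1) A = ⊥ := by
        rw [it_add]
        apply le_bot_iff.1
        rw [← hk]
        exact (it_mono A k h1).trans (it_mono2 hAC k F)
      have hnil : Group.IsNilpotent ↥A := (nilp_iff A).2 ⟨_, h2⟩
      rw [hFeq]
      exact le_inf (H1.le_fitting hA hnil) (fun x hx => (hAC hx).1)
  exact key _ (cc N F) le_rfl hCn le_rfl ⟨hgN, hg⟩

/-- Let G be a finite solvable group and N a normal subgroup of G. Call a pair V < U of normal subgroups of G a chief factor of G when no normal subgroup of G lies strictly between them; an element g centralizes the chief factor U/V when u g u⁻¹ g⁻¹ ∈ V for all u ∈ U. Then an element of G lies in the Fitting subgroup F(N) if and only if it lies in N and centralizes every chief factor of G; and also if and only if it lies in N and centralizes every chief factor U/V of G with U ≤ F(N). -/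
theorem result {G : Type*} [Group G] [Finite G] (hG : Group.IsSolvable G) (N : Subgroup G) [N.Normal] (g : G) : (g ∈ (Cfsg.fittingSubgroup ↥N).map N.subtype ↔ g ∈ N ∧ ∀ U V : Subgroup G, (U.Normal ∧ V.Normal ∧ V < U ∧ ∀ W : Subgroup G, W.Normal → V ≤ W → W ≤ U → W = V ∨ W = U) → ∀ u ∈ U, u * g * u⁻¹ * g⁻¹ ∈ V) ∧ (g ∈ (Cfsg.fittingSubgroup ↥N).map N.subtype ↔ g ∈ N ∧ ∀ U V : Subgroup G, (U.Normal ∧ V.Normal ∧ V < U ∧ ∀ W : Subgroup G, W.Normal → V ≤ W → W ≤ U → W = V ∨ W = U) → U ≤ (Cfsg.fittingSubgroup ↥N).map N.subtype → ∀ u ∈ U, u * g * u⁻¹ * g⁻¹ ∈ V) := by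
  haveI := hG
  obtain ⟨F, hFdef⟩ : ∃ F, F = (Cfsg.fittingSubgroup ↥N).map N.subtype := ⟨_, rfl⟩
  rw [← hFdef]
  have hFeq : F = Cfsg.fittingSubgroup G ⊓ N := by
    rw [hFdef]
    exact H5.fitting_map_subtype_eq N (Subgroup.Normal.isSubnormal inferInstance)
  have hFGn : (Cfsg.fittingSubgroup G).Normal := H1.fitting_normal
  have hFn : F.Normal := by rw [hFeq]; infer_instance
  have hFnil : Group.IsNilpotent ↥F := by
    have h1 : Group.IsNilpotent ↥(Cfsg.fittingSubgroup G) := H1.fitting_nilpotent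
    have hle : F ≤ Cfsg.fittingSubgroup G := by rw [hFeq]; exact inf_le_left
    obtain ⟨k, hk⟩ := (nilp_iff _).1 h1
    refine (nilp_iff _).2 ⟨k, le_bot_iff.1 ?_⟩
    rw [← hk]
    exact (it_mono F k hle).trans (it_mono2 hle k _)
  have hFN : F ≤ N := by rw [hFeq]; exact inf_le_right
  -- forward direction
  have hfwd : g ∈ F → g ∈ N ∧ ∀ U V : Subgroup G, (U.Normal ∧ V.Normal ∧ V < U ∧
      ∀ W : Subgroup G, W.Normal → V ≤ W → W ≤ U → W = V ∨ W = U) →
      ∀ u ∈ U, u * g * u⁻¹ * g⁻¹ ∈ V := by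
    intro hg
    refine ⟨hFN hg, ?_⟩
    rintro U V ⟨hU, hV, hlt, hch⟩ u hu
    exact fwd F hFnil U V hU hV hlt hch (Subgroup.commutator_mem_commutator hu hg)
  have hbwd : (g ∈ N ∧ ∀ U V : Subgroup G, (U.Normal ∧ V.Normal ∧ V < U ∧
      ∀ W : Subgroup G, W.Normal → V ≤ W → W ≤ U → W = V ∨ W = U) → U ≤ F →
      ∀ u ∈ U, u * g * u⁻¹ * g⁻¹ ∈ V) → g ∈ F := by
    intro hg
    exact bwd N F hFeq g hg.1 hg.2
  refine ⟨⟨hfwd, fun h => hbwd ⟨h.1, fun U V hc _ => h.2 U V hc⟩⟩,
    ⟨fun h => ⟨(hfwd h).1, fun U V hc _ => (hfwd h).2 U V hc⟩, hbwd⟩⟩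

end Cfsg.Agent.S3766
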