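import Cfsg.Statements.S3768
import Mathlib
import Cfsg.Agent.Lib_lead_Frob4
import Cfsg.Agent.Lib_lead_Frob3

set_option autoImplicit false
open Cfsg

namespace Cfsg.Agent.S3768

/-- Let G be a finite Frobenius group with Frobenius complement R and Frobenius kernel K (the identity together with the elements in no conjugate of R), and let N be a normal subgroup of G not containing K. Then G/N is a Frobenius group with Frobenius complement RN/N whose Frobenius kernel is the image of K. -/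
theorem result {G : Type*} [Group G] [Finite G] (R : Subgroup G) (hR : Cfsg.IsFrobeniusComplement R) (N : Subgroup G) [N.Normal] (hKN : ¬ Cfsg.frobeniusKernel R ⊆ N) : Cfsg.IsFrobeniusComplement (R.map (QuotientGroup.mk' N)) ∧ Cfsg.frobeniusKernel (R.map (QuotientGroup.mk' N)) = QuotientGroup.mk' N '' Cfsg.frobeniusKernel R := by
  classical
  obtain ⟨K, hK, hKn, hc⟩ := Cfsg.Agent.H3.frobenius_theorem R hR
  have hNK : N ≤ K := by
    rcases Cfsg.Agent.S3383.dichotomy R hR K hK N inferInstance with h | h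
    · exact absurd (by rw [← hK]; exact h) hKN
    · exact h
  have hπ : Function.Surjective (QuotientGroup.mk' N) := QuotientGroup.mk'_surjective N
  have : (K.map (QuotientGroup.mk' N)).Normal := hKn.map _ hπ
  have hcop : (Nat.card K).Coprime (Nat.card R) := by
    rw [Cfsg.Agent.LeadFrob.card_kernel_subgroup hR hK]; exact Cfsg.Agent.LeadFrob.frob_coprime hR
  have hcop' : (Nat.card (K.map (QuotientGroup.mk' N))).Coprime (Nat.card (R.map (QuotientGroup.mk' N))) :=
    Nat.Coprime.coprime_dvd_left (Subgroup.card_map_dvd _ _)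
      (Nat.Coprime.coprime_dvd_right (Subgroup.card_map_dvd _ _) hcop)
  have hsup : K.map (QuotientGroup.mk' N) ⊔ R.map (QuotientGroup.mk' N) = ⊤ := by
    rw [← Subgroup.map_sup, hc.sup_eq_top, Subgroup.map_top_of_surjective _ hπ]
  have hc' := Cfsg.Agent.H1.isComplement'_of_sup_of_coprime hsup hcop'
  have hK' : K.map (QuotientGroup.mk' N) ≠ ⊥ := by
    intro h
    apply hKN
    rw [← hK]
    rw [Subgroup.map_eq_bot_iff, QuotientGroup.ker_mk'] at h
    exact h
  have hR' : R.map (QuotientGroup.mk' N) ≠ ⊥ := by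
    intro h
    rw [Subgroup.map_eq_bot_iff, QuotientGroup.ker_mk'] at h
    apply hR.1
    rw [eq_bot_iff, ← hc.disjoint.eq_bot]
    exact le_inf (h.trans hNK) le_rfl
  have key := Cfsg.Agent.LeadFrob.frob_of_complement _ _ hc' hK' hR' (by
    rintro _ ⟨r, hr, rfl⟩ hr1 _ ⟨k, hk, rfl⟩ hcomm
    have hr1' : r ≠ 1 := by
      rintro rfl; exact hr1 (map_one _)
    have hinj : ∀ x ∈ K, ∀ y ∈ K, x⁻¹ * r⁻¹ * x * r = y⁻¹ * r⁻¹ * y * r → x = y := by
      intro x hx y hy hxy
      have h1 : x⁻¹ * r⁻¹ * x = y⁻¹ * r⁻¹ * y := mul_right_cancel hxy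
      have h2 : (y * x⁻¹) * r = r * (y * x⁻¹) := by
        have h3 : (y * x⁻¹) * r⁻¹ = r⁻¹ * (y * x⁻¹) := by
          calc (y * x⁻¹) * r⁻¹ = y * (x⁻¹ * r⁻¹ * x) * x⁻¹ := by group
            _ = y * (y⁻¹ * r⁻¹ * y) * x⁻¹ := by rw [h1]
            _ = r⁻¹ * (y * x⁻¹) := by group
        calc (y * x⁻¹) * r = r * (r⁻¹ * (y * x⁻¹)) * r := by group
          _ = r * ((y * x⁻¹) * r⁻¹) * r := by rw [h3]
          _ = r * (y * x⁻¹) := by group
      have h4 := Cfsg.Agent.LeadFrob.frob_fpf hR hc.disjoint.eq_bot hr hr1' (K.mul_mem hy (K.inv_mem hx)) h2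
      exact (mul_inv_eq_one.1 h4).symm
    have hmemN : ∀ n : N, (n : G)⁻¹ * r⁻¹ * n * r ∈ N := by
      intro n
      have h1 : r⁻¹ * (n : G) * r⁻¹⁻¹ ∈ N := Subgroup.Normal.conj_mem inferInstance _ n.2 _
      have h2 := N.mul_mem (N.inv_mem n.2) h1
      have e : (n : G)⁻¹ * (r⁻¹ * (n : G) * r⁻¹⁻¹) = (n : G)⁻¹ * r⁻¹ * n * r := by group
      rwa [e] at h2
    let ψ : N → N := fun n => ⟨(n : G)⁻¹ * r⁻¹ * n * r, hmemN n⟩
    have hψ : Function.Injective ψ := by
      intro m n hmn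
      exact Subtype.ext (hinj _ (hNK m.2) _ (hNK n.2) (congrArg Subtype.val hmn))
    have hsurj := (Finite.injective_iff_surjective.1 hψ)
    have hw : k⁻¹ * r⁻¹ * k * r ∈ N := by
      have h1 : (QuotientGroup.mk' N) (r * k) = (QuotientGroup.mk' N) (k * r) := by
        rw [map_mul, map_mul]; exact hcomm.symm
      have h2 := QuotientGroup.eq.1 h1
      have e : (r * k)⁻¹ * (k * r) = k⁻¹ * r⁻¹ * k * r := by group
      rwa [e] at h2
    obtain ⟨n, hn⟩ := hsurj ⟨_, hw⟩
    have h5 := hinj _ (hNK n.2) _ hk (congrArg Subtype.val hn)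
    rw [← h5]
    exact (QuotientGroup.eq_one_iff _).2 n.2)
  refine ⟨key.1, ?_⟩
  rw [key.2, ← hK]; rfl

end Cfsg.Agent.S3768
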