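import Cfsg.Statements.S3771
import Mathlib
import Cfsg.Agent.Lib_helper1_Basic

set_option autoImplicit false
open Cfsg

namespace Cfsg.Agent.S3771

theorem comm_closure {R : Type*} [Group R] (k : Set R) (h : ∀ x ∈ k, ∀ y ∈ k, x * y = y * x) :
    IsMulCommutative (Subgroup.closure k) :=
  Subgroup.isMulCommutative_closure h

/-- Let p be a prime and R a finite p-group of p-rank at most 2 (no elementary abelian subgroup of order p³) in which every element has order dividing p. Then R has order at most p³. -/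
theorem result {R : Type*} [Group R] [Finite R] {p : ℕ} [Fact p.Prime] (hR : IsPGroup p R) (hrank : Cfsg.PRankLE p 2 R) (hexp : ∀ x : R, x ^ p = 1) : Nat.card R ≤ p ^ 3 := by
  classical
  have hp : p.Prime := Fact.out
  by_contra hcon
  push Not at hcon
  obtain ⟨n, hn⟩ := hR.exists_card_eq
  have hn4 : 4 ≤ n := by
    rw [hn] at hcon
    have := (Nat.pow_lt_pow_iff_right hp.one_lt).mp hcon
    omega
  have hab : ∀ A : Subgroup R, IsMulCommutative A → Nat.card A ≤ p ^ 2 :=
    fun A hA => hrank A hA (fun a _ => hexp a)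
  haveI : Nontrivial R := by
    rw [← Finite.one_lt_card_iff_nontrivial, hn]; exact Nat.one_lt_pow (by omega) hp.one_lt
  obtain ⟨z, hzc, hz1⟩ : ∃ z ∈ Subgroup.center R, z ≠ 1 := by
    haveI := hR.center_nontrivial
    obtain ⟨⟨z, hz⟩, hne⟩ := exists_ne (1 : Subgroup.center R)
    exact ⟨z, hz, fun h => hne (Subtype.ext h)⟩
  have hzcomm : ∀ g : R, g * z = z * g := Subgroup.mem_center_iff.mp hzc
  obtain ⟨Z1, hZ1⟩ : ∃ Z1, Z1 = Subgroup.zpowers z := ⟨_, rfl⟩
  have hZ1c : Nat.card Z1 = p := by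
    rw [hZ1, Nat.card_zpowers]; exact orderOf_eq_prime (hexp z) hz1
  have hZ1le : Z1 ≤ Subgroup.center R := by
    rw [hZ1]; exact Subgroup.zpowers_le.mpr hzc
  haveI hZ1n : Z1.Normal := by
    refine ⟨fun x hx g => ?_⟩
    have := Subgroup.mem_center_iff.mp (hZ1le hx) g
    rw [this, mul_assoc, mul_inv_cancel, mul_one]
    exact hx
  have hidx : Z1.index = p ^ (n - 1) := by
    have h1 := Subgroup.card_mul_index Z1
    rw [hZ1c, hn] at h1
    have h2 : p ^ n = p * p ^ (n - 1) := by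
      rw [← pow_succ']; congr 1; omega
    rw [h2] at h1
    exact Nat.eq_of_mul_eq_mul_left hp.pos h1
  haveI : Nontrivial (R ⧸ Z1) := by
    rw [← Finite.one_lt_card_iff_nontrivial, ← Subgroup.index_eq_card, hidx]
    exact Nat.one_lt_pow (by omega) hp.one_lt
  obtain ⟨y, hyc, hy1⟩ : ∃ y : R, (y : R ⧸ Z1) ∈ Subgroup.center (R ⧸ Z1) ∧ (y : R ⧸ Z1) ≠ 1 := by
    haveI := (hR.to_quotient Z1).center_nontrivial
    obtain ⟨⟨yb, hyb⟩, hne⟩ := exists_ne (1 : Subgroup.center (R ⧸ Z1))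
    obtain ⟨y, rfl⟩ := QuotientGroup.mk_surjective yb
    exact ⟨y, hyb, fun h => hne (Subtype.ext h)⟩
  have hyZ : y ∉ Z1 := fun h => hy1 ((QuotientGroup.eq_one_iff y).mpr h)
  have hcomm : ∀ g : R, g * y * g⁻¹ * y⁻¹ ∈ Z1 := by
    intro g
    rw [← QuotientGroup.eq_one_iff]
    have h1 := Subgroup.mem_center_iff.mp hyc (g : R ⧸ Z1)
    rw [QuotientGroup.mk_mul, QuotientGroup.mk_mul, QuotientGroup.mk_mul, QuotientGroup.mk_inv,
      QuotientGroup.mk_inv, h1]
    group
  obtain ⟨C, hC⟩ : ∃ C, C = Subgroup.centralizer ({y} : Set R) := ⟨_, rfl⟩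
  have hCmem : ∀ g, g ∈ C ↔ g * y = y * g := by
    intro g; rw [hC, Subgroup.mem_centralizer_singleton_iff]
  have hCidx : C.index ≤ p := by
    rw [Subgroup.index_eq_card, ← hZ1c]
    apply Nat.card_le_card_of_injective
      (fun q : R ⧸ C => (⟨q.out * y * q.out⁻¹ * y⁻¹, hcomm _⟩ : Z1))
    intro q q' h
    have h1 : q.out * y * q.out⁻¹ * y⁻¹ = q'.out * y * q'.out⁻¹ * y⁻¹ := congrArg Subtype.val h
    have h2 : q.out * y * q.out⁻¹ = q'.out * y * q'.out⁻¹ := mul_right_cancel h1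
    rw [← QuotientGroup.out_eq' q, ← QuotientGroup.out_eq' q', QuotientGroup.eq, hCmem]
    symm
    calc y * (q.out⁻¹ * q'.out) = q.out⁻¹ * (q.out * y * q.out⁻¹) * q'.out := by group
      _ = q.out⁻¹ * (q'.out * y * q'.out⁻¹) * q'.out := by rw [h2]
      _ = q.out⁻¹ * q'.out * y := by group
  have hCcard : p ^ 3 ≤ Nat.card C := by
    by_contra hlt
    push Not at hlt
    have h1 := Subgroup.card_mul_index C
    rw [hn] at h1
    have h2 : Nat.card C * C.index ≤ Nat.card C * p := Nat.mul_le_mul_left _ hCidx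
    have h3 : Nat.card C * p < p ^ 3 * p := Nat.mul_lt_mul_of_pos_right hlt hp.pos
    have h4 : p ^ 3 * p ≤ p ^ n := by
      rw [← pow_succ]; exact Nat.pow_le_pow_right hp.pos hn4
    omega
  obtain ⟨B, hB⟩ : ∃ B, B = Subgroup.closure ({z, y} : Set R) := ⟨_, rfl⟩
  have hBc : IsMulCommutative B := by
    rw [hB]
    apply comm_closure
    rintro a (rfl | rfl) b (rfl | rfl)
    · rfl
    · exact (hzcomm b).symm
    · exact hzcomm a
    · rfl
  have hzB : z ∈ B := by rw [hB]; exact Subgroup.subset_closure (by simp)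
  have hyB : y ∈ B := by rw [hB]; exact Subgroup.subset_closure (by simp)
  obtain ⟨x, hxC, hxB⟩ : ∃ x ∈ C, x ∉ B := by
    by_contra h
    push Not at h
    have h1 : Nat.card C ≤ Nat.card B := Subgroup.card_le_of_le h
    have h2 := hab B hBc
    have h3 : p ^ 2 < p ^ 3 := Nat.pow_lt_pow_right hp.one_lt (by omega)
    omega
  have hxy : y * x = x * y := by
    exact ((hCmem x).mp hxC).symm
  obtain ⟨B', hB'⟩ : ∃ B', B' = Subgroup.closure ({z, y, x} : Set R) := ⟨_, rfl⟩
  have hBc' : IsMulCommutative B' := by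
    rw [hB']
    apply comm_closure
    rintro a (rfl | rfl | rfl) b (rfl | rfl | rfl)
    · rfl
    · exact (hzcomm b).symm
    · exact (hzcomm b).symm
    · exact hzcomm a
    · rfl
    · exact hxy
    · exact hzcomm a
    · exact hxy.symm
    · rfl
  have hlt1 : Z1 < B := by
    refine lt_of_le_of_ne ?_ (fun h => hyZ (h ▸ hyB))
    rw [hZ1]; exact Subgroup.zpowers_le.mpr hzB
  have hlt2 : B < B' := by
    refine lt_of_le_of_ne ?_ (fun h => hxB (h ▸ (by rw [hB']; exact Subgroup.subset_closure (by simp))))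
    rw [hB, hB']
    apply Subgroup.closure_mono
    intro a ha
    rcases ha with rfl | rfl
    · simp
    · simp
  have c1 := Cfsg.Agent.H1.card_lt_card_of_lt hlt1
  have c2 := Cfsg.Agent.H1.card_lt_card_of_lt hlt2
  obtain ⟨b, hb⟩ := (hR.to_subgroup B).exists_card_eq
  rw [hZ1c, hb] at c1
  have hb2 : 2 ≤ b := by
    have : p ^ 1 < p ^ b := by rwa [pow_one]
    have := (Nat.pow_lt_pow_iff_right hp.one_lt).mp this
    omega
  have h5 : p ^ 2 ≤ p ^ b := Nat.pow_le_pow_right hp.pos hb2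
  have h6 := hab B' hBc'
  rw [hb] at c2
  omega

end Cfsg.Agent.S3771
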