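import Cfsg.Statements.S3774

set_option autoImplicit false
open Cfsg

namespace Cfsg.Agent.S3774

/-- Let G be a nontrivial finite 2-group whose automorphism group permutes the involutions of G transitively. Then every involution of G is central, so that the involutions together with 1 form the subgroup Ω₁(Z(G)), and if this subgroup has order q then |G| is a power of q. -/
theorem result {G : Type*} [Group G] [Finite G] [Nontrivial G] (hG : IsPGroup 2 G) (htrans : ∀ x y : G, x ≠ 1 → x ^ 2 = 1 → y ≠ 1 → y ^ 2 = 1 → ∃ a : MulAut G, a x = y) : (∀ x : G, x ^ 2 = 1 → x ∈ Subgroup.center G) ∧ ∃ m : ℕ, Nat.card G = Nat.card {z : G // z ^ 2 = 1} ^ m := by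
  classical
  have := Fintype.ofFinite G
  have hfact : Fact (Nat.Prime 2) := ⟨Nat.prime_two⟩
  -- part 1
  have hcen : ∀ x : G, x ^ 2 = 1 → x ∈ Subgroup.center G := by
    have hnt : Nontrivial (Subgroup.center G) := hG.center_nontrivial
    have h2 : 2 ∣ Nat.card (Subgroup.center G) := by
      obtain ⟨n, hn⟩ := IsPGroup.iff_card.mp (hG.to_subgroup (Subgroup.center G))
      rw [hn]
      apply dvd_pow_self
      rintro rfl
      rw [pow_zero] at hn
      have := Finite.one_lt_card (α := Subgroup.center G)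
      omega
    obtain ⟨z, hz⟩ := exists_prime_orderOf_dvd_card' 2 h2
    have hz1 : (z : G) ≠ 1 := by
      intro h
      have : z = 1 := Subtype.ext h
      rw [this, orderOf_one] at hz
      omega
    have hz2 : (z : G) ^ 2 = 1 := by
      have := pow_orderOf_eq_one z
      rw [hz] at this
      exact congrArg Subtype.val this
    intro x hx
    by_cases hx1 : x = 1
    · rw [hx1]; exact Subgroup.one_mem _
    · obtain ⟨a, ha⟩ := htrans z x hz1 hz2 hx1 hx
      rw [← ha, Subgroup.mem_center_iff]
      intro g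
      have h3 := Subgroup.mem_center_iff.mp z.2 (a.symm g)
      have h4 := congrArg a h3
      rw [map_mul, map_mul, MulEquiv.apply_symm_apply] at h4
      exact h4
  refine ⟨hcen, ?_⟩
  -- the subgroup of involutions
  let Ω : Subgroup G :=
    { carrier := {z | z ^ 2 = 1}
      one_mem' := by simp
      mul_mem' := by
        intro a b ha hb
        have hab : Commute a b := (Subgroup.mem_center_iff.mp (hcen a ha) b).symm
        show (a * b) ^ 2 = 1
        rw [hab.mul_pow, ha, hb, one_mul]
      inv_mem' := by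
        intro a ha
        show (a⁻¹) ^ 2 = 1
        rw [inv_pow, ha, inv_one] }
  have hΩcard : Nat.card {z : G // z ^ 2 = 1} = Nat.card Ω := rfl
  obtain ⟨n, hn⟩ := IsPGroup.iff_card.mp (hG.to_subgroup Ω)
  obtain ⟨N, hN⟩ := IsPGroup.iff_card.mp hG
  -- the map to involutions
  let f : G → G := fun x => x ^ (orderOf x / 2)
  have hodd : ∀ x : G, x ≠ 1 → 2 ∣ orderOf x := by
    intro x hx
    obtain ⟨k, hk⟩ := hG x
    obtain ⟨j, -, hj⟩ := (Nat.dvd_prime_pow Nat.prime_two).mp (orderOf_dvd_of_pow_eq_one hk)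
    rw [hj]
    apply dvd_pow_self
    rintro rfl
    rw [pow_zero, orderOf_eq_one_iff] at hj
    exact hx hj
  let s : Finset G := Finset.univ.erase 1
  let t : Finset G := (Finset.univ.filter (fun z : G => z ^ 2 = 1)).erase 1
  have hmaps : ∀ x ∈ s, f x ∈ t := by
    intro x hx
    have hx1 : x ≠ 1 := Finset.ne_of_mem_erase hx
    have h2 := hodd x hx1
    have hpos : 0 < orderOf x := orderOf_pos x
    rw [Finset.mem_erase, Finset.mem_filter]
    refine ⟨?_, Finset.mem_univ _, ?_⟩
    · apply pow_ne_one_of_lt_orderOf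
      · obtain ⟨c, hc⟩ := h2
        omega
      · omega
    · show (x ^ (orderOf x / 2)) ^ 2 = 1
      rw [← pow_mul, Nat.div_mul_cancel h2, pow_orderOf_eq_one]
  have hfa : ∀ (a : MulAut G) (x : G), f (a x) = a (f x) := by
    intro a x
    show (a x) ^ (orderOf (a x) / 2) = a (x ^ (orderOf x / 2))
    rw [MulEquiv.orderOf_eq, map_pow]
  have hsum := Finset.card_eq_sum_card_fiberwise hmaps
  have hscard : s.card = 2 ^ N - 1 := by
    rw [Finset.card_erase_of_mem (Finset.mem_univ _), Finset.card_univ, ← Nat.card_eq_fintype_card, hN]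
  have htcard : t.card = 2 ^ n - 1 := by
    rw [Finset.card_erase_of_mem (by simp), ← hn, ← hΩcard, Nat.card_eq_fintype_card,
      Fintype.card_subtype]
  have hdvd : 2 ^ n - 1 ∣ 2 ^ N - 1 := by
    rcases Finset.eq_empty_or_nonempty t with ht | ⟨z₀, hz₀⟩
    · rw [← htcard, ht, ← hscard, hsum, ht]
      simp
    · have hfib : ∀ z ∈ t, (s.filter (fun x => f x = z)).card = (s.filter (fun x => f x = z₀)).card := by
        intro z hz
        rw [Finset.mem_erase, Finset.mem_filter] at hz hz₀
        obtain ⟨a, ha⟩ := htrans z z₀ hz.1 hz.2.2 hz₀.1 hz₀.2.2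
        apply Finset.card_bijective a a.bijective
        intro x
        simp only [s, Finset.mem_filter, Finset.mem_erase, Finset.mem_univ, and_true]
        rw [hfa, ← ha]
        simp
      rw [Finset.sum_congr rfl hfib, Finset.sum_const, smul_eq_mul, hscard, htcard] at hsum
      rw [hsum]
      exact Dvd.intro _ rfl
  have hgcd := Nat.pow_sub_one_gcd_pow_sub_one 2 n N
  rw [Nat.gcd_eq_left hdvd] at hgcd
  have h5 : 2 ^ n = 2 ^ Nat.gcd n N := by
    have a1 : 1 ≤ 2 ^ n := Nat.one_le_two_pow
    have a2 : 1 ≤ 2 ^ Nat.gcd n N := Nat.one_le_two_pow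
    omega
  have h6 : n = Nat.gcd n N := Nat.pow_right_injective (le_refl 2) h5
  obtain ⟨m, hm⟩ : n ∣ N := by rw [h6]; exact Nat.gcd_dvd_right n N
  refine ⟨m, ?_⟩
  rw [hΩcard, hn, hN, hm, pow_mul]

end Cfsg.Agent.S3774
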