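import Cfsg.Statements.S3780
import Cfsg.Agent.Lib_helper3_Action
import Cfsg.Agent.Lib_helper1_Frattini

set_option autoImplicit false
open Cfsg

namespace Cfsg.Agent.S3780

open Subgroup

/-- `|H| = |H ∩ ker g| · |g(H)|`. -/
theorem card_eq_inf_ker_mul_map {W W' : Type*} [Group W] [Group W'] [Finite W] (g : W →* W')
    (H : Subgroup W) : Nat.card H = Nat.card (H ⊓ g.ker : Subgroup W) * Nat.card (H.map g) := by
  have h1 := Subgroup.card_mul_index (g.domRestrict H).ker
  rw [Subgroup.index_ker, MonoidHom.domRestrict_range] at h1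
  rw [← h1]
  congr 1
  have e : (g.domRestrict H).ker = (H ⊓ g.ker).subgroupOf H := by
    ext x
    rw [MonoidHom.mem_ker, mem_subgroupOf, mem_inf]
    constructor
    · intro h; exact ⟨x.2, h⟩
    · intro h; exact h.2
  rw [e]
  exact Nat.card_congr (subgroupOfEquivOfLe (inf_le_left : H ⊓ g.ker ≤ H)).toEquiv

/-- the iterates of the endomorphism `v ↦ α v * v⁻¹`. -/
noncomputable def Nk {V : Type*} [CommGroup V] (α : MulAut V) : ℕ → (V →* V)
  | 0 => MonoidHom.id V
  | (k + 1) => (α.toMonoidHom / MonoidHom.id V).comp (Nk α k)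

theorem Nk_p {V : Type*} [CommGroup V] {p : ℕ} (hp : p.Prime) (α : MulAut V) (hα : α ^ p = 1)
    (u : V) (hu : u ^ p = 1) : Nk α p u = 1 := by
  let a : AddMonoid.End (Additive V) := MonoidHom.toAdditive α.toMonoidHom
  have h1 : ∀ (k : ℕ) (v : V), ((a - 1) ^ k) (Additive.ofMul v) = Additive.ofMul (Nk α k v) := by
    intro k
    induction k with
    | zero => intro v; rfl
    | succ k ih =>
      intro v
      rw [pow_succ']
      show (a - 1) (((a - 1) ^ k) (Additive.ofMul v)) = _
      rw [ih]
      rfl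
  have h2 : ∀ (k : ℕ) (v : V), (a ^ k) (Additive.ofMul v) = Additive.ofMul ((α ^ k) v) := by
    intro k
    induction k with
    | zero => intro v; rfl
    | succ k ih =>
      intro v
      rw [pow_succ', pow_succ']
      show a ((a ^ k) (Additive.ofMul v)) = _
      rw [ih]
      rfl
  obtain ⟨r, hr⟩ := (Commute.neg_one_right a).exists_add_pow_prime_eq hp
  have h3 : Additive.ofMul (Nk α p u) = 0 := by
    rw [← h1, sub_eq_add_neg, hr]
    have e1 : (a ^ p) (Additive.ofMul u) = Additive.ofMul u := by rw [h2, hα]; rfl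
    have hpu : p • Additive.ofMul u = 0 := by
      rw [← ofMul_pow, hu]; rfl
    have e2 : ((p : AddMonoid.End (Additive V)) * a * -1 * r) (Additive.ofMul u) = 0 := by
      rw [mul_assoc, mul_assoc]
      show (p : AddMonoid.End (Additive V)) ((a * (-1 * r)) (Additive.ofMul u)) = 0
      rw [AddMonoid.End.natCast_apply, ← map_nsmul, hpu, map_zero]
    show (a ^ p) (Additive.ofMul u) + ((-1 : AddMonoid.End (Additive V)) ^ p) (Additive.ofMul u)
      + ((p : AddMonoid.End (Additive V)) * a * -1 * r) (Additive.ofMul u) = 0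
    rw [e1, e2, add_zero]
    have hsq : ((-1 : AddMonoid.End (Additive V)) ^ 2) = 1 := by
      ext x
      rw [pow_two]
      show - - x = x
      exact neg_neg x
    rcases hp.eq_two_or_odd' with h | h
    · subst h
      rw [hsq]
      show Additive.ofMul u + Additive.ofMul u = 0
      rw [← two_nsmul]; exact hpu
    · obtain ⟨m, rfl⟩ := h
      rw [pow_succ, pow_mul, hsq, one_pow, one_mul]
      show Additive.ofMul u + -Additive.ofMul u = 0
      exact add_neg_cancel _
  exact h3

/-- Let V be a finite abelian p-group and α an automorphism of V of order p whose fixed-point subgroup has order p^n. Then V can be generated by pn elements: some subset of V with at most pn elements generates V. -/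
theorem result {V : Type*} [CommGroup V] [Finite V] {p : ℕ} [Fact p.Prime] (hV : IsPGroup p V) (α : MulAut V) (hα : orderOf α = p) (n : ℕ) (hfix : Nat.card {v : V // α v = v} = p ^ n) : ∃ S : Finset V, S.card ≤ p * n ∧ Subgroup.closure (S : Set V) = ⊤ := by
  classical
  have hp : p.Prime := Fact.out
  have hαp : α ^ p = 1 := by rw [← hα]; exact pow_orderOf_eq_one α
  set N : V →* V := α.toMonoidHom / MonoidHom.id V with hN
  have hNapp : ∀ v, N v = α v * v⁻¹ := by
    intro v
    simp [hN, MonoidHom.div_apply, div_eq_mul_inv]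
  set Ω := (powMonoidHom p : V →* V).ker with hΩ
  have hΩmem : ∀ v, v ∈ Ω ↔ v ^ p = 1 := fun v => Iff.rfl
  have hC : Nat.card N.ker = p ^ n := by
    rw [← hfix]
    apply Nat.card_congr
    apply Equiv.subtypeEquivRight
    intro v
    rw [MonoidHom.mem_ker, hNapp, mul_inv_eq_one]
  -- the chain
  have hchain : ∀ k : ℕ, Nat.card (Ω ⊓ (Nk α k).ker : Subgroup V) ≤ p ^ (n * k) := by
    intro k
    induction k with
    | zero =>
      have : (Nk α 0).ker = ⊥ := by
        rw [eq_bot_iff]
        intro v hv
        exact hv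
      rw [this, inf_bot_eq, card_bot]; simp
    | succ k ih =>
      have h1 := card_eq_inf_ker_mul_map (Nk α k) (Ω ⊓ (Nk α (k + 1)).ker)
      have h2 : (Ω ⊓ (Nk α (k + 1)).ker) ⊓ (Nk α k).ker ≤ Ω ⊓ (Nk α k).ker :=
        le_inf (inf_le_left.trans inf_le_left) inf_le_right
      have h3 : (Ω ⊓ (Nk α (k + 1)).ker).map (Nk α k) ≤ N.ker := by
        rintro _ ⟨v, hv, rfl⟩
        exact (mem_inf.1 hv).2
      rw [h1]
      calc _ ≤ p ^ (n * k) * p ^ n :=
            Nat.mul_le_mul ((Subgroup.card_le_of_le h2).trans ih)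
              ((Subgroup.card_le_of_le h3).trans hC.le)
        _ = p ^ (n * (k + 1)) := by rw [← pow_add]; congr 1
  have hΩle : Nat.card Ω ≤ p ^ (n * p) := by
    have h1 : Ω ⊓ (Nk α p).ker = Ω := by
      rw [inf_eq_left]
      intro u hu
      exact Nk_p hp α hαp u hu
    have := hchain p
    rwa [h1] at this
  obtain ⟨d, hd⟩ := (hV.to_subgroup Ω).exists_card_eq
  have hdle : d ≤ p * n := by
    rw [hd] at hΩle
    rw [mul_comm]
    exact (Nat.pow_le_pow_iff_right hp.one_lt).1 hΩle
  set R := (powMonoidHom p : V →* V).range with hR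
  have hidx : R.index = p ^ d := by
    have h1 := Subgroup.card_mul_index Ω
    rw [Subgroup.index_ker] at h1
    have h2 := Subgroup.card_mul_index R
    rw [← hd]
    have hpos : 0 < Nat.card R := Nat.card_pos
    apply Nat.eq_of_mul_eq_mul_left hpos
    rw [h2, ← h1, mul_comm]
  have hQ : Nat.card (V ⧸ R) = p ^ d := by rw [← hidx]; exact (Subgroup.index_eq_card R).symm
  obtain ⟨f, hf⟩ := Cfsg.Agent.H3.exists_generators_of_card_eq_pow hQ
  choose g hg using fun i => QuotientGroup.mk'_surjective R (f i)
  refine ⟨Finset.univ.image g, ?_, ?_⟩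
  · calc (Finset.univ.image g).card ≤ (Finset.univ : Finset (Fin d)).card := Finset.card_image_le
      _ = d := by simp
      _ ≤ p * n := hdle
  · apply frattini_nongenerating
    have h1 : (closure ((Finset.univ.image g : Finset V) : Set V)).map (QuotientGroup.mk' R) = ⊤ := by
      rw [MonoidHom.map_closure, ← hf]
      congr 1
      ext x
      simp only [Finset.coe_image, Finset.coe_univ, Set.image_univ, Set.mem_image, Set.mem_range]
      constructor
      · rintro ⟨_, ⟨i, rfl⟩, rfl⟩
        exact ⟨i, (hg i).symm⟩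
      · rintro ⟨i, rfl⟩
        exact ⟨g i, ⟨i, rfl⟩, hg i⟩
    have h2 := congrArg (Subgroup.comap (QuotientGroup.mk' R)) h1
    rw [comap_map_eq, comap_top, QuotientGroup.ker_mk'] at h2
    rw [eq_top_iff, ← h2]
    apply sup_le_sup le_rfl
    rintro _ ⟨v, rfl⟩
    exact (Cfsg.Agent.H1.pgroup_frattini p hV).2 v

end Cfsg.Agent.S3780
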