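import Cfsg.Statements.S3784
import Mathlib

set_option autoImplicit false
open Cfsg

namespace Cfsg.Agent.S3784

theorem odd_dvd_two_pow {X k : ℕ} (h : 2 * X + 1 ∣ 2 ^ k) : X = 0 := by
  have hc : Nat.Coprime (2 * X + 1) (2 ^ k) := by
    apply Nat.Coprime.pow_right
    rw [Nat.coprime_two_right]
    exact ⟨X, rfl⟩
  have := Nat.Coprime.eq_one_of_dvd hc h
  omega

theorem sq_pow_form (r c : ℕ) : ∃ T, ((2 * r + 1) ^ 2) ^ c = 4 * r * (r + 1) * T + 1 := by
  induction c with
  | zero => exact ⟨0, by simp⟩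
  | succ c ih =>
    obtain ⟨T, hT⟩ := ih
    exact ⟨T * (4 * r * (r + 1) + 1) + 1, by rw [pow_succ, hT]; ring⟩

theorem c_zero {r c T : ℕ} (hr : 1 ≤ r) (hT : ((2 * r + 1) ^ 2) ^ c = 4 * r * (r + 1) * T + 1)
    (hT0 : T = 0) : c = 0 := by
  rw [hT0] at hT
  by_contra hc
  have : 1 < ((2 * r + 1) ^ 2) ^ c := Nat.one_lt_pow hc (by nlinarith)
  omega

theorem exp_one_of_add {r c k : ℕ} (hr : 1 ≤ r) (h : (2 * r + 1) ^ (2 * c + 1) + 1 = 2 ^ k) :
    c = 0 := by
  obtain ⟨T, hT⟩ := sq_pow_form r c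
  have h1 : (2 * r + 1) ^ (2 * c + 1) + 1 = (2 * r + 2) * (2 * ((2 * r + 1) * r * T) + 1) := by
    rw [pow_succ, pow_mul, hT]; ring
  have h2 : 2 * ((2 * r + 1) * r * T) + 1 ∣ 2 ^ k := ⟨2 * r + 2, by rw [← h, h1]; ring⟩
  have h3 := odd_dvd_two_pow h2
  have hT0 : T = 0 := by
    rcases Nat.mul_eq_zero.1 h3 with h4 | h4
    · exfalso
      have : 0 < (2 * r + 1) * r := Nat.mul_pos (by omega) (by omega)
      omega
    · exact h4
  exact c_zero hr hT hT0

theorem exp_one_of_sub {r c k : ℕ} (hr : 1 ≤ r) (h : (2 * r + 1) ^ (2 * c + 1) = 2 ^ k + 1) :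
    c = 0 := by
  obtain ⟨T, hT⟩ := sq_pow_form r c
  have h1 : (2 * r + 1) ^ (2 * c + 1) = (2 * r) * (2 * ((2 * r + 1) * (r + 1) * T) + 1) + 1 := by
    rw [pow_succ, pow_mul, hT]; ring
  have h2 : 2 * ((2 * r + 1) * (r + 1) * T) + 1 ∣ 2 ^ k := ⟨2 * r, by
    have : 2 ^ k = (2 * r) * (2 * ((2 * r + 1) * (r + 1) * T) + 1) := by omega
    rw [this]; ring⟩
  have h3 := odd_dvd_two_pow h2
  have hT0 : T = 0 := by
    rcases Nat.mul_eq_zero.1 h3 with h4 | h4
    · exfalso
      have : 0 < (2 * r + 1) * (r + 1) := Nat.mul_pos (by omega) (by omega)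
      omega
    · exact h4
  exact c_zero hr hT hT0

/-- Let p, q be primes and a, b positive integers with p^a = q^b + 1. Then either p = 2, b = 1, a is prime and q = 2^a − 1; or q = 2, a = 1, b is a power of 2 and p = 2^b + 1; or p^a = 9 and q^b = 8. -/
theorem result (p q a b : ℕ) (hp : p.Prime) (hq : q.Prime) (ha : 1 ≤ a) (hb : 1 ≤ b) (h : p ^ a = q ^ b + 1) : (p = 2 ∧ b = 1 ∧ a.Prime ∧ q + 1 = 2 ^ a) ∨ (q = 2 ∧ a = 1 ∧ (∃ m : ℕ, b = 2 ^ m) ∧ p = 2 ^ b + 1) ∨ (p ^ a = 9 ∧ q ^ b = 8) := by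
  by_cases hp2 : p = 2
  · left
    subst hp2
    have hqodd : Odd q := by
      rcases hq.eq_two_or_odd' with rfl | ho
      · exfalso
        have h1 : Even (2 ^ a) := (Nat.even_pow.2 ⟨even_two, by omega⟩)
        have h2 : Even (2 ^ b) := (Nat.even_pow.2 ⟨even_two, by omega⟩)
        rw [h] at h1
        exact (Nat.not_even_iff_odd.2 (h2.add_one)) h1
      · exact ho
    obtain ⟨r, hr⟩ := hqodd
    have hr1 : 1 ≤ r := by
      have := hq.two_le
      omega
    have hb1 : b = 1 := by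
      rcases Nat.even_or_odd' b with ⟨c, hc | hc⟩
      · exfalso
        have hodd : Odd (q ^ c) := Odd.pow ⟨r, hr⟩
        obtain ⟨s, hs⟩ := hodd
        obtain ⟨a', rfl⟩ : ∃ a', a = a' + 1 := ⟨a - 1, by omega⟩
        have h1 : 2 ^ a' = 2 * (s * s + s) + 1 := by
          have h2 : 2 ^ (a' + 1) = (2 * s + 1) ^ 2 + 1 := by
            rw [h, hc, mul_comm, pow_mul, hs]
          rw [pow_succ] at h2
          nlinarith
        have h3 := odd_dvd_two_pow (X := s * s + s) (k := a') (by rw [h1])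
        have hs0 : s = 0 := by nlinarith
        rw [hs0] at hs
        have hc1 : c ≠ 0 := by omega
        have : 1 < q ^ c := Nat.one_lt_pow hc1 hq.one_lt
        omega
      · have hc0 : c = 0 := exp_one_of_add hr1 (k := a) (by rw [← hr, ← hc]; exact h.symm)
        omega
    subst hb1
    rw [pow_one] at h
    refine ⟨rfl, rfl, ?_, h.symm⟩
    have ha1 : a ≠ 1 := by
      rintro rfl
      have := hq.two_le
      omega
    have hP : (2 ^ a - 1).Prime := by
      have : 2 ^ a - 1 = q := by omega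
      rw [this]; exact hq
    exact (Nat.prime_of_pow_sub_one_prime ha1 hP).2
  · right
    have hpodd : Odd p := hp.eq_two_or_odd'.resolve_left hp2
    obtain ⟨r, hr⟩ := hpodd
    have hr1 : 1 ≤ r := by
      have := hp.two_le
      omega
    have hq2 : q = 2 := by
      have h1 : Odd (p ^ a) := Odd.pow ⟨r, hr⟩
      rw [h] at h1
      have h2 : Even (q ^ b) := by
        by_contra hne
        rw [Nat.not_even_iff_odd] at hne
        exact (Nat.not_even_iff_odd.2 h1) (hne.add_one)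
      have h3 : Even q := (Nat.even_pow.1 h2).1
      exact (Nat.Prime.even_iff hq).1 h3
    subst hq2
    rcases Nat.even_or_odd' a with ⟨c, hc | hc⟩
    · right
      have hodd : Odd (p ^ c) := Odd.pow ⟨r, hr⟩
      obtain ⟨t, ht⟩ := hodd
      have hc1 : c ≠ 0 := by omega
      have ht1 : 1 ≤ t := by
        have : 1 < p ^ c := Nat.one_lt_pow hc1 hp.one_lt
        omega
      have h1 : p ^ a = (2 * t + 1) ^ 2 := by rw [hc, mul_comm, pow_mul, ht]
      have h2 : 2 ^ b = 4 * t * (t + 1) := by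
        rw [h] at h1
        nlinarith
      have htt : t = 1 := by
        rcases Nat.even_or_odd' t with ⟨X, hX | hX⟩
        · exfalso
          have h3 : 2 * X + 1 ∣ 2 ^ b := ⟨4 * t, by rw [h2, hX]; ring⟩
          have := odd_dvd_two_pow h3
          omega
        · have h3 : 2 * X + 1 ∣ 2 ^ b := ⟨4 * (t + 1), by rw [h2, hX]; ring⟩
          have := odd_dvd_two_pow h3
          omega
      subst htt
      refine ⟨by rw [h1]; norm_num, by rw [h2]⟩
    · left
      have hc0 : c = 0 := exp_one_of_sub hr1 (k := b) (by rw [← hr, ← hc]; exact h)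
      have ha1 : a = 1 := by omega
      subst ha1
      rw [pow_one] at h
      refine ⟨rfl, rfl, ?_, h⟩
      exact Nat.pow_of_pow_add_prime (by norm_num) (by omega) (h ▸ hp)

end Cfsg.Agent.S3784
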