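import Cfsg.Statements.S3785
import Cfsg.Agent.Lib_helper7_Omega2
import Cfsg.Agent.Lib_helper7_Cores
import Cfsg.Agent.Lib_helper1_Cores

set_option autoImplicit false
open Cfsg

namespace Cfsg.Agent.S3785

open Subgroup
open scoped commutatorElement

/-- Let G be a finite solvable group whose Fitting subgroup F(G) has odd order. If an element g of G commutes with every element of prime order of F(G), then g ∈ F(G). -/
theorem result {G : Type*} [Group G] [Finite G] (hG : Group.IsSolvable G) (hodd : Odd (Nat.card (Cfsg.fittingSubgroup G))) (g : G) (hg : ∀ x ∈ Cfsg.fittingSubgroup G, (orderOf x).Prime → g * x = x * g) : g ∈ Cfsg.fittingSubgroup G := by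
  have hFn : (Cfsg.fittingSubgroup G).Normal := Cfsg.Agent.H1.fitting_normal
  set F := Cfsg.fittingSubgroup G with hF
  set T : Set G := {x | x ∈ F ∧ (orderOf x).Prime} with hT
  set C := centralizer T with hC
  have hgC : g ∈ C := by
    rw [hC, mem_centralizer_iff]
    intro x hx
    exact (hg x hx.1 hx.2).symm
  have hCn : C.Normal := by
    constructor
    intro c hc r
    rw [hC, mem_centralizer_iff] at hc ⊢
    intro t ht
    have ht' : r⁻¹ * t * r ∈ T := by
      refine ⟨?_, ?_⟩
      · have := hFn.conj_mem t ht.1 r⁻¹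
        rwa [inv_inv] at this
      · have h1 : r⁻¹ * t * r = MulAut.conj r⁻¹ t := by simp
        rw [h1, MulEquiv.orderOf_eq]
        exact ht.2
    have h2 := hc _ ht'
    calc t * (r * c * r⁻¹) = r * ((r⁻¹ * t * r) * c) * r⁻¹ := by group
      _ = r * (c * (r⁻¹ * t * r)) * r⁻¹ := by rw [h2]
      _ = r * c * r⁻¹ * t := by group
  -- Step 1
  have hOm : ∀ (p : ℕ) [Fact p.Prime], ∀ y ∈ C, (orderOf y).Coprime p →
      y ∈ centralizer (Cfsg.pCore p G : Set G) := by
    intro p _ y hy hyp
    have hpp : p.Prime := Fact.out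
    have hPp : IsPGroup p (Cfsg.pCore p G) := Cfsg.Agent.H7.pCore_isPGroup p
    have hPF : Cfsg.pCore p G ≤ F := Cfsg.Agent.H1.pCore_le_fitting p
    by_cases hp2 : p = 2
    · subst hp2
      obtain ⟨k, hk⟩ := hPp.exists_card_eq
      have h1 : Nat.card (Cfsg.pCore 2 G) ∣ Nat.card F := card_dvd_of_le hPF
      have h2 : Cfsg.pCore 2 G = ⊥ := by
        rw [← card_eq_one, hk]
        rcases Nat.eq_zero_or_pos k with rfl | hkpos
        · rfl
        · exfalso
          have h3 : 2 ∣ Nat.card F := (hk ▸ dvd_pow_self 2 hkpos.ne').trans h1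
          exact (Nat.not_even_iff_odd.mpr hodd) (even_iff_two_dvd.mpr h3)
      rw [h2, mem_centralizer_iff]
      intro z hz
      have hz1 : z = 1 := hz
      rw [hz1]; simp
    · have h1 := Cfsg.Agent.H7.le_centralizer_of_fix_omega hp2 (Cfsg.pCore p G) (zpowers y) hPp
        (by
          have : (Cfsg.pCore p G).Normal := Cfsg.Agent.H7.pCore_normal p
          rw [normalizer_eq_top]; exact le_top)
        (by rw [Nat.card_zpowers]; exact hyp)
        (by
          intro x hx hxp a ha
          have haC : a ∈ C := (zpowers_le.mpr hy) ha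
          by_cases hx1 : x = 1
          · rw [hx1]; simp
          · have hxT : x ∈ T := ⟨hPF hx, by rw [orderOf_eq_prime hxp hx1]; exact hpp⟩
            exact (mem_centralizer_iff.mp haC x hxT).symm)
      exact h1 (mem_zpowers y)
  -- Step 2
  have main : ∀ (q : ℕ) [Fact q.Prime], ∀ x ∈ C, (∃ k : ℕ, orderOf x = q ^ k) → x ∈ F := by
    intro q _ x hx hxq
    have hqq : q.Prime := Fact.out
    set K : Subgroup G := ⨆ (p : Nat.Primes) (_ : (p : ℕ) ≠ q), Cfsg.pCore (p : ℕ) G with hK
    have hKn : K.Normal := by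
      have h0 : ∀ (p : Nat.Primes), (⨆ (_ : (p : ℕ) ≠ q), Cfsg.pCore (p : ℕ) G).Normal := by
        intro p
        have h00 : ∀ (_ : (p : ℕ) ≠ q), (Cfsg.pCore (p : ℕ) G).Normal :=
          fun _ => Cfsg.Agent.H7.pCore_normal _
        exact iSup_normal _
      exact iSup_normal _
    set D := C ⊓ centralizer (K : Set G) with hD
    have hDn : D.Normal := inferInstance
    have hFle : F ≤ Cfsg.pCore q G ⊔ K := by
      rw [hF, Cfsg.Agent.H1.fitting_eq_iSup_pCore]
      apply iSup_le
      intro p
      by_cases hpq : (p : ℕ) = q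
      · rw [hpq]; exact le_sup_left
      · exact le_trans (le_iSup₂_of_le (f := fun (p : Nat.Primes) (_ : (p : ℕ) ≠ q) => Cfsg.pCore (p : ℕ) G)
          p hpq le_rfl) le_sup_right
    -- Step 3
    have h3 : ∀ y ∈ D, (orderOf y).Coprime q → y ∈ K := by
      intro y hy hyq
      have hy1 : y ∈ centralizer (Cfsg.pCore q G : Set G) := hOm q y hy.1 hyq
      have hy2 : y ∈ centralizer (K : Set G) := hy.2
      have hy3 : Cfsg.pCore q G ⊔ K ≤ centralizer {y} := by
        apply sup_le
        · intro z hz
          rw [mem_centralizer_singleton_iff]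
          exact (mem_centralizer_iff.mp hy1 z hz)
        · intro z hz
          rw [mem_centralizer_singleton_iff]
          exact (mem_centralizer_iff.mp hy2 z hz)
      have hy4 : y ∈ centralizer (F : Set G) := by
        rw [mem_centralizer_iff]
        intro z hz
        exact mem_centralizer_singleton_iff.mp (hy3 (hFle hz))
      have hy5 : y ∈ F := Cfsg.Agent.H1.centralizer_fitting_le hy4
      obtain ⟨a, ha, k, hk, hak⟩ := mem_sup_of_normal_right.mp (hFle hy5)
      rw [← QuotientGroup.eq_one_iff, ← orderOf_eq_one_iff]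
      have e1 : (QuotientGroup.mk y : G ⧸ K) = QuotientGroup.mk' K a := by
        rw [← hak]
        change QuotientGroup.mk' K (a * k) = _
        have hk1 : QuotientGroup.mk' K k = 1 := (QuotientGroup.eq_one_iff k).mpr hk
        rw [map_mul, hk1, mul_one]
      obtain ⟨n, hn⟩ := (IsPGroup.iff_orderOf.mp (Cfsg.Agent.H7.pCore_isPGroup (G := G) q)) ⟨a, ha⟩
      rw [Subgroup.orderOf_mk] at hn
      have e2 : orderOf (QuotientGroup.mk y : G ⧸ K) ∣ q ^ n := by
        rw [e1, ← hn]; exact orderOf_map_dvd _ a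
      have e3 : orderOf (QuotientGroup.mk y : G ⧸ K) ∣ orderOf y := orderOf_map_dvd (QuotientGroup.mk' K) y
      exact Nat.eq_one_of_dvd_coprimes (Nat.Coprime.pow_right n hyq) e3 e2
    -- Step 4
    have hDnil : Group.IsNilpotent D := by
      let f : D →* G ⧸ K := (QuotientGroup.mk' K).comp D.subtype
      have hr : IsPGroup q f.range := by
        rintro ⟨_, d, rfl⟩
        obtain ⟨a, m, hm, hdm⟩ := Nat.exists_eq_pow_mul_and_not_dvd (orderOf_pos (d : G)).ne' q hqq.ne_one
        refine ⟨a, ?_⟩
        apply Subtype.ext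
        change (QuotientGroup.mk' K (d : G)) ^ q ^ a = 1
        rw [← map_pow]
        apply (QuotientGroup.eq_one_iff _).mpr
        apply h3 _ (pow_mem d.2 _)
        rw [orderOf_pow, hdm, Nat.gcd_eq_right (Dvd.intro _ rfl),
          Nat.mul_div_cancel_left _ (pow_pos hqq.pos a)]
        exact ((Nat.Prime.coprime_iff_not_dvd hqq).mpr hm).symm
      have hrn : Group.IsNilpotent f.range := hr.isNilpotent
      apply Subgroup.isNilpotent_of_ker_le_center f.rangeRestrict
      rw [MonoidHom.ker_rangeRestrict]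
      intro d hd
      have hdK : (d : G) ∈ K := (QuotientGroup.eq_one_iff _).mp hd
      rw [mem_center_iff]
      intro e
      apply Subtype.ext
      exact (mem_centralizer_iff.mp e.2.2 d hdK).symm
    apply Cfsg.Agent.H1.le_fitting hDn hDnil
    refine ⟨hx, ?_⟩
    obtain ⟨k, hk⟩ := hxq
    have h5 : K ≤ centralizer {x} := by
      apply iSup₂_le
      intro p hpq z hz
      have : Fact (p : ℕ).Prime := ⟨p.2⟩
      have h6 := hOm p x hx (by
        rw [hk]; exact Nat.Coprime.pow_left k ((Nat.coprime_primes hqq p.2).mpr (Ne.symm hpq)))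
      rw [mem_centralizer_singleton_iff]
      exact (mem_centralizer_iff.mp h6 z hz)
    change x ∈ centralizer (K : Set G)
    rw [mem_centralizer_iff]
    intro z hz
    exact mem_centralizer_singleton_iff.mp (h5 hz)
  -- Step 5
  let P : ∀ p : Nat.Primes, Sylow (p : ℕ) C := fun p => default
  have h7 : C = (⨆ p, (P p : Subgroup C)).map C.subtype := by
    rw [Cfsg.Agent.H1.iSup_sylow_eq_top P, ← MonoidHom.range_eq_map, range_subtype]
  have h8 : C ≤ F := by
    rw [h7, Subgroup.map_iSup]
    apply iSup_le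
    intro p
    have : Fact (p : ℕ).Prime := ⟨p.2⟩
    rintro _ ⟨x, hx, rfl⟩
    apply main p _ x.2
    obtain ⟨k, hk⟩ := (IsPGroup.iff_orderOf.mp (P p).2) ⟨x, hx⟩
    rw [Subgroup.orderOf_mk] at hk
    exact ⟨k, by rw [← hk]; exact (Subgroup.orderOf_coe x)⟩
  exact h8 hgC

end Cfsg.Agent.S3785
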