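import Cfsg.Statements.S3800
import Cfsg.Agent.Lib_helper5_PComp4
import Cfsg.Agent.Lib_helper7_PSolv3

set_option autoImplicit false
open Cfsg

namespace Cfsg.Agent.S3800


/-- Let G be a finite group, N a normal subgroup of G whose order is prime to p, and P a p-subgroup of G. Then in G/N the normalizer of the image of P is the image of N_G(P), and the centralizer of the image of P is the image of C_G(P). -/
theorem result {G : Type*} [Group G] [Finite G] {p : ℕ} [Fact p.Prime] (N : Subgroup G) [N.Normal] (hN : (Nat.card N).Coprime p) (P : Subgroup G) (hP : IsPGroup p P) : Subgroup.normalizer ((P.map (QuotientGroup.mk' N)) : Set (G ⧸ N)) = (Subgroup.normalizer (P : Set G)).map (QuotientGroup.mk' N) ∧ Subgroup.centralizer ((P.map (QuotientGroup.mk' N)) : Set (G ⧸ N)) = (Subgroup.centralizer (P : Set G)).map (QuotientGroup.mk' N) := by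
  refine ⟨(Cfsg.Agent.H5.map_normalizer_of_coprime N hN P hP).symm, ?_⟩
  apply le_antisymm
  · intro q hq
    obtain ⟨x, hx, hxq⟩ := Cfsg.Agent.H7.exists_lift_centralizer N hN hP hq
    exact ⟨x, hx, hxq⟩
  · rintro _ ⟨x, hx, rfl⟩
    rw [Subgroup.mem_centralizer_iff]
    rintro _ ⟨y, hy, rfl⟩
    rw [← map_mul, ← map_mul, Subgroup.mem_centralizer_iff.1 hx y hy]

end Cfsg.Agent.S3800
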