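import Cfsg.Statements.S3950
import Cfsg.Agent.Lib_helper2_Twisted
import Cfsg.Agent.S3979

set_option autoImplicit false
open Cfsg
open scoped commutatorElement

namespace Cfsg.Agent.S3950

open Cfsg.Agent.H2

/-- the cocycle `(g,h) ↦ α(g) β(h)` -/
def coc {G : Type*} [Group G] {R : Type*} [CommRing R] (α β : G →* Multiplicative R) :
    G →* G →* Multiplicative R where
  toFun g :=
    { toFun := fun h => Multiplicative.ofAdd (Multiplicative.toAdd (α g) * Multiplicative.toAdd (β h))
      map_one' := by simp
      map_mul' := fun a b => by simp [mul_add] }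
  map_one' := by
    apply MonoidHom.ext
    intro h
    change Multiplicative.ofAdd (Multiplicative.toAdd (α 1) * Multiplicative.toAdd (β h)) = 1
    simp
  map_mul' a b := by
    apply MonoidHom.ext
    intro h
    change Multiplicative.ofAdd (Multiplicative.toAdd (α (a * b)) * Multiplicative.toAdd (β h)) =
      Multiplicative.ofAdd (Multiplicative.toAdd (α a) * Multiplicative.toAdd (β h)) *
      Multiplicative.ofAdd (Multiplicative.toAdd (α b) * Multiplicative.toAdd (β h))
    simp [add_mul]

theorem coc_apply {G : Type*} [Group G] {R : Type*} [CommRing R] (α β : G →* Multiplicative R) (g h : G) :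
    coc α β g h = Multiplicative.ofAdd (Multiplicative.toAdd (α g) * Multiplicative.toAdd (β h)) := rfl

/-- two independent characters give a nontrivial stem extension -/
theorem not_trivial_of_homs {G : Type*} [CommGroup G] [Finite G] (p : ℕ) [Fact p.Prime]
    (α β : G →* Multiplicative (ZMod p)) (g h : G)
    (h1 : α g = Multiplicative.ofAdd 1) (h2 : β h = Multiplicative.ofAdd 1)
    (h3 : α h = 1) : ¬ Cfsg.HasCyclicSchurMultiplier G 1 := by
  intro hM
  have hfin : Finite (Tw (coc α β)) := Tw.finite_tw _
  have hker : ∀ a : Tw (coc α β), a ∈ (Tw.proj (coc α β)).ker ↔ a.fst = 1 := fun a => Iff.rfl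
  have hz : Tw.incl (coc α β) (Multiplicative.ofAdd 1) ∈ commutator (Tw (coc α β)) := by
    have : Tw.incl (coc α β) (Multiplicative.ofAdd 1) = ⁅(⟨g, 1⟩ : Tw (coc α β)), ⟨h, 1⟩⁆ := by
      rw [Tw.commutator_formula]
      apply Tw.ext
      · symm
        change ⁅g, h⁆ = 1
        rw [commutatorElement_eq_one_iff_mul_comm, mul_comm]
      · change Multiplicative.ofAdd 1 = coc α β g h * (coc α β h g)⁻¹
        rw [coc_apply, coc_apply, h1, h2, h3]
        simp
    rw [this]
    exact Subgroup.commutator_mem_commutator (Subgroup.mem_top _) (Subgroup.mem_top _)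
  have hstem : Cfsg.IsStemExtension (Tw.proj (coc α β)) := by
    refine ⟨Tw.proj_surjective _, ?_, ?_⟩
    · intro a ha
      rw [hker] at ha
      apply Tw.mem_center_of
      · rw [ha]; exact one_mem _
      · intro g; rw [ha, map_one]; rfl
      · intro g; rw [ha, map_one]
    · intro a ha
      rw [hker] at ha
      have : a = (Tw.incl (coc α β) (Multiplicative.ofAdd 1)) ^ (Multiplicative.toAdd a.snd).val := by
        rw [← map_pow, ← ofAdd_nsmul]
        apply Tw.ext
        · exact ha
        · change a.snd = Multiplicative.ofAdd ((Multiplicative.toAdd a.snd).val • (1 : ZMod p))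
          simp
      rw [this]
      exact Subgroup.pow_mem _ hz _
  obtain ⟨f, hf⟩ := hM.2 (Tw (coc α β)) (Tw.proj (coc α β)) hstem
  have hsub : Subsingleton (Multiplicative (ZMod 1)) := by
    change Subsingleton (ZMod 1)
    infer_instance
  obtain ⟨a, ha⟩ := hf ⟨Tw.incl (coc α β) (Multiplicative.ofAdd 1), rfl⟩
  rw [Subsingleton.elim a 1, map_one] at ha
  have h5 := congrArg (fun t : (Tw.proj (coc α β)).ker => t.1.snd) ha
  change (1 : Multiplicative (ZMod p)) = Multiplicative.ofAdd 1 at h5
  have h6 : (0 : ZMod p) = 1 := congrArg Multiplicative.toAdd h5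
  exact zero_ne_one h6

open scoped Function in
/-- A finite abelian group has trivial Schur multiplier if and only if it is cyclic. -/
theorem result {G : Type*} [CommGroup G] [Finite G] : Cfsg.HasCyclicSchurMultiplier G 1 ↔ IsCyclic G := by
  constructor
  · intro hM
    obtain ⟨ι, _, n, hn, ⟨e⟩⟩ := CommGroup.equiv_prod_multiplicative_zmod_of_finite G
    classical
    by_cases hcop : Pairwise (Nat.Coprime on n)
    · let E := ZMod.prodEquivPi n hcop
      let f : Multiplicative (ZMod (∏ i, n i)) →* G :=
        e.symm.toMonoidHom.comp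
          { toFun := fun x => fun i => Multiplicative.ofAdd (E (Multiplicative.toAdd x) i)
            map_one' := by
              funext i
              simp
            map_mul' := fun a b => by
              funext i
              simp }
      apply isCyclic_of_surjective f
      intro g
      refine ⟨Multiplicative.ofAdd (E.symm (fun i => Multiplicative.toAdd (e g i))), ?_⟩
      change e.symm (fun i => Multiplicative.ofAdd (E (E.symm (fun i => Multiplicative.toAdd (e g i))) i)) = g
      rw [E.apply_symm_apply]
      exact e.symm_apply_apply g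
    · exfalso
      rw [Pairwise] at hcop
      push Not at hcop
      obtain ⟨i, j, hij, hc⟩ := hcop
      obtain ⟨p, hp, hpi, hpj⟩ := Nat.Prime.not_coprime_iff_dvd.mp hc
      have : Fact p.Prime := ⟨hp⟩
      let α : G →* Multiplicative (ZMod p) :=
        (AddMonoidHom.toMultiplicative (ZMod.castHom hpi (ZMod p)).toAddMonoidHom).comp
          ((Pi.evalMonoidHom (fun i => Multiplicative (ZMod (n i))) i).comp e.toMonoidHom)
      let β : G →* Multiplicative (ZMod p) :=
        (AddMonoidHom.toMultiplicative (ZMod.castHom hpj (ZMod p)).toAddMonoidHom).comp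
          ((Pi.evalMonoidHom (fun i => Multiplicative (ZMod (n i))) j).comp e.toMonoidHom)
      refine not_trivial_of_homs p α β (e.symm (Pi.mulSingle i (Multiplicative.ofAdd 1)))
        (e.symm (Pi.mulSingle j (Multiplicative.ofAdd 1))) ?_ ?_ ?_ hM
      · change Multiplicative.ofAdd (ZMod.castHom hpi (ZMod p)
          (Multiplicative.toAdd (e (e.symm (Pi.mulSingle i (Multiplicative.ofAdd 1))) i))) = _
        rw [e.apply_symm_apply, Pi.mulSingle_eq_same, toAdd_ofAdd, map_one]
      · change Multiplicative.ofAdd (ZMod.castHom hpj (ZMod p)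
          (Multiplicative.toAdd (e (e.symm (Pi.mulSingle j (Multiplicative.ofAdd 1))) j))) = _
        rw [e.apply_symm_apply, Pi.mulSingle_eq_same, toAdd_ofAdd, map_one]
      · change Multiplicative.ofAdd (ZMod.castHom hpi (ZMod p)
          (Multiplicative.toAdd (e (e.symm (Pi.mulSingle j (Multiplicative.ofAdd 1))) i))) = _
        rw [e.apply_symm_apply, Pi.mulSingle_eq_of_ne hij]
        simp
  · intro h
    exact Cfsg.Agent.S3979.result

end Cfsg.Agent.S3950
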