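import Cfsg.Statements.S3952
import Cfsg.Agent.Lib_helper4_CharL

set_option autoImplicit false
set_option linter.style.haveILetI false
open Cfsg
open Cfsg.Agent.H4
open scoped ComplexConjugate

namespace Cfsg.Agent.S3952

open Module

/-- A central element of the derived subgroup lying in a subgroup of index prime to its order lies in
the derived subgroup of that subgroup. -/
theorem mem_commutator_of_central {Γ : Type*} [Group Γ] [Finite Γ] (S : Subgroup Γ) (b : Γ) (hbS : b ∈ S)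
    (hbZ : b ∈ Subgroup.center Γ) (hb' : b ∈ commutator Γ) (hcop : (S.index).Coprime (orderOf b)) :
    (⟨b, hbS⟩ : S) ∈ commutator S := by
  let ϕ : S →* Abelianization S := Abelianization.of
  have key : ∀ (k : ℕ) (g₀ : Γ), g₀⁻¹ * b ^ k * g₀ ∈ S → g₀⁻¹ * b ^ k * g₀ = b ^ k := by
    intro k g₀ _
    have h1 : b ^ k ∈ Subgroup.center Γ := Subgroup.pow_mem _ hbZ k
    rw [mul_assoc, ← Subgroup.mem_center_iff.1 h1 g₀, ← mul_assoc, inv_mul_cancel, one_mul]
  have h1 := MonoidHom.transfer_eq_pow ϕ b key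
  have h2 : MonoidHom.transfer ϕ b = 1 :=
    MonoidHom.mem_ker.1 (Abelianization.commutator_subset_ker (MonoidHom.transfer ϕ) hb')
  rw [h2] at h1
  have h3 : (⟨b ^ S.index, MonoidHom.transfer_eq_pow_aux b key⟩ : S) ∈ commutator S :=
    (QuotientGroup.eq_one_iff _).1 h1.symm
  obtain ⟨m, hm⟩ := exists_pow_eq_self_of_coprime hcop
  have h4 : (⟨b, hbS⟩ : S) = (⟨b ^ S.index, MonoidHom.transfer_eq_pow_aux b key⟩ : S) ^ m := by
    apply Subtype.ext
    simp [hm]
  rw [h4]
  exact Subgroup.pow_mem _ h3 m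

theorem central_scalar {S : Type*} [Group S] {V : Type*} [AddCommGroup V] [Module ℂ V]
    [FiniteDimensional ℂ V] (ρ : Representation ℂ S V) [ρ.IsIrreducible] (z : S)
    (hz : z ∈ Subgroup.center S) : ∃ c : ℂ, ρ z = c • LinearMap.id := by
  apply schur_scalar ρ
  intro g
  rw [← Module.End.mul_eq_comp, ← Module.End.mul_eq_comp, ← map_mul, ← map_mul,
    Subgroup.mem_center_iff.mp hz g]

theorem scalar_pow_finrank {S : Type*} [Group S] {V : Type*} [AddCommGroup V] [Module ℂ V]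
    [FiniteDimensional ℂ V] (ρ : Representation ℂ S V) (z : S) (hz : z ∈ commutator S) (c : ℂ)
    (hc : ρ z = c • LinearMap.id) : c ^ finrank ℂ V = 1 := by
  let f : S →* ℂˣ := (Units.map (LinearMap.det : Module.End ℂ V →* ℂ)).comp ρ.asGroupHom
  have h1 : f z = 1 := MonoidHom.mem_ker.1 (Abelianization.commutator_subset_ker f hz)
  have h2 : ((f z : ℂˣ) : ℂ) = LinearMap.det (ρ z) := rfl
  rw [h1, hc, LinearMap.det_smul, LinearMap.det_id, mul_one] at h2
  exact h2.symm

/-- `χ(1)² |Z₀| ≤ |S|` for central `Z₀`. -/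
theorem sq_mul_card_le {S : Type*} [Group S] [Finite S] {V : Type*} [AddCommGroup V] [Module ℂ V]
    [FiniteDimensional ℂ V] (ρ : Representation ℂ S V) [hρ : ρ.IsIrreducible] (Z₀ : Subgroup S)
    (hZ : Z₀ ≤ Subgroup.center S) : (finrank ℂ V) ^ 2 * Nat.card Z₀ ≤ Nat.card S := by
  classical
  haveI := Fintype.ofFinite S
  haveI := Fintype.ofFinite Z₀
  have hirr := isIrrCharacter_of_rep ρ hρ
  have hV : Nontrivial V := ((irreducible_iff ρ).mp hρ).1
  have hn : (finrank ℂ V : ℂ) ≠ 0 := by exact_mod_cast (Module.finrank_pos (R := ℂ) (M := V)).ne'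
  have h1 := sum_normSq_eq_card hirr
  rw [sum_normSq_split Z₀] at h1
  have h2 : ∀ z : Z₀, Complex.normSq (ρ.character z) = ((finrank ℂ V : ℝ)) ^ 2 := by
    intro z
    obtain ⟨c, hc⟩ := central_scalar ρ (z : S) (hZ z.2)
    obtain ⟨c', hc'⟩ := central_scalar ρ (z : S)⁻¹ (Subgroup.inv_mem _ (hZ z.2))
    have e1 : ρ.character z = c * finrank ℂ V := by
      rw [Representation.character, hc, map_smul, LinearMap.trace_id, smul_eq_mul]
    have e2 : ρ.character (z : S)⁻¹ = c' * finrank ℂ V := by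
      rw [Representation.character, hc', map_smul, LinearMap.trace_id, smul_eq_mul]
    have hcc : c' * c = 1 := by
      have h1 : ρ ((z : S)⁻¹ * z) = (c' * c) • LinearMap.id := by
        rw [map_mul, hc, hc']
        ext v; simp [smul_smul, mul_comm]
      rw [inv_mul_cancel, map_one] at h1
      have h2 := congrArg (LinearMap.trace ℂ V) h1
      rw [map_smul, LinearMap.trace_id, LinearMap.trace_one, smul_eq_mul] at h2
      have h3 : (c' * c - 1) * (finrank ℂ V : ℂ) = 0 := by linear_combination -h2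
      have := (mul_eq_zero.1 h3).resolve_right hn
      linear_combination this
    have e3 := IsCharacter.inv_eq_conj (IsIrrCharacter.isCharacter hirr) (z : S)
    have e4 : ((Complex.normSq (ρ.character z) : ℝ) : ℂ) = (((finrank ℂ V : ℝ)) ^ 2 : ℝ) := by
      rw [← Complex.mul_conj, ← e3, e1, e2]
      push_cast
      linear_combination ((finrank ℂ V : ℂ)) ^ 2 * hcc
    exact_mod_cast e4
  simp only [h2, Finset.sum_const, Finset.card_univ, nsmul_eq_mul] at h1
  have h3 : (0 : ℝ) ≤ ∑ g ∈ Finset.univ.filter (fun g => g ∉ Z₀), Complex.normSq (ρ.character g) :=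
    Finset.sum_nonneg (fun g _ => Complex.normSq_nonneg _)
  have h4 : ((finrank ℂ V) ^ 2 * Nat.card Z₀ : ℝ) ≤ (Nat.card S : ℝ) := by
    rw [← h1, Nat.card_eq_fintype_card]
    nlinarith
  exact_mod_cast h4

theorem pgroup_core {S : Type*} [Group S] [Finite S] (p : ℕ) [hp : Fact p.Prime] (hS : IsPGroup p S)
    (Z₀ : Subgroup S) (hZ : Z₀ ≤ Subgroup.center S) (m : ℕ) (hm : Z₀.index = p ^ m) (b : S)
    (hb : b ∈ Z₀) (hb' : b ∈ commutator S) : b ^ (p ^ (m / 2)) = 1 := by
  have hconj : IsConj (b ^ (p ^ (m / 2))) 1 := by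
    rw [isConj_iff_irr]
    rintro ⟨χ, n, ρ, hirr, rfl⟩
    haveI := hirr
    show ρ.character _ = ρ.character _
    obtain ⟨a, ha⟩ := IsPGroup.iff_card.1 hS
    have h1 : finrank ℂ (Fin n → ℂ) ∣ p ^ a := ha ▸ finrank_dvd_card ρ
    obtain ⟨j, _, hj⟩ := (Nat.dvd_prime_pow hp.out).1 h1
    have h2 := sq_mul_card_le ρ Z₀ hZ
    rw [← Z₀.card_mul_index, hm, hj, mul_comm] at h2
    have h3 : (p ^ j) ^ 2 ≤ p ^ m := Nat.le_of_mul_le_mul_left h2 Nat.card_pos
    rw [← pow_mul] at h3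
    have h4 : j * 2 ≤ m := (Nat.pow_le_pow_iff_right hp.out.one_lt).1 h3
    have h5 : j ≤ m / 2 := by omega
    obtain ⟨c, hc⟩ := central_scalar ρ b (hZ hb)
    have h6 := scalar_pow_finrank ρ b hb' c hc
    rw [hj] at h6
    have h7 : c ^ (p ^ (m / 2)) = 1 := by
      obtain ⟨d, hd⟩ := pow_dvd_pow p h5
      rw [hd, pow_mul, h6, one_pow]
    have h8 : ρ (b ^ (p ^ (m / 2))) = ρ 1 := by
      rw [map_pow, hc, map_one, smul_pow, h7, one_smul]
      exact one_pow _
    rw [Representation.character, Representation.character, h8]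
  exact isConj_one_left.1 hconj

theorem core {Γ : Type*} [Group Γ] [Finite Γ] (K : Subgroup Γ) (hKZ : K ≤ Subgroup.center Γ)
    (hK' : K ≤ commutator Γ) (p : ℕ) [hp : Fact p.Prime] (b : Γ) (hb : b ∈ K) (k : ℕ)
    (hk : orderOf b = p ^ k) : p ^ (2 * k) ∣ K.index := by
  have hpz : IsPGroup p (Subgroup.zpowers b) := by
    apply IsPGroup.of_card (n := k)
    rw [Nat.card_zpowers, hk]
  obtain ⟨P, hP⟩ := hpz.exists_le_sylow
  have hbS : b ∈ (P : Subgroup Γ) := hP (Subgroup.mem_zpowers b)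
  have hcop : ((P : Subgroup Γ).index).Coprime (orderOf b) := by
    rw [hk]
    apply Nat.Coprime.pow_right
    exact ((Nat.Prime.coprime_iff_not_dvd hp.out).2 P.not_dvd_index).symm
  have h1 := mem_commutator_of_central (P : Subgroup Γ) b hbS (hKZ hb) (hK' hb) hcop
  have hKn : K.Normal := by
    constructor
    intro n hn g
    rw [Subgroup.mem_center_iff.1 (hKZ hn) g, mul_assoc, mul_inv_cancel, mul_one]
    exact hn
  set Z₀ : Subgroup (P : Subgroup Γ) := K.subgroupOf (P : Subgroup Γ) with hZ₀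
  have hZ₀c : Z₀ ≤ Subgroup.center (P : Subgroup Γ) := by
    intro z hz
    rw [Subgroup.mem_center_iff]
    intro g
    apply Subtype.ext
    exact Subgroup.mem_center_iff.1 (hKZ (Subgroup.mem_subgroupOf.1 hz)) g
  obtain ⟨a, ha⟩ := IsPGroup.iff_card.1 P.isPGroup'
  have h2 : Z₀.index ∣ p ^ a := ha ▸ Z₀.index_dvd_card
  obtain ⟨m, _, hm⟩ := (Nat.dvd_prime_pow hp.out).1 h2
  have h3 := pgroup_core p P.isPGroup' Z₀ hZ₀c m hm ⟨b, hbS⟩ (Subgroup.mem_subgroupOf.2 hb) h1
  have h4 : b ^ (p ^ (m / 2)) = 1 := by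
    have := congrArg Subtype.val h3
    simpa using this
  have h5 : p ^ k ∣ p ^ (m / 2) := hk ▸ orderOf_dvd_of_pow_eq_one h4
  have h6 : k ≤ m / 2 := (Nat.pow_dvd_pow_iff_le_right hp.out.one_lt).1 h5
  have h7 : 2 * k ≤ m := by omega
  have h8 : K.relIndex (P : Subgroup Γ) ∣ K.index := Subgroup.relIndex_dvd_index_of_normal K _
  exact (pow_dvd_pow p h7).trans (hm ▸ h8)

/-- If `A` is the Schur multiplier of the finite group `Q`, then the square of the exponent of `A` divides the order of `Q`. -/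
theorem result {Q : Type*} [Group Q] [Finite Q] {A : Type*} [CommGroup A] (hA : Cfsg.HasSchurMultiplier Q A) : Monoid.exponent A ^ 2 ∣ Nat.card Q := by

  obtain ⟨⟨Γ, _, _, σ, ⟨hsurj, hZ, hC⟩, ⟨e⟩⟩, _⟩ := hA
  rw [← Monoid.exponent_eq_of_mulEquiv e]
  have hidx : σ.ker.index = Nat.card Q := by
    rw [Subgroup.index_ker, MonoidHom.range_eq_top.2 hsurj]
    exact Nat.card_congr Subgroup.topEquiv.toEquiv
  rw [← hidx]
  have hexp : Monoid.exponent σ.ker ≠ 0 := Monoid.exponent_ne_zero_of_finite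
  have hidx0 : σ.ker.index ≠ 0 := Subgroup.index_ne_zero_of_finite
  rw [← Nat.factorization_prime_le_iff_dvd (pow_ne_zero 2 hexp) hidx0]
  intro p hp
  haveI : Fact p.Prime := ⟨hp⟩
  obtain ⟨g, hg⟩ := hp.exists_orderOf_eq_pow_factorization_exponent σ.ker
  have h1 := core σ.ker hZ hC p (g : Γ) g.2 _ (by rw [Subgroup.orderOf_coe]; exact hg)
  rw [Nat.factorization_pow]
  simp only [Finsupp.smul_apply, smul_eq_mul]
  exact (Nat.Prime.pow_dvd_iff_le_factorization hp hidx0).1 h1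

end Cfsg.Agent.S3952
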