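import Cfsg.Statements.S3954
import Cfsg.Agent.Lib_helper2_SchurTheory2

set_option autoImplicit false
open Cfsg

namespace Cfsg.Agent.S3954

open Cfsg.Agent.H2

/-- a quotient of a finite abelian group embeds into it -/
theorem exists_injective_of_surjective {B R : Type*} [CommGroup B] [Finite B] [CommGroup R]
    (f : B →* R) (hf : Function.Surjective f) : ∃ ι : R →* B, Function.Injective ι := by
  have hR : Finite R := Finite.of_surjective f hf
  have hexpR : NeZero ((Monoid.exponent R : ℕ) : ℂ) := by
    constructor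
    have : Monoid.exponent R ≠ 0 := Monoid.exponent_ne_zero_of_finite
    exact_mod_cast this
  have hexpB : NeZero ((Monoid.exponent B : ℕ) : ℂ) := by
    constructor
    have : Monoid.exponent B ≠ 0 := Monoid.exponent_ne_zero_of_finite
    exact_mod_cast this
  obtain ⟨eR⟩ := CommGroup.monoidHom_mulEquiv_of_hasEnoughRootsOfUnity R ℂ
  obtain ⟨eB⟩ := CommGroup.monoidHom_mulEquiv_of_hasEnoughRootsOfUnity B ℂ
  let fs : (R →* ℂˣ) →* (B →* ℂˣ) :=
    { toFun := fun φ => φ.comp f
      map_one' := rfl
      map_mul' := fun _ _ => rfl }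
  have hfs : Function.Injective fs := by
    intro φ ψ h
    apply MonoidHom.ext
    intro r
    obtain ⟨b, rfl⟩ := hf r
    exact congrArg (fun t : B →* ℂˣ => t b) h
  exact ⟨(eB.toMonoidHom.comp fs).comp eR.symm.toMonoidHom,
    (eB.injective.comp hfs).comp eR.symm.injective⟩

/-- a group embedded in the range of a homomorphism from a finite abelian group embeds in that group -/
theorem exists_subgroup_equiv {B H A' : Type*} [CommGroup B] [Finite B] [Group H] [Group A']
    (f : B →* H) (j : A' →* H) (hj : Function.Injective j) (hjf : j.range ≤ f.range) :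
    ∃ C : Subgroup B, Nonempty (A' ≃* C) := by
  obtain ⟨ι, hι⟩ := exists_injective_of_surjective (QuotientGroup.mk' f.ker) (QuotientGroup.mk'_surjective _)
  let j' : A' →* f.range := j.codRestrict f.range (fun a => hjf ⟨a, rfl⟩)
  have hj' : Function.Injective j' := by
    intro a b h
    exact hj (congrArg Subtype.val h)
  let E := (QuotientGroup.quotientKerEquivRange f).symm
  let F : A' →* B := (ι.comp E.toMonoidHom).comp j'
  have hF : Function.Injective F := (hι.comp E.injective).comp hj'
  exact ⟨F.range, ⟨MonoidHom.ofInjective hF⟩⟩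

/-- Let `U` be a subgroup of index `m` in the finite group `G`, let `A` be the Schur multiplier of `G` and `B` that of `U`. Then the subgroup of `m`-th powers of `A` is isomorphic to a subgroup of `B`. -/
theorem result {G : Type*} [Group G] [Finite G] (U : Subgroup G) {A B : Type*} [CommGroup A] [CommGroup B] (hA : Cfsg.HasSchurMultiplier G A) (hB : Cfsg.HasSchurMultiplier U B) : ∃ C : Subgroup B, Nonempty ((powMonoidHom U.index : A →* A).range ≃* C) := by
  have hBfin : Finite B := hasSchurMultiplier_finite hB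
  obtain ⟨⟨Γ, _, _, σ, ⟨hs, hc, hk⟩, ⟨e⟩⟩, _⟩ := hA
  set Ut : Subgroup Γ := U.comap σ with hUt
  have hidx : Ut.index = U.index := Subgroup.index_comap_of_surjective U hs
  let τ : Ut →* U := σ.subgroupComap U
  have hτs : Function.Surjective τ := σ.subgroupComap_surjective_of_surjective U hs
  have hτk : ∀ x : Ut, x ∈ τ.ker ↔ x.1 ∈ σ.ker := by
    intro x
    rw [MonoidHom.mem_ker, MonoidHom.mem_ker]
    constructor
    · intro h; exact congrArg Subtype.val h
    · intro h; exact Subtype.ext h
  have hτc : τ.ker ≤ Subgroup.center Ut := by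
    intro x hx
    rw [Subgroup.mem_center_iff]
    intro y
    apply Subtype.ext
    exact (Subgroup.mem_center_iff.mp (hc ((hτk x).mp hx))) y.1
  obtain ⟨f, hf⟩ := hasSchurMultiplier_exists_hom hB τ hτs hτc
  have hKU : σ.ker ≤ Ut := by
    intro x hx
    rw [hUt, Subgroup.mem_comap, MonoidHom.mem_ker.mp hx]
    exact one_mem _
  -- transfer
  have hpow : ∀ k (hk' : k ∈ σ.ker), (⟨k ^ U.index, hKU (Subgroup.pow_mem _ hk' _)⟩ : Ut) ∈ mSub τ := by
    intro k hk'
    refine ⟨(hτk _).mpr (Subgroup.pow_mem _ hk' _), ?_⟩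
    have key : ∀ (n : ℕ) (g₀ : Γ), g₀⁻¹ * k ^ n * g₀ ∈ Ut → g₀⁻¹ * k ^ n * g₀ = k ^ n := by
      intro n g₀ _
      have : k ^ n ∈ Subgroup.center Γ := Subgroup.pow_mem _ (hc hk') _
      rw [mul_assoc, ← (Subgroup.mem_center_iff.mp this) g₀]; group
    have h1 := MonoidHom.transfer_eq_pow (H := Ut) (Abelianization.of : Ut →* Abelianization Ut) k key
    have h2 : MonoidHom.transfer (H := Ut) (Abelianization.of : Ut →* Abelianization Ut) k = 1 :=
      Abelianization.commutator_subset_ker _ (hk hk')
    rw [h2] at h1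
    have h3 : (⟨k ^ Ut.index, MonoidHom.transfer_eq_pow_aux k key⟩ : Ut) ∈ commutator Ut := by
      rw [← Abelianization.ker_of, MonoidHom.mem_ker]; exact h1.symm
    have h4 : (⟨k ^ U.index, hKU (Subgroup.pow_mem _ hk' _)⟩ : Ut)
        = ⟨k ^ Ut.index, MonoidHom.transfer_eq_pow_aux k key⟩ := by
      apply Subtype.ext
      change k ^ U.index = k ^ Ut.index
      rw [hidx]
    rw [h4]; exact h3
  let j : (powMonoidHom U.index : A →* A).range →* Ut :=
    { toFun := fun a => ⟨(e.symm a.1).1, hKU (e.symm a.1).2⟩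
      map_one' := by apply Subtype.ext; simp
      map_mul' := fun a b => by apply Subtype.ext; simp }
  have hj : Function.Injective j := by
    intro a b h
    have h1 : (e.symm a.1).1 = (e.symm b.1).1 := congrArg (fun t : Ut => t.1) h
    exact Subtype.ext (e.symm.injective (Subtype.ext h1))
  apply exists_subgroup_equiv f j hj
  rintro _ ⟨⟨_, b, rfl⟩, rfl⟩
  rw [hf]
  have := hpow (e.symm b).1 (e.symm b).2
  have h5 : j ⟨powMonoidHom U.index b, b, rfl⟩ =
      (⟨(e.symm b).1 ^ U.index, hKU (Subgroup.pow_mem _ (e.symm b).2 _)⟩ : Ut) := by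
    apply Subtype.ext
    change (e.symm (b ^ U.index)).1 = (e.symm b).1 ^ U.index
    rw [map_pow]; rfl
  rw [h5]; exact this

end Cfsg.Agent.S3954
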