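import Cfsg.Statements.S3955
import Cfsg.Agent.Lib_helper2_SchurProj

set_option autoImplicit false
open Cfsg

namespace Cfsg.Agent.S3955

open Cfsg.Agent.H2

/-- Let `Q` be a finite group with Schur multiplier `A`, and let `σ : Γ →* Q` be a finite stem extension whose kernel is isomorphic to `A` (a Schur covering group of `Q`). Then every homomorphism `γ` from `Q` to the quotient of `GL n ℂ` by its centre lifts along `σ`: there is a homomorphism `ρ : Γ →* GL n ℂ` which, followed by the quotient map, equals `γ ∘ σ`. -/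
theorem result {Q : Type*} [Group Q] [Finite Q] {A : Type*} [CommGroup A] (hA : Cfsg.HasSchurMultiplier Q A) {Γ : Type*} [Group Γ] [Finite Γ] (σ : Γ →* Q) (hσ : Cfsg.IsStemExtension σ) (hk : Nonempty (σ.ker ≃* A)) (n : ℕ) (γ : Q →* (GL (Fin n) ℂ ⧸ Subgroup.center (GL (Fin n) ℂ))) : ∃ ρ : Γ →* GL (Fin n) ℂ, (QuotientGroup.mk' (Subgroup.center (GL (Fin n) ℂ))).comp ρ = γ.comp σ := by
  have hπ := canPres_surjective Q
  obtain ⟨ψ, h1, hψs, hS⟩ := exists_hom_of_cover hπ hA σ hσ hk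
  have h1' : ∀ y, σ (ψ y) = piBar (canPres Q) y := fun y => by rw [← h1]; rfl
  obtain ⟨ρ₀, hρ₀⟩ := exists_lift (canPres Q) (QuotientGroup.mk' (Subgroup.center (GL (Fin n) ℂ))) (QuotientGroup.mk'_surjective (Subgroup.center (GL (Fin n) ℂ)))
    (by rw [QuotientGroup.ker_mk']) γ
  have hρ₀' : ∀ y, QuotientGroup.mk' (Subgroup.center (GL (Fin n) ℂ)) (ρ₀ y) = γ (piBar (canPres Q) y) := fun y =>
    congrArg (fun f : FBar (canPres Q) →* (GL (Fin n) ℂ ⧸ (Subgroup.center (GL (Fin n) ℂ))) => f y) hρ₀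
  have hmem : ∀ s : ψ.ker, ρ₀ s.1 ∈ (Subgroup.center (GL (Fin n) ℂ)) := by
    intro s
    rw [← QuotientGroup.eq_one_iff]
    change QuotientGroup.mk' (Subgroup.center (GL (Fin n) ℂ)) (ρ₀ s.1) = 1
    rw [hρ₀', MonoidHom.mem_ker.mp (hS.1 s.2), map_one]
  let g : ψ.ker →* (Subgroup.center (GL (Fin n) ℂ)) :=
    { toFun := fun s => ⟨ρ₀ s.1, hmem s⟩
      map_one' := by apply Subtype.ext; simp
      map_mul' := fun a c => by apply Subtype.ext; simp }
  let _ := commGroupOfLeCenter (Subgroup.center (GL (Fin n) ℂ)) le_rfl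
  obtain ⟨χ, hχ⟩ := exists_extend_divisible (Z := ↥(Subgroup.center (GL (Fin n) ℂ))) (abBar (canPres Q)) ψ.ker
    (hS.1.trans (piBar_ker_le_center _)) (by rw [abBar_ker]; exact hS.2.1)
    (center_GL_divisible n) g
  let ρ₁ := twistHom ρ₀ χ
  have hker : ψ.ker ≤ ρ₁.ker := by
    intro s hs
    rw [MonoidHom.mem_ker]
    change ρ₀ s * ((χ s)⁻¹ : (Subgroup.center (GL (Fin n) ℂ))).1 = 1
    rw [hχ ⟨s, hs⟩]
    change ρ₀ s * (ρ₀ s)⁻¹ = 1
    simp
  refine ⟨ψ.liftOfSurjective hψs ⟨ρ₁, hker⟩, ?_⟩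
  apply MonoidHom.ext
  intro x
  obtain ⟨y, rfl⟩ := hψs x
  rw [MonoidHom.comp_apply, MonoidHom.comp_apply, h1', MonoidHom.liftOfRightInverse_comp_apply]
  change QuotientGroup.mk' (Subgroup.center (GL (Fin n) ℂ)) (ρ₀ y * ((χ y)⁻¹ : (Subgroup.center (GL (Fin n) ℂ))).1) = _
  rw [map_mul, hρ₀']
  have : QuotientGroup.mk' (Subgroup.center (GL (Fin n) ℂ)) ((χ y)⁻¹ : (Subgroup.center (GL (Fin n) ℂ))).1 = 1 := (QuotientGroup.eq_one_iff _).mpr ((χ y)⁻¹ : (Subgroup.center (GL (Fin n) ℂ))).2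
  rw [this, mul_one]

end Cfsg.Agent.S3955
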