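import Cfsg.Statements.S3956
import Cfsg.Agent.Lib_helper2_SchurProj2

set_option autoImplicit false
universe u v
open Cfsg

namespace Cfsg.Agent.S3956

open Cfsg.Agent.H2

/-- Let `σ : Γ →* Q` be a finite stem extension of the finite group `Q` such that every homomorphism from `Q` to the quotient of `GL n ℂ` by its centre, for every `n`, lifts along `σ` to a homomorphism `Γ →* GL n ℂ`. Then `σ` is a Schur covering group of `Q`: for every finite stem extension `τ : Δ →* Q` with `Δ` in the same universe as `Q`, the kernel of `τ` is a homomorphic image of the kernel of `σ`. -/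
theorem result {Q : Type u} [Group Q] [Finite Q] {Γ : Type v} [Group Γ] [Finite Γ] (σ : Γ →* Q) (hσ : Cfsg.IsStemExtension σ) (hlift : ∀ (n : ℕ) (γ : Q →* (GL (Fin n) ℂ ⧸ Subgroup.center (GL (Fin n) ℂ))), ∃ ρ : Γ →* GL (Fin n) ℂ, (QuotientGroup.mk' (Subgroup.center (GL (Fin n) ℂ))).comp ρ = γ.comp σ) (Δ : Type u) [Group Δ] [Finite Δ] (τ : Δ →* Q) (hτ : Cfsg.IsStemExtension τ) : ∃ π : σ.ker →* τ.ker, Function.Surjective π := by
  have hπ := canPres_surjective Q
  obtain ⟨ψ, h1, h2⟩ := exists_hom_mSub hπ σ hσ.1 hσ.2.1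
  rw [mSub_of_stem hσ] at h2
  have h1' : ∀ y, σ (ψ y) = piBar (canPres Q) y := fun y => by rw [← h1]; rfl
  have hN : ψ.ker ≤ (piBar (canPres Q)).ker := by
    intro y hy
    rw [MonoidHom.mem_ker, ← h1', MonoidHom.mem_ker.mp hy, map_one]
  have hNM : ψ.ker ⊔ mSub (piBar (canPres Q)) = (piBar (canPres Q)).ker := by
    apply le_antisymm
    · exact sup_le hN inf_le_left
    · intro y hy
      have : ψ y ∈ σ.ker := by
        rw [MonoidHom.mem_ker, h1']; exact hy
      rw [← h2] at this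
      obtain ⟨m, hm, hm2⟩ := this
      have : y = (y * m⁻¹) * m := by group
      rw [this]
      refine Subgroup.mul_mem_sup ?_ hm
      rw [MonoidHom.mem_ker, map_mul, map_inv, hm2]; simp
  obtain ⟨S, hSN, hS⟩ := exists_schurCompl ψ.ker hN hNM
  have hSn : S.Normal := normal_of_le_center (hS.1.trans (piBar_ker_le_center _))
  have hfin : Finite (FBar (canPres Q) ⧸ S) := cover_finite (piBar_ker_le_center _) hS
  have hst := cover_stem (piBar_surjective hπ) (piBar_ker_le_center _) hS
  set σs := QuotientGroup.lift S (piBar (canPres Q)) hS.1 with hσs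
  let β : FBar (canPres Q) ⧸ S →* Γ := QuotientGroup.lift S ψ hSN
  have hβ : σ.comp β = σs := by
    apply MonoidHom.ext
    intro y
    obtain ⟨y, rfl⟩ := QuotientGroup.mk'_surjective S y
    exact h1' y
  -- injectivity of `ψ` on the multiplier subgroup
  have hinj : ∀ m ∈ mSub (piBar (canPres Q)), ψ m = 1 → m = 1 := by
    intro m hm hψm
    by_contra hne
    have hmk : QuotientGroup.mk' S m ∈ σs.ker := hm.1
    have hmk1 : (⟨QuotientGroup.mk' S m, hmk⟩ : σs.ker) ≠ 1 := by
      intro h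
      have h3 : QuotientGroup.mk' S m = 1 := congrArg Subtype.val h
      have h4 : m ∈ S ⊓ commutator (FBar (canPres Q)) := ⟨(QuotientGroup.eq_one_iff m).mp h3, hm.2⟩
      rw [hS.2.1, Subgroup.mem_bot] at h4
      exact hne h4
    let _ := commGroupOfLeCenter σs.ker hst.2.1
    have hexp : NeZero ((Monoid.exponent σs.ker : ℕ) : ℂ) := by
      constructor
      have : Monoid.exponent σs.ker ≠ 0 := Monoid.exponent_ne_zero_of_finite
      exact_mod_cast this
    obtain ⟨l, hl⟩ := CommGroup.exists_apply_ne_one_of_hasEnoughRootsOfUnity σs.ker ℂ hmk1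
    obtain ⟨N, ind, hi1, hi2⟩ := exists_rep_of_central_char σs.ker l hst.2.1
    have hker : σs.ker ≤ ((QuotientGroup.mk' (Subgroup.center (GL (Fin N) ℂ))).comp ind).ker := by
      intro x hx
      rw [MonoidHom.mem_ker, MonoidHom.comp_apply]
      exact (QuotientGroup.eq_one_iff _).mpr (hi1 x hx)
    let γ : Q →* (GL (Fin N) ℂ ⧸ Subgroup.center (GL (Fin N) ℂ)) :=
      σs.liftOfSurjective hst.1 ⟨_, hker⟩
    have hγ : γ.comp σs = (QuotientGroup.mk' (Subgroup.center (GL (Fin N) ℂ))).comp ind :=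
      MonoidHom.liftOfRightInverse_comp _ _ _ _
    obtain ⟨ρ, hρ⟩ := hlift N γ
    have heq : (QuotientGroup.mk' (Subgroup.center (GL (Fin N) ℂ))).comp (ρ.comp β)
        = (QuotientGroup.mk' (Subgroup.center (GL (Fin N) ℂ))).comp ind := by
      rw [← MonoidHom.comp_assoc, hρ, MonoidHom.comp_assoc, hβ, hγ]
    have hcomm : QuotientGroup.mk' S m ∈ commutator (FBar (canPres Q) ⧸ S) :=
      map_commutator_le _ ⟨m, hm.2, rfl⟩
    have h5 := hom_eqOn_commutator (QuotientGroup.mk' (Subgroup.center (GL (Fin N) ℂ)))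
      (by rw [QuotientGroup.ker_mk']) _ _ heq _ hcomm
    have h6 : (ρ.comp β) (QuotientGroup.mk' S m) = 1 := by
      change ρ (ψ m) = 1
      rw [hψm, map_one]
    rw [h6] at h5
    exact hi2 ⟨_, hmk⟩ hl h5.symm
  -- the isomorphism `M ≃ ker σ`
  let r : mSub (piBar (canPres Q)) →* σ.ker :=
    { toFun := fun m => ⟨ψ m.1, by rw [← h2]; exact ⟨m.1, m.2, rfl⟩⟩
      map_one' := by apply Subtype.ext; simp
      map_mul' := fun a c => by apply Subtype.ext; simp }
  have hr : Function.Bijective r := by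
    constructor
    · rw [injective_iff_map_eq_one]
      intro m hm
      exact Subtype.ext (hinj m.1 m.2 (congrArg Subtype.val hm))
    · rintro ⟨x, hx⟩
      rw [← h2] at hx
      obtain ⟨m, hm, rfl⟩ := hx
      exact ⟨⟨m, hm⟩, rfl⟩
  let e := MulEquiv.ofBijective r hr
  obtain ⟨φ, _, hφ2⟩ := exists_hom_mSub hπ τ hτ.1 hτ.2.1
  rw [mSub_of_stem hτ] at hφ2
  let t : mSub (piBar (canPres Q)) →* τ.ker :=
    { toFun := fun m => ⟨φ m.1, by rw [← hφ2]; exact ⟨m.1, m.2, rfl⟩⟩
      map_one' := by apply Subtype.ext; simp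
      map_mul' := fun a c => by apply Subtype.ext; simp }
  have ht : Function.Surjective t := by
    rintro ⟨x, hx⟩
    rw [← hφ2] at hx
    obtain ⟨m, hm, rfl⟩ := hx
    exact ⟨⟨m, hm⟩, rfl⟩
  exact ⟨t.comp e.symm.toMonoidHom, ht.comp e.symm.surjective⟩

end Cfsg.Agent.S3956
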