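import Cfsg.Statements.S3957
import Cfsg.Agent.Lib_helper2_SchurTheory

set_option autoImplicit false
universe u v
open Cfsg

namespace Cfsg.Agent.S3957

open Cfsg.Agent.H2

/-- Let `Q` be a finite group with Schur multiplier `A` and let `τ : Δ →* Q` be a finite stem extension, `Δ` in the universe of `Q`. Then there is a finite stem extension `σ : Γ →* Q` with kernel isomorphic to `A` (a Schur covering group) and a surjective homomorphism `β : Γ →* Δ` with `τ ∘ β = σ`. -/
theorem result {Q : Type u} [Group Q] [Finite Q] {A : Type v} [CommGroup A] (hA : Cfsg.HasSchurMultiplier Q A) {Δ : Type u} [Group Δ] [Finite Δ] (τ : Δ →* Q) (hτ : Cfsg.IsStemExtension τ) : ∃ (Γ : Type u) (_ : Group Γ) (_ : Finite Γ) (σ : Γ →* Q), Cfsg.IsStemExtension σ ∧ Nonempty (σ.ker ≃* A) ∧ ∃ β : Γ →* Δ, Function.Surjective β ∧ τ.comp β = σ := by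
  have hπ := canPres_surjective Q
  obtain ⟨e⟩ := hasSchurMultiplier_equiv_mSub hπ hA
  obtain ⟨φ, h1, h2⟩ := exists_hom_mSub hπ τ hτ.1 hτ.2.1
  rw [mSub_of_stem hτ] at h2
  have h1' : ∀ y, τ (φ y) = piBar (canPres Q) y := fun y => by rw [← h1]; rfl
  have hsurj : Function.Surjective φ := by
    intro g
    obtain ⟨y, hy⟩ := piBar_surjective hπ (τ g)
    have : (φ y)⁻¹ * g ∈ τ.ker := by
      rw [MonoidHom.mem_ker, map_mul, map_inv, h1', hy]; simp
    rw [← h2] at this
    obtain ⟨m, _, hm⟩ := this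
    exact ⟨y * m, by rw [map_mul, hm]; group⟩
  have hN : φ.ker ≤ (piBar (canPres Q)).ker := by
    intro y hy
    rw [MonoidHom.mem_ker, ← h1', MonoidHom.mem_ker.mp hy, map_one]
  have hNM : φ.ker ⊔ mSub (piBar (canPres Q)) = (piBar (canPres Q)).ker := by
    apply le_antisymm
    · exact sup_le hN inf_le_left
    · intro y hy
      have : φ y ∈ τ.ker := by
        rw [MonoidHom.mem_ker, h1']; exact hy
      rw [← h2] at this
      obtain ⟨m, hm, hm2⟩ := this
      have : y = (y * m⁻¹) * m := by group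
      rw [this]
      refine Subgroup.mul_mem_sup ?_ hm
      rw [MonoidHom.mem_ker, map_mul, map_inv, hm2]; simp
  obtain ⟨S, hSN, hS⟩ := exists_schurCompl φ.ker hN hNM
  have hSn : S.Normal := normal_of_le_center (hS.1.trans (piBar_ker_le_center _))
  obtain ⟨e1⟩ := cover_ker_equiv hS
  refine ⟨FBar (canPres Q) ⧸ S, inferInstance, cover_finite (piBar_ker_le_center _) hS,
      QuotientGroup.lift S (piBar (canPres Q)) hS.1,
      cover_stem (piBar_surjective hπ) (piBar_ker_le_center _) hS, ⟨e1.trans e.symm⟩,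
      QuotientGroup.lift S φ hSN, ?_, ?_⟩
  · intro d
    obtain ⟨y, rfl⟩ := hsurj d
    exact ⟨QuotientGroup.mk' S y, rfl⟩
  · apply MonoidHom.ext
    intro y
    obtain ⟨y, rfl⟩ := QuotientGroup.mk'_surjective S y
    exact h1' y

end Cfsg.Agent.S3957
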