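import Cfsg.Statements.S3958
import Cfsg.Agent.Lib_helper2_SchurTheory2

set_option autoImplicit false
universe u v
open Cfsg

namespace Cfsg.Agent.S3958

open Cfsg.Agent.H2

/-- Let `σ : Γ →* Q` be a finite stem extension of the finite group `Q` with `Γ` of trivial Schur multiplier. Then `σ` is a Schur covering group of `Q`: for every finite stem extension `τ : Δ →* Q` with `Δ` in the same universe as `Q`, the kernel of `τ` is a homomorphic image of the kernel of `σ`. -/
theorem result {Q : Type u} [Group Q] [Finite Q] {Γ : Type v} [Group Γ] [Finite Γ] (σ : Γ →* Q) (hσ : Cfsg.IsStemExtension σ) (hΓ : Cfsg.HasCyclicSchurMultiplier Γ 1) (Δ : Type u) [Group Δ] [Finite Δ] (τ : Δ →* Q) (hτ : Cfsg.IsStemExtension τ) : ∃ π : σ.ker →* τ.ker, Function.Surjective π := by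
  obtain ⟨θ, h1, h2⟩ := exists_theta hΓ σ τ hτ.1 hτ.2.1
  refine ⟨{ toFun := fun k => ⟨θ ⟨k.1, hσ.2.2 k.2⟩, by
              rw [MonoidHom.mem_ker, h1]; exact k.2⟩
            map_one' := by
              apply Subtype.ext
              exact map_one θ
            map_mul' := fun a c => by
              apply Subtype.ext
              exact map_mul θ ⟨a.1, hσ.2.2 a.2⟩ ⟨c.1, hσ.2.2 c.2⟩ }, ?_⟩
  rintro ⟨x, hx⟩
  obtain ⟨g, hg⟩ := h2 hσ.1 x (hτ.2.2 hx)
  have hgk : g.1 ∈ σ.ker := by
    rw [MonoidHom.mem_ker, ← h1, hg]; exact hx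
  exact ⟨⟨g.1, hgk⟩, Subtype.ext hg⟩

end Cfsg.Agent.S3958
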