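import Cfsg.Statements.S3960
import Cfsg.Agent.Lib_helper2_SchurTheory2

set_option autoImplicit false
universe u
open Cfsg
open scoped commutatorElement

namespace Cfsg.Agent.S3960

open Cfsg.Agent.H2

/-- A finite perfect group `Q` has a universal central extension: a finite perfect group `G` in the universe of `Q` and a surjective homomorphism `π : G →* Q` with central kernel such that for every group `X` in that universe and every surjective homomorphism `ξ : X →* Q` with central kernel there is exactly one homomorphism `η : G →* X` with `ξ ∘ η = π`. -/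
theorem result {Q : Type u} [Group Q] [Finite Q] (hQ : Group.IsPerfect Q) : ∃ (G : Type u) (_ : Group G) (_ : Finite G) (π : G →* Q), Group.IsPerfect G ∧ Function.Surjective π ∧ π.ker ≤ Subgroup.center G ∧ ∀ (X : Type u) [Group X] (ξ : X →* Q), Function.Surjective ξ → ξ.ker ≤ Subgroup.center X → ∃! η : G →* X, ξ.comp η = π := by
  have hπ := canPres_surjective Q
  set ε := piBar (canPres Q) with hε
  have hεs : Function.Surjective ε := piBar_surjective hπ
  have hεc : ε.ker ≤ Subgroup.center (FBar (canPres Q)) := piBar_ker_le_center _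
  have hdec : ∀ x : FBar (canPres Q), ∃ c ∈ commutator (FBar (canPres Q)), c⁻¹ * x ∈ ε.ker := by
    intro x
    have h1 : ε x ∈ commutator Q := by rw [hQ.commutator_eq_top]; exact Subgroup.mem_top _
    rw [← map_commutator_eq_of_surjective ε hεs] at h1
    obtain ⟨c, hc, hcx⟩ := h1
    exact ⟨c, hc, by rw [MonoidHom.mem_ker, map_mul, map_inv, hcx]; simp⟩
  have hperf : Group.IsPerfect (commutator (FBar (canPres Q))) := by
    rw [Subgroup.isPerfect_iff]
    apply le_antisymm
    · exact Subgroup.commutator_le_left _ _
    · conv_lhs => rw [commutator_def]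
      rw [Subgroup.commutator_le]
      intro a _ b _
      obtain ⟨c, hc, hca⟩ := hdec a
      obtain ⟨c', hc', hcb⟩ := hdec b
      have := commutatorElement_mul_central c c' _ _ (hεc hca) (hεc hcb)
      rw [mul_inv_cancel_left, mul_inv_cancel_left] at this
      rw [this]
      exact Subgroup.commutator_mem_commutator hc hc'
  refine ⟨commutator (FBar (canPres Q)), inferInstance, finite_commutator_of_central_ker ε hεc,
    ε.comp (commutator (FBar (canPres Q))).subtype, hperf, ?_, ?_, ?_⟩
  · intro q
    obtain ⟨x, rfl⟩ := hεs q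
    obtain ⟨c, hc, hcx⟩ := hdec x
    refine ⟨⟨c, hc⟩, ?_⟩
    rw [MonoidHom.mem_ker, map_mul, map_inv] at hcx
    change ε c = ε x
    exact (inv_mul_eq_one.mp hcx)
  · intro x hx
    have h1 : x.1 ∈ ε.ker := hx
    rw [Subgroup.mem_center_iff]
    intro y
    apply Subtype.ext
    exact (Subgroup.mem_center_iff.mp (hεc h1)) y.1
  · intro X _ ξ hξs hξc
    obtain ⟨φ, hφ⟩ := exists_lift (canPres Q) ξ hξs hξc (MonoidHom.id Q)
    rw [MonoidHom.id_comp] at hφ
    refine ⟨φ.comp (commutator (FBar (canPres Q))).subtype, ?_, ?_⟩
    · change ξ.comp (φ.comp _) = _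
      rw [← MonoidHom.comp_assoc, hφ]
    · intro η hη
      apply hom_eq_of_perfect hperf ξ hξc
      rw [hη, ← MonoidHom.comp_assoc, hφ]

end Cfsg.Agent.S3960
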