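import Cfsg.Statements.S3966
import Mathlib

set_option autoImplicit false
open Cfsg
open scoped commutatorElement

namespace Cfsg.Agent.S3966

/-- reduction mod `n` -/
noncomputable def red (n : ℕ) : ZMod (2 * n) →+* ZMod n := ZMod.castHom (Dvd.intro_left 2 rfl) (ZMod n)

theorem red_n (n : ℕ) : red n (n : ZMod (2 * n)) = 0 := by
  simp [red]

/-- the covering map -/
noncomputable def cov (n : ℕ) : QuaternionGroup n →* DihedralGroup n where
  toFun
    | QuaternionGroup.a i => DihedralGroup.r (red n i)
    | QuaternionGroup.xa i => DihedralGroup.sr (red n i)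
  map_one' := by
    rw [QuaternionGroup.one_def]
    simp
  map_mul' := by
    rintro (i | i) (j | j) <;> simp

theorem red_eq_zero (n : ℕ) [NeZero n] (i : ZMod (2 * n)) (h : red n i = 0) : i = 0 ∨ i = n := by
  have hn : 0 < n := Nat.pos_of_ne_zero (NeZero.ne n)
  have : NeZero (2 * n) := ⟨by omega⟩
  have h1 : ((i.val : ℕ) : ZMod n) = 0 := by
    rw [← h, red, ZMod.castHom_apply, ZMod.natCast_val]
  rw [ZMod.natCast_eq_zero_iff] at h1
  have h2 : i.val < 2 * n := ZMod.val_lt i
  obtain ⟨k, hk⟩ := h1
  have hk2 : k < 2 := by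
    by_contra hcon
    have : 2 ≤ k := by omega
    nlinarith
  have h3 : i = ((i.val : ℕ) : ZMod (2 * n)) := by simp
  interval_cases k
  · left; rw [h3, hk]; simp
  · right; rw [h3, hk]; simp

theorem mem_ker (n : ℕ) [NeZero n] (x : QuaternionGroup n) :
    x ∈ (cov n).ker ↔ x = 1 ∨ x = QuaternionGroup.a n := by
  constructor
  · intro hx
    rw [MonoidHom.mem_ker] at hx
    rcases x with i | i
    · have : DihedralGroup.r (red n i) = DihedralGroup.r 0 := hx
      have h0 : red n i = 0 := DihedralGroup.r.inj this
      rcases red_eq_zero n i h0 with h | h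
      · left; rw [h]; rfl
      · right; rw [h]
    · have : DihedralGroup.sr (red n i) = DihedralGroup.r 0 := hx
      exact absurd this (by intro h; cases h)
  · rintro (h | h)
    · rw [h]; exact one_mem _
    · rw [h, MonoidHom.mem_ker]
      change DihedralGroup.r (red n n) = 1
      rw [red_n]; rfl

theorem two_n (n : ℕ) : (n : ZMod (2 * n)) + n = 0 := by
  have : ((2 * n : ℕ) : ZMod (2 * n)) = 0 := ZMod.natCast_self _
  push_cast at this
  rw [← this]; ring

/-- For even `n ≥ 2` the dicyclic group of order `4 n` is a stem extension of the dihedral group of order `2 n` with kernel of order `2`: there is a surjective homomorphism `QuaternionGroup n →* DihedralGroup n` whose kernel is central, lies in the commutator subgroup and has two elements. Together with the order of the multiplier this exhibits the dicyclic group as a Schur covering group of the dihedral group. -/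
theorem result (n : ℕ) [NeZero n] (hn : Even n) : ∃ σ : QuaternionGroup n →* DihedralGroup n, Cfsg.IsStemExtension σ ∧ Nat.card σ.ker = 2 := by
  have hn0 : 0 < n := Nat.pos_of_ne_zero (NeZero.ne n)
  refine ⟨cov n, ⟨?_, ?_, ?_⟩, ?_⟩
  · have hs : Function.Surjective (red n) := ZMod.castHom_surjective _
    rintro (i | i)
    · obtain ⟨j, rfl⟩ := hs i
      exact ⟨QuaternionGroup.a j, rfl⟩
    · obtain ⟨j, rfl⟩ := hs i
      exact ⟨QuaternionGroup.xa j, rfl⟩
  · intro x hx
    rcases (mem_ker n x).mp hx with h | h
    · rw [h]; exact one_mem _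
    · rw [h, Subgroup.mem_center_iff]
      have h2 := two_n n
      rintro (j | j)
      · simp [add_comm]
      · simp only [QuaternionGroup.xa_mul_a, QuaternionGroup.a_mul_xa]
        congr 1
        linear_combination h2
  · intro x hx
    rcases (mem_ker n x).mp hx with h | h
    · rw [h]; exact one_mem _
    · obtain ⟨m, hm⟩ := hn
      have : x = ⁅QuaternionGroup.xa (0 : ZMod (2 * n)), QuaternionGroup.a (-(m : ZMod (2 * n)))⁆ := by
        rw [h, commutatorElement_def]
        have hinv : (QuaternionGroup.xa (0 : ZMod (2 * n)))⁻¹ = QuaternionGroup.xa (n + 0) := rfl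
        have hinv2 : (QuaternionGroup.a (-(m : ZMod (2 * n))))⁻¹ = QuaternionGroup.a (- -(m : ZMod (2 * n))) := rfl
        rw [hinv, hinv2]
        simp only [QuaternionGroup.xa_mul_a, QuaternionGroup.xa_mul_xa, QuaternionGroup.a_mul_a]
        congr 1
        have h2 := two_n n
        have hm' : (n : ZMod (2 * n)) = m + m := by
          have := congrArg (fun k : ℕ => (k : ZMod (2 * n))) hm
          simpa using this
        linear_combination (-1 : ZMod (2 * n)) * h2 + hm'
      rw [this]
      exact Subgroup.commutator_mem_commutator (Subgroup.mem_top _) (Subgroup.mem_top _)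
  · rw [Nat.card_eq_two_iff]
    refine ⟨⟨1, one_mem _⟩, ⟨QuaternionGroup.a n, (mem_ker n _).mpr (Or.inr rfl)⟩, ?_, ?_⟩
    · intro h
      have h1 : (1 : QuaternionGroup n) = QuaternionGroup.a n := congrArg Subtype.val h
      rw [QuaternionGroup.one_def] at h1
      have h2 : (0 : ZMod (2 * n)) = n := QuaternionGroup.a.inj h1
      have h3 : ((n : ℕ) : ZMod (2 * n)) = 0 := h2.symm
      rw [ZMod.natCast_eq_zero_iff] at h3
      have := Nat.le_of_dvd hn0 h3
      omega
    · ext ⟨x, hx⟩
      simp only [Set.mem_insert_iff, Set.mem_singleton_iff, Set.mem_univ, iff_true, Subtype.mk.injEq]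
      exact (mem_ker n x).mp hx

end Cfsg.Agent.S3966
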