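import Cfsg.Statements.S3968
import Mathlib
import Cfsg.Agent.Lib_helper3_Extra
import Cfsg.Agent.S0893

set_option autoImplicit false
open Cfsg

namespace Cfsg.Agent.S3968

open Cfsg in
theorem constituent_degree_le {G : Type*} [Group G] [Fintype G] {Φ θ : G → ℂ} (hΦ : IsCharacter G Φ)
    (hθ : IsIrrCharacter G θ) (h : classInner Φ θ ≠ 0) (d n : ℕ) (hd : Φ 1 = d) (hn : θ 1 = n) :
    n ≤ d ∧ (n = d → Φ = θ) := by
  have hsub := H4.IsCharacter.sub_constituent hΦ hθ h
  obtain ⟨k, hk⟩ := H4.IsCharacter.apply_one hsub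
  rw [Pi.sub_apply, hd, hn] at hk
  have h1 : (d : ℂ) = ((n + k : ℕ) : ℂ) := by push_cast; linear_combination hk
  have h2 : d = n + k := by exact_mod_cast h1
  refine ⟨by omega, fun hnd => ?_⟩
  have := S0893.char_eq_zero_of_apply_one hsub (by rw [Pi.sub_apply, hd, hn, hnd, sub_self])
  exact sub_eq_zero.1 this

open Cfsg in
theorem char_const_of_constituents {G : Type*} [Group G] [Fintype G] (Φ : G → ℂ)
    (hΦ : IsCharacter G Φ) (x : G)
    (h : ∀ β : G → ℂ, IsIrrCharacter G β → classInner Φ β ≠ 0 → β x = β 1) : Φ x = Φ 1 := by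
  classical
  have := Fintype.ofFinite (IrrCharacter G)
  obtain ⟨m, hm⟩ := H4.IsCharacter.exists_mult hΦ
  have hmβ : ∀ β : IrrCharacter G, classInner Φ β.1 = m β := by
    intro β; rw [hm, H4.classInner_sum_mult]
  rw [hm]
  simp only [Finset.sum_apply, Pi.smul_apply, smul_eq_mul]
  apply Finset.sum_congr rfl
  intro β _
  by_cases h0 : m β = 0
  · simp [h0]
  · congr 1
    apply h β.1 β.2
    rw [hmβ]
    exact_mod_cast h0

/-- Let `p` be a prime and `G` a finite group with a faithful irreducible complex character of degree `p` (so `G` is an irreducible linear group in `p` variables). If `p ^ 2` divides the order of `G`, then the centre of `G` is nontrivial. -/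
theorem result {G : Type*} [Group G] [Finite G] (p : ℕ) (hp : p.Prime) (χ : Cfsg.IrrCharacter G) (hdeg : χ.1 1 = p) (hfaith : ∀ g : G, χ.1 g = χ.1 1 → g = 1) (hdiv : p ^ 2 ∣ Nat.card G) : Subgroup.center G ≠ ⊥ := by
  classical
  have : Fact p.Prime := ⟨hp⟩
  have := Fintype.ofFinite G
  obtain ⟨χf, n, ρ, hirr, rfl⟩ := χ
  simp only at hdeg hfaith
  have hn : Module.finrank ℂ (Fin n → ℂ) = p := by
    rw [Representation.char_one] at hdeg
    exact_mod_cast hdeg
  have hχirr : Cfsg.IsIrrCharacter G ρ.character := ⟨n, ρ, hirr, rfl⟩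
  have hχc := H4.IsIrrCharacter.isCharacter hχirr
  -- scalars are central
  have hinj : Function.Injective ρ := by
    intro a b hab
    have h1 : ρ (a * b⁻¹) = 1 := by
      rw [map_mul, hab, ← map_mul, mul_inv_cancel, map_one]
    have h2 : ρ.character (a * b⁻¹) = ρ.character 1 := by
      simp [Representation.character, h1]
    exact mul_inv_eq_one.1 (hfaith _ h2)
  have hscalar : ∀ x : G, ‖ρ.character x‖ = (p : ℝ) → x ∈ Subgroup.center G := by
    intro x hx
    rw [← hn] at hx
    obtain ⟨ω, hω⟩ := (H4.norm_char_eq_iff ρ x).1 hx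
    rw [Subgroup.mem_center_iff]
    intro g
    apply hinj
    rw [map_mul, map_mul, hω]
    ext v
    simp
  obtain ⟨P⟩ : Nonempty (Sylow p G) := inferInstance
  have hPcard : p ^ 2 ∣ Nat.card P := by
    rw [P.card_eq_multiplicity]
    apply pow_dvd_pow
    exact (hp.pow_dvd_iff_le_factorization Nat.card_pos.ne').1 hdiv
  have hPnt : Nontrivial P := by
    rw [← Finite.one_lt_card_iff_nontrivial]
    have h1 : p ^ 2 ≤ Nat.card P := Nat.le_of_dvd Nat.card_pos hPcard
    have h2 := hp.two_le
    nlinarith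
  set Φ : P → ℂ := fun x => ρ.character x with hΦdef
  have hΦ : Cfsg.IsCharacter P Φ := H4.IsCharacter.restrict (P : Subgroup G) hχc
  have hΦ1 : Φ 1 = p := hdeg
  intro hbot
  by_cases hcase : ∃ θ : P → ℂ, Cfsg.IsIrrCharacter P θ ∧ Cfsg.classInner Φ θ ≠ 0 ∧ θ 1 = p
  · obtain ⟨θ, hθ, hθc, hθ1⟩ := hcase
    have hΦθ := (constituent_degree_le hΦ hθ hθc p p hΦ1 hθ1).2 rfl
    have hZnt : Nontrivial (Subgroup.center P) := P.2.center_nontrivial
    obtain ⟨z, hz⟩ := exists_ne (1 : Subgroup.center P)
    have h1 := H3.irr_central_normSq hθ z.2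
    rw [← hΦθ, hΦ1] at h1
    have h2 : ‖ρ.character ((z : P) : G)‖ = (p : ℝ) := by
      have h3 : Φ (z : P) = ρ.character ((z : P) : G) := rfl
      rw [h3, Complex.mul_conj, Complex.normSq_eq_norm_sq] at h1
      have h4 : ‖ρ.character ((z : P) : G)‖ ^ 2 = (p : ℝ) ^ 2 := by
        have : ((‖ρ.character ((z : P) : G)‖ ^ 2 : ℝ) : ℂ) = (((p : ℝ) ^ 2 : ℝ) : ℂ) := by
          push_cast at h1 ⊢
          rw [h1]; ring
        exact_mod_cast this
      exact (pow_left_inj₀ (norm_nonneg _) (Nat.cast_nonneg p) two_ne_zero).1 h4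
    have h5 := hscalar _ h2
    rw [hbot, Subgroup.mem_bot] at h5
    apply hz
    apply Subtype.ext
    apply Subtype.ext
    exact h5
  · push Not at hcase
    -- all constituents are linear
    have hlin : ∀ β : P → ℂ, Cfsg.IsIrrCharacter P β → Cfsg.classInner Φ β ≠ 0 → β 1 = 1 := by
      intro β hβ hβc
      obtain ⟨m, -, hmdvd, hm⟩ := H4.IsIrrCharacter.exists_degree hβ
      have hle := (constituent_degree_le hΦ hβ hβc p m hΦ1 hm).1
      have hne : m ≠ p := fun h => hcase β hβ hβc (by rw [hm, h])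
      obtain ⟨a, ha⟩ := P.2.exists_card_eq
      rw [ha] at hmdvd
      obtain ⟨j, -, hj⟩ := (Nat.dvd_prime_pow hp).1 hmdvd
      have hj0 : j = 0 := by
        by_contra h0
        have h1 : p ≤ m := by
          rw [hj]
          calc p = p ^ 1 := (pow_one p).symm
            _ ≤ p ^ j := Nat.pow_le_pow_right hp.pos (Nat.one_le_iff_ne_zero.2 h0)
        omega
      rw [hm, hj, hj0]; simp
    have hab : ∀ a b : P, a * b = b * a := by
      intro a b
      have h1 : Φ (a * b * a⁻¹ * b⁻¹) = Φ 1 := by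
        apply char_const_of_constituents Φ hΦ
        intro β hβ hβc
        have hβ1 := hlin β hβ hβc
        rw [hβ1]
        apply H4.linear_commutator (H4.IsIrrCharacter.isCharacter hβ) hβ1
        rw [commutator_def]
        exact Subgroup.commutator_mem_commutator (Subgroup.mem_top a) (Subgroup.mem_top b)
      have h2 := hfaith _ h1
      have h3 : a * b * a⁻¹ * b⁻¹ = 1 := Subtype.ext h2
      calc a * b = a * b * a⁻¹ * b⁻¹ * (b * a) := by group
        _ = b * a := by rw [h3, one_mul]
    have hvan : ∀ x : P, x ≠ 1 → Φ x = 0 := by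
      intro x hx
      have hle : (P : Subgroup G) ≤ Subgroup.centralizer ({(x : G)} : Set G) := by
        intro y hy
        rw [Subgroup.mem_centralizer_singleton_iff]
        exact congrArg Subtype.val (hab ⟨y, hy⟩ x)
      have hcop : Nat.Coprime (Module.finrank ℂ (Fin n → ℂ))
          (Subgroup.centralizer ({(x : G)} : Set G)).index := by
        rw [hn, Nat.Prime.coprime_iff_not_dvd hp]
        intro h
        exact P.not_dvd_index (h.trans (Subgroup.index_dvd_of_le hle))
      rcases H4.burnside_coprime ρ (x : G) hcop with h | h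
      · exact h
      · rw [hn] at h
        have h5 := hscalar _ h
        rw [hbot, Subgroup.mem_bot] at h5
        exact (hx (Subtype.ext h5)).elim
    have := Fintype.ofFinite (Cfsg.IrrCharacter P)
    obtain ⟨m, hm⟩ := H4.IsCharacter.classInner_irr_nat hΦ (H4.trivIrr P)
    unfold Cfsg.classInner at hm
    have hsum : ∑ g : ↥(P : Subgroup G), Φ g * (starRingEnd ℂ)
        (((H4.trivIrr ↥(P : Subgroup G)) : ↥(P : Subgroup G) → ℂ) g) = (p : ℂ) := by
      rw [Finset.sum_eq_single (1 : ↥(P : Subgroup G))]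
      · rw [hΦ1]; simp [H4.trivIrr]
      · intro x _ hx
        rw [hvan x hx, zero_mul]
      · intro h
        exact absurd (Finset.mem_univ _) h
    rw [hsum] at hm
    have hPC : (Nat.card P : ℂ) ≠ 0 := by exact_mod_cast Nat.card_pos.ne'
    have h6 : (p : ℂ) = ((m * Nat.card P : ℕ) : ℂ) := by
      push_cast
      rw [← hm]
      field_simp
    have h7 : p = m * Nat.card P := by exact_mod_cast h6
    have h8 : p ^ 2 ∣ p := hPcard.trans (Dvd.intro_left m h7.symm)
    have h9 := Nat.le_of_dvd hp.pos h8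
    have := hp.two_le
    nlinarith

end Cfsg.Agent.S3968
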