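import Mathlib
import Cfsg.Statements.S3971
import Cfsg.Agent.Lib_helper1_MinAct2

set_option autoImplicit false
open Cfsg

namespace Cfsg.Agent.S3971

open Cfsg.Agent.H1
open scoped Pointwise

theorem frat_index_aux {G : Type*} [Group G] [Finite G] (U C : Subgroup G) (hU : IsPGroup 2 U)
    (hC : IsCyclic C) (h : C.relIndex U ≤ 2) : (frattini U).index ∣ 2 ^ 2 := by
  set N := C.subgroupOf U with hN
  have hidx : N.index ≤ 2 := h
  have hcyc : IsCyclic N := by
    let f : N →* C := (U.subtype.comp N.subtype).codRestrict C (fun n => n.2)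
    have hf : Function.Injective f := by
      intro a b hab
      have := congrArg Subtype.val hab
      exact Subtype.ext (Subtype.ext this)
    exact isCyclic_of_injective f hf
  have hne : N.index ≠ 0 := Subgroup.index_ne_zero_of_finite
  have hcases : N.index = 1 ∨ N.index = 2 := by omega
  have hnorm : N.Normal := by
    rcases hcases with h1 | h2
    · rw [Subgroup.index_eq_one] at h1
      rw [h1]; infer_instance
    · exact Subgroup.normal_of_index_eq_two h2
  have hQ : IsCyclic (U ⧸ N) := by
    rcases hcases with h1 | h2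
    · have : Subsingleton (U ⧸ N) := by
        rw [← Finite.card_le_one_iff_subsingleton, ← Subgroup.index_eq_card, h1]
      exact isCyclic_of_subsingleton
    · have : Fact (Nat.Prime 2) := ⟨Nat.prime_two⟩
      exact isCyclic_of_prime_card (p := 2) (by rw [← Subgroup.index_eq_card, h2])
  obtain ⟨d, t, hdt⟩ := exists_two_gen_of_metacyclic N hcyc hQ
  have : Fact (Nat.Prime 2) := ⟨Nat.prime_two⟩
  exact frattini_index_dvd_of_two_gen hU d t hdt

/-- Let `G` be a finite group of order `2 ^ a * n` with `n` odd and not divisible by `3`, and suppose `G` has an element of order `2 ^ (a - 1)` (so a Sylow `2`-subgroup has a cyclic subgroup of index at most `2`). Then `G` has a normal subgroup of order `n`. -/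
theorem result {G : Type*} [Group G] [Finite G] (a n : ℕ) (hG : Nat.card G = 2 ^ a * n) (hn : Odd n) (h3 : ¬ 3 ∣ n) (hx : ∃ x : G, orderOf x = 2 ^ (a - 1)) : ∃ N : Subgroup G, N.Normal ∧ Nat.card N = n := by
  have : Fact (Nat.Prime 2) := ⟨Nat.prime_two⟩
  have hnpc : Cfsg.HasNormalPComplement 2 G := by
    by_contra hcon
    obtain ⟨U, y, hm⟩ := exists_minAct hcon
    obtain ⟨q, hq, hqy, j, hj1, hqj, hjd⟩ := hm.exists_prime
    obtain ⟨x, hx⟩ := hx
    -- a Sylow subgroup containing x
    have hxp : IsPGroup 2 (Subgroup.zpowers x) := by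
      rw [IsPGroup.iff_card]
      exact ⟨a - 1, by rw [Nat.card_zpowers, hx]⟩
    obtain ⟨P, hP⟩ := hxp.exists_le_sylow
    obtain ⟨P', hP'⟩ := hm.pgroup.exists_le_sylow
    obtain ⟨g, rfl⟩ := MulAction.exists_smul_eq G P P'
    have hcardP : Nat.card P = 2 ^ a := by
      rw [P.card_eq_multiplicity, hG, Nat.factorization_mul (by positivity) (Nat.pos_of_ne_zero
        (by rintro rfl; simp at hn)).ne']
      have h1 : n.factorization 2 = 0 := by
        apply Nat.factorization_eq_zero_of_not_dvd
        exact hn.not_two_dvd_nat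
      simp [h1, Nat.Prime.factorization_pow Nat.prime_two]
    set C := MulAut.conj g • Subgroup.zpowers x with hC
    have hCP : C ≤ ((g • P : Sylow 2 G) : Subgroup G) := by
      rw [Sylow.coe_subgroup_smul]
      exact Subgroup.pointwise_smul_le_pointwise_smul_iff.mpr hP
    have hCcard : Nat.card C = 2 ^ (a - 1) := by
      rw [hC, card_conj_smul, Nat.card_zpowers, hx]
    have hcardP' : Nat.card ((g • P : Sylow 2 G) : Subgroup G) = 2 ^ a := by
      rw [Sylow.coe_subgroup_smul, card_conj_smul]; exact hcardP
    have hrel : C.relIndex ((g • P : Sylow 2 G) : Subgroup G) ≤ 2 := by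
      have h1 := relIndex_mul_card' hCP
      rw [hCcard, hcardP'] at h1
      rcases Nat.eq_zero_or_pos a with h0 | h0
      · subst h0
        simp only [Nat.zero_sub, pow_zero, mul_one] at h1
        omega
      · have h2 : 2 ^ a = 2 * 2 ^ (a - 1) := by
          rw [← pow_succ']; congr 1; omega
        rw [h2] at h1
        exact (Nat.eq_of_mul_eq_mul_right (by positivity) h1).le
    have hrelU : C.relIndex U ≤ 2 :=
      (Subgroup.relIndex_le_of_le_right hP' (by
        intro h0
        have := relIndex_mul_card' hCP
        rw [h0, zero_mul] at this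
        exact Nat.card_pos.ne this)).trans hrel
    have hCcyc : IsCyclic C := by
      have e := (Subgroup.equivSMul (MulAut.conj g) (Subgroup.zpowers x))
      exact isCyclic_of_surjective e e.surjective
    have hdvd := frat_index_aux U C hm.pgroup hCcyc hrelU
    have hj2 : j ≤ 2 := (Nat.pow_dvd_pow_iff_le_right (by norm_num)).mp (hjd.trans hdvd)
    have hq3 : q = 3 := by
      interval_cases j
      · simp at hqj
        exact absurd hqj hq.one_lt.ne'
      · have : q ∣ 3 := by simpa using hqj
        exact (Nat.prime_dvd_prime_iff_eq hq Nat.prime_three).mp this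
    subst hq3
    have h3G : 3 ∣ Nat.card G := hqy.trans (orderOf_dvd_natCard y)
    rw [hG] at h3G
    have := (Nat.Coprime.dvd_of_dvd_mul_left (by
      apply Nat.Coprime.pow_right; norm_num) h3G)
    exact h3 this
  obtain ⟨P, N, hN, hc⟩ := hnpc
  refine ⟨N, hN, ?_⟩
  have h1 := hc.card_mul_card
  have hcardP : Nat.card P = 2 ^ a := by
    rw [P.card_eq_multiplicity, hG, Nat.factorization_mul (by positivity) (Nat.pos_of_ne_zero
      (by rintro rfl; simp at hn)).ne']
    have h1 : n.factorization 2 = 0 := by
      apply Nat.factorization_eq_zero_of_not_dvd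
      exact hn.not_two_dvd_nat
    simp [h1, Nat.Prime.factorization_pow Nat.prime_two]
  rw [hcardP, hG, mul_comm] at h1
  exact Nat.eq_of_mul_eq_mul_left (by positivity) h1

end Cfsg.Agent.S3971
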