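import Cfsg.Statements.S3976
import Cfsg.Agent.Lib_helper2_Frob
import Cfsg.Agent.Lib_helper1_Basic

set_option autoImplicit false
open Cfsg
open Pointwise

namespace Cfsg.Agent.S3976

/-- Let `p` be a prime and `G` a group of order `p ^ m`. For every `s ≤ m` the number of normal subgroups of `G` of order `p ^ s` is congruent to `1` modulo `p`. -/
theorem result {G : Type*} [Group G] [Finite G] (p m s : ℕ) (hp : p.Prime) (hG : Nat.card G = p ^ m) (hs : s ≤ m) : Nat.card {H : Subgroup G // H.Normal ∧ Nat.card H = p ^ s} ≡ 1 [MOD p] := by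
  classical
  have := Fact.mk hp
  have hPG : IsPGroup p G := IsPGroup.of_card hG
  have h1 := Cfsg.Agent.H2.card_subgroups_modEq_one (G := G) p s hp (by
    rw [hG]; exact pow_dvd_pow p hs)
  let act : MulAction G {H : Subgroup G // Nat.card H = p ^ s} :=
    { smul := fun g H => ⟨MulAut.conj g • H.1, by
        exact (Cfsg.Agent.H1.card_conj_smul g H.1).trans H.2⟩
      one_smul := fun H => Subtype.ext (by
        show MulAut.conj (1 : G) • H.1 = H.1
        rw [map_one, one_smul])
      mul_smul := fun a b H => Subtype.ext (by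
        show MulAut.conj (a * b) • H.1 = MulAut.conj a • MulAut.conj b • H.1
        rw [map_mul, mul_smul]) }
  have hsm : ∀ (g : G) (H : {H : Subgroup G // Nat.card H = p ^ s}), (g • H).1 = MulAut.conj g • H.1 :=
    fun _ _ => rfl
  have h2 := hPG.card_modEq_card_fixedPoints {H : Subgroup G // Nat.card H = p ^ s}
  have h3 : Nat.card (MulAction.fixedPoints G {H : Subgroup G // Nat.card H = p ^ s})
      = Nat.card {H : Subgroup G // H.Normal ∧ Nat.card H = p ^ s} := by
    apply Nat.card_congr
    refine
      { toFun := fun H => ⟨H.1.1, ⟨fun n hn g => ?_⟩, H.1.2⟩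
        invFun := fun H => ⟨⟨H.1, H.2.2⟩, fun g => Subtype.ext ?_⟩
        left_inv := fun H => rfl
        right_inv := fun H => rfl }
    · have h4 : MulAut.conj g • H.1.1 = H.1.1 := congrArg Subtype.val (H.2 g)
      rw [← h4]
      exact Subgroup.smul_mem_pointwise_smul n (MulAut.conj g) H.1.1 hn
    · have := H.2.1
      exact Subgroup.Normal.conj_smul_eq_self g H.1
  rw [← h3]
  exact h2.symm.trans h1

end Cfsg.Agent.S3976
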