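import Cfsg.Statements.S3977
import Cfsg.Agent.Lib_helper7_Omega

set_option autoImplicit false
open Cfsg

namespace Cfsg.Agent.S3977

theorem exists_between {X : Type*} [Group X] [Finite X] {p : ℕ} [Fact p.Prime] {P E : Subgroup X}
    (hEP : E ≤ P) {k m : ℕ} (hE : Nat.card E = p ^ k) (hm : p ^ m ∣ Nat.card P) (hkm : k ≤ m) :
    ∃ K : Subgroup X, E ≤ K ∧ K ≤ P ∧ Nat.card K = p ^ m := by
  have h1 : Nat.card (E.subgroupOf P) = p ^ k := by
    rw [Nat.card_congr (Subgroup.subgroupOfEquivOfLe hEP).toEquiv, hE]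
  obtain ⟨K, hK, hle⟩ := Sylow.exists_subgroup_card_pow_prime_le p hm (E.subgroupOf P) h1 hkm
  refine ⟨K.map P.subtype, ?_, Subgroup.map_subtype_le K, ?_⟩
  · intro x hx
    exact ⟨⟨x, hEP hx⟩, hle (Subgroup.mem_subgroupOf.mpr hx), rfl⟩
  · rw [Subgroup.card_map_of_injective P.subtype_injective, hK]

/-- a `p`-subgroup with only one subgroup of index `p` is cyclic -/
theorem cyclic_of_unique {X : Type*} [Group X] [Finite X] {p : ℕ} [Fact p.Prime] {L : Subgroup X}
    {j : ℕ} (hL : Nat.card L = p ^ (j + 1))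
    (hu : ∀ K₁ K₂ : Subgroup X, K₁ ≤ L → K₂ ≤ L → Nat.card K₁ = p ^ j → Nat.card K₂ = p ^ j →
      K₁ = K₂) : IsCyclic L := by
  have hp : p.Prime := Fact.out
  have hLp : IsPGroup p L := IsPGroup.of_card hL
  obtain ⟨E, -, hEL, hE⟩ := exists_between (p := p) (bot_le : (⊥ : Subgroup X) ≤ L) (k := 0) (m := j)
    (by simp) (by rw [hL]; exact pow_dvd_pow p (Nat.le_succ j)) (Nat.zero_le j)
  have hex : ∃ t ∈ L, t ∉ E := by
    by_contra hcon
    push Not at hcon
    have : L = E := le_antisymm hcon hEL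
    rw [this, hE] at hL
    have := Nat.pow_right_injective hp.two_le hL
    omega
  obtain ⟨t, htL, htE⟩ := hex
  have hz : Subgroup.zpowers t = L := by
    have hle : Subgroup.zpowers t ≤ L := by rwa [Subgroup.zpowers_le]
    by_contra hne
    obtain ⟨i, hi⟩ := (hLp.to_le hle).exists_card_eq
    have hij : i ≤ j := by
      by_contra hcon
      push Not at hcon
      apply hne
      apply Subgroup.eq_of_le_of_card_ge hle
      rw [hL, hi]
      exact Nat.pow_le_pow_right hp.pos hcon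
    obtain ⟨K, hzK, hKL, hK⟩ := exists_between hle hi
      (by rw [hL]; exact pow_dvd_pow p (Nat.le_succ j)) hij
    have := hu K E hKL hEL hK hE
    exact htE (this ▸ hzK (Subgroup.mem_zpowers t))
  rw [← hz]
  infer_instance

/-- two distinct cyclic subgroups of index `p` produce an element of small order outside the first -/
theorem exists_small {L : Type*} [Group L] [Finite L] {p : ℕ} [Fact p.Prime] (hL : IsPGroup p L)
    (K₁ K₂ : Subgroup L) (h₁ : K₁.index = p) (h₂ : K₂.index = p) (hne : K₁ ≠ K₂)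
    (hc₁ : IsCyclic K₁) (hc₂ : IsCyclic K₂) :
    ∃ c : L, c ∉ K₁ ∧ (c ^ p = 1 ∨ (p = 2 ∧ c ^ 4 = 1)) := by
  have hp : p.Prime := Fact.out
  obtain ⟨n, hn⟩ := hL.exists_card_eq
  have hn0 : n ≠ 0 := by
    rintro rfl
    have h1 := K₁.index_dvd_card
    rw [hn, h₁, pow_zero] at h1
    exact hp.one_lt.ne' (Nat.dvd_one.mp h1)
  have hN₁ : K₁.Normal := by
    apply Subgroup.normal_of_index_eq_minFac_card
    rw [h₁, hn, hp.pow_minFac hn0]
  have hN₂ : K₂.Normal := by
    apply Subgroup.normal_of_index_eq_minFac_card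
    rw [h₂, hn, hp.pow_minFac hn0]
  have hcard : Nat.card K₁ = Nat.card K₂ := by
    have e1 := K₁.card_mul_index
    have e2 := K₂.card_mul_index
    rw [h₁] at e1
    rw [h₂, ← e1] at e2
    exact (Nat.eq_of_mul_eq_mul_right hp.pos e2).symm
  obtain ⟨ga, hga⟩ := IsCyclic.exists_generator (α := K₁)
  obtain ⟨gb, hgb⟩ := IsCyclic.exists_generator (α := K₂)
  set a : L := (ga : L) with ha
  set b : L := (gb : L) with hb
  have haK : a ∈ K₁ := ga.2
  have hbK : b ∈ K₂ := gb.2
  have hK₁ : ∀ x ∈ K₁, x ∈ Subgroup.zpowers a := by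
    intro x hx
    obtain ⟨k, hk⟩ := Subgroup.mem_zpowers_iff.mp (hga ⟨x, hx⟩)
    exact Subgroup.mem_zpowers_iff.mpr ⟨k, by simpa using congrArg Subtype.val hk⟩
  have hK₂ : ∀ x ∈ K₂, x ∈ Subgroup.zpowers b := by
    intro x hx
    obtain ⟨k, hk⟩ := Subgroup.mem_zpowers_iff.mp (hgb ⟨x, hx⟩)
    exact Subgroup.mem_zpowers_iff.mpr ⟨k, by simpa using congrArg Subtype.val hk⟩
  have hcomm₁ : ∀ x ∈ K₁, ∀ y ∈ K₁, Commute x y := by
    intro x hx y hy
    obtain ⟨k, rfl⟩ := Subgroup.mem_zpowers_iff.mp (hK₁ x hx)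
    obtain ⟨l, rfl⟩ := Subgroup.mem_zpowers_iff.mp (hK₁ y hy)
    exact (Commute.refl a).zpow_zpow k l
  have hcomm₂ : ∀ x ∈ K₂, ∀ y ∈ K₂, Commute x y := by
    intro x hx y hy
    obtain ⟨k, rfl⟩ := Subgroup.mem_zpowers_iff.mp (hK₂ x hx)
    obtain ⟨l, rfl⟩ := Subgroup.mem_zpowers_iff.mp (hK₂ y hy)
    exact (Commute.refl b).zpow_zpow k l
  have hbK₁ : b ∉ K₁ := by
    intro h
    apply hne
    have hle : K₂ ≤ K₁ := by
      intro x hx
      obtain ⟨k, rfl⟩ := Subgroup.mem_zpowers_iff.mp (hK₂ x hx)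
      exact K₁.zpow_mem h k
    exact (Subgroup.eq_of_le_of_card_ge hle hcard.le).symm
  have hbp : b ^ p ∈ K₁ := by
    rw [← h₁]; exact K₁.pow_index_mem b
  obtain ⟨r, hr⟩ := (mem_powers_iff_mem_zpowers.mpr (hK₁ _ hbp))
  have hr : a ^ r = b ^ p := hr
  have hpr : p ∣ r := by
    by_contra hcon
    apply hne
    have hoa : ∃ k, orderOf a = p ^ k := (IsPGroup.iff_orderOf.mp hL) a
    obtain ⟨k, hk⟩ := hoa
    have hcop : r.Coprime (orderOf a) := by
      rw [hk]
      exact Nat.Coprime.pow_right _ ((Nat.Prime.coprime_iff_not_dvd hp).mpr hcon).symm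
    obtain ⟨m, hm⟩ := exists_pow_eq_self_of_coprime hcop
    have haK₂ : a ∈ K₂ := by
      rw [← hm, hr]
      exact K₂.pow_mem (K₂.pow_mem hbK p) m
    have hle : K₁ ≤ K₂ := by
      intro x hx
      obtain ⟨k, rfl⟩ := Subgroup.mem_zpowers_iff.mp (hK₁ x hx)
      exact K₂.zpow_mem haK₂ k
    exact Subgroup.eq_of_le_of_card_ge hle hcard.ge
  obtain ⟨i, rfl⟩ := hpr
  set u : L := (a ^ i)⁻¹ with hu
  have huK : u ∈ K₁ := K₁.inv_mem (K₁.pow_mem haK i)
  set c := b * u * b⁻¹ * u⁻¹ with hc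
  have hcK₁ : c ∈ K₁ := K₁.mul_mem (hN₁.conj_mem u huK b) (K₁.inv_mem huK)
  have hcK₂ : c ∈ K₂ := by
    have : c = b * (u * b⁻¹ * u⁻¹) := by rw [hc]; group
    rw [this]
    exact K₂.mul_mem hbK (hN₂.conj_mem _ (K₂.inv_mem hbK) u)
  have hbu : b * u = c * u * b := by rw [hc]; group
  have hcu : Commute c u := hcomm₁ c hcK₁ u huK
  have hcb : Commute c b := hcomm₂ c hcK₂ b hbK
  have hcp : c ^ p = 1 := by
    have h1 := H7.pow_mul_class2 hbu hcb p
    rw [(hcomm₁ _ hbp u huK).eq] at h1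
    have h2 : 1 * (u * b ^ p) = c ^ p * (u * b ^ p) := by rw [one_mul, ← mul_assoc]; exact h1
    exact (mul_right_cancel h2).symm
  have hup : u ^ p * b ^ p = 1 := by
    rw [← hr, hu, inv_pow, ← pow_mul, mul_comm i p, inv_mul_cancel]
  have hpow : (u * b) ^ p = c ^ (p.choose 2) := by
    rw [H7.mul_pow_class2 hbu hcu hcb p, hup, one_mul]
  refine ⟨u * b, ?_, ?_⟩
  · intro h
    apply hbK₁
    have : b = u⁻¹ * (u * b) := by group
    rw [this]
    exact K₁.mul_mem (K₁.inv_mem huK) h
  · by_cases hp2 : p = 2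
    · right
      refine ⟨hp2, ?_⟩
      subst hp2
      calc (u * b) ^ 4 = ((u * b) ^ 2) ^ 2 := by rw [← pow_mul]
        _ = 1 := by rw [hpow]; simpa using hcp
    · left
      have hdvd : p ∣ p.choose 2 := by
        apply hp.dvd_choose_self (by norm_num)
        have := hp.two_le
        omega
      obtain ⟨t, ht⟩ := hdvd
      rw [hpow, ht, pow_mul, hcp, one_pow]

/-- Let `p` be a prime and `G` a group of order `p ^ m` which has exactly one subgroup of order `p ^ s`, where `1 ≤ s < m`, and where `s ≥ 2` if `p = 2`. Then `G` is cyclic. (For `p = 2` and `s = 1` the generalized quaternion groups also occur; that case is the classical criterion for a unique involution.) -/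
theorem result {G : Type*} [Group G] [Finite G] (p m s : ℕ) (hp : p.Prime) (hG : Nat.card G = p ^ m) (hs : 1 ≤ s) (hsm : s < m) (h2 : p ≠ 2 ∨ 2 ≤ s) (huniq : ∀ H K : Subgroup G, Nat.card H = p ^ s → Nat.card K = p ^ s → H = K) : IsCyclic G := by
  haveI : Fact p.Prime := ⟨hp⟩
  have hGp : IsPGroup p G := IsPGroup.of_card hG
  have htop : Nat.card (⊤ : Subgroup G) = p ^ m := by rw [Subgroup.card_top, hG]
  have key : ∀ d : ℕ, s + d + 1 ≤ m → ∀ L : Subgroup G, Nat.card L = p ^ (s + d + 1) → IsCyclic L := by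
    intro d
    induction d with
    | zero =>
      intro _ L hL
      exact cyclic_of_unique hL (fun K₁ K₂ _ _ h₁ h₂ => huniq K₁ K₂ h₁ h₂)
    | succ d ih =>
      intro hdm L hL
      apply cyclic_of_unique hL
      intro K₁ K₂ hK₁L hK₂L hK₁ hK₂
      by_contra hne
      have hc₁ : IsCyclic K₁ := ih (by omega) K₁ hK₁
      have hc₂ : IsCyclic K₂ := ih (by omega) K₂ hK₂
      have hidx : ∀ K : Subgroup G, K ≤ L → Nat.card K = p ^ (s + (d + 1)) →
          (K.subgroupOf L).index = p := by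
        intro K hKL hK
        have h1 := (K.subgroupOf L).card_mul_index
        rw [Nat.card_congr (Subgroup.subgroupOfEquivOfLe hKL).toEquiv, hK, hL, pow_succ] at h1
        exact Nat.eq_of_mul_eq_mul_left (pow_pos hp.pos _) h1
      have hcyc : ∀ K : Subgroup G, K ≤ L → IsCyclic K → IsCyclic (K.subgroupOf L) := by
        intro K hKL hK
        exact isCyclic_of_surjective (Subgroup.subgroupOfEquivOfLe hKL).symm
          (Subgroup.subgroupOfEquivOfLe hKL).symm.surjective
      have hne' : K₁.subgroupOf L ≠ K₂.subgroupOf L := by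
        intro h
        apply hne
        have := congrArg (Subgroup.map L.subtype) h
        rwa [Subgroup.map_subgroupOf_eq_of_le hK₁L, Subgroup.map_subgroupOf_eq_of_le hK₂L] at this
      obtain ⟨c, hcK, hc⟩ := exists_small (hGp.to_subgroup L) _ _ (hidx K₁ hK₁L hK₁)
        (hidx K₂ hK₂L hK₂) hne' (hcyc K₁ hK₁L hc₁) (hcyc K₂ hK₂L hc₂)
      apply hcK
      rw [Subgroup.mem_subgroupOf]
      -- the cyclic group generated by `c` has order at most `p ^ s`
      obtain ⟨e, he⟩ := (hGp.to_subgroup (Subgroup.zpowers (c : G))).exists_card_eq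
      have hes : e ≤ s := by
        rw [Nat.card_zpowers] at he
        rcases hc with hc | ⟨hp2, hc⟩
        · have h1 : orderOf (c : G) ∣ p ^ 1 := by
            apply orderOf_dvd_of_pow_eq_one
            rw [pow_one]
            simpa using congrArg Subtype.val hc
          rw [he] at h1
          exact ((Nat.pow_dvd_pow_iff_le_right hp.one_lt).mp h1).trans hs
        · have h1 : orderOf (c : G) ∣ p ^ 2 := by
            apply orderOf_dvd_of_pow_eq_one
            rw [hp2]
            simpa using congrArg Subtype.val hc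
          rw [he] at h1
          have hs2 : 2 ≤ s := by
            rcases h2 with h | h
            · exact absurd hp2 h
            · exact h
          exact ((Nat.pow_dvd_pow_iff_le_right hp.one_lt).mp h1).trans hs2
      obtain ⟨H, hcH, -, hH⟩ := exists_between (le_top : Subgroup.zpowers (c : G) ≤ ⊤) he
        (by rw [htop]; exact pow_dvd_pow p hsm.le) hes
      obtain ⟨H', -, hH'K, hH'⟩ := exists_between (p := p) (bot_le : (⊥ : Subgroup G) ≤ K₁) (k := 0)
        (m := s) (by simp) (by rw [hK₁]; exact pow_dvd_pow p (by omega)) (Nat.zero_le s)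
      have := huniq H H' hH hH'
      exact hH'K (this ▸ hcH (Subgroup.mem_zpowers _))
  have h1 := key (m - s - 1) (by omega) ⊤ (by rw [htop]; congr 1; omega)
  exact isCyclic_of_surjective (Subgroup.topEquiv : (⊤ : Subgroup G) ≃* G)
    Subgroup.topEquiv.surjective

end Cfsg.Agent.S3977
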