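import Cfsg.Statements.S3980
import Cfsg.Agent.S3959

set_option autoImplicit false
universe u v w
open Cfsg

namespace Cfsg.Agent.S3980

open Cfsg.Agent.H2

/-- Let `Q₁` and `Q₂` be finite groups whose commutator quotients have coprime orders, with Schur multipliers `A` and `B`. Then the Schur multiplier of `Q₁ × Q₂` is isomorphic to `A × B`. -/
theorem result {Q₁ : Type u} {Q₂ : Type v} [Group Q₁] [Group Q₂] [Finite Q₁] [Finite Q₂] {A B : Type w} [CommGroup A] [CommGroup B] (hA : Cfsg.HasSchurMultiplier Q₁ A) (hB : Cfsg.HasSchurMultiplier Q₂ B) (hcop : Nat.Coprime (Nat.card (Abelianization Q₁)) (Nat.card (Abelianization Q₂))) : Cfsg.HasSchurMultiplier (Q₁ × Q₂) (A × B) := by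
  have h := Cfsg.Agent.S3959.result hA hB
  have f1 : Finite (Additive (Abelianization Q₁)) := inferInstanceAs (Finite (Abelianization Q₁))
  have f2 : Finite (Additive (Abelianization Q₂)) := inferInstanceAs (Finite (Abelianization Q₂))
  have hsub : Subsingleton (Multiplicative (TensorProduct ℤ (Additive (Abelianization Q₁)) (Additive (Abelianization Q₂)))) :=
    subsingleton_tensor (Additive (Abelianization Q₁)) (Additive (Abelianization Q₂)) hcop
  refine hasSchurMultiplier_of_mulEquiv h
    { toFun := fun x => (x.1, x.2.1)
      invFun := fun y => (y.1, y.2, 1)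
      left_inv := fun x => by
        apply Prod.ext
        · rfl
        · apply Prod.ext
          · rfl
          · exact Subsingleton.elim _ _
      right_inv := fun y => rfl
      map_mul' := fun x y => rfl }

end Cfsg.Agent.S3980
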