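import Cfsg.Statements.S3994
import Cfsg.Agent.Lib_helper3_FrobN

set_option autoImplicit false
open Cfsg

namespace Cfsg.Agent.S3994

/-- Let G be a finite group and n a positive integer. The number of elements of G whose order is divisible by n is either 0 or divisible by the largest divisor of the order of G that is coprime to n. -/
theorem result {G : Type*} [Group G] [Finite G] (n : ℕ) (hn : 0 < n) :
    Nat.card {g : G // n ∣ orderOf g} = 0 ∨
      (Nat.card G / Nat.gcd (Nat.card G) (n ^ Nat.card G)) ∣ Nat.card {g : G // n ∣ orderOf g} := by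
  right
  set g := Nat.card G with hg
  have hg0 : g ≠ 0 := Nat.card_pos.ne'
  set D := Nat.gcd g (n ^ g) with hD
  have hDg : D ∣ g := Nat.gcd_dvd_left _ _
  have hD0 : D ≠ 0 := fun h => hg0 (Nat.eq_zero_of_zero_dvd (h ▸ hDg))
  set k := g / D with hk
  have hkg : k ∣ g := Nat.div_dvd_of_dvd hDg
  have hk0 : k ≠ 0 := fun h => hg0 (Nat.eq_zero_of_zero_dvd (h ▸ hkg))
  have hcop : Nat.Coprime n k := by
    apply Nat.coprime_of_dvd
    intro q hq hqn hqk
    have h1 : k.factorization q = g.factorization q - D.factorization q := by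
      rw [hk, Nat.factorization_div hDg]; rfl
    have h2 : D.factorization q = min (g.factorization q) ((n ^ g).factorization q) := by
      rw [hD, Nat.factorization_gcd hg0 (pow_ne_zero _ hn.ne')]; rfl
    have h3 : g ≤ (n ^ g).factorization q := by
      rw [Nat.factorization_pow]
      have : 1 ≤ n.factorization q := (hq.dvd_iff_one_le_factorization hn.ne').mp hqn
      simp only [Finsupp.smul_apply, smul_eq_mul]
      nlinarith
    have h4 : g.factorization q < g := Nat.factorization_lt q hg0
    have h5 : 1 ≤ k.factorization q := (hq.dvd_iff_one_le_factorization hk0).mp hqk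
    rw [h1, h2] at h5
    omega
  have hiff : ∀ x : G, n ∣ orderOf x ↔ n ∣ orderOf (x ^ k) := by
    intro x
    constructor
    · intro h
      rw [orderOf_pow]
      have h1 : Nat.gcd (orderOf x) k ∣ orderOf x := Nat.gcd_dvd_left _ _
      have h2 : Nat.Coprime n (Nat.gcd (orderOf x) k) :=
        Nat.Coprime.coprime_dvd_right (Nat.gcd_dvd_right _ _) hcop
      have h3 := h2.mul_dvd_of_dvd_of_dvd h h1
      exact Nat.dvd_div_of_mul_dvd (by rwa [mul_comm] at h3)
    · intro h
      exact h.trans (orderOf_pow_dvd k)
  have e : Nat.card {x : G // n ∣ orderOf x} = Nat.card {x : G // n ∣ orderOf (x ^ k)} :=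
    Nat.card_congr (Equiv.subtypeEquivRight hiff)
  rw [e]
  apply Cfsg.Agent.H3.dvd_card_of_conj_invariant k (fun y => n ∣ orderOf y)
  · intro a b hab ha
    obtain ⟨c, rfl⟩ := isConj_iff.mp hab
    have : orderOf (c * a * c⁻¹) = orderOf a := by
      have := orderOf_injective (MulAut.conj c).toMonoidHom (MulAut.conj c).injective a
      simpa using this
    rwa [this]
  · intro y _
    exact (Nat.dvd_gcd (Dvd.intro_left _ rfl) hkg).trans (Cfsg.Agent.H3.hall_frobenius y k)

end Cfsg.Agent.S3994
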