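import Cfsg.Statements.S3997
import Mathlib

set_option autoImplicit false
open Cfsg

namespace Cfsg.Agent.S3997

/-- Let G and H be finite groups with the same order type: for every m they have the same number of elements of order m. If G is nilpotent then so is H. -/
theorem result {G H : Type*} [Group G] [Finite G] [Group H] [Finite H] (hT : (∀ m : ℕ, Nat.card {g : G // orderOf g = m} = Nat.card {h : H // orderOf h = m})) (hG : Group.IsNilpotent G) :
    Group.IsNilpotent H := by
  classical
  have e : ∀ m : ℕ, {g : G // orderOf g = m} ≃ {h : H // orderOf h = m} :=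
    fun m => (Finite.card_eq.1 (hT m)).some
  let φ : G ≃ H := (Equiv.sigmaFiberEquiv (orderOf : G → ℕ)).symm.trans
    ((Equiv.sigmaCongrRight e).trans (Equiv.sigmaFiberEquiv (orderOf : H → ℕ)))
  have hφ : ∀ g, orderOf (φ g) = orderOf g := by
    intro g
    exact (e (orderOf g) ⟨g, rfl⟩).2
  have hcard : Nat.card G = Nat.card H := Nat.card_congr φ
  apply ((Group.isNilpotent_of_finite_tfae (G := H)).out 0 3 rfl rfl).2
  intro p hp Q
  obtain ⟨P⟩ : Nonempty (Sylow p G) := inferInstance
  haveI hPn : (P : Subgroup G).Normal := inferInstance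
  have hPmem : ∀ g : G, (∃ k, orderOf g = p ^ k) → g ∈ P := by
    rintro g ⟨k, hk⟩
    have hz : IsPGroup p (Subgroup.zpowers g) :=
      IsPGroup.of_card (n := k) (by rw [Nat.card_zpowers, hk])
    obtain ⟨P', hP'⟩ := hz.exists_le_sylow
    haveI := Sylow.unique_of_normal P hPn
    have : P' = P := Subsingleton.elim _ _
    rw [← this]
    exact hP' (Subgroup.mem_zpowers g)
  have hA : ((Q : Subgroup H) : Set H) = {h : H | ∃ k, orderOf h = p ^ k} := by
    apply Set.eq_of_subset_of_ncard_le _ _ (Set.toFinite _)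
    · intro h hh
      obtain ⟨k, hk⟩ := (IsPGroup.iff_orderOf.1 Q.2) ⟨h, hh⟩
      exact ⟨k, by rw [← hk, Subgroup.orderOf_mk]⟩
    · calc ({h : H | ∃ k, orderOf h = p ^ k} : Set H).ncard
          = (φ.symm '' {h : H | ∃ k, orderOf h = p ^ k}).ncard :=
            (Set.ncard_image_of_injective _ φ.symm.injective).symm
        _ ≤ ((P : Subgroup G) : Set G).ncard := by
            apply Set.ncard_le_ncard _ (Set.toFinite _)
            rintro _ ⟨h, ⟨k, hk⟩, rfl⟩
            exact hPmem _ ⟨k, by rw [← hk, ← hφ, Equiv.apply_symm_apply]⟩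
        _ = Nat.card (P : Subgroup G) := rfl
        _ = Nat.card (Q : Subgroup H) := by
            rw [P.card_eq_multiplicity, Q.card_eq_multiplicity, hcard]
        _ = ((Q : Subgroup H) : Set H).ncard := rfl
  constructor
  intro h hh x
  have h1 : h ∈ ((Q : Subgroup H) : Set H) := hh
  rw [hA] at h1
  obtain ⟨k, hk⟩ := h1
  have h2 : x * h * x⁻¹ ∈ ((Q : Subgroup H) : Set H) := by
    rw [hA]
    refine ⟨k, ?_⟩
    rw [← hk]
    exact MulEquiv.orderOf_eq (MulAut.conj x) h
  exact h2

end Cfsg.Agent.S3997
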