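import Cfsg.Statements.S3998
import Cfsg.Agent.Lib_helper2_Super
import Cfsg.Agent.Lib_helper2_Solv

set_option autoImplicit false
open Cfsg

namespace Cfsg.Agent.S3998

open Cfsg.Agent.H2

/-- an order preserving bijection between groups of the same order type -/
theorem exists_equiv {G H : Type*} [Group G] [Finite G] [Group H] [Finite H]
    (hT : ∀ m : ℕ, Nat.card {g : G // orderOf g = m} = Nat.card {h : H // orderOf h = m}) :
    ∃ e : G ≃ H, ∀ g, orderOf (e g) = orderOf g := by
  have h1 : ∀ m : ℕ, Nonempty ({g : G // orderOf g = m} ≃ {h : H // orderOf h = m}) :=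
    fun m => Finite.card_eq.mp (hT m)
  have F : ∀ m : ℕ, {g : G // orderOf g = m} ≃ {h : H // orderOf h = m} := fun m => (h1 m).some
  refine ⟨(Equiv.sigmaFiberEquiv (orderOf : G → ℕ)).symm.trans
    ((Equiv.sigmaCongrRight F).trans (Equiv.sigmaFiberEquiv (orderOf : H → ℕ))), ?_⟩
  intro g
  exact (F (orderOf g) ⟨g, rfl⟩).2

theorem part_unique {n d d' c : ℕ} (hd : d ∣ n) (hd' : d' ∣ n)
    (h1 : ∀ q : ℕ, q.Prime → q ∣ d → c ≤ q) (h2' : ∀ q : ℕ, q.Prime → q ∣ n / d' → q < c) : d ∣ d' := by
  have hcop : Nat.Coprime d (n / d') :=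
    Nat.coprime_of_dvd (fun q hq ha hb => absurd (h1 q hq ha) (not_le.mpr (h2' q hq hb)))
  have : d ∣ d' * (n / d') := by rw [Nat.mul_div_cancel' hd']; exact hd
  exact hcop.dvd_of_dvd_mul_right this

theorem solvable_of_counts {H : Type*} [Group H] [Finite H]
    (hcount : ∀ c : ℕ, ∃ d : ℕ, d ∣ Nat.card H ∧ (∀ q : ℕ, q.Prime → q ∣ d → c ≤ q) ∧
      (∀ q : ℕ, q.Prime → q ∣ Nat.card H / d → q < c) ∧ eCount c H ≤ d) : Group.IsSolvable H := by
  classical
  have hpos : 0 < Nat.card H := Nat.card_pos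
  have step : ∀ c : ℕ, (∃ N : Subgroup H, N.Normal ∧ Group.IsSolvable ↥N ∧
      (∀ q : ℕ, q.Prime → q ∣ Nat.card ↥N → c + 1 ≤ q) ∧ (∀ q : ℕ, q.Prime → q ∣ N.index → q < c + 1)) →
      (∃ N : Subgroup H, N.Normal ∧ Group.IsSolvable ↥N ∧
      (∀ q : ℕ, q.Prime → q ∣ Nat.card ↥N → c ≤ q) ∧ (∀ q : ℕ, q.Prime → q ∣ N.index → q < c)) := by
    rintro c ⟨N, hNn, hNs, hN1, hN2⟩
    by_cases hc : c.Prime ∧ c ∣ N.index
    · obtain ⟨hcp, hcd⟩ := hc
      have : Fact c.Prime := ⟨hcp⟩
      obtain ⟨Q⟩ : Nonempty (Sylow c H) := inferInstance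
      set L : Subgroup H := N ⊔ (Q : Subgroup H) with hL
      have hL1 : ∀ q : ℕ, q.Prime → q ∣ Nat.card ↥L → c ≤ q := by
        intro q hq hqd
        have h1 : Nat.card ↥L ∣ Nat.card ↥(Q : Subgroup H) * Nat.card ↥N := by
          rw [hL, sup_comm]
          exact card_sup_dvd _ _
        rcases (Nat.Prime.dvd_mul hq).mp (hqd.trans h1) with h | h
        · rw [Sylow.card_eq_multiplicity Q] at h
          rw [(Nat.prime_dvd_prime_iff_eq hq hcp).mp (hq.dvd_of_dvd_pow h)]
        · have := hN1 q hq h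
          omega
      have hL2 : ∀ q : ℕ, q.Prime → q ∣ L.index → q < c := by
        intro q hq hqd
        have h1 := hN2 q hq (hqd.trans (Subgroup.index_dvd_of_le le_sup_left))
        have h2 : q ≠ c := by
          rintro rfl
          exact Q.not_dvd_index (hqd.trans (Subgroup.index_dvd_of_le le_sup_right))
        omega
      obtain ⟨d, hd1, hd2, hd3, hd4⟩ := hcount c
      have hLidx : Nat.card H / Nat.card ↥L = L.index := by
        rw [← L.card_mul_index, Nat.mul_div_cancel_left _ Nat.card_pos]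
      have hdL : d ∣ Nat.card ↥L :=
        part_unique hd1 (Subgroup.card_subgroup_dvd_card L) hd2 (by rw [hLidx]; exact hL2)
      have hle : eCount c H ≤ Nat.card ↥L := hd4.trans (Nat.le_of_dvd Nat.card_pos hdL)
      have hmemL : ∀ x : H, x ∈ L → IsPiElt {q : ℕ | c ≤ q} x := by
        intro x hx q hq hqd
        apply hL1 q hq
        have : orderOf (⟨x, hx⟩ : ↥L) ∣ Nat.card ↥L := orderOf_dvd_natCard _
        rw [← Subgroup.orderOf_coe] at this
        exact hqd.trans this
      have hbij : Function.Bijective (fun x : ↥L =>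
          (⟨x.1, hmemL x.1 x.2⟩ : {x : H // IsPiElt {q : ℕ | c ≤ q} x})) := by
        apply Function.Injective.bijective_of_nat_card_le
        · intro x y hxy
          exact Subtype.ext (congrArg (fun t : {x : H // IsPiElt {q : ℕ | c ≤ q} x} => t.1) hxy)
        · exact hle
      have hLmem : ∀ x : H, IsPiElt {q : ℕ | c ≤ q} x → x ∈ L := by
        intro x hx
        obtain ⟨y, hy⟩ := hbij.2 ⟨x, hx⟩
        have : (y : H) = x := congrArg (fun t : {x : H // IsPiElt {q : ℕ | c ≤ q} x} => t.1) hy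
        rw [← this]
        exact y.2
      refine ⟨L, ⟨fun x hx y => hLmem _ ((isPiElt_conj _ y x).mpr (hmemL x hx))⟩, ?_, hL1, hL2⟩
      exact isSolvable_sup_of_normal N Q hNs (isSolvable_of_isPGroup' Q.2)
    · refine ⟨N, hNn, hNs, fun q hq hqd => by have := hN1 q hq hqd; omega, ?_⟩
      intro q hq hqd
      have h1 := hN2 q hq hqd
      have h2 : q ≠ c := by
        rintro rfl
        exact hc ⟨hq, hqd⟩
      omega
  have all : ∀ j : ℕ, j ≤ Nat.card H + 1 → (∃ N : Subgroup H, N.Normal ∧ Group.IsSolvable ↥N ∧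
      (∀ q : ℕ, q.Prime → q ∣ Nat.card ↥N → Nat.card H + 1 - j ≤ q) ∧
      (∀ q : ℕ, q.Prime → q ∣ N.index → q < Nat.card H + 1 - j)) := by
    intro j
    induction j with
    | zero =>
      intro _
      refine ⟨⊥, inferInstance, inferInstance, ?_, ?_⟩
      · intro q hq hqd
        rw [Subgroup.card_bot] at hqd
        exact absurd (Nat.dvd_one.mp hqd) hq.one_lt.ne'
      · intro q hq hqd
        rw [Subgroup.index_bot] at hqd
        have := Nat.le_of_dvd hpos hqd
        omega
    | succ j ih =>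
      intro hj
      have h1 := ih (by omega)
      have e : Nat.card H + 1 - j = (Nat.card H + 1 - (j + 1)) + 1 := by omega
      rw [e] at h1
      exact step _ h1
  obtain ⟨N, hNn, hNs, -, hN2⟩ := all (Nat.card H + 1) le_rfl
  have hidx : N.index = 1 := by
    by_contra hne
    obtain ⟨q, hq, hqd⟩ := Nat.exists_prime_and_dvd hne
    have := hN2 q hq hqd
    omega
  rw [Subgroup.index_eq_one] at hidx
  subst hidx
  exact Group.isSolvable_of_surjective (f := (⊤ : Subgroup H).subtype) (fun x => ⟨⟨x, trivial⟩, rfl⟩)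

/-- Let G and H be finite groups with the same order type (for every m the same number of elements of order m). If G is supersolvable then H is solvable. -/
theorem result {G H : Type*} [Group G] [Finite G] [Group H] [Finite H] (hT : (∀ m : ℕ, Nat.card {g : G // orderOf g = m} = Nat.card {h : H // orderOf h = m})) (hG : Cfsg.IsSupersolvable G) :
    Group.IsSolvable H := by
  obtain ⟨e, he⟩ := exists_equiv hT
  have hcard : Nat.card G = Nat.card H := Nat.card_congr e
  apply solvable_of_counts
  intro c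
  obtain ⟨d, h1, h2, h3, h4⟩ := super_count c _ G rfl hG
  have hE : eCount c H = eCount c G := by
    unfold eCount
    apply Nat.card_congr
    refine (e.subtypeEquiv ?_).symm
    intro g
    unfold IsPiElt
    rw [he]
  rw [← hcard, hE]
  exact ⟨d, h1, h2, h3, h4⟩

end Cfsg.Agent.S3998
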