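import Cfsg.Statements.S4005
import Mathlib
import Cfsg.Agent.S0144
import Cfsg.Agent.Lib_helper1_Basic
import Cfsg.Agent.Lib_helper1_Cores

set_option autoImplicit false
open Cfsg

namespace Cfsg.Agent.S4005

open Cfsg.Agent in
theorem no6 {G : Type*} [Group G]
    (hord : ∀ g : G, orderOf g = 1 ∨ orderOf g = 2 ∨ orderOf g = 3)
    (s b : G) (hs : orderOf s = 2) (hb : orderOf b = 3) (hc : Commute s b) : False := by
  have := hc.orderOf_mul_eq_mul_orderOf_of_coprime (by rw [hs, hb]; norm_num)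
  rw [hs, hb] at this
  rcases hord (s * b) with h | h | h <;> omega

/-- if `s ∉ B` is an involution and `b ∈ B` (normal), then `s b` is an involution -/
theorem sq_mul {G : Type*} [Group G]
    (hord : ∀ g : G, orderOf g = 1 ∨ orderOf g = 2 ∨ orderOf g = 3)
    (B : Subgroup G) [hBn : B.Normal] (s : G) (hs : orderOf s = 2) (hsB : s ∉ B) (b : G) (hb : b ∈ B) :
    s * b * s⁻¹ = b⁻¹ := by
  have hs2 : s ^ 2 = 1 := by rw [← hs]; exact pow_orderOf_eq_one s
  have hsinv : s⁻¹ = s := by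
    rw [inv_eq_iff_mul_eq_one, ← sq]; exact hs2
  have key : (s * b) ^ 2 = 1 := by
    rcases hord (s * b) with h | h | h
    · exfalso
      rw [orderOf_eq_one_iff] at h
      have : s = b⁻¹ := eq_inv_of_mul_eq_one_left h
      exact hsB (this ▸ B.inv_mem hb)
    · rw [← h]; exact pow_orderOf_eq_one _
    · exfalso
      have h3 : (s * b) ^ 3 = 1 := by rw [← h]; exact pow_orderOf_eq_one _
      have hπb : (QuotientGroup.mk' B) b = 1 := (QuotientGroup.eq_one_iff b).mpr hb
      have e3 : (QuotientGroup.mk' B s) ^ 3 = 1 := by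
        have := congrArg (QuotientGroup.mk' B) h3
        rwa [map_pow, map_mul, hπb, mul_one, map_one] at this
      have e2 : (QuotientGroup.mk' B s) ^ 2 = 1 := by rw [← map_pow, hs2, map_one]
      have e1 : QuotientGroup.mk' B s = 1 := by
        calc QuotientGroup.mk' B s = (QuotientGroup.mk' B s) ^ 3 * ((QuotientGroup.mk' B s) ^ 2)⁻¹ := by
              group
          _ = 1 := by rw [e3, e2]; simp
      exact hsB ((QuotientGroup.eq_one_iff s).mp e1)
  rw [sq] at key
  rw [hsinv]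
  exact eq_inv_of_mul_eq_one_left (by rw [← key]; group)

theorem not_mem_of_order {G : Type*} [Group G] (p q : ℕ) (hp : p.Prime) (hq : q.Prime) (hpq : p ≠ q)
    (B : Subgroup G) (hBp : IsPGroup p B) (s : G) (hs : orderOf s = q) : s ∉ B := by
  intro hsB
  obtain ⟨k, hk⟩ := hBp ⟨s, hsB⟩
  have h1 : s ^ (p ^ k) = 1 := congrArg Subtype.val hk
  have h2 := orderOf_dvd_of_pow_eq_one h1
  rw [hs] at h2
  exact hpq ((Nat.prime_dvd_prime_iff_eq hq hp).mp (hq.dvd_of_dvd_pow h2)).symm

theorem case3 {G : Type*} [Group G] [Finite G]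
    (hord : ∀ g : G, orderOf g = 1 ∨ orderOf g = 2 ∨ orderOf g = 3)
    (t : G) (ht : orderOf t = 2) (hB : Cfsg.pCore 3 G ≠ ⊥) :
    ∃ N : Subgroup G, N.Normal ∧ Cfsg.IsElementaryAbelian 3 N ∧ N.index = 2 := by
  set B := Cfsg.pCore 3 G with hBdef
  haveI hBn : B.Normal := Cfsg.Agent.H1.pCore_normal 3
  have hBp : IsPGroup 3 B := Cfsg.Agent.H1.pCore_isPGroup 3
  have hB2 : ∀ s : G, orderOf s = 2 → s ∉ B := fun s hs =>
    not_mem_of_order 3 2 Nat.prime_three Nat.prime_two (by norm_num) B hBp s hs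
  have hB3 : ∀ b ∈ B, b ^ 3 = 1 := by
    intro b hb
    rcases hord b with h | h | h
    · rw [orderOf_eq_one_iff] at h; rw [h, one_pow]
    · exact absurd hb (hB2 b h)
    · rw [← h]; exact pow_orderOf_eq_one b
  have hinv : ∀ s : G, orderOf s = 2 → ∀ b ∈ B, s * b * s⁻¹ = b⁻¹ :=
    fun s hs b hb => sq_mul hord B s hs (hB2 s hs) b hb
  have hcomm : ∀ b ∈ B, ∀ c ∈ B, b * c = c * b := by
    intro b hb c hc
    have h1 := hinv t ht (b * c) (B.mul_mem hb hc)
    have h2 := hinv t ht b hb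
    have h3 := hinv t ht c hc
    have h4 : t * (b * c) * t⁻¹ = (t * b * t⁻¹) * (t * c * t⁻¹) := by group
    rw [h1, h2, h3] at h4
    have h5 : (b * c)⁻¹ = (c * b)⁻¹ := by rw [h4, mul_inv_rev]
    exact inv_injective h5
  obtain ⟨b₀, hb₀, hb₀1⟩ : ∃ b ∈ B, b ≠ 1 := by
    by_contra hno
    push Not at hno
    exact hB ((Subgroup.eq_bot_iff_forall _).mpr hno)
  have hC : Subgroup.centralizer (B : Set G) ≤ B := by
    apply Cfsg.Agent.H1.le_pCore 3 inferInstance
    intro c
    refine ⟨1, ?_⟩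
    rw [pow_one]
    apply Subtype.ext
    change (c : G) ^ 3 = 1
    rcases hord (c : G) with h | h | h
    · rw [orderOf_eq_one_iff] at h; rw [h, one_pow]
    · exfalso
      have h1 := hinv c h b₀ hb₀
      have h2 : (c : G) * b₀ * (c : G)⁻¹ = b₀ := by
        rw [← Subgroup.mem_centralizer_iff.mp c.2 b₀ hb₀, mul_inv_cancel_right]
      rw [h2] at h1
      apply hb₀1
      have h3 := hB3 b₀ hb₀
      have h4 : b₀ * b₀ = 1 := by
        nth_rewrite 1 [h1]
        exact inv_mul_cancel b₀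
      calc b₀ = b₀ ^ 3 * (b₀ * b₀)⁻¹ := by group
        _ = 1 := by rw [h3, h4]; simp
    · rw [← h]; exact pow_orderOf_eq_one _
  have h22 : ∀ s : G, orderOf s = 2 → s * t ∈ B := by
    intro s hs
    apply hC
    rw [Subgroup.mem_centralizer_iff]
    intro b hb
    have h1 := hinv t ht b hb
    have h2 := hinv s hs b⁻¹ (B.inv_mem hb)
    rw [inv_inv] at h2
    have : s * t * b = (s * (t * b * t⁻¹) * s⁻¹) * (s * t) := by group
    rw [this, h1, h2]
  refine ⟨B, hBn, ⟨⟨⟨fun x y => Subtype.ext (hcomm x x.2 y y.2)⟩⟩, hB3⟩, ?_⟩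
  rw [Subgroup.index_eq_two_iff]
  refine ⟨t, fun g => ?_⟩
  by_cases hg : g ∈ B
  · right
    refine ⟨hg, fun h => hB2 t ht ?_⟩
    have : t = g⁻¹ * (g * t) := by group
    rw [this]
    exact B.mul_mem (B.inv_mem hg) h
  · left
    refine ⟨?_, hg⟩
    rcases hord g with h | h | h
    · rw [orderOf_eq_one_iff] at h
      exact absurd (h ▸ B.one_mem) hg
    · exact h22 g h
    · exfalso
      have hs : orderOf (g * t * g⁻¹) = 2 := by
        rw [← ht, ← MulAut.conj_apply]
        exact MulEquiv.orderOf_eq (MulAut.conj g) t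
      have h1 := h22 _ hs
      set π := QuotientGroup.mk' B with hπ
      have e1 : π g * π t * (π g)⁻¹ * π t = 1 := by
        rw [← map_inv, ← map_mul, ← map_mul, ← map_mul]
        exact (QuotientGroup.eq_one_iff _).mpr h1
      have et2 : π t ^ 2 = 1 := by
        rw [← map_pow, ← ht, pow_orderOf_eq_one, map_one]
      have eg3 : π g ^ 3 = 1 := by
        rw [← map_pow, ← h, pow_orderOf_eq_one, map_one]
      have et1 : π t ≠ 1 := fun h0 => hB2 t ht ((QuotientGroup.eq_one_iff t).mp h0)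
      have eg1 : π g ≠ 1 := fun h0 => hg ((QuotientGroup.eq_one_iff g).mp h0)
      haveI : Fact (Nat.Prime 2) := ⟨Nat.prime_two⟩
      haveI : Fact (Nat.Prime 3) := ⟨Nat.prime_three⟩
      have ot : orderOf (π t) = 2 := orderOf_eq_prime et2 et1
      have og : orderOf (π g) = 3 := orderOf_eq_prime eg3 eg1
      have hcm : Commute (π t) (π g) := by
        have : π g * π t = π t * π g := by
          calc π g * π t = (π g * π t * (π g)⁻¹ * π t) * ((π t)⁻¹ * π g) := by group
            _ = (π t)⁻¹ * π g := by rw [e1, one_mul]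
            _ = ((π t) ^ 2)⁻¹ * π t * π g := by group
            _ = π t * π g := by rw [et2]; simp
        exact this.symm
      have h6 := hcm.orderOf_mul_eq_mul_orderOf_of_coprime (by rw [ot, og]; norm_num)
      rw [ot, og, ← map_mul] at h6
      have h7 := orderOf_map_dvd π (t * g)
      rw [h6] at h7
      rcases hord (t * g) with h' | h' | h' <;> rw [h'] at h7 <;> omega

theorem case2 {G : Type*} [Group G] [Finite G]
    (hord : ∀ g : G, orderOf g = 1 ∨ orderOf g = 2 ∨ orderOf g = 3)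
    (y : G) (hy : orderOf y = 3) (hA : Cfsg.pCore 2 G ≠ ⊥) :
    ∃ N : Subgroup G, N.Normal ∧ Cfsg.IsElementaryAbelian 2 N ∧ N.index = 3 := by
  set A := Cfsg.pCore 2 G with hAdef
  haveI hAn : A.Normal := Cfsg.Agent.H1.pCore_normal 2
  have hAp : IsPGroup 2 A := Cfsg.Agent.H1.pCore_isPGroup 2
  haveI : Fact (Nat.Prime 2) := ⟨Nat.prime_two⟩
  haveI : Fact (Nat.Prime 3) := ⟨Nat.prime_three⟩
  have hA3 : ∀ s : G, orderOf s = 3 → s ∉ A := fun s hs =>
    not_mem_of_order 2 3 Nat.prime_two Nat.prime_three (by norm_num) A hAp s hs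
  have hA2 : ∀ b ∈ A, b ^ 2 = 1 := by
    intro b hb
    rcases hord b with h | h | h
    · rw [orderOf_eq_one_iff] at h; rw [h, one_pow]
    · rw [← h]; exact pow_orderOf_eq_one b
    · exact absurd hb (hA3 b h)
  have hAinv : ∀ b ∈ A, b⁻¹ = b := by
    intro b hb
    rw [inv_eq_iff_mul_eq_one, ← sq]; exact hA2 b hb
  have hcomm : ∀ b ∈ A, ∀ c ∈ A, b * c = c * b := by
    intro b hb c hc
    have h1 := hAinv (b * c) (A.mul_mem hb hc)
    rw [mul_inv_rev, hAinv b hb, hAinv c hc] at h1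
    exact h1.symm
  obtain ⟨a₀, ha₀, ha₀1⟩ : ∃ b ∈ A, b ≠ 1 := by
    by_contra hno
    push Not at hno
    exact hA ((Subgroup.eq_bot_iff_forall _).mpr hno)
  have hC : Subgroup.centralizer (A : Set G) ≤ A := by
    apply Cfsg.Agent.H1.le_pCore 2 inferInstance
    intro c
    refine ⟨1, ?_⟩
    rw [pow_one]
    apply Subtype.ext
    change (c : G) ^ 2 = 1
    rcases hord (c : G) with h | h | h
    · rw [orderOf_eq_one_iff] at h; rw [h, one_pow]
    · rw [← h]; exact pow_orderOf_eq_one _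
    · exfalso
      exact no6 hord a₀ c (orderOf_eq_prime (hA2 a₀ ha₀) ha₀1) h
        (Subgroup.mem_centralizer_iff.mp c.2 a₀ ha₀)
  have hinvol : ∀ s : G, orderOf s = 2 → s ∈ A := by
    intro s hs
    by_contra hsA
    apply hsA
    apply hC
    rw [Subgroup.mem_centralizer_iff]
    intro b hb
    have h1 := sq_mul hord A s hs hsA b hb
    rw [hAinv b hb] at h1
    calc b * s = (s * b * s⁻¹) * s := by rw [h1]
      _ = s * b := by group
  have hconj : ∀ (u : G), ∀ a ∈ A, u * a * u⁻¹ ∈ A := fun u a ha => hAn.conj_mem a ha u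
  have hN : ∀ u : G, orderOf u = 3 → ∀ a ∈ A, u ^ 2 * a * (u ^ 2)⁻¹ = a * (u * a * u⁻¹) := by
    intro u hu a ha
    have hu3 : u ^ 3 = 1 := by rw [← hu]; exact pow_orderOf_eq_one u
    obtain ⟨Q, hQ⟩ : ∃ Q, Q = u * a * u⁻¹ := ⟨_, rfl⟩
    obtain ⟨R, hR⟩ : ∃ R, R = u ^ 2 * a * (u ^ 2)⁻¹ := ⟨_, rfl⟩
    rw [← hQ, ← hR]
    have hQA : Q ∈ A := hQ ▸ hconj u a ha
    have hRA : R ∈ A := hR ▸ hconj _ a ha
    have hNA : a * Q * R ∈ A := A.mul_mem (A.mul_mem ha hQA) hRA
    have hcm : Commute (a * Q * R) u := by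
      have h1 : u * (a * Q * R) * u⁻¹ = Q * R * (u ^ 3 * a * (u ^ 3)⁻¹) := by
        rw [hQ, hR]; group
      rw [hu3] at h1
      have h2 : u * (a * Q * R) * u⁻¹ = a * Q * R := by
        rw [h1, one_mul, inv_one, mul_one, hcomm _ (A.mul_mem hQA hRA) a ha, mul_assoc]
      have h3 : u * (a * Q * R) = (a * Q * R) * u := by
        calc u * (a * Q * R) = (u * (a * Q * R) * u⁻¹) * u := by group
          _ = _ := by rw [h2]
      exact h3.symm
    have h1 : a * Q * R = 1 := by
      by_contra hne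
      exact no6 hord _ u (orderOf_eq_prime (hA2 _ hNA) hne) hu hcm
    have h2 : R = (a * Q)⁻¹ := eq_inv_of_mul_eq_one_right h1
    rw [h2, hAinv _ (A.mul_mem ha hQA)]
  have key : ∀ x z : G, orderOf x = 3 → orderOf z = 3 → Commute x z → x = z ∨ x * z = 1 := by
    intro x z hx hz hxz
    by_cases h1 : x * z = 1
    · right; exact h1
    left
    have hx3 : x ^ 3 = 1 := by rw [← hx]; exact pow_orderOf_eq_one x
    have hz3 : z ^ 3 = 1 := by rw [← hz]; exact pow_orderOf_eq_one z
    have hxz3 : orderOf (x * z) = 3 := by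
      apply orderOf_eq_prime _ h1
      rw [hxz.mul_pow, hx3, hz3, one_mul]
    have hcen : z⁻¹ * x ∈ A := by
      apply hC
      rw [Subgroup.mem_centralizer_iff]
      intro a ha
      have e1 := hN (x * z) hxz3 a ha
      obtain ⟨R, hR⟩ : ∃ R, R = z * a * z⁻¹ := ⟨_, rfl⟩
      obtain ⟨Q, hQ⟩ : ∃ Q, Q = x * a * x⁻¹ := ⟨_, rfl⟩
      have hRA : R ∈ A := hR ▸ hconj z a ha
      have e2 : (x * z) ^ 2 * a * ((x * z) ^ 2)⁻¹ = x ^ 2 * (z ^ 2 * a * (z ^ 2)⁻¹) * (x ^ 2)⁻¹ := by
        rw [hxz.mul_pow]; group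
      have e3 : x * z * a * (x * z)⁻¹ = x * R * x⁻¹ := by rw [hR]; group
      rw [e2, e3, hN z hz a ha, ← hR] at e1
      have e4 : x ^ 2 * (a * R) * (x ^ 2)⁻¹ = (x ^ 2 * a * (x ^ 2)⁻¹) * (x ^ 2 * R * (x ^ 2)⁻¹) := by
        group
      rw [e4, hN x hx a ha, hN x hx R hRA, ← hQ] at e1
      have e5 : Q * R = 1 := by
        have : (Q * R) * (x * R * x⁻¹) = 1 * (x * R * x⁻¹) := by
          apply mul_left_cancel (a := a)
          rw [one_mul, ← e1]
          simp only [mul_assoc]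
        exact mul_right_cancel this
      have e6 : Q = R := by
        rw [← hAinv R hRA]
        exact eq_inv_of_mul_eq_one_left e5
      rw [hQ, hR] at e6
      calc a * (z⁻¹ * x) = z⁻¹ * (z * a * z⁻¹) * x := by group
        _ = z⁻¹ * (x * a * x⁻¹) * x := by rw [e6]
        _ = z⁻¹ * x * a := by group
    have h2 := hA2 _ hcen
    have h3 : (z⁻¹ * x) ^ 3 = 1 := by
      rw [(hxz.symm.inv_left).mul_pow, hx3, inv_pow, hz3]; simp
    have h4 : z⁻¹ * x = 1 := by
      calc z⁻¹ * x = (z⁻¹ * x) ^ 3 * ((z⁻¹ * x) ^ 2)⁻¹ := by group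
        _ = 1 := by rw [h2, h3]; simp
    exact (inv_mul_eq_one.mp h4).symm
  -- a Sylow 3-subgroup has order 3
  obtain ⟨T⟩ : Nonempty (Sylow 3 G) := inferInstance
  have h3G : 3 ∣ Nat.card G := hy ▸ orderOf_dvd_natCard y
  have hT1 : (T : Subgroup G) ≠ ⊥ := T.ne_bot_of_dvd_card h3G
  haveI : Nontrivial (T : Subgroup G) := (Subgroup.nontrivial_iff_ne_bot _).mpr hT1
  have hTord : ∀ x ∈ (T : Subgroup G), x ≠ 1 → orderOf x = 3 := by
    intro x hx hx1
    rcases hord x with h | h | h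
    · exact absurd (orderOf_eq_one_iff.mp h) hx1
    · exact absurd hx (not_mem_of_order 3 2 Nat.prime_three Nat.prime_two (by norm_num) _ T.2 x h)
    · exact h
  haveI hcn : Nontrivial (Subgroup.center (T : Subgroup G)) := T.2.center_nontrivial
  obtain ⟨z, hz1⟩ := exists_ne (1 : Subgroup.center (T : Subgroup G))
  have hzG1 : ((z : (T : Subgroup G)) : G) ≠ 1 := by
    intro h
    apply hz1
    apply Subtype.ext
    apply Subtype.ext
    exact h
  have hz3 := hTord _ (z : (T : Subgroup G)).2 hzG1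
  have hTz : (T : Subgroup G) = Subgroup.zpowers ((z : (T : Subgroup G)) : G) := by
    apply le_antisymm
    · intro x hx
      by_cases hx1 : x = 1
      · rw [hx1]; exact Subgroup.one_mem _
      have hcm : Commute x ((z : (T : Subgroup G)) : G) := by
        have := Subgroup.mem_center_iff.mp z.2 ⟨x, hx⟩
        exact congrArg Subtype.val this
      rcases key x _ (hTord x hx hx1) hz3 hcm with h | h
      · rw [h]; exact Subgroup.mem_zpowers _
      · rw [eq_inv_of_mul_eq_one_left h]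
        exact Subgroup.inv_mem _ (Subgroup.mem_zpowers _)
    · rw [Subgroup.zpowers_le]
      exact (z : (T : Subgroup G)).2
  have hTcard : Nat.card (T : Subgroup G) = 3 := by
    rw [hTz, Nat.card_zpowers, hz3]
  have hQp : IsPGroup 3 (G ⧸ A) := by
    intro q
    obtain ⟨g, rfl⟩ := QuotientGroup.mk'_surjective A q
    refine ⟨1, ?_⟩
    rw [pow_one, ← map_pow]
    rcases hord g with h | h | h
    · rw [orderOf_eq_one_iff] at h; rw [h, one_pow, map_one]
    · exact (QuotientGroup.eq_one_iff _).mpr (A.pow_mem (hinvol g h) 3)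
    · rw [← h, pow_orderOf_eq_one, map_one]
  obtain ⟨k, hk⟩ := IsPGroup.iff_card.mp hQp
  obtain ⟨j, hj⟩ := IsPGroup.iff_card.mp hAp
  have hidx : A.index = 3 ^ k := by rw [Subgroup.index_eq_card]; exact hk
  have e1 := A.card_mul_index
  have e2 := (T : Subgroup G).card_mul_index
  have hcop := T.card_coprime_index
  rw [hTcard] at e2 hcop
  rw [hj, hidx] at e1
  refine ⟨A, hAn, ⟨⟨⟨fun x y => Subtype.ext (hcomm x x.2 y y.2)⟩⟩, hA2⟩, ?_⟩
  rw [hidx]
  have hk0 : k ≠ 0 := by
    intro h0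
    rw [h0, pow_zero, mul_one] at e1
    rw [← e1] at h3G
    have := Nat.prime_three.dvd_of_dvd_pow h3G
    omega
  obtain ⟨k', rfl⟩ := Nat.exists_eq_succ_of_ne_zero hk0
  have hk' : k' = 0 := by
    by_contra hne
    obtain ⟨k'', rfl⟩ := Nat.exists_eq_succ_of_ne_zero hne
    have : (T : Subgroup G).index = 2 ^ j * 3 ^ k'' * 3 := by
      have : 3 * (T : Subgroup G).index = 3 * (2 ^ j * 3 ^ k'' * 3) := by
        rw [e2, ← e1, Nat.succ_eq_add_one]; ring
      exact Nat.eq_of_mul_eq_mul_left (by norm_num) this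
    rw [this] at hcop
    have h3 : 3 ∣ Nat.gcd 3 (2 ^ j * 3 ^ k'' * 3) := Nat.dvd_gcd (dvd_refl 3) (Dvd.intro_left _ rfl)
    rw [Nat.Coprime] at hcop
    rw [hcop] at h3
    omega
  rw [hk']
  norm_num

/-- A finite group whose set of element orders is exactly {1, 2, 3} has either a normal elementary abelian 3-subgroup of index 2 or a normal elementary abelian 2-subgroup of index 3. -/
theorem result {G : Type*} [Group G] [Finite G] (h : Set.range (orderOf : G → ℕ) = {k : ℕ | 1 ≤ k ∧ k ≤ 3}) :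
    (∃ N : Subgroup G, N.Normal ∧ Cfsg.IsElementaryAbelian 3 N ∧ N.index = 2) ∨
      (∃ N : Subgroup G, N.Normal ∧ Cfsg.IsElementaryAbelian 2 N ∧ N.index = 3) := by
  classical
  have hord : ∀ g : G, orderOf g = 1 ∨ orderOf g = 2 ∨ orderOf g = 3 := by
    intro g
    have : orderOf g ∈ Set.range (orderOf : G → ℕ) := ⟨g, rfl⟩
    rw [h] at this
    obtain ⟨h1, h2⟩ := this
    omega
  obtain ⟨t, ht⟩ : (2 : ℕ) ∈ Set.range (orderOf : G → ℕ) := by rw [h]; exact ⟨by norm_num, by norm_num⟩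
  obtain ⟨y, hy⟩ : (3 : ℕ) ∈ Set.range (orderOf : G → ℕ) := by rw [h]; exact ⟨by norm_num, by norm_num⟩
  have hprimes : ∀ q : ℕ, q.Prime → q ∣ Nat.card G → q = 2 ∨ q = 3 := by
    intro q hq hdvd
    haveI := Fact.mk hq
    obtain ⟨x, hx⟩ := exists_prime_orderOf_dvd_card' (G := G) q hdvd
    rcases hord x with h' | h' | h'
    · rw [hx] at h'; exact absurd h' hq.one_lt.ne'
    · left; rw [← hx, h']
    · right; rw [← hx, h']
  have hcard : Nat.card G = 2 ^ (Nat.card G).factorization 2 * 3 ^ (Nat.card G).factorization 3 := by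
    have hn : Nat.card G ≠ 0 := Nat.card_pos.ne'
    conv_lhs => rw [← Nat.prod_factorization_pow_eq_self hn]
    rw [Finsupp.prod, Nat.support_factorization]
    have hsub : (Nat.card G).primeFactors ⊆ ({2, 3} : Finset ℕ) := by
      intro q hq
      rw [Nat.mem_primeFactors] at hq
      rcases hprimes q hq.1 hq.2.1 with h' | h' <;> simp [h']
    rw [Finset.prod_subset hsub, Finset.prod_pair (by norm_num)]
    intro q _ hq
    rw [← Nat.support_factorization, Finsupp.notMem_support_iff] at hq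
    rw [hq, pow_zero]
  haveI hsolv : Group.IsSolvable G :=
    Cfsg.Agent.S0144.result 2 3 _ _ Nat.prime_two Nat.prime_three hcard
  haveI : Nontrivial G := ⟨⟨t, 1, fun h0 => by rw [h0, orderOf_one] at ht; omega⟩⟩
  obtain ⟨p, hp, P, hPc, hPp, hP1, -⟩ := Cfsg.Agent.H1.exists_normal_pgroup_of_solvable G
  obtain ⟨x, hx, hx1⟩ : ∃ b ∈ P, b ≠ 1 := by
    by_contra hno
    push Not at hno
    exact hP1 ((Subgroup.eq_bot_iff_forall _).mpr hno)
  have hPn : P.Normal := inferInstance
  have hle : P ≤ Cfsg.pCore p G := Cfsg.Agent.H1.le_pCore p hPn hPp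
  have hcore : Cfsg.pCore p G ≠ ⊥ := by
    intro h0
    rw [h0] at hle
    exact hP1 (le_bot_iff.mp hle)
  have hp23 : p = 2 ∨ p = 3 := by
    apply hprimes p hp
    haveI := Fact.mk hp
    obtain ⟨k, hk⟩ := IsPGroup.iff_card.mp hPp
    have hk0 : k ≠ 0 := by
      intro h0
      rw [h0, pow_zero] at hk
      exact hP1 (Subgroup.card_eq_one.mp hk)
    have : p ∣ Nat.card P := by rw [hk]; exact dvd_pow_self p hk0
    exact this.trans (Subgroup.card_subgroup_dvd_card P)
  rcases hp23 with rfl | rfl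
  · right
    exact case2 hord y hy hcore
  · left
    exact case3 hord t ht hcore

end Cfsg.Agent.S4005
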