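import Cfsg.Statements.S4200
import Mathlib

set_option autoImplicit false
open Cfsg

namespace Cfsg.Agent.S4200

/-- Let Y be a subgroup of the finite group X, of index m. Then the numbers of conjugacy classes satisfy k(Y) ≤ m·k(X) and k(X) ≤ m·k(Y), and the second inequality is strict unless Y is normal in X. -/
theorem result {X : Type*} [Group X] [Finite X] (Y : Subgroup X) : Nat.card (ConjClasses Y) ≤ Y.index * Nat.card (ConjClasses X) ∧ Nat.card (ConjClasses X) ≤ Y.index * Nat.card (ConjClasses Y) ∧ (¬ Y.Normal → Nat.card (ConjClasses X) < Y.index * Nat.card (ConjClasses Y)) := by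
  classical
  have hX := card_comm_eq_card_conjClasses_mul_card X
  have hY := card_comm_eq_card_conjClasses_mul_card Y
  have hidx : Y.index * Nat.card Y = Nat.card X := Y.index_mul_card
  have hYpos : 0 < Nat.card Y := Nat.card_pos
  have hXpos : 0 < Nat.card X := Nat.card_pos
  have hch1 : ∀ (x : X) (q : X ⧸ Y), ∃ y0 : X, (∃ y : X, (y : X ⧸ Y) = q ∧ x * y = y * x) →
      ((y0 : X ⧸ Y) = q ∧ x * y0 = y0 * x) := by
    intro x q
    by_cases h : ∃ y : X, (y : X ⧸ Y) = q ∧ x * y = y * x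
    · obtain ⟨y, hy⟩ := h; exact ⟨y, fun _ => hy⟩
    · exact ⟨1, fun h' => absurd h' h⟩
  choose Y0 hY0 using hch1
  have hch2 : ∀ (q : X ⧸ Y) (n : X), ∃ x0 : X, (∃ x : X, (x : X ⧸ Y) = q ∧ x * n = n * x) →
      ((x0 : X ⧸ Y) = q ∧ x0 * n = n * x0) := by
    intro q n
    by_cases h : ∃ x : X, (x : X ⧸ Y) = q ∧ x * n = n * x
    · obtain ⟨x, hx⟩ := h; exact ⟨x, fun _ => hx⟩
    · exact ⟨1, fun h' => absurd h' h⟩
  choose X0 hX0 using hch2
  let nn : X → X → X := fun x y => (Y0 x (y : X ⧸ Y))⁻¹ * y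
  let mm : X → X → X := fun x y => (X0 (x : X ⧸ Y) (nn x y))⁻¹ * x
  have h1 : ∀ x y : X, x * y = y * x → nn x y ∈ Y ∧ x * nn x y = nn x y * x := by
    intro x y hxy
    obtain ⟨e1, e2⟩ := hY0 x (y : X ⧸ Y) ⟨y, rfl, hxy⟩
    refine ⟨QuotientGroup.eq.mp e1, ?_⟩
    have c1 : Commute x (Y0 x (y : X ⧸ Y)) := e2
    have c2 : Commute x y := hxy
    exact (c1.inv_right.mul_right c2)
  have h2 : ∀ x y : X, x * y = y * x → mm x y ∈ Y ∧ mm x y * nn x y = nn x y * mm x y := by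
    intro x y hxy
    obtain ⟨-, e0⟩ := h1 x y hxy
    obtain ⟨e1, e2⟩ := hX0 (x : X ⧸ Y) (nn x y) ⟨x, rfl, e0⟩
    refine ⟨QuotientGroup.eq.mp e1, ?_⟩
    have c1 : Commute (X0 (x : X ⧸ Y) (nn x y)) (nn x y) := e2
    have c2 : Commute x (nn x y) := e0
    exact (c1.inv_left.mul_left c2)
  let F : {p : X × X // Commute p.1 p.2} →
      ((X ⧸ Y) × (X ⧸ Y)) × {p : Y × Y // Commute p.1 p.2} :=
    fun p => (((p.1.1 : X ⧸ Y), (p.1.2 : X ⧸ Y)),
      ⟨(⟨mm p.1.1 p.1.2, (h2 _ _ p.2).1⟩, ⟨nn p.1.1 p.1.2, (h1 _ _ p.2).1⟩),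
        Subtype.ext (h2 _ _ p.2).2⟩)
  have hF : Function.Injective F := by
    rintro ⟨⟨x, y⟩, hxy⟩ ⟨⟨x', y'⟩, hxy'⟩ h
    have e1 : (x : X ⧸ Y) = (x' : X ⧸ Y) := congrArg (fun z => z.1.1) h
    have e2 : (y : X ⧸ Y) = (y' : X ⧸ Y) := congrArg (fun z => z.1.2) h
    have e3 : mm x y = mm x' y' := congrArg (fun z => (z.2.1.1 : X)) h
    have e4 : nn x y = nn x' y' := congrArg (fun z => (z.2.1.2 : X)) h
    have e5 : x = x' := by
      have : (X0 (x : X ⧸ Y) (nn x y))⁻¹ * x = (X0 (x' : X ⧸ Y) (nn x' y'))⁻¹ * x' := e3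
      rw [e1, e4] at this
      exact mul_left_cancel this
    subst e5
    have e6 : y = y' := by
      have : (Y0 x (y : X ⧸ Y))⁻¹ * y = (Y0 x (y' : X ⧸ Y))⁻¹ * y' := e4
      rw [e2] at this
      exact mul_left_cancel this
    subst e6
    rfl
  have hcardT : Nat.card (((X ⧸ Y) × (X ⧸ Y)) × {p : Y × Y // Commute p.1 p.2}) =
      (Y.index * Nat.card (ConjClasses Y)) * Nat.card X := by
    rw [Nat.card_prod, Nat.card_prod, hY, ← hidx]
    show Y.index * Y.index * _ = _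
    ring
  refine ⟨?_, ?_, ?_⟩
  · let E : {p : Y × Y // Commute p.1 p.2} → {p : X × X // Commute p.1 p.2} :=
      fun p => ⟨((p.1.1 : X), (p.1.2 : X)), congrArg Subtype.val (show p.1.1 * p.1.2 = p.1.2 * p.1.1 from p.2)⟩
    have hE : Function.Injective E := by
      rintro ⟨⟨a, b⟩, hab⟩ ⟨⟨a', b'⟩, hab'⟩ h
      have e1 : (a : X) = a' := congrArg (fun z => z.1.1) h
      have e2 : (b : X) = b' := congrArg (fun z => z.1.2) h
      have e1' : a = a' := Subtype.ext e1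
      have e2' : b = b' := Subtype.ext e2
      subst e1'; subst e2'; rfl
    have hle := Nat.card_le_card_of_injective E hE
    rw [hX, hY, ← hidx] at hle
    apply Nat.le_of_mul_le_mul_right _ hYpos
    calc _ ≤ _ := hle
      _ = _ := by ring
  · have hle := Nat.card_le_card_of_injective F hF
    rw [hcardT, hX] at hle
    exact Nat.le_of_mul_le_mul_right hle hXpos
  · intro hn
    have hex : ∃ y ∈ Y, ∃ g : X, g * y * g⁻¹ ∉ Y := by
      by_contra hcon
      push Not at hcon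
      exact hn ⟨fun y hy g => hcon y hy g⟩
    obtain ⟨y, hy, g, hg⟩ := hex
    obtain ⟨e1, -⟩ := hX0 ((1 : X) : X ⧸ Y) 1 ⟨1, rfl, rfl⟩
    have hx0 : X0 ((1 : X) : X ⧸ Y) 1 ∈ Y := by
      have := QuotientGroup.eq.mp e1
      rw [mul_one] at this
      exact (Y.inv_mem_iff).mp this
    have hw : (X0 ((1 : X) : X ⧸ Y) 1)⁻¹ * y ∈ Y := Y.mul_mem (Y.inv_mem hx0) hy
    have hnot : ((((1 : X) : X ⧸ Y), ((g⁻¹ : X) : X ⧸ Y)),
        (⟨(⟨_, hw⟩, 1), Commute.one_right _⟩ : {p : Y × Y // Commute p.1 p.2})) ∉ Set.range F := by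
      rintro ⟨⟨⟨x, c⟩, hxc⟩, h⟩
      have e1 : (x : X ⧸ Y) = ((1 : X) : X ⧸ Y) := congrArg (fun z => z.1.1) h
      have e2 : (c : X ⧸ Y) = ((g⁻¹ : X) : X ⧸ Y) := congrArg (fun z => z.1.2) h
      have e3 : mm x c = (X0 ((1 : X) : X ⧸ Y) 1)⁻¹ * y := congrArg (fun z => (z.2.1.1 : X)) h
      have e4 : nn x c = 1 := congrArg (fun z => (z.2.1.2 : X)) h
      have e5 : x = y := by
        have : (X0 (x : X ⧸ Y) (nn x c))⁻¹ * x = (X0 ((1 : X) : X ⧸ Y) 1)⁻¹ * y := e3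
        rw [e1, e4] at this
        exact mul_left_cancel this
      subst e5
      have e6 : g * c ∈ Y := by
        have := QuotientGroup.eq.mp e2.symm
        rwa [inv_inv] at this
      apply hg
      have hxc' : x * c = c * x := hxc
      have : g * x * g⁻¹ = (g * c) * x * (g * c)⁻¹ := by
        calc g * x * g⁻¹ = g * (x * c) * c⁻¹ * g⁻¹ := by group
          _ = g * (c * x) * c⁻¹ * g⁻¹ := by rw [hxc']
          _ = _ := by group
      rw [this]
      exact Y.mul_mem (Y.mul_mem e6 hy) (Y.inv_mem e6)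
    haveI := Fintype.ofFinite {p : X × X // Commute p.1 p.2}
    haveI := Fintype.ofFinite (((X ⧸ Y) × (X ⧸ Y)) × {p : Y × Y // Commute p.1 p.2})
    have hlt := Fintype.card_lt_of_injective_of_notMem F hF hnot
    rw [← Nat.card_eq_fintype_card, ← Nat.card_eq_fintype_card, hcardT, hX] at hlt
    exact Nat.lt_of_mul_lt_mul_right hlt

end Cfsg.Agent.S4200
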