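import Cfsg.Statements.S4201
import Mathlib

set_option autoImplicit false
open Cfsg

namespace Cfsg.Agent.S4201

/-- If N is a normal subgroup of the finite group X then k(X) ≤ k(N)·k(X ⧸ N), where k denotes the number of conjugacy classes. -/
theorem result {X : Type*} [Group X] [Finite X] (N : Subgroup X) [N.Normal] : Nat.card (ConjClasses X) ≤ Nat.card (ConjClasses N) * Nat.card (ConjClasses (X ⧸ N)) := by
  classical
  have hX := card_comm_eq_card_conjClasses_mul_card X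
  have hN := card_comm_eq_card_conjClasses_mul_card N
  have hQ := card_comm_eq_card_conjClasses_mul_card (X ⧸ N)
  have hch1 : ∀ (x : X) (q : X ⧸ N), ∃ y0 : X, (∃ y : X, (y : X ⧸ N) = q ∧ x * y = y * x) →
      ((y0 : X ⧸ N) = q ∧ x * y0 = y0 * x) := by
    intro x q
    by_cases h : ∃ y : X, (y : X ⧸ N) = q ∧ x * y = y * x
    · obtain ⟨y, hy⟩ := h; exact ⟨y, fun _ => hy⟩
    · exact ⟨1, fun h' => absurd h' h⟩
  choose Y0 hY0 using hch1
  have hch2 : ∀ (q : X ⧸ N) (n : X), ∃ x0 : X, (∃ x : X, (x : X ⧸ N) = q ∧ x * n = n * x) →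
      ((x0 : X ⧸ N) = q ∧ x0 * n = n * x0) := by
    intro q n
    by_cases h : ∃ x : X, (x : X ⧸ N) = q ∧ x * n = n * x
    · obtain ⟨x, hx⟩ := h; exact ⟨x, fun _ => hx⟩
    · exact ⟨1, fun h' => absurd h' h⟩
  choose X0 hX0 using hch2
  let nn : X → X → X := fun x y => (Y0 x (y : X ⧸ N))⁻¹ * y
  let mm : X → X → X := fun x y => (X0 (x : X ⧸ N) (nn x y))⁻¹ * x
  have h1 : ∀ x y : X, x * y = y * x → nn x y ∈ N ∧ x * nn x y = nn x y * x := by
    intro x y hxy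
    obtain ⟨e1, e2⟩ := hY0 x (y : X ⧸ N) ⟨y, rfl, hxy⟩
    refine ⟨QuotientGroup.eq.mp e1, ?_⟩
    have c1 : Commute x (Y0 x (y : X ⧸ N)) := e2
    have c2 : Commute x y := hxy
    exact (c1.inv_right.mul_right c2)
  have h2 : ∀ x y : X, x * y = y * x → mm x y ∈ N ∧ mm x y * nn x y = nn x y * mm x y := by
    intro x y hxy
    obtain ⟨-, e0⟩ := h1 x y hxy
    obtain ⟨e1, e2⟩ := hX0 (x : X ⧸ N) (nn x y) ⟨x, rfl, e0⟩
    refine ⟨QuotientGroup.eq.mp e1, ?_⟩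
    have c1 : Commute (X0 (x : X ⧸ N) (nn x y)) (nn x y) := e2
    have c2 : Commute x (nn x y) := e0
    exact (c1.inv_left.mul_left c2)
  let F : {p : X × X // Commute p.1 p.2} →
      {p : (X ⧸ N) × (X ⧸ N) // Commute p.1 p.2} × {p : N × N // Commute p.1 p.2} :=
    fun p => (⟨((p.1.1 : X ⧸ N), (p.1.2 : X ⧸ N)), by
        show (p.1.1 : X ⧸ N) * (p.1.2 : X ⧸ N) = (p.1.2 : X ⧸ N) * (p.1.1 : X ⧸ N)
        rw [← QuotientGroup.mk_mul, ← QuotientGroup.mk_mul, (show p.1.1 * p.1.2 = p.1.2 * p.1.1 from p.2)]⟩,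
      ⟨(⟨mm p.1.1 p.1.2, (h2 _ _ p.2).1⟩, ⟨nn p.1.1 p.1.2, (h1 _ _ p.2).1⟩),
        Subtype.ext (h2 _ _ p.2).2⟩)
  have hF : Function.Injective F := by
    rintro ⟨⟨x, y⟩, hxy⟩ ⟨⟨x', y'⟩, hxy'⟩ h
    have e1 : (x : X ⧸ N) = (x' : X ⧸ N) := congrArg (fun z => z.1.1.1) h
    have e2 : (y : X ⧸ N) = (y' : X ⧸ N) := congrArg (fun z => z.1.1.2) h
    have e3 : mm x y = mm x' y' := congrArg (fun z => (z.2.1.1 : X)) h
    have e4 : nn x y = nn x' y' := congrArg (fun z => (z.2.1.2 : X)) h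
    have e5 : x = x' := by
      have : (X0 (x : X ⧸ N) (nn x y))⁻¹ * x = (X0 (x' : X ⧸ N) (nn x' y'))⁻¹ * x' := e3
      rw [e1, e4] at this
      exact mul_left_cancel this
    subst e5
    have e6 : y = y' := by
      have : (Y0 x (y : X ⧸ N))⁻¹ * y = (Y0 x (y' : X ⧸ N))⁻¹ * y' := e4
      rw [e2] at this
      exact mul_left_cancel this
    subst e6
    rfl
  have hle := Nat.card_le_card_of_injective F hF
  rw [Nat.card_prod, hX, hN, hQ, Subgroup.card_eq_card_quotient_mul_card_subgroup N] at hle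
  have hpos : 0 < Nat.card (X ⧸ N) * Nat.card N := Nat.mul_pos Nat.card_pos Nat.card_pos
  apply Nat.le_of_mul_le_mul_right _ hpos
  calc _ ≤ _ := hle
    _ = _ := by ring

end Cfsg.Agent.S4201
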