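import Cfsg.Statements.S4205


set_option autoImplicit false
open Cfsg

namespace Cfsg.Agent.S4205

/-- In a finite group whose upper central series reaches the whole group at step `c` (nilpotent of class at most `c`), starting from any subgroup and taking normalizers `c` times reaches the whole group. -/
theorem result {G : Type*} [Group G] [Finite G] (c : ℕ) (hG : Subgroup.upperCentralSeries G c = ⊤) (H : Subgroup G) : (fun K : Subgroup G => Subgroup.normalizer (K : Set G))^[c] H = ⊤ := by
  classical
  have key : ∀ i : ℕ, Subgroup.upperCentralSeries G i ≤ (fun K : Subgroup G => Subgroup.normalizer (K : Set G))^[i] H := by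
    intro i
    induction i with
    | zero => simp
    | succ i ih =>
      rw [Function.iterate_succ_apply']
      intro z hz
      rw [Subgroup.mem_upperCentralSeries_succ_iff] at hz
      set K := (fun K : Subgroup G => Subgroup.normalizer (K : Set G))^[i] H with hK
      have h1 : ∀ k ∈ K, z * k * z⁻¹ ∈ K := by
        intro k hk
        have := ih (hz k)
        have h2 : z * k * z⁻¹ = (z * k * z⁻¹ * k⁻¹) * k := by group
        rw [h2]; exact K.mul_mem this hk
      have h3 : ∀ k ∈ K, z⁻¹ * k * z ∈ K := by
        intro k hk
        have := ih (hz (z⁻¹ * k⁻¹ * z))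
        have h2 : z⁻¹ * k * z = (k * (z * (z⁻¹ * k⁻¹ * z) * z⁻¹ * (z⁻¹ * k⁻¹ * z)⁻¹)) := by group
        rw [h2]; exact K.mul_mem hk this
      show z ∈ Subgroup.normalizer (K : Set G)
      rw [Subgroup.mem_normalizer_iff]
      intro k
      constructor
      · exact h1 k
      · intro hk
        have := h3 _ hk
        have h4 : z⁻¹ * (z * k * z⁻¹) * z = k := by group
        rwa [h4] at this
  exact top_le_iff.mp (hG ▸ key c)

end Cfsg.Agent.S4205
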