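import Cfsg.Statements.S4208
import Cfsg.Agent.Lib_helper3_Action
import Cfsg.Agent.Lib_helper3_ElemAb
import Cfsg.Agent.Lib_helper1_Frattini

set_option autoImplicit false
open Cfsg

namespace Cfsg.Agent.S4208

open scoped commutatorElement

/-- Let `P` be a group of order `p^n` whose Frattini subgroup has index `p^r`. Then the order of the automorphism group of `P` divides `p^(r(n-r)) · (p^r - 1)(p^r - p) ⋯ (p^r - p^(r-1))`. -/
theorem result {P : Type*} [Group P] [Finite P] {p n r : ℕ} [Fact p.Prime] (hP : Nat.card P = p ^ n) (hr : (frattini P).index = p ^ r) : Nat.card (MulAut P) ∣ p ^ (r * (n - r)) * ∏ i ∈ Finset.range r, (p ^ r - p ^ i) := by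
  classical
  have hp := (Fact.out : p.Prime)
  have hΦn : (frattini P).Normal := inferInstance
  have hQ : Nat.card (P ⧸ frattini P) = p ^ r := by rw [← Subgroup.index_eq_card, hr]
  have hPp : IsPGroup p P := IsPGroup.of_card hP
  obtain ⟨hc, he⟩ := Cfsg.Agent.H1.pgroup_frattini p hPp
  have hcomm : ∀ a b : P ⧸ frattini P, a * b = b * a := by
    intro a b
    induction a using QuotientGroup.induction_on with
    | H a =>
    induction b using QuotientGroup.induction_on with
    | H b =>
    rw [← QuotientGroup.mk_mul, ← QuotientGroup.mk_mul]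
    apply QuotientGroup.eq_iff_div_mem.mpr
    have h1 : a * b / (b * a) = ⁅a, b⁆ := by
      rw [commutatorElement_def, div_eq_mul_inv, mul_inv_rev, mul_assoc, mul_assoc, mul_assoc]
    rw [h1]
    exact hc (Subgroup.commutator_mem_commutator (Subgroup.mem_top a) (Subgroup.mem_top b))
  have hexp : ∀ x : P ⧸ frattini P, x ^ p = 1 := by
    intro x
    induction x using QuotientGroup.induction_on with
    | H x =>
    rw [← QuotientGroup.mk_pow]
    exact (QuotientGroup.eq_one_iff _).mpr (he x)
  have hcount := H3.card_generating_tuples hcomm hexp hQ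
  let T := {t : Fin r → P // Subgroup.closure (Set.range t) = ⊤}
  have hiff : ∀ t : Fin r → P, Subgroup.closure (Set.range t) = ⊤ ↔
      Subgroup.closure (Set.range (fun i => ((t i : P) : P ⧸ frattini P))) = ⊤ := by
    intro t
    have h0 : (Subgroup.closure (Set.range t)).map (QuotientGroup.mk' (frattini P)) =
        Subgroup.closure (Set.range (fun i => ((t i : P) : P ⧸ frattini P))) := by
      rw [MonoidHom.map_closure]
      congr 1
      ext y
      constructor
      · rintro ⟨_, ⟨i, rfl⟩, rfl⟩
        exact ⟨i, rfl⟩
      · rintro ⟨i, rfl⟩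
        exact ⟨t i, ⟨i, rfl⟩, rfl⟩
    constructor
    · intro h
      rw [← h0, h]
      exact Subgroup.map_top_of_surjective _ (QuotientGroup.mk'_surjective _)
    · intro h
      apply frattini_nongenerating
      have h2 := Subgroup.comap_map_eq (QuotientGroup.mk' (frattini P)) (Subgroup.closure (Set.range t))
      rw [h0, h, Subgroup.comap_top, QuotientGroup.ker_mk'] at h2
      exact h2.symm
  have hcardΦ : Nat.card (frattini P) = p ^ (n - r) := by
    have h1 := Subgroup.card_mul_index (frattini P)
    rw [hr, hP] at h1
    have hrn : r ≤ n := by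
      have : p ^ r ∣ p ^ n := Dvd.intro_left _ h1
      exact (Nat.pow_dvd_pow_iff_le_right hp.one_lt).mp this
    have h2 : p ^ n = p ^ (n - r) * p ^ r := by rw [← pow_add, Nat.sub_add_cancel hrn]
    rw [h2] at h1
    exact Nat.eq_of_mul_eq_mul_right (pow_pos hp.pos r) h1
  have hcardT : Nat.card T = p ^ (r * (n - r)) * ∏ i ∈ Finset.range r, (p ^ r - p ^ i) := by
    have e : T ≃ (Fin r → frattini P) ×
        {f : Fin r → P ⧸ frattini P // Subgroup.closure (Set.range f) = ⊤} :=
      { toFun := fun t => (fun i => ⟨(((t.1 i : P) : P ⧸ frattini P).out)⁻¹ * t.1 i, by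
          apply QuotientGroup.eq.mp
          rw [QuotientGroup.out_eq']⟩, ⟨fun i => ((t.1 i : P) : P ⧸ frattini P), (hiff t.1).mp t.2⟩)
        invFun := fun u => ⟨fun i => (u.2.1 i).out * (u.1 i : P), by
          rw [hiff]
          have : (fun i => (((u.2.1 i).out * (u.1 i : P) : P) : P ⧸ frattini P)) = u.2.1 := by
            funext i
            have : (((u.2.1 i).out * (u.1 i : P) : P) : P ⧸ frattini P) = (((u.2.1 i).out : P) : P ⧸ frattini P) := by
              apply QuotientGroup.eq.mpr
              have h3 : ((u.2.1 i).out * (u.1 i : P))⁻¹ * (u.2.1 i).out = ((u.1 i : P))⁻¹ := by group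
              rw [h3]; exact inv_mem (u.1 i).2
            rw [this, QuotientGroup.out_eq']
          rw [this]
          exact u.2.2⟩
        left_inv := by
          intro t
          apply Subtype.ext
          funext i
          simp
        right_inv := by
          rintro ⟨u, f, hf⟩
          have key : ∀ i, (((f i).out * (u i : P) : P) : P ⧸ frattini P) = f i := by
            intro i
            have : (((f i).out * (u i : P) : P) : P ⧸ frattini P) = (((f i).out : P) : P ⧸ frattini P) := by
              apply QuotientGroup.eq.mpr
              have h3 : ((f i).out * (u i : P))⁻¹ * (f i).out = ((u i : P))⁻¹ := by group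
              rw [h3]; exact inv_mem (u i).2
            rw [this, QuotientGroup.out_eq']
          apply Prod.ext
          · funext i
            apply Subtype.ext
            show ((((f i).out * (u i : P) : P) : P ⧸ frattini P).out)⁻¹ * ((f i).out * (u i : P)) = u i
            rw [key i]; group
          · apply Subtype.ext
            funext i
            exact key i }
    rw [Nat.card_congr e, Nat.card_prod, hcount, Nat.card_fun, hcardΦ, Nat.card_eq_fintype_card, Fintype.card_fin, ← pow_mul, mul_comm (n - r) r]
  have hTfin : Finite T := inferInstance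
  let act : MulAction (MulAut P) T :=
    { smul := fun α t => ⟨fun i => α (t.1 i), by
        have h1 : (Subgroup.closure (Set.range t.1)).map (α : P ≃* P).toMonoidHom =
            Subgroup.closure (Set.range (fun i => α (t.1 i))) := by
          rw [MonoidHom.map_closure]
          congr 1
          ext y
          constructor
          · rintro ⟨_, ⟨i, rfl⟩, rfl⟩
            exact ⟨i, rfl⟩
          · rintro ⟨i, rfl⟩
            exact ⟨t.1 i, ⟨i, rfl⟩, rfl⟩
        rw [← h1, t.2]
        exact Subgroup.map_top_of_surjective _ (α : P ≃* P).surjective⟩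
      one_smul := fun t => rfl
      mul_smul := fun α β t => rfl }
  rw [← hcardT]
  apply H3.card_dvd_of_free
  intro α t hαt
  have h1 : ∀ i, α (t.1 i) = t.1 i := fun i => congrFun (congrArg Subtype.val hαt) i
  have h2 : (α : P ≃* P).toMonoidHom = MonoidHom.id P := by
    apply MonoidHom.eq_of_eqOn_dense t.2
    rintro _ ⟨i, rfl⟩
    exact h1 i
  ext y
  exact DFunLike.congr_fun h2 y

end Cfsg.Agent.S4208
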