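import Cfsg.Statements.S4211
import Mathlib
import Cfsg.Agent.Lib_helper7_Quat2
import Cfsg.Agent.Lib_helper1_Hall

set_option autoImplicit false
open Cfsg

namespace Cfsg.Agent.S4211

open Cfsg.Agent

theorem mem_zpowers_pow' {G : Type*} [Group G] {g w : G} {p k : ℕ} (hp : p.Prime)
    (hg : orderOf g = p ^ (k + 1)) (hw : w ∈ Subgroup.zpowers g) (hwp : w ^ p = 1) :
    w ∈ Subgroup.zpowers (g ^ (p ^ k)) := by
  obtain ⟨j, rfl⟩ := hw
  have h1 : g ^ (j * p) = 1 := by rw [zpow_mul]; exact_mod_cast hwp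
  have h2 : ((p ^ (k + 1) : ℕ) : ℤ) ∣ j * p := by rw [← hg]; exact orderOf_dvd_iff_zpow_eq_one.2 h1
  have h3 : ((p ^ k : ℕ) : ℤ) ∣ j := by
    push_cast at h2 ⊢
    rw [pow_succ] at h2
    exact Int.dvd_of_mul_dvd_mul_right (by exact_mod_cast hp.ne_zero) h2
  obtain ⟨t, rfl⟩ := h3
  refine ⟨t, ?_⟩
  show (g ^ (p ^ k)) ^ t = g ^ (((p ^ k : ℕ) : ℤ) * t)
  rw [zpow_mul, zpow_natCast]

theorem mul_pow_class2 {G : Type*} [Group G] (u v e : G) (h : v * u = e * u * v)
    (heu : Commute e u) (hev : Commute e v) (n : ℕ) :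
    (u * v) ^ n = u ^ n * v ^ n * e ^ (n.choose 2) := by
  have h' : v * u = u * v * e := by
    rw [h, heu.eq, mul_assoc, hev.eq, ← mul_assoc]
  have hv : ∀ n : ℕ, v ^ n * u = u * v ^ n * e ^ n := by
    intro n
    induction n with
    | zero => simp
    | succ n ih =>
      calc v ^ (n + 1) * u = v ^ n * (v * u) := by rw [pow_succ, mul_assoc]
        _ = (v ^ n * u) * v * e := by rw [h']; simp only [mul_assoc]
        _ = u * v ^ n * e ^ n * v * e := by rw [ih]
        _ = u * v ^ (n + 1) * e ^ (n + 1) := by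
          have h2 : e ^ n * v = v * e ^ n := (hev.pow_left n).eq
          rw [mul_assoc (u * v ^ n), h2, pow_succ, pow_succ]; simp only [mul_assoc]
  induction n with
  | zero => simp
  | succ n ih =>
    have hch : (n + 1).choose 2 = n + n.choose 2 := by
      rw [Nat.choose_succ_succ' n 1, Nat.choose_one_right]
    have h3 : e ^ (n.choose 2) * u = u * e ^ (n.choose 2) := (heu.pow_left _).eq
    have h4 : e ^ (n.choose 2) * v = v * e ^ (n.choose 2) := (hev.pow_left _).eq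
    have h5 : e ^ n * v = v * e ^ n := (hev.pow_left _).eq
    calc (u * v) ^ (n + 1) = u ^ n * v ^ n * e ^ (n.choose 2) * (u * v) := by rw [pow_succ, ih]
      _ = u ^ n * (v ^ n * u) * v * e ^ (n.choose 2) := by
        rw [mul_assoc (u ^ n * v ^ n), ← mul_assoc (e ^ (n.choose 2)) u v, h3, mul_assoc u, h4]
        simp only [mul_assoc]
      _ = u ^ n * (u * v ^ n * e ^ n) * v * e ^ (n.choose 2) := by rw [hv]
      _ = u ^ (n + 1) * v ^ (n + 1) * e ^ ((n + 1).choose 2) := by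
        rw [hch, pow_add e, pow_succ u, pow_succ v]
        simp only [mul_assoc]
        rw [← mul_assoc (e ^ n) v, h5, mul_assoc]

theorem exists_q8 {G : Type*} [Group G] [Finite G] (hn : ∀ H : Subgroup G, H.Normal)
    (hna : ∃ a b : G, a * b ≠ b * a) :
    ∃ x y : G, orderOf x = 4 ∧ orderOf y = 4 ∧ x ^ 2 = y ^ 2 ∧ y * x * y⁻¹ = x⁻¹ := by
  classical
  obtain ⟨a0, b0, hab0⟩ := hna
  obtain ⟨y, ⟨x0, hx0⟩, hymin⟩ := Set.exists_min_image {y : G | ∃ x, x * y ≠ y * x} orderOf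
    (Set.toFinite _) ⟨b0, a0, hab0⟩
  obtain ⟨x, hxy, hxmin⟩ := Set.exists_min_image {x : G | x * y ≠ y * x} orderOf
    (Set.toFinite _) ⟨x0, hx0⟩
  simp only [Set.mem_setOf_eq] at hxy hxmin hymin
  obtain ⟨c, hc⟩ : ∃ c, c = x * y * x⁻¹ * y⁻¹ := ⟨_, rfl⟩
  have hc1 : c ≠ 1 := by
    intro h
    apply hxy
    rw [h] at hc
    calc x * y = (x * y * x⁻¹ * y⁻¹) * (y * x) := by group
      _ = y * x := by rw [← hc, one_mul]
  have hcx : c ∈ Subgroup.zpowers x := by
    have h1 : y * x⁻¹ * y⁻¹ ∈ Subgroup.zpowers x :=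
      (hn _).conj_mem _ (inv_mem (Subgroup.mem_zpowers x)) y
    have : c = x * (y * x⁻¹ * y⁻¹) := by rw [hc]; group
    rw [this]; exact mul_mem (Subgroup.mem_zpowers x) h1
  have hcy : c ∈ Subgroup.zpowers y := by
    have h1 : x * y * x⁻¹ ∈ Subgroup.zpowers y := (hn _).conj_mem _ (Subgroup.mem_zpowers y) x
    rw [hc]; exact mul_mem h1 (inv_mem (Subgroup.mem_zpowers y))
  have hcx' : Commute c x := by
    obtain ⟨j, hj⟩ := hcx
    rw [← hj]; exact (Commute.refl x).zpow_left j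
  have hcy' : Commute c y := by
    obtain ⟨j, hj⟩ := hcy
    rw [← hj]; exact (Commute.refl y).zpow_left j
  have hconj : x * y * x⁻¹ = c * y := by rw [hc]; group
  have hconj2 : y * x * y⁻¹ = c⁻¹ * x := by rw [hc]; group
  have hpx : ∀ n : ℕ, x ^ n * y * (x ^ n)⁻¹ = c ^ n * y := by
    intro n
    induction n with
    | zero => simp
    | succ n ih =>
      calc x ^ (n + 1) * y * (x ^ (n + 1))⁻¹ = x * (x ^ n * y * (x ^ n)⁻¹) * x⁻¹ := by
            rw [pow_succ', mul_inv_rev]; simp only [mul_assoc]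
        _ = x * (c ^ n * y) * x⁻¹ := by rw [ih]
        _ = c ^ n * (x * y * x⁻¹) := by
            have : x * c ^ n = c ^ n * x := ((hcx'.pow_left n).eq).symm
            rw [← mul_assoc, this]; simp only [mul_assoc]
        _ = c ^ (n + 1) * y := by rw [hconj, pow_succ, mul_assoc]
  have hpy : ∀ n : ℕ, x * y ^ n * x⁻¹ = c ^ n * y ^ n := by
    intro n
    rw [← conj_pow, hconj, hcy'.mul_pow]
  have hq1 : ∀ q : ℕ, q.Prime → q ∣ orderOf x → c ^ q = 1 := by
    intro q hq hdvd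
    have hlt : orderOf (x ^ q) < orderOf x := by
      rw [orderOf_pow_of_dvd hq.ne_zero hdvd]
      exact Nat.div_lt_self (orderOf_pos x) hq.one_lt
    have hcomm : x ^ q * y = y * x ^ q := by
      by_contra h
      exact absurd (hxmin _ h) (not_le.2 hlt)
    have h3 := hpx q
    rw [hcomm, mul_assoc, mul_inv_cancel, mul_one] at h3
    have h4 : c ^ q * y = 1 * y := by rw [one_mul]; exact h3.symm
    exact mul_right_cancel h4
  have hq2 : ∀ q : ℕ, q.Prime → q ∣ orderOf y → c ^ q = 1 := by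
    intro q hq hdvd
    have hlt : orderOf (y ^ q) < orderOf y := by
      rw [orderOf_pow_of_dvd hq.ne_zero hdvd]
      exact Nat.div_lt_self (orderOf_pos y) hq.one_lt
    have hcomm : x * y ^ q = y ^ q * x := by
      by_contra h
      exact absurd (hymin _ ⟨x, h⟩) (not_le.2 hlt)
    have h3 := hpy q
    rw [hcomm, mul_assoc, mul_inv_cancel, mul_one] at h3
    have h4 : c ^ q * y ^ q = 1 * y ^ q := by rw [one_mul]; exact h3.symm
    exact mul_right_cancel h4
  have hy1 : orderOf y ≠ 1 := by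
    intro h
    rw [orderOf_eq_one_iff] at h
    apply hxy; rw [h]; simp
  obtain ⟨p, hp, hpy'⟩ := Nat.exists_prime_and_dvd hy1
  haveI : Fact p.Prime := ⟨hp⟩
  have hcp : c ^ p = 1 := hq2 p hp hpy'
  have hoc : orderOf c = p := orderOf_eq_prime hcp hc1
  have huniq : ∀ q : ℕ, q.Prime → c ^ q = 1 → q = p := by
    intro q hq h
    have : p ∣ q := hoc ▸ orderOf_dvd_of_pow_eq_one h
    exact ((Nat.prime_dvd_prime_iff_eq hp hq).1 this).symm
  obtain ⟨a, ha⟩ : ∃ a, orderOf x = p ^ a :=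
    ⟨_, Nat.eq_prime_pow_of_unique_prime_dvd (orderOf_pos x).ne'
      (fun {d} hd hdx => huniq d hd (hq1 d hd hdx))⟩
  obtain ⟨b, hb⟩ : ∃ b, orderOf y = p ^ b :=
    ⟨_, Nat.eq_prime_pow_of_unique_prime_dvd (orderOf_pos y).ne'
      (fun {d} hd hdx => huniq d hd (hq2 d hd hdx))⟩
  have hba : b ≤ a := by
    have h3 : orderOf y ≤ orderOf x := hymin x ⟨y, fun h => hxy h.symm⟩
    rw [ha, hb] at h3
    exact (Nat.pow_le_pow_iff_right hp.one_lt).1 h3
  have hb1 : 1 ≤ b := by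
    rcases Nat.eq_zero_or_pos b with h | h
    · rw [h, pow_zero] at hb; exact absurd hb hy1
    · exact h
  obtain ⟨b', rfl⟩ : ∃ b', b = b' + 1 := ⟨b - 1, by omega⟩
  obtain ⟨a', rfl⟩ : ∃ a', a = a' + 1 := ⟨a - 1, by omega⟩
  have hcY : c ∈ Subgroup.zpowers (y ^ (p ^ b')) := mem_zpowers_pow' hp hb hcy hcp
  have hcX : c ∈ Subgroup.zpowers (x ^ (p ^ a')) := mem_zpowers_pow' hp ha hcx hcp
  have hYc : y ^ (p ^ b') ∈ Subgroup.zpowers c := by
    obtain ⟨t, ht⟩ := hcY
    have ht' : (y ^ (p ^ b')) ^ t = c := ht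
    have hYp : (y ^ (p ^ b')) ^ p = 1 := by rw [← pow_mul, ← pow_succ, ← hb, pow_orderOf_eq_one]
    have hpt : ¬ (p : ℤ) ∣ t := by
      rintro ⟨s, rfl⟩
      apply hc1; rw [← ht', zpow_mul, zpow_natCast, hYp, one_zpow]
    have hcop : IsCoprime (p : ℤ) t := (Nat.prime_iff_prime_int.1 hp).coprime_iff_not_dvd.2 hpt
    obtain ⟨r, s, hrs⟩ := hcop
    refine ⟨s, ?_⟩
    show c ^ s = y ^ (p ^ b')
    rw [← ht', ← zpow_mul]
    have h5 : t * s = 1 + (p : ℤ) * (-r) := by linarith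
    rw [h5, zpow_add, zpow_one, zpow_mul, zpow_natCast, hYp, one_zpow, mul_one]
  obtain ⟨s, hs⟩ := hYc
  obtain ⟨t, ht⟩ := hcX
  have hs' : c ^ s = y ^ (p ^ b') := hs
  have ht' : (x ^ (p ^ a')) ^ t = c := ht
  obtain ⟨k, hk⟩ : ∃ k : ℤ, k = ((p ^ (a' - b') : ℕ) : ℤ) * (t * s) := ⟨_, rfl⟩
  have hz : (x ^ k) ^ (p ^ b') = y ^ (p ^ b') := by
    rw [← hs', ← ht', hk]
    have h5 : p ^ a' = p ^ (a' - b') * p ^ b' := by rw [← pow_add]; congr 1; omega
    rw [h5]
    simp only [← zpow_natCast, ← zpow_mul]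
    congr 1; push_cast; ring
  have hEX : Commute (c ^ k) (x ^ k) := (hcx'.zpow_left k).zpow_right k
  have hEy : Commute (c ^ k) y := hcy'.zpow_left k
  have hrel : y * (x ^ k)⁻¹ = c ^ k * (x ^ k)⁻¹ * y := by
    have h1 : y * x ^ k * y⁻¹ = (c ^ k)⁻¹ * x ^ k := by
      rw [← conj_zpow, hconj2, (hcx'.inv_left).mul_zpow, inv_zpow]
    calc y * (x ^ k)⁻¹ = (y * x ^ k * y⁻¹)⁻¹ * y := by group
      _ = ((c ^ k)⁻¹ * x ^ k)⁻¹ * y := by rw [h1]
      _ = (x ^ k)⁻¹ * c ^ k * y := by rw [mul_inv_rev, inv_inv]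
      _ = c ^ k * (x ^ k)⁻¹ * y := by rw [(hEX.inv_right).eq]
  have hform := mul_pow_class2 (x ^ k)⁻¹ y (c ^ k) hrel hEX.inv_right hEy (p ^ b')
  rw [inv_pow, hz, inv_mul_cancel, one_mul] at hform
  have hw : x * ((x ^ k)⁻¹ * y) ≠ ((x ^ k)⁻¹ * y) * x := by
    intro h
    apply hxy
    have hc' : x * (x ^ k)⁻¹ = (x ^ k)⁻¹ * x := ((Commute.refl x).zpow_right k).inv_right.eq
    rw [← mul_assoc, hc', mul_assoc, mul_assoc] at h
    exact mul_left_cancel h
  have hwo : p ^ (b' + 1) ≤ orderOf ((x ^ k)⁻¹ * y) := hb ▸ hymin _ ⟨x, hw⟩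
  have hne : ((x ^ k)⁻¹ * y) ^ (p ^ b') ≠ 1 := by
    intro h
    have h6 := orderOf_le_of_pow_eq_one (pow_pos hp.pos _) h
    have h7 : p ^ b' < p ^ (b' + 1) := Nat.pow_lt_pow_right hp.one_lt (by omega)
    omega
  have hEp : (c ^ k) ^ p = 1 := by
    rw [← zpow_natCast, ← zpow_mul, mul_comm, zpow_mul, zpow_natCast, hcp, one_zpow]
  have h2 : p ^ b' = 2 := by
    by_contra hne2
    have hd : p ∣ (p ^ b').choose 2 := hp.dvd_choose_pow (by norm_num) (fun h => hne2 h.symm)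
    obtain ⟨r, hr⟩ := hd
    apply hne; rw [hform, hr, pow_mul, hEp, one_pow]
  obtain ⟨rfl, rfl⟩ := (Nat.Prime.pow_eq_iff Nat.prime_two).1 h2
  have hform2 : ((x ^ k)⁻¹ * y) ^ (2 ^ 1) = c ^ k := by
    rw [hform]; norm_num
  have hck : c ^ k ≠ 1 := fun h => hne (hform2.trans h)
  have ha1 : a' = 1 := by
    by_contra hne1
    apply hck
    obtain ⟨d, hd⟩ : ∃ d, a' - 1 = d + 1 := ⟨a' - 2, by omega⟩
    rw [hk, hd, pow_succ]
    push_cast
    have h8 : ((2 : ℤ) ^ d * 2 * (t * s)) = 2 * (2 ^ d * (t * s)) := by ring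
    rw [h8, zpow_mul]
    have h9 : c ^ (2 : ℤ) = 1 := by exact_mod_cast hcp
    rw [h9, one_zpow]
  subst ha1
  have hx4 : orderOf x = 4 := by rw [ha]; norm_num
  have hy4 : orderOf y = 4 := by rw [hb]; norm_num
  have hx44 : x ^ 4 = 1 := by rw [← hx4]; exact pow_orderOf_eq_one x
  have hcx2 : c = x ^ 2 := by
    rcases Int.even_or_odd' t with ⟨r, hr | hr⟩
    · exfalso; apply hc1
      rw [← ht', hr, ← zpow_natCast x, ← zpow_mul]
      have h8 : (((2 ^ 1 : ℕ) : ℤ) * (2 * r)) = ((4 : ℕ) : ℤ) * r := by push_cast; ring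
      rw [h8, zpow_mul, zpow_natCast, hx44, one_zpow]
    · rw [← ht', hr, ← zpow_natCast x, ← zpow_mul]
      have h8 : (((2 ^ 1 : ℕ) : ℤ) * (2 * r + 1)) = ((4 : ℕ) : ℤ) * r + ((2 : ℕ) : ℤ) := by
        push_cast; ring
      rw [h8, zpow_add, zpow_mul, zpow_natCast, hx44, one_zpow, one_mul, zpow_natCast]
  have hcy2 : c = y ^ 2 := by
    have hs2 : c ^ s = y ^ 2 := by rw [hs']; norm_num
    rcases Int.even_or_odd' s with ⟨r, hr | hr⟩
    · exfalso
      have h9 : c ^ (2 : ℤ) = 1 := by exact_mod_cast hcp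
      rw [hr, zpow_mul, h9, one_zpow] at hs2
      have := orderOf_le_of_pow_eq_one (by norm_num) hs2.symm
      omega
    · have h9 : c ^ (2 : ℤ) = 1 := by exact_mod_cast hcp
      rw [hr, zpow_add, zpow_mul, h9, one_zpow, one_mul, zpow_one] at hs2
      exact hs2
  refine ⟨x, y, hx4, hy4, hcx2 ▸ hcy2, ?_⟩
  rw [hconj2, hcx2]; group

theorem zpow_mod4 {G : Type*} [Group G] (w : G) (h : w ^ 4 = 1) (j : ℤ) :
    ∃ r : ℕ, r < 4 ∧ w ^ j = w ^ r := by
  refine ⟨(j % 4).toNat, ?_, ?_⟩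
  · have h1 : 0 ≤ j % 4 := Int.emod_nonneg _ (by norm_num)
    have h2 : j % 4 < 4 := Int.emod_lt_of_pos _ (by norm_num)
    omega
  · have h1 : 0 ≤ j % 4 := Int.emod_nonneg _ (by norm_num)
    have h3 : j = ((4 : ℕ) : ℤ) * (j / 4) + (((j % 4).toNat : ℕ) : ℤ) := by
      rw [Int.toNat_of_nonneg h1]; push_cast; omega
    conv_lhs => rw [h3]
    rw [zpow_add, zpow_mul, zpow_natCast, h, one_zpow, one_mul, zpow_natCast]

theorem zp_cases {G : Type*} [Group G] (u v z : G) (hu : u ^ 4 = 1) (huv : u * v ≠ v * u)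
    (hz : z ∈ Subgroup.zpowers u) (hzv : z * v = v * z) : z = 1 ∨ z = u ^ 2 := by
  obtain ⟨j, hj⟩ := hz
  have hj' : u ^ j = z := hj
  obtain ⟨r, hr, hjr⟩ := zpow_mod4 u hu j
  rw [hjr] at hj'
  interval_cases r
  · left; rw [← hj']; simp
  · exfalso; apply huv; rw [pow_one] at hj'; rw [hj']; exact hzv
  · right; exact hj'.symm
  · exfalso; apply huv
    have h3 : z = u⁻¹ := by
      rw [← hj']; apply eq_inv_of_mul_eq_one_left
      rw [← pow_succ]; exact hu
    rw [h3] at hzv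
    calc u * v = u * (v * u⁻¹) * u := by group
      _ = u * (u⁻¹ * v) * u := by rw [hzv]
      _ = v * u := by group

theorem conj_cases {G : Type*} [Group G] (hn : ∀ H : Subgroup G, H.Normal) (x g : G)
    (hx : orderOf x = 4) : g * x * g⁻¹ = x ∨ g * x * g⁻¹ = x⁻¹ := by
  have hx4 : x ^ 4 = 1 := by rw [← hx]; exact pow_orderOf_eq_one x
  have hx2 : x ^ 2 ≠ 1 := by
    intro h
    have := orderOf_le_of_pow_eq_one (by norm_num) h
    omega
  have hmem : g * x * g⁻¹ ∈ Subgroup.zpowers x := (hn _).conj_mem _ (Subgroup.mem_zpowers x) g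
  obtain ⟨j, hj⟩ := hmem
  have hj' : x ^ j = g * x * g⁻¹ := hj
  obtain ⟨r, hr, hjr⟩ := zpow_mod4 x hx4 j
  rw [hjr] at hj'
  interval_cases r
  · exfalso; apply hx2
    rw [pow_zero] at hj'
    have : x = 1 := by
      calc x = g⁻¹ * (g * x * g⁻¹) * g := by group
        _ = 1 := by rw [← hj']; group
    rw [this]; simp
  · left; rw [← hj', pow_one]
  · exfalso; apply hx2
    have h3 : (g * x * g⁻¹) ^ 2 = 1 := by rw [← hj', ← pow_mul]; exact hx4
    rw [conj_pow] at h3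
    calc x ^ 2 = g⁻¹ * (g * x ^ 2 * g⁻¹) * g := by group
      _ = 1 := by rw [h3]; group
  · right; rw [← hj']; apply eq_inv_of_mul_eq_one_left
    rw [← pow_succ]; exact hx4

/-- `n`-torsion of a commutative subgroup. -/
def tor {G : Type*} [Group G] (C : Subgroup G) (hC : ∀ a ∈ C, ∀ b ∈ C, a * b = b * a) (n : ℕ) :
    Subgroup G where
  carrier := {g | g ∈ C ∧ g ^ n = 1}
  one_mem' := ⟨one_mem _, one_pow _⟩
  mul_mem' := by
    rintro a b ⟨ha, ha'⟩ ⟨hb, hb'⟩
    refine ⟨mul_mem ha hb, ?_⟩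
    rw [(show Commute a b from hC a ha b hb).mul_pow, ha', hb', one_mul]
  inv_mem' := by
    rintro a ⟨ha, ha'⟩
    exact ⟨inv_mem ha, by rw [inv_pow, ha', inv_one]⟩

theorem eq_one_of_two_odd {G : Type*} [Group G] (g : G) (r : ℕ) (h2 : g ^ 2 = 1)
    (hm : g ^ (2 * r + 1) = 1) : g = 1 := by
  rw [pow_succ, pow_mul, h2, one_pow, one_mul] at hm
  exact hm

/-- A finite non-abelian group in which every subgroup is normal is the internal direct product of a subgroup isomorphic to the quaternion group of order `8`, an elementary abelian `2`-subgroup and an abelian subgroup of odd order. -/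
theorem result {G : Type*} [Group G] [Finite G] (hna : ¬ IsMulCommutative G) (hn : ∀ H : Subgroup G, H.Normal) : ∃ Q E A : Subgroup G, Nonempty (Q ≃* QuaternionGroup 2) ∧ Cfsg.IsElementaryAbelian 2 E ∧ IsMulCommutative A ∧ Odd (Nat.card A) ∧ E ⊓ A = ⊥ ∧ Q ⊓ (E ⊔ A) = ⊥ ∧ Q ⊔ (E ⊔ A) = ⊤ := by
  classical
  have hna' : ∃ a b : G, a * b ≠ b * a := by
    by_contra h
    push Not at h
    exact hna ⟨⟨h⟩⟩
  obtain ⟨x, y, hx4, hy4, hxy2, hconj⟩ := exists_q8 hn hna'
  have hx44 : x ^ 4 = 1 := by rw [← hx4]; exact pow_orderOf_eq_one x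
  have hy44 : y ^ 4 = 1 := by rw [← hy4]; exact pow_orderOf_eq_one y
  have hx2 : x ^ 2 ≠ 1 := by
    intro h
    have := orderOf_le_of_pow_eq_one (by norm_num) h
    omega
  have hxy : x * y ≠ y * x := by
    intro h
    apply hx2
    rw [← h, mul_assoc, mul_inv_cancel, mul_one] at hconj
    rw [pow_two]; nth_rewrite 1 [hconj]; simp
  have hyx : y * x ≠ x * y := fun h => hxy h.symm
  have hconj' : x * y * x⁻¹ = y⁻¹ := by
    have h0 : y * x = x⁻¹ * y := by
      calc y * x = (y * x * y⁻¹) * y := by group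
        _ = x⁻¹ * y := by rw [hconj]
    have h1 : x * y * x⁻¹ = y * (x ^ 2)⁻¹ := by
      calc x * y * x⁻¹ = x * (y * x) * (x ^ 2)⁻¹ := by group
        _ = x * (x⁻¹ * y) * (x ^ 2)⁻¹ := by rw [h0]
        _ = y * (x ^ 2)⁻¹ := by group
    rw [h1, hxy2]; group
  obtain ⟨c, hc⟩ : ∃ c, c = x ^ 2 := ⟨_, rfl⟩
  have hc1 : c ≠ 1 := hc ▸ hx2
  have hcy : c = y ^ 2 := hc.trans hxy2
  have hc2 : c ^ 2 = 1 := by rw [hc, ← pow_mul]; exact hx44
  obtain ⟨Q, hQ⟩ : ∃ Q, Q = Subgroup.zpowers x ⊔ Subgroup.zpowers y := ⟨_, rfl⟩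
  have hxQ : x ∈ Q := hQ ▸ Subgroup.mem_sup_left (Subgroup.mem_zpowers x)
  have hyQ : y ∈ Q := hQ ▸ Subgroup.mem_sup_right (Subgroup.mem_zpowers y)
  have hcQ : c ∈ Q := hc ▸ pow_mem hxQ 2
  have hynx : y ∉ Subgroup.zpowers x := by
    rintro ⟨j, hj⟩
    apply hxy
    rw [← hj]
    exact ((Commute.refl x).zpow_right j).eq
  -- card Q = 8
  have hQcard : Nat.card Q = 8 := by
    haveI := hn (Subgroup.zpowers y)
    have h1 := H1.card_sup_mul_card_inf (Subgroup.zpowers x) (Subgroup.zpowers y)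
    rw [Nat.card_zpowers, Nat.card_zpowers, hx4, hy4, ← hQ] at h1
    have h2 : Nat.card ↥(Subgroup.zpowers x ⊓ Subgroup.zpowers y) ∣ 4 := by
      have := Subgroup.card_dvd_of_le (inf_le_left : Subgroup.zpowers x ⊓ Subgroup.zpowers y ≤ Subgroup.zpowers x)
      rwa [Nat.card_zpowers, hx4] at this
    have h3 : Nat.card ↥(Subgroup.zpowers x ⊓ Subgroup.zpowers y) ≠ 1 := by
      intro h
      rw [Subgroup.card_eq_one] at h
      apply hc1
      have : c ∈ Subgroup.zpowers x ⊓ Subgroup.zpowers y :=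
        ⟨hc ▸ pow_mem (Subgroup.mem_zpowers x) 2, hcy ▸ pow_mem (Subgroup.mem_zpowers y) 2⟩
      rw [h] at this
      exact this
    have h4 : Nat.card ↥(Subgroup.zpowers x ⊓ Subgroup.zpowers y) ≠ 4 := by
      intro h
      apply hynx
      have h5 : Subgroup.zpowers x ⊓ Subgroup.zpowers y = Subgroup.zpowers y := by
        apply Subgroup.eq_of_le_of_card_ge inf_le_right
        rw [h, Nat.card_zpowers, hy4]
      have : y ∈ Subgroup.zpowers x ⊓ Subgroup.zpowers y := by rw [h5]; exact Subgroup.mem_zpowers y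
      exact this.1
    have h5 : Nat.card ↥(Subgroup.zpowers x ⊓ Subgroup.zpowers y) ≤ 4 := Nat.le_of_dvd (by norm_num) h2
    have h6 : 0 < Nat.card ↥(Subgroup.zpowers x ⊓ Subgroup.zpowers y) := Nat.card_pos
    obtain ⟨d, hd⟩ : ∃ d, d = Nat.card ↥(Subgroup.zpowers x ⊓ Subgroup.zpowers y) := ⟨_, rfl⟩
    rw [← hd] at h1 h2 h3 h4 h5 h6
    interval_cases d
    · exact absurd rfl h3
    · omega
    · omega
    · exact absurd rfl h4
  have hQiso : Nonempty (Q ≃* QuaternionGroup 2) := by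
    apply H7.quaternion_iso 2 (by norm_num) (⟨x, hxQ⟩ : ↥Q) (⟨y, hyQ⟩ : ↥Q)
    · rw [← Subgroup.orderOf_coe]; exact hx4
    · apply Subtype.ext; exact hconj
    · apply Subtype.ext; exact hxy2.symm
    · rw [hQcard]
    · rintro ⟨j, hj⟩
      apply hynx
      refine ⟨j, ?_⟩
      have := congrArg Subtype.val hj
      simpa using this
  -- the centralizer
  obtain ⟨C, hCdef⟩ : ∃ C, C = Subgroup.centralizer ({x, y} : Set G) := ⟨_, rfl⟩
  have hCx : ∀ g ∈ C, g * x = x * g := by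
    intro g hg
    rw [hCdef, Subgroup.mem_centralizer_iff] at hg
    exact (hg x (by simp)).symm
  have hCy : ∀ g ∈ C, g * y = y * g := by
    intro g hg
    rw [hCdef, Subgroup.mem_centralizer_iff] at hg
    exact (hg y (by simp)).symm
  have hCmem : ∀ g, g * x = x * g → g * y = y * g → g ∈ C := by
    intro g h1 h2
    rw [hCdef, Subgroup.mem_centralizer_iff]
    intro h hh
    rcases hh with rfl | rfl
    · exact h1.symm
    · exact h2.symm
  have hQC : Q ⊔ C = ⊤ := by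
    rw [eq_top_iff]
    intro g _
    -- step 1
    obtain ⟨q1, hq1, h1⟩ : ∃ q1 ∈ Q, (q1 * g) * x * (q1 * g)⁻¹ = x := by
      rcases conj_cases hn x g hx4 with h | h
      · exact ⟨1, one_mem _, by rw [one_mul]; exact h⟩
      · refine ⟨y, hyQ, ?_⟩
        calc (y * g) * x * (y * g)⁻¹ = y * (g * x * g⁻¹) * y⁻¹ := by group
          _ = (y * x * y⁻¹)⁻¹ := by rw [h]; group
          _ = x := by rw [hconj, inv_inv]
    obtain ⟨q2, hq2, h2, h3⟩ : ∃ q2 ∈ Q, (q2 * (q1 * g)) * x * (q2 * (q1 * g))⁻¹ = x ∧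
        (q2 * (q1 * g)) * y * (q2 * (q1 * g))⁻¹ = y := by
      rcases conj_cases hn y (q1 * g) hy4 with h | h
      · exact ⟨1, one_mem _, by rw [one_mul]; exact h1, by rw [one_mul]; exact h⟩
      · refine ⟨x, hxQ, ?_, ?_⟩
        · calc (x * (q1 * g)) * x * (x * (q1 * g))⁻¹ = x * ((q1 * g) * x * (q1 * g)⁻¹) * x⁻¹ := by
                group
            _ = x := by rw [h1]; group
        · calc (x * (q1 * g)) * y * (x * (q1 * g))⁻¹ = x * ((q1 * g) * y * (q1 * g)⁻¹) * x⁻¹ := by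
                group
            _ = (x * y * x⁻¹)⁻¹ := by rw [h]; group
            _ = y := by rw [hconj', inv_inv]
    have hmem : q2 * (q1 * g) ∈ C := by
      apply hCmem
      · exact mul_inv_eq_iff_eq_mul.1 h2
      · exact mul_inv_eq_iff_eq_mul.1 h3
    have : g = (q2 * q1)⁻¹ * (q2 * (q1 * g)) := by group
    rw [this]
    exact mul_mem (Subgroup.mem_sup_left (inv_mem (mul_mem hq2 hq1))) (Subgroup.mem_sup_right hmem)
  -- no elements of order 4 in C
  have hD : ∀ g ∈ C, g ^ 4 = 1 → g ^ 2 = 1 := by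
    intro g hg hg4
    have hgx := hCx g hg
    have hgy := hCy g hg
    have hw4 : (g * y) ^ 4 = 1 := by
      rw [(show Commute g y from hgy).mul_pow, hg4, hy44, one_mul]
    have hcw : c ∈ Subgroup.zpowers (g * y) := by
      have h1 : x * (g * y) * x⁻¹ ∈ Subgroup.zpowers (g * y) :=
        (hn _).conj_mem _ (Subgroup.mem_zpowers _) x
      have h2 : c = x * (g * y) * x⁻¹ * (g * y)⁻¹ := by
        have h3 : x * (g * y) * x⁻¹ = g * y⁻¹ := by
          rw [← mul_assoc, ← hgx, mul_assoc g, mul_assoc g, hconj']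
        rw [h3]
        have h4 : g * y⁻¹ * (g * y)⁻¹ = g * (y ^ 2)⁻¹ * g⁻¹ := by group
        have h5 : g * (y ^ 2)⁻¹ = (y ^ 2)⁻¹ * g :=
          (((show Commute g y from hgy).pow_right 2).inv_right).eq
        rw [h4, h5, mul_assoc, mul_inv_cancel, mul_one, ← hcy]
        exact eq_inv_of_mul_eq_one_left (by rw [← pow_two]; exact hc2)
      rw [h2]
      exact mul_mem h1 (inv_mem (Subgroup.mem_zpowers _))
    have hgne : g * y ≠ c := by
      intro h
      apply hyx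
      have h6 : g = y := by
        have : g = c * y⁻¹ := by rw [← h]; group
        rw [this, hcy]; group
      rw [← h6]; exact hgx
    obtain ⟨j, hj⟩ := hcw
    have hj' : (g * y) ^ j = c := hj
    obtain ⟨r, hr, hjr⟩ := zpow_mod4 (g * y) hw4 j
    rw [hjr] at hj'
    interval_cases r
    · exact absurd hj'.symm (by simpa using hc1)
    · exact absurd (by simpa using hj') hgne
    · rw [(show Commute g y from hgy).mul_pow, ← hcy] at hj'
      exact mul_eq_right.1 hj'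
    · exfalso; apply hgne
      have h7 : c * (g * y) = 1 := by rw [← hj', ← pow_succ]; exact hw4
      have h8 : g * y = c⁻¹ := eq_inv_of_mul_eq_one_right h7
      rw [h8]
      exact (eq_inv_of_mul_eq_one_left (by rw [← pow_two]; exact hc2)).symm
  have hD' : ∀ (j : ℕ), ∀ h ∈ C, h ^ (2 ^ j) = 1 → h ^ 2 = 1 := by
    intro j
    induction j with
    | zero => intro h _ hh; rw [pow_zero, pow_one] at hh; rw [hh, one_pow]
    | succ j ih =>
      intro h hh hpow
      rcases Nat.eq_zero_or_pos j with rfl | hj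
      · simpa using hpow
      · obtain ⟨i, rfl⟩ : ∃ i, j = i + 1 := ⟨j - 1, by omega⟩
        apply ih h hh
        have h1 : (h ^ (2 ^ i)) ^ 4 = 1 := by
          rw [← pow_mul, ← hpow]; congr 1; ring
        have h2 := hD _ (pow_mem hh _) h1
        rw [← pow_mul] at h2
        rw [← h2]; congr 1
  -- C is commutative
  have hCcomm : ∀ a ∈ C, ∀ b ∈ C, a * b = b * a := by
    by_contra hcon
    push Not at hcon
    obtain ⟨a, ha, b, hb, hab⟩ := hcon
    have hnC : ∀ H : Subgroup ↥C, H.Normal := by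
      intro H
      have h1 : (H.map C.subtype).Normal := hn _
      have h2 : H = (H.map C.subtype).comap C.subtype :=
        (Subgroup.comap_map_eq_self_of_injective C.subtype_injective H).symm
      rw [h2]; exact h1.comap _
    obtain ⟨x', y', hx', -, -, -⟩ := exists_q8 hnC
      ⟨⟨a, ha⟩, ⟨b, hb⟩, fun h => hab (congrArg Subtype.val h)⟩
    have h4 : (x' : G) ^ 4 = 1 := by
      have : x' ^ 4 = 1 := by rw [← hx']; exact pow_orderOf_eq_one x'
      exact_mod_cast congrArg Subtype.val this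
    have h2 := hD _ x'.2 h4
    have h3 : x' ^ 2 = 1 := Subtype.ext (by simpa using h2)
    have := orderOf_le_of_pow_eq_one (by norm_num) h3
    omega
  obtain ⟨k, m, hm, hkm⟩ := Nat.exists_eq_two_pow_mul_odd (n := Nat.card G) Nat.card_pos.ne'
  obtain ⟨r, hr⟩ := hm
  have h2m : ∀ g ∈ C, (g ^ m) ^ 2 = 1 := by
    intro g hg
    apply hD' k _ (pow_mem hg _)
    rw [← pow_mul, mul_comm, ← hkm]
    exact pow_card_eq_one'
  obtain ⟨A, hA⟩ : ∃ A, A = tor C hCcomm m := ⟨_, rfl⟩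
  obtain ⟨T, hT⟩ : ∃ T, T = tor C hCcomm 2 := ⟨_, rfl⟩
  have hAC : A ≤ C := by rw [hA]; exact fun g hg => hg.1
  have hTC : T ≤ C := by rw [hT]; exact fun g hg => hg.1
  have hAm : ∀ g ∈ A, g ^ m = 1 := by rw [hA]; exact fun g hg => hg.2
  have hT2 : ∀ g ∈ T, g ^ 2 = 1 := by rw [hT]; exact fun g hg => hg.2
  have hCTA : C ≤ T ⊔ A := by
    intro g hg
    have h1 : g = g ^ m * (g ^ (2 * r))⁻¹ := by
      rw [hr, pow_succ]
      have : Commute (g ^ (2 * r)) g := (Commute.refl g).pow_left _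
      rw [this.eq, mul_assoc, mul_inv_cancel, mul_one]
    rw [h1]
    apply mul_mem
    · apply Subgroup.mem_sup_left
      rw [hT]; exact ⟨pow_mem hg _, h2m g hg⟩
    · apply Subgroup.mem_sup_right
      rw [hA]
      refine ⟨inv_mem (pow_mem hg _), ?_⟩
      rw [inv_pow, ← pow_mul, mul_assoc, mul_comm r m, ← mul_assoc, mul_comm 2 m, pow_mul, pow_mul,
        h2m g hg, one_pow, inv_one]
  -- choose E
  obtain ⟨E, ⟨hET, hcE⟩, hEmax⟩ :=
    (Set.toFinite {E : Subgroup G | E ≤ T ∧ c ∉ E}).exists_maximal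
      ⟨⊥, bot_le, by simpa using hc1⟩
  have hTE : T ≤ E ⊔ Subgroup.zpowers c := by
    intro g hg
    by_contra hgn
    have hgE : g ∉ E := fun h => hgn (Subgroup.mem_sup_left h)
    have hcE' : c ∈ E ⊔ Subgroup.zpowers g := by
      by_contra hcn
      have := hEmax (y := E ⊔ Subgroup.zpowers g)
        ⟨sup_le hET (by rw [Subgroup.zpowers_le]; exact hg), hcn⟩ le_sup_left
      exact hgE (this (Subgroup.mem_sup_right (Subgroup.mem_zpowers g)))
    haveI := hn E
    rw [Subgroup.mem_sup_of_normal_left] at hcE'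
    obtain ⟨e, he, z, ⟨j, hj⟩, hez⟩ := hcE'
    have hj' : g ^ j = z := hj
    have hg2 : g ^ (2 : ℤ) = 1 := by exact_mod_cast hT2 g hg
    rcases Int.even_or_odd' j with ⟨i, hi | hi⟩
    · rw [hi, zpow_mul, hg2, one_zpow] at hj'
      rw [← hj', mul_one] at hez
      exact hcE (hez ▸ he)
    · rw [hi, zpow_add, zpow_mul, hg2, one_zpow, one_mul, zpow_one] at hj'
      apply hgn
      have : g = e⁻¹ * c := by rw [← hez, ← hj']; group
      rw [this]
      exact mul_mem (Subgroup.mem_sup_left (inv_mem he))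
        (Subgroup.mem_sup_right (Subgroup.mem_zpowers c))
  have hEC : E ≤ C := hET.trans hTC
  have hEA : E ⊓ A = ⊥ := by
    rw [eq_bot_iff]
    rintro g ⟨hgE, hgA⟩
    have h1 := hT2 g (hET hgE)
    have h2 := hAm g hgA
    rw [hr] at h2
    exact eq_one_of_two_odd g r h1 h2
  refine ⟨Q, E, A, hQiso, ⟨⟨⟨fun a b => Subtype.ext (hCcomm a.1 (hEC a.2) b.1 (hEC b.2))⟩⟩,
    fun a ha => hT2 a (hET ha)⟩, ⟨⟨fun a b => Subtype.ext (hCcomm a.1 (hAC a.2) b.1 (hAC b.2))⟩⟩,
    ?_, hEA, ?_, ?_⟩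
  · -- odd
    by_contra hodd
    rw [Nat.not_odd_iff_even] at hodd
    obtain ⟨g, hg⟩ := exists_prime_orderOf_dvd_card' (G := ↥A) 2 hodd.two_dvd
    have h1 : (g : G) ^ 2 = 1 := by
      have : g ^ 2 = 1 := by rw [← hg]; exact pow_orderOf_eq_one g
      exact_mod_cast congrArg Subtype.val this
    have h2 := hAm g g.2
    rw [hr] at h2
    have h3 : (g : G) = 1 := eq_one_of_two_odd _ r h1 h2
    have h4 : g = 1 := Subtype.ext h3
    rw [h4, orderOf_one] at hg
    omega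
  · rw [eq_bot_iff]
    rintro g ⟨hgQ, hgEA⟩
    have hgC : g ∈ C := (sup_le hEC hAC) hgEA
    -- g ∈ Q ∩ C is 1 or c
    have hg1c : g = 1 ∨ g = c := by
      rw [hQ] at hgQ
      haveI := hn (Subgroup.zpowers x)
      have hgQ' : g ∈ Subgroup.zpowers x ⊔ Subgroup.zpowers y := hgQ
      rw [Subgroup.mem_sup_of_normal_left] at hgQ'
      obtain ⟨a, ha, b, hb, hab⟩ := hgQ'
      have hax : a * x = x * a := by
        obtain ⟨j, hj⟩ := ha
        rw [← hj]; exact ((Commute.refl x).zpow_left j).eq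
      have hbx : b * x = x * b := by
        have h1 := hCx g hgC
        rw [← hab, mul_assoc, ← mul_assoc x, ← hax, mul_assoc] at h1
        exact mul_left_cancel h1
      have hbz : b ∈ Subgroup.zpowers x := by
        rcases zp_cases y x b hy44 hyx hb hbx with h | h
        · rw [h]; exact one_mem _
        · rw [h, ← hxy2]; exact pow_mem (Subgroup.mem_zpowers x) 2
      have hgz : g ∈ Subgroup.zpowers x := hab ▸ mul_mem ha hbz
      rw [hc]
      exact zp_cases x y g hx44 hxy hgz (hCy g hgC)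
    rcases hg1c with h | h
    · exact h
    · exfalso
      haveI := hn E
      have hgEA' : g ∈ E ⊔ A := hgEA
      rw [Subgroup.mem_sup_of_normal_left] at hgEA'
      obtain ⟨e, he, a, ha, hea⟩ := hgEA'
      have ha2 : a ^ 2 = 1 := by
        have h1 : a = e⁻¹ * c := by rw [← h, ← hea]; group
        have hcC : c ∈ C := h ▸ hgC
        rw [h1, (show Commute e⁻¹ c from hCcomm _ (inv_mem (hEC he)) _ hcC).mul_pow, hc2, inv_pow,
          hT2 e (hET he), inv_one, one_mul]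
      have h2 := hAm a ha
      rw [hr] at h2
      have ha1 : a = 1 := eq_one_of_two_odd a r ha2 h2
      rw [ha1, mul_one] at hea
      exact hcE (h ▸ hea ▸ he)
  · rw [eq_top_iff, ← hQC]
    apply sup_le le_sup_left
    refine hCTA.trans (sup_le (hTE.trans (sup_le ?_ ?_)) ?_)
    · exact le_sup_left.trans le_sup_right
    · rw [Subgroup.zpowers_le]; exact Subgroup.mem_sup_left hcQ
    · exact le_sup_right.trans le_sup_right

end Cfsg.Agent.S4211
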