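import Mathlib
import Cfsg.Statements.S4217
import Cfsg.Agent.Lib_lead_Gas

set_option autoImplicit false
open Cfsg

namespace Cfsg.Agent.S4217

open Subgroup Cfsg.Agent.LeadGas
open scoped IsMulCommutative

/-- the integers `n` for which there is a crossed map `G → A` restricting to `k ↦ k ^ n` on `A`. -/
def NSet {G : Type*} [Group G] (A : Subgroup G) [A.Normal] [IsMulCommutative A] : AddSubgroup ℤ where
  carrier := {n | ∃ c : G → A, (∀ g g', c (g * g') = c g * (MulAut.conjNormal g : MulAut A) (c g')) ∧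
    ∀ k : A, c k = k ^ n}
  add_mem' := by
    rintro a b ⟨c, hc1, hc2⟩ ⟨d, hd1, hd2⟩
    refine ⟨fun g => c g * d g, ?_, ?_⟩
    · intro g g'
      show c (g * g') * d (g * g') = c g * d g * (MulAut.conjNormal g : MulAut A) (c g' * d g')
      rw [hc1, hd1, map_mul]
      exact mul_mul_mul_comm _ _ _ _
    · intro k
      show c k * d k = k ^ (a + b)
      rw [hc2, hd2, zpow_add]
  zero_mem' := ⟨fun _ => 1, by simp, by simp⟩
  neg_mem' := by
    rintro a ⟨c, hc1, hc2⟩
    refine ⟨fun g => (c g)⁻¹, ?_, ?_⟩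
    · intro g g'
      show (c (g * g'))⁻¹ = (c g)⁻¹ * (MulAut.conjNormal g : MulAut A) (c g')⁻¹
      rw [hc1, mul_inv, map_inv]
    · intro k
      show (c k)⁻¹ = k ^ (-a)
      rw [hc2, zpow_neg]

/-- Let `A` be an abelian normal subgroup of the finite group `G`. Then `A` has a complement in `G` if and only if, for every prime `p` dividing the index of `A`, there are a Sylow `p`-subgroup `S` of `G/A` and a subgroup `K` of `G` with `K ∩ A = 1` and `KA` equal to the preimage of `S` (that is, `A` has a complement in the preimage of a Sylow `p`-subgroup of `G/A`). -/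
theorem result {G : Type*} [Group G] [Finite G] (A : Subgroup G) [A.Normal] (hA : IsMulCommutative A) : (∃ K : Subgroup G, K.IsComplement' A) ↔ ∀ p : ℕ, p.Prime → p ∣ A.index → ∃ (S : Sylow p (G ⧸ A)) (K : Subgroup G), K ⊓ A = ⊥ ∧ K ⊔ A = (S : Subgroup (G ⧸ A)).comap (QuotientGroup.mk' A) := by
  haveI := hA
  constructor
  · rintro ⟨K, hK⟩ p hp _
    haveI : Fact p.Prime := ⟨hp⟩
    let S : Sylow p (G ⧸ A) := default
    refine ⟨S, K ⊓ (S : Subgroup (G ⧸ A)).comap (QuotientGroup.mk' A), ?_, ?_⟩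
    · rw [eq_bot_iff, ← hK.disjoint.eq_bot]
      exact inf_le_inf_right _ inf_le_left
    · have hAU : A ≤ (S : Subgroup (G ⧸ A)).comap (QuotientGroup.mk' A) := by
        conv_lhs => rw [← QuotientGroup.ker_mk' A]
        exact ker_le_comap _ _
      apply le_antisymm (sup_le inf_le_right hAU)
      intro u hu
      have h1 : u ∈ K ⊔ A := by rw [hK.sup_eq_top]; trivial
      obtain ⟨k, hk, a, ha, rfl⟩ := mem_sup_of_normal_right.mp h1
      refine mul_mem (mem_sup_left (mem_inf.mpr ⟨hk, ?_⟩)) (mem_sup_right ha)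
      have h2 := mul_mem hu (inv_mem (hAU ha))
      rwa [mul_assoc, mul_inv_cancel, mul_one] at h2
  · intro h
    by_cases hidx : A.index = 1
    · rw [index_eq_one] at hidx
      exact ⟨⊥, by rw [hidx]; exact isComplement'_bot_top⟩
    have hmem : ∀ p : ℕ, p.Prime → p ∣ A.index → ∃ n : ℕ, (n : ℤ) ∈ NSet A ∧ n ∣ A.index ∧ ¬ p ∣ n := by
      intro p hp hpd
      haveI : Fact p.Prime := ⟨hp⟩
      obtain ⟨S, K, hKA, hKU⟩ := h p hp hpd
      set U := (S : Subgroup (G ⧸ A)).comap (QuotientGroup.mk' A) with hU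
      have hAU : A ≤ U := by rw [← hKU]; exact le_sup_right
      have := Fintype.ofFinite (G ⧸ U)
      obtain ⟨r, hr, -, -⟩ := exists_crossed (K := A) (U := U) (A := K) hKA (by rw [sup_comm]; exact hKU)
      refine ⟨U.index, ⟨cores U r, cores_mul hr, fun k => ?_⟩, index_dvd_of_le hAU, ?_⟩
      · rw [cores_of_mem hr hAU, zpow_natCast]
      · rw [hU, index_comap_of_surjective _ (QuotientGroup.mk'_surjective A)]
        exact S.not_dvd_index
    obtain ⟨d, hd⟩ := Int.subgroup_cyclic (NSet A)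
    have hdvd : ∀ n : ℤ, n ∈ NSet A → d ∣ n := by
      intro n hn
      rw [hd, AddSubgroup.mem_closure_singleton] at hn
      obtain ⟨m, rfl⟩ := hn
      exact ⟨m, by rw [smul_eq_mul, mul_comm]⟩
    have hd1 : d.natAbs = 1 := by
      by_contra hne
      obtain ⟨q, hq, hqd⟩ := Nat.exists_prime_and_dvd hne
      obtain ⟨p₀, hp₀, hp₀d⟩ := Nat.exists_prime_and_dvd hidx
      obtain ⟨n₀, hn₀, hn₀d, -⟩ := hmem p₀ hp₀ hp₀d
      have h1 : q ∣ n₀ := by
        have := Int.natAbs_dvd_natAbs.mpr (hdvd _ hn₀)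
        rw [Int.natAbs_natCast] at this
        exact hqd.trans this
      obtain ⟨n₁, hn₁, -, hn₁q⟩ := hmem q hq (h1.trans hn₀d)
      apply hn₁q
      have := Int.natAbs_dvd_natAbs.mpr (hdvd _ hn₁)
      rw [Int.natAbs_natCast] at this
      exact hqd.trans this
    have hone : (1 : ℤ) ∈ NSet A := by
      have hdm : d ∈ NSet A := by
        rw [hd]; exact AddSubgroup.subset_closure rfl
      rcases Int.natAbs_eq d with h2 | h2
      · rw [hd1] at h2
        rw [h2] at hdm
        exact_mod_cast hdm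
      · rw [hd1] at h2
        rw [h2] at hdm
        have := (NSet A).neg_mem hdm
        simpa using this
    obtain ⟨c, hc1, hc2⟩ := hone
    have hc : Crossed A ⊤ c := ⟨fun u _ v _ => hc1 u v, fun k => by rw [hc2, zpow_one]⟩
    obtain ⟨H, hH, -⟩ := exists_complement hc
    exact ⟨H, hH.symm⟩

end Cfsg.Agent.S4217
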