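import Cfsg.Statements.S4219
import Cfsg.Agent.Lib_helper1_Basic

set_option autoImplicit false
open Cfsg

namespace Cfsg.Agent.S4219

open scoped Pointwise in
theorem aux {G : Type*} [Group G] [Finite G] {α : Type*} [Fintype α] [MulAction G α] {t : ℕ}
    (hG : MulAction.IsMultiplyPretransitive G α t) (x : Fin t ↪ α) {p : ℕ} [Fact p.Prime]
    (H : Subgroup G) (hH : ∀ g : G, g ∈ H ↔ g • x = x)
    (P : Sylow p H) (a : Fin t ↪ α)
    (ha : ∀ i, a i ∈ MulAction.fixedPoints ((P : Subgroup H).map H.subtype) α) :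
    ∃ g ∈ Subgroup.normalizer ((((P : Subgroup H).map H.subtype) : Subgroup G) : Set G),
      g • x = a := by
  set P' : Subgroup G := (P : Subgroup H).map H.subtype with hP'
  obtain ⟨g₀, hg₀⟩ := hG.exists_smul_eq x a
  have hPa : ∀ u ∈ P', u • a = a := by
    intro u hu
    ext i
    rw [Function.Embedding.smul_apply]
    exact (ha i) ⟨u, hu⟩
  have hRH : MulAut.conj g₀⁻¹ • P' ≤ H := by
    rintro _ ⟨u, hu, rfl⟩
    rw [hH]
    change (g₀⁻¹ * u * g₀⁻¹⁻¹) • x = x
    rw [inv_inv, mul_smul, mul_smul, hg₀, hPa u hu, ← hg₀, inv_smul_smul]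
  have hcardP' : Nat.card P' = Nat.card P :=
    Subgroup.card_map_of_injective H.subtype_injective
  have hRcard : Nat.card ((MulAut.conj g₀⁻¹ • P').subgroupOf H) = Nat.card P := by
    rw [Cfsg.Agent.H1.card_subgroupOf_of_le hRH, Cfsg.Agent.H1.card_conj_smul, hcardP']
  have hRp : IsPGroup p ((MulAut.conj g₀⁻¹ • P').subgroupOf H) := by
    obtain ⟨n, hn⟩ := P.2.exists_card_eq
    apply IsPGroup.of_card (n := n)
    rw [hRcard]; exact hn
  obtain ⟨Q, hQ⟩ := hRp.exists_le_sylow
  have hQe : (MulAut.conj g₀⁻¹ • P').subgroupOf H = Q := by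
    apply Subgroup.eq_of_le_of_card_ge hQ
    rw [hRcard]
    exact (Nat.card_congr (Sylow.equiv Q P).toEquiv).le
  obtain ⟨h, hh⟩ := MulAction.exists_smul_eq H P Q
  have h1 : MulAut.conj (h : G) • P' = MulAut.conj g₀⁻¹ • P' := by
    have h2 : ((h • P : Sylow p H) : Subgroup H) = (MulAut.conj g₀⁻¹ • P').subgroupOf H := by
      rw [hh, hQe]
    rw [Sylow.coe_subgroup_smul] at h2
    have h3 := congrArg (Subgroup.map H.subtype) h2
    rw [Cfsg.Agent.H1.map_conj_smul, Subgroup.subgroupOf_map_subtype, inf_eq_left.2 hRH] at h3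
    exact h3
  refine ⟨g₀ * h, ?_, ?_⟩
  · rw [← Cfsg.Agent.H1.conj_smul_eq_iff_mem_normalizer, map_mul, mul_smul, h1, ← mul_smul,
      ← map_mul, mul_inv_cancel, map_one, one_smul]
  · rw [mul_smul]
    have : (h : G) • x = x := (hH _).1 h.2
    rw [this, hg₀]

/-- Let a finite group `G` act `t`-fold transitively on a finite set, let `H` be the stabilizer of `t` distinct points and `P` a Sylow `p`-subgroup of `H`. Then the normalizer of `P` in `G` is `t`-fold transitive on the fixed points of `P`: any `t` distinct fixed points of `P` can be carried to any other `t` distinct fixed points of `P` by an element normalizing `P`. -/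
theorem result {G : Type*} [Group G] [Finite G] {α : Type*} [Fintype α] [MulAction G α] {t : ℕ} (hG : MulAction.IsMultiplyPretransitive G α t) (x : Fin t ↪ α) {p : ℕ} [Fact p.Prime] (P : Sylow p (MulAction.stabilizer G x)) (a b : Fin t ↪ α) (ha : ∀ i, a i ∈ MulAction.fixedPoints ((P : Subgroup (MulAction.stabilizer G x)).map (MulAction.stabilizer G x).subtype) α) (hb : ∀ i, b i ∈ MulAction.fixedPoints ((P : Subgroup (MulAction.stabilizer G x)).map (MulAction.stabilizer G x).subtype) α) : ∃ g ∈ Subgroup.normalizer ((((P : Subgroup (MulAction.stabilizer G x)).map (MulAction.stabilizer G x).subtype) : Subgroup G) : Set G), g • a = b := by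
  obtain ⟨g1, hg1, hg1'⟩ := aux hG x _ (fun _ => MulAction.mem_stabilizer_iff) P a ha
  obtain ⟨g2, hg2, hg2'⟩ := aux hG x _ (fun _ => MulAction.mem_stabilizer_iff) P b hb
  refine ⟨g2 * g1⁻¹, mul_mem hg2 (inv_mem hg1), ?_⟩
  rw [mul_smul, ← hg1', inv_smul_smul, hg2']

end Cfsg.Agent.S4219
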