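import Cfsg.Statements.S4224
import Cfsg.Agent.Lib_helper2_Regular

set_option autoImplicit false
open Cfsg

namespace Cfsg.Agent.S4224

/-- In a regular `p`-group, for all elements `a`, `b` and every power `q = p^k`: `a^q` commutes with `b` if and only if the commutator `a⁻¹b⁻¹ab` has `q`-th power equal to `1`. -/
theorem result {G : Type*} [Group G] [Finite G] {p : ℕ} [Fact p.Prime] (hG : Cfsg.IsRegularPGroup p G) (a b : G) (k : ℕ) : a ^ p ^ k * b = b * a ^ p ^ k ↔ (a⁻¹ * b⁻¹ * a * b) ^ p ^ k = 1 := by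
  have h1 := H2.regular_pow_eq_iff hG a⁻¹ (b⁻¹ * a⁻¹ * b⁻¹⁻¹) k
  have h2 : a⁻¹ * (b⁻¹ * a⁻¹ * b⁻¹⁻¹)⁻¹ = a⁻¹ * b⁻¹ * a * b := by group
  rw [h2, conj_pow, inv_inv, inv_pow] at h1
  rw [← h1]
  constructor
  · intro h
    have h3 : (a ^ p ^ k)⁻¹ * b⁻¹ = b⁻¹ * (a ^ p ^ k)⁻¹ := by
      rw [← mul_inv_rev, ← mul_inv_rev, h]
    rw [← h3, mul_assoc, inv_mul_cancel, mul_one]
  · intro h
    have h3 : b * (a ^ p ^ k)⁻¹ = (a ^ p ^ k)⁻¹ * b := by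
      conv_lhs => rw [h]
      group
    have h4 : (a ^ p ^ k) * (b * (a ^ p ^ k)⁻¹) * (a ^ p ^ k) =
        (a ^ p ^ k) * ((a ^ p ^ k)⁻¹ * b) * (a ^ p ^ k) := by rw [h3]
    simpa [mul_assoc] using h4

end Cfsg.Agent.S4224
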