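import Cfsg.Statements.S4275
import Mathlib

set_option autoImplicit false
open Cfsg

namespace Cfsg.Agent.S4275

/-- Let G be a transitive group of permutations of a finite set Ω, let o ∈ Ω, and let α be an automorphism of G. Then α is induced by conjugation by a permutation of Ω normalizing G if and only if the image under α of the stabilizer of o fixes some point of Ω. -/
theorem result {Ω : Type*} [Fintype Ω] (G : Subgroup (Equiv.Perm Ω)) (htr : MulAction.IsPretransitive G Ω) (o : Ω) (α : G ≃* G) : (∃ σ : Equiv.Perm Ω, σ ∈ Subgroup.normalizer (G : Set (Equiv.Perm Ω)) ∧ ∀ g : G, ((α g : G) : Equiv.Perm Ω) = σ * (g : Equiv.Perm Ω) * σ⁻¹) ↔ ∃ ω : Ω, ∀ g ∈ (MulAction.stabilizer G o).map α.toMonoidHom, g • ω = ω := by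
  constructor
  · rintro ⟨σ, -, hσ⟩
    refine ⟨σ o, ?_⟩
    rintro _ ⟨g, hg, rfl⟩
    show ((α g : G) : Equiv.Perm Ω) (σ o) = σ o
    rw [hσ g]
    have hgo : (g : Equiv.Perm Ω) o = o := hg
    simp [hgo]
  · rintro ⟨ω, hω⟩
    have hex : ∀ x : Ω, ∃ g : G, g • o = x := fun x => htr.exists_smul_eq o x
    choose γ hγ using hex
    let σ₀ : Ω → Ω := fun x => α (γ x) • ω
    have hσ₀ : ∀ g : G, σ₀ (g • o) = α g • ω := by
      intro g
      have h1 : (γ (g • o))⁻¹ * g ∈ MulAction.stabilizer G o := by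
        rw [MulAction.mem_stabilizer_iff, mul_smul, inv_smul_eq_iff, hγ]
      have h2 := hω (α ((γ (g • o))⁻¹ * g)) ⟨_, h1, rfl⟩
      rw [map_mul, map_inv, mul_smul, inv_smul_eq_iff] at h2
      exact h2.symm
    have hsurj : Function.Surjective σ₀ := by
      intro z
      obtain ⟨h, hh⟩ := htr.exists_smul_eq ω z
      obtain ⟨g, rfl⟩ := α.surjective h
      exact ⟨g • o, by rw [hσ₀, hh]⟩
    have hbij : Function.Bijective σ₀ := ⟨Finite.injective_iff_surjective.2 hsurj, hsurj⟩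
    let σ : Equiv.Perm Ω := Equiv.ofBijective σ₀ hbij
    have hconj : ∀ g : G, ((α g : G) : Equiv.Perm Ω) = σ * (g : Equiv.Perm Ω) * σ⁻¹ := by
      intro g
      rw [eq_mul_inv_iff_mul_eq]
      ext x
      obtain ⟨h, rfl⟩ := htr.exists_smul_eq o x
      show ((α g : G) : Equiv.Perm Ω) (σ₀ (h • o)) = σ₀ ((g : Equiv.Perm Ω) (h • o))
      have e : (g : Equiv.Perm Ω) (h • o) = (g * h) • o := by rw [mul_smul]; rfl
      rw [e, hσ₀, hσ₀, map_mul, mul_smul]; rfl
    refine ⟨σ, ?_, hconj⟩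
    rw [Subgroup.mem_normalizer_iff]
    intro n
    constructor
    · intro hn
      rw [← hconj ⟨n, hn⟩]; exact (α ⟨n, hn⟩).2
    · intro hn
      obtain ⟨g, hg⟩ := α.surjective ⟨_, hn⟩
      have h1 := hconj g
      rw [hg] at h1
      have h2 : n = (g : Equiv.Perm Ω) := by
        have h3 : σ * n * σ⁻¹ = σ * (g : Equiv.Perm Ω) * σ⁻¹ := h1
        simpa using h3
      rw [h2]; exact g.2

end Cfsg.Agent.S4275
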