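import Cfsg.Statements.S4283
import Mathlib
import Cfsg.Agent.Lib_helper1_Basic
import Cfsg.Agent.Lib_helper3_FrobA
import Cfsg.Agent.Lib_lead_Frob
import Cfsg.Agent.Lib_lead_Frob3

set_option autoImplicit false
open Cfsg

namespace Cfsg.Agent.S4283

open scoped Pointwise

theorem core {G : Type*} [Group G] [Finite G] (K H Z : Subgroup G) [Z.Normal]
    (hZm : ∀ z, z ∈ Z ↔ ∀ g, g * z = z * g) (hZK : Z ≤ K) (hZH : Z ≤ H)
    (hK : IsMulCommutative K) (hH : IsMulCommutative H)
    (hFrob' : Cfsg.IsFrobeniusComplement (H.map (QuotientGroup.mk' Z)))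
    (hker' : Cfsg.frobeniusKernel (H.map (QuotientGroup.mk' Z)) = (K.map (QuotientGroup.mk' Z) : Set (G ⧸ Z))) :
    Set.range (fun x : G => (Subgroup.centralizer ({x} : Set G)).index) = ({1, K.index, H.index} : Set ℕ) ∧
      K.index.Coprime H.index := by
  classical
  obtain ⟨π, hπ⟩ : ∃ π : G →* G ⧸ Z, π = QuotientGroup.mk' Z := ⟨_, rfl⟩
  rw [← hπ] at hFrob' hker'
  have hπs : Function.Surjective π := by rw [hπ]; exact QuotientGroup.mk'_surjective Z
  have hπ1 : ∀ x, π x = 1 ↔ x ∈ Z := by
    intro x; rw [hπ]; exact QuotientGroup.eq_one_iff x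
  have hmap : ∀ L : Subgroup G, Z ≤ L → ∀ x, π x ∈ L.map π ↔ x ∈ L := by
    intro L hL x
    constructor
    · rintro ⟨l, hl, hlx⟩
      have h1 : π (l⁻¹ * x) = 1 := by rw [map_mul, map_inv, hlx, inv_mul_cancel]
      have h2 := hL ((hπ1 _).mp h1)
      have h3 := mul_mem hl h2
      rwa [mul_inv_cancel_left] at h3
    · intro hx; exact ⟨x, hx, rfl⟩
  have hHc : ∀ a ∈ H, ∀ b ∈ H, a * b = b * a :=
    fun a ha b hb => congrArg Subtype.val (hH.is_comm.comm ⟨a, ha⟩ ⟨b, hb⟩)
  have hKc : ∀ a ∈ K, ∀ b ∈ K, a * b = b * a :=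
    fun a ha b hb => congrArg Subtype.val (hK.is_comm.comm ⟨a, ha⟩ ⟨b, hb⟩)
  have memC : ∀ y g : G, g ∈ Subgroup.centralizer ({y} : Set G) ↔ g * y = y * g := by
    intro y g; rw [Subgroup.mem_centralizer_singleton_iff]
  -- centralisers of elements in conjugates of H
  have LH : ∀ b x : G, b⁻¹ * x * b ∈ H → x ∉ Z →
      (Subgroup.centralizer ({x} : Set G)).index = H.index := by
    intro b x hx hxZ
    have hx'Z : b⁻¹ * x * b ∉ Z := by
      intro h
      apply hxZ
      have h1 := (hZm _).mp h b
      have h2 : x = b * (b⁻¹ * x * b) * b⁻¹ := by group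
      rw [h2, h1, mul_assoc, mul_inv_cancel, mul_one]
      exact h
    have hC : Subgroup.centralizer ({x} : Set G) = MulAut.conj b • H := by
      ext g
      rw [memC, Cfsg.Agent.H1.mem_conj_smul]
      constructor
      · intro hg
        rw [← hmap H hZH]
        apply Cfsg.Agent.H3.frob_mem_of_conj_mem hFrob' ((hmap H hZH _).mpr hx)
          (fun h => hx'Z ((hπ1 _).mp h))
        have h1 : (b⁻¹ * g * b)⁻¹ * (b⁻¹ * x * b) * (b⁻¹ * g * b) = b⁻¹ * x * b := by
          calc (b⁻¹ * g * b)⁻¹ * (b⁻¹ * x * b) * (b⁻¹ * g * b) = b⁻¹ * (g⁻¹ * (x * g)) * b := by group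
            _ = b⁻¹ * (g⁻¹ * (g * x)) * b := by rw [hg]
            _ = b⁻¹ * x * b := by group
        rw [← map_inv, ← map_mul, ← map_mul, h1]
        exact (hmap H hZH _).mpr hx
      · intro hg
        have h1 := hHc _ hg _ hx
        calc g * x = b * ((b⁻¹ * g * b) * (b⁻¹ * x * b)) * b⁻¹ := by group
          _ = b * ((b⁻¹ * x * b) * (b⁻¹ * g * b)) * b⁻¹ := by rw [h1]
          _ = x * g := by group
    have e1 := Subgroup.card_mul_index (Subgroup.centralizer ({x} : Set G))
    have e2 := Subgroup.card_mul_index H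
    rw [hC, Cfsg.Agent.H1.card_conj_smul] at e1
    rw [hC]
    exact Nat.eq_of_mul_eq_mul_left Nat.card_pos (e1.trans e2.symm)
  have LK : ∀ x ∈ K, x ∉ Z → (Subgroup.centralizer ({x} : Set G)).index = K.index := by
    intro x hx hxZ
    have hC : Subgroup.centralizer ({x} : Set G) = K := by
      apply le_antisymm
      · intro g hg
        rw [memC] at hg
        by_contra hgK
        have h1 : π g ∉ Cfsg.frobeniusKernel (H.map π) := by
          rw [hker']
          exact fun h => hgK ((hmap K hZK g).mp h)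
        have h2 : π g ≠ 1 ∧ ∃ a : G ⧸ Z, π g ∈ MulAut.conj a • (H.map π) := by
          unfold Cfsg.frobeniusKernel at h1
          simp only [Set.mem_setOf_eq, not_or, not_forall, not_not] at h1
          exact h1
        obtain ⟨hg1, a, ha⟩ := h2
        have h3 : π x ∈ MulAut.conj a • (H.map π) := by
          apply Cfsg.Agent.H3.frob_mem_of_conj_mem (Cfsg.Agent.LeadFrob.frob_conj hFrob' a) ha hg1
          rw [← map_inv, ← map_mul, ← map_mul]
          have : x⁻¹ * g * x = g := by rw [mul_assoc, hg, inv_mul_cancel_left]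
          rw [this]; exact ha
        have h4 : π x ∈ Cfsg.frobeniusKernel (H.map π) := by
          rw [hker']; exact (hmap K hZK x).mpr hx
        rcases h4 with h4 | h4
        · exact hxZ ((hπ1 x).mp h4)
        · exact h4 a h3
      · intro g hg
        rw [memC]; exact hKc g hg x hx
    rw [hC]
  have LZ : ∀ x ∈ Z, (Subgroup.centralizer ({x} : Set G)).index = 1 := by
    intro x hx
    rw [Subgroup.index_eq_one, eq_top_iff]
    intro g _
    rw [memC]; exact (hZm x).mp hx g
  have cover : ∀ x : G, x ∈ K ∨ ∃ b, b⁻¹ * x * b ∈ H := by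
    intro x
    by_cases hx : x ∈ K
    · left; exact hx
    · right
      have h1 : π x ∉ Cfsg.frobeniusKernel (H.map π) := by
        rw [hker']
        exact fun h => hx ((hmap K hZK x).mp h)
      unfold Cfsg.frobeniusKernel at h1
      simp only [Set.mem_setOf_eq, not_or, not_forall, not_not] at h1
      obtain ⟨-, a, ha⟩ := h1
      obtain ⟨b, rfl⟩ := hπs a
      rw [Cfsg.Agent.H1.mem_conj_smul, ← map_inv, ← map_mul, ← map_mul, hmap H hZH] at ha
      exact ⟨b, ha⟩
  -- indices
  have iH : (H.map π).index = H.index := by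
    rw [← Subgroup.index_comap_of_surjective _ hπs]
    congr 1
    ext x
    rw [Subgroup.mem_comap, hmap H hZH]
  have iK : (K.map π).index = K.index := by
    rw [← Subgroup.index_comap_of_surjective _ hπs]
    congr 1
    ext x
    rw [Subgroup.mem_comap, hmap K hZK]
  have cK : Nat.card (K.map π) = (H.map π).index :=
    Cfsg.Agent.LeadFrob.card_kernel_subgroup hFrob' hker'.symm
  have iK' : (K.map π).index = Nat.card (H.map π) := by
    have e1 := Subgroup.card_mul_index (K.map π)
    have e2 := Subgroup.card_mul_index (H.map π)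
    rw [cK] at e1
    rw [mul_comm] at e2
    have hpos : 0 < (H.map π).index := Nat.pos_of_ne_zero (Subgroup.index_ne_zero_of_finite)
    exact Nat.eq_of_mul_eq_mul_left hpos (e1.trans e2.symm)
  have hcop := Cfsg.Agent.LeadFrob.frob_coprime hFrob'
  refine ⟨?_, ?_⟩
  · ext m
    simp only [Set.mem_range, Set.mem_insert_iff, Set.mem_singleton_iff]
    constructor
    · rintro ⟨x, rfl⟩
      by_cases hxZ : x ∈ Z
      · left; exact LZ x hxZ
      · rcases cover x with hx | ⟨b, hb⟩
        · right; left; exact LK x hx hxZ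
        · right; right; exact LH b x hb hxZ
    · rintro (rfl | rfl | rfl)
      · exact ⟨1, LZ 1 (one_mem Z)⟩
      · -- an element of K outside Z
        have hne : K.map π ≠ ⊥ := by
          intro h
          rw [h, Subgroup.card_bot] at cK
          exact hFrob'.2.1 (Subgroup.index_eq_one.mp cK.symm)
        obtain ⟨⟨u, hu⟩, hu1⟩ := (Subgroup.ne_bot_iff_exists_ne_one).mp hne
        obtain ⟨x, rfl⟩ := hπs u
        refine ⟨x, LK x ((hmap K hZK x).mp hu) (fun h => hu1 (Subtype.ext ((hπ1 x).mpr h)))⟩
      · obtain ⟨⟨u, hu⟩, hu1⟩ := (Subgroup.ne_bot_iff_exists_ne_one).mp hFrob'.1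
        obtain ⟨x, rfl⟩ := hπs u
        refine ⟨x, LH 1 x (by simpa using (hmap H hZH x).mp hu)
          (fun h => hu1 (Subtype.ext ((hπ1 x).mpr h)))⟩
  · rw [← iK, ← iH, iK']
    exact hcop.symm

/-- Let G be a finite group with centre Z and let K, H be abelian subgroups of G containing Z such that G/Z is a Frobenius group with complement H/Z and kernel K/Z. Then the conjugacy class sizes of G are exactly 1, [G : K] and [G : H], and these two indices are coprime. (This is the converse half of the characterization of finite groups whose conjugacy class sizes are exactly 1, m and n with m and n coprime.) -/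
theorem result {G : Type*} [Group G] [Finite G] (K H : Subgroup G) (hZK : Subgroup.center G ≤ K) (hZH : Subgroup.center G ≤ H) (hK : IsMulCommutative K) (hH : IsMulCommutative H) (hFrob : Cfsg.IsFrobeniusComplement (H.map (QuotientGroup.mk' (Subgroup.center G)))) (hker : Cfsg.frobeniusKernel (H.map (QuotientGroup.mk' (Subgroup.center G))) = (K.map (QuotientGroup.mk' (Subgroup.center G)) : Set (G ⧸ Subgroup.center G))) : Set.range (fun x : G => (Subgroup.centralizer ({x} : Set G)).index) = ({1, K.index, H.index} : Set ℕ) ∧ K.index.Coprime H.index := by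
  exact core K H (Subgroup.center G) (fun z => Subgroup.mem_center_iff) hZK hZH hK hH hFrob hker

end Cfsg.Agent.S4283
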