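import Cfsg.Statements.S4293
import Mathlib
import Cfsg.Agent.Lib_lead_Frob5

set_option autoImplicit false
open Cfsg

namespace Cfsg.Agent.S4293

open Cfsg.Agent

/-- universe-polymorphic version: a fixed-point-free action gives a Frobenius group. -/
theorem exists_frob_of_fpf' {V C : Type*} [Group V] [Finite V] [Nontrivial V] [Group C] [Finite C]
    [Nontrivial C] (φ : C →* MulAut V) (h : ∀ c : C, c ≠ 1 → ∀ v : V, φ c v = v → v = 1) :
    ∃ (L : Type) (_ : Group L) (_ : Finite L) (H : Subgroup L),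
      Cfsg.IsFrobeniusComplement H ∧ Nonempty (C ≃* H) := by
  haveI : Small.{0} V := Countable.toSmall V
  haveI : Small.{0} C := Countable.toSmall C
  let eV : Shrink.{0} V ≃* V := Shrink.mulEquiv
  let eC : Shrink.{0} C ≃* C := Shrink.mulEquiv
  haveI : Finite (Shrink.{0} V) := Finite.of_equiv _ eV.symm.toEquiv
  haveI : Finite (Shrink.{0} C) := Finite.of_equiv _ eC.symm.toEquiv
  apply LeadFrob.frob_transport eC.symm
  apply LeadFrob.exists_frob_of_fpf
    ((MulAut.congr eV.symm).toMonoidHom.comp (φ.comp eC.toMonoidHom))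
  intro c hc v hv
  have h1 : eV.symm (φ (eC c) (eV v)) = v := hv
  have h2 : φ (eC c) (eV v) = eV v := by
    have h5 := congrArg eV h1
    simpa using h5
  have h3 : eC c ≠ 1 := by
    intro h4; apply hc
    exact eC.injective (by rw [h4, map_one])
  have h4 := h (eC c) h3 (eV v) h2
  exact eV.injective (by rw [h4, map_one])


theorem core {D : Type*} [DivisionRing D] (H : Subgroup Dˣ) [Finite H] (hH : H ≠ ⊥) (p : ℕ) (hp0 : p ≠ 0)
    (hcop : ∀ h : H, Nat.Coprime (orderOf h) p)
    (hunit : ∀ r : ℤ, (p : ℤ) ∣ r - 1 → (r : D) ≠ 0) :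
    ∃ (L : Type) (_ : Group L) (_ : Finite L) (C : Subgroup L),
      Cfsg.IsFrobeniusComplement C ∧ Nonempty (H ≃* C) := by
  classical
  obtain ⟨Hm, hHm⟩ : ∃ Hm : Submonoid D, Hm = H.toSubmonoid.map (Units.coeHom D) := ⟨_, rfl⟩
  have hHmfin : (Hm : Set D).Finite := by
    rw [hHm]
    have : ((H.toSubmonoid.map (Units.coeHom D) : Submonoid D) : Set D) =
        (Units.coeHom D) '' (H : Set Dˣ) := rfl
    rw [this]
    exact (Set.toFinite _).image _
  obtain ⟨R, hR⟩ : ∃ R : Subalgebra ℤ D, R = Algebra.adjoin ℤ (Hm : Set D) := ⟨_, rfl⟩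
  have hfg : (Subalgebra.toSubmodule R).FG := by
    rw [hR, Algebra.adjoin_eq_span, Submonoid.closure_eq]
    exact Submodule.fg_span hHmfin
  haveI hRfin : Module.Finite ℤ R := (Module.Finite.iff_fg (N := Subalgebra.toSubmodule R)).2 hfg
  have hmem : ∀ h : H, (((h : Dˣ) : D)) ∈ R := by
    intro h
    rw [hR]
    apply Algebra.subset_adjoin
    rw [hHm]
    exact ⟨h, h.2, rfl⟩
  let f0 : H →* R :=
    { toFun := fun h => ⟨((h : Dˣ) : D), hmem h⟩
      map_one' := rfl
      map_mul' := fun a b => rfl }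
  let I : Submodule R R := LinearMap.range ((p : ℕ) • (LinearMap.id : R →ₗ[R] R))
  have hI : ∀ x : R, x ∈ I ↔ ∃ y : R, p • y = x := by
    intro x
    rfl
  have hpI : ∀ x : R, p • x ∈ I := fun x => (hI _).2 ⟨x, rfl⟩
  -- finiteness
  haveI hVfg : Module.Finite ℤ (R ⧸ I) :=
    Module.Finite.of_surjective (I.mkQ.toAddMonoidHom.toIntLinearMap) (Submodule.mkQ_surjective I)
  haveI hVfin : Finite (R ⧸ I) := by
    apply Module.finite_of_fg_torsion
    intro x
    refine ⟨⟨(p : ℤ), mem_nonZeroDivisors_of_ne_zero (by exact_mod_cast hp0)⟩, ?_⟩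
    obtain ⟨y, rfl⟩ := Submodule.mkQ_surjective I x
    show (p : ℤ) • I.mkQ y = 0
    rw [natCast_zsmul, ← map_nsmul]
    exact (Submodule.Quotient.mk_eq_zero I).2 (hpI y)
  -- nontriviality
  have h1I : (1 : R) ∉ I := by
    intro h1
    obtain ⟨y, hy⟩ := (hI 1).1 h1
    have hle : (⊤ : Submodule ℤ R) ≤ Ideal.span {(p : ℤ)} • (⊤ : Submodule ℤ R) := by
      intro x _
      have hx : x = (p : ℤ) • (y * x) := by
        rw [natCast_zsmul, ← smul_mul_assoc, hy, one_mul]
      rw [hx]
      exact Submodule.smul_mem_smul (Ideal.mem_span_singleton_self _) trivial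
    obtain ⟨r, hr, hr'⟩ := Submodule.exists_sub_one_mem_and_smul_eq_zero_of_fg_of_le_smul
      (Ideal.span {(p : ℤ)}) (⊤ : Submodule ℤ R) (Module.Finite.fg_top) hle
    have h2 := hr' 1 trivial
    have h3 : (r : D) = 0 := by
      have := congrArg (Subtype.val) h2
      simpa using this
    exact hunit r (Ideal.mem_span_singleton.1 hr) h3
  haveI hVnt : Nontrivial (R ⧸ I) := by
    refine ⟨⟨I.mkQ 1, 0, ?_⟩⟩
    intro h
    exact h1I ((Submodule.Quotient.mk_eq_zero I).1 h)
  haveI : Nontrivial H := by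
    rw [Subgroup.nontrivial_iff_ne_bot]; exact hH
  -- fixed point freeness
  have hfpf : ∀ h : H, h ≠ 1 → ∀ x : R, f0 h * x - x ∈ I → x ∈ I := by
    intro h hh x hx
    obtain ⟨u, hu⟩ : ∃ u, u = f0 h := ⟨_, rfl⟩
    rw [← hu] at hx
    have hu1 : u ≠ 1 := by
      intro h1
      apply hh
      rw [hu] at h1
      have h2 : (((h : Dˣ) : D)) = 1 := congrArg Subtype.val h1
      exact Subtype.ext (Units.ext h2)
    have hun : u ^ orderOf h = 1 := by
      rw [hu, ← map_pow, pow_orderOf_eq_one, map_one]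
    have hsum : ∑ i ∈ Finset.range (orderOf h), u ^ i = 0 := by
      have h1 := geom_sum_mul u (orderOf h)
      rw [hun, sub_self] at h1
      rcases mul_eq_zero.1 h1 with h2 | h2
      · exact h2
      · exact absurd (sub_eq_zero.1 h2) hu1
    have hpow : ∀ i : ℕ, u ^ i * x - x ∈ I := by
      intro i
      induction i with
      | zero => simp
      | succ i ih =>
        have e : u ^ (i + 1) * x - x = u • (u ^ i * x - x) + (u * x - x) := by
          rw [smul_eq_mul, pow_succ']; noncomm_ring
        rw [e]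
        exact I.add_mem (I.smul_mem u ih) hx
    have hn : orderOf h • x ∈ I := by
      have h1 : ∑ i ∈ Finset.range (orderOf h), (u ^ i * x - x) ∈ I :=
        I.sum_mem (fun i _ => hpow i)
      rw [Finset.sum_sub_distrib, ← Finset.sum_mul, hsum, zero_mul, zero_sub, Finset.sum_const,
        Finset.card_range] at h1
      exact (I.neg_mem_iff).1 h1
    have hc := hcop h
    have hb : (orderOf h : ℤ) * Nat.gcdA (orderOf h) p + (p : ℤ) * Nat.gcdB (orderOf h) p = 1 := by
      have := Nat.gcd_eq_gcd_ab (orderOf h) p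
      rw [hc] at this
      exact_mod_cast this.symm
    have hx' : x = Nat.gcdA (orderOf h) p • (orderOf h • x) + Nat.gcdB (orderOf h) p • (p • x) := by
      rw [← natCast_zsmul x (orderOf h), ← natCast_zsmul x p, smul_smul, smul_smul, ← add_smul,
        mul_comm _ (orderOf h : ℤ), mul_comm _ (p : ℤ), hb, one_smul]
    rw [hx']
    exact I.add_mem (zsmul_mem hn _) (zsmul_mem (hpI x) _)
  apply exists_frob_of_fpf' (V := Multiplicative (R ⧸ I))
    ((MulAutMultiplicative (R ⧸ I)).symm.toMonoidHom.comp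
      ((DistribMulAction.toAddAut Rˣ (R ⧸ I)).comp f0.toHomUnits))
  intro c hc v hv
  obtain ⟨x, hx⟩ := Submodule.mkQ_surjective I (Multiplicative.toAdd v)
  have h1 : (f0 c) • (Multiplicative.toAdd v) = Multiplicative.toAdd v := congrArg Multiplicative.toAdd hv
  rw [← hx] at h1
  have h2 : I.mkQ (f0 c * x) = I.mkQ x := by
    rw [← smul_eq_mul, map_smul]; exact h1
  have h3 : f0 c * x - x ∈ I := by
    rw [← Submodule.Quotient.mk_eq_zero I]
    have : I.mkQ (f0 c * x - x) = 0 := by rw [map_sub, h2, sub_self]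
    exact this
  have h4 := hfpf c hc x h3
  have h5 : Multiplicative.toAdd v = 0 := by
    rw [← hx]; exact (Submodule.Quotient.mk_eq_zero I).2 h4
  exact Multiplicative.toAdd.injective h5

/-- A nontrivial finite subgroup of the multiplicative group of a division ring occurs as a Frobenius complement of some finite Frobenius group. -/
theorem result {D : Type*} [DivisionRing D] (H : Subgroup Dˣ) [Finite H] (hH : H ≠ ⊥) :
    ∃ (L : Type) (_ : Group L) (_ : Finite L) (C : Subgroup L), Cfsg.IsFrobeniusComplement C ∧ Nonempty (H ≃* C) := by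
  classical
  obtain ⟨ℓ, hℓ⟩ := CharP.exists D
  rcases CharP.char_is_prime_or_zero D ℓ with hprime | hzero
  · -- positive characteristic
    haveI : Fact ℓ.Prime := ⟨hprime⟩
    apply core H hH ℓ hprime.ne_zero
    · intro h
      rw [Nat.coprime_comm, hprime.coprime_iff_not_dvd]
      intro hdvd
      obtain ⟨m, hm⟩ := hdvd
      have hm0 : m ≠ 0 := by
        rintro rfl
        rw [mul_zero] at hm
        exact (orderOf_pos h).ne' hm
      have h1 : (h ^ m) ^ ℓ = 1 := by rw [← pow_mul, mul_comm, ← hm, pow_orderOf_eq_one]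
      have h2 : ((((h ^ m : H) : Dˣ) : D)) ^ ℓ = 1 := by
        have := congrArg (fun z : H => ((z : Dˣ) : D)) h1
        simpa using this
      have h3 : ((((h ^ m : H) : Dˣ) : D) - 1) ^ ℓ = 0 := by
        rw [sub_pow_char_of_commute ℓ (Commute.one_right _), h2, one_pow, sub_self]
      have h4 : (((h ^ m : H) : Dˣ) : D) = 1 := sub_eq_zero.1 (pow_eq_zero_iff hprime.ne_zero |>.1 h3)
      have h5 : h ^ m = 1 := Subtype.ext (Units.ext h4)
      have h6 := orderOf_le_of_pow_eq_one (Nat.pos_of_ne_zero hm0) h5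
      rw [hm] at h6
      have := hprime.two_le
      nlinarith [Nat.pos_of_ne_zero hm0]
    · intro r hr h0
      rw [CharP.intCast_eq_zero_iff D ℓ r] at h0
      have h1 : (ℓ : ℤ) ∣ 1 := by
        have := dvd_sub h0 hr
        simpa using this
      have h2 : ℓ ∣ 1 := by exact_mod_cast h1
      exact hprime.one_lt.ne' (Nat.dvd_one.1 h2)
  · subst hzero
    haveI : CharZero D := CharP.charP_to_charZero D
    apply core H hH (Nat.card H + 1) (by omega)
    · intro h
      have h1 : orderOf h ∣ Nat.card H := orderOf_dvd_natCard h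
      exact Nat.Coprime.coprime_dvd_left h1 (by simp)
    · intro r hr h0
      have h1 : r = 0 := by exact_mod_cast h0
      subst h1
      have h2 : ((Nat.card H + 1 : ℕ) : ℤ) ∣ 1 := by
        have := (dvd_neg).2 hr
        simpa using this
      have h3 : (Nat.card H + 1) ∣ 1 := by exact_mod_cast h2
      have h4 := Nat.dvd_one.1 h3
      have h5 : 0 < Nat.card H := Nat.card_pos
      omega

end Cfsg.Agent.S4293
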