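import Cfsg.Statements.S4297
import Mathlib
import Cfsg.Agent.Lib_helper7_Quat3
import Cfsg.Agent.S4293

set_option autoImplicit false
open Cfsg

namespace Cfsg.Agent.S4297

open Quaternion

theorem JJ : ((⟨0,0,1,0⟩ : ℍ[ℝ]) * ⟨0,0,1,0⟩) = -1 := by
  ext <;> simp

theorem mid (c s : ℝ) (h : c*c+s*s = 1) :
    ((⟨c,s,0,0⟩ : ℍ[ℝ]) * ⟨0,0,1,0⟩ * ⟨c,s,0,0⟩) = ⟨0,0,1,0⟩ := by
  ext
  · simp
  · simp
  · simp; linarith
  · simp; ring

/-- For every n ≥ 2 the dicyclic group of order 4n (generated by an element a of order 2n and an element x with x² = aⁿ and x a x⁻¹ = a⁻¹) occurs as a Frobenius complement of some finite Frobenius group. -/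
theorem result (n : ℕ) (hn : 2 ≤ n) :
    ∃ (L : Type) (_ : Group L) (_ : Finite L) (H : Subgroup L), Cfsg.IsFrobeniusComplement H ∧ Nonempty (H ≃* QuaternionGroup n) := by
  classical
  have hn0 : n ≠ 0 := by omega
  haveI : NeZero n := ⟨hn0⟩
  haveI : NeZero (2 * n) := ⟨by omega⟩
  obtain ⟨z, hz⟩ : ∃ z : ℂ, z = Complex.exp (2 * Real.pi * Complex.I / ((2 * n : ℕ) : ℂ)) := ⟨_, rfl⟩
  have hprim : IsPrimitiveRoot z (2 * n) := by
    rw [hz]; exact Complex.isPrimitiveRoot_exp (2 * n) (by omega)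
  have hz0 : z ≠ 0 := hprim.ne_zero (by omega)
  have hzn : z ^ n = -1 := by
    have h1 : z ^ n * z ^ n = 1 := by
      rw [← pow_add, ← two_mul]; exact hprim.pow_eq_one
    rcases mul_self_eq_one_iff.mp h1 with h | h
    · exact absurd h (hprim.pow_ne_one_of_pos_of_lt (by omega) (by omega))
    · exact h
  have hnorm : z.re * z.re + z.im * z.im = 1 := by
    have h1 : ‖z‖ = 1 := Complex.norm_eq_one_of_pow_eq_one hprim.pow_eq_one (by omega)
    have h2 := Complex.normSq_eq_norm_sq z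
    rw [h1, Complex.normSq_apply] at h2
    simpa using h2
  obtain ⟨φ, hφ⟩ : ∃ φ : ℂ →* ℍ[ℝ], φ = (Quaternion.ofComplex : ℂ →ₐ[ℝ] ℍ[ℝ]) := ⟨_, rfl⟩
  have hφz : φ z = (⟨z.re, z.im, 0, 0⟩ : ℍ[ℝ]) := by
    rw [hφ]; ext <;> simp
  have hφinj : Function.Injective φ := by
    rw [hφ]
    exact (Quaternion.ofComplex : ℂ →ₐ[ℝ] ℍ[ℝ]).toRingHom.injective
  have hφneg : φ (-1) = -1 := by
    rw [hφ]; ext <;> simp
  obtain ⟨α, hα⟩ : ∃ α : (ℍ[ℝ])ˣ, α = Units.map φ (Units.mk0 z hz0) := ⟨_, rfl⟩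
  have hαv : (α : ℍ[ℝ]) = φ z := by rw [hα]; rfl
  have hαord : orderOf α = 2 * n := by
    rw [hα, orderOf_injective (Units.map φ) (Units.map_injective hφinj), ← orderOf_units]
    exact hprim.eq_orderOf.symm
  obtain ⟨J, hJ⟩ : ∃ J : ℍ[ℝ], J = ⟨0, 0, 1, 0⟩ := ⟨_, rfl⟩
  have hJJ : J * J = -1 := by
    rw [hJ]; exact JJ
  obtain ⟨ξ, hξ⟩ : ∃ ξ : (ℍ[ℝ])ˣ, (ξ : ℍ[ℝ]) = J :=
    ⟨⟨J, -J, by rw [mul_neg, hJJ, neg_neg], by rw [neg_mul, hJJ, neg_neg]⟩, rfl⟩
  have h1 : α ^ (2 * n) = 1 := by rw [← hαord]; exact pow_orderOf_eq_one α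
  have h3 : ξ ^ 2 = α ^ n := by
    apply Units.ext
    rw [Units.val_pow_eq_pow_val, Units.val_pow_eq_pow_val, hξ, hαv, ← map_pow, hzn, hφneg, pow_two, hJJ]
  have hmid : α * ξ * α = ξ := by
    apply Units.ext
    rw [Units.val_mul, Units.val_mul, hξ, hαv, hφz, hJ]
    exact mid _ _ hnorm
  have h2 : ξ * α * ξ⁻¹ = α⁻¹ := by
    have : ξ * α = α⁻¹ * ξ := by
      rw [eq_inv_mul_iff_mul_eq, ← mul_assoc]; exact hmid
    rw [this, mul_assoc, mul_inv_cancel, mul_one]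
  obtain ⟨f, hfa, hfx⟩ := Cfsg.Agent.H7.quaternion_hom n α ξ h1 h2 h3
  have hfpow : ∀ k : ℕ, f (QuaternionGroup.a (k : ZMod (2 * n))) = α ^ k := by
    intro k
    rw [← QuaternionGroup.a_one_pow, map_pow, hfa]
  have hinj : Function.Injective f := by
    rw [injective_iff_map_eq_one]
    intro g hg
    cases g with
    | a i =>
      have h4 := hfpow i.val
      rw [ZMod.natCast_zmod_val, hg] at h4
      have h5 : orderOf α ∣ i.val := orderOf_dvd_of_pow_eq_one h4.symm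
      rw [hαord] at h5
      have h6 : i.val = 0 := Nat.eq_zero_of_dvd_of_lt h5 (ZMod.val_lt i)
      have h7 : i = 0 := (ZMod.val_eq_zero i).mp h6
      rw [h7]; rfl
    | xa i =>
      exfalso
      have h4 : QuaternionGroup.xa i * QuaternionGroup.xa i = QuaternionGroup.a ((n : ℕ) : ZMod (2 * n)) := by
        rw [QuaternionGroup.xa_mul_xa]; congr 1; ring
      have h5 := hfpow n
      rw [← h4, map_mul, hg, one_mul] at h5
      have h6 : orderOf α ∣ n := orderOf_dvd_of_pow_eq_one h5.symm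
      rw [hαord] at h6
      have := Nat.le_of_dvd (by omega) h6
      omega
  haveI : Finite f.range := Finite.of_surjective f.rangeRestrict f.rangeRestrict_surjective
  have hne : f.range ≠ ⊥ := by
    intro h
    have h4 : α ∈ f.range := ⟨_, hfa⟩
    rw [h, Subgroup.mem_bot] at h4
    rw [h4, orderOf_one] at hαord
    omega
  obtain ⟨L, i1, i2, C, hC, ⟨e⟩⟩ := Cfsg.Agent.S4293.result f.range hne
  exact ⟨L, i1, i2, C, hC, ⟨e.symm.trans (MonoidHom.ofInjective hinj).symm⟩⟩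

end Cfsg.Agent.S4297
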