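import Cfsg.Statements.S4299
import Mathlib
import Cfsg.Agent.Lib_lead_Frob5

set_option autoImplicit false
open Cfsg

namespace Cfsg.Agent.S4299

/-- Every nontrivial finite cyclic group occurs as a Frobenius complement of some finite Frobenius group. -/
theorem result {C : Type*} [Group C] [Finite C] [IsCyclic C] [Nontrivial C] :
    ∃ (L : Type) (_ : Group L) (_ : Finite L) (H : Subgroup L), Cfsg.IsFrobeniusComplement H ∧ Nonempty (C ≃* H) := by
  classical
  have hn2 : 2 ≤ Nat.card C := Finite.one_lt_card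
  obtain ⟨p, hp, -, hpmod⟩ := Nat.exists_prime_gt_modEq_one (k := Nat.card C) 1 (by omega)
  have : Fact p.Prime := ⟨hp⟩
  have hdvd : Nat.card C ∣ p - 1 := (Nat.modEq_iff_dvd' hp.one_lt.le).1 hpmod.symm
  obtain ⟨g, hg⟩ := IsCyclic.exists_generator (α := (ZMod p)ˣ)
  have hog : orderOf g = p - 1 := by
    rw [orderOf_eq_card_of_forall_mem_zpowers hg, Nat.card_eq_fintype_card, ZMod.card_units]
  have hou : orderOf (g ^ (orderOf g / Nat.card C)) = Nat.card C :=
    orderOf_pow_orderOf_div (orderOf_pos g).ne' (by rw [hog]; exact hdvd)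
  set u := g ^ (orderOf g / Nat.card C) with hu
  have hcard : Nat.card (Subgroup.zpowers u) = Nat.card C := by rw [Nat.card_zpowers, hou]
  apply Cfsg.Agent.LeadFrob.frob_transport (mulEquivOfCyclicCardEq hcard.symm)
  have hnt : Nontrivial (Subgroup.zpowers u) := by
    rw [← Finite.one_lt_card_iff_nontrivial, hcard]; omega
  let φ : Subgroup.zpowers u →* MulAut (Multiplicative (ZMod p)) :=
    ((MulAutMultiplicative (ZMod p)).symm.toMonoidHom.comp
      (DistribMulAction.toAddAut (ZMod p)ˣ (ZMod p))).comp (Subgroup.zpowers u).subtype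
  apply Cfsg.Agent.LeadFrob.exists_frob_of_fpf φ
  intro c hc v hv
  have h1 : ((c : (ZMod p)ˣ) : ZMod p) * Multiplicative.toAdd v = Multiplicative.toAdd v :=
    congrArg Multiplicative.toAdd hv
  have h2 : (((c : (ZMod p)ˣ) : ZMod p) - 1) * Multiplicative.toAdd v = 0 := by
    rw [sub_mul, h1, one_mul, sub_self]
  rcases mul_eq_zero.1 h2 with h3 | h3
  · exfalso
    apply hc
    apply Subtype.ext
    apply Units.ext
    exact sub_eq_zero.1 h3
  · exact Multiplicative.toAdd.injective h3

end Cfsg.Agent.S4299
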