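import Cfsg.Statements.S4300


set_option autoImplicit false
open Cfsg

namespace Cfsg.Agent.S4300

/-- Let G act faithfully and primitively on a set X, and suppose the stabilizer of some point is a simple group. Then either G is simple, or G has a normal subgroup, neither trivial nor the whole group, that acts regularly on X (transitively with trivial point stabilizers). -/
theorem result {G : Type*} [Group G] {X : Type*} [MulAction G X] [FaithfulSMul G X]
    (hprim : MulAction.IsPreprimitive G X) (x : X) (hsimple : IsSimpleGroup (MulAction.stabilizer G x)) :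
    IsSimpleGroup G ∨ ∃ N : Subgroup G, N.Normal ∧ N ≠ ⊥ ∧ N ≠ ⊤ ∧
      MulAction.IsPretransitive N X ∧ ∀ y : X, MulAction.stabilizer N y = ⊥ := by
  classical
  by_cases hs : IsSimpleGroup G
  · exact Or.inl hs
  right
  have hnt : Nontrivial G := by
    have := hsimple.toNontrivial
    obtain ⟨a, b, hab⟩ := this
    exact ⟨a.1, b.1, fun h => hab (Subtype.ext h)⟩
  have hex : ∃ N : Subgroup G, N.Normal ∧ N ≠ ⊥ ∧ N ≠ ⊤ := by
    by_contra hcon
    push Not at hcon
    apply hs
    refine ⟨fun N hN => ?_⟩
    by_cases h : N = ⊥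
    · exact Or.inl h
    · exact Or.inr (hcon N hN h)
  obtain ⟨N, hN, hbot, htop⟩ := hex
  have htr : MulAction.IsPretransitive N X := by
    apply MulAction.IsQuasiPreprimitive.isPretransitive_of_normal (G := G)
    intro hfix
    apply hbot
    rw [eq_bot_iff]
    intro n hn
    rw [Subgroup.mem_bot]
    apply FaithfulSMul.eq_of_smul_eq_smul (α := X)
    intro y
    have : y ∈ MulAction.fixedPoints N X := hfix ▸ Set.mem_univ y
    rw [one_smul]
    exact this ⟨n, hn⟩
  refine ⟨N, hN, hbot, htop, htr, ?_⟩
  have hnorm : (N.subgroupOf (MulAction.stabilizer G x)).Normal := inferInstance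
  have hinf : ∀ n ∈ N, n • x = x → n = 1 := by
    rcases hsimple.eq_bot_or_eq_top_of_normal _ hnorm with h | h
    · intro n hn hnx
      have h1 : (⟨n, hnx⟩ : MulAction.stabilizer G x) ∈ N.subgroupOf (MulAction.stabilizer G x) := by
        rw [Subgroup.mem_subgroupOf]; exact hn
      rw [h, Subgroup.mem_bot] at h1
      exact congrArg Subtype.val h1
    · exfalso
      apply htop
      rw [Subgroup.subgroupOf_eq_top] at h
      rw [eq_top_iff]
      intro g _
      obtain ⟨n, hn⟩ := htr.exists_smul_eq x (g • x)
      have h1 : (n : G)⁻¹ * g ∈ MulAction.stabilizer G x := by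
        rw [MulAction.mem_stabilizer_iff, mul_smul, inv_smul_eq_iff]
        exact hn.symm
      have h2 := N.mul_mem n.2 (h h1)
      simpa using h2
  intro y
  rw [eq_bot_iff]
  intro n hn
  rw [Subgroup.mem_bot]
  rw [MulAction.mem_stabilizer_iff] at hn
  obtain ⟨m, hm⟩ := htr.exists_smul_eq x y
  have h1 : (m⁻¹ * n * m : N) • x = x := by
    rw [mul_smul, mul_smul, hm, hn, ← hm, inv_smul_smul]
  have h2 := hinf (m⁻¹ * n * m : N) (m⁻¹ * n * m : N).2 h1
  have h3 : m⁻¹ * n * m = 1 := Subtype.ext h2
  calc n = m * (m⁻¹ * n * m) * m⁻¹ := by group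
    _ = 1 := by rw [h3]; group

end Cfsg.Agent.S4300
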