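import Cfsg.Statements.S4416
import Mathlib
import Cfsg.Agent.Lib_lead_XS10

set_option autoImplicit false
open Cfsg

namespace Cfsg.Agent.S4416

theorem key {F : Type*} [Group F] [Finite F] (hF : Cfsg.Agent.LeadXS.XS 2 F) {m : ℕ} (hm1 : 1 ≤ m)
    (hFc : Nat.card F = 2 ^ (2 * m + 1)) :
    (Cfsg.Agent.LeadXS.HP m F ↔ Nat.card {x : F // x ^ 2 = 1} = 2 ^ (2 * m) + 2 ^ m) := by
  have hpos : 0 < 2 ^ m := by positivity
  constructor
  · rintro ⟨A, hA, hAc⟩
    exact hF.card_sq_eq_one_of_plus hFc A hA hAc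
  · intro hN
    by_contra hnp
    have := Cfsg.Agent.LeadXS.card_sq_of_not_hp m F hF.toXS0 hFc hnp
    omega


/-- Classification of extraspecial 2-groups in intrinsic form. An extraspecial 2-group has order 2^(2m+1) for some m ≥ 1, and the number of its elements squaring to the identity is either 2^(2m) + 2^m or 2^(2m) − 2^m; two extraspecial 2-groups of the same order with the same number of such elements are isomorphic. (The two cases are the central products of m dihedral groups of order 8, and of m − 1 dihedral groups with one quaternion group.) -/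
theorem result (E : Type*) [Group E] [Finite E] (hE : Cfsg.IsExtraspecial 2 E) :
    (∃ m : ℕ, 1 ≤ m ∧ Nat.card E = 2 ^ (2 * m + 1) ∧
      (Nat.card {x : E // x ^ 2 = 1} = 2 ^ (2 * m) + 2 ^ m ∨ Nat.card {x : E // x ^ 2 = 1} = 2 ^ (2 * m) - 2 ^ m)) ∧
    ∀ (E' : Type*) [Group E'] [Finite E'], Cfsg.IsExtraspecial 2 E' → Nat.card E' = Nat.card E →
      Nat.card {x : E' // x ^ 2 = 1} = Nat.card {x : E // x ^ 2 = 1} → Nonempty (E ≃* E') := by
  have : Fact (Nat.Prime 2) := ⟨Nat.prime_two⟩
  have hX := Cfsg.Agent.LeadXS.XS.of_extraspecial hE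
  obtain ⟨m, hm1, hm⟩ := hX.card
  constructor
  · refine ⟨m, hm1, hm, ?_⟩
    by_cases hp : Cfsg.Agent.LeadXS.HP m E
    · left
      exact (key hX hm1 hm).1 hp
    · right
      have := Cfsg.Agent.LeadXS.card_sq_of_not_hp m E hX.toXS0 hm hp
      omega
  · intro E' _ _ hE' hc hN
    have hX' := Cfsg.Agent.LeadXS.XS.of_extraspecial hE'
    have hm' : Nat.card E' = 2 ^ (2 * m + 1) := hc.trans hm
    apply Cfsg.Agent.LeadXS.iso_two m E E' hX.toXS0 hX'.toXS0 hm hm'
    rw [key hX hm1 hm, key hX' hm1 hm', hN]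

end Cfsg.Agent.S4416
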