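import Cfsg.Statements.S4422


set_option autoImplicit false
open Cfsg

namespace Cfsg.Agent.S4422

/-- Primitive divisors of `q^e - 1` are congruent to 1 modulo `e`. Let `q ≥ 2` and `e ≥ 1` be natural numbers and let `m` be a divisor of `q^e - 1` that is coprime to `q^i - 1` for every `1 ≤ i < e` (so `m` divides the primitive part of `q^e - 1`, the largest such divisor). Then `m ≡ 1 (mod e)`. -/
theorem result (q e m : ℕ) (hq : 2 ≤ q) (he : 1 ≤ e)
    (hm : m ∣ q ^ e - 1) (hcop : ∀ i : ℕ, 1 ≤ i → i < e → Nat.Coprime m (q ^ i - 1)) :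
    m % e = 1 % e := by
  have hm0 : m ≠ 0 := by
    rintro rfl
    have h1 : q ^ e - 1 = 0 := Nat.eq_zero_of_zero_dvd hm
    have h2 : 2 ^ e ≤ q ^ e := Nat.pow_le_pow_left hq e
    have h3 : 2 ≤ 2 ^ e := by
      calc 2 = 2 ^ 1 := by norm_num
        _ ≤ 2 ^ e := Nat.pow_le_pow_right (by norm_num) he
    omega
  have hprime : ∀ r : ℕ, r.Prime → r ∣ m → r ≡ 1 [MOD e] := by
    intro r hr hrm
    have : Fact r.Prime := ⟨hr⟩
    have hone : ∀ i : ℕ, 1 ≤ q ^ i := fun i => Nat.one_le_pow _ _ (by omega)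
    have hqe : (q : ZMod r) ^ e = 1 := by
      have h1 : ((q ^ e - 1 : ℕ) : ZMod r) = 0 := (ZMod.natCast_eq_zero_iff _ _).mpr (hrm.trans hm)
      rw [Nat.cast_sub (hone e)] at h1
      push_cast at h1
      exact sub_eq_zero.mp h1
    have hq0 : (q : ZMod r) ≠ 0 := by
      intro h
      rw [h, zero_pow (by omega)] at hqe
      exact zero_ne_one hqe
    have hord : orderOf (q : ZMod r) = e := by
      by_contra hne
      have hdvd : orderOf (q : ZMod r) ∣ e := orderOf_dvd_of_pow_eq_one hqe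
      have hle : orderOf (q : ZMod r) ≤ e := Nat.le_of_dvd (by omega) hdvd
      have hpos : 0 < orderOf (q : ZMod r) := Nat.pos_of_dvd_of_pos hdvd (by omega)
      have hc := hcop _ hpos (lt_of_le_of_ne hle hne)
      have h2 : r ∣ q ^ orderOf (q : ZMod r) - 1 := by
        rw [← ZMod.natCast_eq_zero_iff, Nat.cast_sub (hone _)]
        push_cast
        rw [pow_orderOf_eq_one]; simp
      have h3 : r ∣ 1 := by
        have := Nat.dvd_gcd hrm h2
        rwa [hc] at this
      exact hr.one_lt.ne' (Nat.dvd_one.mp h3)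
    have h4 : e ∣ r - 1 := hord ▸ ZMod.orderOf_dvd_card_sub_one hq0
    exact ((Nat.modEq_iff_dvd' hr.one_lt.le).mpr h4).symm
  have key : ∀ n : ℕ, n ≠ 0 → (∀ r : ℕ, r.Prime → r ∣ n → r ≡ 1 [MOD e]) → n ≡ 1 [MOD e] := by
    intro n
    induction n using Nat.recOnMul with
    | zero => intro h; exact absurd rfl h
    | one => intro _ _; rfl
    | prime r hr => intro _ h; exact h r hr dvd_rfl
    | mul a b iha ihb =>
      intro hab h
      have ha : a ≠ 0 := fun h0 => hab (by rw [h0, zero_mul])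
      have hb : b ≠ 0 := fun h0 => hab (by rw [h0, mul_zero])
      have h1 := iha ha (fun r hr hra => h r hr (hra.mul_right b))
      have h2 := ihb hb (fun r hr hrb => h r hr (hrb.mul_left a))
      simpa using h1.mul h2
  exact key m hm0 hprime

end Cfsg.Agent.S4422
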