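import Cfsg.Statements.S4444
import Cfsg.Agent.Lib_helper2_Glaub10

set_option autoImplicit false
open Cfsg

namespace Cfsg.Agent.S4444

open Cfsg.Agent.H4 Cfsg.Agent.H2

/-- The Glauberman correspondence for a p-group of operators. Inside a finite group Γ let S normalise G with the orders of G and S coprime, S a p-group, and let C = G ⊓ C(S) be the fixed points. Call an irreducible character χ of G S-invariant when χ(s g s⁻¹) = χ(g) for s ∈ S, g ∈ G. Then: (i) for every S-invariant χ there is exactly one irreducible character β of C whose multiplicity [χ_C, β] in the restriction of χ is not divisible by p; (ii) that multiplicity is ≡ 1 or ≡ −1 (mod p); (iii) distinct S-invariant χ give distinct β; (iv) every irreducible character of C arises in this way. So χ ↦ β is a bijection from the S-invariant irreducible characters of G onto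 the irreducible characters of C. -/
theorem result {Γ : Type*} [Group Γ] [Fintype Γ] (G S : Subgroup Γ) [Fintype G] (hnorm : ∀ s ∈ S, ∀ g ∈ G, s * g * s⁻¹ ∈ G) (hcop : (Nat.card G).Coprime (Nat.card S)) (p : ℕ) (hp : p.Prime) (hS : IsPGroup p S) (C : Subgroup Γ) [Fintype C] (hC : C = G ⊓ Subgroup.centralizer (S : Set Γ)) (hCG : C ≤ G) : (∀ χ : Cfsg.IrrCharacter G, (∀ s ∈ S, ∀ g g' : G, (g' : Γ) = s * g * s⁻¹ → (χ : G → ℂ) g' = (χ : G → ℂ) g) → ∃! β : Cfsg.IrrCharacter C, ∃ m : ℕ, Cfsg.classInner (fun c : C => (χ : G → ℂ) ⟨c, hCG c.2⟩) (β : C → ℂ) = (m : ℂ) ∧ ¬ p ∣ m) ∧ (∀ χ : Cfsg.IrrCharacter G, (∀ s ∈ S, ∀ g g' : G, (g' : Γ) = s * g * s⁻¹ → (χ : G → ℂ) g' = (χ : G → ℂ) g) → ∀ β : Cfsg.IrrCharacter C, ∀ m : ℕ, Cfsg.classInner (fun c : C => (χ : G → ℂ) ⟨c, hCG c.2⟩) (β : C → ℂ) = (m : ℂ) → ¬ p ∣ m → ((m : ℤ) ≡ 1 [ZMOD p] ∨ (m : ℤ)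 ≡ -1 [ZMOD p])) ∧ (∀ χ χ' : Cfsg.IrrCharacter G, (∀ s ∈ S, ∀ g g' : G, (g' : Γ) = s * g * s⁻¹ → (χ : G → ℂ) g' = (χ : G → ℂ) g) → (∀ s ∈ S, ∀ g g' : G, (g' : Γ) = s * g * s⁻¹ → (χ' : G → ℂ) g' = (χ' : G → ℂ) g) → ∀ β : Cfsg.IrrCharacter C, ∀ m m' : ℕ, Cfsg.classInner (fun c : C => (χ : G → ℂ) ⟨c, hCG c.2⟩) (β : C → ℂ) = (m : ℂ) → ¬ p ∣ m → Cfsg.classInner (fun c : C => (χ' : G → ℂ) ⟨c, hCG c.2⟩) (β : C → ℂ) = (m' : ℂ) → ¬ p ∣ m' → χ = χ') ∧ (∀ β : Cfsg.IrrCharacter C, ∃ χ : Cfsg.IrrCharacter G, (∀ s ∈ S, ∀ g g' : G, (g' : Γ) = s * g * s⁻¹ → (χ : G → ℂ) g' = (χ : G → ℂ) g) ∧ ∃ m : ℕ, Cfsg.classInner (fun c : C => (χ : G → ℂ) ⟨c, hCG c.2⟩) (β : C → ℂ) = (m : ℂ) ∧ ¬ p ∣ m) := by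
  classical
  obtain ⟨H1, H2, H3⟩ := glaubP_pgroup hp G (Nat.card S) S rfl hnorm hcop hS C hC hCG
  refine ⟨?_, ?_, ?_, ?_⟩
  · intro χ hχ
    obtain ⟨β, hβ⟩ := H1 χ hχ
    obtain ⟨m, hm⟩ := hβ.exists_nat β
    refine ⟨β, ⟨m, hm, hβ.not_dvd hp hm⟩, ?_⟩
    rintro β' ⟨m', hm', hd⟩
    exact hβ.eq_of_not_dvd hm' hd
  · intro χ hχ β m hm hd
    obtain ⟨β', hβ'⟩ := H1 χ hχ
    obtain rfl := hβ'.eq_of_not_dvd hm hd
    exact hβ'.pm_one hm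
  · intro χ χ' hχ hχ' β m m' hm hd hm' hd'
    obtain ⟨β₁, hβ₁⟩ := H1 χ hχ
    obtain ⟨β₂, hβ₂⟩ := H1 χ' hχ'
    obtain rfl := hβ₁.eq_of_not_dvd hm hd
    obtain rfl := hβ₂.eq_of_not_dvd hm' hd'
    exact H2 χ χ' _ hχ hχ' hβ₁ hβ₂
  · intro β
    obtain ⟨χ, hχ, hβ⟩ := H3 β
    obtain ⟨m, hm⟩ := hβ.exists_nat β
    exact ⟨χ, hχ, m, hm, hβ.not_dvd hp hm⟩

end Cfsg.Agent.S4444
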