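import Cfsg.Statements.S4446
import Cfsg.Agent.Lib_helper2_Glaub6

set_option autoImplicit false
open Cfsg

namespace Cfsg.Agent.S4446

open Cfsg.Agent.H4 Cfsg.Agent.H2

/-- Let the finite group Γ be generated by a normal subgroup G and a cyclic subgroup S of coprime orders, C = G ⊓ C(S), and let χ be an S-invariant irreducible character of G with canonical extension χ̂ to Γ (the extension whose determinantal order is coprime to the order of S). Then there are exactly one irreducible character β of C and one sign ε such that χ̂(c s) = ε β(c) for every c ∈ C and every generator s of S; this β is a constituent of the restriction of χ to C; distinct S-invariant χ give distinct β; and every irreducible character of C arises in this way. -/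
theorem result {Γ : Type*} [Group Γ] [Fintype Γ] (G S : Subgroup Γ) [Fintype G] (hnorm : ∀ s ∈ S, ∀ g ∈ G, s * g * s⁻¹ ∈ G) (hcop : (Nat.card G).Coprime (Nat.card S)) (htop : G ⊔ S = ⊤) (hcyc : IsCyclic S) (C : Subgroup Γ) [Fintype C] (hC : C = G ⊓ Subgroup.centralizer (S : Set Γ)) (hCG : C ≤ G) : (∀ (χ : Cfsg.IrrCharacter G) (χh : Cfsg.IrrCharacter Γ), (∀ s ∈ S, ∀ g g' : G, (g' : Γ) = s * g * s⁻¹ → (χ : G → ℂ) g' = (χ : G → ℂ) g) → (∀ g : G, (χh : Γ → ℂ) g = (χ : G → ℂ) g) → (Cfsg.detOrder (χh : Γ → ℂ)).Coprime (Nat.card S) → (∃! βε : Cfsg.IrrCharacter C × ℤ, (βε.2 = 1 ∨ βε.2 = -1) ∧ ∀ c : C, ∀ s : Γ, Subgroup.zpowers s = S → (χh : Γ → ℂ) ((c : Γ) * s) = (βε.2 : ℂ) * (βε.1 : C → ℂ) c) ∧ ∀ β : Cfsg.IrrCharacter C, ∀ ε : ℤ, (ε = 1 ∨ ε = -1) → (∀ c : C, ∀ s : Γ, Subgroup.zpowers s = S → (χh : Γ → ℂ) ((c : Γ) * s) = (ε : ℂ) * (β : C → ℂ) c) → Cfsg.classInner (fun c : C => (χ : G → ℂ) ⟨c, hCG c.2⟩)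 (β : C → ℂ) ≠ 0) ∧ (∀ (χ χ' : Cfsg.IrrCharacter G) (χh χh' : Cfsg.IrrCharacter Γ), (∀ s ∈ S, ∀ g g' : G, (g' : Γ) = s * g * s⁻¹ → (χ : G → ℂ) g' = (χ : G → ℂ) g) → (∀ s ∈ S, ∀ g g' : G, (g' : Γ) = s * g * s⁻¹ → (χ' : G → ℂ) g' = (χ' : G → ℂ) g) → (∀ g : G, (χh : Γ → ℂ) g = (χ : G → ℂ) g) → (∀ g : G, (χh' : Γ → ℂ) g = (χ' : G → ℂ) g) → (Cfsg.detOrder (χh : Γ → ℂ)).Coprime (Nat.card S) → (Cfsg.detOrder (χh' : Γ → ℂ)).Coprime (Nat.card S) → ∀ β : Cfsg.IrrCharacter C, ∀ ε ε' : ℤ, (ε = 1 ∨ ε = -1) → (ε' = 1 ∨ ε' = -1) → (∀ c : C, ∀ s : Γ, Subgroup.zpowers s = S → (χh : Γ → ℂ) ((c : Γ) * s) = (ε : ℂ) * (β : C → ℂ) c) → (∀ c : C, ∀ s : Γ, Subgroup.zpowers s = S → (χh' : Γ → ℂ) ((c : Γ) * s) = (ε' : ℂ) * (β : C → ℂ) c) → χ = χ') ∧ (∀ β : Cfsg.IrrCharacter C, ∃ (χ : Cfsg.IrrCharacter G) (χh : Cfsg.IrrCharacter Γ) (ε : ℤ), (∀ s ∈ S, ∀ g g' : G, (g' : Γ) = s * g * s⁻¹ → (χ : G → ℂ) g' = (χ : G → ℂ) g) ∧ (∀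 g : G, (χh : Γ → ℂ) g = (χ : G → ℂ) g) ∧ (Cfsg.detOrder (χh : Γ → ℂ)).Coprime (Nat.card S) ∧ (ε = 1 ∨ ε = -1) ∧ ∀ c : C, ∀ s : Γ, Subgroup.zpowers s = S → (χh : Γ → ℂ) ((c : Γ) * s) = (ε : ℂ) * (β : C → ℂ) c) := by
  classical
  have hG : G.Normal := by
    rw [← Subgroup.normalizer_eq_top_iff, eq_top_iff, ← htop]
    apply sup_le Subgroup.le_normalizer
    intro t ht
    rw [Subgroup.mem_normalizer_iff]
    intro g
    constructor
    · exact hnorm t ht g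
    · intro h
      have := hnorm t⁻¹ (S.inv_mem ht) _ h
      simpa [mul_assoc] using this
  obtain ⟨⟨s, hsS⟩, hgen⟩ := hcyc.exists_generator
  have hs : Subgroup.zpowers s = S := by
    apply le_antisymm
    · rw [Subgroup.zpowers_le]; exact hsS
    · intro x hx
      obtain ⟨i, hi⟩ := Subgroup.mem_zpowers_iff.mp (hgen ⟨x, hx⟩)
      rw [Subgroup.mem_zpowers_iff]
      exact ⟨i, by simpa using congrArg Subtype.val hi⟩
  have hScomm : ∀ a b : S, a * b = b * a := by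
    intro a b
    obtain ⟨i, rfl⟩ := Subgroup.mem_zpowers_iff.mp (hgen a)
    obtain ⟨j, rfl⟩ := Subgroup.mem_zpowers_iff.mp (hgen b)
    exact zpow_mul_comm _ i j
  have hCS : ∀ c ∈ C, ∀ t ∈ S, c * t = t * c := by
    intro c hc t ht
    rw [hC] at hc
    exact (Subgroup.mem_centralizer_iff.mp hc.2 t ht).symm
  obtain ⟨M1, M2, M3⟩ := glaub_matrix G S hcop htop hScomm hs C hC
  have hne : ∀ ε : ℤ, (ε = 1 ∨ ε = -1) → ε ≠ 0 := by
    rintro ε (h | h) <;> rw [h] <;> norm_num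
  have hcanon : ∀ (χ : Cfsg.IrrCharacter G) (χh : Cfsg.IrrCharacter Γ),
      (∀ g : G, (χh : Γ → ℂ) g = (χ : G → ℂ) g) →
      (Cfsg.detOrder (χh : Γ → ℂ)).Coprime (Nat.card S) → IsCanon G S χh := by
    intro χ χh hext hdet
    refine ⟨?_, hdet⟩
    have h1 : (fun g : G => (χh : Γ → ℂ) g) = χ := funext hext
    rw [h1]
    exact χ.2
  refine ⟨?_, ?_, ?_⟩
  · intro χ χh _ hext hdet
    have hcan := hcanon χ χh hext hdet
    obtain ⟨β, ε, hε, hβ⟩ := M1 χh hcan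
    have hall : ∀ c : C, ∀ s' : Γ, Subgroup.zpowers s' = S →
        (χh : Γ → ℂ) ((c : Γ) * s') = (ε : ℂ) * (β : C → ℂ) c := by
      intro c s' hs'
      rw [canon_gen_indep G S hcop htop hScomm hs χh hcan hs' (hCG c.2) (hCS c c.2 s hsS), hβ]
    constructor
    · refine ⟨(β, ε), ⟨hε, hall⟩, ?_⟩
      rintro ⟨β', ε'⟩ ⟨hε', h'⟩
      simp only at hε' h'
      have e : (ε' : ℂ) • (β' : C → ℂ) = (ε : ℂ) • (β : C → ℂ) := by
        funext c
        exact (h' c s hs).symm.trans (hβ c)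
      have e1 := congrArg (fun f => Cfsg.classInner f (β : C → ℂ)) e
      simp only [classInner_smul_left, IsIrrCharacter.norm_one β.2, mul_one] at e1
      have e2 : Cfsg.classInner (β' : C → ℂ) (β : C → ℂ) ≠ 0 := by
        intro h0
        rw [h0, mul_zero] at e1
        exact hne ε hε (by exact_mod_cast e1.symm)
      have e3 : β' = β := Subtype.ext (irr_eq_of_classInner_ne_zero β'.2 β.2 e2)
      subst e3
      rw [IsIrrCharacter.norm_one β'.2, mul_one] at e1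
      have e4 : ε' = ε := by exact_mod_cast e1
      rw [e4]
    · intro β' ε' hε' h'
      have h1 := glaub_constituent G S hs C hC χh (IsIrrCharacter.isCharacter χh.2) β' ε' (hne ε' hε')
        (fun c => h' c s hs)
      have h2 : (fun c : C => (χ : G → ℂ) ⟨c, hCG c.2⟩) = fun c : C => (χh : Γ → ℂ) c := by
        funext c
        exact (hext ⟨c, hCG c.2⟩).symm
      rw [h2]
      exact h1
  · intro χ χ' χh χh' _ _ hext hext' hdet hdet' β ε ε' hε hε' h h'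
    have h1 := M2 χh χh' (hcanon χ χh hext hdet) (hcanon χ' χh' hext' hdet') β ε ε' (hne ε hε)
      (hne ε' hε') (fun c => h c s hs) (fun c => h' c s hs)
    apply Subtype.ext
    funext g
    rw [← hext, ← hext', h1]
  · intro β
    obtain ⟨φ, hφ, ε, hε, h⟩ := M3 β
    refine ⟨⟨fun g : G => (φ : Γ → ℂ) g, hφ.1⟩, φ, ε, ?_, fun _ => rfl, hφ.2, hε, ?_⟩
    · intro t _ g g' hg'
      show (φ : Γ → ℂ) g' = (φ : Γ → ℂ) g
      rw [hg']
      exact IsCharacter.isClassFunction (IsIrrCharacter.isCharacter φ.2) g t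
    · intro c s' hs'
      rw [canon_gen_indep G S hcop htop hScomm hs φ hφ hs' (hCG c.2) (hCS c c.2 s hsS), h]

end Cfsg.Agent.S4446
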