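import Cfsg.Statements.S4450
import Cfsg.Agent.Lib_helper2_Glaub22

set_option autoImplicit false
open Cfsg

namespace Cfsg.Agent.S4450

open Cfsg.Agent.H4 Cfsg.Agent.H2

/-- Let N ≤ G be normal subgroups of the finite group Γ with the index of G in Γ coprime to the index of N in G, and Γ/G or G/N solvable. Then for every irreducible character ϑ of N invariant under conjugation by Γ, the induced character ϑ^G has an irreducible constituent invariant under conjugation by Γ. -/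
theorem result {Γ : Type*} [Group Γ] [Fintype Γ] (G N : Subgroup Γ) [hG : G.Normal] [hN : N.Normal] [Fintype G] [Fintype N] (hNG : N ≤ G) (hcop : (G.index).Coprime (N.relIndex G)) (hsolv : Group.IsSolvable (Γ ⧸ G) ∨ Group.IsSolvable (G ⧸ N.subgroupOf G)) (θ : Cfsg.IrrCharacter N) (hinv : ∀ (x : Γ) (n : N), (θ : N → ℂ) ⟨x * n * x⁻¹, hN.conj_mem n n.2 x⟩ = (θ : N → ℂ) n) : ∃ χ : Cfsg.IrrCharacter G, Cfsg.classInner (fun n : N => (χ : G → ℂ) ⟨n, hNG n.2⟩) (θ : N → ℂ) ≠ 0 ∧ ∀ (x : Γ) (g : G), (χ : G → ℂ) ⟨x * g * x⁻¹, hG.conj_mem g g.2 x⟩ = (χ : G → ℂ) g := by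
  classical
  obtain ⟨d, hd0, -, hd⟩ := IsIrrCharacter.exists_degree θ.2
  have hNpos : NeZero (Nat.card N) := ⟨Nat.card_pos.ne'⟩
  let E : Subgroup (Γ × ℂˣ) := (⊤ : Subgroup Γ).prod (rootsOfUnity (Nat.card N) ℂ)
  have hEfin : Finite E := Finite.of_equiv _ (Subgroup.prodEquiv _ _).symm.toEquiv
  obtain ⟨F, hF⟩ := H3.detChar_eq_hom (IsIrrCharacter.isCharacter θ.2)
  obtain ⟨Γh, _, _, π, ι, η, D, hπ, hπι, hιn, hker, hη, hηι, -, -, -⟩ :=
    exists_cover N θ θ.2 hinv d hd E (fun g => ⟨1, Subgroup.mem_prod.2 ⟨trivial, one_mem _⟩⟩) (by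
      intro n c hc
      refine Subgroup.mem_prod.2 ⟨trivial, ?_⟩
      rw [hF] at hc
      have hc' : c = F n := Units.ext hc
      show c ∈ rootsOfUnity (Nat.card N) ℂ
      rw [mem_rootsOfUnity, hc', ← map_pow, pow_card_eq_one', map_one])
  have := Fintype.ofFinite Γh
  exact cover_transfer G N hNG hcop hsolv θ π ι η hπ hπι hιn hker hη hηι

end Cfsg.Agent.S4450
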