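import Cfsg.Statements.S4452
import Cfsg.Agent.Lib_helper2_Glaub13

set_option autoImplicit false
open Cfsg

namespace Cfsg.Agent.S4452

open Cfsg.Agent.H4 Cfsg.Agent.H2

theorem inv_of_stab {X : Type*} [Group X] (M H : Subgroup X) [hM : M.Normal] (htop : M ⊔ H = ⊤)
    (θ : M → ℂ) (hcl : IsClassFunction M θ) (h : InvUnder M H θ) :
    ∀ (x : X) (n : M), θ ⟨x * n * x⁻¹, hM.conj_mem n n.2 x⟩ = θ n := by
  have h1 : stabSub M θ = ⊤ := by
    rw [eq_top_iff, ← htop]
    apply sup_le (le_stabSub_self hcl)
    intro s hs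
    exact ⟨fun g hg => hM.conj_mem g hg s, fun g hg => by simpa using hM.conj_mem g hg s⁻¹, h s hs⟩
  intro x n
  have h2 : x ∈ stabSub M θ := by rw [h1]; trivial
  exact h2.2.2 n _ rfl

/-- Let the finite group G be the product of a normal subgroup K and a solvable subgroup H of coprime orders, and let N = N_G(H). Then the number of irreducible characters of G of degree coprime to the order of H equals the number of irreducible characters of N of degree coprime to the order of H. (The two sets are in fact in a canonical bijection; only the equality of their sizes is stated here.) -/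
theorem result {G : Type*} [Group G] [Finite G] (K H : Subgroup G) [K.Normal] (hKH : K ⊔ H = ⊤) (hcop : (Nat.card K).Coprime (Nat.card H)) (hsolv : Group.IsSolvable H) : Nat.card {χ : Cfsg.IrrCharacter G // (Cfsg.charDegree (χ : G → ℂ)).Coprime (Nat.card H)} = Nat.card {η : Cfsg.IrrCharacter (Subgroup.normalizer (H : Set G)) // (Cfsg.charDegree (η : Subgroup.normalizer (H : Set G) → ℂ)).Coprime (Nat.card H)} := by
  classical
  have := Fintype.ofFinite G
  set N : Subgroup G := Subgroup.normalizer (H : Set G) with hN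
  set C₀ : Subgroup G := K ⊓ Subgroup.centralizer (H : Set G) with hC₀
  have hHN : H ≤ N := Subgroup.le_normalizer
  have hC₀N : C₀ ≤ N := inf_le_right.trans (Subgroup.centralizer_le_normalizer _)
  have hKn : K.Normal := inferInstance
  -- the left side
  have hL := card_coprime_degree K H hKH hcop
  rw [card_lin K H hKH hcop] at hL
  have hL1 : Nat.card {θ : IrrCharacter K // ∀ (x : G) (n : K),
      (θ : K → ℂ) ⟨x * n * x⁻¹, hKn.conj_mem n n.2 x⟩ = (θ : K → ℂ) n}
      = Nat.card (IrrCharacter C₀) := by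
    rw [← card_irr_inv (Nat.card K) K H rfl (fun s _ g hg => hKn.conj_mem g hg s) hcop hsolv]
    apply Nat.card_congr (Equiv.subtypeEquivRight ?_)
    intro θ
    constructor
    · intro h s _ g g' hg
      rw [← h s g]
      have : g' = ⟨s * g * s⁻¹, hKn.conj_mem g g.2 s⟩ := Subtype.ext hg
      rw [this]
    · intro h
      exact inv_of_stab K H hKH θ (IsCharacter.isClassFunction (IsIrrCharacter.isCharacter θ.2)) h
  -- the right side
  have hMK : C₀.subgroupOf N = K.subgroupOf N := by
    ext x
    rw [Subgroup.mem_subgroupOf, Subgroup.mem_subgroupOf]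
    constructor
    · exact fun h => h.1
    · intro hx
      refine Subgroup.mem_inf.mpr ⟨hx, ?_⟩
      rw [Subgroup.mem_centralizer_iff]
      intro h hh
      have h1 : (x : G) * h * (x : G)⁻¹ ∈ H := (Subgroup.mem_normalizer_iff.mp x.2 h).mp hh
      have h2 : (x : G) * h * (x : G)⁻¹ * h⁻¹ ∈ K ⊓ H := by
        refine ⟨?_, H.mul_mem h1 (H.inv_mem hh)⟩
        have h3 : (x : G) * h * (x : G)⁻¹ * h⁻¹ = x * (h * (x : G)⁻¹ * h⁻¹) := by group
        rw [h3]
        exact K.mul_mem hx (hKn.conj_mem _ (K.inv_mem hx) h)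
      rw [(Subgroup.disjoint_of_coprime_natCard hcop).eq_bot, Subgroup.mem_bot] at h2
      rw [mul_inv_eq_one, mul_inv_eq_iff_eq_mul] at h2
      exact h2.symm
  have hMn : (C₀.subgroupOf N).Normal := by
    rw [hMK]
    infer_instance
  have htop' : C₀.subgroupOf N ⊔ H.subgroupOf N = ⊤ := by
    rw [eq_top_iff]
    intro x _
    obtain ⟨k, hk, h, hh, hx⟩ := gs_decomp K H hKH (x : G)
    have hkN : k ∈ N := by
      have : k = x * h⁻¹ := by rw [hx]; group
      rw [this]
      exact N.mul_mem x.2 (N.inv_mem (hHN hh))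
    have h1 : x = (⟨k, hkN⟩ : N) * ⟨h, hHN hh⟩ := Subtype.ext hx
    rw [h1]
    apply Subgroup.mul_mem_sup
    · rw [hMK]
      exact Subgroup.mem_subgroupOf.mpr hk
    · exact Subgroup.mem_subgroupOf.mpr hh
  have hcardH : Nat.card (H.subgroupOf N) = Nat.card H := H1.card_subgroupOf_of_le hHN
  have hcardM : Nat.card (C₀.subgroupOf N) = Nat.card C₀ := H1.card_subgroupOf_of_le hC₀N
  have hcop' : (Nat.card (C₀.subgroupOf N)).Coprime (Nat.card (H.subgroupOf N)) := by
    rw [hcardH, hcardM]
    exact Nat.Coprime.coprime_dvd_left (Subgroup.card_dvd_of_le inf_le_left) hcop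
  have hR := card_coprime_degree (C₀.subgroupOf N) (H.subgroupOf N) htop' hcop'
  rw [card_lin (C₀.subgroupOf N) (H.subgroupOf N) htop' hcop', hcardH] at hR
  have hR1 : Nat.card {θ : IrrCharacter (C₀.subgroupOf N) // ∀ (x : N) (n : C₀.subgroupOf N),
      (θ : C₀.subgroupOf N → ℂ) ⟨x * n * x⁻¹, hMn.conj_mem n n.2 x⟩
        = (θ : C₀.subgroupOf N → ℂ) n} = Nat.card (IrrCharacter C₀) := by
    rw [Nat.card_congr (irrEquiv (Subgroup.subgroupOfEquivOfLe hC₀N))]
    apply Nat.card_congr (Equiv.subtypeUnivEquiv ?_)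
    intro θ
    apply inv_of_stab (C₀.subgroupOf N) (H.subgroupOf N) htop' θ
      (IsCharacter.isClassFunction (IsIrrCharacter.isCharacter θ.2))
    intro s hs g g' hg
    have h1 : ((g : N) : G) ∈ C₀ := Subgroup.mem_subgroupOf.mp g.2
    have h2 := Subgroup.mem_centralizer_iff.mp h1.2 (s : G) (Subgroup.mem_subgroupOf.mp hs)
    have : g' = g := by
      apply Subtype.ext
      rw [hg]
      apply Subtype.ext
      show (s : G) * ((g : N) : G) * (s : G)⁻¹ = ((g : N) : G)
      rw [h2]
      simp
    rw [this]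
  have hR2 : Nat.card (H.subgroupOf N →* ℂˣ) = Nat.card (H →* ℂˣ) := by
    let e := Subgroup.subgroupOfEquivOfLe hHN
    exact Nat.card_congr ⟨fun f => f.comp e.symm.toMonoidHom, fun f => f.comp e.toMonoidHom,
      fun f => by ext x; simp, fun f => by ext x; simp⟩
  rw [hL, hL1, hR, hR1, hR2]

end Cfsg.Agent.S4452
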