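import Cfsg.Statements.S4455
import Mathlib
import Cfsg.Agent.Lib_helper3_Det6

set_option autoImplicit false
open Cfsg

namespace Cfsg.Agent.S4455

/-- Fix a prime p and a finite group G. Let s be the sum of χ(1)² over the irreducible characters χ of G whose degree is not divisible by p and whose determinantal order o(χ) is not divisible by p. Then the order of O^p(G), the subgroup generated by the elements of order prime to p, is congruent to s modulo p. -/
theorem result {G : Type*} [Group G] [Finite G] (p : ℕ) (hp : p.Prime) : (Nat.card (Cfsg.pResidual p G) : ℤ) ≡ (∑ᶠ χ ∈ {χ : Cfsg.IrrCharacter G | ¬ p ∣ Cfsg.charDegree (χ : G → ℂ) ∧ ¬ p ∣ Cfsg.detOrder (χ : G → ℂ)}, (Cfsg.charDegree (χ : G → ℂ) : ℤ) ^ 2) [ZMOD p] := by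
  classical
  have := Fintype.ofFinite (Cfsg.IrrCharacter G)
  have h := H3.card_pResidual_modEq p hp _ G rfl
  have e : (∑ᶠ χ ∈ {χ : Cfsg.IrrCharacter G | ¬ p ∣ Cfsg.charDegree (χ : G → ℂ) ∧
      ¬ p ∣ Cfsg.detOrder (χ : G → ℂ)}, (Cfsg.charDegree (χ : G → ℂ) : ℤ) ^ 2)
      = ∑ χ : Cfsg.IrrCharacter G,
        (if H3.IsGood p χ.1 then (Cfsg.charDegree χ.1 : ℤ) ^ 2 else 0) := by
    rw [finsum_mem_def, finsum_eq_sum_of_fintype]
    apply Finset.sum_congr rfl
    intro χ _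
    rw [Set.indicator_apply]
    by_cases hg : H3.IsGood p χ.1
    · rw [if_pos hg, if_pos (show χ ∈ {χ : Cfsg.IrrCharacter G | ¬ p ∣ Cfsg.charDegree (χ : G → ℂ) ∧
        ¬ p ∣ Cfsg.detOrder (χ : G → ℂ)} from hg)]
    · rw [if_neg hg, if_neg (show χ ∉ {χ : Cfsg.IrrCharacter G | ¬ p ∣ Cfsg.charDegree (χ : G → ℂ) ∧
        ¬ p ∣ Cfsg.detOrder (χ : G → ℂ)} from hg)]
  rw [e]
  exact (Int.modEq_iff_dvd.2 h).symm

end Cfsg.Agent.S4455
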