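import Cfsg.Statements.S4456
import Mathlib
import Cfsg.Agent.Lib_helper3_Det7

set_option autoImplicit false
open Cfsg

namespace Cfsg.Agent.S4456

/-- Let p be a prime and G a finite group such that p divides the degree of every irreducible character of G of degree greater than one. Then G has a normal p-complement: a normal subgroup of order prime to p whose index is a power of p. -/
theorem result {G : Type*} [Group G] [Finite G] (p : ℕ) (hp : p.Prime) (hdeg : ∀ χ : Cfsg.IrrCharacter G, Cfsg.charDegree (χ : G → ℂ) ≠ 1 → p ∣ Cfsg.charDegree (χ : G → ℂ)) : ∃ N : Subgroup G, N.Normal ∧ (Nat.card N).Coprime p ∧ ∃ k : ℕ, N.index = p ^ k := by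
  classical
  have : Fact p.Prime := ⟨hp⟩
  have := Fintype.ofFinite (Cfsg.IrrCharacter G)
  have h1 := H3.card_pResidual_modEq p hp _ G rfl
  have h2 := H3.not_dvd_sum_good p hp hdeg
  have hRn : (Cfsg.pResidual p G).Normal := H1.pResidual_normal p
  refine ⟨Cfsg.pResidual p G, hRn, ?_, ?_⟩
  · apply Nat.Coprime.symm
    rw [Nat.Prime.coprime_iff_not_dvd hp]
    intro h
    apply h2
    have h3 : (p : ℤ) ∣ (Nat.card (Cfsg.pResidual p G) : ℤ) := Int.natCast_dvd_natCast.2 h
    exact (dvd_sub_right h3).1 h1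
  · have hQ : IsPGroup p (G ⧸ Cfsg.pResidual p G) := H1.isPGroup_quotient_pResidual p
    obtain ⟨n, hn⟩ := IsPGroup.iff_card.1 hQ
    exact ⟨n, by rw [Subgroup.index_eq_card, hn]⟩

end Cfsg.Agent.S4456
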