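import Cfsg.Statements.S4476
import Mathlib
import Cfsg.Agent.Lib_helper4_CharL

set_option autoImplicit false
open Cfsg

namespace Cfsg.Agent.S4476

theorem sum_card_centralizer {G : Type*} [Group G] [Fintype G] :
    ∑ x : G, Nat.card (Subgroup.centralizer ({x} : Set G)) = Nat.card (ConjClasses G) * Nat.card G := by
  classical
  rw [← card_comm_eq_card_conjClasses_mul_card]
  have e : {p : G × G // Commute p.1 p.2} ≃ Σ x : G, Subgroup.centralizer ({x} : Set G) :=
    { toFun := fun p => ⟨p.1.1, ⟨p.1.2, by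
        rw [Subgroup.mem_centralizer_singleton_iff]; exact p.2.symm.eq⟩⟩
      invFun := fun q => ⟨(q.1, q.2.1), by
        have := q.2.2
        rw [Subgroup.mem_centralizer_singleton_iff] at this
        exact (show Commute q.2.1 q.1 from this).symm⟩
      left_inv := fun p => rfl
      right_inv := fun q => rfl }
  rw [Nat.card_congr e, Nat.card_sigma]

theorem card_sq_eq_one {G : Type*} [Group G] [Fintype G] :
    Nat.card {s : G // s * s = 1} = Nat.card {x : G // orderOf x = 2} + 1 := by
  classical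
  have e : {s : G // s * s = 1} ≃ Option {x : G // orderOf x = 2} :=
    { toFun := fun s => if h : s.1 = 1 then none else some ⟨s.1, by
        have := s.2
        exact orderOf_eq_prime (by rw [pow_two]; exact this) h⟩
      invFun := fun o => match o with
        | none => ⟨1, by simp⟩
        | some x => ⟨x.1, by
            have := pow_orderOf_eq_one x.1
            rw [x.2, pow_two] at this
            exact this⟩
      left_inv := by
        intro s
        by_cases h : s.1 = 1
        · simp only [h, dite_true]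
          exact Subtype.ext h.symm
        · simp only [h, dite_false]
      right_inv := by
        intro o
        rcases o with _ | x
        · simp
        · have hx : x.1 ≠ 1 := by
            intro h
            have := x.2
            rw [h, orderOf_one] at this
            omega
          simp [hx] }
  rw [Nat.card_congr e, Finite.card_option]

/-- Let G be a finite group of even order g with exactly t involutions, and put α = (g − 1)/t (a rational number). Then (a) some non-identity element x of G has at most α² conjugates; and (b) some non-principal real-valued irreducible character of G has degree at most α. -/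
theorem result {G : Type*} [Group G] [Fintype G] (heven : Even (Nat.card G)) (t : ℕ) (ht : Nat.card {x : G // orderOf x = 2} = t) : (∃ x : G, x ≠ 1 ∧ ((Subgroup.centralizer ({x} : Set G)).index : ℚ) ≤ (((Nat.card G : ℚ) - 1) / t) ^ 2) ∧ ∃ χ : Cfsg.IrrCharacter G, (χ : G → ℂ) ≠ (fun _ => 1) ∧ (∀ g : G, ((χ : G → ℂ) g).im = 0) ∧ (Cfsg.charDegree (χ : G → ℂ) : ℚ) ≤ ((Nat.card G : ℚ) - 1) / t := by
  classical
  have := Fintype.ofFinite (IrrCharacter G)
  have hν : ∀ χ : IrrCharacter G, ∃ z : ℤ, (z = 0 ∨ z = 1 ∨ z = -1) ∧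
      (z : ℂ) = (Nat.card G : ℂ)⁻¹ * ∑ s : G, (χ : G → ℂ) (s * s) ∧
      (z ≠ 0 → ∀ g, ((χ : G → ℂ) g).im = 0) := by
    rintro ⟨χ, n, ρ, hρ, rfl⟩
    have := hρ
    have hfs := H4.frobenius_schur ρ
    have hreal : (Nat.card G : ℂ)⁻¹ * ∑ s : G, ρ.character (s * s) ≠ 0 →
        ∀ g, (ρ.character g).im = 0 := by
      intro h g
      by_contra hg
      exact h (hfs.2.2 ⟨g, hg⟩)
    rcases hfs.1 with h | h | h
    · exact ⟨0, Or.inl rfl, by rw [h]; simp, fun h0 => absurd rfl h0⟩
    · exact ⟨1, Or.inr (Or.inl rfl), by rw [h]; simp, fun _ => hreal (by rw [h]; simp)⟩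
    · exact ⟨-1, Or.inr (Or.inr rfl), by rw [h]; simp, fun _ => hreal (by rw [h]; simp)⟩
  choose ν hν1 hν2 hν3 using hν
  have hd : ∀ χ : IrrCharacter G, ∃ n : ℕ, 0 < n ∧ n ∣ Nat.card G ∧ (χ : G → ℂ) 1 = n :=
    fun χ => H4.IsIrrCharacter.exists_degree χ.2
  choose d hd0 hd1 hd2 using hd
  have hcount : (Nat.card {s : G // s * s = 1} : ℤ) = ∑ χ, ν χ * d χ := by
    have h1 := H4.involution_count (G := G)
    rw [finsum_eq_sum_of_fintype] at h1
    have h2 : (Nat.card {s : G // s * s = 1} : ℂ) = ((∑ χ, ν χ * d χ : ℤ) : ℂ) := by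
      rw [h1]
      push_cast
      apply Finset.sum_congr rfl
      intro χ _
      rw [← hν2, hd2]
    exact_mod_cast h2
  set τ := H4.trivIrr G with hτ
  have hgpos : 0 < Nat.card G := Nat.card_pos
  have hντ : ν τ = 1 := by
    have h1 : (ν τ : ℂ) = 1 := by
      rw [hν2]
      have h2 : ∑ s : G, (τ : G → ℂ) (s * s) = (Nat.card G : ℂ) := by
        have : ∀ s : G, (τ : G → ℂ) (s * s) = 1 := fun _ => rfl
        simp only [this]
        simp [Nat.card_eq_fintype_card]
      rw [h2]
      exact inv_mul_cancel₀ (by exact_mod_cast hgpos.ne')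
    exact_mod_cast h1
  have hdτ : d τ = 1 := by
    have h1 : (d τ : ℂ) = 1 := by rw [← hd2]; rfl
    exact_mod_cast h1
  have hsq : ∑ χ, (d χ) ^ 2 = Nat.card G := by
    have h1 := H4.sum_sq_degrees' (G := G)
    simp only [hd2] at h1
    exact_mod_cast h1
  set R := (Finset.univ : Finset (IrrCharacter G)).erase τ with hR
  have hF1 : (t : ℤ) = ∑ χ ∈ R, ν χ * d χ := by
    have h1 := Finset.add_sum_erase Finset.univ (fun χ => ν χ * (d χ : ℤ)) (Finset.mem_univ τ)
    rw [← hcount, card_sq_eq_one, ht, hντ, hdτ] at h1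
    push_cast at h1
    linarith
  have hF2 : ∑ χ ∈ R, (d χ) ^ 2 + 1 = Nat.card G := by
    have h1 := Finset.add_sum_erase Finset.univ (fun χ => (d χ) ^ 2) (Finset.mem_univ τ)
    rw [hsq] at h1
    simp only [hdτ, one_pow] at h1
    rw [hR]
    omega
  have htpos : 0 < t := by
    have hp2 : Fact (Nat.Prime 2) := ⟨Nat.prime_two⟩
    obtain ⟨x, hx⟩ := exists_prime_orderOf_dvd_card' (G := G) 2 (even_iff_two_dvd.1 heven)
    rw [← ht]
    have : Nonempty {x : G // orderOf x = 2} := ⟨⟨x, hx⟩⟩
    exact Nat.card_pos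
  have hg2 : 2 ≤ Nat.card G := Nat.le_of_dvd hgpos (even_iff_two_dvd.1 heven)
  set gq : ℚ := (Nat.card G : ℚ) with hgq
  have hgq2 : (2 : ℚ) ≤ gq := by rw [hgq]; exact_mod_cast hg2
  have htq : (0 : ℚ) < t := by exact_mod_cast htpos
  set α : ℚ := (gq - 1) / t with hα
  have hαt : α * t = gq - 1 := by rw [hα]; field_simp
  have hα0 : 0 < α := by rw [hα]; apply div_pos <;> linarith
  have hF2q : ∑ χ ∈ R, (d χ : ℚ) ^ 2 = gq - 1 := by
    have : ((∑ χ ∈ R, (d χ) ^ 2 + 1 : ℕ) : ℚ) = gq := by rw [hF2]
    push_cast at this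
    linarith
  set R' := R.filter (fun χ => ν χ ≠ 0) with hR'
  have ht_le : (t : ℚ) ≤ ∑ χ ∈ R', (d χ : ℚ) := by
    have h1 : (t : ℤ) ≤ ∑ χ ∈ R', (d χ : ℤ) := by
      rw [hF1, hR', Finset.sum_filter]
      apply Finset.sum_le_sum
      intro χ _
      have hdn : (0 : ℤ) ≤ d χ := by positivity
      rcases hν1 χ with h | h | h
      · simp [h]
      · simp [h]
      · simp [h]
    exact_mod_cast h1
  have hR'sub : R' ⊆ R := Finset.filter_subset _ _
  refine ⟨?_, ?_⟩
  · by_contra hcon
    push Not at hcon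
    have hk : (R.card : ℚ) + 1 = (Nat.card (ConjClasses G) : ℚ) := by
      rw [← H4.card_irr, Nat.card_eq_fintype_card, hR, Finset.card_erase_of_mem (Finset.mem_univ _),
        Finset.card_univ]
      have : 0 < Fintype.card (IrrCharacter G) := Fintype.card_pos_iff.2 ⟨τ⟩
      have h2 : ((Fintype.card (IrrCharacter G) - 1 : ℕ) : ℚ) = (Fintype.card (IrrCharacter G) : ℚ) - 1 := by
        rw [Nat.cast_sub this]; simp
      rw [h2]; ring
    have hCS : (t : ℚ) ^ 2 ≤ (R.card : ℚ) * (gq - 1) := by
      have h1 : (t : ℚ) ≤ ∑ χ ∈ R, (d χ : ℚ) :=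
        ht_le.trans (Finset.sum_le_sum_of_subset_of_nonneg hR'sub (fun _ _ _ => by positivity))
      have h2 := sq_sum_le_card_mul_sum_sq (s := R) (f := fun χ => (d χ : ℚ))
      rw [hF2q] at h2
      refine le_trans ?_ h2
      exact pow_le_pow_left₀ htq.le h1 2
    have hsum := sum_card_centralizer (G := G)
    have h1 := Finset.add_sum_erase Finset.univ
      (fun x : G => Nat.card (Subgroup.centralizer ({x} : Set G))) (Finset.mem_univ 1)
    rw [hsum] at h1
    have hc1 : Nat.card (Subgroup.centralizer ({1} : Set G)) = Nat.card G := by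
      have : Subgroup.centralizer ({1} : Set G) = ⊤ := by
        rw [eq_top_iff]; intro x _
        rw [Subgroup.mem_centralizer_singleton_iff]; simp
      rw [this, Subgroup.card_top]
    simp only [hc1] at h1
    have h1q : ∑ x ∈ (Finset.univ : Finset G).erase 1,
        (Nat.card (Subgroup.centralizer ({x} : Set G)) : ℚ) = (R.card : ℚ) * gq := by
      have : ((Nat.card G + ∑ x ∈ (Finset.univ : Finset G).erase 1,
        Nat.card (Subgroup.centralizer ({x} : Set G)) : ℕ) : ℚ)
          = ((Nat.card (ConjClasses G) * Nat.card G : ℕ) : ℚ) := by rw [h1]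
      push_cast at this
      rw [← hk] at this
      linarith
    have hne : ((Finset.univ : Finset G).erase 1).Nonempty := by
      rw [← Finset.card_pos, Finset.card_erase_of_mem (Finset.mem_univ _), Finset.card_univ,
        ← Nat.card_eq_fintype_card]
      omega
    have h2 : ∑ x ∈ (Finset.univ : Finset G).erase 1,
        α ^ 2 * (Nat.card (Subgroup.centralizer ({x} : Set G)) : ℚ)
        < ∑ x ∈ (Finset.univ : Finset G).erase 1, gq := by
      apply Finset.sum_lt_sum_of_nonempty hne
      intro x hx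
      have hx1 : x ≠ 1 := (Finset.mem_erase.1 hx).1
      have h3 := hcon x hx1
      have h4 := (Subgroup.centralizer ({x} : Set G)).index_mul_card
      have h5 : ((Subgroup.centralizer ({x} : Set G)).index : ℚ)
          * (Nat.card (Subgroup.centralizer ({x} : Set G)) : ℚ) = gq := by
        rw [hgq, ← h4]; push_cast; ring
      rw [← h5]
      have h6 : (0 : ℚ) < (Nat.card (Subgroup.centralizer ({x} : Set G)) : ℚ) := by
        exact_mod_cast Nat.card_pos
      exact mul_lt_mul_of_pos_right h3 h6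
    have h7 : ((((Finset.univ : Finset G).erase 1).card : ℕ) : ℚ) = gq - 1 := by
      rw [Finset.card_erase_of_mem (Finset.mem_univ _), Finset.card_univ,
        ← Nat.card_eq_fintype_card, Nat.cast_sub hgpos]
      simp [hgq]
    rw [← Finset.mul_sum, h1q, Finset.sum_const, nsmul_eq_mul, h7] at h2
    have hgq0 : (0 : ℚ) < gq := by linarith
    have h8 : α ^ 2 * (R.card : ℚ) < gq - 1 := by
      have : α ^ 2 * (R.card : ℚ) * gq < (gq - 1) * gq := by linarith
      exact lt_of_mul_lt_mul_right this hgq0.le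
    have h9 : (α * t) ^ 2 * (R.card : ℚ) < (gq - 1) * (t : ℚ) ^ 2 := by
      have : (α * t) ^ 2 * (R.card : ℚ) = (α ^ 2 * (R.card : ℚ)) * (t : ℚ) ^ 2 := by ring
      rw [this]
      exact mul_lt_mul_of_pos_right h8 (by positivity)
    rw [hαt] at h9
    have h10 : (gq - 1) * (R.card : ℚ) < (t : ℚ) ^ 2 := by
      have hpos : (0 : ℚ) < gq - 1 := by linarith
      have : (gq - 1) * ((gq - 1) * (R.card : ℚ)) < (gq - 1) * (t : ℚ) ^ 2 := by
        have e : (gq - 1) ^ 2 * (R.card : ℚ) = (gq - 1) * ((gq - 1) * (R.card : ℚ)) := by ring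
        rw [← e]; exact h9
      exact lt_of_mul_lt_mul_left this hpos.le
    linarith
  · by_contra hcon
    push Not at hcon
    have h1 : ∀ χ ∈ R', α < d χ := by
      intro χ hχ
      rw [hR', Finset.mem_filter, hR, Finset.mem_erase] at hχ
      have hne : (χ : G → ℂ) ≠ fun _ => 1 := fun h => hχ.1.1 (Subtype.ext h)
      have := hcon χ hne (hν3 χ hχ.2)
      rwa [H4.charDegree_eq (hd2 χ)] at this
    have hne : R'.Nonempty := by
      rw [Finset.nonempty_iff_ne_empty]
      intro h
      rw [h, Finset.sum_empty] at ht_le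
      linarith
    have h3 : ∑ χ ∈ R', (d χ : ℚ) ^ 2 ≤ gq - 1 := by
      rw [← hF2q]
      exact Finset.sum_le_sum_of_subset_of_nonneg hR'sub (fun _ _ _ => by positivity)
    have h4 : ∑ χ ∈ R', α * (d χ : ℚ) < ∑ χ ∈ R', (d χ : ℚ) ^ 2 := by
      apply Finset.sum_lt_sum_of_nonempty hne
      intro χ hχ
      have hdp : (0 : ℚ) < d χ := by exact_mod_cast hd0 χ
      rw [pow_two]
      exact mul_lt_mul_of_pos_right (h1 χ hχ) hdp
    rw [← Finset.mul_sum] at h4
    have h5 : α * t ≤ α * ∑ χ ∈ R', (d χ : ℚ) := mul_le_mul_of_nonneg_left ht_le hα0.le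
    linarith

end Cfsg.Agent.S4476
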