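import Cfsg.Statements.S4478
import Cfsg.Agent.Lib_helper2_FS2
import Cfsg.Agent.Lib_helper2_Class
import Cfsg.Agent.Lib_helper4_BlkA

set_option autoImplicit false
set_option linter.style.haveILetI false
open Cfsg

namespace Cfsg.Agent.S4478

open Cfsg.Agent.H4

theorem vanish {G : Type*} [Group G] [Finite G] (χ : IrrCharacter G) (d : ℕ) (hd : (χ : G → ℂ) 1 = d)
    (p : ℕ) (hp : p.Prime) (hgood : p ^ (Nat.card G).factorization p ∣ d) (x : G)
    (hx : p ∣ orderOf x) : (χ : G → ℂ) x = 0 := by
  obtain ⟨χ, m, ρ, hirr, rfl⟩ := χ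
  haveI := hirr
  have hfin : Module.finrank ℂ (Fin m → ℂ) = d := by
    have h1 : ρ.character 1 = d := hd
    rw [Representation.char_one] at h1
    exact_mod_cast h1
  exact defect_zero_vanish ρ p ((Nat.card G).factorization p) hp
    (Nat.ordProj_dvd _ _) (Nat.pow_succ_factorization_not_dvd Nat.card_pos.ne' hp)
    (by rw [hfin]; exact hgood) x hx

/-- squaring permutes the elements of odd order -/
theorem sum_sq_odd {G : Type*} [Group G] [Fintype G] [DecidableEq G] (f : G → ℂ) :
    ∑ g ∈ Finset.univ.filter (fun g : G => Odd (orderOf g)), f (g * g)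
      = ∑ g ∈ Finset.univ.filter (fun g : G => Odd (orderOf g)), f g := by
  apply Finset.sum_nbij' (fun g => g * g) (fun g => g ^ ((orderOf g + 1) / 2))
  · intro g hg
    rw [Finset.mem_filter] at hg ⊢
    refine ⟨Finset.mem_univ _, ?_⟩
    rw [← pow_two]
    exact Odd.of_dvd_nat hg.2 (orderOf_pow_dvd 2)
  · intro g hg
    rw [Finset.mem_filter] at hg ⊢
    exact ⟨Finset.mem_univ _, Odd.of_dvd_nat hg.2 (orderOf_pow_dvd _)⟩
  · intro g hg
    rw [Finset.mem_filter] at hg
    obtain ⟨k, hk⟩ := hg.2
    have h1 : orderOf (g * g) = orderOf g := by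
      rw [← pow_two]
      apply Nat.Coprime.orderOf_pow
      exact (Nat.coprime_two_right).2 hg.2
    simp only [h1]
    rw [← pow_two, ← pow_mul]
    have h2 : 2 * ((orderOf g + 1) / 2) = orderOf g + 1 := by omega
    rw [h2, pow_succ, pow_orderOf_eq_one, one_mul]
  · intro g hg
    rw [Finset.mem_filter] at hg
    obtain ⟨k, hk⟩ := hg.2
    rw [← pow_add]
    have h2 : (orderOf g + 1) / 2 + (orderOf g + 1) / 2 = orderOf g + 1 := by omega
    rw [h2, pow_succ, pow_orderOf_eq_one, one_mul]
  · intro g _; rfl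

/-- Let G be a finite group of even order and χ an irreducible character of G whose degree x is divisible by the full power of 2 dividing the order of G and, for every odd prime p such that G has an element of order 2p, by the full power of p dividing the order of G. Then all involutions of G are conjugate, the centralizer of every involution has order exactly x with x coprime to its index, and the Frobenius–Schur indicator of χ equals 1. -/
theorem result {G : Type*} [Group G] [Fintype G] (heven : Even (Nat.card G)) (χ : Cfsg.IrrCharacter G) (h2 : 2 ^ (Nat.card G).factorization 2 ∣ Cfsg.charDegree (χ : G → ℂ)) (hp : ∀ p : ℕ, p.Prime → p ≠ 2 → (∃ g : G, orderOf g = 2 * p) → p ^ (Nat.card G).factorization p ∣ Cfsg.charDegree (χ : G → ℂ)) : (∀ s t : G, orderOf s = 2 → orderOf t = 2 → IsConj s t) ∧ (∀ s : G, orderOf s = 2 → Nat.card (Subgroup.centralizer ({s} : Set G)) = Cfsg.charDegree (χ : G → ℂ) ∧ (Nat.card (Subgroup.centralizer ({s} : Set G))).Coprime (Subgroup.centralizer ({s} : Set G)).index) ∧ (Nat.card G :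 ℂ)⁻¹ * ∑ g : G, (χ : G → ℂ) (g * g) = 1 := by
  classical
  haveI := Fintype.ofFinite (IrrCharacter G)
  obtain ⟨d, hd0, hdvd, hd⟩ := IsIrrCharacter.exists_degree χ.2
  rw [charDegree_eq hd] at h2 hp ⊢
  have hG0 : Nat.card G ≠ 0 := Nat.card_pos.ne'
  have hgood : ∀ p : ℕ, p.Prime → (∃ g : G, orderOf g = 2 * p) → p ^ (Nat.card G).factorization p ∣ d := by
    intro p hpp hex
    by_cases hp2 : p = 2
    · rw [hp2]; exact h2
    · exact hp p hpp hp2 hex
  -- Claim: values at squares of even order elements
  have hsq : ∀ g : G, Even (orderOf g) → orderOf g ≠ 2 → (χ : G → ℂ) (g * g) = 0 := by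
    intro g hge hg2
    obtain ⟨o, ho⟩ := hge.two_dvd
    have hopos : 0 < orderOf g := orderOf_pos g
    have ho1 : o ≠ 1 := by rintro rfl; exact hg2 (by rw [ho, mul_one])
    have ho0 : o ≠ 0 := by rintro rfl; omega
    obtain ⟨p, hpp, hpo⟩ := Nat.exists_prime_and_dvd ho1
    obtain ⟨c, hc⟩ := hpo
    have hc0 : c ≠ 0 := by rintro rfl; exact ho0 (by rw [hc, mul_zero])
    have hex : ∃ y : G, orderOf y = 2 * p := by
      refine ⟨g ^ c, ?_⟩
      rw [orderOf_pow_of_dvd hc0 ⟨2 * p, by rw [ho, hc]; ring⟩, ho, hc]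
      rw [show 2 * (p * c) = (2 * p) * c by ring]
      exact Nat.mul_div_cancel _ (Nat.pos_of_ne_zero hc0)
    apply vanish χ d hd p hpp (hgood p hpp hex)
    rw [← pow_two, orderOf_pow_of_dvd two_ne_zero ⟨o, ho⟩, ho, Nat.mul_div_cancel_left _ (by norm_num)]
    exact ⟨c, hc⟩
  have hev : ∀ g : G, Even (orderOf g) → (χ : G → ℂ) g = 0 := by
    intro g hge
    exact vanish χ d hd 2 Nat.prime_two h2 g hge.two_dvd
  have hdeven : Even d := by
    have h1 : 2 ∣ 2 ^ (Nat.card G).factorization 2 := by
      apply dvd_pow_self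
      have := (Nat.Prime.dvd_iff_one_le_factorization Nat.prime_two hG0).1 heven.two_dvd
      omega
    exact (even_iff_two_dvd).2 (h1.trans h2)
  have hne : χ ≠ trivIrr G := by
    rintro rfl
    have h1 : (1 : ℂ) = d := hd
    have h3 : d = 1 := by exact_mod_cast h1.symm
    rw [h3] at hdeven
    exact absurd hdeven (by decide)
  have hsum0 : ∑ g : G, (χ : G → ℂ) g = 0 := by
    have h1 := irr_orthonormal χ (trivIrr G)
    rw [if_neg hne] at h1
    have h3 : classInner (χ : G → ℂ) ((trivIrr G : IrrCharacter G) : G → ℂ)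
        = (Nat.card G : ℂ)⁻¹ * ∑ s : G, (χ : G → ℂ) s := by
      unfold classInner
      simp [trivIrr]
    rw [h3] at h1
    exact (mul_eq_zero.1 h1).resolve_left (inv_ne_zero card_ne_zero_C)
  set I := Finset.univ.filter (fun g : G => orderOf g = 2) with hI
  have hodd0 : ∑ g ∈ Finset.univ.filter (fun g : G => Odd (orderOf g)), (χ : G → ℂ) g = 0 := by
    rw [← hsum0, ← Finset.sum_filter_add_sum_filter_not Finset.univ (fun g : G => Odd (orderOf g))]
    have : ∑ g ∈ Finset.univ.filter (fun g : G => ¬ Odd (orderOf g)), (χ : G → ℂ) g = 0 := by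
      apply Finset.sum_eq_zero
      intro g hg
      rw [Finset.mem_filter, Nat.not_odd_iff_even] at hg
      exact hev g hg.2
    rw [this, add_zero]
  have htotal : ∑ g : G, (χ : G → ℂ) (g * g) = (I.card : ℂ) * d := by
    rw [← Finset.sum_filter_add_sum_filter_not Finset.univ (fun g : G => Odd (orderOf g)),
      sum_sq_odd, hodd0, zero_add]
    have h1 : ∀ g ∈ Finset.univ.filter (fun g : G => ¬ Odd (orderOf g)),
        (χ : G → ℂ) (g * g) = if orderOf g = 2 then (d : ℂ) else 0 := by
      intro g hg
      rw [Finset.mem_filter, Nat.not_odd_iff_even] at hg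
      split_ifs with h
      · rw [← pow_two, ← h, pow_orderOf_eq_one, hd]
      · exact hsq g hg.2 h
    rw [Finset.sum_congr rfl h1, Finset.sum_ite, Finset.sum_const_zero, add_zero, Finset.sum_const,
      nsmul_eq_mul]
    congr 2
    rw [hI]
    congr 1
    ext g
    simp only [Finset.mem_filter, Finset.mem_univ, true_and]
    constructor
    · rintro ⟨_, h⟩; exact h
    · intro h; exact ⟨by rw [h]; decide, h⟩
  haveI : Fact (Nat.Prime 2) := ⟨Nat.prime_two⟩
  obtain ⟨s0, hs0⟩ := exists_prime_orderOf_dvd_card' (G := G) 2 heven.two_dvd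
  have hIpos : 0 < I.card := Finset.card_pos.2 ⟨s0, by rw [hI, Finset.mem_filter]; exact ⟨Finset.mem_univ _, hs0⟩⟩
  have hGC : (Nat.card G : ℂ) ≠ 0 := card_ne_zero_C
  have hnu : (Nat.card G : ℂ)⁻¹ * ∑ g : G, (χ : G → ℂ) (g * g) = 1 := by
    have hval : H2.nu (χ : G → ℂ) = (Nat.card G : ℂ)⁻¹ * ((I.card : ℂ) * d) := by
      rw [H2.nu_def, htotal]
    have hcast : (Nat.card G : ℂ)⁻¹ * ((I.card : ℂ) * d) = (((I.card * d : ℕ) : ℝ) / (Nat.card G : ℝ) : ℝ) := by
      push_cast; field_simp
    have hposr : (0 : ℝ) < ((I.card * d : ℕ) : ℝ) / (Nat.card G : ℝ) := by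
      apply div_pos
      · exact_mod_cast Nat.mul_pos hIpos hd0
      · exact_mod_cast Nat.card_pos
    rcases H2.nu_irr χ with h | h | h
    · rw [hval, hcast] at h
      have : ((I.card * d : ℕ) : ℝ) / (Nat.card G : ℝ) = 0 := by exact_mod_cast h
      linarith
    · exact h
    · rw [hval, hcast] at h
      have : ((I.card * d : ℕ) : ℝ) / (Nat.card G : ℝ) = -1 := by exact_mod_cast h
      linarith
  have hId : I.card * d = Nat.card G := by
    rw [htotal] at hnu
    have h1 : (I.card : ℂ) * d = Nat.card G := by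
      field_simp at hnu
      exact hnu
    exact_mod_cast h1
  -- centralisers of involutions
  have hCgood : ∀ s : G, orderOf s = 2 → ∀ p : ℕ, p.Prime →
      p ∣ Nat.card (Subgroup.centralizer ({s} : Set G)) → p ^ (Nat.card G).factorization p ∣ d := by
    intro s hs p hpp hpC
    by_cases hp2 : p = 2
    · rw [hp2]; exact h2
    haveI : Fact p.Prime := ⟨hpp⟩
    obtain ⟨y, hy⟩ := exists_prime_orderOf_dvd_card' (G := Subgroup.centralizer ({s} : Set G)) p hpC
    apply hgood p hpp
    refine ⟨s * y, ?_⟩
    have hcomm : Commute s (y : G) := by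
      have := y.2
      rw [Subgroup.mem_centralizer_singleton_iff] at this
      first | exact this | exact this.symm
    rw [hcomm.orderOf_mul_eq_mul_orderOf_of_coprime, hs, Subgroup.orderOf_coe, hy]
    rw [hs, Subgroup.orderOf_coe, hy]
    exact (Nat.coprime_primes Nat.prime_two hpp).2 (Ne.symm hp2)
  have hCdvd : ∀ s : G, orderOf s = 2 → Nat.card (Subgroup.centralizer ({s} : Set G)) ∣ d := by
    intro s hs
    rw [← Nat.factorization_prime_le_iff_dvd Nat.card_pos.ne' hd0.ne']
    intro p hpp
    by_cases hpC : p ∣ Nat.card (Subgroup.centralizer ({s} : Set G))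
    · have h1 := hCgood s hs p hpp hpC
      have h3 : (Nat.card G).factorization p ≤ d.factorization p :=
        (Nat.Prime.pow_dvd_iff_le_factorization hpp hd0.ne').1 h1
      have h4 : (Nat.card (Subgroup.centralizer ({s} : Set G))).factorization p
          ≤ (Nat.card G).factorization p :=
        (Nat.factorization_le_iff_dvd Nat.card_pos.ne' hG0).2 (Subgroup.card_subgroup_dvd_card _) p
      exact h4.trans h3
    · rw [Nat.factorization_eq_zero_of_not_dvd hpC]; exact Nat.zero_le _
  have hclass : ∀ s : G, orderOf s = 2 →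
      Nat.card (Subgroup.centralizer ({s} : Set G)) = d ∧ ∀ t : G, orderOf t = 2 → IsConj s t := by
    intro s hs
    set C := Subgroup.centralizer ({s} : Set G) with hC
    set cl := Finset.univ.filter (fun y : G => IsConj s y) with hcl
    have h1 : cl.card = C.index := by
      rw [← H2.card_isConj_eq_index, Nat.card_eq_fintype_card, Fintype.card_subtype]
    have h3 : cl ⊆ I := by
      intro y hy
      rw [hcl, Finset.mem_filter] at hy
      rw [hI, Finset.mem_filter]
      refine ⟨Finset.mem_univ _, ?_⟩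
      obtain ⟨c, hc⟩ := isConj_iff.1 hy.2
      rw [← hc, ← hs]
      exact MulEquiv.orderOf_eq (MulAut.conj c) s
    have h4 : cl.card ≤ I.card := Finset.card_le_card h3
    have h5 : Nat.card C * C.index = Nat.card G := C.card_mul_index
    have h6 : Nat.card C ≤ d := Nat.le_of_dvd hd0 (hCdvd s hs)
    have hCpos : 0 < Nat.card C := Nat.card_pos
    have h7 : Nat.card C = d ∧ cl.card = I.card := by
      rw [← h1, ← hId] at h5
      constructor
      · by_contra hne'
        have hlt : Nat.card C < d := lt_of_le_of_ne h6 hne'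
        have : Nat.card C * cl.card < I.card * d := by
          calc Nat.card C * cl.card ≤ Nat.card C * I.card := Nat.mul_le_mul_left _ h4
            _ < d * I.card := Nat.mul_lt_mul_of_pos_right hlt hIpos
            _ = I.card * d := mul_comm _ _
        omega
      · by_contra hne'
        have hlt : cl.card < I.card := lt_of_le_of_ne h4 hne'
        have : Nat.card C * cl.card < I.card * d := by
          calc Nat.card C * cl.card < Nat.card C * I.card := Nat.mul_lt_mul_of_pos_left hlt hCpos
            _ ≤ d * I.card := Nat.mul_le_mul_right _ h6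
            _ = I.card * d := mul_comm _ _
        omega
    refine ⟨h7.1, ?_⟩
    intro t ht
    have h8 : cl = I := Finset.eq_of_subset_of_card_le h3 h7.2.ge
    have h9 : t ∈ cl := by
      rw [h8, hI, Finset.mem_filter]; exact ⟨Finset.mem_univ _, ht⟩
    rw [hcl, Finset.mem_filter] at h9
    exact h9.2
  refine ⟨fun s t hs ht => (hclass s hs).2 t ht, ?_, hnu⟩
  intro s hs
  refine ⟨(hclass s hs).1, ?_⟩
  apply Nat.coprime_of_dvd
  intro p hpp hpC hpi
  have h1 := hCgood s hs p hpp hpC
  rw [← (hclass s hs).1] at h1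
  have h3 : p ^ ((Nat.card G).factorization p + 1) ∣ Nat.card G := by
    have h4 := Nat.mul_dvd_mul h1 hpi
    rw [(Subgroup.centralizer ({s} : Set G)).card_mul_index] at h4
    rw [pow_succ]; exact h4
  exact Nat.pow_succ_factorization_not_dvd hG0 hpp h3

end Cfsg.Agent.S4478
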