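import Cfsg.Statements.S4490
import Cfsg.Agent.Lib_helper4_BlkQ

set_option autoImplicit false
open Cfsg

namespace Cfsg.Agent.S4490

/-- Let G be a finite group and M a maximal ideal of the algebraic integers containing 2. Every 2-block B of G whose defect groups are the Sylow 2-subgroups of G (a block of full defect) and which is not the principal block is different from its complex-conjugate block, the block formed by the complex conjugates of the members of B. -/
theorem result {G : Type*} [Group G] [Finite G] (M : Ideal Cfsg.AlgInt) (hM : Cfsg.IsPModular 2 M) (B : Set (Cfsg.IrrCharacter G)) (hB : Cfsg.IsPBlock M B) (P : Sylow 2 G) (hfull : Cfsg.IsDefectGroup 2 M B (P : Subgroup G)) (hnp : B ≠ Cfsg.principalBlock M G) : {ψ : Cfsg.IrrCharacter G | ∃ χ ∈ B, (ψ : G → ℂ) = fun g => (starRingEnd ℂ) ((χ : G → ℂ) g)} ≠ B := by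
  haveI := Fintype.ofFinite G
  haveI : Fact (Nat.Prime 2) := ⟨Nat.prime_two⟩
  intro hconj
  apply hnp
  have hdef : Cfsg.blockDefect 2 B = (Nat.card G).factorization 2 := by
    have h1 := Cfsg.Agent.H4.defect_group_card hM B hB _ hfull
    have h2 := Sylow.card_eq_multiplicity P
    rw [h1] at h2
    exact Nat.pow_right_injective (le_refl 2) h2
  obtain ⟨χ, hχ, hodd⟩ := Cfsg.Agent.H4.exists_odd_degree_of_full_defect hM B hB hdef
  let ψ : Cfsg.IrrCharacter G := ⟨fun g => (starRingEnd ℂ) ((χ : G → ℂ) g), Cfsg.Agent.H4.IsIrrCharacter.conj χ.2⟩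
  have hψ : ψ ∈ B := by
    rw [← hconj]
    exact ⟨χ, hχ, rfl⟩
  have hsb : Cfsg.SameBlock M (χ : G → ℂ) (ψ : G → ℂ) := by
    have := Cfsg.Agent.H4.IsPBlock.eq_blockOf hM hB hχ
    rw [this] at hψ
    exact hψ
  have h := Cfsg.Agent.H4.principal_of_real_like hM χ ψ hsb hodd (by
    intro g _
    exact (Cfsg.Agent.H4.IsCharacter.inv_eq_conj (Cfsg.Agent.H4.IsIrrCharacter.isCharacter χ.2) g).symm)
  rw [Cfsg.Agent.H4.IsPBlock.eq_blockOf hM hB hχ]
  exact (Cfsg.Agent.H4.IsPBlock.eq_blockOf hM ⟨Cfsg.Agent.H4.trivIrr G, rfl⟩ h).symm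


end Cfsg.Agent.S4490
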