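import Cfsg.Statements.S4495
import Mathlib
import Cfsg.Agent.Lib_helper3_SelfCent

set_option autoImplicit false
open Cfsg

namespace Cfsg.Agent.S4495

/-- Let the finite group G contain an element x of prime order p with C_G(x) = ⟨x⟩, and let t be the number of conjugacy classes of elements of order p. If t ≠ p − 1 then the commutator subgroup has index at most (p − 1)/t; if t = p − 1 it has index exactly p. -/
theorem result {G : Type*} [Group G] [Finite G] (p : ℕ) (hp : p.Prime) (x : G) (hx : orderOf x = p) (hC : Subgroup.centralizer ({x} : Set G) = Subgroup.zpowers x) (t : ℕ) (ht : Nat.card {C : ConjClasses G // ∃ g ∈ C.carrier, orderOf g = p} = t) : (t ≠ p - 1 → (commutator G).index * t ≤ p - 1) ∧ (t = p - 1 → (commutator G).index = p) := by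
  have : Fact p.Prime := ⟨hp⟩
  subst ht
  have het := H3.selfCent_relIndex_mul hx hC
  obtain ⟨P, hP⟩ := H3.selfCent_exists_sylow hx hC
  set N : Subgroup G := Subgroup.normalizer ((Subgroup.zpowers x : Subgroup G) : Set G) with hN
  set e := (Subgroup.zpowers x).relIndex N with he
  set t := Nat.card {C : ConjClasses G // ∃ g ∈ C.carrier, orderOf g = p} with ht
  have hp1 : 0 < p - 1 := by have := hp.one_lt; omega
  have hx1 : x ≠ 1 := by
    intro h; rw [h, orderOf_one] at hx; exact hp.one_lt.ne hx
  constructor
  · intro hne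
    have he1 : e ≠ 1 := by
      intro h; rw [h, one_mul] at het; exact hne het
    -- some element of N is outside ⟨x⟩
    have hNP : ¬ N ≤ Subgroup.zpowers x := fun h => he1 (Subgroup.relIndex_eq_one.2 h)
    obtain ⟨n, hnN, hnP⟩ := SetLike.not_le_iff_exists.1 hNP
    have hconj : n * x * n⁻¹ ∈ Subgroup.zpowers x :=
      (Subgroup.mem_normalizer_iff.1 hnN x).1 (Subgroup.mem_zpowers x)
    have hc : n * x * n⁻¹ * x⁻¹ ∈ Subgroup.zpowers x :=
      (Subgroup.zpowers x).mul_mem hconj ((Subgroup.zpowers x).inv_mem (Subgroup.mem_zpowers x))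
    have hc1 : n * x * n⁻¹ * x⁻¹ ≠ 1 := by
      intro h
      apply hnP
      rw [← hC, Subgroup.mem_centralizer_singleton_iff]
      have h2 : n * x * n⁻¹ = x := mul_inv_eq_one.1 h
      calc n * x = n * x * n⁻¹ * n := by group
        _ = x * n := by rw [h2]
    have hcG : n * x * n⁻¹ * x⁻¹ ∈ commutator G := by
      rw [commutator_def]
      exact Subgroup.commutator_mem_commutator (Subgroup.mem_top n) (Subgroup.mem_top x)
    have hPG : Subgroup.zpowers x ≤ commutator G := by
      rw [← H3.zpowers_eq_of_mem_of_ne_one hx hc hc1]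
      exact Subgroup.zpowers_le.2 hcG
    have hfrat : Subgroup.normalizer ((P : Subgroup G) : Set G) ⊔ commutator G = ⊤ :=
      Sylow.normalizer_sup_eq_top' P (by rw [hP]; exact hPG)
    rw [hP, ← hN] at hfrat
    have h1 : (commutator G).index = (commutator G).relIndex N := by
      rw [← Subgroup.relIndex_top_right, ← hfrat, Subgroup.relIndex_sup_right]
    have h2 : (commutator G).relIndex N ≤ e := by
      apply Subgroup.relIndex_le_of_le_left hPG
      intro h0
      have h0' : e = 0 := h0
      rw [h0', zero_mul] at het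
      omega
    rw [h1, ← het]
    exact Nat.mul_le_mul_right _ h2
  · intro heq
    have he1 : e = 1 := by
      rw [heq] at het
      exact Nat.eq_of_mul_eq_mul_right hp1 (by rw [het, one_mul])
    have hNP : N ≤ Subgroup.zpowers x := Subgroup.relIndex_eq_one.1 he1
    have hNC : Subgroup.normalizer ((P : Subgroup G) : Set G) ≤
        Subgroup.centralizer ((P : Subgroup G) : Set G) := by
      rw [hP, ← hN]
      refine hNP.trans ?_
      intro y hy
      rw [Subgroup.mem_centralizer_iff]
      intro z hz
      obtain ⟨i, rfl⟩ := Subgroup.mem_zpowers_iff.1 hy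
      obtain ⟨j, rfl⟩ := Subgroup.mem_zpowers_iff.1 hz
      rw [← zpow_add, ← zpow_add, add_comm]
    have hcomp := MonoidHom.ker_transferSylow_isComplement' P hNC
    set K := (MonoidHom.transferSylow P hNC).ker with hK
    have hcomm : IsMulCommutative (P : Subgroup G) := by
      refine ⟨⟨fun a b => ?_⟩⟩
      have ha : (a : G) ∈ Subgroup.zpowers x := hP ▸ a.2
      have hb : (b : G) ∈ Subgroup.zpowers x := hP ▸ b.2
      obtain ⟨i, hi⟩ := Subgroup.mem_zpowers_iff.1 ha
      obtain ⟨j, hj⟩ := Subgroup.mem_zpowers_iff.1 hb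
      apply Subtype.ext
      show (a : G) * b = b * a
      rw [← hi, ← hj, ← zpow_add, ← zpow_add, add_comm]
    have hGK : commutator G ≤ K := by
      let _ : CommGroup (P : Subgroup G) := { (inferInstance : Group (P : Subgroup G)) with
        mul_comm := hcomm.is_comm.comm }
      exact Abelianization.commutator_subset_ker (MonoidHom.transferSylow P hNC)
    have hKn : K.Normal := MonoidHom.normal_ker _
    have hdisj : K ⊓ (P : Subgroup G) = ⊥ := hcomp.disjoint.eq_bot
    have hKG : K ≤ commutator G := by
      let φ : K → (K ⊓ commutator G : Subgroup G) := fun k =>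
        ⟨(k : G) * x * (k : G)⁻¹ * x⁻¹, by
          constructor
          · have : (k : G) * x * (k : G)⁻¹ * x⁻¹ = k * (x * (k : G)⁻¹ * x⁻¹) := by group
            rw [this]
            exact K.mul_mem k.2 (hKn.conj_mem _ (K.inv_mem k.2) x)
          · rw [commutator_def]
            exact Subgroup.commutator_mem_commutator (Subgroup.mem_top (k : G)) (Subgroup.mem_top x)⟩
      have hinj : Function.Injective φ := by
        intro k k' h
        have h1 : (k : G) * x * (k : G)⁻¹ * x⁻¹ = (k' : G) * x * (k' : G)⁻¹ * x⁻¹ :=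
          congrArg Subtype.val h
        have h2 : (k : G) * x * (k : G)⁻¹ = (k' : G) * x * (k' : G)⁻¹ := mul_right_cancel h1
        have h3 : (k' : G)⁻¹ * k ∈ Subgroup.centralizer ({x} : Set G) := by
          rw [Subgroup.mem_centralizer_singleton_iff]
          calc (k' : G)⁻¹ * k * x = (k' : G)⁻¹ * (k * x * (k : G)⁻¹) * k := by group
            _ = (k' : G)⁻¹ * ((k' : G) * x * (k' : G)⁻¹) * k := by rw [h2]
            _ = x * ((k' : G)⁻¹ * k) := by group
        rw [hC, ← hP] at h3
        have h4 : (k' : G)⁻¹ * k ∈ K ⊓ (P : Subgroup G) := ⟨K.mul_mem (K.inv_mem k'.2) k.2, h3⟩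
        rw [hdisj, Subgroup.mem_bot] at h4
        exact Subtype.ext (inv_mul_eq_one.1 h4).symm
      have hle := Nat.card_le_card_of_injective φ hinj
      have heq2 : K ⊓ commutator G = K := Subgroup.eq_of_le_of_card_ge inf_le_left hle
      exact inf_eq_left.1 heq2
    rw [le_antisymm hGK hKG, hcomp.symm.index_eq_card, hP, Nat.card_zpowers, hx]

end Cfsg.Agent.S4495
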