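import Cfsg.Statements.S4497
import Mathlib
import Cfsg.Agent.Lib_helper3_SelfCent3
import Cfsg.Agent.Lib_helper5_PComp1
import Cfsg.Agent.Lib_helper1_Cores
import Cfsg.Agent.S4495

set_option autoImplicit false
open Cfsg

namespace Cfsg.Agent.S4497

/-- Let the finite group G contain an element x of prime order p with C_G(x) = ⟨x⟩, let t be the number of conjugacy classes of elements of order p, and let S* = O_{p′}(G) be the largest normal subgroup of order prime to p. Then S* ≤ G′; if t ≠ p − 1 the quotient G′/S* is simple (in particular non-trivial); if t = p − 1 then G′ = S*. -/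
theorem result {G : Type*} [Group G] [Finite G] (p : ℕ) (hp : p.Prime) (x : G) (hx : orderOf x = p) (hC : Subgroup.centralizer ({x} : Set G) = Subgroup.zpowers x) (t : ℕ) (ht : Nat.card {C : ConjClasses G // ∃ g ∈ C.carrier, orderOf g = p} = t) : Cfsg.pPrimeCore p G ≤ commutator G ∧ (t ≠ p - 1 → ∀ h : ((Cfsg.pPrimeCore p G).subgroupOf (commutator G)).Normal, IsSimpleGroup (↥(commutator G) ⧸ (Cfsg.pPrimeCore p G).subgroupOf (commutator G))) ∧ (t = p - 1 → commutator G = Cfsg.pPrimeCore p G) := by
  have : Fact p.Prime := ⟨hp⟩
  have hKn : (Cfsg.pPrimeCore p G).Normal := H1.pPrimeCore_normal p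
  have hKc : (Nat.card (Cfsg.pPrimeCore p G)).Coprime p := H1.card_pPrimeCore_coprime p
  have hpK : ¬ p ∣ Nat.card (Cfsg.pPrimeCore p G) := fun h =>
    (Nat.Prime.coprime_iff_not_dvd hp).1 hKc.symm h
  have hKG : Cfsg.pPrimeCore p G ≤ commutator G := H3.selfCent_le_commutator hx hC _ hpK
  refine ⟨hKG, ?_, ?_⟩
  · intro htne hN
    -- x ∈ G'
    have hmul := H3.selfCent_relIndex_mul hx hC
    rw [ht] at hmul
    have hne : (Subgroup.zpowers x).relIndex
        (Subgroup.normalizer ((Subgroup.zpowers x : Subgroup G) : Set G)) ≠ 1 := by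
      intro h
      rw [h, one_mul] at hmul
      exact htne hmul
    have hxG : x ∈ commutator G := H3.selfCent_mem_commutator hx hC hne
    have hxK : x ∉ Cfsg.pPrimeCore p G := by
      intro h
      apply hpK
      have := orderOf_dvd_natCard (⟨x, h⟩ : Cfsg.pPrimeCore p G)
      rwa [Subgroup.orderOf_mk, hx] at this
    have hnt : Nontrivial (↥(commutator G) ⧸ (Cfsg.pPrimeCore p G).subgroupOf (commutator G)) := by
      refine ⟨⟨QuotientGroup.mk ⟨x, hxG⟩, 1, ?_⟩⟩
      intro h
      rw [QuotientGroup.eq_one_iff, Subgroup.mem_subgroupOf] at h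
      exact hxK h
    refine ⟨fun Hb hHb => ?_⟩
    set K' := (Cfsg.pPrimeCore p G).subgroupOf (commutator G) with hK'
    set M : Subgroup ↥(commutator G) := Hb.comap (QuotientGroup.mk' K') with hM
    have hMn : M.Normal := hHb.comap _
    have hHbM : Hb = M.map (QuotientGroup.mk' K') := by
      rw [hM, Subgroup.map_comap_eq_self_of_surjective (QuotientGroup.mk'_surjective K')]
    by_cases hpM : p ∣ Nat.card M
    · right
      -- all conjugates of x lie in M
      have hconj : ∀ g : G, g * x * g⁻¹ ∈ M.map (commutator G).subtype := by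
        intro g
        have hgG : g * x * g⁻¹ ∈ commutator G :=
          (inferInstance : (commutator G).Normal).conj_mem x hxG g
        have hC1 := H3.selfCent_subgroup (H3.selfCent_conj hC g) (commutator G) hgG
        have hx1 : orderOf (⟨g * x * g⁻¹, hgG⟩ : commutator G) = p := by
          rw [Subgroup.orderOf_mk, H3.orderOf_conj', hx]
        have := H3.selfCent_mem_of_dvd hx1 hC1 M hpM
        exact ⟨_, this, rfl⟩
      have hL : Subgroup.normalClosure ({x} : Set G) ≤ M.map (commutator G).subtype := by
        rw [Subgroup.normalClosure, Subgroup.closure_le]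
        intro y hy
        rw [Group.mem_conjugatesOfSet_iff] at hy
        obtain ⟨a, ha, hay⟩ := hy
        rw [Set.mem_singleton_iff] at ha
        subst ha
        obtain ⟨c, hc⟩ := isConj_iff.1 hay
        rw [← hc]
        exact hconj c
      have hpL : p ∣ Nat.card (Subgroup.normalClosure ({x} : Set G)) := by
        have hxL : x ∈ Subgroup.normalClosure ({x} : Set G) :=
          Subgroup.subset_normalClosure (Set.mem_singleton x)
        have := orderOf_dvd_natCard (⟨x, hxL⟩ : Subgroup.normalClosure ({x} : Set G))
        rwa [Subgroup.orderOf_mk, hx] at this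
      have hGL := H3.selfCent_commutator_le hx hC (Subgroup.normalClosure ({x} : Set G)) hpL
      have hMtop : M = ⊤ := by
        rw [eq_top_iff]
        intro y _
        obtain ⟨z, hz, hzy⟩ := hL (hGL y.2)
        have : z = y := Subtype.ext hzy
        rwa [← this]
      rw [hHbM, hMtop, ← MonoidHom.range_eq_map, MonoidHom.range_eq_top]
      exact QuotientGroup.mk'_surjective K'
    · left
      have hsub : (M.map (commutator G).subtype).IsSubnormal := by
        refine Subgroup.IsSubnormal.step _ (commutator G) ?_ (Subgroup.Normal.isSubnormal inferInstance) ?_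
        · rintro _ ⟨z, _, rfl⟩
          exact z.2
        · have : (M.map (commutator G).subtype).subgroupOf (commutator G) = M := by
            rw [Subgroup.subgroupOf, Subgroup.comap_map_eq_self_of_injective (Subgroup.subtype_injective _)]
          rw [this]
          exact hMn
      have hcM : (Nat.card (M.map (commutator G).subtype)).Coprime p := by
        rw [Subgroup.card_map_of_injective (Subgroup.subtype_injective _)]
        exact ((Nat.Prime.coprime_iff_not_dvd hp).2 hpM).symm
      have hle := H5.subnormal_coprime_le_pPrimeCore p _ hsub hcM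
      rw [hHbM, ← le_bot_iff]
      rintro _ ⟨z, hz, rfl⟩
      rw [Subgroup.mem_bot]
      change (QuotientGroup.mk z : _ ⧸ K') = 1
      rw [QuotientGroup.eq_one_iff, hK', Subgroup.mem_subgroupOf]
      exact hle ⟨z, hz, rfl⟩
  · intro hteq
    have hidx := (S4495.result p hp x hx hC t ht).2 hteq
    apply le_antisymm _ hKG
    apply H1.le_pPrimeCore p inferInstance
    obtain ⟨P, hP⟩ := H3.selfCent_exists_sylow hx hC
    have hcP : Nat.card (P : Subgroup G) = p := by rw [hP, Nat.card_zpowers, hx]
    have h1 := (commutator G).index_mul_card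
    have h2 := (P : Subgroup G).index_mul_card
    rw [hidx] at h1
    rw [hcP, mul_comm] at h2
    have h3 : Nat.card (commutator G) = (P : Subgroup G).index :=
      Nat.eq_of_mul_eq_mul_left hp.pos (h1.trans h2.symm)
    rw [h3]
    exact ((Nat.Prime.coprime_iff_not_dvd hp).2 P.not_dvd_index).symm

end Cfsg.Agent.S4497
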