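import Cfsg.Statements.S4509
import Mathlib
import Cfsg.Agent.Lib_helper3_SelfCent3
import Cfsg.Agent.S4495
import Cfsg.Agent.Lib_lead_SylNum
import Cfsg.Agent.Lib_helper1_Hall

set_option autoImplicit false
open Cfsg

namespace Cfsg.Agent.S4509

open Subgroup in
/-- a normal `p'`-subgroup `S` with `S ⊔ N(⟨x⟩) = ⊤` has order the number of Sylow subgroups -/
theorem card_of_sup {G : Type*} [Group G] [Finite G] {p : ℕ} [Fact p.Prime] {x : G}
    (hx : orderOf x = p) (hC : centralizer ({x} : Set G) = zpowers x)
    (S : Subgroup G) [hS : S.Normal] (hpS : ¬ p ∣ Nat.card S)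
    (hsup : normalizer ((zpowers x : Subgroup G) : Set G) ⊔ S = ⊤) :
    Nat.card S = Nat.card (Sylow p G) := by
  obtain ⟨P, hP⟩ := H3.selfCent_exists_sylow hx hC
  have hdisj := H3.selfCent_normalizer_inf_eq_bot hx hC S hpS
  have hcomp : IsComplement' (normalizer ((zpowers x : Subgroup G) : Set G)) S := by
    apply isComplement'_of_disjoint_and_mul_eq_univ (disjoint_iff.2 hdisj)
    rw [← mul_normal, hsup, coe_top]
  have h1 := hcomp.card_mul_card
  have h2 := (normalizer ((zpowers x : Subgroup G) : Set G)).index_mul_card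
  have h3 : Nat.card (Sylow p G) = (normalizer ((zpowers x : Subgroup G) : Set G)).index := by
    rw [P.card_eq_index_normalizer, ← hP]; rfl
  rw [h3]
  have hpos : 0 < Nat.card (normalizer ((zpowers x : Subgroup G) : Set G)) := Nat.card_pos
  apply Nat.eq_of_mul_eq_mul_left hpos
  rw [h1, ← h2, mul_comm]

open Subgroup in
theorem sup_of_card {G : Type*} [Group G] [Finite G] {p : ℕ} [Fact p.Prime] {x : G}
    (hx : orderOf x = p) (hC : centralizer ({x} : Set G) = zpowers x)
    (S : Subgroup G) [hS : S.Normal] (hpS : ¬ p ∣ Nat.card S)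
    (hcard : Nat.card S = Nat.card (Sylow p G)) :
    normalizer ((zpowers x : Subgroup G) : Set G) ⊔ S = ⊤ := by
  obtain ⟨P, hP⟩ := H3.selfCent_exists_sylow hx hC
  have hdisj := H3.selfCent_normalizer_inf_eq_bot hx hC S hpS
  have h2 := (normalizer ((zpowers x : Subgroup G) : Set G)).index_mul_card
  have h3 : Nat.card (Sylow p G) = (normalizer ((zpowers x : Subgroup G) : Set G)).index := by
    rw [P.card_eq_index_normalizer, ← hP]; rfl
  have hcomp : IsComplement' (normalizer ((zpowers x : Subgroup G) : Set G)) S := by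
    apply isComplement'_of_card_mul_and_disjoint _ (disjoint_iff.2 hdisj)
    rw [hcard, h3, mul_comm, h2]
  exact hcomp.sup_eq_top

/-- Let the finite group G contain an element x of prime order p with C_G(x) = ⟨x⟩; let t be the number of conjugacy classes of elements of order p and 1 + n·p the number of subgroups of order p. Then G has a normal subgroup of order 1 + n·p if and only if either t = p − 1, or t < p − 1 and G″ ≠ G′. Moreover, if t = p − 1 then G′ has order 1 + n·p and G/G′ is cyclic of order p; and if t < p − 1 and G″ ≠ G′ then G″ has order 1 + n·p and G′ has order p·(1 + n·p). -/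
theorem result {G : Type*} [Group G] [Finite G] (p : ℕ) (hp : p.Prime) (x : G) (hx : orderOf x = p) (hC : Subgroup.centralizer ({x} : Set G) = Subgroup.zpowers x) (t : ℕ) (ht : Nat.card {C : ConjClasses G // ∃ g ∈ C.carrier, orderOf g = p} = t) (n : ℕ) (hn : Nat.card {H : Subgroup G // Nat.card H = p} = 1 + n * p) : ((∃ S : Subgroup G, S.Normal ∧ Nat.card S = 1 + n * p) ↔ (t = p - 1 ∨ (t < p - 1 ∧ derivedSeries G 2 ≠ derivedSeries G 1))) ∧ (t = p - 1 → Nat.card (commutator G) = 1 + n * p ∧ IsCyclic (G ⧸ commutator G) ∧ (commutator G).index = p) ∧ (t < p - 1 → derivedSeries G 2 ≠ derivedSeries G 1 → Nat.card (derivedSeries G 2) = 1 + n * p ∧ Nat.card (commutator G) = p * (1 + n * p)) := by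
  have : Fact p.Prime := ⟨hp⟩
  obtain ⟨P, hP⟩ := H3.selfCent_exists_sylow hx hC
  have hnp : Nat.card (Sylow p G) = 1 + n * p := by
    rw [← H3.selfCent_card_subgroups hx hC, hn]
  have hmul := H3.selfCent_relIndex_mul hx hC
  rw [ht] at hmul
  have hp1 : 0 < p - 1 := Nat.sub_pos_of_lt hp.one_lt
  have hD1 : derivedSeries G 1 = commutator G := derivedSeries_one G
  have hD2 : derivedSeries G 2 = ⁅commutator G, commutator G⁆ := by
    rw [derivedSeries_succ, hD1]
  have hnotdvd : ¬ p ∣ 1 + n * p := by
    intro h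
    have h2 : p ∣ 1 := (Nat.dvd_add_left (Dvd.intro_left n rfl)).1 h
    exact hp.one_lt.ne' (Nat.dvd_one.1 h2)
  -- first claim
  have hA : t = p - 1 → Nat.card (commutator G) = 1 + n * p ∧ IsCyclic (G ⧸ commutator G) ∧
      (commutator G).index = p := by
    intro hteq
    have hidx := (S4495.result p hp x hx hC t ht).2 hteq
    refine ⟨?_, ?_, hidx⟩
    · have he : (Subgroup.zpowers x).relIndex
          (Subgroup.normalizer ((Subgroup.zpowers x : Subgroup G) : Set G)) = 1 := by
        rw [hteq] at hmul
        exact Nat.eq_of_mul_eq_mul_right hp1 (by rw [hmul, one_mul])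
      have hNP : Subgroup.normalizer ((Subgroup.zpowers x : Subgroup G) : Set G) = Subgroup.zpowers x :=
        le_antisymm (Subgroup.relIndex_eq_one.1 he) Subgroup.le_normalizer
      have h3 : Nat.card (Sylow p G) = (Subgroup.zpowers x).index := by
        rw [P.card_eq_index_normalizer]
        change (Subgroup.normalizer ((P : Subgroup G) : Set G)).index = _
        rw [hP, hNP]
      have h1 := (commutator G).index_mul_card
      have h2 := (Subgroup.zpowers x).index_mul_card
      rw [hidx] at h1
      rw [Nat.card_zpowers, hx, mul_comm] at h2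
      rw [← hnp, h3]
      exact Nat.eq_of_mul_eq_mul_left hp.pos (h1.trans h2.symm)
    · have : Fact (Nat.card (G ⧸ commutator G)).Prime := ⟨by
        rw [← Subgroup.index_eq_card, hidx]; exact hp⟩
      exact isCyclic_of_prime_card rfl
  -- second claim
  have hB : t < p - 1 → derivedSeries G 2 ≠ derivedSeries G 1 →
      Nat.card (derivedSeries G 2) = 1 + n * p ∧ Nat.card (commutator G) = p * (1 + n * p) := by
    intro htlt hne
    rw [hD2, hD1] at hne
    rw [hD2]
    set D2 : Subgroup G := ⁅commutator G, commutator G⁆ with hD2def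
    have hD2n : D2.Normal := inferInstance
    have hD2le : D2 ≤ commutator G := Subgroup.commutator_le_left _ _
    have hpD2 : ¬ p ∣ Nat.card D2 := by
      intro h
      exact hne (le_antisymm hD2le (H3.selfCent_commutator_le hx hC D2 h))
    have hne1 : (Subgroup.zpowers x).relIndex
        (Subgroup.normalizer ((Subgroup.zpowers x : Subgroup G) : Set G)) ≠ 1 := by
      intro h
      rw [h, one_mul] at hmul
      exact htlt.ne hmul
    have hxG : x ∈ commutator G := H3.selfCent_mem_commutator hx hC hne1
    obtain ⟨-, hCq⟩ := H3.selfCent_quotient hx hC D2 hpD2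
    have hD1eq : commutator G = Subgroup.zpowers x ⊔ D2 := by
      apply le_antisymm
      · intro y hy
        have h1 : (QuotientGroup.mk y : G ⧸ D2) ∈
            Subgroup.centralizer ({(QuotientGroup.mk x : G ⧸ D2)} : Set (G ⧸ D2)) := by
          rw [Subgroup.mem_centralizer_singleton_iff]
          have h2 : y * x * y⁻¹ * x⁻¹ ∈ D2 := Subgroup.commutator_mem_commutator hy hxG
          rw [← QuotientGroup.eq_one_iff] at h2
          simp only [QuotientGroup.mk_mul, QuotientGroup.mk_inv] at h2
          have h3 := mul_inv_eq_one.1 h2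
          exact mul_inv_eq_iff_eq_mul.1 h3
        rw [hCq] at h1
        obtain ⟨k, hk⟩ := Subgroup.mem_zpowers_iff.1 h1
        rw [← QuotientGroup.mk_zpow] at hk
        have h4 : (x ^ k)⁻¹ * y ∈ D2 := QuotientGroup.eq.1 hk
        have h5 : y = x ^ k * ((x ^ k)⁻¹ * y) := by group
        rw [h5]
        exact Subgroup.mul_mem _ (Subgroup.mem_sup_left (Subgroup.zpow_mem _ (Subgroup.mem_zpowers x) k))
          (Subgroup.mem_sup_right h4)
      · exact sup_le (Subgroup.zpowers_le.2 hxG) hD2le
    have hfrat : Subgroup.normalizer ((P : Subgroup G) : Set G) ⊔ commutator G = ⊤ :=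
      Sylow.normalizer_sup_eq_top' P (by rw [hP]; exact Subgroup.zpowers_le.2 hxG)
    rw [hP, hD1eq, ← sup_assoc, sup_eq_left.2 (Subgroup.le_normalizer)] at hfrat
    have hc2 : Nat.card D2 = 1 + n * p := by
      rw [card_of_sup hx hC D2 hpD2 hfrat, hnp]
    refine ⟨hc2, ?_⟩
    have hdisj := H3.selfCent_inf_eq_bot hx D2 hpD2
    have h6 := H1.card_sup_mul_card_inf (Subgroup.zpowers x) D2
    rw [hdisj, Subgroup.card_bot, mul_one, Nat.card_zpowers, hx, hc2] at h6
    rw [hD1eq, h6]
  refine ⟨⟨?_, ?_⟩, hA, hB⟩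
  · rintro ⟨S, hSn, hSc⟩
    have htle : t ≤ p - 1 := Nat.le_of_dvd hp1 (Dvd.intro_left _ hmul)
    rcases htle.eq_or_lt with h | htlt
    · exact Or.inl h
    · refine Or.inr ⟨htlt, ?_⟩
      have hpS : ¬ p ∣ Nat.card S := by rw [hSc]; exact hnotdvd
      have hsup := sup_of_card hx hC S hpS (by rw [hSc, hnp])
      have hne1 : (Subgroup.zpowers x).relIndex
          (Subgroup.normalizer ((Subgroup.zpowers x : Subgroup G) : Set G)) ≠ 1 := by
        intro h
        rw [h, one_mul] at hmul
        exact htlt.ne hmul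
      have hxG : x ∈ commutator G := H3.selfCent_mem_commutator hx hC hne1
      have hLn : (Subgroup.zpowers x ⊔ S).Normal := by
        rw [← Subgroup.normalizer_eq_top_iff, eq_top_iff, ← hsup]
        exact sup_le (LeadSyl.normalizer_le_normalizer_sup _ _)
          (le_trans le_sup_right Subgroup.le_normalizer)
      have hpL : p ∣ Nat.card (Subgroup.zpowers x ⊔ S : Subgroup G) := by
        have := Subgroup.card_dvd_of_le (le_sup_left : Subgroup.zpowers x ≤ Subgroup.zpowers x ⊔ S)
        rwa [Nat.card_zpowers, hx] at this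
      have hGL := H3.selfCent_commutator_le hx hC (Subgroup.zpowers x ⊔ S) hpL
      have hLL : ⁅Subgroup.zpowers x ⊔ S, Subgroup.zpowers x ⊔ S⁆ ≤ S := by
        rw [Subgroup.commutator_le]
        intro a ha b hb
        rw [Subgroup.mem_sup_of_normal_right] at ha hb
        obtain ⟨u, hu, s, hs, rfl⟩ := ha
        obtain ⟨v, hv, s', hs', rfl⟩ := hb
        obtain ⟨i, rfl⟩ := Subgroup.mem_zpowers_iff.1 hu
        obtain ⟨j, rfl⟩ := Subgroup.mem_zpowers_iff.1 hv
        rw [← QuotientGroup.eq_one_iff, commutatorElement_def]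
        simp only [QuotientGroup.mk_mul, QuotientGroup.mk_inv, (QuotientGroup.eq_one_iff s).2 hs,
          (QuotientGroup.eq_one_iff s').2 hs', mul_one, QuotientGroup.mk_zpow]
        rw [((Commute.refl (QuotientGroup.mk x : G ⧸ S)).zpow_zpow i j).eq]
        group
      rw [hD2, hD1]
      intro heq
      have hxS : x ∈ S := hLL (Subgroup.commutator_mono hGL hGL (heq.symm ▸ hxG))
      apply hpS
      have := orderOf_dvd_natCard (⟨x, hxS⟩ : S)
      rwa [Subgroup.orderOf_mk, hx] at this
  · rintro (h | ⟨h1, h2⟩)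
    · exact ⟨commutator G, inferInstance, (hA h).1⟩
    · exact ⟨derivedSeries G 2, inferInstance, (hB h1 h2).1⟩

end Cfsg.Agent.S4509
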