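import Cfsg.Statements.S4636
import Cfsg.Agent.Lib_helper1_AbSylow

set_option autoImplicit false
open scoped Pointwise
open Cfsg

namespace Cfsg.Agent.S4636


/-- Let P be a nontrivial cyclic p-subgroup of the finite group G and Z its subgroup of order p. For every x outside N_G(Z), P meets its conjugate xPx⁻¹ trivially; consequently N_G(Q) ≤ N_G(Z) for every nontrivial subgroup Q of P. -/
theorem result {G : Type*} [Group G] [Finite G] (p : ℕ) [Fact p.Prime] (P : Subgroup G) (hP : IsPGroup p P) (hP1 : P ≠ ⊥) (hcyc : IsCyclic P) (Z : Subgroup G) (hZ : Z ≤ P) (hZcard : Nat.card Z = p) : (∀ x : G, x ∉ Subgroup.normalizer (Z : Set G) → P ⊓ MulAut.conj x • P = ⊥) ∧ ∀ Q : Subgroup G, Q ≤ P → Q ≠ ⊥ → Subgroup.normalizer (Q : Set G) ≤ Subgroup.normalizer (Z : Set G) := by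
  have hp := (Fact.out : p.Prime)
  -- any nontrivial subgroup of a cyclic p-group contains each subgroup of order p
  have sub : ∀ (P' Z' R : Subgroup G), IsPGroup p P' → IsCyclic P' → Z' ≤ P' → Nat.card Z' = p →
      R ≤ P' → R ≠ ⊥ → Z' ≤ R := by
    intro P' Z' R hP' hc hZ' hcard hR hR1
    apply Cfsg.Agent.H1.le_of_card_dvd_of_le_isCyclic hc hZ' hR
    rw [hcard]
    obtain ⟨k, hk⟩ := IsPGroup.iff_card.mp (hP'.to_le hR)
    rw [hk]
    rcases k with _ | k
    · exfalso
      apply hR1
      rw [pow_zero] at hk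
      exact (Subgroup.card_eq_one).1 hk
    · exact dvd_pow_self p (Nat.succ_ne_zero k)
  have key : ∀ x : G, x ∉ Subgroup.normalizer (Z : Set G) → P ⊓ MulAut.conj x • P = ⊥ := by
    intro x hx
    by_contra hne
    apply hx
    have e : P ≃* (MulAut.conj x • P : Subgroup G) := Subgroup.equivSMul (MulAut.conj x) P
    have hP' : IsPGroup p (MulAut.conj x • P : Subgroup G) := hP.of_equiv e
    have hc' : IsCyclic (MulAut.conj x • P : Subgroup G) := isCyclic_of_surjective e e.surjective
    have hZ' : MulAut.conj x • Z ≤ MulAut.conj x • P := by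
      rintro _ ⟨z, hz, rfl⟩
      exact ⟨z, hZ hz, rfl⟩
    have hcard' : Nat.card (MulAut.conj x • Z : Subgroup G) = p := by
      rw [← hZcard]
      exact (Nat.card_congr (Subgroup.equivSMul (MulAut.conj x) Z).toEquiv).symm
    have h1 : Z ≤ P ⊓ MulAut.conj x • P := sub P Z _ hP hcyc hZ hZcard inf_le_left hne
    have h2 : MulAut.conj x • Z ≤ P ⊓ MulAut.conj x • P :=
      sub _ _ _ hP' hc' hZ' hcard' inf_le_right hne
    have h3 : MulAut.conj x • Z ≤ Z :=
      Cfsg.Agent.H1.le_of_card_dvd_of_le_isCyclic hcyc (h2.trans inf_le_left) hZ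
        (by rw [hcard', hZcard])
    have h4 : (MulAut.conj x • Z : Subgroup G) = Z := by
      apply Subgroup.eq_of_le_of_card_ge h3
      rw [hcard', hZcard]
    rw [Subgroup.mem_normalizer_iff]
    intro z
    constructor
    · intro hz
      rw [← h4]
      exact ⟨z, hz, rfl⟩
    · intro hz
      rw [← h4] at hz
      obtain ⟨w, hw, hwz⟩ := hz
      have : w = z := by
        have h5 : x * w * x⁻¹ = x * z * x⁻¹ := hwz
        simpa using h5
      exact this ▸ hw
  refine ⟨key, ?_⟩
  intro Q hQ hQ1 g hg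
  by_contra hn
  have h1 := key g hn
  apply hQ1
  rw [eq_bot_iff, ← h1]
  intro q hq
  refine Subgroup.mem_inf.2 ⟨hQ hq, ?_⟩
  have h2 : g⁻¹ * q * g ∈ Q := by
    have := (Subgroup.mem_normalizer_iff.1 (inv_mem hg) q).1 hq
    simpa using this
  exact ⟨g⁻¹ * q * g, hQ h2, by simp [MulAut.conj_apply, mul_assoc]⟩

end Cfsg.Agent.S4636
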