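import Cfsg.Statements.S4652
import Mathlib
import Cfsg.Agent.Lib_helper4_BlkO

set_option autoImplicit false
open Cfsg

namespace Cfsg.Agent.S4652

open Cfsg.Agent.H4


/-- Fix a prime p and a maximal ideal M of the algebraic integers containing p. The defect groups of the principal p-block of a finite group G are exactly the Sylow p-subgroups of G: a subgroup D is a defect group of the principal block if and only if D is a Sylow p-subgroup. -/
theorem result {G : Type*} [Group G] [Fintype G] (p : ℕ) [Fact p.Prime] (M : Ideal Cfsg.AlgInt) (hM : Cfsg.IsPModular p M) (D : Subgroup G) : Cfsg.IsDefectGroup p M (Cfsg.principalBlock M G) D ↔ ∃ S : Sylow p G, (S : Subgroup G) = D := by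
  classical
  have hp : p.Prime := Fact.out
  haveI := Fintype.ofFinite (IrrCharacter G)
  have hB : IsPBlock M (principalBlock M G) := ⟨trivIrr G, rfl⟩
  have htriv : trivIrr G ∈ principalBlock M G := SameBlock.refl hM _
  -- a defect class of the principal block has class size prime to p
  have hcls : ∀ g : G, IsDefectClass M (principalBlock M G) g →
      (Nat.card (Subgroup.centralizer ({g} : Set G))).factorization p
        = (Nat.card G).factorization p := by
    intro g hg
    have h1 := hg.2.2 (trivIrr G) htriv
    have h2 : centralChar ((trivIrr G : IrrCharacter G) : G → ℂ) g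
        = ((Subgroup.centralizer ({g} : Set G)).index : ℂ) := by
      unfold centralChar
      simp [trivIrr]
    rw [h2, memLocalIdeal_natCast_iff hM] at h1
    rw [← Subgroup.index_mul_card (Subgroup.centralizer ({g} : Set G)),
      Nat.factorization_mul Subgroup.index_ne_zero_of_finite Nat.card_pos.ne']
    simp [Nat.factorization_eq_zero_of_not_dvd h1]
  have hfwd : ∀ D : Subgroup G, IsDefectGroup p M (principalBlock M G) D →
      ∃ S : Sylow p G, (S : Subgroup G) = D := by
    intro D hD
    obtain ⟨g, hg, P, rfl⟩ := hD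
    refine ⟨Sylow.ofCard _ ?_, rfl⟩
    rw [← hcls g hg, ← Sylow.card_eq_multiplicity P]
    exact Nat.card_congr (Subgroup.equivMapOfInjective _ _ (Subgroup.subtype_injective _)).symm.toEquiv
  constructor
  · exact hfwd D
  · rintro ⟨S, rfl⟩
    obtain ⟨g, hg⟩ := exists_defect_class' hM _ hB
    obtain ⟨P⟩ : Nonempty (Sylow p (Subgroup.centralizer ({g} : Set G))) := inferInstance
    obtain ⟨S0, hS0⟩ := hfwd _ ⟨g, hg, P, rfl⟩
    obtain ⟨t, ht⟩ := MulAction.exists_smul_eq G S0 S
    have hg' := isDefectClass_conj (principalBlock M G) t g hg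
    have hSle : (S : Subgroup G) ≤ Subgroup.centralizer ({t * g * t⁻¹} : Set G) := by
      intro y hy
      rw [← ht, Sylow.coe_subgroup_smul, Subgroup.mem_pointwise_smul_iff_inv_smul_mem, hS0] at hy
      obtain ⟨c, _, hc⟩ := hy
      have h1 : t⁻¹ * y * t ∈ Subgroup.centralizer ({g} : Set G) := by
        have : ((c : Subgroup.centralizer ({g} : Set G)) : G) = t⁻¹ * y * t := by
          have h2 : (Subgroup.centralizer ({g} : Set G)).subtype c = (MulAut.conj t)⁻¹ • y := hc
          have h3 : ((c : Subgroup.centralizer ({g} : Set G)) : G) = (MulAut.conj t)⁻¹ • y := h2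
          rw [h3]
          simp [MulAut.smul_def, mul_assoc]
        rw [← this]; exact c.2
      rw [Subgroup.mem_centralizer_singleton_iff] at h1 ⊢
      calc y * (t * g * t⁻¹) = t * ((t⁻¹ * y * t) * g) * t⁻¹ := by group
        _ = t * (g * (t⁻¹ * y * t)) * t⁻¹ := by rw [h1]
        _ = t * g * t⁻¹ * y := by group
    refine ⟨t * g * t⁻¹, hg', Sylow.ofCard ((S : Subgroup G).subgroupOf _) ?_, ?_⟩
    · rw [hcls _ hg', ← Sylow.card_eq_multiplicity S]
      exact Nat.card_congr (Subgroup.subgroupOfEquivOfLe hSle).toEquiv
    · rw [Sylow.coe_ofCard, Subgroup.map_subgroupOf_eq_of_le hSle]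

end Cfsg.Agent.S4652
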