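import Cfsg.Statements.S4665
import Mathlib
import Cfsg.Agent.Lib_lead_Br18

set_option autoImplicit false
open Cfsg

namespace Cfsg.Agent.S4665

/-- Fix a prime p, a maximal ideal M of the algebraic integers containing p, and a p-block B of the finite group G, and let p^a be the p-part of the order of G. Let χ be an integer combination of the irreducible characters in B. If the function that agrees with χ on p-regular elements and vanishes on p-singular elements is again an integer combination of the irreducible characters in B, then p^a divides χ(1). -/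
theorem result {G : Type*} [Group G] [Fintype G] (p : ℕ) [Fact p.Prime] (M : Ideal Cfsg.AlgInt) (hM : Cfsg.IsPModular p M) (B : Set (Cfsg.IrrCharacter G)) (hB : Cfsg.IsPBlock M B) (χ : G → ℂ) (hχ : (∃ n : Cfsg.IrrCharacter G → ℤ, ∀ g : G, χ g = ∑ᶠ ψ ∈ B, (n ψ : ℂ) * (ψ : G → ℂ) g)) (h0 : (∃ n : Cfsg.IrrCharacter G → ℤ, ∀ g : G, Cfsg.pRegularPart p χ g = ∑ᶠ ψ ∈ B, (n ψ : ℂ) * (ψ : G → ℂ) g)) : ∃ k : ℤ, χ 1 = (p ^ (Nat.card G).factorization p : ℂ) * k := by
  classical
  haveI := Fintype.ofFinite (Cfsg.IrrCharacter G)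
  have hp : p.Prime := Fact.out
  obtain ⟨n, hn⟩ := h0
  have hgen : Cfsg.IsGeneralizedCharacter G (Cfsg.pRegularPart p χ) := by
    have h1 := Cfsg.Agent.LeadBr.isGeneralized_of_int_sum (G := G) (fun ψ => if ψ ∈ B then n ψ else 0)
    convert h1 using 1
    funext g
    rw [hn g, finsum_mem_def, finsum_eq_sum_of_fintype, Finset.sum_apply]
    apply Finset.sum_congr rfl
    intro ψ _
    by_cases hψ : ψ ∈ B
    · simp [hψ]
    · simp [hψ]
  let P : Sylow p G := default
  obtain ⟨z, hz⟩ := Cfsg.Agent.LeadBr.card_dvd_of_vanish (P : Subgroup G) hgen (by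
    intro x hx hx1
    unfold Cfsg.pRegularPart
    rw [if_neg]
    unfold Cfsg.IsPRegular
    rw [not_not]
    obtain ⟨k, hk⟩ := (IsPGroup.iff_orderOf.mp P.isPGroup') ⟨x, hx⟩
    rw [Subgroup.orderOf_mk] at hk
    rw [hk]
    rcases Nat.eq_zero_or_pos k with rfl | hk0
    · rw [pow_zero, orderOf_eq_one_iff] at hk
      exact absurd hk hx1
    · exact dvd_pow_self p hk0.ne')
  refine ⟨z, ?_⟩
  have h1 : Cfsg.pRegularPart p χ 1 = χ 1 := by
    unfold Cfsg.pRegularPart
    rw [if_pos]
    unfold Cfsg.IsPRegular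
    rw [orderOf_one]
    exact hp.one_lt.ne' ∘ Nat.dvd_one.mp
  rw [← h1, hz, Sylow.card_eq_multiplicity]
  push_cast
  rfl

end Cfsg.Agent.S4665
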