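import Cfsg.Statements.S4730
import Cfsg.Agent.Lib_helper4_BlkAP

set_option autoImplicit false
open Cfsg

namespace Cfsg.Agent.S4730

/-- Let p be a prime, M a maximal ideal of the algebraic integers containing p, and G a finite group with trivial centre, Sylow p-subgroup P of order p^a and centre Z(P) of order p^b. If χ is a faithful irreducible character of G whose degree is a power of p, then the p-block of χ has defect at most a − b; in particular, if P is abelian then χ lies in a block of defect zero. -/
theorem result {G : Type*} [Group G] [Finite G] (p : ℕ) [Fact p.Prime] (M : Ideal Cfsg.AlgInt) (hM : Cfsg.IsPModular p M) (hZ : Subgroup.center G = ⊥) (P : Sylow p G) (a b : ℕ) (ha : Nat.card P = p ^ a) (hb : Nat.card (Subgroup.center ↥(P : Subgroup G)) = p ^ b) (χ : Cfsg.IrrCharacter G) (hfaith : ∀ g : G, (χ : G → ℂ) g = (χ : G → ℂ) 1 → g = 1) (n : ℕ) (hdeg : Cfsg.charDegree (χ : G → ℂ) = p ^ n) : Cfsg.blockDefect p (Cfsg.blockOf M (χ : G → ℂ)) ≤ a - b ∧ (IsMulCommutative ↥(P : Subgroup G) → Cfsg.blockDefect p (Cfsg.blockOf M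 (χ : G → ℂ)) = 0) := by
  have h1 := Cfsg.Agent.H4.pdegree_faithful_defect hM hZ P a b ha hb χ hfaith n hdeg
  refine ⟨h1, ?_⟩
  intro hcomm
  have htop : Subgroup.center ↥(P : Subgroup G) = ⊤ := by
    rw [Subgroup.eq_top_iff']
    intro x
    rw [Subgroup.mem_center_iff]
    intro y
    exact hcomm.is_comm.comm y x
  have hab : a = b := by
    have h2 : Nat.card (Subgroup.center ↥(P : Subgroup G)) = Nat.card (P : Subgroup G) := by
      rw [htop, Subgroup.card_top]
    rw [hb] at h2
    have h3 : p ^ b = p ^ a := h2.trans ha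
    exact (Nat.pow_right_injective hM.1.two_le h3).symm
  omega

end Cfsg.Agent.S4730
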