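import Cfsg.Statements.S4955
import Cfsg.Agent.Lib_helper2_KGV

set_option autoImplicit false
set_option linter.style.haveILetI false
open Cfsg

namespace Cfsg.Agent.S4955

open Cfsg.Agent.H4

theorem card_conjClasses_congr {A B : Type*} [Group A] [Group B] (e : A ≃* B) :
    Nat.card (ConjClasses A) = Nat.card (ConjClasses B) := by
  apply Nat.card_congr
  refine ⟨ConjClasses.map e.toMonoidHom, ConjClasses.map e.symm.toMonoidHom, ?_, ?_⟩
  · intro c
    obtain ⟨a, rfl⟩ := ConjClasses.mk_surjective c
    rw [conjClasses_map_mk, conjClasses_map_mk]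
    simp
  · intro c
    obtain ⟨a, rfl⟩ := ConjClasses.mk_surjective c
    rw [conjClasses_map_mk, conjClasses_map_mk]
    simp

/-- Let X be a finite group with an abelian normal Sylow p-subgroup V (a normal p-subgroup of index prime to p in which any two elements commute), and let G be a complement to V in X. Then for every v in V, writing C for the centralizer of v in G, the number k(X) of conjugacy classes of X satisfies k(X) ≤ (order of C)·(order of V) − ((order of G) − k(G)); the statement is written with the subtracted term moved to the left. In particular, if some v in V is centralized by no nonidentity element of G, then k(X) is at most the order of V. -/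
theorem result {X : Type*} [Group X] [Finite X] (p : ℕ) [Fact p.Prime] (V : Subgroup X) [V.Normal] (hVp : IsPGroup p V) (hidx : ¬ p ∣ V.index) (hab : ∀ a ∈ V, ∀ b ∈ V, a * b = b * a) (G : Subgroup X) (hGV : Subgroup.IsComplement' V G) (v : X) (hv : v ∈ V) : Nat.card (ConjClasses X) + Nat.card G ≤ Nat.card ↥(G ⊓ Subgroup.centralizer ({v} : Set X)) * Nat.card V + Nat.card (ConjClasses G) := by
  classical
  have h1 := H2.kgv_bound p V hVp hidx hab v hv
  have e : X ⧸ V ≃* G := hGV.symm.QuotientMulEquiv
  rw [card_conjClasses_congr e, Nat.card_congr e.toEquiv] at h1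
  have h2 : Nat.card (Subgroup.centralizer ({v} : Set X))
      ≤ Nat.card ↥(G ⊓ Subgroup.centralizer ({v} : Set X)) * Nat.card V := by
    rw [← Nat.card_prod]
    have hVC : V ≤ Subgroup.centralizer ({v} : Set X) := by
      intro u hu
      rw [Subgroup.mem_centralizer_singleton_iff]
      first | exact hab u hu v hv | exact hab v hv u hu
    apply Nat.card_le_card_of_surjective
      (fun q : ↥(G ⊓ Subgroup.centralizer ({v} : Set X)) × V =>
        (⟨(q.2 : X) * (q.1 : X), (Subgroup.centralizer ({v} : Set X)).mul_mem (hVC q.2.2)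
          (Subgroup.mem_inf.1 q.1.2).2⟩ : Subgroup.centralizer ({v} : Set X)))
    rintro ⟨x, hx⟩
    obtain ⟨⟨⟨u, hu⟩, ⟨g, hg⟩⟩, hug⟩ := hGV.2 x
    simp only at hug
    have hgC : g ∈ Subgroup.centralizer ({v} : Set X) := by
      have : g = u⁻¹ * x := by rw [← hug]; group
      rw [this]
      exact (Subgroup.centralizer ({v} : Set X)).mul_mem
        ((Subgroup.centralizer ({v} : Set X)).inv_mem (hVC hu)) hx
    refine ⟨(⟨g, Subgroup.mem_inf.2 ⟨hg, hgC⟩⟩, ⟨u, hu⟩), ?_⟩
    apply Subtype.ext
    exact hug
  omega

end Cfsg.Agent.S4955
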