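import Cfsg.Statements.S4956
import Mathlib
import Cfsg.Agent.S1496

set_option autoImplicit false
open Cfsg

namespace Cfsg.Agent.S4956

theorem kvg_core {X : Type*} [Group X] [Finite X] (V : Subgroup X) [hVn : V.Normal]
    (hab : ∀ a ∈ V, ∀ b ∈ V, a * b = b * a) (G : Subgroup X) (hGV : Subgroup.IsComplement' V G)
    (hcop : (Nat.card V).Coprime (Nat.card G)) {c c' g g' x : X} (hc : c ∈ V) (hc' : c' ∈ V)
    (hg : g ∈ G) (hg' : g' ∈ G) (h1 : c * g = g * c) (h2 : c' * g' = g' * c')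
    (hx : x * (c * g) * x⁻¹ = c' * g') : ∃ h ∈ G, h * c * h⁻¹ = c' ∧ h * g * h⁻¹ = g' := by
  have hpow : ∀ a ∈ G, a ^ Nat.card G = 1 := by
    intro a ha
    have := pow_card_eq_one' (x := (⟨a, ha⟩ : G))
    exact congrArg Subtype.val this
  have e1 : (c * g) ^ Nat.card G = c ^ Nat.card G := by
    rw [(show Commute c g from h1).mul_pow, hpow g hg, mul_one]
  have e2 : (c' * g') ^ Nat.card G = c' ^ Nat.card G := by
    rw [(show Commute c' g' from h2).mul_pow, hpow g' hg', mul_one]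
  have e3 : (x * c * x⁻¹) ^ Nat.card G = c' ^ Nat.card G := by
    rw [conj_pow, ← e1, ← conj_pow, hx, e2]
  have e4 : x * c * x⁻¹ = c' := by
    have := (powCoprime hcop).injective (a₁ := (⟨x * c * x⁻¹, hVn.conj_mem c hc x⟩ : V))
      (a₂ := ⟨c', hc'⟩) (Subtype.ext e3)
    exact congrArg Subtype.val this
  have e5 : x * g * x⁻¹ = g' := by
    have : x * (c * g) * x⁻¹ = (x * c * x⁻¹) * (x * g * x⁻¹) := by group
    rw [this, e4] at hx
    exact mul_left_cancel hx
  obtain ⟨⟨u, h⟩, huh⟩ := (Subgroup.isComplement'_def.mp hGV).2 x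
  have huh' : (u : X) * (h : X) = x := huh
  refine ⟨h, h.2, ?_, ?_⟩
  · rw [← e4, ← huh']
    have h3 : (h : X) * c * (h : X)⁻¹ ∈ V := hVn.conj_mem c hc h
    calc (h : X) * c * (h : X)⁻¹ = ((h : X) * c * (h : X)⁻¹ * u) * (u : X)⁻¹ := by group
      _ = (u * ((h : X) * c * (h : X)⁻¹)) * (u : X)⁻¹ := by rw [hab _ h3 _ u.2]
      _ = _ := by group
  · have h3 : g' * ((h : X) * g * (h : X)⁻¹)⁻¹ ∈ V := by
      rw [← e5, ← huh']
      have h4 : ((h : X) * g * (h : X)⁻¹) * (u : X)⁻¹ * ((h : X) * g * (h : X)⁻¹)⁻¹ ∈ V :=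
        hVn.conj_mem _ (V.inv_mem u.2) _
      have := V.mul_mem u.2 h4
      convert this using 1
      group
    have h4 : g' * ((h : X) * g * (h : X)⁻¹)⁻¹ ∈ G :=
      G.mul_mem hg' (G.inv_mem (G.mul_mem (G.mul_mem h.2 hg) (G.inv_mem h.2)))
    have h5 : g' * ((h : X) * g * (h : X)⁻¹)⁻¹ = 1 := by
      have := hGV.disjoint.le_bot (Subgroup.mem_inf.mpr ⟨h3, h4⟩)
      exact Subgroup.mem_bot.mp this
    exact (mul_inv_eq_one.mp h5).symm


/-- Let X be a finite group, V an abelian normal subgroup of X (any two elements of V commute) and G a complement to V in X whose order is coprime to that of V. Let S be a set of representatives of the orbits of G on V under conjugation: S lies in V and every element of V is conjugate under G to exactly one member of S. Then the number of conjugacy classes of X equals the sum, over s in S, of the number of conjugacy classes of the centralizer of s in G. -/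
theorem result {X : Type*} [Group X] [Finite X] (V : Subgroup X) [V.Normal] (hab : ∀ a ∈ V, ∀ b ∈ V, a * b = b * a) (G : Subgroup X) (hGV : Subgroup.IsComplement' V G) (hcop : (Nat.card V).Coprime (Nat.card G)) (S : Finset X) (hSV : ∀ s ∈ S, s ∈ V) (hrep : ∀ v ∈ V, ∃! s, s ∈ S ∧ ∃ g ∈ G, g * v * g⁻¹ = s) : Nat.card (ConjClasses X) = ∑ s ∈ S, Nat.card (ConjClasses ↥(G ⊓ Subgroup.centralizer ({s} : Set X))) := by
  classical
  rw [← Finset.sum_coe_sort S, ← Nat.card_sigma]
  symm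
  let Φ : (Σ s : S, ConjClasses ↥(G ⊓ Subgroup.centralizer ({(s : X)} : Set X))) → ConjClasses X :=
    fun p => Quotient.lift (fun g : ↥(G ⊓ Subgroup.centralizer ({(p.1 : X)} : Set X)) =>
      ConjClasses.mk ((p.1 : X) * (g : X))) (by
        intro a b hab'
        obtain ⟨y, hy⟩ := isConj_iff.mp hab'
        apply ConjClasses.mk_eq_mk_iff_isConj.mpr
        apply isConj_iff.mpr
        refine ⟨(y : X), ?_⟩
        have hy1 : (y : X) * (a : X) * (y : X)⁻¹ = (b : X) := congrArg Subtype.val hy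
        have hy2 : (y : X) * (p.1 : X) = (p.1 : X) * (y : X) :=
          Subgroup.mem_centralizer_singleton_iff.mp (Subgroup.mem_inf.mp y.2).2
        calc (y : X) * ((p.1 : X) * (a : X)) * (y : X)⁻¹
            = ((y : X) * (p.1 : X)) * (a : X) * (y : X)⁻¹ := by group
          _ = (p.1 : X) * ((y : X) * (a : X) * (y : X)⁻¹) := by rw [hy2]; group
          _ = _ := by rw [hy1]) p.2
  apply Nat.card_eq_of_bijective Φ
  constructor
  · rintro ⟨s, C⟩ ⟨s', C'⟩ hΦ
    induction C using Quotient.inductionOn with | _ g => ?_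
    induction C' using Quotient.inductionOn with | _ g' => ?_
    have h1 : ConjClasses.mk ((s : X) * (g : X)) = ConjClasses.mk ((s' : X) * (g' : X)) := hΦ
    obtain ⟨x, hx⟩ := isConj_iff.mp (ConjClasses.mk_eq_mk_iff_isConj.mp h1)
    have hgs : (s : X) * (g : X) = (g : X) * (s : X) :=
      (Subgroup.mem_centralizer_singleton_iff.mp (Subgroup.mem_inf.mp g.2).2).symm
    have hgs' : (s' : X) * (g' : X) = (g' : X) * (s' : X) :=
      (Subgroup.mem_centralizer_singleton_iff.mp (Subgroup.mem_inf.mp g'.2).2).symm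
    obtain ⟨h, hhG, hh1, hh2⟩ := kvg_core V hab G hGV hcop (hSV s s.2) (hSV s' s'.2)
      (Subgroup.mem_inf.mp g.2).1 (Subgroup.mem_inf.mp g'.2).1 hgs hgs' hx
    obtain ⟨t, -, ht⟩ := hrep (s : X) (hSV s s.2)
    have e1 : (s : X) = t := ht s ⟨s.2, 1, G.one_mem, by simp⟩
    have e2 : (s' : X) = t := ht s' ⟨s'.2, h, hhG, hh1⟩
    have e3 : s = s' := Subtype.ext (e1.trans e2.symm)
    subst e3
    congr 1
    apply Quotient.sound
    apply isConj_iff.mpr
    refine ⟨⟨h, Subgroup.mem_inf.mpr ⟨hhG, Subgroup.mem_centralizer_singleton_iff.mpr ?_⟩⟩, ?_⟩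
    · calc h * (s : X) = (h * (s : X) * h⁻¹) * h := by group
        _ = (s : X) * h := by rw [hh1]
    · exact Subtype.ext hh2
  · intro C
    induction C using Quotient.inductionOn with | _ x => ?_
    obtain ⟨⟨v, g⟩, hvg⟩ := (Subgroup.isComplement'_def.mp hGV).2 x
    have hvg' : (v : X) * (g : X) = x := hvg
    have hcop' : Nat.Coprime (orderOf (g : X)) (Nat.card V) :=
      (Nat.Coprime.coprime_dvd_right (G.orderOf_dvd_natCard g.2) hcop).symm
    obtain ⟨y, hy, c, hc, hcg, hyc⟩ := Cfsg.Agent.S1496.result V (g : X)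
      (by rw [Subgroup.normalizer_eq_top]; exact Subgroup.mem_top _) hcop' (v : X) v.2
    obtain ⟨s, ⟨hsS, h, hhG, hhs⟩, -⟩ := hrep c hc
    have hmem : h * (g : X) * h⁻¹ ∈ G ⊓ Subgroup.centralizer ({s} : Set X) := by
      refine Subgroup.mem_inf.mpr ⟨G.mul_mem (G.mul_mem hhG g.2) (G.inv_mem hhG),
        Subgroup.mem_centralizer_singleton_iff.mpr ?_⟩
      rw [← hhs]
      calc h * (g : X) * h⁻¹ * (h * c * h⁻¹) = h * ((g : X) * c) * h⁻¹ := by group
        _ = h * (c * (g : X)) * h⁻¹ := by rw [hcg]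
        _ = _ := by group
    refine ⟨⟨⟨s, hsS⟩, ConjClasses.mk ⟨h * (g : X) * h⁻¹, hmem⟩⟩, ?_⟩
    show ConjClasses.mk (s * (h * (g : X) * h⁻¹)) = ConjClasses.mk x
    apply ConjClasses.mk_eq_mk_iff_isConj.mpr
    apply IsConj.symm
    apply isConj_iff.mpr
    refine ⟨h * y, ?_⟩
    rw [← hvg', ← hhs]
    calc h * y * ((v : X) * (g : X)) * (h * y)⁻¹ = h * (y * ((v : X) * (g : X)) * y⁻¹) * h⁻¹ := by group
      _ = h * (c * (g : X)) * h⁻¹ := by rw [hyc]
      _ = _ := by group

end Cfsg.Agent.S4956
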