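import Cfsg.Statements.S4965
import Mathlib

set_option autoImplicit false
open Cfsg

namespace Cfsg.Agent.S4965

/-- Let X be a finite group with an abelian normal subgroup V (any two elements of V commute), and let φ be the action of X ⧸ V on V induced by conjugation (well defined because V is abelian; the hypothesis hφ says that the class of x acts as conjugation by x). Then X has at most as many conjugacy classes as the semidirect product of V by X ⧸ V formed with this action: the split extension has the largest class number among extensions with the given action. -/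
theorem result {X : Type*} [Group X] [Finite X] (V : Subgroup X) [V.Normal] (hab : ∀ a ∈ V, ∀ b ∈ V, a * b = b * a) (φ : X ⧸ V →* MulAut ↥V) (hφ : ∀ (x : X) (v : ↥V), ((φ (QuotientGroup.mk x) v : ↥V) : X) = x * v * x⁻¹) : Nat.card (ConjClasses X) ≤ Nat.card (ConjClasses (SemidirectProduct ↥V (X ⧸ V) φ)) := by
  classical
  haveI : Finite (SemidirectProduct ↥V (X ⧸ V) φ) :=
    Finite.of_equiv _ SemidirectProduct.equivProd.symm
  have hX := card_comm_eq_card_conjClasses_mul_card X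
  have hS := card_comm_eq_card_conjClasses_mul_card (SemidirectProduct ↥V (X ⧸ V) φ)
  have hcard : Nat.card (SemidirectProduct ↥V (X ⧸ V) φ) = Nat.card X := by
    rw [SemidirectProduct.card, Subgroup.card_eq_card_quotient_mul_card_subgroup V, mul_comm]
  have hch : ∀ q : (X ⧸ V) × (X ⧸ V), ∃ p : X × X,
      (∃ p' : X × X, Commute p'.1 p'.2 ∧ (p'.1 : X ⧸ V) = q.1 ∧ (p'.2 : X ⧸ V) = q.2) →
      (Commute p.1 p.2 ∧ (p.1 : X ⧸ V) = q.1 ∧ (p.2 : X ⧸ V) = q.2) := by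
    intro q
    by_cases h : ∃ p' : X × X, Commute p'.1 p'.2 ∧ (p'.1 : X ⧸ V) = q.1 ∧ (p'.2 : X ⧸ V) = q.2
    · obtain ⟨p', hp'⟩ := h; exact ⟨p', fun _ => hp'⟩
    · exact ⟨(1, 1), fun h' => absurd h' h⟩
  choose σ hσ using hch
  have hs : ∀ p : {p : X × X // Commute p.1 p.2},
      Commute (σ ((p.1.1 : X ⧸ V), (p.1.2 : X ⧸ V))).1 (σ ((p.1.1 : X ⧸ V), (p.1.2 : X ⧸ V))).2 ∧
      ((σ ((p.1.1 : X ⧸ V), (p.1.2 : X ⧸ V))).1 : X ⧸ V) = (p.1.1 : X ⧸ V) ∧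
      ((σ ((p.1.1 : X ⧸ V), (p.1.2 : X ⧸ V))).2 : X ⧸ V) = (p.1.2 : X ⧸ V) :=
    fun p => hσ _ ⟨p.1, p.2, rfl, rfl⟩
  have hm1 : ∀ p : {p : X × X // Commute p.1 p.2},
      p.1.1 * (σ ((p.1.1 : X ⧸ V), (p.1.2 : X ⧸ V))).1⁻¹ ∈ V := by
    intro p
    have := QuotientGroup.eq_iff_div_mem.mp (hs p).2.1.symm
    rwa [div_eq_mul_inv] at this
  have hm2 : ∀ p : {p : X × X // Commute p.1 p.2},
      p.1.2 * (σ ((p.1.1 : X ⧸ V), (p.1.2 : X ⧸ V))).2⁻¹ ∈ V := by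
    intro p
    have := QuotientGroup.eq_iff_div_mem.mp (hs p).2.2.symm
    rwa [div_eq_mul_inv] at this
  have hcomm : ∀ p : {p : X × X // Commute p.1 p.2},
      Commute (⟨⟨_, hm1 p⟩, (p.1.1 : X ⧸ V)⟩ : SemidirectProduct ↥V (X ⧸ V) φ)
        (⟨⟨_, hm2 p⟩, (p.1.2 : X ⧸ V)⟩ : SemidirectProduct ↥V (X ⧸ V) φ) := by
    intro p
    obtain ⟨c0, e1, e2⟩ := hs p
    set x0 := (σ ((p.1.1 : X ⧸ V), (p.1.2 : X ⧸ V))).1 with hx0
    set y0 := (σ ((p.1.1 : X ⧸ V), (p.1.2 : X ⧸ V))).2 with hy0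
    have cp : p.1.1 * p.1.2 = p.1.2 * p.1.1 := p.2
    have c0' : x0 * y0 = y0 * x0 := c0
    apply SemidirectProduct.ext
    · rw [SemidirectProduct.mul_left, SemidirectProduct.mul_left]
      apply Subtype.ext
      rw [Subgroup.coe_mul, Subgroup.coe_mul]
      show p.1.1 * x0⁻¹ * ((φ (p.1.1 : X ⧸ V) ⟨p.1.2 * y0⁻¹, hm2 p⟩ : ↥V) : X) =
        p.1.2 * y0⁻¹ * ((φ (p.1.2 : X ⧸ V) ⟨p.1.1 * x0⁻¹, hm1 p⟩ : ↥V) : X)
      rw [← e1, ← e2, hφ, hφ]
      show p.1.1 * x0⁻¹ * (x0 * (p.1.2 * y0⁻¹) * x0⁻¹) = p.1.2 * y0⁻¹ * (y0 * (p.1.1 * x0⁻¹) * y0⁻¹)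
      calc p.1.1 * x0⁻¹ * (x0 * (p.1.2 * y0⁻¹) * x0⁻¹) = (p.1.1 * p.1.2) * (x0 * y0)⁻¹ := by group
        _ = (p.1.2 * p.1.1) * (y0 * x0)⁻¹ := by rw [cp, c0']
        _ = _ := by group
    · rw [SemidirectProduct.mul_right, SemidirectProduct.mul_right]
      show (p.1.1 : X ⧸ V) * (p.1.2 : X ⧸ V) = (p.1.2 : X ⧸ V) * (p.1.1 : X ⧸ V)
      rw [← QuotientGroup.mk_mul, ← QuotientGroup.mk_mul, cp]
  let F : {p : X × X // Commute p.1 p.2} →
      {p : SemidirectProduct ↥V (X ⧸ V) φ × SemidirectProduct ↥V (X ⧸ V) φ // Commute p.1 p.2} :=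
    fun p => ⟨(⟨⟨_, hm1 p⟩, (p.1.1 : X ⧸ V)⟩, ⟨⟨_, hm2 p⟩, (p.1.2 : X ⧸ V)⟩), hcomm p⟩
  have hF : Function.Injective F := by
    intro p p' h
    have h1 := congrArg (fun z => z.1.1.right) h
    have h2 := congrArg (fun z => z.1.2.right) h
    have h3 := congrArg (fun z => (z.1.1.left : X)) h
    have h4 := congrArg (fun z => (z.1.2.left : X)) h
    simp only [F] at h1 h2 h3 h4
    rw [h1, h2] at h3 h4
    apply Subtype.ext
    exact Prod.ext (mul_right_cancel h3) (mul_right_cancel h4)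
  have hle := Nat.card_le_card_of_injective F hF
  rw [hX, hS, hcard] at hle
  exact Nat.le_of_mul_le_mul_right hle Nat.card_pos

end Cfsg.Agent.S4965
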