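import Cfsg.Statements.S5014
import Cfsg.Agent.Lib_helper5_RkOne

set_option autoImplicit false
open Cfsg

namespace Cfsg.Agent.S5014


/-- Let X = ⟨A, B⟩ be a rank one group with unipotent subgroups A and B and let Ω be the set of conjugates of A under X. Then Ω has at least three members, X acts doubly transitively on Ω by conjugation (any two ordered pairs of distinct members are carried to one another by a single element of X), and A acts regularly on Ω with A removed: for C, D in Ω different from A there is exactly one element of A conjugating C to D. -/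
theorem result {G : Type*} [Group G] {A B : Subgroup G} (h : Cfsg.IsRankOnePair A B) :
    (∃ C₁ ∈ Cfsg.unipotentSubgroups A B, ∃ C₂ ∈ Cfsg.unipotentSubgroups A B, ∃ C₃ ∈ Cfsg.unipotentSubgroups A B,
      C₁ ≠ C₂ ∧ C₁ ≠ C₃ ∧ C₂ ≠ C₃) ∧
    (∀ C₁ ∈ Cfsg.unipotentSubgroups A B, ∀ C₂ ∈ Cfsg.unipotentSubgroups A B, ∀ D₁ ∈ Cfsg.unipotentSubgroups A B,
      ∀ D₂ ∈ Cfsg.unipotentSubgroups A B, C₁ ≠ C₂ → D₁ ≠ D₂ →
        ∃ x ∈ A ⊔ B, Cfsg.conjBy C₁ x = D₁ ∧ Cfsg.conjBy C₂ x = D₂) ∧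
    (∀ C ∈ Cfsg.unipotentSubgroups A B, ∀ D ∈ Cfsg.unipotentSubgroups A B, C ≠ A → D ≠ A →
      ∃! a : G, a ∈ A ∧ Cfsg.conjBy C a = D) := by
  open Cfsg.Agent.H5.RkOne in
  refine ⟨?_, fun C₁ hC₁ C₂ hC₂ D₁ hD₁ D₂ hD₂ hC hD => two_transitive h hC₁ hC₂ hD₁ hD₂ hC hD,
    fun C hC D hD hCA hDA => regular h hC hD hCA hDA⟩
  obtain ⟨b, hb, hb1⟩ := exists_ne_one (Cfsg.RankOnePair_symm h)
  refine ⟨A, left_mem_unipotent A B, B, right_mem_unipotent h, Cfsg.conjBy A b,
    conjBy_mem_unipotent (left_mem_unipotent A B) (Subgroup.mem_sup_right hb), h.ne, ?_, ?_⟩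
  · intro he
    exact hb1 (eq_one_of_mem_normalizer (Cfsg.RankOnePair_symm h) hb (conjBy_eq_self_iff.1 he.symm))
  · intro he
    exact conjBy_right_ne_left (Cfsg.RankOnePair_symm h) hb he.symm

end Cfsg.Agent.S5014
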