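import Cfsg.Statements.S5015
import Cfsg.Agent.Lib_helper5_RkOne

set_option autoImplicit false
open Cfsg

namespace Cfsg.Agent.S5015

open Cfsg.Agent.H5.RkOne

theorem conj_eq {Y Ω : Type*} [Group Y] [MulAction Y Ω] {α : Ω} {A : Subgroup Y}
    (hAn : ∀ y ∈ MulAction.stabilizer Y α, Cfsg.conjBy A y = A) {g h : Y}
    (hgh : g • α = h • α) : Cfsg.conjBy A g = Cfsg.conjBy A h := by
  have h1 : h⁻¹ * g ∈ MulAction.stabilizer Y α := by
    rw [MulAction.mem_stabilizer_iff, mul_smul, hgh, inv_smul_smul]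
  have h2 := hAn _ h1
  calc Cfsg.conjBy A g = Cfsg.conjBy A (h * (h⁻¹ * g)) := by rw [mul_inv_cancel_left]
    _ = Cfsg.conjBy (Cfsg.conjBy A (h⁻¹ * g)) h := (conjBy_conjBy _ _ _).symm
    _ = Cfsg.conjBy A h := by rw [h2]

theorem nilp_conj {Y : Type*} [Group Y] (A : Subgroup Y) (hnil : Group.IsNilpotent A) (y : Y) :
    Group.IsNilpotent (Cfsg.conjBy A y) := by
  have e : A ≃* (Cfsg.conjBy A y) := A.equivMapOfInjective _ (MulAut.conj y).injective
  exact Group.nilpotent_of_mulEquiv e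

/-- Let a group Y act doubly transitively on a set Ω with at least three points, and suppose that the stabilizer of a point α contains a nilpotent subgroup A, normalized by that stabilizer, which acts regularly on the points other than α. Then for any y in Y moving α, the subgroups A and y A y⁻¹ are the unipotent subgroups of a rank one group, and the normal closure of A in Y (the subgroup generated by all conjugates of A) is generated by A and y A y⁻¹ alone. -/
theorem result {Y Ω : Type*} [Group Y] [MulAction Y Ω]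
    (h2 : MulAction.IsMultiplyPretransitive Y Ω 2) (hΩ : 3 ≤ ENat.card Ω) (α : Ω) (A : Subgroup Y)
    (hA : A ≤ MulAction.stabilizer Y α) (hAn : ∀ y ∈ MulAction.stabilizer Y α, Cfsg.conjBy A y = A)
    (hnil : Group.IsNilpotent A) (hreg : ∀ β γ : Ω, β ≠ α → γ ≠ α → ∃! a : Y, a ∈ A ∧ a • β = γ)
    (y : Y) (hy : y ∉ MulAction.stabilizer Y α) :
    Cfsg.IsRankOnePair A (Cfsg.conjBy A y) ∧ Subgroup.normalClosure (A : Set Y) = A ⊔ Cfsg.conjBy A y := by
  set β : Ω := y • α with hβ
  have hβα : β ≠ α := fun h => hy (by rw [MulAction.mem_stabilizer_iff]; exact h)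
  set B := Cfsg.conjBy A y with hB
  have hAfix : ∀ a ∈ A, a • α = α := fun a ha => hA ha
  have hBfix : ∀ b ∈ B, b • β = β := by
    intro b hb
    have h1 := hAfix _ (mem_conjBy.1 hb)
    rw [mul_smul, mul_smul, ← hβ, inv_smul_eq_iff] at h1
    exact h1
  have hAone : ∀ a ∈ A, ∀ γ, γ ≠ α → a • γ = γ → a = 1 := by
    intro a ha γ hγ h
    exact (hreg γ γ hγ hγ).unique ⟨ha, h⟩ ⟨A.one_mem, one_smul _ _⟩
  have hBex : ∀ γ δ : Ω, γ ≠ β → δ ≠ β → ∃ b ∈ B, b • γ = δ := by
    intro γ δ hγ hδ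
    have h1 : y⁻¹ • γ ≠ α := fun h => hγ (by rw [inv_smul_eq_iff] at h; exact h)
    have h2 : y⁻¹ • δ ≠ α := fun h => hδ (by rw [inv_smul_eq_iff] at h; exact h)
    obtain ⟨a, ⟨ha, hag⟩, -⟩ := hreg _ _ h1 h2
    refine ⟨y * a * y⁻¹, conj_mem_conjBy y ha, ?_⟩
    rw [mul_smul, mul_smul, hag, smul_inv_smul]
  have hBone : ∀ b ∈ B, ∀ γ, γ ≠ β → b • γ = γ → b = 1 := by
    intro b hb γ hγ h
    have h1 : y⁻¹ • γ ≠ α := fun h => hγ (by rw [inv_smul_eq_iff] at h; exact h)
    have h2 := hAone _ (mem_conjBy.1 hb) _ h1 (by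
      rw [mul_smul, mul_smul, smul_inv_smul, h])
    have : b = y * (y⁻¹ * b * y) * y⁻¹ := by group
    rw [this, h2]; group
  obtain ⟨γ, hγα, hγβ⟩ : ∃ γ : Ω, γ ≠ α ∧ γ ≠ β := by
    by_contra hcon
    push Not at hcon
    have h1 : (Set.univ : Set Ω) ⊆ {α, β} := by
      intro x _
      by_cases hx : x = α
      · left; exact hx
      · right; exact hcon x hx
    have h2 := Set.encard_le_encard h1
    rw [Set.encard_univ] at h2
    have h3 : ({α, β} : Set Ω).encard ≤ 2 := (Set.encard_pair hβα.symm).le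
    have h4 : (3 : ℕ∞) ≤ 2 := hΩ.trans (h2.trans h3)
    exact absurd h4 (by decide)
  have hne : A ≠ B := by
    intro h
    obtain ⟨a, ⟨ha, hag⟩, -⟩ := hreg β γ hβα hγα
    have := hBfix a (h ▸ ha)
    rw [this] at hag
    exact hγβ hag.symm
  refine ⟨⟨hne, hnil, nilp_conj A hnil y, ?_, ?_⟩, ?_⟩
  · intro a ha ha1
    have h1 : a⁻¹ • β ≠ β := by
      intro h
      have := hAone _ (A.inv_mem ha) β hβα h
      exact ha1 (inv_eq_one.1 this)
    have h2 : a⁻¹ • β ≠ α := by
      intro h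
      rw [inv_smul_eq_iff, hAfix a ha] at h
      exact hβα h
    obtain ⟨b, hb, hbe⟩ := hBex α (a⁻¹ • β) hβα.symm h1
    refine ⟨b⁻¹, B.inv_mem hb, ?_, ?_⟩
    · intro h
      rw [inv_eq_one] at h
      rw [h, one_smul] at hbe
      exact h2 hbe.symm
    · rw [inv_inv, hB, conjBy_conjBy]
      apply conj_eq hAn
      rw [hbe, mul_smul]
  · intro b hb hb1
    have h1 : b⁻¹ • α ≠ α := by
      intro h
      have := hBone _ (B.inv_mem hb) α hβα.symm h
      exact hb1 (inv_eq_one.1 this)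
    have h2 : b⁻¹ • α ≠ β := by
      intro h
      rw [inv_smul_eq_iff, hBfix b hb] at h
      exact hβα h.symm
    obtain ⟨a, ⟨ha, hae⟩, -⟩ := hreg β (b⁻¹ • α) hβα h1
    refine ⟨a⁻¹, A.inv_mem ha, ?_, ?_⟩
    · intro h
      rw [inv_eq_one] at h
      rw [h, one_smul] at hae
      exact h2 hae.symm
    · rw [inv_inv, hB, conjBy_conjBy]
      apply conj_eq hAn
      rw [mul_smul, ← hβ, hae]
  · apply le_antisymm
    · rw [Subgroup.normalClosure, Subgroup.closure_le]
      intro x hx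
      obtain ⟨a, ha, hax⟩ := Group.mem_conjugatesOfSet_iff.1 hx
      obtain ⟨g, hg⟩ := isConj_iff.1 hax
      have hxm : x ∈ Cfsg.conjBy A g := hg ▸ conj_mem_conjBy g ha
      by_cases hgα : g • α = α
      · have : Cfsg.conjBy A g = A := hAn g hgα
        rw [this] at hxm
        exact (le_sup_left : A ≤ A ⊔ B) hxm
      · obtain ⟨c, ⟨hc, hce⟩, -⟩ := hreg β (g • α) hβα hgα
        have h3 : Cfsg.conjBy A g = Cfsg.conjBy B c := by
          rw [hB, conjBy_conjBy]
          apply conj_eq hAn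
          rw [mul_smul, ← hβ, hce]
        rw [h3] at hxm
        exact conjBy_le_of_mem (le_sup_right : B ≤ A ⊔ B) ((le_sup_left : A ≤ A ⊔ B) hc) hxm
    · apply sup_le Subgroup.le_normalClosure
      intro x hx
      have h1 := mem_conjBy.1 hx
      have h2 : y⁻¹ * x * y ∈ Subgroup.normalClosure (A : Set Y) := Subgroup.le_normalClosure h1
      have h3 := (Subgroup.normalClosure_normal (s := (A : Set Y))).conj_mem _ h2 y
      have : y * (y⁻¹ * x * y) * y⁻¹ = x := by group
      rwa [this] at h3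

end Cfsg.Agent.S5015
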