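import Cfsg.Statements.S5016
import Cfsg.Agent.Lib_helper5_RkOne

set_option autoImplicit false
open Cfsg

namespace Cfsg.Agent.S5016

open H5.RkOne Matrix

variable {k : Type*} [Field k]

/-- lower unitriangular. -/
def L (t : k) : SpecialLinearGroup (Fin 2) k := ⟨!![1, 0; t, 1], by simp [Matrix.det_fin_two]⟩
/-- upper unitriangular. -/
def U (t : k) : SpecialLinearGroup (Fin 2) k := ⟨!![1, t; 0, 1], by simp [Matrix.det_fin_two]⟩

theorem coe_L (t : k) : ((L t : SpecialLinearGroup (Fin 2) k) : Matrix (Fin 2) (Fin 2) k) =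
    !![1, 0; t, 1] := rfl
theorem coe_U (t : k) : ((U t : SpecialLinearGroup (Fin 2) k) : Matrix (Fin 2) (Fin 2) k) =
    !![1, t; 0, 1] := rfl

theorem L_mul (s t : k) : L s * L t = L (s + t) := by
  ext i j
  fin_cases i <;> fin_cases j <;> simp [SpecialLinearGroup.coe_mul, coe_L, Matrix.mul_apply, Fin.sum_univ_two]

theorem U_mul (s t : k) : U s * U t = U (s + t) := by
  ext i j
  fin_cases i <;> fin_cases j <;> simp [SpecialLinearGroup.coe_mul, coe_U, Matrix.mul_apply, Fin.sum_univ_two, add_comm]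

theorem L_zero : L (0 : k) = 1 := by
  ext i j
  fin_cases i <;> fin_cases j <;> simp [coe_L]

theorem U_zero : U (0 : k) = 1 := by
  ext i j
  fin_cases i <;> fin_cases j <;> simp [coe_U]

theorem L_inv (t : k) : (L t)⁻¹ = L (-t) := by
  apply inv_eq_of_mul_eq_one_right
  rw [L_mul, add_neg_cancel, L_zero]

theorem U_inv (t : k) : (U t)⁻¹ = U (-t) := by
  apply inv_eq_of_mul_eq_one_right
  rw [U_mul, add_neg_cancel, U_zero]

theorem L_inj {s t : k} (h : L s = L t) : s = t := by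
  have := congrArg (fun g : SpecialLinearGroup (Fin 2) k => (g : Matrix (Fin 2) (Fin 2) k) 1 0) h
  simpa [coe_L] using this

theorem U_inj {s t : k} (h : U s = U t) : s = t := by
  have := congrArg (fun g : SpecialLinearGroup (Fin 2) k => (g : Matrix (Fin 2) (Fin 2) k) 0 1) h
  simpa [coe_U] using this

def Lhom (k : Type*) [Field k] : Multiplicative k →* SpecialLinearGroup (Fin 2) k where
  toFun t := L (Multiplicative.toAdd t)
  map_one' := L_zero
  map_mul' s t := (L_mul _ _).symm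

def Uhom (k : Type*) [Field k] : Multiplicative k →* SpecialLinearGroup (Fin 2) k where
  toFun t := U (Multiplicative.toAdd t)
  map_one' := U_zero
  map_mul' s t := (U_mul _ _).symm

theorem lower_eq : Cfsg.lowerUnipotentSL2 k = (Lhom k).range := by
  unfold Cfsg.lowerUnipotentSL2
  have : {g : SpecialLinearGroup (Fin 2) k | (g : Matrix (Fin 2) (Fin 2) k) 0 1 = 0 ∧
      (g : Matrix (Fin 2) (Fin 2) k) 0 0 = 1 ∧ (g : Matrix (Fin 2) (Fin 2) k) 1 1 = 1} =
      ((Lhom k).range : Set (SpecialLinearGroup (Fin 2) k)) := by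
    ext g
    constructor
    · rintro ⟨h1, h2, h3⟩
      refine ⟨Multiplicative.ofAdd ((g : Matrix (Fin 2) (Fin 2) k) 1 0), ?_⟩
      ext i j
      fin_cases i <;> fin_cases j <;> simp [Lhom, coe_L, h1, h2, h3]
    · rintro ⟨t, rfl⟩
      simp [Lhom, coe_L]
  rw [this, Subgroup.closure_eq]

theorem upper_eq : Cfsg.upperUnipotentSL2 k = (Uhom k).range := by
  unfold Cfsg.upperUnipotentSL2
  have : {g : SpecialLinearGroup (Fin 2) k | (g : Matrix (Fin 2) (Fin 2) k) 1 0 = 0 ∧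
      (g : Matrix (Fin 2) (Fin 2) k) 0 0 = 1 ∧ (g : Matrix (Fin 2) (Fin 2) k) 1 1 = 1} =
      ((Uhom k).range : Set (SpecialLinearGroup (Fin 2) k)) := by
    ext g
    constructor
    · rintro ⟨h1, h2, h3⟩
      refine ⟨Multiplicative.ofAdd ((g : Matrix (Fin 2) (Fin 2) k) 0 1), ?_⟩
      ext i j
      fin_cases i <;> fin_cases j <;> simp [Uhom, coe_U, h1, h2, h3]
    · rintro ⟨t, rfl⟩
      simp [Uhom, coe_U]
  rw [this, Subgroup.closure_eq]

theorem mem_lower {g : SpecialLinearGroup (Fin 2) k} :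
    g ∈ Cfsg.lowerUnipotentSL2 k ↔ ∃ t, g = L t := by
  rw [lower_eq]
  constructor
  · rintro ⟨t, rfl⟩; exact ⟨_, rfl⟩
  · rintro ⟨t, rfl⟩; exact ⟨Multiplicative.ofAdd t, rfl⟩

theorem mem_upper {g : SpecialLinearGroup (Fin 2) k} :
    g ∈ Cfsg.upperUnipotentSL2 k ↔ ∃ t, g = U t := by
  rw [upper_eq]
  constructor
  · rintro ⟨t, rfl⟩; exact ⟨_, rfl⟩
  · rintro ⟨t, rfl⟩; exact ⟨Multiplicative.ofAdd t, rfl⟩

theorem L_mem (t : k) : L t ∈ Cfsg.lowerUnipotentSL2 k := mem_lower.2 ⟨t, rfl⟩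
theorem U_mem (t : k) : U t ∈ Cfsg.upperUnipotentSL2 k := mem_upper.2 ⟨t, rfl⟩

/-- the key conjugation identity. -/
theorem key_id {s t : k} (hst : s * t = 1) (x : k) :
    U (-s) * L x * U s = L (-t) * U (-(s ^ 2 * x)) * L t := by
  have h2 : s ^ 2 * t = s := by rw [pow_two, mul_assoc, hst, mul_one]
  have h3 : t ^ 2 * s ^ 2 = 1 := by rw [← mul_pow, mul_comm t s, hst, one_pow]
  ext i j
  fin_cases i <;> fin_cases j <;>
    simp [SpecialLinearGroup.coe_mul, coe_L, coe_U, Matrix.mul_apply, Fin.sum_univ_two]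
  · linear_combination (-x) * h2
  · ring
  · linear_combination (-x) * h3
  · linear_combination (-x) * h2

theorem conj_eq {s t : k} (hst : s * t = 1) :
    Cfsg.conjBy (Cfsg.lowerUnipotentSL2 k) (U s)⁻¹ = Cfsg.conjBy (Cfsg.upperUnipotentSL2 k) (L t)⁻¹ := by
  have h3 : t ^ 2 * s ^ 2 = 1 := by rw [← mul_pow, mul_comm t s, hst, one_pow]
  apply le_antisymm
  · rintro _ ⟨a, ha, rfl⟩
    obtain ⟨x, rfl⟩ := mem_lower.1 ha
    refine ⟨U (-(s ^ 2 * x)), U_mem _, ?_⟩
    change (L t)⁻¹ * U (-(s ^ 2 * x)) * (L t)⁻¹⁻¹ = (U s)⁻¹ * L x * (U s)⁻¹⁻¹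
    rw [inv_inv, inv_inv, L_inv, U_inv, key_id hst]
  · rintro _ ⟨a, ha, rfl⟩
    obtain ⟨y, rfl⟩ := mem_upper.1 ha
    refine ⟨L (-(t ^ 2 * y)), L_mem _, ?_⟩
    change (U s)⁻¹ * L (-(t ^ 2 * y)) * (U s)⁻¹⁻¹ = (L t)⁻¹ * U y * (L t)⁻¹⁻¹
    rw [inv_inv, inv_inv, L_inv, U_inv, key_id hst]
    congr 3
    linear_combination y * h3

theorem gen_of_ne {g : SpecialLinearGroup (Fin 2) k} (hc : (g : Matrix (Fin 2) (Fin 2) k) 1 0 ≠ 0) :
    g ∈ Cfsg.lowerUnipotentSL2 k ⊔ Cfsg.upperUnipotentSL2 k := by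
  have hdet := g.det_coe
  rw [Matrix.det_fin_two] at hdet
  have e : g = U (((g : Matrix (Fin 2) (Fin 2) k) 0 0 - 1) / (g : Matrix (Fin 2) (Fin 2) k) 1 0) *
      L ((g : Matrix (Fin 2) (Fin 2) k) 1 0) *
      U (((g : Matrix (Fin 2) (Fin 2) k) 1 1 - 1) / (g : Matrix (Fin 2) (Fin 2) k) 1 0) := by
    ext i j
    fin_cases i <;> fin_cases j <;>
      simp [SpecialLinearGroup.coe_mul, coe_L, coe_U, Matrix.mul_apply, Fin.sum_univ_two]
    · field_simp
      ring
    · field_simp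
      linear_combination (-1 : k) * hdet
    · field_simp
      ring
  rw [e]
  exact mul_mem (mul_mem (Subgroup.mem_sup_right (U_mem _)) (Subgroup.mem_sup_left (L_mem _)))
    (Subgroup.mem_sup_right (U_mem _))

theorem gen_top : Cfsg.lowerUnipotentSL2 k ⊔ Cfsg.upperUnipotentSL2 k = ⊤ := by
  rw [eq_top_iff]
  intro g _
  by_cases hc : (g : Matrix (Fin 2) (Fin 2) k) 1 0 = 0
  · have hdet := g.det_coe
    rw [Matrix.det_fin_two, hc, mul_zero, sub_zero] at hdet
    have ha : (g : Matrix (Fin 2) (Fin 2) k) 0 0 ≠ 0 := by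
      intro h0
      rw [h0, zero_mul] at hdet
      exact zero_ne_one hdet
    have h1 : L 1 * g ∈ Cfsg.lowerUnipotentSL2 k ⊔ Cfsg.upperUnipotentSL2 k := by
      apply gen_of_ne
      simp [SpecialLinearGroup.coe_mul, coe_L, Matrix.mul_apply, Fin.sum_univ_two, hc, ha]
    have h2 := mul_mem (Subgroup.mem_sup_left (L_mem (-1)) :
      L (-1 : k) ∈ Cfsg.lowerUnipotentSL2 k ⊔ Cfsg.upperUnipotentSL2 k) h1
    rwa [← mul_assoc, L_mul, neg_add_cancel, L_zero, one_mul] at h2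
  · exact gen_of_ne hc

theorem lower_comm : IsMulCommutative (Cfsg.lowerUnipotentSL2 k) := by
  refine ⟨⟨?_⟩⟩
  rintro ⟨a, ha⟩ ⟨b, hb⟩
  obtain ⟨s, rfl⟩ := mem_lower.1 ha
  obtain ⟨t, rfl⟩ := mem_lower.1 hb
  apply Subtype.ext
  change L s * L t = L t * L s
  rw [L_mul, L_mul, add_comm]

theorem upper_comm : IsMulCommutative (Cfsg.upperUnipotentSL2 k) := by
  refine ⟨⟨?_⟩⟩
  rintro ⟨a, ha⟩ ⟨b, hb⟩
  obtain ⟨s, rfl⟩ := mem_upper.1 ha
  obtain ⟨t, rfl⟩ := mem_upper.1 hb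
  apply Subtype.ext
  change U s * U t = U t * U s
  rw [U_mul, U_mul, add_comm]

theorem nilpotent_of_comm {G : Type*} [Group G] (h : IsMulCommutative G) : Group.IsNilpotent G := by
  letI : CommGroup G := { (inferInstance : Group G) with mul_comm := h.is_comm.comm }
  infer_instance

theorem pair : Cfsg.IsRankOnePair (Cfsg.lowerUnipotentSL2 k) (Cfsg.upperUnipotentSL2 k) := by
  refine ⟨?_, nilpotent_of_comm lower_comm, nilpotent_of_comm upper_comm, ?_, ?_⟩
  · intro h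
    have h1 : L (1 : k) ∈ Cfsg.upperUnipotentSL2 k := h ▸ L_mem 1
    obtain ⟨t, ht⟩ := mem_upper.1 h1
    have := congrArg (fun g : SpecialLinearGroup (Fin 2) k => (g : Matrix (Fin 2) (Fin 2) k) 1 0) ht
    simp [coe_L, coe_U] at this
  · intro a ha ha1
    obtain ⟨t, rfl⟩ := mem_lower.1 ha
    have ht : t ≠ 0 := by
      rintro rfl
      exact ha1 L_zero
    refine ⟨U t⁻¹, U_mem _, ?_, conj_eq (inv_mul_cancel₀ ht)⟩
    intro h
    rw [← U_zero] at h
    exact inv_ne_zero ht (U_inj h)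
  · intro b hb hb1
    obtain ⟨s, rfl⟩ := mem_upper.1 hb
    have hs : s ≠ 0 := by
      rintro rfl
      exact hb1 U_zero
    refine ⟨L s⁻¹, L_mem _, ?_, (conj_eq (mul_inv_cancel₀ hs)).symm⟩
    intro h
    rw [← L_zero] at h
    exact inv_ne_zero hs (L_inj h)

/-- For any field k, the special linear group SL₂(k) is a special rank one group with abelian unipotent subgroups, the unipotent subgroups being the group of lower unitriangular matrices and the group of upper unitriangular matrices. -/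
theorem result (k : Type*) [Field k] :
    Cfsg.IsRankOneGroup (Matrix.SpecialLinearGroup (Fin 2) k) (Cfsg.lowerUnipotentSL2 k) (Cfsg.upperUnipotentSL2 k) ∧
    Cfsg.IsSpecialRankOnePair (Cfsg.lowerUnipotentSL2 k) (Cfsg.upperUnipotentSL2 k) ∧
    Cfsg.HasAbelianUnipotents (Cfsg.lowerUnipotentSL2 k) (Cfsg.upperUnipotentSL2 k) := by
  refine ⟨⟨gen_top, pair⟩, ⟨pair, ?_⟩, lower_comm, upper_comm⟩
  intro a ha ha1 b hb hb1 hconj
  obtain ⟨t, rfl⟩ := mem_lower.1 ha
  obtain ⟨s, rfl⟩ := mem_upper.1 hb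
  have ht : t ≠ 0 := by
    rintro rfl
    exact ha1 L_zero
  have h1 := conj_eq (inv_mul_cancel₀ ht)
  rw [← hconj] at h1
  have h2 := conjBy_right_inj (Cfsg.RankOnePair_symm pair) (inv_mem (U_mem t⁻¹)) (inv_mem (U_mem s)) h1
  have hs : s = t⁻¹ := (U_inj (inv_inj.1 h2)).symm
  have hst : s * t = 1 := by rw [hs, inv_mul_cancel₀ ht]
  rw [U_inv, L_inv, key_id hst]
  congr 3
  rw [pow_two, mul_assoc, hst, mul_one]

end Cfsg.Agent.S5016
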