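import Cfsg.Statements.S5017
import Cfsg.Agent.Lib_helper5_RkOne2
import Cfsg.Agent.Lib_helper5_Comp1

set_option autoImplicit false
open Cfsg

namespace Cfsg.Agent.S5017


/-- Let X be a rank one group with unipotent subgroups A and B and N a normal subgroup of X. Then either X = N A or N lies in the centre of X. Consequently a perfect rank one group is quasisimple. -/
theorem result {X : Type*} [Group X] {A B : Subgroup X} (h : Cfsg.IsRankOneGroup X A B) :
    (∀ N : Subgroup X, N.Normal → N ⊔ A = ⊤ ∨ N ≤ Subgroup.center X) ∧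
    (Group.IsPerfect X → Cfsg.IsQuasisimple X) := by
  refine ⟨fun N hN => H5.RkOne.normal_dichotomy h N hN, fun hperf => ?_⟩
  rw [H5.quasisimple_iff]
  refine ⟨hperf, H5.RkOne.nontrivial_of_rankOne h.2, fun N hN => ?_⟩
  rcases H5.RkOne.normal_dichotomy h N hN with h1 | h1
  · left
    have := h.2.nilpotent_left
    have hsurj : Function.Surjective ((QuotientGroup.mk' N).comp A.subtype) := by
      intro q
      obtain ⟨x, rfl⟩ := QuotientGroup.mk'_surjective N q
      have hx : x ∈ N ⊔ A := h1 ▸ Subgroup.mem_top x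
      rw [Subgroup.mem_sup_of_normal_left] at hx
      obtain ⟨n, hn, a, ha, rfl⟩ := hx
      refine ⟨⟨a, ha⟩, ?_⟩
      simp only [MonoidHom.comp_apply, Subgroup.subtype_apply, QuotientGroup.mk'_apply]
      rw [QuotientGroup.eq]
      have : a⁻¹ * (n * a) = a⁻¹ * n * a⁻¹⁻¹ := by rw [inv_inv, mul_assoc]
      rw [this]
      exact hN.conj_mem n hn a⁻¹
    have hnil : Group.IsNilpotent (X ⧸ N) := Group.nilpotent_of_surjective _ hsurj
    by_contra hne
    have hnt : Nontrivial (X ⧸ N) := by
      by_contra hs
      rw [not_nontrivial_iff_subsingleton] at hs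
      exact hne (QuotientGroup.subgroup_eq_top_of_subsingleton N hs)
    exact Group.IsPerfect.not_isNilpotent (G := X ⧸ N) hnil
  · right; exact h1

end Cfsg.Agent.S5017
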