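import Cfsg.Statements.S5018
import Cfsg.Agent.Lib_helper5_RkOne2

set_option autoImplicit false
open Cfsg

namespace Cfsg.Agent.S5018


/-- A rank one group is not nilpotent, and its second centre equals its centre. -/
theorem result {X : Type*} [Group X] {A B : Subgroup X} (h : Cfsg.IsRankOneGroup X A B) :
    Subgroup.upperCentralSeries X 2 = Subgroup.center X ∧ ¬ Group.IsNilpotent X := by
  have hZ : Subgroup.upperCentralSeries X 2 = Subgroup.center X := by
    apply le_antisymm
    · rcases H5.RkOne.normal_dichotomy h (Subgroup.upperCentralSeries X 2) inferInstance with h1 | h1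
      · exfalso
        obtain ⟨x, -, hx⟩ := H5.RkOne.right_mem_unipotent h.2
        have hx' : x ∈ Subgroup.upperCentralSeries X 2 ⊔ A := h1 ▸ Subgroup.mem_top x
        rw [Subgroup.mem_sup_of_normal_left] at hx'
        obtain ⟨z, hz, a, ha, rfl⟩ := hx'
        rw [← H5.RkOne.conjBy_conjBy, H5.RkOne.conjBy_of_mem ha] at hx
        obtain ⟨b, hb, hb1⟩ := H5.RkOne.exists_ne_one (Cfsg.RankOnePair_symm h.2)
        apply hb1
        apply H5.RkOne.eq_one_of_mem_normalizer (Cfsg.RankOnePair_symm h.2) hb
        rw [hx] at hb
        obtain ⟨a', ha', rfl⟩ := hb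
        have hc : z * a' * z⁻¹ * a'⁻¹ ∈ Subgroup.center X := by
          rw [← Subgroup.upperCentralSeries_one]
          exact (Subgroup.mem_upperCentralSeries_succ_iff).1 hz a'
        have he : (MulAut.conj z).toMonoidHom a' = (z * a' * z⁻¹ * a'⁻¹) * a' := by
          simp [MulAut.conj_apply]
        rw [he]
        apply mul_mem _ (Subgroup.le_normalizer ha')
        rw [Subgroup.mem_normalizer_iff]
        intro t
        rw [← Subgroup.mem_center_iff.1 hc t, mul_inv_cancel_right]
      · exact h1
    · rw [← Subgroup.upperCentralSeries_one]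
      exact Subgroup.upperCentralSeries_mono X (by norm_num)
  refine ⟨hZ, ?_⟩
  rintro ⟨n, hn⟩
  have hall : ∀ n, Subgroup.upperCentralSeries X n ≤ Subgroup.center X := by
    intro n
    induction n with
    | zero => simp
    | succ n ih =>
      intro x hx
      rw [← hZ]
      rw [Subgroup.mem_upperCentralSeries_succ_iff] at hx ⊢
      intro y
      rw [Subgroup.upperCentralSeries_one]
      exact ih (hx y)
  apply H5.RkOne.center_ne_top h.2
  rw [eq_top_iff, ← hn]
  exact hall n

end Cfsg.Agent.S5018
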