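import Cfsg.Statements.S5019
import Cfsg.Agent.Lib_helper5_RkOne3

set_option autoImplicit false
open Cfsg

namespace Cfsg.Agent.S5019

open H5.RkOne

variable {X : Type*} [Group X] {N : Type*} [AddCommGroup N] [DistribMulAction X N]

/-- fixed vectors. -/
def Fix (U : Subgroup X) (v : N) : Prop := ∀ u ∈ U, u • v = v

/-- quadratic action. -/
def Quad (N : Type*) [AddCommGroup N] [DistribMulAction X N] (U : Subgroup X) : Prop :=
  ∀ u ∈ U, ∀ v : N, Fix U (u • v - v)

theorem Fix.sub {U : Subgroup X} {v w : N} (hv : Fix U v) (hw : Fix U w) : Fix U (v - w) := by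
  intro u hu
  rw [smul_sub, hv u hu, hw u hu]

theorem Fix.add {U : Subgroup X} {v w : N} (hv : Fix U v) (hw : Fix U w) : Fix U (v + w) := by
  intro u hu
  rw [smul_add, hv u hu, hw u hu]

theorem fix_conj {U : Subgroup X} {g : X} {v : N} : Fix (Cfsg.conjBy U g) v ↔ Fix U (g⁻¹ • v) := by
  constructor
  · intro h u hu
    have := h _ (conj_mem_conjBy g hu)
    rw [mul_smul, mul_smul] at this
    rw [eq_inv_smul_iff]
    exact this
  · rintro h _ ⟨u, hu, rfl⟩
    change (g * u * g⁻¹) • v = v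
    rw [mul_smul, mul_smul, h u hu, smul_inv_smul]

theorem quad_conj {U : Subgroup X} (h : Quad N U) (g : X) : Quad N (Cfsg.conjBy U g) := by
  rintro _ ⟨u, hu, rfl⟩ v
  rw [fix_conj]
  change Fix U (g⁻¹ • ((g * u * g⁻¹) • v - v))
  rw [smul_sub, mul_smul, mul_smul, inv_smul_smul]
  exact h u hu _

/-- (S5) -/
theorem key5 {A B : Subgroup X} (hA : Quad N A) (hB : Quad N B) {a b b' : X} (ha : a ∈ A)
    (hb : b ∈ B) (hb' : b' ∈ B) (rel : b⁻¹ * a * b = a⁻¹ * b' * a) {r : N} (hr : Fix B r) :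
    Fix A ((b' * b) • (a • r - r) - (a • r - r)) ∧ Fix B ((b' * b) • (a • r - r) - (a • r - r)) := by
  have E1 : a • (b⁻¹ • (a • r)) = b' • (a • r) := by
    have := congrArg (fun t : X => t • r) rel
    simp only [mul_smul] at this
    rw [hr b hb] at this
    rw [this, smul_inv_smul]
  have hs : Fix B (b⁻¹ • (a • r) - a • r) := hB _ (inv_mem hb) _
  have hs' : Fix B (b' • (a • r) - a • r) := hB _ hb' _
  have hbw : b • (a • r) = a • r - (b⁻¹ • (a • r) - a • r) := by
    have := hs b hb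
    rw [smul_sub, smul_inv_smul] at this
    rw [← this]
    abel
  have ht : (b' * b) • (a • r - r) - (a • r - r) =
      (b' • (a • r) - a • r) - (b⁻¹ • (a • r) - a • r) := by
    rw [smul_sub, mul_smul, mul_smul, hr b hb, hr b' hb', hbw, smul_sub, hs b' hb']
    abel
  refine ⟨?_, ?_⟩
  · have e : (b' * b) • (a • r - r) - (a • r - r) = a • (b⁻¹ • (a • r)) - b⁻¹ • (a • r) := by
      rw [ht, E1]
      abel
    rw [e]
    exact hA a ha _
  · rw [ht]
    exact hs'.sub hs

/-- (S6) -/
theorem key6 {A B : Subgroup X} (hA : Quad N A) (hB : Quad N B) {a b : X} (ha : a ∈ A)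
    (hb : b ∈ B) (hconj : Cfsg.conjBy A b⁻¹ = Cfsg.conjBy B a⁻¹) {v : N} (hv : Fix A v) :
    Fix B (b⁻¹ • v - v) ∧ Fix A (v + (a • (b⁻¹ • v - v) - (b⁻¹ • v - v))) ∧
      Fix B (v + (a • (b⁻¹ • v - v) - (b⁻¹ • v - v))) := by
  have hr : Fix B (b⁻¹ • v - v) := hB _ (inv_mem hb) _
  refine ⟨hr, hv.add (hA a ha _), ?_⟩
  have hu : Fix B (a • (b⁻¹ • v)) := by
    have h1 : Fix (Cfsg.conjBy A b⁻¹) (b⁻¹ • v) := by
      rw [fix_conj, inv_inv, smul_inv_smul]
      exact hv
    rw [hconj, fix_conj, inv_inv] at h1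
    exact h1
  have e : v + (a • (b⁻¹ • v - v) - (b⁻¹ • v - v)) = a • (b⁻¹ • v) - (b⁻¹ • v - v) := by
    rw [smul_sub, hv a ha]
    abel
  rw [e]
  exact hu.sub hr

/-- (S7) -/
theorem key7 {A B : Subgroup X} (hA : Quad N A) (hB : Quad N B) {a b b' : X} (ha : a ∈ A)
    (hb : b ∈ B) (hb' : b' ∈ B) (rel : b⁻¹ * a * b = a⁻¹ * b' * a)
    (hconj : Cfsg.conjBy A b⁻¹ = Cfsg.conjBy B a⁻¹) {v : N} (hv : Fix A v) :
    Fix A ((b' * b) • v) ∧ Fix A ((b' * b)⁻¹ • v) := by
  obtain ⟨hr, hcA, hcB⟩ := key6 hA hB ha hb hconj hv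
  obtain ⟨htA, htB⟩ := key5 hA hB ha hb hb' rel hr
  generalize b⁻¹ • v - v = r at hr hcA hcB htA htB
  have hg : b' * b ∈ B := mul_mem hb' hb
  generalize b' * b = g at hg htA htB
  have e1 : g • v = v - (g • (a • r - r) - (a • r - r)) := by
    have h1 := hcB g hg
    rw [smul_add] at h1
    have h2 : g • v = v + (a • r - r) - g • (a • r - r) := by
      rw [← h1]; abel
    rw [h2]; abel
  refine ⟨?_, ?_⟩
  · rw [e1]
    exact hv.sub htA
  · have e2 : g⁻¹ • v = v + (g • (a • r - r) - (a • r - r)) := by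
      rw [inv_smul_eq_iff, smul_add, htB g hg, e1]
      abel
    rw [e2]
    exact hv.add htA

/-- Let X be a rank one group with abelian unipotent subgroups A and B, and suppose X acts on an abelian group N (written additively) in such a way that A acts quadratically, meaning a' • (a • n − n) = a • n − n for all a, a' in A and n in N, while X as a whole does not: y • (x • n − n) ≠ x • n − n for some x, y in X and n in N. Then X is a special rank one group. -/
theorem result {X : Type*} [Group X] {A B : Subgroup X} (h : Cfsg.IsRankOneGroup X A B)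
    (hab : Cfsg.HasAbelianUnipotents A B) {N : Type*} [AddCommGroup N] [DistribMulAction X N]
    (hq : ∀ a ∈ A, ∀ a' ∈ A, ∀ n : N, a' • (a • n - n) = a • n - n)
    (hX : ∃ x y : X, ∃ n : N, y • (x • n - n) ≠ x • n - n) : Cfsg.IsSpecialRankOnePair A B := by
  have hQA : Quad N A := fun a ha n a' ha' => hq a ha a' ha' n
  have hQB : Quad N B := by
    obtain ⟨x, -, hx⟩ := right_mem_unipotent h.2
    rw [hx]
    exact quad_conj hQA x
  refine ⟨h.2, fun a ha ha1 b hb hb1 hconj => ?_⟩
  have h1 : b⁻¹ * a * b⁻¹⁻¹ ∈ Cfsg.conjBy A b⁻¹ := conj_mem_conjBy b⁻¹ ha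
  rw [hconj, inv_inv] at h1
  obtain ⟨b', hb', e⟩ := h1
  change a⁻¹ * b' * a⁻¹⁻¹ = _ at e
  rw [inv_inv] at e
  have hgN : b' * b ∈ Subgroup.normalizer (A : Set X) := by
    rw [← conjBy_eq_self_iff]
    by_contra hne
    have hfix : ∀ v : N, Fix (Cfsg.conjBy A (b' * b)) v ↔ Fix A v := by
      intro v
      rw [fix_conj]
      constructor
      · intro hv
        have := (key7 hQA hQB ha hb hb' e.symm hconj hv).1
        rwa [smul_inv_smul] at this
      · intro hv
        exact (key7 hQA hQB ha hb hb' e.symm hconj hv).2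
    have hu : Cfsg.conjBy A (b' * b) ∈ Cfsg.unipotentSubgroups A B :=
      conjBy_right_mem_unipotent (mul_mem hb' hb)
    have htop : A ⊔ Cfsg.conjBy A (b' * b) = ⊤ := by
      obtain ⟨y, hy, e1, e2⟩ := two_transitive h.2 (left_mem_unipotent A B) (right_mem_unipotent h.2)
        (left_mem_unipotent A B) hu h.2.ne (Ne.symm hne)
      have e3 : A ⊔ Cfsg.conjBy A (b' * b) = Cfsg.conjBy A y ⊔ Cfsg.conjBy B y := by rw [e1, e2]
      rw [e3, ← conjBy_sup, conjBy_of_mem hy]
      exact h.1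
    let T : Subgroup X :=
      { carrier := {x | (∀ f : N, Fix A f → x • f = f) ∧ ∀ v : N, Fix A (x • v - v)}
        one_mem' := by
          refine ⟨fun f _ => one_smul _ _, fun v => ?_⟩
          rw [one_smul, sub_self]
          intro u _
          exact smul_zero u
        mul_mem' := by
          rintro x y ⟨hx1, hx2⟩ ⟨hy1, hy2⟩
          refine ⟨fun f hf => by rw [mul_smul, hy1 f hf, hx1 f hf], fun v => ?_⟩
          have e : (x * y) • v - v = (y • v - v) + (x • v - v) := by
            have := hx1 _ (hy2 v)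
            rw [smul_sub] at this
            rw [mul_smul]
            have e2 : x • y • v = y • v - v + x • v := by rw [← this]; abel
            rw [e2]; abel
          rw [e]
          exact (hy2 v).add (hx2 v)
        inv_mem' := by
          rintro x ⟨hx1, hx2⟩
          refine ⟨fun f hf => by rw [inv_smul_eq_iff, hx1 f hf], fun v => ?_⟩
          have h3 := hx2 (x⁻¹ • v)
          rw [smul_inv_smul] at h3
          have e : x⁻¹ • v - v = 0 - (v - x⁻¹ • v) := by abel
          rw [e]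
          refine Fix.sub ?_ h3
          intro u _
          exact smul_zero u }
    have hT : T = ⊤ := by
      rw [eq_top_iff, ← htop]
      apply sup_le
      · intro a₁ ha₁
        exact ⟨fun f hf => hf a₁ ha₁, fun v => hQA a₁ ha₁ v⟩
      · intro a₁ ha₁
        exact ⟨fun f hf => (hfix f).2 hf a₁ ha₁, fun v => (hfix _).1 (quad_conj hQA _ a₁ ha₁ v)⟩
    obtain ⟨x, y, n, hxy⟩ := hX
    have hx : x ∈ T := hT ▸ Subgroup.mem_top x
    have hy : y ∈ T := hT ▸ Subgroup.mem_top y
    exact hxy (hy.1 _ (hx.2 n))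
  have hg1 : b' * b = 1 :=
    eq_one_of_mem_normalizer (Cfsg.RankOnePair_symm h.2) (mul_mem hb' hb) hgN
  rw [← e, eq_inv_of_mul_eq_one_left hg1]

end Cfsg.Agent.S5019
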