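import Cfsg.Statements.S5023
import Cfsg.Agent.Lib_helper5_RkOne2

set_option autoImplicit false
open Cfsg

namespace Cfsg.Agent.S5023


/-- Let X be a rank one group with unipotent subgroups A and B that acts faithfully on an abelian group V (written additively) with A acting quadratically: a' • (a • v − v) = a • v − v for all a, a' in A and v in V. Then A is either torsion-free or an elementary abelian p-group for some prime p. -/
theorem result {X : Type*} [Group X] {A B : Subgroup X} (h : Cfsg.IsRankOneGroup X A B)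
    {V : Type*} [AddCommGroup V] [DistribMulAction X V] (hf : ∀ x : X, (∀ v : V, x • v = v) → x = 1)
    (hq : ∀ a ∈ A, ∀ a' ∈ A, ∀ v : V, a' • (a • v - v) = a • v - v) :
    (∀ a ∈ A, a ≠ 1 → ¬ IsOfFinOrder a) ∨ ∃ p : ℕ, p.Prime ∧ Cfsg.IsElementaryAbelian p A := by
  by_cases htf : ∀ a ∈ A, a ≠ 1 → ¬ IsOfFinOrder a
  · left; exact htf
  right
  simp only [not_forall, not_not] at htf
  obtain ⟨a₀, ha₀, ha₀1, hfin⟩ := htf
  have hn0 : orderOf a₀ ≠ 0 := (orderOf_pos_iff.2 hfin).ne'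
  have hn1 : orderOf a₀ ≠ 1 := fun e => ha₀1 (orderOf_eq_one_iff.1 e)
  obtain ⟨p, hp, hpn⟩ := Nat.exists_prime_and_dvd hn1
  refine ⟨p, hp, ?_⟩
  have hord : orderOf (a₀ ^ (orderOf a₀ / p)) = p := orderOf_pow_orderOf_div hn0 hpn
  generalize ha_def : a₀ ^ (orderOf a₀ / p) = a at hord
  have ha : a ∈ A := ha_def ▸ pow_mem ha₀ _
  have ha1 : a ≠ 1 := by
    rintro rfl
    rw [orderOf_one] at hord
    exact hp.one_lt.ne hord
  have hap : a ^ p = 1 := hord ▸ pow_orderOf_eq_one a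
  -- faithful
  have hfe : ∀ x y : X, (∀ v : V, x • v = y • v) → x = y := by
    intro x y hxy
    have : y⁻¹ * x = 1 := by
      apply hf
      intro v
      rw [mul_smul, hxy, inv_smul_smul]
    exact (inv_mul_eq_one.1 this).symm
  have hpow : ∀ a ∈ A, ∀ (n : ℕ) (v : V), a ^ n • v - v = n • (a • v - v) := by
    intro a ha n v
    induction n with
    | zero => simp
    | succ n ih =>
      have e : a ^ n • (a • v) = a ^ n • (a • v - v) + a ^ n • v := by
        rw [← smul_add, sub_add_cancel]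
      rw [pow_succ, mul_smul, e, hq a ha _ (pow_mem ha n), succ_nsmul, ← ih]
      abel
  have hstep : ∀ a₁ ∈ A, ∀ a₂ ∈ A, ∀ v : V, a₁ • (a₂ • v) = a₂ • v - v + a₁ • v := by
    intro a₁ h₁ a₂ h₂ v
    have e : a₁ • (a₂ • v) = a₁ • (a₂ • v - v) + a₁ • v := by
      rw [← smul_add, sub_add_cancel]
    rw [e, hq a₂ h₂ a₁ h₁]
  have hcomm : ∀ a₁ ∈ A, ∀ a₂ ∈ A, a₁ * a₂ = a₂ * a₁ := by
    intro a₁ h₁ a₂ h₂
    apply hfe
    intro v
    rw [mul_smul, mul_smul, hstep a₁ h₁ a₂ h₂, hstep a₂ h₂ a₁ h₁]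
    abel
  refine ⟨⟨⟨fun x y => Subtype.ext (hcomm x x.2 y y.2)⟩⟩, ?_⟩
  -- the kernel on `pV`
  let K : Subgroup X :=
    { carrier := {x | ∀ v : V, x • (p • v) = p • v}
      one_mem' := fun v => one_smul _ _
      mul_mem' := by
        intro x y hx hy v
        rw [mul_smul, hy v, hx v]
      inv_mem' := by
        intro x hx v
        rw [inv_smul_eq_iff, hx v] }
  have hKmem : ∀ x, x ∈ K ↔ ∀ v : V, x • (p • v) = p • v := fun _ => Iff.rfl
  have hKn : K.Normal := by
    refine ⟨fun x hx g => ?_⟩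
    rw [hKmem] at hx ⊢
    intro v
    rw [mul_smul, mul_smul, ← smul_comm p g⁻¹ v, hx, smul_comm p g⁻¹ v, smul_inv_smul]
  have haK : a ∈ K := by
    rw [hKmem]
    intro v
    have h1 := hpow a ha p v
    rw [hap, one_smul, sub_self] at h1
    rw [← smul_comm p a v, ← sub_eq_zero, ← nsmul_sub, ← h1]
  have hcenter : ∀ z ∈ A, z ∈ Subgroup.center X → z = 1 := by
    intro z hz hzc
    apply H5.RkOne.eq_one_of_mem_normalizer h.2 hz
    rw [Subgroup.mem_normalizer_iff]
    intro b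
    rw [← Subgroup.mem_center_iff.1 hzc b, mul_inv_cancel_right]
  have htop : K ⊔ A = ⊤ := by
    rcases H5.RkOne.normal_dichotomy h K hKn with h1 | h1
    · exact h1
    · exact absurd (hcenter a ha (h1 haK)) ha1
  intro a' ha'
  apply hcenter _ (pow_mem ha' p)
  rw [Subgroup.mem_center_iff]
  intro x
  have hx : x ∈ K ⊔ A := htop ▸ Subgroup.mem_top x
  rw [Subgroup.mem_sup_of_normal_left] at hx
  obtain ⟨k, hk, a₁, ha₁, rfl⟩ := hx
  rw [hKmem] at hk
  apply hfe
  intro v
  have hact : ∀ w : V, a' ^ p • w = w + p • (a' • w - w) := by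
    intro w
    rw [← hpow a' ha' p w]
    abel
  have h1 : (k * a₁) • (p • (a' • v - v)) = p • (a' • v - v) := by
    rw [mul_smul, ← smul_comm p a₁, hq a' ha' a₁ ha₁, hk]
  have h2 : p • (a' • ((k * a₁) • v) - (k * a₁) • v) = p • (a' • v - v) := by
    have e1 : p • ((k * a₁) • v) = p • (a₁ • v) := by
      rw [smul_comm p (k * a₁) v, mul_smul, ← smul_comm p a₁ v, hk]
    rw [nsmul_sub, smul_comm p a', e1, ← smul_comm p a', ← nsmul_sub, hstep a' ha' a₁ ha₁]
    congr 1
    abel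
  rw [mul_smul, mul_smul _ (k * a₁) v, hact v, hact ((k * a₁) • v), smul_add, h1, h2]

end Cfsg.Agent.S5023
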