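import Cfsg.Statements.S5024
import Cfsg.Agent.Lib_helper5_RkOne3

set_option autoImplicit false
open Cfsg

namespace Cfsg.Agent.S5024

open H5.RkOne in
theorem comm_of_fix_all {G : Type*} [Group G] {P Q : Subgroup G} (h : Cfsg.IsRankOnePair P Q)
    {a : G} (hP : a ∈ Subgroup.normalizer (P : Set G))
    (hQ : ∀ c ∈ P, a ∈ Subgroup.normalizer ((Cfsg.conjBy Q c : Subgroup G) : Set G)) :
    ∀ c ∈ P, c * a = a * c := by
  intro c hc
  have h1 : a * c * a⁻¹ * c⁻¹ ∈ P :=
    mul_mem ((Subgroup.mem_normalizer_iff.1 hP c).1 hc) (inv_mem hc)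
  have h2 : a * c * a⁻¹ * c⁻¹ ∈ Subgroup.normalizer (Q : Set G) := by
    have e1 : a ∈ Subgroup.normalizer (Q : Set G) := by
      have := hQ 1 (one_mem P)
      rwa [conjBy_one] at this
    have e2 : c * a⁻¹ * c⁻¹ ∈ Subgroup.normalizer (Q : Set G) := by
      have := inv_mem (hQ c⁻¹ (inv_mem hc))
      rw [normalizer_conjBy, mem_conjBy, inv_inv] at this
      exact this
    have := mul_mem e1 e2
    simpa only [mul_assoc] using this
  have h3 := eq_one_of_mem_normalizer h h1 h2
  have h4 := congrArg (fun t => t * c * a) h3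
  simp only [inv_mul_cancel_right, one_mul] at h4
  exact h4.symm

open H5.RkOne in
theorem mem_unipotent_of_le {G : Type*} [Group G] {S : Set (Subgroup G)}
    (hS : Cfsg.IsRootSubgroupSet S) {A C D : Subgroup G} (hA : A ∈ S) (hC : C ∈ S)
    (hCD : Cfsg.IsRankOnePair C D) (hle : A ≤ C ⊔ D) {a b : G} (ha : a ∈ A) (hb : b ∈ C ⊔ D)
    (hab : b * a ≠ a * b) : A ∈ Cfsg.unipotentSubgroups C D := by
  have hstep1 : ∃ E ∈ Cfsg.unipotentSubgroups C D, a ∉ Subgroup.normalizer (E : Set G) := by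
    by_contra hcon
    have hall : ∀ E ∈ Cfsg.unipotentSubgroups C D, a ∈ Subgroup.normalizer (E : Set G) := by
      intro E hE
      by_contra hn
      exact hcon ⟨E, hE, hn⟩
    apply hab
    have h1 : C ≤ Subgroup.centralizer {a} := by
      intro c hc
      rw [Subgroup.mem_centralizer_singleton_iff]
      exact comm_of_fix_all hCD (hall C (left_mem_unipotent C D))
        (fun c' hc' => hall _ (conjBy_mem_unipotent (right_mem_unipotent hCD)
          (Subgroup.mem_sup_left hc'))) c hc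
    have h2 : D ≤ Subgroup.centralizer {a} := by
      intro c hc
      rw [Subgroup.mem_centralizer_singleton_iff]
      exact comm_of_fix_all (Cfsg.RankOnePair_symm hCD) (hall D (right_mem_unipotent hCD))
        (fun c' hc' => hall _ (conjBy_mem_unipotent (left_mem_unipotent C D)
          (Subgroup.mem_sup_right hc'))) c hc
    exact Subgroup.mem_centralizer_singleton_iff.1 (sup_le h1 h2 hb)
  obtain ⟨E, hE, haE⟩ := hstep1
  have hES : E ∈ S := by
    obtain ⟨y, -, rfl⟩ := hE
    exact hS.conj_mem C hC y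
  have hEY : E ≤ C ⊔ D := by
    obtain ⟨y, hy, rfl⟩ := hE
    exact conjBy_le_of_mem le_sup_left hy
  have hbad : (∀ t ∈ ⁅A, E⁆, ∀ x ∈ E, t * x = x * t) → False := by
    intro hcen
    have hne : Cfsg.conjBy E a ≠ E := fun e => haE (conjBy_eq_self_iff.1 e)
    apply hS.ne_bot E hES
    rw [Subgroup.eq_bot_iff_forall]
    intro e he
    have ht : a * e * a⁻¹ * e⁻¹ ∈ ⁅A, E⁆ := Subgroup.commutator_mem_commutator ha he
    have ht2 : a * e * a⁻¹ * e⁻¹ ∈ Subgroup.normalizer (E : Set G) := by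
      apply Subgroup.centralizer_le_normalizer
      rw [Subgroup.mem_centralizer_iff]
      intro x hx
      exact (hcen _ ht x hx).symm
    have h3 := mul_mem ht2 (Subgroup.le_normalizer he)
    rw [inv_mul_cancel_right] at h3
    have h4 := unipotent_eq_one hCD (conjBy_mem_unipotent hE (hle ha)) hE hne
      (conj_mem_conjBy a he) h3
    apply eq_one_of_conj_eq_one (y := a⁻¹)
    rwa [inv_inv]
  rcases hS.pair A hA E hES with h1 | h1 | h1
  · exfalso
    apply hbad
    intro t ht x _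
    rw [h1, Subgroup.mem_bot] at ht
    rw [ht, one_mul, mul_one]
  · have ha1 : a ≠ 1 := by
      rintro rfl
      exact haE (one_mem _)
    obtain ⟨e, he, -, hae⟩ := h1.cond_left a ha ha1
    have : A = Cfsg.conjBy (Cfsg.conjBy E a⁻¹) e := by
      rw [← hae, conjBy_conjBy_inv]
    rw [this]
    exact conjBy_mem_unipotent (conjBy_mem_unipotent hE (inv_mem (hle ha))) (hEY he)
  · exfalso
    apply hbad
    intro t ht x hx
    exact h1.2.1 t ht x (Subgroup.mem_sup_right hx)

open H5.RkOne in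
theorem exists_not_comm {G : Type*} [Group G] {A B : Subgroup G} (h : Cfsg.IsRankOnePair A B) :
    ∃ a ∈ A, ∃ b ∈ B, b * a ≠ a * b := by
  obtain ⟨a, ha, ha1⟩ := exists_ne_one h
  refine ⟨a, ha, ?_⟩
  by_contra hcon
  apply ha1
  apply eq_one_of_mem_normalizer h ha
  apply Subgroup.centralizer_le_normalizer
  rw [Subgroup.mem_centralizer_iff]
  intro b hb
  by_contra hne
  exact hcon ⟨b, hb, hne⟩

/-- Let S be a set of abstract root subgroups of G, A and C members of S, B a rank one partner of A in S and D a rank one partner of C in S. If the rank one group ⟨A, B⟩ is contained in ⟨C, D⟩ then the two coincide, and C and D are conjugates of A inside ⟨A, B⟩. -/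
theorem result {G : Type*} [Group G] {S : Set (Subgroup G)} (hS : Cfsg.IsRootSubgroupSet S)
    {A B C D : Subgroup G} (hA : A ∈ S) (hC : C ∈ S) (hB : B ∈ Cfsg.rankOnePartners S A) (hD : D ∈ Cfsg.rankOnePartners S C)
    (hle : A ⊔ B ≤ C ⊔ D) : A ⊔ B = C ⊔ D ∧ C ∈ Cfsg.unipotentSubgroups A B ∧ D ∈ Cfsg.unipotentSubgroups A B := by
  obtain ⟨hBS, hAB⟩ := hB
  obtain ⟨hDS, hCD⟩ := hD
  obtain ⟨a, ha, b, hb, hab⟩ := exists_not_comm hAB
  have hA' : A ∈ Cfsg.unipotentSubgroups C D :=
    mem_unipotent_of_le hS hA hC hCD (le_sup_left.trans hle) ha (hle (Subgroup.mem_sup_right hb)) hab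
  have hB' : B ∈ Cfsg.unipotentSubgroups C D :=
    mem_unipotent_of_le hS hBS hC hCD (le_sup_right.trans hle) hb (hle (Subgroup.mem_sup_left ha))
      (Ne.symm hab)
  obtain ⟨x, hx, h1, h2⟩ := H5.RkOne.two_transitive hCD (H5.RkOne.left_mem_unipotent C D)
    (H5.RkOne.right_mem_unipotent hCD) hA' hB' hCD.ne hAB.ne
  have heq : A ⊔ B = C ⊔ D := by
    rw [← h1, ← h2, ← H5.RkOne.conjBy_sup, H5.RkOne.conjBy_of_mem hx]
  refine ⟨heq, ?_, ?_⟩
  · have : C = Cfsg.conjBy A x⁻¹ := by rw [← h1, H5.RkOne.conjBy_inv_conjBy]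
    rw [this]
    exact H5.RkOne.conjBy_mem_unipotent (H5.RkOne.left_mem_unipotent A B) (heq ▸ inv_mem hx)
  · have : D = Cfsg.conjBy B x⁻¹ := by rw [← h2, H5.RkOne.conjBy_inv_conjBy]
    rw [this]
    exact H5.RkOne.conjBy_mem_unipotent (H5.RkOne.right_mem_unipotent hAB) (heq ▸ inv_mem hx)

end Cfsg.Agent.S5024
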