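import Cfsg.Statements.S5025
import Cfsg.Agent.Lib_helper5_RkOne3

set_option autoImplicit false
open Cfsg

namespace Cfsg.Agent.S5025


/-- Let S be a set of abstract root subgroups of G, A ∈ S and B a rank one partner of A in S. If z ≠ 1 centralizes ⟨A, B⟩, then no product z a with a a non-identity element of A is a non-identity element of a member of S. -/
theorem result {G : Type*} [Group G] {S : Set (Subgroup G)} (hS : Cfsg.IsRootSubgroupSet S)
    {A B : Subgroup G} (hA : A ∈ S) (hB : B ∈ Cfsg.rankOnePartners S A) {z : G}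
    (hz : z ∈ Subgroup.centralizer ((A ⊔ B : Subgroup G) : Set G)) (hz1 : z ≠ 1) :
    ∀ a ∈ A, a ≠ 1 → z * a ∉ Cfsg.rootElements S := by
  intro a ha ha1 hza
  obtain ⟨hza1, C, hC, hzaC⟩ := hza
  obtain ⟨hBS, hAB⟩ := hB
  rw [Subgroup.mem_centralizer_iff] at hz
  have hact : ∀ b ∈ B, (z * a) * b * (z * a)⁻¹ = a * b * a⁻¹ := by
    intro b hb
    have h1 : a * b * a⁻¹ ∈ A ⊔ B :=
      mul_mem (mul_mem (Subgroup.mem_sup_left ha) (Subgroup.mem_sup_right hb))
        (inv_mem (Subgroup.mem_sup_left ha))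
    have h2 := hz _ h1
    rw [mul_inv_rev]
    calc z * a * b * (a⁻¹ * z⁻¹) = z * (a * b * a⁻¹) * z⁻¹ := by simp only [mul_assoc]
      _ = a * b * a⁻¹ := by rw [← h2, mul_inv_cancel_right]
  obtain ⟨β, hβ, rfl⟩ := H5.RkOne.root_key hS hAB hBS hC ha ha1 hzaC hact
  by_cases hne : Cfsg.conjBy A β = A
  · rw [hne] at hzaC
    have hzA : z ∈ A := by
      have := mul_mem hzaC (inv_mem ha)
      rwa [mul_inv_cancel_right] at this
    apply hz1
    apply H5.RkOne.eq_one_of_mem_normalizer hAB hzA
    apply Subgroup.centralizer_le_normalizer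
    rw [Subgroup.mem_centralizer_iff]
    intro b hb
    exact hz b (Subgroup.mem_sup_right hb)
  · apply hza1
    apply H5.RkOne.unipotent_eq_one hAB (H5.RkOne.conjBy_right_mem_unipotent hβ)
      (H5.RkOne.left_mem_unipotent A B) hne hzaC
    apply Subgroup.centralizer_le_normalizer
    rw [Subgroup.mem_centralizer_iff]
    intro x hx
    have h1 := hz x (Subgroup.mem_sup_left hx)
    have h2 := H5.RkOne.comm_of_mem (hS.commutative A hA) hx ha
    rw [← mul_assoc, h1, mul_assoc, h2, mul_assoc]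

end Cfsg.Agent.S5025
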