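import Cfsg.Statements.S5026
import Cfsg.Agent.Lib_helper5_RkOne3

set_option autoImplicit false
open Cfsg

namespace Cfsg.Agent.S5026

theorem le_cent_zpowers {G : Type*} [Group G] {C : Subgroup G} {g : G} :
    C ≤ Subgroup.centralizer (Subgroup.zpowers g : Set G) ↔ ∀ c ∈ C, g * c = c * g := by
  constructor
  · intro h c hc
    exact (Subgroup.mem_centralizer_iff.1 (h hc)) g (Subgroup.mem_zpowers g)
  · intro h c hc
    rw [Subgroup.mem_centralizer_iff]
    intro x hx
    obtain ⟨k, rfl⟩ := Subgroup.mem_zpowers_iff.1 hx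
    exact Commute.zpow_left (h c hc) k

/-- Let S be a degenerate set of abstract root subgroups of G (a set of abstract transvection groups) and let a, b be commuting non-identity elements of members of S with a b ≠ 1. Then the members of S centralizing a b are exactly those centralizing both a and b. -/
theorem result {G : Type*} [Group G] {S : Set (Subgroup G)} (hS : Cfsg.IsRootSubgroupSet S) (hdeg : Cfsg.IsDegenerateRootSet S)
    {a b : G} (ha : a ∈ Cfsg.rootElements S) (hb : b ∈ Cfsg.rootElements S) (hab : a * b = b * a) (hab1 : a * b ≠ 1) :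
    Cfsg.centralizingMembers S (Subgroup.zpowers (a * b)) =
      Cfsg.centralizingMembers S (Subgroup.zpowers a) ∩ Cfsg.centralizingMembers S (Subgroup.zpowers b) := by
  ext C
  simp only [Cfsg.centralizingMembers, Set.mem_inter_iff, Set.mem_setOf_eq, le_cent_zpowers]
  constructor
  swap
  · rintro ⟨⟨hC, h1⟩, -, h2⟩
    refine ⟨hC, fun c hc => ?_⟩
    rw [mul_assoc, h2 c hc, ← mul_assoc, h1 c hc, mul_assoc]
  rintro ⟨hC, hcen⟩
  have hmain : ∀ c ∈ C, a * c = c * a := by
    obtain ⟨ha1, A, hA, haA⟩ := ha
    obtain ⟨hb1, B', hB', hbB'⟩ := hb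
    rcases hS.pair A hA C hC with h1 | h1 | h1
    · intro c hc
      have ht : a * c * a⁻¹ * c⁻¹ ∈ ⁅A, C⁆ := Subgroup.commutator_mem_commutator haA hc
      rw [h1, Subgroup.mem_bot] at ht
      have h3 := congrArg (fun t => t * c * a) ht
      simp only [inv_mul_cancel_right, one_mul] at h3
      exact h3
    · exfalso
      have hact : ∀ c ∈ C, b * c * b⁻¹ = a⁻¹ * c * a⁻¹⁻¹ := by
        intro c hc
        have h := hcen c hc
        rw [inv_inv]
        have h2 : b * c = a⁻¹ * c * a * b := by
          have := congrArg (fun t => a⁻¹ * t) h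
          simp only [mul_assoc, inv_mul_cancel_left] at this
          simp only [mul_assoc]
          exact this
        rw [h2, mul_inv_cancel_right]
      obtain ⟨γ, hγ, hBe⟩ := H5.RkOne.root_key hS h1 hC hB' (inv_mem haA)
        (fun e => ha1 (inv_eq_one.1 e)) hbB' hact
      have hBu : B' ∈ Cfsg.unipotentSubgroups A C := hBe ▸ H5.RkOne.conjBy_right_mem_unipotent hγ
      by_cases hne : B' = A
      · apply hab1
        apply H5.RkOne.eq_one_of_mem_normalizer h1 (mul_mem haA (hne ▸ hbB'))
        apply Subgroup.centralizer_le_normalizer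
        rw [Subgroup.mem_centralizer_iff]
        intro c hc
        exact (hcen c hc).symm
      · apply hb1
        apply H5.RkOne.unipotent_eq_one h1 hBu (H5.RkOne.left_mem_unipotent A C) hne hbB'
        rw [← H5.RkOne.conjBy_eq_self_iff]
        by_contra hne2
        apply ha1
        have hbY : b ∈ A ⊔ C := by
          have : B' ≤ A ⊔ C := by
            rw [hBe]
            exact H5.RkOne.conjBy_le_of_mem le_sup_left (Subgroup.mem_sup_right hγ)
          exact this hbB'
        apply H5.RkOne.unipotent_eq_one h1 (H5.RkOne.left_mem_unipotent A C)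
          (H5.RkOne.conjBy_mem_unipotent (H5.RkOne.left_mem_unipotent A C) hbY) (Ne.symm hne2) haA
        rw [H5.RkOne.normalizer_conjBy, H5.RkOne.mem_conjBy]
        have : b⁻¹ * a * b = a := by rw [mul_assoc, hab, inv_mul_cancel_left]
        rw [this]
        exact Subgroup.le_normalizer haA
    · exact absurd h1 (hdeg A hA C hC)
  refine ⟨⟨hC, hmain⟩, hC, fun c hc => ?_⟩
  have h1 := hcen c hc
  have h2 := hmain c hc
  have h3 : a * (b * c) = a * (c * b) := by
    rw [← mul_assoc, h1, ← mul_assoc, ← mul_assoc, h2]
  exact mul_left_cancel h3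

end Cfsg.Agent.S5026
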