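import Cfsg.Statements.S5027
import Cfsg.Agent.Lib_helper5_RkOne3

set_option autoImplicit false
open Cfsg

namespace Cfsg.Agent.S5027


/-- Let S be a set of abstract root subgroups of G such that every member of S has a rank one partner in S (the graph of rank one pairs on S has no isolated vertex). Then the second centre of G equals its centre. -/
theorem result {G : Type*} [Group G] {S : Set (Subgroup G)} (hS : Cfsg.IsRootSubgroupSet S)
    (hF : ∀ A ∈ S, ¬ Cfsg.IsIsolatedIn (Cfsg.FAdj S) S A) : Subgroup.upperCentralSeries G 2 = Subgroup.center G := by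
  apply le_antisymm
  swap
  · rw [← Subgroup.upperCentralSeries_one]
    exact Subgroup.upperCentralSeries_mono G (by norm_num)
  intro z hz
  have hφ : ∀ y : G, z * y * z⁻¹ * y⁻¹ ∈ Subgroup.center G := by
    intro y
    rw [← Subgroup.upperCentralSeries_one]
    exact (Subgroup.mem_upperCentralSeries_succ_iff).1 hz y
  have key : ∀ A ∈ S, A ≤ Subgroup.centralizer {z} := by
    intro A hA a ha
    rw [Subgroup.mem_centralizer_singleton_iff]
    obtain ⟨B, hB, hAB⟩ := H5.RkOne.exists_partner (hF A hA) hA
    by_cases ha1 : a = 1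
    · rw [ha1, one_mul, mul_one]
    have hcC : z * a * z⁻¹ ∈ Cfsg.conjBy A z := H5.RkOne.conj_mem_conjBy z ha
    have hdec : ∀ y : G, z * y * z⁻¹ = (z * y * z⁻¹ * y⁻¹) * y := by
      intro y; rw [inv_mul_cancel_right]
    have hact : ∀ b ∈ B, (z * a * z⁻¹) * b * (z * a * z⁻¹)⁻¹ = a * b * a⁻¹ := by
      intro b _
      rw [hdec a]
      generalize hc : z * a * z⁻¹ * a⁻¹ = c
      have hcc : c ∈ Subgroup.center G := hc ▸ hφ a
      rw [Subgroup.mem_center_iff] at hcc
      rw [mul_inv_rev]
      calc c * a * b * (a⁻¹ * c⁻¹) = c * (a * b * a⁻¹) * c⁻¹ := by simp only [mul_assoc]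
        _ = a * b * a⁻¹ := by rw [← hcc, mul_inv_cancel_right]
    obtain ⟨β, hβ, hCe⟩ := H5.RkOne.root_key hS hAB hB (hS.conj_mem A hA z) ha ha1 hcC hact
    by_cases hne : Cfsg.conjBy A z = A
    · rw [hne] at hcC
      have h1 : z * a * z⁻¹ * a⁻¹ ∈ A := mul_mem hcC (inv_mem ha)
      have h2 : z * a * z⁻¹ * a⁻¹ = 1 := by
        apply H5.RkOne.eq_one_of_mem_normalizer hAB h1
        apply Subgroup.centralizer_le_normalizer
        rw [Subgroup.mem_centralizer_iff]
        intro b _
        exact Subgroup.mem_center_iff.1 (hφ a) b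
      have h3 := congrArg (fun t => t * a * z) h2
      simp only [inv_mul_cancel_right, one_mul] at h3
      exact h3.symm
    · exfalso
      apply ha1
      apply H5.RkOne.unipotent_eq_one hAB (H5.RkOne.left_mem_unipotent A B)
        (hCe ▸ H5.RkOne.conjBy_right_mem_unipotent hβ) (Ne.symm hne) ha
      apply Subgroup.centralizer_le_normalizer
      rw [Subgroup.mem_centralizer_iff]
      rintro _ ⟨x, hx, rfl⟩
      change z * x * z⁻¹ * a = a * (z * x * z⁻¹)
      rw [hdec x]
      have h1 := Subgroup.mem_center_iff.1 (hφ x) a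
      have h2 := H5.RkOne.comm_of_mem (hS.commutative A hA) hx ha
      rw [mul_assoc, h2, ← mul_assoc, ← h1, mul_assoc]
  rw [Subgroup.mem_center_iff]
  intro g
  have hg : g ∈ Subgroup.centralizer {z} := by
    have : (⨆ A ∈ S, A) ≤ Subgroup.centralizer {z} := iSup₂_le key
    exact this (hS.generates ▸ Subgroup.mem_top g)
  exact Subgroup.mem_centralizer_singleton_iff.1 hg

end Cfsg.Agent.S5027
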