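import Cfsg.Statements.S5028
import Cfsg.Agent.Lib_helper5_RkOne3

set_option autoImplicit false
open Cfsg

namespace Cfsg.Agent.S5028


/-- Let S be a set of abstract root subgroups of G and A a member of S having a rank one partner in S. Then A meets every other member of S trivially. -/
theorem result {G : Type*} [Group G] {S : Set (Subgroup G)} (hS : Cfsg.IsRootSubgroupSet S)
    {A : Subgroup G} (hA : ¬ Cfsg.IsIsolatedIn (Cfsg.FAdj S) S A) (hAS : A ∈ S) : ∀ B ∈ S, A ⊓ B = ⊥ ∨ A = B := by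
  intro C hC
  obtain ⟨B, hB, hAB⟩ := H5.RkOne.exists_partner hA hAS
  rcases (A ⊓ C).bot_or_exists_ne_one with hbot | ⟨a, ha, ha1⟩
  · left; exact hbot
  · right
    obtain ⟨β, hβ, rfl⟩ := H5.RkOne.root_key hS hAB hB hC ha.1 ha1 ha.2 (fun _ _ => rfl)
    by_contra hne
    apply ha1
    exact H5.RkOne.unipotent_eq_one hAB (H5.RkOne.left_mem_unipotent A B)
      (H5.RkOne.conjBy_right_mem_unipotent hβ) hne ha.1 (Subgroup.le_normalizer ha.2)

end Cfsg.Agent.S5028
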