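import Cfsg.Statements.S5031
import Cfsg.Agent.Lib_helper5_RkOne4

set_option autoImplicit false
open Cfsg

namespace Cfsg.Agent.S5031


/-- Let S be a set of abstract root subgroups of G and let A, B ∈ S lie in different connected components of the graph of rank one pairs on S, each component having more than one member. Then B is not a line partner of A. -/
theorem result {G : Type*} [Group G] {S : Set (Subgroup G)} (hS : Cfsg.IsRootSubgroupSet S)
    {A B : Subgroup G} (hA : A ∈ S) (hB : B ∈ S)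
    (hne : Cfsg.componentOf (Cfsg.FAdj S) S A ≠ Cfsg.componentOf (Cfsg.FAdj S) S B)
    (hA2 : ∃ A' ∈ Cfsg.componentOf (Cfsg.FAdj S) S A, A' ≠ A) (hB2 : ∃ B' ∈ Cfsg.componentOf (Cfsg.FAdj S) S B, B' ≠ B) :
    B ∉ Cfsg.linePartners S A := by
  intro hl
  obtain ⟨⟨-, hBA, hcomm⟩, -, hcover, -⟩ := hl
  apply hne
  apply H5.RkOne.component_eq
  have hAp := H5.RkOne.exists_partner_of_component hA2
  have hBp := H5.RkOne.exists_partner_of_component hB2
  have hAB : ∀ x ∈ A, ∀ y ∈ B, x * y = y * x := fun x hx y hy =>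
    H5.RkOne.comm_of_commutator_eq_bot hcomm hx hy
  obtain ⟨a, ha, ha1⟩ := H5.RkOne.exists_ne_one_of_mem hS hA
  obtain ⟨b, hb, hb1⟩ := H5.RkOne.exists_ne_one_of_mem hS hB
  have hab1 : a * b ≠ 1 := by
    intro e
    obtain ⟨D, hD, hAD⟩ := hAp
    rcases H5.RkOne.inf_eq_bot_or_eq hS hD hAD B hB with h | h
    · have hbA : b ∈ A := by
        rw [← inv_eq_of_mul_eq_one_right e]
        exact inv_mem ha
      have : b ∈ A ⊓ B := Subgroup.mem_inf.2 ⟨hbA, hb⟩
      rw [h, Subgroup.mem_bot] at this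
      exact hb1 this
    · exact hBA h.symm
  obtain ⟨T, ⟨hT, -⟩, habT⟩ :=
    hcover (a * b) (mul_mem (Subgroup.mem_sup_left ha) (Subgroup.mem_sup_right hb)) hab1
  exact H5.RkOne.connected_of_mul_mem hS hA hB hT hAp hBp hAB ha ha1 hb hb1 habT

end Cfsg.Agent.S5031
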