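import Cfsg.Statements.S5032
import Cfsg.Agent.Lib_helper5_RkOne4

set_option autoImplicit false
open Cfsg

namespace Cfsg.Agent.S5032

open H5.RkOne Relation in
theorem conj_of_rtg {G : Type*} [Group G] {S : Set (Subgroup G)} {A B : Subgroup G}
    (h : ReflTransGen (Cfsg.FAdj S) A B) : ∃ g : G, B = Cfsg.conjBy A g := by
  induction h with
  | refl => exact ⟨1, (conjBy_one A).symm⟩
  | tail _ hbc ih =>
    obtain ⟨g, rfl⟩ := ih
    obtain ⟨x, -, hx⟩ := right_mem_unipotent hbc.2.2
    exact ⟨x * g, by rw [hx, conjBy_conjBy]⟩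

open H5.RkOne Relation in
/-- the elements moving `A` inside its component. -/
def compStab {G : Type*} [Group G] {S : Set (Subgroup G)} (hS : Cfsg.IsRootSubgroupSet S)
    (A : Subgroup G) : Subgroup G where
  carrier := {g | ReflTransGen (Cfsg.FAdj S) A (Cfsg.conjBy A g)}
  one_mem' := by
    change ReflTransGen (Cfsg.FAdj S) A (Cfsg.conjBy A 1)
    rw [conjBy_one]
  mul_mem' := by
    intro g h hg hh
    change ReflTransGen (Cfsg.FAdj S) A (Cfsg.conjBy A (g * h))
    have := rtg_conj hS hh g
    rw [conjBy_conjBy] at this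
    exact Relation.ReflTransGen.trans hg this
  inv_mem' := by
    intro g hg
    change ReflTransGen (Cfsg.FAdj S) A (Cfsg.conjBy A g⁻¹)
    have := rtg_conj hS hg g⁻¹
    rw [conjBy_inv_conjBy] at this
    exact rtg_symm this

/-- Let S be a set of abstract root subgroups of G with more than one member. Then the graph of rank one pairs on S is connected if and only if S is a single conjugacy class of G and some member of S has a rank one partner in S. -/
theorem result {G : Type*} [Group G] {S : Set (Subgroup G)} (hS : Cfsg.IsRootSubgroupSet S) (h2 : ∃ A ∈ S, ∃ B ∈ S, A ≠ B) :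
    Cfsg.IsConnectedFamily (Cfsg.FAdj S) S ↔
      (Cfsg.IsConjClassOfSubgroups S ∧ ∃ A ∈ S, ¬ Cfsg.IsIsolatedIn (Cfsg.FAdj S) S A) := by
  constructor
  · intro hc
    obtain ⟨A, hA, B, hB, hAB⟩ := h2
    refine ⟨⟨⟨A, hA⟩, fun A hA B hB => conj_of_rtg (hc A hA B hB)⟩, A, hA, ?_⟩
    rintro ⟨-, hiso⟩
    rcases (hc A hA B hB).cases_head with h | ⟨D, hD, -⟩
    · exact hAB h
    · exact (hiso D).1 hD
  · rintro ⟨⟨-, hconj⟩, A₀, hA₀, hiso⟩
    obtain ⟨D₀, hD₀, hAD₀⟩ := H5.RkOne.exists_partner hiso hA₀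
    have hall : ∀ C ∈ S, ∃ D ∈ S, Cfsg.IsRankOnePair C D := by
      intro C hC
      obtain ⟨g, rfl⟩ := hconj A₀ hA₀ C hC
      exact ⟨_, hS.conj_mem D₀ hD₀ g, H5.RkOne.rankOne_conj hAD₀ g⟩
    intro A hA B hB
    have hK : compStab hS A = ⊤ := by
      rw [eq_top_iff, ← hS.generates]
      apply iSup₂_le
      intro C hC c hc
      change Relation.ReflTransGen (Cfsg.FAdj S) A (Cfsg.conjBy A c)
      have hconn : Relation.ReflTransGen (Cfsg.FAdj S) A C →
          Relation.ReflTransGen (Cfsg.FAdj S) A (Cfsg.conjBy A c) := by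
        intro h
        have h1 := H5.RkOne.rtg_conj hS h c
        rw [H5.RkOne.conjBy_of_mem hc] at h1
        exact h.trans (H5.RkOne.rtg_symm h1)
      rcases hS.pair A hA C hC with h1 | h1 | h1
      · have : Cfsg.conjBy A c = A := by
          rw [H5.RkOne.conjBy_eq_self_iff]
          apply Subgroup.centralizer_le_normalizer
          rw [Subgroup.mem_centralizer_iff]
          intro x hx
          exact H5.RkOne.comm_of_commutator_eq_bot h1 hx hc
        rw [this]
      · exact hconn (.single ⟨hA, hC, h1⟩)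
      · exact hconn (H5.RkOne.connected_of_commutatorCase hS hA hC hall h1)
    obtain ⟨g, rfl⟩ := hconj A hA B hB
    have : g ∈ compStab hS A := hK ▸ Subgroup.mem_top g
    exact this

end Cfsg.Agent.S5032
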