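import Cfsg.Statements.S5035
import Cfsg.Agent.Lib_helper5_RkOne5
import Cfsg.Agent.S5032

set_option autoImplicit false
open Cfsg

namespace Cfsg.Agent.S5035

open H5.RkOne

variable {G H : Type*} [Group G] [Group H]

theorem map_conjBy (f : G →* H) (A : Subgroup G) (g : G) :
    (Cfsg.conjBy A g).map f = Cfsg.conjBy (A.map f) (f g) := by
  ext x
  constructor
  · rintro ⟨_, ⟨a, ha, rfl⟩, rfl⟩
    exact ⟨f a, ⟨a, ha, rfl⟩, by simp⟩
  · rintro ⟨_, ⟨a, ha, rfl⟩, rfl⟩
    exact ⟨_, ⟨a, ha, rfl⟩, by simp⟩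

theorem cond_map (f : G →* H) {A B : Subgroup G} (h : Cfsg.RankOneCondition A B)
    (hne : A.map f ≠ B.map f) : Cfsg.RankOneCondition (A.map f) (B.map f) := by
  rintro _ ⟨a, ha, rfl⟩ hx1
  have ha1 : a ≠ 1 := by
    rintro rfl
    exact hx1 (map_one f)
  obtain ⟨b, hb, -, e⟩ := h a ha ha1
  have e2 : Cfsg.conjBy (A.map f) (f b)⁻¹ = Cfsg.conjBy (B.map f) (f a)⁻¹ := by
    rw [← map_inv, ← map_inv, ← map_conjBy, ← map_conjBy, e]
  refine ⟨f b, ⟨b, hb, rfl⟩, ?_, e2⟩
  intro hb1
  apply hne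
  rw [hb1, inv_one, conjBy_one, eq_conjBy_iff, inv_inv] at e2
  rw [← e2]
  exact (conjBy_of_mem (Subgroup.mem_map_of_mem f ha)).symm

theorem nilpotent_map (f : G →* H) {A : Subgroup G} (h : Group.IsNilpotent A) :
    Group.IsNilpotent (A.map f) :=
  Group.nilpotent_of_surjective (f.subgroupMap A) (f.subgroupMap_surjective A)

theorem rankOne_map (f : G →* H) {A B : Subgroup G} (h : Cfsg.IsRankOnePair A B)
    (hne : A.map f ≠ B.map f) : Cfsg.IsRankOnePair (A.map f) (B.map f) :=
  ⟨hne, nilpotent_map f h.nilpotent_left, nilpotent_map f h.nilpotent_right,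
    cond_map f h.cond_left hne, cond_map f h.cond_right hne.symm⟩

theorem commutative_map (f : G →* H) {A : Subgroup G} (h : IsMulCommutative A) :
    IsMulCommutative (A.map f) := by
  refine ⟨⟨?_⟩⟩
  rintro ⟨_, ⟨a, ha, rfl⟩⟩ ⟨_, ⟨b, hb, rfl⟩⟩
  apply Subtype.ext
  change f a * f b = f b * f a
  rw [← map_mul, ← map_mul, comm_of_mem h ha hb]

theorem closure_map (f : G →* H) (B : Subgroup G) (a : G) :
    Subgroup.closure ((fun y : H => f a * y * (f a)⁻¹ * y⁻¹) '' ((B.map f : Subgroup H) : Set H)) =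
      (Subgroup.closure ((fun b : G => a * b * a⁻¹ * b⁻¹) '' (B : Set G))).map f := by
  rw [MonoidHom.map_closure]
  congr 1
  ext x
  constructor
  · rintro ⟨_, ⟨b, hb, rfl⟩, rfl⟩
    exact ⟨_, ⟨b, hb, rfl⟩, by simp⟩
  · rintro ⟨_, ⟨b, hb, rfl⟩, rfl⟩
    exact ⟨f b, ⟨b, hb, rfl⟩, by simp⟩

theorem closure_map' (f : G →* H) (A : Subgroup G) (b : G) :
    Subgroup.closure ((fun y : H => y * f b * y⁻¹ * (f b)⁻¹) '' ((A.map f : Subgroup H) : Set H)) =
      (Subgroup.closure ((fun a : G => a * b * a⁻¹ * b⁻¹) '' (A : Set G))).map f := by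
  rw [MonoidHom.map_closure]
  congr 1
  ext x
  constructor
  · rintro ⟨_, ⟨a, ha, rfl⟩, rfl⟩
    exact ⟨_, ⟨a, ha, rfl⟩, by simp⟩
  · rintro ⟨_, ⟨a, ha, rfl⟩, rfl⟩
    exact ⟨f a, ⟨a, ha, rfl⟩, by simp⟩

theorem commutatorCase_map (f : G →* H) {S : Set (Subgroup G)} {A B : Subgroup G}
    (h : Cfsg.RootCommutatorCase S A B) :
    Cfsg.RootCommutatorCase ((fun A : Subgroup G => A.map f) '' S) (A.map f) (B.map f) := by
  have hmap : ⁅A.map f, B.map f⁆ = (⁅A, B⁆ : Subgroup G).map f := (Subgroup.map_commutator A B f).symm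
  refine ⟨⟨_, h.1, hmap.symm⟩, ?_, ?_, ?_⟩
  · rw [hmap, ← Subgroup.map_sup]
    rintro _ ⟨c, hc, rfl⟩ _ ⟨x, hx, rfl⟩
    rw [← map_mul, ← map_mul, h.2.1 c hc x hx]
  · rintro _ ⟨a, ha, rfl⟩ hx1
    have ha1 : a ≠ 1 := by
      rintro rfl
      exact hx1 (map_one f)
    rw [closure_map, h.2.2.1 a ha ha1, hmap]
  · rintro _ ⟨b, hb, rfl⟩ hx1
    have hb1 : b ≠ 1 := by
      rintro rfl
      exact hx1 (map_one f)
    rw [closure_map', h.2.2.2 b hb hb1, hmap]

theorem rtg_map (f : G →* H) {S : Set (Subgroup G)} {A B : Subgroup G}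
    (h : Relation.ReflTransGen (Cfsg.FAdj S) A B) :
    Relation.ReflTransGen (Cfsg.FAdj ((fun A : Subgroup G => A.map f) '' S)) (A.map f) (B.map f) := by
  induction h with
  | refl => exact .refl
  | @tail B' C' _ hbc ih =>
    by_cases hne : B'.map f = C'.map f
    · rw [← hne]; exact ih
    · exact .tail ih ⟨⟨_, hbc.1, rfl⟩, ⟨_, hbc.2.1, rfl⟩, rankOne_map f hbc.2.2 hne⟩

/-- Let S be a set of abstract root subgroups of G whose graph of rank one pairs is connected, and f a homomorphism from G onto a group H. Then either the images of the members of S form a set of abstract root subgroups of H whose graph of rank one pairs is again connected, or H equals the image of a member of S. -/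
theorem result {G H : Type*} [Group G] [Group H] {S : Set (Subgroup G)} (hS : Cfsg.IsRootSubgroupSet S)
    (hc : Cfsg.IsConnectedFamily (Cfsg.FAdj S) S) (f : G →* H) (hf : Function.Surjective f) :
    (Cfsg.IsRootSubgroupSet ((fun A : Subgroup G => A.map f) '' S) ∧
      Cfsg.IsConnectedFamily (Cfsg.FAdj ((fun A : Subgroup G => A.map f) '' S)) ((fun A : Subgroup G => A.map f) '' S)) ∨
    ∃ A ∈ S, A.map f = ⊤ := by
  by_cases hbot : ∃ A ∈ S, A.map f = ⊥
  · right
    obtain ⟨A, hA, hAb⟩ := hbot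
    refine ⟨A, hA, ?_⟩
    have hker : ∀ B ∈ S, B ≤ f.ker := by
      intro B hB
      obtain ⟨g, rfl⟩ := S5032.conj_of_rtg (hc A hA B hB)
      have : (Cfsg.conjBy A g).map f = ⊥ := by
        rw [map_conjBy, hAb]
        exact Subgroup.map_bot _
      exact (Subgroup.map_eq_bot_iff _).1 this
    have htop : (⊤ : Subgroup G) ≤ f.ker := by
      rw [← hS.generates]
      exact iSup₂_le hker
    rw [eq_top_iff]
    intro h _
    obtain ⟨g, rfl⟩ := hf h
    rw [MonoidHom.mem_ker.1 (htop (Subgroup.mem_top g))]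
    exact one_mem _
  · left
    have hroot : Cfsg.IsRootSubgroupSet ((fun A : Subgroup G => A.map f) '' S) := by
      refine ⟨?_, ?_, ?_, ?_, ?_⟩
      · rintro _ ⟨A, hA, rfl⟩
        exact commutative_map f (hS.commutative A hA)
      · rintro _ ⟨A, hA, rfl⟩ hb
        exact hbot ⟨A, hA, hb⟩
      · rw [eq_top_iff, ← Subgroup.map_top_of_surjective f hf, ← hS.generates,
          Subgroup.map_le_iff_le_comap]
        apply iSup₂_le
        intro A hA
        rw [← Subgroup.map_le_iff_le_comap]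
        exact le_iSup₂_of_le (A.map f) ⟨A, hA, rfl⟩ le_rfl
      · rintro _ ⟨A, hA, rfl⟩ h
        obtain ⟨g, rfl⟩ := hf h
        exact ⟨_, hS.conj_mem A hA g, map_conjBy f A g⟩
      · rintro _ ⟨A, hA, rfl⟩ _ ⟨B, hB, rfl⟩
        rcases hS.pair A hA B hB with h | h | h
        · left
          change ⁅A.map f, B.map f⁆ = ⊥
          rw [← Subgroup.map_commutator, h, Subgroup.map_bot]
        · by_cases hne : A.map f = B.map f
          · left
            change ⁅A.map f, B.map f⁆ = ⊥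
            rw [Subgroup.commutator_eq_bot_iff_le_centralizer]
            intro x hx
            rw [Subgroup.mem_centralizer_iff]
            intro y hy
            exact comm_of_mem (commutative_map f (hS.commutative B hB)) hy (hne ▸ hx)
          · right; left
            exact rankOne_map f h hne
        · right; right
          exact commutatorCase_map f h
    refine ⟨hroot, ?_⟩
    rintro _ ⟨A, hA, rfl⟩ _ ⟨B, hB, rfl⟩
    exact rtg_map f (hc A hA B hB)

end Cfsg.Agent.S5035
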