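import Cfsg.Statements.S5036
import Cfsg.Agent.Lib_helper5_RkOne6
import Cfsg.Agent.S5024

set_option autoImplicit false
open Cfsg

namespace Cfsg.Agent.S5036

open H5.RkOne

variable {G : Type*} [Group G]

/-- the abstract configuration: `N = A C` is a "natural module" for `⟨B, D⟩`. -/
structure Cfg (A C B D : Subgroup G) : Prop where
  A_ne : A ≠ ⊥
  C_ne : C ≠ ⊥
  commAC : ∀ x ∈ A, ∀ y ∈ C, x * y = y * x
  commBC : ∀ x ∈ B, ∀ y ∈ C, x * y = y * x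
  commDA : ∀ x ∈ D, ∀ y ∈ A, x * y = y * x
  memC : ∀ a ∈ A, ∀ b ∈ B, b * a * b⁻¹ * a⁻¹ ∈ C
  memA : ∀ c ∈ C, ∀ d ∈ D, d * c * d⁻¹ * c⁻¹ ∈ A
  surjB : ∀ b ∈ B, b ≠ 1 → ∀ c ∈ C, ∃ a ∈ A, b * a * b⁻¹ * a⁻¹ = c
  surjA : ∀ a ∈ A, a ≠ 1 → ∀ c ∈ C, ∃ b ∈ B, b * a * b⁻¹ * a⁻¹ = c
  surjD : ∀ d ∈ D, d ≠ 1 → ∀ a ∈ A, ∃ c ∈ C, d * c * d⁻¹ * c⁻¹ = a
  surjC : ∀ c ∈ C, c ≠ 1 → ∀ a ∈ A, ∃ d ∈ D, d * c * d⁻¹ * c⁻¹ = a

variable {A C B D : Subgroup G}

theorem Cfg.symm (h : Cfg A C B D) : Cfg C A D B :=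
  ⟨h.C_ne, h.A_ne, fun x hx y hy => (h.commAC y hy x hx).symm, h.commDA, h.commBC, h.memA, h.memC,
    h.surjD, h.surjC, h.surjB, h.surjA⟩

theorem Cfg.inf_eq_bot (h : Cfg A C B D) : A ⊓ C = ⊥ := by
  rw [Subgroup.eq_bot_iff_forall]
  rintro x ⟨hxA, hxC⟩
  by_contra hx1
  apply h.A_ne
  rw [Subgroup.eq_bot_iff_forall]
  intro a ha
  obtain ⟨d, hd, rfl⟩ := h.surjC x hxC hx1 a ha
  rw [h.commDA d hd x hxA]
  group

theorem Cfg.mem_sup (h : Cfg A C B D) {x : G} (hx : x ∈ A ⊔ C) : ∃ a ∈ A, ∃ c ∈ C, x = a * c := by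
  apply H3.mem_sup_of_le_normalizer _ hx
  intro c hc
  apply Subgroup.centralizer_le_normalizer
  rw [Subgroup.mem_centralizer_iff]
  intro a ha
  exact h.commAC a ha c hc

theorem Cfg.fixD (h : Cfg A C B D) : (A ⊔ C) ⊓ Subgroup.centralizer (D : Set G) = A := by
  apply le_antisymm
  · rintro x ⟨hxN, hxD⟩
    obtain ⟨a, ha, c, hc, rfl⟩ := h.mem_sup hxN
    have hc1 : c = 1 := by
      by_contra hc1
      apply h.A_ne
      rw [Subgroup.eq_bot_iff_forall]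
      intro a' ha'
      obtain ⟨d, hd, rfl⟩ := h.surjC c hc hc1 a' ha'
      have h1 : d * (a * c) = a * c * d := (Subgroup.mem_centralizer_iff.1 hxD) d hd
      have h2 : d * c = c * d := by
        have h3 : a * (d * c) = a * (c * d) := by
          rw [← mul_assoc, ← h.commDA d hd a ha, mul_assoc, h1, mul_assoc]
        exact mul_left_cancel h3
      rw [h2]
      group
    rw [hc1, mul_one]
    exact ha
  · intro a ha
    refine Subgroup.mem_inf.2 ⟨Subgroup.mem_sup_left ha, ?_⟩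
    rw [Subgroup.mem_centralizer_iff]
    intro d hd
    exact h.commDA d hd a ha

theorem Cfg.fixB (h : Cfg A C B D) : (A ⊔ C) ⊓ Subgroup.centralizer (B : Set G) = C := by
  rw [sup_comm]
  exact h.symm.fixD

theorem Cfg.conj_B (h : Cfg A C B D) : ∀ b ∈ B, Cfsg.conjBy (A ⊔ C) b ≤ A ⊔ C := by
  intro b hb
  rw [conjBy_sup]
  apply sup_le
  · rintro _ ⟨a, ha, rfl⟩
    have := mul_mem (Subgroup.mem_sup_right (h.memC a ha b hb) : _ ∈ A ⊔ C) (Subgroup.mem_sup_left ha)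
    rw [inv_mul_cancel_right] at this
    exact this
  · rintro _ ⟨c, hc, rfl⟩
    change b * c * b⁻¹ ∈ A ⊔ C
    rw [h.commBC b hb c hc, mul_inv_cancel_right]
    exact Subgroup.mem_sup_right hc

theorem Cfg.le_normalizer (h : Cfg A C B D) :
    B ⊔ D ≤ Subgroup.normalizer ((A ⊔ C : Subgroup G) : Set G) := by
  apply sup_le
  · exact H7.le_normalizer_of_forall_map_conj_le h.conj_B
  · apply H7.le_normalizer_of_forall_map_conj_le
    have := h.symm.conj_B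
    rwa [sup_comm] at this

/-- fixed points in `N`. -/
def fixN (N U : Subgroup G) : Subgroup G := N ⊓ Subgroup.centralizer (U : Set G)

theorem conjBy_fixN {N : Subgroup G} (U : Subgroup G) {x : G}
    (hx : x ∈ Subgroup.normalizer (N : Set G)) :
    Cfsg.conjBy (fixN N U) x = fixN N (Cfsg.conjBy U x) := by
  unfold fixN
  rw [H7.centralizer_map_conj]
  conv_rhs => rw [← conjBy_eq_self_iff.2 hx]
  exact Subgroup.map_inf _ _ _ (MulAut.conj x).injective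

/-- if `(B, D)` is not a rank one pair we get a contradiction. -/
theorem Cfg.false_of_commute (h : Cfg A C B D) (hB : B ≠ ⊥) (hD : D ≠ ⊥)
    (hcen : ∀ b ∈ B, ∀ d ∈ D, ∀ d' ∈ D, Commute d' (b * d * b⁻¹)) : False := by
  obtain ⟨b, hb, hb1⟩ := B.bot_or_exists_ne_one.resolve_left hB
  obtain ⟨d, hd, hd1⟩ := D.bot_or_exists_ne_one.resolve_left hD
  have claim : ∀ a₂ ∈ A, b * a₂ * b⁻¹ * a₂⁻¹ = 1 := by
    intro a₂ ha₂
    obtain ⟨c₁, hc₁, e1⟩ := h.surjD d hd hd1 a₂ ha₂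
    obtain ⟨a, ha, e2⟩ := h.surjB b hb hb1 c₁ hc₁
    -- `y = d'' a d''⁻¹` with `d'' = b⁻¹ d b` lies in `A`
    have hy : (b⁻¹ * d * b⁻¹⁻¹) * a * (b⁻¹ * d * b⁻¹⁻¹)⁻¹ ∈ A := by
      rw [← h.fixD]
      refine Subgroup.mem_inf.2 ⟨?_, ?_⟩
      · have hdd : b⁻¹ * d * b⁻¹⁻¹ ∈ B ⊔ D :=
          mul_mem (mul_mem (inv_mem (Subgroup.mem_sup_left hb)) (Subgroup.mem_sup_right hd))
            (inv_mem (inv_mem (Subgroup.mem_sup_left hb)))
        exact (Subgroup.mem_normalizer_iff.1 (h.le_normalizer hdd) a).1 (Subgroup.mem_sup_left ha)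
      · rw [Subgroup.mem_centralizer_iff]
        intro d' hd'
        have c1 := hcen b⁻¹ (inv_mem hb) d hd d' hd'
        have c2 : Commute d' a := h.commDA d' hd' a ha
        exact (c1.mul_right c2).mul_right c1.inv_right
    -- hence `d x d⁻¹ ∈ b A b⁻¹` where `x = b a b⁻¹`
    have hx : b * a * b⁻¹ = c₁ * a := by rw [← e2, inv_mul_cancel_right]
    have h1 : d * (b * a * b⁻¹) * d⁻¹ ∈ Cfsg.conjBy A b := by
      rw [mem_conjBy]
      have e : b⁻¹ * (d * (b * a * b⁻¹) * d⁻¹) * b =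
          (b⁻¹ * d * b⁻¹⁻¹) * a * (b⁻¹ * d * b⁻¹⁻¹)⁻¹ := by group
      rw [e]
      exact hy
    have h2 : d * (b * a * b⁻¹) * d⁻¹ * (b * a * b⁻¹)⁻¹ ∈ Cfsg.conjBy A b :=
      mul_mem h1 (inv_mem (conj_mem_conjBy b ha))
    have h3 : d * (b * a * b⁻¹) * d⁻¹ * (b * a * b⁻¹)⁻¹ = a₂ := by
      rw [hx, ← e1]
      have hda := h.commDA d hd a ha
      calc d * (c₁ * a) * d⁻¹ * (c₁ * a)⁻¹ = d * c₁ * (a * d⁻¹) * a⁻¹ * c₁⁻¹ := by group
        _ = d * c₁ * (d⁻¹ * a) * a⁻¹ * c₁⁻¹ := by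
            have : a * d⁻¹ = d⁻¹ * a := by
              rw [eq_inv_mul_iff_mul_eq, ← mul_assoc, hda, mul_inv_cancel_right]
            rw [this]
        _ = d * c₁ * d⁻¹ * c₁⁻¹ := by group
    rw [h3] at h2
    obtain ⟨a', ha', e3⟩ := h2
    change b * a' * b⁻¹ = a₂ at e3
    have h4 : b * a' * b⁻¹ * a'⁻¹ ∈ A ⊓ C :=
      Subgroup.mem_inf.2 ⟨by rw [e3]; exact mul_mem ha₂ (inv_mem ha'), h.memC a' ha' b hb⟩
    rw [h.inf_eq_bot, Subgroup.mem_bot] at h4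
    have h5 : a₂ = a' := by
      rw [e3] at h4
      exact mul_inv_eq_one.1 h4
    rw [h5]
    exact h4
  apply h.C_ne
  rw [Subgroup.eq_bot_iff_forall]
  intro c hc
  obtain ⟨a, ha, rfl⟩ := h.surjB b hb hb1 c hc
  exact claim a ha

section
variable (h : Cfg A C B D) (hBD : Cfsg.IsRankOnePair B D)
include h hBD

theorem Cfg.conj_A {x : G} (hx : x ∈ B ⊔ D) :
    Cfsg.conjBy A x = fixN (A ⊔ C) (Cfsg.conjBy D x) := by
  rw [← conjBy_fixN D (h.le_normalizer hx)]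
  unfold fixN
  rw [h.fixD]

theorem Cfg.conj_C {x : G} (hx : x ∈ B ⊔ D) :
    Cfsg.conjBy C x = fixN (A ⊔ C) (Cfsg.conjBy B x) := by
  rw [← conjBy_fixN B (h.le_normalizer hx)]
  unfold fixN
  rw [h.fixB]

theorem Cfg.fixN_D : fixN (A ⊔ C) D = A := h.fixD
theorem Cfg.fixN_B : fixN (A ⊔ C) B = C := h.fixB

theorem Cfg.exists_conj : ∃ x₀ ∈ B ⊔ D, C = Cfsg.conjBy A x₀ := by
  obtain ⟨y, hy, e⟩ := right_mem_unipotent hBD
  refine ⟨y⁻¹, inv_mem hy, ?_⟩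
  rw [h.conj_A hBD (inv_mem hy), e, conjBy_inv_conjBy, h.fixN_B hBD]

theorem Cfg.orbit_eq :
    {E | ∃ x ∈ B ⊔ D, E = Cfsg.conjBy A x} = (fun b : G => Cfsg.conjBy A b) '' (B : Set G) ∪ {C} := by
  ext E
  constructor
  · rintro ⟨x, hx, rfl⟩
    rw [h.conj_A hBD hx]
    rcases (unipotent_iff hBD).1 (conjBy_mem_unipotent (right_mem_unipotent hBD) hx) with e | ⟨b, hb, e⟩
    · right
      rw [e, h.fixN_B hBD]
      rfl
    · left
      refine ⟨b, hb, ?_⟩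
      rw [e]
      exact h.conj_A hBD (Subgroup.mem_sup_left hb)
  · rintro (⟨b, hb, rfl⟩ | rfl)
    · exact ⟨b, Subgroup.mem_sup_left hb, rfl⟩
    · exact h.exists_conj hBD

theorem Cfg.orbit_eq_orbit :
    {E | ∃ x ∈ B ⊔ D, E = Cfsg.conjBy A x} = {E | ∃ x ∈ B ⊔ D, E = Cfsg.conjBy C x} := by
  obtain ⟨x₀, hx₀, e⟩ := h.exists_conj hBD
  ext E
  constructor
  · rintro ⟨x, hx, rfl⟩
    refine ⟨x * x₀⁻¹, mul_mem hx (inv_mem hx₀), ?_⟩
    rw [e, conjBy_conjBy, inv_mul_cancel_right]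
  · rintro ⟨x, hx, rfl⟩
    refine ⟨x * x₀, mul_mem hx hx₀, ?_⟩
    rw [e, conjBy_conjBy]

theorem Cfg.fix_disjoint {U₁ U₂ : Subgroup G} (h₁ : U₁ ∈ Cfsg.unipotentSubgroups B D)
    (h₂ : U₂ ∈ Cfsg.unipotentSubgroups B D) (hne : U₁ ≠ U₂) :
    fixN (A ⊔ C) U₁ ⊓ fixN (A ⊔ C) U₂ = ⊥ := by
  obtain ⟨y, hy, e1, e2⟩ := two_transitive hBD (left_mem_unipotent B D) (right_mem_unipotent hBD)
    h₁ h₂ hBD.ne hne
  rw [← e1, ← e2, ← h.conj_A hBD hy, ← h.conj_C hBD hy, Subgroup.eq_bot_iff_forall]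
  intro z hz
  obtain ⟨hz1, hz2⟩ := Subgroup.mem_inf.1 hz
  rw [mem_conjBy] at hz1 hz2
  have : y⁻¹ * z * y ∈ A ⊓ C := Subgroup.mem_inf.2 ⟨hz2, hz1⟩
  rw [h.inf_eq_bot, Subgroup.mem_bot] at this
  exact eq_one_of_conj_eq_one this

theorem Cfg.fix_ne_bot {U : Subgroup G} (hU : U ∈ Cfsg.unipotentSubgroups B D) :
    fixN (A ⊔ C) U ≠ ⊥ := by
  obtain ⟨y, hy, rfl⟩ := hU
  rw [← h.conj_C hBD hy]
  intro e
  apply h.C_ne
  apply conjBy_injective y
  rw [e]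
  exact (Subgroup.map_bot _).symm

theorem Cfg.partition :
    Cfsg.IsSubgroupPartition (A ⊔ C) {E | ∃ x ∈ B ⊔ D, E = Cfsg.conjBy A x} := by
  refine ⟨?_, ?_, ?_⟩
  · rintro _ ⟨x, hx, rfl⟩
    rw [h.conj_A hBD hx]
    exact inf_le_left
  · intro y hy hy1
    obtain ⟨a, ha, c, hc, rfl⟩ := h.mem_sup hy
    by_cases ha1 : a = 1
    · refine ⟨C, h.exists_conj hBD, ?_⟩
      rw [ha1, one_mul]
      exact hc
    · obtain ⟨b, hb, e⟩ := h.surjA a ha ha1 c hc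
      refine ⟨Cfsg.conjBy A b, ⟨b, Subgroup.mem_sup_left hb, rfl⟩, ?_⟩
      rw [h.commAC a ha c hc, ← e, inv_mul_cancel_right]
      exact conj_mem_conjBy b ha
  · rintro _ ⟨x₁, hx₁, rfl⟩ _ ⟨x₂, hx₂, rfl⟩ hne
    rw [h.conj_A hBD hx₁, h.conj_A hBD hx₂] at hne ⊢
    apply h.fix_disjoint hBD (conjBy_mem_unipotent (right_mem_unipotent hBD) hx₁)
      (conjBy_mem_unipotent (right_mem_unipotent hBD) hx₂)
    intro e
    exact hne (by rw [e])

theorem Cfg.central :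
    ∀ x ∈ (B ⊔ D) ⊓ Subgroup.centralizer ((A ⊔ C : Subgroup G) : Set G), ∀ y ∈ B ⊔ D,
      x * y = y * x := by
  rintro x ⟨hxX, hxN⟩
  have hfix : ∀ U ∈ Cfsg.unipotentSubgroups B D, x ∈ Subgroup.normalizer (U : Set G) := by
    intro U hU
    rw [← conjBy_eq_self_iff]
    by_contra hne
    apply h.fix_ne_bot hBD hU
    have h1 := h.fix_disjoint hBD (conjBy_mem_unipotent hU hxX) hU hne
    rw [← conjBy_fixN U (h.le_normalizer hxX)] at h1
    have h2 : Cfsg.conjBy (fixN (A ⊔ C) U) x = fixN (A ⊔ C) U := by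
      rw [conjBy_eq_self_iff]
      apply Subgroup.centralizer_le_normalizer
      rw [Subgroup.mem_centralizer_iff]
      intro z hz
      exact (Subgroup.mem_centralizer_iff.1 hxN) z hz.1
    rw [h2, inf_idem] at h1
    exact h1
  have h1 : B ≤ Subgroup.centralizer {x} := by
    intro c hc
    rw [Subgroup.mem_centralizer_singleton_iff]
    exact S5024.comm_of_fix_all hBD (hfix B (left_mem_unipotent B D))
      (fun c' hc' => hfix _ (conjBy_mem_unipotent (right_mem_unipotent hBD)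
        (Subgroup.mem_sup_left hc'))) c hc
  have h2 : D ≤ Subgroup.centralizer {x} := by
    intro c hc
    rw [Subgroup.mem_centralizer_singleton_iff]
    exact S5024.comm_of_fix_all (Cfsg.RankOnePair_symm hBD) (hfix D (right_mem_unipotent hBD))
      (fun c' hc' => hfix _ (conjBy_mem_unipotent (left_mem_unipotent B D)
        (Subgroup.mem_sup_right hc'))) c hc
  intro y hy
  exact (Subgroup.mem_centralizer_singleton_iff.1 (sup_le h1 h2 hy)).symm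

end

/-- Let S be a set of abstract root subgroups of G, A, B ∈ S with C = ⁅A, B⁆ ∈ S, and D ∈ S with ⁅D, C⁆ = A. Put X = ⟨B, D⟩ and N = AC. Then B, D form a rank one pair; the conjugates of A under X are the conjugates of C under X, namely the conjugates of A by elements of B together with C, equally the conjugates of C by elements of D together with A, and they partition N; and the centralizer of N in X is central in X. -/
theorem result {G : Type*} [Group G] {S : Set (Subgroup G)} (hS : Cfsg.IsRootSubgroupSet S)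
    {A B D : Subgroup G} (hA : A ∈ S) (hB : B ∈ S) (hC : ⁅A, B⁆ ∈ S) (hD : D ∈ S) (hDC : ⁅D, ⁅A, B⁆⁆ = A) :
    Cfsg.IsRankOnePair B D ∧
    {E | ∃ x ∈ B ⊔ D, E = Cfsg.conjBy A x} = {E | ∃ x ∈ B ⊔ D, E = Cfsg.conjBy ⁅A, B⁆ x} ∧
    {E | ∃ x ∈ B ⊔ D, E = Cfsg.conjBy A x} = (fun b : G => Cfsg.conjBy A b) '' (B : Set G) ∪ {⁅A, B⁆} ∧
    {E | ∃ x ∈ B ⊔ D, E = Cfsg.conjBy A x} = (fun d : G => Cfsg.conjBy ⁅A, B⁆ d) '' (D : Set G) ∪ {A} ∧
    Cfsg.IsSubgroupPartition (A ⊔ ⁅A, B⁆) {E | ∃ x ∈ B ⊔ D, E = Cfsg.conjBy A x} ∧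
    ∀ x ∈ (B ⊔ D) ⊓ Subgroup.centralizer ((A ⊔ ⁅A, B⁆ : Subgroup G) : Set G), ∀ y ∈ B ⊔ D, x * y = y * x := by
  have h1 := commutatorCase_of_mem hS hA hB hC
  have h2 : Cfsg.RootCommutatorCase S D ⁅A, B⁆ :=
    commutatorCase_of_mem hS hD hC (hDC.symm ▸ hA)
  have h1' := commutatorCase_symm h1
  have h2' := commutatorCase_symm h2
  have hcfg : Cfg A ⁅A, B⁆ B D := by
    refine ⟨hS.ne_bot A hA, hS.ne_bot _ hC, fun x hx y hy => comm_commutator h1 hx hy, ?_, ?_, ?_, ?_,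
      ?_, ?_, ?_, ?_⟩
    · intro x hx y hy
      exact (h1.2.1 y hy x (Subgroup.mem_sup_right hx)).symm
    · intro x hx y hy
      exact (h2.2.1 y (hDC.symm ▸ hy) x (Subgroup.mem_sup_left hx)).symm
    · intro a ha b hb
      rw [Subgroup.commutator_comm]
      exact Subgroup.commutator_mem_commutator hb ha
    · intro c hc d hd
      have : d * c * d⁻¹ * c⁻¹ ∈ ⁅D, ⁅A, B⁆⁆ := Subgroup.commutator_mem_commutator hd hc
      rwa [hDC] at this
    · intro b hb hb1 c hc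
      exact commutator_surj h1' hb hb1 c (Subgroup.commutator_comm A B ▸ hc)
    · intro a ha ha1 c hc
      exact commutator_surj' h1 ha ha1 c hc
    · intro d hd hd1 a ha
      exact commutator_surj h2 hd hd1 a (hDC.symm ▸ ha)
    · intro c hc hc1 a ha
      exact commutator_surj' h2' hc hc1 a (by rw [Subgroup.commutator_comm, hDC]; exact ha)
  have hBD : Cfsg.IsRankOnePair B D := by
    by_contra hn
    exact hcfg.false_of_commute (hS.ne_bot B hB) (hS.ne_bot D hD)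
      (fun b hb d hd d' hd' => conj_comm_of_not_rankOne hS hB hD hn hb hd hd')
  refine ⟨hBD, hcfg.orbit_eq_orbit hBD, hcfg.orbit_eq hBD, ?_, hcfg.partition hBD, hcfg.central hBD⟩
  rw [hcfg.orbit_eq_orbit hBD]
  have := hcfg.symm.orbit_eq (Cfsg.RankOnePair_symm hBD)
  rwa [sup_comm] at this

end Cfsg.Agent.S5036
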