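import Cfsg.Statements.S5045
import Cfsg.Agent.Lib_helper5_RootInv
import Cfsg.Agent.Lib_helper1_Cores
import Cfsg.Agent.S0200

set_option autoImplicit false
open Cfsg

namespace Cfsg.Agent.S5045

open H5.RootInv

variable {G : Type*} [Group G] {D : Set G}

theorem isolated_conj (hD : Cfsg.IsRootInvolutionSet D) {w : G}
    (hw : Cfsg.IsIsolatedElem (Cfsg.OddAdj D) D w) (g : G) :
    Cfsg.IsIsolatedElem (Cfsg.OddAdj D) D (g * w * g⁻¹) := by
  have key : ∀ b, ¬ Cfsg.OddAdj D (g * w * g⁻¹) b := by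
    intro b hb
    have := oddAdj_conj hD hb g⁻¹
    have e : g⁻¹ * (g * w * g⁻¹) * g⁻¹⁻¹ = w := by group
    rw [e] at this
    exact (hw.2 _).1 this
  exact ⟨hD.conj_mem w hw.1 g, fun b => ⟨key b, fun hb => key b (oddAdj_symm hb)⟩⟩

theorem isolated_mem_pCore [Finite G] (hD : Cfsg.IsRootInvolutionSet D) {w : G}
    (hw : Cfsg.IsIsolatedElem (Cfsg.OddAdj D) D w) : w ∈ Cfsg.pCore 2 G := by
  by_contra hcon
  obtain ⟨h, h1, hodd, hinv⟩ := S0200.result w (hD.orderOf_eq w hw.1)
    (fun N hN hN2 hwN => hcon (H1.le_pCore 2 hN hN2 hwN))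
  rw [inv_eq_self hD hw.1] at hinv
  have e : w * (h * w * h⁻¹) = (h ^ 2)⁻¹ := by
    calc w * (h * w * h⁻¹) = (w * h * w) * h⁻¹ := by simp only [mul_assoc]
      _ = h⁻¹ * h⁻¹ := by rw [hinv]
      _ = (h ^ 2)⁻¹ := by rw [pow_two, mul_inv_rev]
  have hcop : (orderOf h).Coprime 2 := Nat.Coprime.symm (Nat.coprime_two_left.2 hodd)
  have hord : orderOf (w * (h * w * h⁻¹)) = orderOf h := by
    rw [e, orderOf_inv]
    exact hcop.orderOf_pow
  apply (hw.2 (h * w * h⁻¹)).1
  refine ⟨hw.1, hD.conj_mem w hw.1 h, ?_, hord ▸ hodd⟩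
  intro hww
  apply h1
  rw [← hww, sq_eq_one hD hw.1] at hord
  rw [orderOf_one] at hord
  exact orderOf_eq_one_iff.1 hord.symm

theorem isolated_of_mem_pCore [Finite G] (hD : Cfsg.IsRootInvolutionSet D) {d : G} (hd : d ∈ D)
    (hdQ : d ∈ Cfsg.pCore 2 G) : Cfsg.IsIsolatedElem (Cfsg.OddAdj D) D d := by
  have key : ∀ e, ¬ Cfsg.OddAdj D d e := by
    intro e he
    have hn : (Cfsg.pCore 2 G).Normal := H1.pCore_normal 2
    have h1 : (d * e) ^ 2 ∈ Cfsg.pCore 2 G := by
      have e1 : (d * e) ^ 2 = d * (e * d * e⁻¹) := by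
        rw [pow_two, inv_eq_self hD he.2.1]; simp only [mul_assoc]
      rw [e1]
      exact mul_mem hdQ (hn.conj_mem d hdQ e)
    obtain ⟨k, hk⟩ := (H1.pCore_isPGroup 2 (G := G)) ⟨_, h1⟩
    have hk' : ((d * e) ^ 2) ^ (2 ^ k) = 1 := by
      have := congrArg Subtype.val hk
      simpa using this
    rw [← pow_mul, ← pow_succ'] at hk'
    have h2 : orderOf (d * e) ∣ 2 ^ (k + 1) := orderOf_dvd_of_pow_eq_one hk'
    have h3 : orderOf (d * e) = 1 := by
      have hcop : (orderOf (d * e)).Coprime (2 ^ (k + 1)) :=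
        Nat.Coprime.pow_right _ (Nat.Coprime.symm (Nat.coprime_two_left.2 he.2.2.2))
      exact Nat.Coprime.eq_one_of_dvd hcop h2
    apply he.2.2.1
    rw [← inv_eq_self hD he.2.1]
    exact eq_inv_of_mul_eq_one_left (orderOf_eq_one_iff.1 h3)
  exact ⟨hd, fun b => ⟨key b, fun hb => key b (oddAdj_symm hb)⟩⟩

/-- Let G be a finite group generated by a set D of root involutions, and W the set of members of D whose product with every other member of D has even order or is trivial (the isolated vertices of the odd-order-product graph on D). Then W is conjugation-invariant and generates a normal 2-subgroup of G meeting D in exactly W; the commutator of two members of D lying in different connected components of that graph, each with more than one member, lies in the subgroup generated by W; and for a in such a component, every member of D commuting with a, different from a and with product with a in D, lies in that component or in W. -/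
theorem result {G : Type*} [Group G] [Finite G] {D : Set G} (hD : Cfsg.IsRootInvolutionSet D) :
    (∀ w ∈ {w | Cfsg.IsIsolatedElem (Cfsg.OddAdj D) D w}, ∀ g : G, g * w * g⁻¹ ∈ {w | Cfsg.IsIsolatedElem (Cfsg.OddAdj D) D w}) ∧
    (Subgroup.closure {w | Cfsg.IsIsolatedElem (Cfsg.OddAdj D) D w}).Normal ∧
    IsPGroup 2 ↥(Subgroup.closure {w | Cfsg.IsIsolatedElem (Cfsg.OddAdj D) D w}) ∧
    (Subgroup.closure {w | Cfsg.IsIsolatedElem (Cfsg.OddAdj D) D w} : Set G) ∩ D = {w | Cfsg.IsIsolatedElem (Cfsg.OddAdj D) D w} ∧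
    (∀ a ∈ D, ∀ b ∈ D, (∃ a' ∈ Cfsg.elemComponentOf (Cfsg.OddAdj D) D a, a' ≠ a) →
      (∃ b' ∈ Cfsg.elemComponentOf (Cfsg.OddAdj D) D b, b' ≠ b) →
      Cfsg.elemComponentOf (Cfsg.OddAdj D) D a ≠ Cfsg.elemComponentOf (Cfsg.OddAdj D) D b →
        a * b * a⁻¹ * b⁻¹ ∈ Subgroup.closure {w | Cfsg.IsIsolatedElem (Cfsg.OddAdj D) D w}) ∧
    (∀ a ∈ D, (∃ a' ∈ Cfsg.elemComponentOf (Cfsg.OddAdj D) D a, a' ≠ a) →
      Cfsg.productPartners D a ⊆ Cfsg.elemComponentOf (Cfsg.OddAdj D) D a ∪ {w | Cfsg.IsIsolatedElem (Cfsg.OddAdj D) D w}) := by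
  have hWQ : Subgroup.closure {w | Cfsg.IsIsolatedElem (Cfsg.OddAdj D) D w} ≤ Cfsg.pCore 2 G := by
    rw [Subgroup.closure_le]
    intro w hw
    exact isolated_mem_pCore hD hw
  refine ⟨fun w hw g => isolated_conj hD hw g, ?_, (H1.pCore_isPGroup 2).to_le hWQ, ?_, ?_, ?_⟩
  · refine ⟨fun x hx g => ?_⟩
    have hle : Subgroup.closure {w | Cfsg.IsIsolatedElem (Cfsg.OddAdj D) D w} ≤
        (Subgroup.closure {w | Cfsg.IsIsolatedElem (Cfsg.OddAdj D) D w}).comap
          (MulAut.conj g).toMonoidHom := by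
      rw [Subgroup.closure_le]
      intro w hw
      exact Subgroup.subset_closure (isolated_conj hD hw g)
    exact hle hx
  · ext d
    constructor
    · rintro ⟨h1, h2⟩
      exact isolated_of_mem_pCore hD h2 (hWQ h1)
    · intro hd
      exact ⟨Subgroup.subset_closure hd, hd.1⟩
  · intro a ha b hb ha2 hb2 hne
    have hap := exists_adj_of_component ha2
    have hbp := exists_adj_of_component hb2
    rcases hD.pair a ha b hb with h1 | h1 | ⟨h1, h2⟩
    · have : a * b * a⁻¹ * b⁻¹ = 1 := by rw [h1]; group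
      rw [this]
      exact one_mem _
    · exfalso
      apply hne
      by_cases hab : a = b
      · rw [hab]
      · exact component_eq (.single ⟨ha, hb, hab, h1⟩)
    · have e : a * b * a⁻¹ * b⁻¹ = (a * b) ^ 2 := by
        rw [inv_eq_self hD ha, inv_eq_self hD hb, pow_two]; simp only [mul_assoc]
      rw [e]
      by_cases hcW : Cfsg.IsIsolatedElem (Cfsg.OddAdj D) D ((a * b) ^ 2)
      · exact Subgroup.subset_closure hcW
      exfalso
      apply hne
      have hcp := exists_adj_of_not_isolated h2 hcW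
      have hcinv : ((a * b) ^ 2)⁻¹ = (a * b) ^ 2 := inv_eq_self hD h2
      have hba : (b * a) ^ 2 = (a * b) ^ 2 := by
        rw [← hcinv, ← inv_pow, mul_inv_rev, inv_eq_self hD ha, inv_eq_self hD hb]
      have haa := sq_eq_one hD ha
      have hbb := sq_eq_one hD hb
      -- a c = c a
      have hac : a * (a * b) ^ 2 = (a * b) ^ 2 * a := by
        conv_lhs => rw [← hba]
        simp only [pow_two, mul_assoc]
      have hbc : b * (a * b) ^ 2 = (a * b) ^ 2 * b := by
        conv_rhs => rw [← hba]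
        simp only [pow_two, mul_assoc]
      have hat : a * (a * b) ^ 2 ∈ D := by
        have e1 : a * (a * b) ^ 2 = b * a * b⁻¹ := by
          rw [inv_eq_self hD hb, pow_two]
          calc a * (a * b * (a * b)) = (a * a) * b * a * b := by simp only [mul_assoc]
            _ = b * a * b := by rw [haa, one_mul]
        rw [e1]
        exact hD.conj_mem a ha b
      have hbt : b * (a * b) ^ 2 ∈ D := by
        have e1 : b * (a * b) ^ 2 = a * b * a⁻¹ := by
          rw [hbc, inv_eq_self hD ha, pow_two]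
          calc a * b * (a * b) * b = a * b * a * (b * b) := by simp only [mul_assoc]
            _ = a * b * a := by rw [hbb, mul_one]
        rw [e1]
        exact hD.conj_mem b hb a
      have c1 := connected_of_mul_mem hD ha h2 hap hcp hac hat
      have c2 := connected_of_mul_mem hD hb h2 hbp hcp hbc hbt
      exact component_eq (c1.trans (rtg_symm c2))
  · intro a ha ha2 e he
    obtain ⟨⟨heD, hea, hne⟩, het⟩ := he
    by_cases heW : Cfsg.IsIsolatedElem (Cfsg.OddAdj D) D e
    · right; exact heW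
    · left
      exact ⟨heD, connected_of_mul_mem hD ha heD (exists_adj_of_component ha2)
        (exists_adj_of_not_isolated heD heW) hea.symm (hea ▸ het)⟩

end Cfsg.Agent.S5045
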