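import Cfsg.Statements.S5049
import Cfsg.Agent.Lib_helper5_RootInv
import Cfsg.Agent.Lib_helper1_Cores

set_option autoImplicit false
open Cfsg

namespace Cfsg.Agent.S5049

open H5.RootInv

variable {G : Type*} [Group G] {D : Set G}

theorem eq_one_of_odd_of_mem_pCore {x : G} (hx : x ∈ Cfsg.pCore 2 G) (hodd : Odd (orderOf x)) :
    x = 1 := by
  obtain ⟨k, hk⟩ := (H1.pCore_isPGroup 2 (G := G)) ⟨_, hx⟩
  have hk' : x ^ (2 ^ k) = 1 := by
    have := congrArg Subtype.val hk
    simpa using this
  have h2 : orderOf x ∣ 2 ^ k := orderOf_dvd_of_pow_eq_one hk'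
  have hcop : (orderOf x).Coprime (2 ^ k) :=
    Nat.Coprime.pow_right _ (Nat.Coprime.symm (Nat.coprime_two_left.2 hodd))
  exact orderOf_eq_one_iff.1 (Nat.Coprime.eq_one_of_dvd hcop h2)

theorem comm_of_sq_mem (hD : Cfsg.IsOddTranspositionSet D) {x y : G} (hx : x ∈ D) (hy : y ∈ D)
    (h : (x * y) ^ 2 ∈ Cfsg.pCore 2 G) : x * y = y * x := by
  rcases hD.1.pair x hx y hy with h1 | h1 | ⟨h1, -⟩
  · exact h1
  · have h2 : (x * y) ^ 2 = 1 := by
      apply eq_one_of_odd_of_mem_pCore h
      have hcop : (orderOf (x * y)).Coprime 2 := Nat.Coprime.symm (Nat.coprime_two_left.2 h1)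
      rw [hcop.orderOf_pow]
      exact h1
    have h3 : orderOf (x * y) ∣ 2 := orderOf_dvd_of_pow_eq_one h2
    have h4 : orderOf (x * y) = 1 := by
      rcases (Nat.dvd_prime Nat.prime_two).1 h3 with h | h
      · exact h
      · rw [h] at h1; exact absurd h1 (by decide)
    have h5 : x = y := by
      rw [← inv_eq_self hD.1 hy]
      exact eq_inv_of_mul_eq_one_left (orderOf_eq_one_iff.1 h4)
    rw [h5]
  · exact absurd h1 (hD.2 x hx y hy)

/-- Let G be a finite group generated by a set D of odd transpositions (root involutions with no product of order 4), Q = O₂(G), and for a ∈ D let Q_a be the commutator subgroup of Q with a. Then every member of D commuting with a centralizes Q_a; and for b ∈ D with ab of odd order greater than 1, the centralizer of ab in Q is the intersection of the centralizers of a and b in Q. -/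
theorem result {G : Type*} [Group G] [Finite G] {D : Set G} (hD : Cfsg.IsOddTranspositionSet D) {a : G} (ha : a ∈ D) :
    (∀ e ∈ Cfsg.commutingMembers D a, ∀ q ∈ ⁅Cfsg.pCore 2 G, Subgroup.zpowers a⁆, e * q = q * e) ∧
    (∀ b ∈ Cfsg.oddPartners D a,
      Cfsg.pCore 2 G ⊓ Subgroup.centralizer {a * b} = Cfsg.pCore 2 G ⊓ Subgroup.centralizer {a} ⊓ Subgroup.centralizer {b}) := by
  have hn : (Cfsg.pCore 2 G).Normal := H1.pCore_normal 2
  have haa := sq_eq_one hD.1 ha
  have hainv := inv_eq_self hD.1 ha
  constructor
  · intro e he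
    obtain ⟨heD, hea⟩ := he
    have hle : ⁅Cfsg.pCore 2 G, Subgroup.zpowers a⁆ ≤ Subgroup.centralizer {e} := by
      rw [Subgroup.commutator_le]
      intro q hq z hz
      obtain ⟨k, rfl⟩ := Subgroup.mem_zpowers_iff.1 hz
      rw [commutatorElement_def, Subgroup.mem_centralizer_singleton_iff]
      have hcomm : Commute (q * a * q⁻¹) e := by
        have h1 : (e * (q * a * q⁻¹)) ^ 2 ∈ Cfsg.pCore 2 G := by
          rw [← QuotientGroup.eq_one_iff]
          have hq1 : ((q : G) : G ⧸ Cfsg.pCore 2 G) = 1 := (QuotientGroup.eq_one_iff q).2 hq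
          simp only [QuotientGroup.mk_pow, QuotientGroup.mk_mul, QuotientGroup.mk_inv, hq1, one_mul,
            inv_one, mul_one]
          rw [← QuotientGroup.mk_mul, ← QuotientGroup.mk_pow]
          have : (e * a) ^ 2 = 1 := by
            rw [pow_two]
            calc e * a * (e * a) = e * (a * e) * a := by simp only [mul_assoc]
              _ = e * (e * a) * a := by rw [hea]
              _ = (e * e) * (a * a) := by simp only [mul_assoc]
              _ = 1 := by rw [sq_eq_one hD.1 heD, haa, one_mul]
          rw [this]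
          rfl
        exact (comm_of_sq_mem hD heD (hD.1.conj_mem a ha q) h1).symm
      have e1 : q * a ^ k * q⁻¹ = (q * a * q⁻¹) ^ k := (conj_zpow).symm
      rw [e1]
      have c2 : Commute (a ^ k)⁻¹ e := ((Commute.zpow_left (show Commute a e from hea.symm) k)).inv_left
      exact (hcomm.zpow_left k).mul_left c2
    intro q hq
    exact (Subgroup.mem_centralizer_singleton_iff.1 (hle hq)).symm
  · intro b hb
    obtain ⟨hbD, hba, hodd⟩ := hb
    have hbinv := inv_eq_self hD.1 hbD
    apply le_antisymm
    swap
    · intro q hq0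
      obtain ⟨hq1, h2⟩ := Subgroup.mem_inf.1 hq0
      obtain ⟨hq, h1⟩ := Subgroup.mem_inf.1 hq1
      refine Subgroup.mem_inf.2 ⟨hq, ?_⟩
      rw [Subgroup.mem_centralizer_singleton_iff] at h1 h2
      rw [Subgroup.mem_centralizer_singleton_iff, ← mul_assoc, h1, mul_assoc, h2, mul_assoc]
    · intro q hq0
      obtain ⟨hq, hqr⟩ := Subgroup.mem_inf.1 hq0
      rw [Subgroup.mem_centralizer_singleton_iff] at hqr
      -- a' = q a q⁻¹
      have ha' : q * a * q⁻¹ ∈ D := hD.1.conj_mem a ha q
      have ht : a * (q * a * q⁻¹) ∈ Cfsg.pCore 2 G := by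
        have e1 : a * (q * a * q⁻¹) = (a * q * a⁻¹) * q⁻¹ := by rw [hainv]; simp only [mul_assoc]
        rw [e1]
        exact mul_mem (hn.conj_mem q hq a) (inv_mem hq)
      have hcomm : a * (q * a * q⁻¹) = (q * a * q⁻¹) * a :=
        comm_of_sq_mem hD ha ha' (pow_mem ht 2)
      generalize hadef : q * a * q⁻¹ = a' at ha' ht hcomm
      have ha'a' := sq_eq_one hD.1 ha'
      have ha'inv := inv_eq_self hD.1 ha'
      -- a and a' invert r = a b
      have hinv1 : a * (a * b) * a = (a * b)⁻¹ := by
        rw [mul_inv_rev, hainv, hbinv, ← mul_assoc, haa, one_mul]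
      have hinv2 : a' * (a * b) * a' = (a * b)⁻¹ := by
        have hq' : q⁻¹ * (a * b) * q = a * b := by
          rw [mul_assoc, ← hqr, inv_mul_cancel_left]
        have hq'' : q * (a * b)⁻¹ * q⁻¹ = (a * b)⁻¹ := by
          rw [← inv_inj]
          simp only [mul_inv_rev, inv_inv]
          rw [← mul_assoc, hqr, mul_inv_cancel_right]
        calc a' * (a * b) * a' = q * (a * (q⁻¹ * (a * b) * q) * a) * q⁻¹ := by
              rw [← hadef]; group
          _ = (a * b)⁻¹ := by rw [hq', hinv1, hq'']
      -- t = a a' commutes with r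
      have htr : Commute (a' * a) (a * b) := by
        change a' * a * (a * b) = a * b * (a' * a)
        have e1 : a * (a * b) = (a * b)⁻¹ * a := by
          rw [← hinv1, mul_assoc _ a a, haa, mul_one]
        have e2 : a' * (a * b)⁻¹ = (a * b) * a' := by
          have h3 : a' * (a * b)⁻¹ * a' = a * b := by
            rw [← hinv2]
            calc a' * (a' * (a * b) * a') * a' = (a' * a') * (a * b) * (a' * a') := by
                  simp only [mul_assoc]
              _ = a * b := by rw [ha'a', one_mul, mul_one]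
          calc a' * (a * b)⁻¹ = a' * (a * b)⁻¹ * (a' * a') := by rw [ha'a', mul_one]
            _ = (a' * (a * b)⁻¹ * a') * a' := by simp only [mul_assoc]
            _ = (a * b) * a' := by rw [h3]
        rw [mul_assoc a' a, e1, ← mul_assoc, e2, mul_assoc]
      have htt : (a' * a) * (a' * a) = 1 := by
        calc a' * a * (a' * a) = a' * (a * a') * a := by simp only [mul_assoc]
          _ = a' * (a' * a) * a := by rw [hcomm]
          _ = (a' * a') * (a * a) := by simp only [mul_assoc]
          _ = 1 := by rw [ha'a', haa, one_mul]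
      have ha'b : a' * b = (a' * a) * (a * b) := by
        rw [mul_assoc, ← mul_assoc a a b, haa, one_mul]
      have hr1 : a * b ≠ 1 := by
        intro e
        apply hba
        rw [← hbinv, ← hainv, inv_inj]
        exact (eq_inv_of_mul_eq_one_left e).symm ▸ (by rw [hbinv])
      have ht1 : a' * a = 1 := by
        rcases hD.1.pair a' ha' b hbD with h1 | h1 | ⟨h1, -⟩
        · exfalso
          -- (a' b)^2 = 1
          have h2 : (a' * b) ^ 2 = 1 := by
            rw [pow_two]
            calc a' * b * (a' * b) = a' * (b * a') * b := by simp only [mul_assoc]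
              _ = a' * (a' * b) * b := by rw [h1]
              _ = (a' * a') * (b * b) := by simp only [mul_assoc]
              _ = 1 := by rw [ha'a', sq_eq_one hD.1 hbD, one_mul]
          rw [ha'b, htr.mul_pow, pow_two (a' * a), htt, one_mul] at h2
          have h3 : orderOf (a * b) ∣ 2 := orderOf_dvd_of_pow_eq_one h2
          rcases (Nat.dvd_prime Nat.prime_two).1 h3 with h | h
          · exact hr1 (orderOf_eq_one_iff.1 h)
          · rw [h] at hodd; exact absurd hodd (by decide)
        · obtain ⟨m, hm⟩ := h1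
          have h2 : (a' * b) ^ (2 * m + 1) = 1 := hm ▸ pow_orderOf_eq_one _
          rw [ha'b, htr.mul_pow] at h2
          have h3 : (a' * a) ^ (2 * m + 1) = a' * a := by
            rw [pow_succ, pow_mul, pow_two, htt, one_pow, one_mul]
          rw [h3] at h2
          -- t = (r^(2m+1))⁻¹ has odd order
          have h4 : a' * a = ((a * b) ^ (2 * m + 1))⁻¹ := eq_inv_of_mul_eq_one_left h2
          apply eq_one_of_odd_of_mem_pCore (hcomm ▸ ht)
          rw [h4, orderOf_inv]
          exact Odd.of_dvd_nat hodd (orderOf_pow_dvd _)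
        · exact absurd h1 (hD.2 a' ha' b hbD)
      have haeq : a' = a := by
        rw [← hainv]
        exact eq_inv_of_mul_eq_one_left ht1
      have hqa : q * a = a * q := by
        rw [← haeq, ← hadef, inv_mul_cancel_right]
        rw [hadef, haeq]
      have hqb : q * b = b * q := by
        have e1 : a * (q * b) = a * (b * q) := by
          rw [← mul_assoc, ← hqa, mul_assoc, ← mul_assoc a b q, ← hqr]
        exact mul_left_cancel e1
      refine Subgroup.mem_inf.2 ⟨Subgroup.mem_inf.2 ⟨hq, ?_⟩, ?_⟩
      · rw [Subgroup.mem_centralizer_singleton_iff]; exact hqa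
      · rw [Subgroup.mem_centralizer_singleton_iff]; exact hqb

end Cfsg.Agent.S5049
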