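import Cfsg.Statements.S5067
import Mathlib
import Cfsg.Agent.Lib_helper2_Regular

set_option autoImplicit false
open Cfsg

namespace Cfsg.Agent.S5067

open scoped commutatorElement

theorem main {P : Type*} [Group P] [Group.IsNilpotent P] (hna : ¬ IsMulCommutative P)
    {E : Subgroup P} (hE : IsMulCommutative ↥E) :
    Group.nilpotencyClass ↥(Subgroup.normalClosure (E : Set P)) < Group.nilpotencyClass P := by
  set N := Subgroup.normalClosure (E : Set P) with hN
  have hc := Subgroup.lowerCentralSeries_nilpotencyClass (G := P)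
  have hc2 : 2 ≤ Group.nilpotencyClass P := by
    by_contra hlt
    have h1 : Group.nilpotencyClass P ≤ 1 := by omega
    have h2 : Subgroup.lowerCentralSeries (⊤ : Subgroup P) 1 = ⊥ :=
      Subgroup.lowerCentralSeries_eq_bot_iff_nilpotencyClass_le.2 h1
    apply hna
    refine ⟨⟨fun a b => ?_⟩⟩
    have h3 : ⁅a, b⁆ ∈ Subgroup.lowerCentralSeries (⊤ : Subgroup P) 1 :=
      Subgroup.commutator_mem_commutator (Subgroup.mem_top a) (Subgroup.mem_top b)
    rw [h2, Subgroup.mem_bot] at h3
    exact commutatorElement_eq_one_iff_mul_comm.1 h3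
  obtain ⟨n, hn⟩ : ∃ n, Group.nilpotencyClass P = n + 2 := ⟨_, (Nat.sub_add_cancel hc2).symm⟩
  set D : Subgroup P := Subgroup.lowerCentralSeries (⊤ : Subgroup P) 1 with hD
  set Γ : Subgroup P := Subgroup.lowerCentralSeries (⊤ : Subgroup P) 2 with hΓ
  have hDmem : ∀ a b : P, ⁅a, b⁆ ∈ D := fun a b =>
    Subgroup.commutator_mem_commutator (Subgroup.mem_top a) (Subgroup.mem_top b)
  have hΓmem : ∀ d ∈ D, ∀ b : P, ⁅d, b⁆ ∈ Γ := fun d hd b =>
    Subgroup.commutator_mem_commutator hd (Subgroup.mem_top b)
  have hcl : Subgroup.closure ((E : Set P) ∪ (D : Set P)) = E ⊔ D := by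
    rw [Subgroup.closure_union, Subgroup.closure_eq, Subgroup.closure_eq]
  have hnormal : (E ⊔ D).Normal := by
    refine ⟨fun m hm x => ?_⟩
    have e : x * m * x⁻¹ = ⁅x, m⁆ * m := by rw [commutatorElement_def]; group
    rw [e]
    exact Subgroup.mul_mem _ (Subgroup.mem_sup_right (hDmem x m)) hm
  have hNle : N ≤ E ⊔ D := Subgroup.normalClosure_le_normal (fun x hx => Subgroup.mem_sup_left hx)
  have hΓn : Γ.Normal := by rw [hΓ]; infer_instance
  have hbase0 : ⁅E ⊔ D, E ⊔ D⁆ ≤ Γ := by
    rw [← hcl]
    apply H2.commutator_closure_le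
    · rw [Subgroup.normalizer_eq_top_iff.2 hΓn]; exact le_top
    · intro s hs t ht
      rcases hs with hs | hs
      · rcases ht with ht | ht
        · have h1 : s * t = t * s := congrArg Subtype.val (hE.is_comm.comm ⟨s, hs⟩ ⟨t, ht⟩)
          rw [commutatorElement_eq_one_iff_mul_comm.2 h1]; exact Γ.one_mem
        · rw [← commutatorElement_inv]; exact Γ.inv_mem (hΓmem t ht s)
      · exact hΓmem s hs t
  have hbase : ⁅N, N⁆ ≤ Γ := (Subgroup.commutator_mono hNle hNle).trans hbase0
  have hstep : ∀ k, N.lowerCentralSeries (k + 1) ≤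
      Subgroup.lowerCentralSeries (⊤ : Subgroup P) (k + 2) := by
    intro k
    induction k with
    | zero => exact hbase
    | succ k ih => exact Subgroup.commutator_mono ih le_top
  have hbot : N.lowerCentralSeries (n + 1) = ⊥ :=
    eq_bot_iff.2 ((hstep n).trans (by rw [← hn, hc]))
  have hbot' : Subgroup.lowerCentralSeries (⊤ : Subgroup N) (n + 1) = ⊥ := by
    have h5 := Subgroup.top_subtype_lowerCentralSeries N (n + 1)
    rw [hbot] at h5
    exact (Subgroup.map_eq_bot_iff_of_injective _ N.subtype_injective).1 h5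
  have h6 := Subgroup.lowerCentralSeries_eq_bot_iff_nilpotencyClass_le.1 hbot'
  omega

/-- Let P be a non-abelian nilpotent p-group (every element of p-power order; P possibly infinite) generated by two abelian subgroups E and F. Then the normal closure of E in P, and likewise that of F, has nilpotency class strictly smaller than that of P. -/
theorem result {P : Type*} [Group P] {p : ℕ} [Fact p.Prime] (hP : IsPGroup p P) [Group.IsNilpotent P]
    (hna : ¬ IsMulCommutative P) {E F : Subgroup P} (hE : IsMulCommutative ↥E) (hF : IsMulCommutative ↥F) (hgen : E ⊔ F = ⊤) :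
    Group.nilpotencyClass ↥(Subgroup.normalClosure (E : Set P)) < Group.nilpotencyClass P ∧
    Group.nilpotencyClass ↥(Subgroup.normalClosure (F : Set P)) < Group.nilpotencyClass P := by
  exact ⟨main hna hE, main hna hF⟩

end Cfsg.Agent.S5067
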