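import Cfsg.Statements.S5102
import Cfsg.Agent.Lib_helper8_FusR

set_option autoImplicit false
open Cfsg

namespace Cfsg.Agent.S5102

/-- A normal p-subgroup of a finite group G is normal in the fusion system of G on a Sylow p-subgroup. -/
theorem result {G : Type*} [Group G] [Finite G] (p : ℕ) [Fact p.Prime] (S : Sylow p G) (R : Subgroup G) [R.Normal] (hR : IsPGroup p R) : (Cfsg.groupFusionSystem (S : Subgroup G)).IsNormal R := by
  have hRS : R ≤ S := hR.le_sylow_of_normal S
  rw [H8.groupFusionSystem_eq, H8.isNormal_iff]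
  refine ⟨hRS, fun P f hf => ?_⟩
  obtain ⟨hP, g, hg, h⟩ := H8.isMap_ofSubgroup_iff.1 hf
  have hR' : H8.cjs g R = R := by
    ext x
    rw [H8.mem_cjs]
    constructor
    · intro hx
      have := (inferInstance : R.Normal).conj_mem _ hx g
      have e : g * (g⁻¹ * x * g) * g⁻¹ = x := by group
      rwa [e] at this
    · intro hx
      have := (inferInstance : R.Normal).conj_mem _ hx g⁻¹
      rwa [inv_inv] at this
  refine ⟨H8.cj g, H8.isMap_cj (sup_le hP hRS) hg ?_, fun x hx => ((h x hx).1).symm, ?_⟩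
  · show (P ⊔ R).map _ ≤ _
    rw [Subgroup.map_sup]
    refine sup_le ?_ (hR'.le.trans hRS)
    rintro _ ⟨x, hx, rfl⟩
    exact (h x hx).2
  · rw [H8.img_cj, hR']

end Cfsg.Agent.S5102
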