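import Cfsg.Statements.S5105
import Cfsg.Agent.Lib_helper8_FusAA
import Cfsg.Agent.Lib_helper5_Cocycle

set_option autoImplicit false
open Cfsg

namespace Cfsg.Agent.S5105

/-- Model Theorem, rigidity: if G is a model of a constrained fusion system over a finite p-group S (through ι : S → G), then every automorphism of G fixing ι(S) elementwise is conjugation by ι(z) for some z in the centre of S. -/
theorem result {Ω : Type*} [Group Ω] {S : Subgroup Ω} [Finite S] (p : ℕ) [Fact p.Prime] (hS : IsPGroup p S) (F : Cfsg.FusionSystem S) (hF : F.IsConstrained p) {G : Type*} [Group G] (ι : S →* G) (hG : F.IsModel p G ι) (ψ : G ≃* G) (hψ : ∀ x : S, ψ (ι x) = ι x) : ∃ z : S, z ∈ Subgroup.center S ∧ ∀ g : G, ψ g = ι z * g * (ι z)⁻¹ := by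
  open Cfsg.Agent.H8 in
  obtain ⟨hfin, hreal, ⟨T, hT⟩, hcent⟩ := hG
  have hQn : (pCore p G).Normal := pCore_normal' p G
  have hQp : IsPGroup p (pCore p G) := pCore_isPGroup' p G
  have hQT : pCore p G ≤ T := hQp.le_sylow_of_normal T
  set Q := pCore p G with hQ
  have hfixT : ∀ t ∈ (T : Subgroup G), ψ t = t := by
    intro t ht
    rw [hT] at ht
    obtain ⟨x, rfl⟩ := ht
    exact hψ x
  let A : Subgroup G := Q ⊓ Subgroup.centralizer (Q : Set G)
  have hAn : A.Normal := by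
    have : (Subgroup.centralizer (Q : Set G)).Normal := inferInstance
    exact Subgroup.normal_inf_normal _ _
  have hAc : ∀ a ∈ A, ∀ b ∈ A, a * b = b * a := fun a ha b hb =>
    (Subgroup.mem_centralizer_iff.1 hb.2 a ha.1)
  have hAp : IsPGroup p A := hQp.to_le inf_le_left
  have hcop : (Nat.card A).Coprime (T : Subgroup G).index := by
    obtain ⟨k, hk⟩ := IsPGroup.iff_card.1 hAp
    rw [hk]
    apply Nat.Coprime.pow_left
    rw [Nat.Prime.coprime_iff_not_dvd Fact.out]
    exact T.not_dvd_index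
  have hA : ∀ g, ψ g * g⁻¹ ∈ A := by
    intro g
    have h1 : g⁻¹ * ψ g ∈ Subgroup.centralizer (Q : Set G) := by
      rw [Subgroup.mem_centralizer_iff]
      intro x hx
      have h2 := hfixT _ (hQT (hQn.conj_mem x hx g))
      rw [map_mul, map_mul, map_inv, hfixT x (hQT hx)] at h2
      calc x * (g⁻¹ * ψ g) = g⁻¹ * (g * x * g⁻¹) * ψ g := by group
        _ = g⁻¹ * (ψ g * x * (ψ g)⁻¹) * ψ g := by rw [h2]
        _ = g⁻¹ * ψ g * x := by group
    have h3 : g⁻¹ * ψ g ∈ A := ⟨hcent h1, h1⟩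
    have h4 := hAn.conj_mem _ h3 g
    have e : g * (g⁻¹ * ψ g) * g⁻¹ = ψ g * g⁻¹ := by group
    rwa [e] at h4
  obtain ⟨u, hu, hu'⟩ := Cfsg.Agent.H5.inner_of_cocycle A hAc (T : Subgroup G) hcop ψ hA hfixT
  have huT : u ∈ ι.range := by rw [← hT]; exact hQT hu.1
  obtain ⟨z, rfl⟩ := huT
  refine ⟨z, ?_, hu'⟩
  rw [Subgroup.mem_center_iff]
  intro s
  apply hreal.1
  have h1 := hu' (ι s)
  rw [hψ s] at h1
  rw [map_mul, map_mul]
  calc ι s * ι z = (ι z * ι s * (ι z)⁻¹) * ι z := by rw [← h1]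
    _ = ι z * ι s := by group

end Cfsg.Agent.S5105
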