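import Cfsg.Statements.S5107
import Cfsg.Agent.Lib_helper8_FusAH

set_option autoImplicit false
open Cfsg

namespace Cfsg.Agent.S5107

/-- If a Sylow p-subgroup S of a finite group G has nilpotency class at most two and its centre is strongly closed in S with respect to G, then every map of the fusion system of G on S is conjugation by an element of N_G(S), and S is the largest subgroup normal in that fusion system. -/
theorem result {G : Type*} [Group G] [Finite G] (p : ℕ) [Fact p.Prime] (S : Sylow p G) (hcl : ⁅(S : Subgroup G), (S : Subgroup G)⁆ ≤ (S : Subgroup G) ⊓ Subgroup.centralizer ((S : Subgroup G) : Set G)) (hZ : Cfsg.IsStronglyClosed ((S : Subgroup G) ⊓ Subgroup.centralizer ((S : Subgroup G) : Set G)) (S : Subgroup G)) : (∀ (P : Subgroup G) (φ : P →* G), φ ∈ (Cfsg.groupFusionSystem (S : Subgroup G)).Hom P → ∃ g ∈ Subgroup.normalizer ((S : Subgroup G) : Set G), ∀ x : P, φ x = g * (x : G) * g⁻¹) ∧ (Cfsg.groupFusionSystem (S : Subgroup G)).core = S := by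
  have hSp : IsPGroup p (S : Subgroup G) := S.isPGroup'
  have hF := H8.saturated_group S
  have hn := H8.isNormal_top_of_class_two hSp hF hcl (H8.stronglyClosed_group_iff.2 hZ)
  refine ⟨fun P φ hφ => ?_, H8.core_eq_of_isNormal_top hn⟩
  obtain ⟨g, hg, e, hi⟩ := (H8.isNormal_iff.1 hn).2 P _ (H8.isMap_ext hφ)
  obtain ⟨-, k, hk⟩ := H8.isMap_group_iff.1 hg
  refine ⟨k, ?_, fun x => ?_⟩
  · apply H8.mem_normalizer_of_forall
    intro x hx
    exact (hk x (Subgroup.mem_sup_right hx)).2
  · rw [← H8.ext_coe, ← e x x.2, (hk x (Subgroup.mem_sup_left x.2)).1]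

end Cfsg.Agent.S5107
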