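import Cfsg.Statements.S5122
import Cfsg.Agent.Lib_helper8_FusR

set_option autoImplicit false
open Cfsg

namespace Cfsg.Agent.S5122

/-- Let G be a finite group with Sylow p-subgroup S. Every subgroup P of S has a G-conjugate Q ≤ S such that N_S(Q) is a Sylow p-subgroup of N_G(Q); and for any Q ≤ S with that property, C_S(Q) is a Sylow p-subgroup of C_G(Q) and the automorphisms of Q induced by N_S(Q) form a Sylow p-subgroup of those induced by N_G(Q). -/
theorem result {G : Type*} [Group G] [Finite G] (p : ℕ) [Fact p.Prime] (S : Sylow p G) : (∀ P : Subgroup G, P ≤ S → ∃ g : G, P.map (MulAut.conj g).toMonoidHom ≤ S ∧ (∃ R : Sylow p ↥(Subgroup.normalizer ((P.map (MulAut.conj g).toMonoidHom : Subgroup G) : Set G)), (R : Subgroup ↥(Subgroup.normalizer ((P.map (MulAut.conj g).toMonoidHom : Subgroup G) : Set G))) = (Cfsg.FusionSystem.normalizerIn (S : Subgroup G) (P.map (MulAut.conj g).toMonoidHom)).subgroupOf (Subgroup.normalizer ((P.map (MulAut.conj g).toMonoidHom : Subgroup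 G) : Set G)))) ∧ ∀ Q : Subgroup G, Q ≤ S → (∃ R : Sylow p ↥(Subgroup.normalizer (Q : Set G)), (R : Subgroup ↥(Subgroup.normalizer (Q : Set G))) = (Cfsg.FusionSystem.normalizerIn (S : Subgroup G) Q).subgroupOf (Subgroup.normalizer (Q : Set G))) → (∃ R : Sylow p ↥(Subgroup.centralizer (Q : Set G)), (R : Subgroup ↥(Subgroup.centralizer (Q : Set G))) = (Cfsg.FusionSystem.centralizerIn (S : Subgroup G) Q).subgroupOf (Subgroup.centralizer (Q : Set G))) ∧ (∃ R : Sylow p ↥(Cfsg.autInducedBy ⊤ Q), (R : Subgroup ↥(Cfsg.autInducedBy ⊤ Q)) = (Cfsg.autInducedBy (S : Subgroup G) Q).subgroupOf (Cfsg.autInducedBy ⊤ Q)) := by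
  have en : ∀ P : Subgroup G, Cfsg.FusionSystem.normalizerIn ⊤ P = Subgroup.normalizer (P : Set G) :=
    fun P => top_inf_eq _
  have ec : ∀ P : Subgroup G, Cfsg.FusionSystem.centralizerIn ⊤ P = Subgroup.centralizer (P : Set G) :=
    fun P => top_inf_eq _
  refine ⟨fun P hP => ?_, fun Q hQ hs => ?_⟩
  · obtain ⟨g, -, h1, h2⟩ := H8.exists_conj_sylow_normalizer le_top (H8.sylIn_top S) hP
    rw [en] at h2
    exact ⟨g, h1, h2⟩
  · have hs' : H8.SylIn p (Cfsg.FusionSystem.normalizerIn (S : Subgroup G) Q)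
        (Cfsg.FusionSystem.normalizerIn ⊤ Q) := by rw [en]; exact hs
    refine ⟨?_, H8.sylIn_aut_of_normalizer le_top hs'⟩
    have := H8.sylIn_centralizer_of_normalizer le_top hs'
    rw [ec] at this
    exact this

end Cfsg.Agent.S5122
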