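import Cfsg.Statements.S5123
import Cfsg.Agent.Lib_helper8_FusR

set_option autoImplicit false
open Cfsg

namespace Cfsg.Agent.S5123

/-- Let G be a finite group with Sylow p-subgroup S, P, Q ≤ S and g ∈ G with gPg⁻¹ = Q, and suppose N_S(Q) is a Sylow p-subgroup of N_G(Q). Let N be the set of x ∈ N_S(P) with gxg⁻¹ ∈ N_S(Q)C_G(Q). Then some h ∈ C_G(Q) satisfies (hg)N(hg)⁻¹ ≤ S. -/
theorem result {G : Type*} [Group G] [Finite G] (p : ℕ) [Fact p.Prime] (S : Sylow p G) (P Q : Subgroup G) (hP : P ≤ S) (hQ : Q ≤ S) (g : G) (hg : P.map (MulAut.conj g).toMonoidHom = Q) (hN : (∃ R : Sylow p ↥(Subgroup.normalizer (Q : Set G)), (R : Subgroup ↥(Subgroup.normalizer (Q : Set G))) = (Cfsg.FusionSystem.normalizerIn (S : Subgroup G) Q).subgroupOf (Subgroup.normalizer (Q : Set G)))) : ∃ h ∈ Subgroup.centralizer (Q : Set G), ((Cfsg.FusionSystem.normalizerIn (S : Subgroup G) P) ⊓ (Cfsg.FusionSystem.normalizerIn (S : Subgroup G) Q ⊔ Subgroup.centralizer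 (Q : Set G)).comap (MulAut.conj g).toMonoidHom).map (MulAut.conj (h * g)).toMonoidHom ≤ S := by
  have en : ∀ P : Subgroup G, Cfsg.FusionSystem.normalizerIn ⊤ P = Subgroup.normalizer (P : Set G) :=
    fun P => top_inf_eq _
  have ec : ∀ P : Subgroup G, Cfsg.FusionSystem.centralizerIn ⊤ P = Subgroup.centralizer (P : Set G) :=
    fun P => top_inf_eq _
  have hs' : H8.SylIn p (Cfsg.FusionSystem.normalizerIn (S : Subgroup G) Q)
      (Cfsg.FusionSystem.normalizerIn ⊤ Q) := by rw [en]; exact hN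
  set D := (Cfsg.FusionSystem.normalizerIn (S : Subgroup G) P) ⊓ (Cfsg.FusionSystem.normalizerIn (S : Subgroup G) Q ⊔ Subgroup.centralizer (Q : Set G)).comap (MulAut.conj g).toMonoidHom with hD
  have hDp : IsPGroup p D := S.isPGroup'.to_le (inf_le_left.trans inf_le_left)
  have hle : H8.cjs g D ≤ Cfsg.FusionSystem.normalizerIn (S : Subgroup G) Q ⊔
      Cfsg.FusionSystem.centralizerIn ⊤ Q := by
    rw [ec]
    rintro _ ⟨x, hx, rfl⟩
    exact hx.2
  obtain ⟨c, hc, h⟩ := H8.sylow_extension le_top hs' (H8.isPGroup_cjs hDp g) hle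
  rw [ec] at hc
  refine ⟨c, hc, ?_⟩
  have := H8.cjs_cjs c g D
  show H8.cjs (c * g) D ≤ _
  rw [← this]
  exact h.trans inf_le_left

end Cfsg.Agent.S5123
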