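import Cfsg.Statements.S5139
import Cfsg.Agent.Lib_helper8_FusAQ

set_option autoImplicit false
open Cfsg

namespace Cfsg.Agent.S5139

/-- Let G be a finite group with Sylow p-subgroup S and O^p(G) the subgroup generated by the elements of order prime to p. Then the p-residual subsystem of the fusion system of G on S — the saturated subsystem of p-power index over the hyperfocal subgroup — is the fusion system of O^p(G) on S ∩ O^p(G): its maps are exactly the conjugation maps by elements of O^p(G) between subgroups of S ∩ O^p(G). -/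
theorem result {G : Type*} [Group G] [Finite G] (p : ℕ) [Fact p.Prime] (S : Sylow p G) (E : Cfsg.FusionSystem ((Cfsg.groupFusionSystem (S : Subgroup G)).hyperfocalSubgroup p)) (hE : (Cfsg.groupFusionSystem (S : Subgroup G)).IsPResidual p E) : ∃ h : (S : Subgroup G) ⊓ Cfsg.pResidual p G ≤ Cfsg.pResidual p G, ∀ P : Subgroup G, E.Hom P = (Cfsg.fusionSystemOfSubgroup (Cfsg.pResidual p G) ((S : Subgroup G) ⊓ Cfsg.pResidual p G) h).Hom P := by
  open Cfsg.Agent.H8 in
  have hn : (pResidual p G).Normal := Cfsg.Agent.H1.pResidual_normal p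
  have hT : SylIn p ((S : Subgroup G) ⊓ pResidual p G) (pResidual p G) :=
    (sylIn_top S).inf_normal le_top le_top (by rw [Subgroup.normalizer_eq_top])
  have hD := saturated_ofSubgroup inf_le_right hT
  have heq := hyperfocal_group S
  have hDF : (fusionSystemOfSubgroup (pResidual p G) ((S : Subgroup G) ⊓ pResidual p G)
      inf_le_right).IsSubsystemOf (groupFusionSystem (S : Subgroup G)) := by
    refine isSubsystemOf_iff.2 fun P f hf => ?_
    obtain ⟨h1, g, -, h2⟩ := isMap_ofSubgroup_iff.1 hf
    exact isMap_group_iff.2 ⟨h1.trans inf_le_left, g, fun x hx => ⟨(h2 x hx).1, (h2 x hx).2.1⟩⟩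
  have h1 : E.IsSubsystemOf (fusionSystemOfSubgroup (pResidual p G)
      ((S : Subgroup G) ⊓ pResidual p G) inf_le_right) := by
    refine subsystem_of_Op_le (S.2.to_le (hyperfocal_le _ p)) E hE.1 _ heq.le fun P hP => ?_
    rw [autGroup_ofSubgroup (hP.trans heq.le)]
    exact (Op_mono hE.2.1 (hyperfocal_le _ p) p hP).trans
      (Op_group_le (hP.trans (hyperfocal_le _ p)))
  have h2 : (fusionSystemOfSubgroup (pResidual p G)
      ((S : Subgroup G) ⊓ pResidual p G) inf_le_right).IsSubsystemOf E := by
    refine subsystem_of_Op_le (S.2.to_le inf_le_left) _ hD E heq.ge fun P hP => ?_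
    exact (Op_mono hDF inf_le_left p hP).trans (hE.2.2.2 P (hP.trans heq.ge))
  exact ⟨inf_le_right, fun P => Set.Subset.antisymm (h1 P) (h2 P)⟩

end Cfsg.Agent.S5139
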