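import Cfsg.Statements.S5167
import Cfsg.Agent.Lib_H9_Fus3
import Cfsg.Agent.Lib_H9_FusD12

set_option autoImplicit false
open Cfsg

namespace Cfsg.Agent.S5167

/-- The 2-fusion system of the Mathieu group M₁₂ (as the explicit permutation group carved out of the automorphism group of the binary Golay code) on a Sylow 2-subgroup is simple: saturated, over a nontrivial 2-group, with no normal subsystem other than the trivial one and itself. -/
theorem result (S : Sylow 2 Cfsg.Spor.M12) : (Cfsg.groupFusionSystem (S : Subgroup Cfsg.Spor.M12)).IsSimple 2 := by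
  exact (Cfsg.Agent.H9.fus_transfer Cfsg.Agent.H9.M12_eq_GS (fun S' => Cfsg.Agent.H9.Tab.main Cfsg.Agent.H9.D12.tab
    Cfsg.Agent.H9.D12.colok Cfsg.Agent.H9.D12.len (by norm_num) Cfsg.Agent.H9.card_GS12 (by norm_num)
    Cfsg.Agent.H9.D12.cen Cfsg.Agent.H9.D12.crt S') S).1

end Cfsg.Agent.S5167
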