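import Cfsg.Statements.S5344

set_option autoImplicit false
open Cfsg

namespace Cfsg.Agent.S5344

open Equiv

section cox
variable {H : Type*} [Group H]

/-- the six normal forms of the subgroup generated by `a`, `b` -/
def T2 (a b : H) : Fin 6 → H := ![1, a, b, a * b, b * a, a * b * a]

/-- the four coset representatives -/
def T3 (a b c : H) : Fin 4 → H := ![1, c, c * b, c * b * a]

theorem T2_mul_a {a b : H} (haa : a * a = 1) (i : Fin 6) : ∃ i', T2 a b i * a = T2 a b i' := by
  fin_cases i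
  · exact ⟨1, by simp [T2]⟩
  · exact ⟨0, by simp [T2, haa]⟩
  · exact ⟨4, by simp [T2]⟩
  · exact ⟨5, by simp [T2]⟩
  · exact ⟨2, by simp [T2, mul_assoc, haa]⟩
  · exact ⟨3, by simp [T2, mul_assoc, haa]⟩

theorem T2_mul_b {a b : H} (hbb : b * b = 1) (hab : a * b * a = b * a * b) (i : Fin 6) :
    ∃ i', T2 a b i * b = T2 a b i' := by
  fin_cases i
  · exact ⟨2, by simp [T2]⟩
  · exact ⟨3, by simp [T2]⟩
  · exact ⟨0, by simp [T2, hbb]⟩
  · exact ⟨1, by simp [T2, mul_assoc, hbb]⟩
  · exact ⟨5, by simp [T2, hab]⟩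
  · exact ⟨4, by simp [T2, hab, mul_assoc, hbb]⟩

theorem T3_0 (a b c : H) : T3 a b c 0 = 1 := rfl
theorem T3_1 (a b c : H) : T3 a b c 1 = c := rfl
theorem T3_2 (a b c : H) : T3 a b c 2 = c * b := rfl
theorem T3_3 (a b c : H) : T3 a b c 3 = c * b * a := rfl

theorem step_a {a b c : H} (haa : a * a = 1) (hac : a * c = c * a) (i : Fin 6) (j : Fin 4) :
    ∃ i' j', T2 a b i * T3 a b c j * a = T2 a b i' * T3 a b c j' := by
  obtain ⟨i', hi'⟩ := T2_mul_a (b := b) haa i
  fin_cases j
  · refine ⟨i', 0, ?_⟩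
    show T2 a b i * T3 a b c 0 * a = _
    rw [T3_0, mul_one, mul_one, hi']
  · refine ⟨i', 1, ?_⟩
    show T2 a b i * T3 a b c 1 * a = _
    rw [T3_1, ← hi', mul_assoc, ← hac, mul_assoc]
  · refine ⟨i, 3, ?_⟩
    show T2 a b i * T3 a b c 2 * a = _
    rw [T3_2, T3_3]; simp only [mul_assoc]
  · refine ⟨i, 2, ?_⟩
    show T2 a b i * T3 a b c 3 * a = _
    rw [T3_2, T3_3]; simp only [mul_assoc, haa, mul_one]

theorem step_b {a b c : H} (haa : a * a = 1) (hbb : b * b = 1) (hac : a * c = c * a)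
    (hab : a * b * a = b * a * b) (i : Fin 6) (j : Fin 4) :
    ∃ i' j', T2 a b i * T3 a b c j * b = T2 a b i' * T3 a b c j' := by
  obtain ⟨i', hi'⟩ := T2_mul_b hbb hab i
  obtain ⟨i'', hi''⟩ := T2_mul_a (b := b) haa i
  fin_cases j
  · refine ⟨i', 0, ?_⟩
    show T2 a b i * T3 a b c 0 * b = _
    rw [T3_0, mul_one, mul_one, hi']
  · refine ⟨i, 2, ?_⟩
    show T2 a b i * T3 a b c 1 * b = _
    rw [T3_1, T3_2]; simp only [mul_assoc]
  · refine ⟨i, 1, ?_⟩
    show T2 a b i * T3 a b c 2 * b = _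
    rw [T3_1, T3_2]; simp only [mul_assoc, hbb, mul_one]
  · refine ⟨i'', 3, ?_⟩
    show T2 a b i * T3 a b c 3 * b = _
    rw [T3_3, ← hi'']
    calc T2 a b i * (c * b * a) * b = T2 a b i * c * (b * a * b) := by simp only [mul_assoc]
      _ = T2 a b i * c * (a * b * a) := by rw [hab]
      _ = T2 a b i * (c * a) * (b * a) := by simp only [mul_assoc]
      _ = T2 a b i * (a * c) * (b * a) := by rw [hac]
      _ = T2 a b i * a * (c * b * a) := by simp only [mul_assoc]

theorem step_c {a b c : H} (hbb : b * b = 1) (hcc : c * c = 1) (hac : a * c = c * a)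
    (hab : a * b * a = b * a * b) (hbc : b * c * b = c * b * c) (i : Fin 6) (j : Fin 4) :
    ∃ i' j', T2 a b i * T3 a b c j * c = T2 a b i' * T3 a b c j' := by
  obtain ⟨i', hi'⟩ := T2_mul_b hbb hab i
  fin_cases j
  · refine ⟨i, 1, ?_⟩
    show T2 a b i * T3 a b c 0 * c = _
    rw [T3_0, T3_1, mul_one]
  · refine ⟨i, 0, ?_⟩
    show T2 a b i * T3 a b c 1 * c = _
    rw [T3_1, T3_0, mul_assoc, hcc]
  · refine ⟨i', 2, ?_⟩
    show T2 a b i * T3 a b c 2 * c = _
    rw [T3_2, ← hi']
    calc T2 a b i * (c * b) * c = T2 a b i * (c * b * c) := by simp only [mul_assoc]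
      _ = T2 a b i * (b * c * b) := by rw [hbc]
      _ = T2 a b i * b * (c * b) := by simp only [mul_assoc]
  · refine ⟨i', 3, ?_⟩
    show T2 a b i * T3 a b c 3 * c = _
    rw [T3_3, ← hi']
    calc T2 a b i * (c * b * a) * c = T2 a b i * (c * b) * (a * c) := by simp only [mul_assoc]
      _ = T2 a b i * (c * b) * (c * a) := by rw [hac]
      _ = T2 a b i * (c * b * c) * a := by simp only [mul_assoc]
      _ = T2 a b i * (b * c * b) * a := by rw [hbc]
      _ = T2 a b i * b * (c * b * a) := by simp only [mul_assoc]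

theorem mem_forms {a b c : H} (haa : a * a = 1) (hbb : b * b = 1) (hcc : c * c = 1)
    (hac : a * c = c * a) (hab : a * b * a = b * a * b) (hbc : b * c * b = c * b * c)
    {x : H} (hx : x ∈ Subgroup.closure ({a, b, c} : Set H)) :
    ∃ i j, x = T2 a b i * T3 a b c j := by
  have hstep : ∀ (i : Fin 6) (j : Fin 4), ∀ y ∈ ({a, b, c} : Set H),
      ∃ i' j', T2 a b i * T3 a b c j * y = T2 a b i' * T3 a b c j' := by
    intro i j y hy
    rcases hy with rfl | rfl | rfl
    · exact step_a haa hac i j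
    · exact step_b haa hbb hac hab i j
    · exact step_c hbb hcc hac hab hbc i j
  have hinv : ∀ y ∈ ({a, b, c} : Set H), y⁻¹ = y := by
    intro y hy
    rcases hy with rfl | rfl | rfl
    · exact inv_eq_of_mul_eq_one_left haa
    · exact inv_eq_of_mul_eq_one_left hbb
    · exact inv_eq_of_mul_eq_one_left hcc
  induction hx using Subgroup.closure_induction_right with
  | one => exact ⟨0, 0, by simp [T2, T3]⟩
  | mul_right x _ y hy ih =>
    obtain ⟨i, j, rfl⟩ := ih
    exact hstep i j y hy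
  | mul_inv_cancel x _ y hy ih =>
    obtain ⟨i, j, rfl⟩ := ih
    rw [hinv y hy]
    exact hstep i j y hy

theorem forms_mem (a b c : H) (i : Fin 6) (j : Fin 4) :
    T2 a b i * T3 a b c j ∈ Subgroup.closure ({a, b, c} : Set H) := by
  have ha : a ∈ Subgroup.closure ({a, b, c} : Set H) := Subgroup.subset_closure (by simp)
  have hb : b ∈ Subgroup.closure ({a, b, c} : Set H) := Subgroup.subset_closure (by simp)
  have hc : c ∈ Subgroup.closure ({a, b, c} : Set H) := Subgroup.subset_closure (by simp)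
  apply mul_mem
  · fin_cases i
    · exact one_mem _
    · exact ha
    · exact hb
    · exact mul_mem ha hb
    · exact mul_mem hb ha
    · exact mul_mem (mul_mem ha hb) ha
  · fin_cases j
    · exact one_mem _
    · exact hc
    · exact mul_mem hc hb
    · exact mul_mem (mul_mem hc hb) ha

theorem map_forms {H' : Type*} [Group H'] (f : H →* H') (a b c : H) (i : Fin 6) (j : Fin 4) :
    f (T2 a b i * T3 a b c j) = T2 (f a) (f b) i * T3 (f a) (f b) (f c) j := by
  rw [map_mul]
  congr 1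
  · fin_cases i <;> simp [T2]
  · fin_cases j <;> simp [T3]

end cox

set_option maxRecDepth 100000 in
theorem dec1 : ∀ σ : Perm (Fin 4), σ ≠ 1 → ∃ τ₁ τ₂ : Perm (Fin 4),
    τ₁ * σ * τ₁⁻¹ * (τ₂ * σ * τ₂⁻¹) = swap 0 1 * swap 2 3 := by decide

set_option maxRecDepth 100000 in
theorem dec2 : ∀ (i : Fin 6) (j : Fin 4),
    T2 (swap 0 1 : Perm (Fin 4)) (swap 1 2) i * T3 (swap 0 1 : Perm (Fin 4)) (swap 1 2) (swap 2 3) j = 1 →
      i = 0 ∧ j = 0 := by decide

set_option maxRecDepth 100000 in
theorem dec3 : ∀ σ : Perm (Fin 4), ∃ (i : Fin 6) (j : Fin 4),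
    T2 (swap 0 1 : Perm (Fin 4)) (swap 1 2) i * T3 (swap 0 1 : Perm (Fin 4)) (swap 1 2) (swap 2 3) j = σ := by
  decide

/-- The Coxeter presentation of the symmetric group of degree four, as a lifting statement. -/
theorem exists_hom {G : Type*} [Group G] {a b c : G} (haa : a * a = 1) (hbb : b * b = 1)
    (hcc : c * c = 1) (hac : a * c = c * a) (hab : a * b * a = b * a * b)
    (hbc : b * c * b = c * b * c) :
    ∃ φ : Perm (Fin 4) →* G, φ (swap 0 1) = a ∧ φ (swap 1 2) = b ∧ φ (swap 2 3) = c := by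
  set A : Perm (Fin 4) × G := (swap 0 1, a) with hA
  set B : Perm (Fin 4) × G := (swap 1 2, b) with hB
  set C : Perm (Fin 4) × G := (swap 2 3, c) with hC
  have hAA : A * A = 1 :=
    Prod.ext (show (swap 0 1 * swap 0 1 : Perm (Fin 4)) = 1 by decide) haa
  have hBB : B * B = 1 :=
    Prod.ext (show (swap 1 2 * swap 1 2 : Perm (Fin 4)) = 1 by decide) hbb
  have hCC : C * C = 1 :=
    Prod.ext (show (swap 2 3 * swap 2 3 : Perm (Fin 4)) = 1 by decide) hcc
  have hAC : A * C = C * A :=
    Prod.ext (show (swap 0 1 * swap 2 3 : Perm (Fin 4)) = swap 2 3 * swap 0 1 by decide) hac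
  have hAB : A * B * A = B * A * B :=
    Prod.ext (show (swap 0 1 * swap 1 2 * swap 0 1 : Perm (Fin 4)) = swap 1 2 * swap 0 1 * swap 1 2
      by decide) hab
  have hBC : B * C * B = C * B * C :=
    Prod.ext (show (swap 1 2 * swap 2 3 * swap 1 2 : Perm (Fin 4)) = swap 2 3 * swap 1 2 * swap 2 3
      by decide) hbc
  set R := Subgroup.closure ({A, B, C} : Set (Perm (Fin 4) × G)) with hR
  let π : R →* Perm (Fin 4) := (MonoidHom.fst _ _).comp R.subtype
  have hinj : Function.Injective π := by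
    rw [injective_iff_map_eq_one]
    rintro ⟨x, hx⟩ h1
    obtain ⟨i, j, rfl⟩ := mem_forms hAA hBB hCC hAC hAB hBC hx
    have h2 : MonoidHom.fst (Perm (Fin 4)) G (T2 A B i * T3 A B C j) = 1 := h1
    rw [map_forms] at h2
    obtain ⟨rfl, rfl⟩ := dec2 i j h2
    apply Subtype.ext
    simp [T2, T3]
  have hsurj : Function.Surjective π := by
    intro σ
    obtain ⟨i, j, hij⟩ := dec3 σ
    refine ⟨⟨T2 A B i * T3 A B C j, forms_mem A B C i j⟩, ?_⟩
    show MonoidHom.fst (Perm (Fin 4)) G (T2 A B i * T3 A B C j) = σ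
    rw [map_forms]
    exact hij
  let e : R ≃* Perm (Fin 4) := MulEquiv.ofBijective π ⟨hinj, hsurj⟩
  refine ⟨((MonoidHom.snd _ _).comp R.subtype).comp e.symm.toMonoidHom, ?_, ?_, ?_⟩
  · have : e.symm (swap 0 1) = ⟨A, Subgroup.subset_closure (by simp)⟩ := by
      rw [MulEquiv.symm_apply_eq]; rfl
    simp only [MonoidHom.coe_comp, Function.comp_apply, MulEquiv.coe_toMonoidHom, this]
    rfl
  · have : e.symm (swap 1 2) = ⟨B, Subgroup.subset_closure (by simp)⟩ := by
      rw [MulEquiv.symm_apply_eq]; rfl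
    simp only [MonoidHom.coe_comp, Function.comp_apply, MulEquiv.coe_toMonoidHom, this]
    rfl
  · have : e.symm (swap 2 3) = ⟨C, Subgroup.subset_closure (by simp)⟩ := by
      rw [MulEquiv.symm_apply_eq]; rfl
    simp only [MonoidHom.coe_comp, Function.comp_apply, MulEquiv.coe_toMonoidHom, this]
    rfl

theorem injective_of_ne {G : Type*} [Group G] (φ : Perm (Fin 4) →* G)
    (h : φ (swap 0 1) * φ (swap 2 3) ≠ 1) : Function.Injective φ := by
  rw [injective_iff_map_eq_one]
  intro σ hσ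
  by_contra hne
  obtain ⟨τ₁, τ₂, ht⟩ := dec1 σ hne
  apply h
  rw [← map_mul, ← ht]
  simp [hσ]

/-- In a set of 3-transpositions, let a, b, c be members with a and c different and commuting, while neither a nor c commutes with b (a 3-string). Then there is an injective homomorphism from the symmetric group of degree 4 into the ambient group sending the transpositions (0 1), (1 2), (2 3) to a, b, c; so a, b, c generate a copy of the symmetric group of degree 4 in which they are transpositions. -/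
theorem result {G : Type*} [Group G] {D : Set G} (hD : Cfsg.IsThreeTranspositionSet D) {a b c : G} (ha : a ∈ D) (hb : b ∈ D) (hc : c ∈ D) (hac : a ≠ c) (hac' : Commute a c) (hab : ¬ Commute a b) (hbc : ¬ Commute b c) : ∃ φ : Equiv.Perm (Fin 4) →* G, Function.Injective φ ∧ φ (Equiv.swap 0 1) = a ∧ φ (Equiv.swap 1 2) = b ∧ φ (Equiv.swap 2 3) = c := by
  have haa : a * a = 1 := by
    have := pow_orderOf_eq_one a
    rwa [hD.1 a ha, pow_two] at this
  have hbb : b * b = 1 := by
    have := pow_orderOf_eq_one b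
    rwa [hD.1 b hb, pow_two] at this
  have hcc : c * c = 1 := by
    have := pow_orderOf_eq_one c
    rwa [hD.1 c hc, pow_two] at this
  have braid : ∀ x y : G, x * x = 1 → y * y = 1 → ((x * y) ^ 2 = 1 ∨ (x * y) ^ 3 = 1) →
      ¬ Commute x y → x * y * x = y * x * y := by
    intro x y hx hy h hn
    have hxi := inv_eq_of_mul_eq_one_left hx
    have hyi := inv_eq_of_mul_eq_one_left hy
    rcases h with h | h
    · exfalso
      apply hn
      show x * y = y * x
      rw [pow_two] at h
      have h3 : x * y = (x * y)⁻¹ := eq_inv_of_mul_eq_one_left h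
      rw [h3, mul_inv_rev, hxi, hyi]
    · have h1 : (x * y * x) * (y * x * y) = 1 := by
        rw [← h, pow_succ, pow_two]; group
      have h2 := eq_inv_of_mul_eq_one_left h1
      rw [h2]
      simp only [mul_inv_rev, hxi, hyi, mul_assoc]
  obtain ⟨φ, h1, h2, h3⟩ := exists_hom haa hbb hcc hac'.eq
    (braid a b haa hbb (hD.2 a ha b hb) hab) (braid b c hbb hcc (hD.2 b hb c hc) hbc)
  refine ⟨φ, injective_of_ne φ ?_, h1, h2, h3⟩
  rw [h1, h3]
  intro h
  apply hac
  have := eq_inv_of_mul_eq_one_left h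
  rw [this, inv_eq_of_mul_eq_one_left hcc]

end Cfsg.Agent.S5344
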