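import Cfsg.Statements.S5345

set_option autoImplicit false
open Cfsg

namespace Cfsg.Agent.S5345


/-- Let D be a conjugation-invariant generating set of 3-transpositions of a finite group G and T a Sylow 2-subgroup of G. Then the members of D lying in T generate an abelian subgroup, and their number is the width of D (the largest number of pairwise commuting members of D). -/
theorem result {G : Type*} [Group G] [Finite G] {D : Set G} (hD : Cfsg.IsThreeTranspositionGroup D) (T : Sylow 2 G) : IsMulCommutative (Subgroup.closure {d : G | d ∈ D ∧ d ∈ T}) ∧ {d : G | d ∈ D ∧ d ∈ T}.ncard = Cfsg.commutingWidth D := by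
  haveI : Fact (Nat.Prime 2) := ⟨Nat.prime_two⟩
  obtain ⟨⟨hord, h23⟩, hconj, -⟩ := hD
  have hsq : ∀ d ∈ D, d * d = 1 := by
    intro d hd
    have := pow_orderOf_eq_one d
    rw [hord d hd, pow_two] at this
    exact this
  have hinv' : ∀ d ∈ D, d⁻¹ = d := fun d hd => inv_eq_of_mul_eq_one_left (hsq d hd)
  have hcomm : ∀ x ∈ {d : G | d ∈ D ∧ d ∈ T}, ∀ y ∈ {d : G | d ∈ D ∧ d ∈ T}, x * y = y * x := by
    rintro x ⟨hx, hxT⟩ y ⟨hy, hyT⟩
    have h2 : (x * y) * (x * y) = 1 := by
      rcases h23 x hx y hy with h | h
      · rwa [pow_two] at h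
      · obtain ⟨k, hk⟩ := T.isPGroup' ⟨x * y, T.mul_mem hxT hyT⟩
        have hk' : (x * y) ^ (2 ^ k) = 1 := by
          have := congrArg Subtype.val hk
          simpa using this
        have hc : Nat.Coprime (2 ^ k) 3 := by
          apply Nat.Coprime.pow_left
          norm_num
        have h1 := orderOf_dvd_of_pow_eq_one hk'
        have h2 := orderOf_dvd_of_pow_eq_one h
        have h3 : orderOf (x * y) ∣ 1 := by
          have := Nat.dvd_gcd h1 h2
          rwa [hc] at this
        rw [orderOf_eq_one_iff.1 (Nat.dvd_one.1 h3), one_mul]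
    have h3 : x * y = (x * y)⁻¹ := eq_inv_of_mul_eq_one_left h2
    rw [h3, mul_inv_rev, hinv' x hx, hinv' y hy]
  refine ⟨Subgroup.isMulCommutative_closure hcomm, ?_⟩
  symm
  apply IsGreatest.csSup_eq
  constructor
  · exact ⟨_, fun x hx => hx.1, Set.toFinite _, fun a ha b hb => hcomm a ha b hb, rfl⟩
  · rintro n ⟨E, hED, -, hEc, rfl⟩
    haveI hK : IsMulCommutative (Subgroup.closure E) :=
      Subgroup.isMulCommutative_closure (fun a ha b hb => hEc a ha b hb)
    have hKc : ∀ x ∈ Subgroup.closure E, ∀ y ∈ Subgroup.closure E, x * y = y * x := by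
      intro x hx y hy
      exact setLike_mul_comm hx hy
    have hK2 : ∀ x ∈ Subgroup.closure E, x * x = 1 := by
      intro x hx
      induction hx using Subgroup.closure_induction with
      | mem x hx => exact hsq x (hED hx)
      | one => simp
      | mul x y hx hy ihx ihy =>
        calc x * y * (x * y) = x * (y * x) * y := by group
          _ = x * (x * y) * y := by rw [hKc y hy x hx]
          _ = (x * x) * (y * y) := by group
          _ = 1 := by rw [ihx, ihy, one_mul]
      | inv x hx ih =>
        have : x⁻¹ = x := inv_eq_of_mul_eq_one_left ih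
        rw [this, ih]
    have hP : IsPGroup 2 (Subgroup.closure E) := by
      rintro ⟨x, hx⟩
      refine ⟨1, ?_⟩
      apply Subtype.ext
      simp only [pow_one, pow_two, Subgroup.coe_mul, Subgroup.coe_one]
      exact hK2 x hx
    obtain ⟨Q, hQ⟩ := hP.exists_le_sylow
    obtain ⟨g, hg⟩ := MulAction.exists_smul_eq G Q T
    apply Set.ncard_le_ncard_of_injOn (fun x => g * x * g⁻¹)
    · intro a ha
      refine ⟨hconj g a (hED ha), ?_⟩
      have h1 : a ∈ (Q : Subgroup G) := hQ (Subgroup.subset_closure ha)
      have h2 : g * a * g⁻¹ ∈ ((g • Q : Sylow 2 G) : Subgroup G) := by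
        rw [Sylow.coe_subgroup_smul]
        exact Subgroup.smul_mem_pointwise_smul a (MulAut.conj g) _ h1
      rw [hg] at h2
      exact h2
    · intro a _ b _ hab
      simpa using hab

end Cfsg.Agent.S5345
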