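import Cfsg.Statements.S5349
import Cfsg.Agent.Lib_helper5_ThreeTr

set_option autoImplicit false
open Cfsg

namespace Cfsg.Agent.S5349

open H5.ThreeTr

theorem commute_of_mem_pCore {G : Type*} [Group G] {D : Set G}
    (hD : Cfsg.IsThreeTranspositionSet D) {x y e : G} (hx : x ∈ D) (hy : y ∈ D) (he : e ∈ D)
    (hq : x⁻¹ * y ∈ Cfsg.pCore 2 G) (hc : Commute x e) : Commute y e := by
  by_contra hcon
  have h3 := cube_of_not_commute hD hy he hcon
  have hn : (Cfsg.pCore 2 G).Normal := H1.pCore_normal 2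
  have hxi := inv_eq_self hD hx
  have hei := inv_eq_self hD he
  have hxx := sq_eq_one hD hx
  set q := x⁻¹ * y with hqdef
  have hyq : y = x * q := by rw [hqdef]; group
  have h2 : (y * e) ^ 2 ∈ Cfsg.pCore 2 G := by
    have : (y * e) ^ 2 = (x * q * x⁻¹) * (e * q * e⁻¹) := by
      rw [pow_two, hyq, hxi, hei]
      calc x * q * e * (x * q * e) = x * q * (e * x) * q * e := by group
        _ = x * q * (x * e) * q * e := by rw [hc.eq]
        _ = x * q * x * (e * q * e) := by group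
    rw [this]
    exact mul_mem (hn.conj_mem q hq x) (hn.conj_mem q hq e)
  have h1 : y * e ∈ Cfsg.pCore 2 G := by
    have : y * e = ((y * e) ^ 2)⁻¹ := by
      apply eq_inv_of_mul_eq_one_left
      rw [← pow_succ']; exact h3
    rw [this]
    exact inv_mem h2
  obtain ⟨k, hk⟩ := (H1.pCore_isPGroup 2 (G := G)) ⟨_, h1⟩
  have hk' : (y * e) ^ (2 ^ k) = 1 := by
    have := congrArg Subtype.val hk
    simpa using this
  have hcop : Nat.Coprime (2 ^ k) 3 := by
    apply Nat.Coprime.pow_left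
    norm_num
  have d1 := orderOf_dvd_of_pow_eq_one hk'
  have d2 := orderOf_dvd_of_pow_eq_one h3
  have d3 : orderOf (y * e) ∣ 1 := by
    have := Nat.dvd_gcd d1 d2
    rwa [hcop] at this
  have hye : y * e = 1 := orderOf_eq_one_iff.1 (Nat.dvd_one.1 d3)
  apply hcon
  have : y = e := by
    have := eq_inv_of_mul_eq_one_left hye
    rw [this, hei]
  rw [this]

/-- Let D be a conjugacy class of 3-transpositions generating the finite group G, with at least two members, and d a member of D. Then the set of members of D commuting with exactly the same members of D as d coincides with the set of members of D lying in the coset of d modulo the largest normal 2-subgroup of G, and also with the orbit of d under conjugation by that normal 2-subgroup. -/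
theorem result {G : Type*} [Group G] [Finite G] {D : Set G} (hD : Cfsg.IsThreeTranspositionClass D) (hD2 : ∃ a ∈ D, ∃ b ∈ D, a ≠ b) {d : G} (hd : d ∈ D) : {v : G | v ∈ D ∧ ∀ e ∈ D, Commute v e ↔ Commute d e} = {v : G | v ∈ D ∧ d⁻¹ * v ∈ Cfsg.pCore 2 G} ∧ {v : G | v ∈ D ∧ ∀ e ∈ D, Commute v e ↔ Commute d e} = {v : G | ∃ g ∈ Cfsg.pCore 2 G, v = g * d * g⁻¹} := by
  have hS := hD.1
  have hconj : ∀ g : G, ∀ d ∈ D, g * d * g⁻¹ ∈ D := fun g _ hd => conj_mem_of_class hD g hd
  have hn : (Cfsg.pCore 2 G).Normal := H1.pCore_normal 2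
  have hdi := inv_eq_self hS hd
  have hVB : {v : G | v ∈ D ∧ ∀ e ∈ D, Commute v e ↔ Commute d e} ⊆
      {v : G | ∃ g ∈ Cfsg.pCore 2 G, v = g * d * g⁻¹} := by
    rintro v ⟨hv, hvd⟩
    have hs : SameC D v d := hvd
    obtain ⟨e, he, hne⟩ := exists_not_commute hD hD2 hd
    have hne' : ¬ Commute v e := fun h' => hne ((hvd e he).1 h')
    refine ⟨e * (d * v) * e⁻¹, hn.conj_mem _ (mul_mem_pCore hS hconj hd hv hs) e, ?_⟩
    exact (word3 (sq_eq_one hS hd) (sq_eq_one hS he) (sq_eq_one hS hv) (braid hS hd he hne)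
      (braid hS hv he hne') (hs.commute hd).symm.eq).symm
  have hBA : {v : G | ∃ g ∈ Cfsg.pCore 2 G, v = g * d * g⁻¹} ⊆
      {v : G | v ∈ D ∧ d⁻¹ * v ∈ Cfsg.pCore 2 G} := by
    rintro v ⟨g, hg, rfl⟩
    refine ⟨hconj g d hd, ?_⟩
    have : d⁻¹ * (g * d * g⁻¹) = (d⁻¹ * g * d⁻¹⁻¹) * g⁻¹ := by group
    rw [this]
    exact mul_mem (hn.conj_mem g hg d⁻¹) (inv_mem hg)
  have hAV : {v : G | v ∈ D ∧ d⁻¹ * v ∈ Cfsg.pCore 2 G} ⊆
      {v : G | v ∈ D ∧ ∀ e ∈ D, Commute v e ↔ Commute d e} := by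
    rintro v ⟨hv, hq⟩
    refine ⟨hv, fun e he => ⟨fun h => ?_, fun h => ?_⟩⟩
    · apply commute_of_mem_pCore hS hv hd he _ h
      have : v⁻¹ * d = (d⁻¹ * v)⁻¹ := by group
      rw [this]
      exact inv_mem hq
    · exact commute_of_mem_pCore hS hd hv he hq h
  exact ⟨Set.Subset.antisymm (hVB.trans hBA) hAV, Set.Subset.antisymm hVB (hBA.trans hAV)⟩

end Cfsg.Agent.S5349
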