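import Cfsg.Statements.S5355
import Cfsg.Agent.Lib_helper5_ThreeTr
import Cfsg.Agent.S5344

set_option autoImplicit false
open Cfsg

namespace Cfsg.Agent.S5355

open H5.ThreeTr

theorem conj_ne {G : Type*} [Group G] {D : Set G} (hD : Cfsg.IsThreeTranspositionSet D)
    {x x' f : G} (hx : x ∈ D) (hx' : x' ∈ D) (hf : f ∈ D) (hs : SameC D x' x) (hne : x' ≠ x)
    (hc : ¬ Commute x f) : (x * x') * f * (x * x')⁻¹ ≠ f := by
  intro h
  apply hne
  have hc' : ¬ Commute x' f := fun h' => hc ((hs f hf).1 h')
  have b1 := braid hD hx hf hc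
  have b2 := braid hD hx' hf hc'
  have hxi := inv_eq_self hD hx
  have hxi' := inv_eq_self hD hx'
  have hxx := sq_eq_one hD hx
  have hff := sq_eq_one hD hf
  rw [mul_inv_rev, hxi, hxi'] at h
  have h1 : x' * f * x' = x * f * x := by
    calc x' * f * x' = (x * x) * (x' * f * x') * (x * x) := by rw [hxx, one_mul, mul_one]
      _ = x * (x * x' * f * (x' * x)) * x := by group
      _ = x * f * x := by rw [h]
  rw [b1, b2] at h1
  calc x' = (f * f) * x' * (f * f) := by rw [hff, one_mul, mul_one]
    _ = f * (f * x' * f) * f := by group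
    _ = f * (f * x * f) * f := by rw [h1]
    _ = (f * f) * x * (f * f) := by group
    _ = x := by rw [hff, one_mul, mul_one]

/-- Let D be a conjugacy class of 3-transpositions generating the finite group G, with at least two members, and d a member of D. Suppose that every member of D commuting with d commutes with exactly the same members of D as d does, and that exactly one member of D other than d commutes with d. Then G is isomorphic to the symmetric group of degree 4. -/
theorem result {G : Type*} [Group G] [Finite G] {D : Set G} (hD : Cfsg.IsThreeTranspositionClass D) (hD2 : ∃ a ∈ D, ∃ b ∈ D, a ≠ b) {d : G} (hd : d ∈ D) (hV : {y : G | y ∈ D ∧ Commute d y} = {v : G | v ∈ D ∧ ∀ e ∈ D, Commute v e ↔ Commute d e}) (hm : {y : G | y ∈ D ∧ Commute d y}.ncard = 2) : Nonempty (G ≃* Equiv.Perm (Fin 4)) := by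
  have hS := hD.1
  have hconj : ∀ g : G, ∀ d ∈ D, g * d * g⁻¹ ∈ D := fun g _ hd => conj_mem_of_class hD g hd
  have hconj' : ∀ g : G, ∀ d ∈ D, g⁻¹ * d * g ∈ D := by
    intro g x hx
    have := hconj g⁻¹ x hx
    rwa [inv_inv] at this
  -- the partner of d
  obtain ⟨v, hvD, hvd, hdv, huniq⟩ : ∃ v ∈ D, v ≠ d ∧ Commute d v ∧
      ∀ y ∈ D, Commute d y → y = d ∨ y = v := by
    obtain ⟨p, q, hpq, hset⟩ := Set.ncard_eq_two.1 hm
    have hdmem : d ∈ {y : G | y ∈ D ∧ Commute d y} := ⟨hd, Commute.refl d⟩
    have hp : p ∈ {y : G | y ∈ D ∧ Commute d y} := by rw [hset]; simp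
    have hq : q ∈ {y : G | y ∈ D ∧ Commute d y} := by rw [hset]; simp
    rw [hset] at hdmem
    rcases hdmem with h | h
    · refine ⟨q, hq.1, fun h' => hpq (by rw [← h, h']), hq.2, ?_⟩
      intro y hy hc
      have : y ∈ {y : G | y ∈ D ∧ Commute d y} := ⟨hy, hc⟩
      rw [hset] at this
      rcases this with h' | h'
      · left; rw [h', h]
      · right; exact h'
    · have h : d = q := h
      refine ⟨p, hp.1, fun h' => hpq (by rw [← h, h']), hp.2, ?_⟩
      intro y hy hc
      have : y ∈ {y : G | y ∈ D ∧ Commute d y} := ⟨hy, hc⟩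
      rw [hset] at this
      rcases this with h' | h'
      · right; exact h'
      · left; rw [h]; exact h'
  -- transfer to all members
  have hU : ∀ x ∈ D, ∀ y ∈ D, ∀ z ∈ D, Commute x y → Commute x z → y ≠ x → z ≠ x → y = z := by
    intro x hx y hy z hz hxy hxz hyx hzx
    obtain ⟨g, rfl⟩ := exists_conj_of_class hD hd hx
    have h1 := (commute_conj_iff g d y).1 hxy
    have h2 := (commute_conj_iff g d z).1 hxz
    have e1 : g⁻¹ * y * g = v := by
      rcases huniq _ (hconj' g y hy) h1 with h | h
      · exfalso; apply hyx; rw [← h]; group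
      · exact h
    have e2 : g⁻¹ * z * g = v := by
      rcases huniq _ (hconj' g z hz) h2 with h | h
      · exfalso; apply hzx; rw [← h]; group
      · exact h
    calc y = g * (g⁻¹ * y * g) * g⁻¹ := by group
      _ = g * (g⁻¹ * z * g) * g⁻¹ := by rw [e1, e2]
      _ = z := by group
  have hsv : SameC D v d := by
    have : v ∈ {y : G | y ∈ D ∧ Commute d y} := ⟨hvD, hdv⟩
    rw [hV] at this
    exact this.2
  obtain ⟨e, he, hne⟩ := exists_not_commute hD hD2 hd
  have hne' : ¬ Commute v e := fun h' => hne ((hsv e he).1 h')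
  have hei := inv_eq_self hS he
  set H := Subgroup.closure ({d, e, v} : Set G) with hH
  have hdH : d ∈ H := Subgroup.subset_closure (by simp)
  have heH : e ∈ H := Subgroup.subset_closure (by simp)
  have hvH : v ∈ H := Subgroup.subset_closure (by simp)
  set u1 := d * v with hu1
  set e' := u1 * e * u1⁻¹ with he'
  set g1 := e * d * e⁻¹ with hg1
  set g1' := e * v * e⁻¹ with hg1'
  have he'D : e' ∈ D := hconj u1 e he
  have hg1D : g1 ∈ D := hconj e d hd
  have hg1'D : g1' ∈ D := hconj e v hvD
  have hse' : SameC D e' e := sameC_conj_mul hS hconj hd hvD he hsv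
  have hsg : SameC D g1' g1 := hsv.conj hconj e
  have he'ne : e' ≠ e := conj_ne hS hd hvD he hsv hvd hne
  have hg1ne : g1' ≠ g1 := by
    intro h
    apply hvd
    have : e * v * e⁻¹ = e * d * e⁻¹ := h
    simpa using this
  have hDH : ∀ f ∈ D, f ∈ H := by
    intro f hf
    by_cases c1 : Commute d f
    · rcases huniq f hf c1 with h | h
      · rw [h]; exact hdH
      · rw [h]; exact hvH
    by_cases c2 : Commute e f
    · by_cases hfe : f = e
      · rw [hfe]; exact heH
      · have := hU e he f hf e' he'D c2 (hse'.commute he).symm hfe he'ne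
        rw [this]
        exact mul_mem (mul_mem (mul_mem hdH hvH) heH) (inv_mem (mul_mem hdH hvH))
    by_cases c3 : Commute g1 f
    · by_cases hfe : f = g1
      · rw [hfe]; exact mul_mem (mul_mem heH hdH) (inv_mem heH)
      · have := hU g1 hg1D f hf g1' hg1'D c3 (hsg.commute hg1D).symm hfe hg1ne
        rw [this]
        exact mul_mem (mul_mem heH hvH) (inv_mem heH)
    exfalso
    have n1 := conj_ne hS hd hvD hf hsv hvd c1
    have n2 := conj_ne hS he he'D hf hse' he'ne c2
    have n3 := conj_ne hS hg1D hg1'D hf hsg hg1ne c3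
    have s1 : SameC D (d * v * f * (d * v)⁻¹) f := sameC_conj_mul hS hconj hd hvD hf hsv
    have s2 : SameC D (e * e' * f * (e * e')⁻¹) f := sameC_conj_mul hS hconj he he'D hf hse'
    have s3 : SameC D (g1 * g1' * f * (g1 * g1')⁻¹) f :=
      sameC_conj_mul hS hconj hg1D hg1'D hf hsg
    have m1 : d * v * f * (d * v)⁻¹ ∈ D := hconj _ f hf
    have m2 : e * e' * f * (e * e')⁻¹ ∈ D := hconj _ f hf
    have m3 : g1 * g1' * f * (g1 * g1')⁻¹ ∈ D := hconj _ f hf
    have q12 := hU f hf _ m1 _ m2 (s1.commute hf).symm (s2.commute hf).symm n1 n2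
    have hu3 : g1 * g1' = (e * e') * (d * v) := by
      rw [hg1, hg1', he', hu1]
      calc e * d * e⁻¹ * (e * v * e⁻¹) = e * (d * v) * e⁻¹ := by group
        _ = e * (d * v) * e := by rw [hei]
        _ = e * (d * v * e * (d * v)⁻¹) * (d * v) := by group
    have hu22 : (e * e') * (e * e') = 1 := by
      have hc : Commute e e' := (hse'.commute he).symm
      calc (e * e') * (e * e') = e * (e' * e) * e' := by group
        _ = e * (e * e') * e' := by rw [hc.eq]
        _ = (e * e) * (e' * e') := by group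
        _ = 1 := by rw [sq_eq_one hS he, sq_eq_one hS he'D, one_mul]
    apply n3
    calc g1 * g1' * f * (g1 * g1')⁻¹
        = (e * e') * (d * v * f * (d * v)⁻¹) * (e * e')⁻¹ := by rw [hu3]; group
      _ = (e * e') * (e * e' * f * (e * e')⁻¹) * (e * e')⁻¹ := by rw [q12]
      _ = ((e * e') * (e * e')) * f * ((e * e') * (e * e'))⁻¹ := by group
      _ = f := by rw [hu22]; simp
  have hHtop : H = ⊤ := by
    rw [eq_top_iff, ← hD.2.2, Subgroup.closure_le]
    exact fun f hf => hDH f hf
  obtain ⟨φ, hinj, h1, h2, h3⟩ := S5344.result hS hd he hvD (Ne.symm hvd) hdv hne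
    (fun h => hne' h.symm)
  have hsurj : Function.Surjective φ := by
    rw [← MonoidHom.range_eq_top, eq_top_iff, ← hHtop, hH, Subgroup.closure_le]
    rintro x (rfl | rfl | rfl)
    · exact ⟨_, h1⟩
    · exact ⟨_, h2⟩
    · exact ⟨_, h3⟩
  exact ⟨(MulEquiv.ofBijective φ ⟨hinj, hsurj⟩).symm⟩

end Cfsg.Agent.S5355
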