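import Cfsg.Statements.S5357
import Cfsg.Agent.Lib_helper6_Refl3Mat

set_option autoImplicit false
open scoped MatrixGroups
open Cfsg

namespace Cfsg.Agent.S5357

/-- Let Q be a non-degenerate quadratic form on the n-dimensional coordinate space over the field with three elements, n ≥ 5, and c a non-zero scalar. In the subgroup of the isometry group of Q generated by the reflections in vectors v with Q(v) = c, these reflections form a single conjugacy class of 3-transpositions generating that subgroup. -/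
theorem result (n : ℕ) (hn : 5 ≤ n) (Q : QuadraticForm (ZMod 3) (Fin n → ZMod 3)) (hQ : (QuadraticMap.polarBilin Q).Nondegenerate) (c : ZMod 3) (hc : c ≠ 0) : Cfsg.IsThreeTranspositionClass {g : ↥(Cfsg.reflectionSubgroup (⇑Q) c) | (g : ↥(Cfsg.isometryGroup (ZMod 3) (⇑Q))) ∈ Cfsg.reflectionsOfNorm (⇑Q) c} := by
  have h2 : (2 : ZMod 3) ≠ 0 := by decide
  have hF : ∀ t : ZMod 3, t ≠ 0 → t * t = 1 := by decide
  have hd : 5 ≤ Module.finrank (ZMod 3) (Fin n → ZMod 3) := by
    rw [Module.finrank_fin_fun]; exact hn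
  obtain ⟨e, he⟩ : ∃ e, e = H6.Quad.isometryGroupEquiv Q ⇑Q (fun _ => rfl) := ⟨_, rfl⟩
  have hD : ∀ g : ↥(Cfsg.isometryGroup (ZMod 3) (⇑Q)), g ∈ Cfsg.reflectionsOfNorm (⇑Q) c ↔
      ∃ u hu, Q u = c ∧ e g = H6.Quad.Rf hQ u hu := by
    intro g
    have h := H6.Quad.image_reflectionsOfNorm Q hQ hc
    rw [← he] at h
    constructor
    · intro hg
      have : e g ∈ e '' Cfsg.reflectionsOfNorm (⇑Q) c := ⟨g, hg, rfl⟩
      rw [h] at this
      exact this
    · intro hg
      have : e g ∈ e '' Cfsg.reflectionsOfNorm (⇑Q) c := by rw [h]; exact hg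
      obtain ⟨x, hx, hxg⟩ := this
      rwa [← e.injective hxg]
  refine ⟨⟨?_, ?_⟩, ?_, ?_⟩
  · intro d hd'
    obtain ⟨u, hu, -, hdu⟩ := (hD d.1).mp hd'
    rw [← Subgroup.orderOf_coe, ← MulEquiv.orderOf_eq e, hdu]
    exact orderOf_eq_prime (by rw [sq, H6.Quad.Rf_mul_self]) (H6.Quad.Rf_ne_one h2 hQ u hu)
  · intro d hd' d' hd''
    obtain ⟨u, hu, huc, hdu⟩ := (hD d.1).mp hd'
    obtain ⟨v, hv, hvc, hdv⟩ := (hD d'.1).mp hd''
    rcases H6.Quad.three_transp hF hQ hu hv (by rw [huc, hvc]) with h | h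
    · left
      apply Subtype.ext
      apply e.injective
      rw [Subgroup.coe_pow, Subgroup.coe_mul, map_pow, map_mul, hdu, hdv, h]
      simp
    · right
      apply Subtype.ext
      apply e.injective
      rw [Subgroup.coe_pow, Subgroup.coe_mul, map_pow, map_mul, hdu, hdv, h]
      simp
  · obtain ⟨u, hu⟩ := H6.Quad.universal hQ (by omega) c
    have hu0 : Q u ≠ 0 := by rw [hu]; exact hc
    have hmem : H6.Quad.reflElt Q u hu0 ∈ Cfsg.reflectionsOfNorm (⇑Q) c := ⟨u, hu, rfl⟩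
    have heu : e (H6.Quad.reflElt Q u hu0) = H6.Quad.Rf hQ u hu0 := by
      rw [he]; exact H6.Quad.equiv_reflElt Q hQ u hu0
    refine ⟨⟨H6.Quad.reflElt Q u hu0, Subgroup.subset_closure hmem⟩, hmem, ?_⟩
    ext g
    rw [conjugatesOf, Set.mem_setOf_eq (p := fun b => IsConj _ b), isConj_iff]
    constructor
    · intro hg
      obtain ⟨v, hv, hvc, hgv⟩ := (hD g.1).mp hg
      obtain ⟨h, ⟨h', hh', rfl⟩, hconj⟩ := H6.Quad.exists_conj3 h2 hF hQ hd
        ((Cfsg.reflectionSubgroup (⇑Q) c).map e.toMonoidHom) (by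
          intro w hw hwc
          refine ⟨H6.Quad.reflElt Q w hw, Subgroup.subset_closure ⟨w, hwc, rfl⟩, ?_⟩
          rw [he]; exact H6.Quad.equiv_reflElt Q hQ w hw) hu0 hv hu hvc
      refine ⟨⟨h', hh'⟩, ?_⟩
      apply Subtype.ext
      apply e.injective
      rw [hgv, ← hconj, ← heu]
      simp
    · rintro ⟨h, rfl⟩
      rw [Set.mem_setOf_eq, hD]
      have hk : Q ((e h.1).1 u) ≠ 0 := by
        rw [H6.Quad.mem_IsomOf_iff.mp (e h.1).2]; exact hu0
      refine ⟨(e h.1).1 u, hk, by rw [H6.Quad.mem_IsomOf_iff.mp (e h.1).2]; exact hu, ?_⟩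
      rw [← H6.Quad.conj_Rf hQ u hu0 (e h.1) hk, ← heu]
      simp
  · exact Subgroup.closure_closure_coe_preimage

end Cfsg.Agent.S5357
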