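import Cfsg.Statements.S5358
import Cfsg.Agent.Lib_helper6_Refl3Mat

set_option autoImplicit false
open scoped MatrixGroups
open Cfsg

namespace Cfsg.Agent.S5358

/-- Let Q be a non-degenerate quadratic form on the n-dimensional coordinate space over the field with three elements and u, v vectors of the same non-zero norm Q(u) = Q(v) spanning different lines (v ≠ u and v ≠ −u). Then the reflection matrices of u and v commute if and only if u and v are orthogonal for the polar form of Q. -/
theorem result (n : ℕ) (Q : QuadraticForm (ZMod 3) (Fin n → ZMod 3)) (hQ : (QuadraticMap.polarBilin Q).Nondegenerate) (u v : Fin n → ZMod 3) (hu : Q u ≠ 0) (huv : Q u = Q v) (h1 : v ≠ u) (h2 : v ≠ -u) : Commute (Cfsg.reflectionMatrix (⇑Q) u) (Cfsg.reflectionMatrix (⇑Q) v) ↔ QuadraticMap.polar (⇑Q) u v = 0 := by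
  have h2' : (2 : ZMod 3) ≠ 0 := by decide
  have hv : Q v ≠ 0 := huv ▸ hu
  have hnot : v ∉ Submodule.span (ZMod 3) {u} := by
    intro h
    obtain ⟨t, rfl⟩ := Submodule.mem_span_singleton.mp h
    have ht : ∀ t : ZMod 3, t = 0 ∨ t = 1 ∨ t = -1 := by decide
    rcases ht t with rfl | rfl | rfl
    · apply hv; simp
    · apply h1; simp
    · apply h2; simp
  have key := H6.Quad.Rf_commute_iff h2' hQ hu hv hnot
  rw [← H6.Quad.equiv_reflElt Q hQ u hu, ← H6.Quad.equiv_reflElt Q hQ v hv, ← map_mul, ← map_mul,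
    (H6.Quad.isometryGroupEquiv Q ⇑Q (fun _ => rfl)).injective.eq_iff] at key
  change _ ↔ H6.Quad.pol Q u v = 0
  rw [← key]
  constructor
  · intro h
    apply Subtype.ext
    apply Units.ext
    exact h
  · intro h
    exact congrArg (fun g : Cfsg.isometryGroup (ZMod 3) ⇑Q =>
      ((g : Matrix.GeneralLinearGroup (Fin n) (ZMod 3)) : Matrix (Fin n) (Fin n) (ZMod 3))) h

end Cfsg.Agent.S5358
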