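import Cfsg.Statements.S5359
import Cfsg.Agent.Lib_helper6_Refl3Mat

set_option autoImplicit false
open scoped MatrixGroups
open Cfsg

namespace Cfsg.Agent.S5359

/-- Let Q be a non-degenerate quadratic form on the n-dimensional coordinate space over the field with three elements, n odd and at least 5, and c a non-zero scalar. Then the subgroup of the isometry group of Q generated by the reflections in vectors of norm c has index 2 in the isometry group. -/
theorem result (n : ℕ) (hn : 5 ≤ n) (hodd : Odd n) (Q : QuadraticForm (ZMod 3) (Fin n → ZMod 3)) (hQ : (QuadraticMap.polarBilin Q).Nondegenerate) (c : ZMod 3) (hc : c ≠ 0) : (Cfsg.reflectionSubgroup (⇑Q) c).index = 2 := by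
  have h2 : (2 : ZMod 3) ≠ 0 := by decide
  have h3 : (3 : ZMod 3) = 0 := by decide
  have hF : ∀ t : ZMod 3, t ≠ 0 → t * t = 1 := by decide
  have hd : 5 ≤ Module.finrank (ZMod 3) (Fin n → ZMod 3) := by
    rw [Module.finrank_fin_fun]; exact hn
  have h := H6.Quad.index_closure_norm h2 h3 hF hQ hd hc
  have h' := H6.Quad.map_reflectionSubgroup Q hQ hc
  have h'' := Subgroup.index_map_equiv (Cfsg.reflectionSubgroup (⇑Q) c)
    (H6.Quad.isometryGroupEquiv Q ⇑Q (fun _ => rfl))
  rw [← h'', ← h]
  exact congrArg Subgroup.index h'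

end Cfsg.Agent.S5359
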