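import Cfsg.Statements.S5363

set_option autoImplicit false
open Cfsg

namespace Cfsg.Agent.S5363


/-- Let D be a conjugation-invariant set of involutions of a finite group G. Then every product of two members of D has odd order or order 2 if and only if, for every a in D and every b in D different from a and commuting with a, the members of D commuting with a b are exactly those commuting with both a and b. -/
theorem result {G : Type*} [Group G] [Finite G] {D : Set G} (hinv : ∀ d ∈ D, orderOf d = 2) (hconj : ∀ g : G, ∀ d ∈ D, g * d * g⁻¹ ∈ D) : (∀ a ∈ D, ∀ b ∈ D, Odd (orderOf (a * b)) ∨ orderOf (a * b) = 2) ↔ ∀ a ∈ D, ∀ b ∈ D, b ≠ a → Commute a b → {y : G | y ∈ D ∧ Commute (a * b) y} = {y : G | y ∈ D ∧ Commute a y} ∩ {y : G | y ∈ D ∧ Commute b y} := by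
  have hsq : ∀ d ∈ D, d * d = 1 := by
    intro d hd
    have := pow_orderOf_eq_one d
    rw [hinv d hd, pow_two] at this
    exact this
  have hinv' : ∀ d ∈ D, d⁻¹ = d := fun d hd => inv_eq_of_mul_eq_one_left (hsq d hd)
  constructor
  · intro H a ha b hb hba hab
    ext y
    constructor
    · rintro ⟨hy, hyz⟩
      have hzz : (a * b) * (a * b) = 1 := by
        calc (a * b) * (a * b) = a * (b * a) * b := by group
          _ = a * (a * b) * b := by rw [hab.eq]
          _ = (a * a) * (b * b) := by group
          _ = 1 := by rw [hsq a ha, hsq b hb, one_mul]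
      have hz1 : a * b ≠ 1 := by
        intro h
        apply hba
        have := eq_inv_of_mul_eq_one_right h
        rw [this, hinv' a ha]
      have hoz : orderOf (a * b) = 2 := by
        apply orderOf_eq_prime
        · rw [pow_two]; exact hzz
        · exact hz1
      have hbz : b = a * (a * b) := by
        rw [← mul_assoc, hsq a ha, one_mul]
      have key : Commute a y := by
        rcases H y hy a ha with h | h
        · -- odd
          have hcomm : Commute (y * a) (a * b) := by
            apply Commute.mul_left hyz.symm
            exact Commute.mul_right (Commute.refl a) hab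
          have hcop : Nat.Coprime (orderOf (y * a)) (orderOf (a * b)) := by
            rw [hoz]
            exact Nat.Coprime.symm (Nat.coprime_two_left.2 h)
          have ho := hcomm.orderOf_mul_eq_mul_orderOf_of_coprime hcop
          have hyb : y * a * (a * b) = y * b := by
            calc y * a * (a * b) = y * (a * a) * b := by group
              _ = y * b := by rw [hsq a ha, mul_one]
          rw [hyb, hoz] at ho
          rcases H y hy b hb with h' | h'
          · rw [ho] at h'
            exact absurd h' (by simp)
          · rw [ho] at h'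
            have h1 : orderOf (y * a) = 1 := by omega
            have h2 := orderOf_eq_one_iff.1 h1
            have h3 : y = a := by
              have := eq_inv_of_mul_eq_one_left h2
              rw [this, hinv' a ha]
            rw [h3]
        · have h2 : (y * a) * (y * a) = 1 := by
            have := pow_orderOf_eq_one (y * a)
            rwa [h, pow_two] at this
          show a * y = y * a
          have h3 : y * a = (y * a)⁻¹ := eq_inv_of_mul_eq_one_left h2
          rw [h3, mul_inv_rev, hinv' a ha, hinv' y hy]
      refine ⟨⟨hy, key⟩, hy, ?_⟩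
      rw [hbz]
      exact Commute.mul_left key hyz
    · rintro ⟨⟨hy, h1⟩, -, h2⟩
      exact ⟨hy, Commute.mul_left h1 h2⟩
  · intro H a ha b hb
    by_cases hodd : Odd (orderOf (a * b))
    · exact Or.inl hodd
    right
    rw [Nat.not_odd_iff_even] at hodd
    obtain ⟨m, hm⟩ := hodd
    have hpos : 0 < orderOf (a * b) := orderOf_pos _
    have hm0 : 0 < m := by omega
    set r := a * b with hr
    have har : a * r = r⁻¹ * a := by
      rw [hr, mul_inv_rev, hinv' a ha, hinv' b hb]
      calc a * (a * b) = (a * a) * b := by group
        _ = b * (a * a) := by rw [hsq a ha, one_mul, mul_one]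
        _ = b * a * a := by group
    have har' : a * r = b := by
      rw [hr, ← mul_assoc, hsq a ha, one_mul]
    have hak : ∀ k : ℕ, a * r ^ k = (r ^ k)⁻¹ * a := by
      intro k
      induction k with
      | zero => simp
      | succ k ih =>
        calc a * r ^ (k + 1) = (a * r ^ k) * r := by rw [pow_succ]; group
          _ = (r ^ k)⁻¹ * (a * r) := by rw [ih]; group
          _ = (r ^ k)⁻¹ * (r⁻¹ * a) := by rw [har]
          _ = (r * r ^ k)⁻¹ * a := by group
          _ = (r ^ (k + 1))⁻¹ * a := by rw [pow_succ']
    have hz1 : r ^ m ≠ 1 := pow_ne_one_of_lt_orderOf (by omega) (by omega)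
    have hzz : r ^ m * r ^ m = 1 := by
      rw [← pow_add, ← hm, pow_orderOf_eq_one]
    have hzi : (r ^ m)⁻¹ = r ^ m := inv_eq_of_mul_eq_one_left hzz
    have hcD : a * r ^ m ∈ D := by
      obtain ⟨k, hk | hk⟩ := Nat.even_or_odd' m
      · have : a * r ^ m = (r ^ k)⁻¹ * a * ((r ^ k)⁻¹)⁻¹ := by
          rw [hk, two_mul, pow_add, ← mul_assoc, hak k, inv_inv]
        rw [this]
        exact hconj _ a ha
      · have : a * r ^ m = (r ^ k)⁻¹ * b * ((r ^ k)⁻¹)⁻¹ := by
          rw [hk, inv_inv, ← har']
          calc a * r ^ (2 * k + 1) = (a * r ^ k) * (r * r ^ k) := by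
                rw [mul_assoc, ← pow_succ', ← pow_add]; congr 2; omega
            _ = (r ^ k)⁻¹ * (a * r) * r ^ k := by rw [hak k]; group
        rw [this]
        exact hconj _ b hb
    have hac : Commute a (a * r ^ m) := by
      apply Commute.mul_right (Commute.refl a)
      show a * r ^ m = r ^ m * a
      rw [hak m, hzi]
    have hca : a * r ^ m ≠ a := by
      intro h
      exact hz1 (mul_eq_left.1 h)
    have hE := H a ha _ hcD hca hac
    have hacz : a * (a * r ^ m) = r ^ m := by
      rw [← mul_assoc, hsq a ha, one_mul]
    have hbmem : b ∈ {y : G | y ∈ D ∧ Commute (a * (a * r ^ m)) y} := by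
      refine ⟨hb, ?_⟩
      rw [hacz, ← har']
      apply Commute.mul_right
      · show r ^ m * a = a * r ^ m
        rw [hak m, hzi]
      · exact (Commute.refl r).pow_left m
    rw [hE] at hbmem
    have hab : Commute a b := hbmem.1.2
    have hr2 : r ^ 2 = 1 := by
      rw [pow_two, hr]
      calc (a * b) * (a * b) = a * (b * a) * b := by group
        _ = a * (a * b) * b := by rw [hab.eq]
        _ = (a * a) * (b * b) := by group
        _ = 1 := by rw [hsq a ha, hsq b hb, one_mul]
    have hdvd := orderOf_dvd_of_pow_eq_one hr2
    have := Nat.le_of_dvd (by norm_num) hdvd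
    omega

end Cfsg.Agent.S5363
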