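import Cfsg.Statements.S5364

set_option autoImplicit false
open Cfsg

namespace Cfsg.Agent.S5364


/-- Let D be a conjugation-invariant set of involutions of a finite group G and t an involution in the centre of G such that d t does not lie in D for any d in D. If the images of the members of D in G modulo the subgroup generated by t satisfy the 3-transposition order conditions (each has order 2 and any two have product of order at most 3), then so do the members of D. -/
theorem result {G : Type*} [Group G] [Finite G] {D : Set G} (hinv : ∀ d ∈ D, orderOf d = 2) (hconj : ∀ g : G, ∀ d ∈ D, g * d * g⁻¹ ∈ D) (t : G) (ht : orderOf t = 2) (htZ : t ∈ Subgroup.center G) (hDt : ∀ d ∈ D, d * t ∉ D) [(Subgroup.zpowers t).Normal] (himg : Cfsg.IsThreeTranspositionSet ((QuotientGroup.mk : G → G ⧸ Subgroup.zpowers t) '' D)) : Cfsg.IsThreeTranspositionSet D := by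
  obtain ⟨-, h23⟩ := himg
  refine ⟨hinv, ?_⟩
  have hsq : ∀ d ∈ D, d * d = 1 := by
    intro d hd
    have := pow_orderOf_eq_one d
    rw [hinv d hd, pow_two] at this
    exact this
  have hinv' : ∀ d ∈ D, d⁻¹ = d := fun d hd => inv_eq_of_mul_eq_one_left (hsq d hd)
  have htt : t * t = 1 := by
    have := pow_orderOf_eq_one t
    rw [ht, pow_two] at this
    exact this
  have hmemz : ∀ x : G, x ∈ Subgroup.zpowers t → x = 1 ∨ x = t := by
    intro x hx
    obtain ⟨k, rfl⟩ := Subgroup.mem_zpowers_iff.1 hx
    rcases Int.even_or_odd' k with ⟨m, rfl | rfl⟩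
    · left
      rw [zpow_mul, zpow_two, htt, one_zpow]
    · right
      rw [zpow_add, zpow_mul, zpow_two, htt, one_zpow, one_mul, zpow_one]
  have htc : ∀ x : G, x * t = t * x := fun x => (Subgroup.mem_center_iff.1 htZ x)
  intro d hd e he
  rcases h23 _ ⟨d, hd, rfl⟩ _ ⟨e, he, rfl⟩ with h | h
  · have h1 : (d * e) ^ 2 ∈ Subgroup.zpowers t := by
      rw [← QuotientGroup.eq_one_iff]
      simpa using h
    rcases hmemz _ h1 with h2 | h2
    · exact Or.inl h2
    · exfalso
      apply hDt d hd
      have h3 : d * t = e * d * e⁻¹ := by
        rw [← h2, hinv' e he, pow_two]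
        calc d * (d * e * (d * e)) = (d * d) * (e * d * e) := by group
          _ = e * d * e := by rw [hsq d hd, one_mul]
      rw [h3]
      exact hconj e d hd
  · have h1 : (d * e) ^ 3 ∈ Subgroup.zpowers t := by
      rw [← QuotientGroup.eq_one_iff]
      simpa using h
    rcases hmemz _ h1 with h2 | h2
    · exact Or.inr h2
    · exfalso
      have hb : e * d * e⁻¹ ∈ D := hconj e d hd
      have ha : d * e * d⁻¹ ∈ D := hconj d e he
      apply hDt _ hb
      have h3 : e * d * e⁻¹ * t = d * e * d⁻¹ := by
        rw [← h2, hinv' e he, hinv' d hd, pow_succ, pow_two]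
        calc e * d * e * (d * e * (d * e) * (d * e)) = e * d * e * (d * e * d) * (e * d * e) := by group
          _ = (e * d * e) * (d * e * d) * (e * d * e) := by group
          _ = d * e * d := by
            have hh : (d * e * d) * (e * d * e) = t := by
              rw [← h2, pow_succ, pow_two]; group
            have hh2 : (e * d * e) * (e * d * e) = 1 := by
              have := hsq _ hb
              rwa [hinv' e he] at this
            calc (e * d * e) * (d * e * d) * (e * d * e) = (e * d * e) * ((d * e * d) * (e * d * e)) := by group
              _ = (e * d * e) * t := by rw [hh]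
              _ = t * (e * d * e) := htc _
              _ = (d * e * d) * (e * d * e) * (e * d * e) := by rw [hh]
              _ = (d * e * d) * ((e * d * e) * (e * d * e)) := by group
              _ = d * e * d := by rw [hh2, mul_one]
      rw [h3]
      exact ha

end Cfsg.Agent.S5364
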