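import Cfsg.Statements.S5392
import Cfsg.Agent.Lib_H9_Co0j
import Cfsg.Agent.S1567

set_option autoImplicit false
open Cfsg

namespace Cfsg.Agent.S5392

open Cfsg.Agent.H9

theorem lneg : LMap (fun x : V => -x) :=
  ⟨fun _ hx => leechLattice.neg_mem hx, fun x _ y _ => neg_add x y, fun x _ => sqNorm_neg x⟩

theorem co0_ext {a b : Co0} (h : ∀ v : leechLattice, ((a • v : leechLattice) : V) = ((b • v : leechLattice) : V)) :
    a = b := Subtype.ext (Equiv.ext fun v => Subtype.ext (h v))

/-- the generators other than 0 and 24 are minimal and not orthogonal to the last one -/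
theorem aux_min : allBelow (fun k => Nat.beq k 0 || (Nat.beq k 24 || (inLF (genF k) &&
    (decide (sumR (fun i => genF k i ^ 2) 24 = 32) &&
      !decide (sumR (fun i => genF 37 i * genF k i) 24 = 0))))) 38 = true := by decide +kernel

theorem aux_h : (inLF (fun j => bsel (Nat.blt j 2) 4 0) &&
    (decide (sumR (fun i => (bsel (Nat.blt i 2) 4 0 : ℤ) ^ 2) 24 = 32) &&
      !decide (sumR (fun i => genF 37 i * (bsel (Nat.blt i 2) 4 0 : ℤ)) 24 = 0))) = true := by decide +kernel

theorem aux_z : ∀ j < 24, genF 0 j = 0 ∧ genF 24 j = bsel (Nat.blt j 2) 4 0 - genF 1 j := by decide +kernel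

theorem dot_vecF (f h : ℕ → ℤ) : dotInt (vecF f) (vecF h) = sumR (fun i => f i * h i) 24 :=
  sum_vecF (fun i => f i * h i)

theorem part1 (g : Co0) (hg : ∀ v : leechLattice, ∃ w : leechLattice,
    ((g • v : leechLattice) : V) - (v : V) = 2 • (w : V)) : g = 1 ∨ g = lneg.toCo0 := by
  have pm : ∀ v : leechLattice, sqNorm (v : V) = 32 → g • v = v ∨ g • v = -v := by
    intro v hv
    by_cases h : g • v = v
    · exact Or.inl h
    · right
      obtain ⟨w, hw⟩ := hg v
      rcases short_congr (x := ((g • v : leechLattice) : V)) (y := (v : V)) v.2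
        (fun e => h (Subtype.ext e)) (by rw [Co0_norm, hv]; norm_num) (by rw [hv]; norm_num)
        ⟨w, w.2, hw⟩ with h1 | h1
      · exact Subtype.ext h1
      · rw [hv] at h1; exact absurd h1.2.1 (by norm_num)
  have hu1 : vecF (genF 37) ∈ leechLattice ∧ sqNorm (vecF (genF 37)) = 32 := by
    have h := (allBelow_iff _ _).mp aux_min 37 (by norm_num)
    have e0 : Nat.beq 37 0 = false := rfl
    have e1 : Nat.beq 37 24 = false := rfl
    rw [e0, e1, Bool.false_or, Bool.false_or, Bool.and_eq_true, Bool.and_eq_true, decide_eq_true_iff] at h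
    exact ⟨inLF_spec h.1, (sqNorm_vecF _).trans h.2.1⟩
  set U : leechLattice := ⟨_, hu1.1⟩ with hU
  -- the common sign
  have main : ∀ s : ℤ, (s = 1 ∨ s = -1) → ((g • U : leechLattice) : V) = s • (U : V) →
      ∀ v : leechLattice, ((g • v : leechLattice) : V) = s • (v : V) := by
    intro s hs hsU
    have hmin : ∀ f : ℕ → ℤ, (inLF f && (decide (sumR (fun i => f i ^ 2) 24 = 32) &&
        !decide (sumR (fun i => genF 37 i * f i) 24 = 0))) = true →
        ∃ hx : vecF f ∈ leechLattice, ((g • (⟨_, hx⟩ : leechLattice) : leechLattice) : V) = s • vecF f := by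
      intro f hf
      rw [Bool.and_eq_true, Bool.and_eq_true, decide_eq_true_iff, Bool.not_eq_true', decide_eq_false_iff_not] at hf
      obtain ⟨h1, h2, h3⟩ := hf
      refine ⟨inLF_spec h1, ?_⟩
      set X : leechLattice := ⟨_, inLF_spec h1⟩ with hX
      have hd : dotInt (U : V) (X : V) ≠ 0 := by
        show dotInt (vecF (genF 37)) (vecF f) ≠ 0
        rw [dot_vecF]; exact h3
      have hdd := Co0_dot g U X
      rw [hsU] at hdd
      have hsm : ∀ (t : ℤ) (a b : V), dotInt (t • a) b = t * dotInt a b := by
        intro t a b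
        unfold dotInt
        rw [Finset.mul_sum]
        exact Finset.sum_congr rfl (fun i _ => by simp only [Pi.smul_apply, smul_eq_mul]; ring)
      rw [hsm] at hdd
      rcases pm X ((sqNorm_vecF f).trans h2) with e | e
      · rw [e] at hdd ⊢
        rcases hs with rfl | rfl
        · rw [one_smul]
        · exfalso; apply hd; linarith
      · rw [e] at hdd ⊢
        have e2 : ((-X : leechLattice) : V) = -(X : V) := rfl
        rw [e2, dotInt_neg_right] at hdd
        rcases hs with rfl | rfl
        · exfalso; apply hd; linarith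
        · rw [e2, neg_one_smul]
    let K : AddSubgroup V :=
      { carrier := {x | ∃ hx : x ∈ leechLattice, ((g • (⟨x, hx⟩ : leechLattice) : leechLattice) : V) = s • x}
        zero_mem' := ⟨leechLattice.zero_mem, by
          have h0 : g • (0 : leechLattice) = 0 := by
            have := Co0_add g 0 0
            rw [add_zero] at this
            exact left_eq_add.mp this
          rw [smul_zero]
          exact congrArg Subtype.val h0⟩
        add_mem' := by
          rintro a b ⟨ha, ea⟩ ⟨hb, eb⟩
          refine ⟨leechLattice.add_mem ha hb, ?_⟩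
          have := congrArg Subtype.val (Co0_add g ⟨a, ha⟩ ⟨b, hb⟩)
          rw [smul_add, ← ea, ← eb]
          exact this
        neg_mem' := by
          rintro a ⟨ha, ea⟩
          refine ⟨leechLattice.neg_mem ha, ?_⟩
          have := congrArg Subtype.val (Co0_neg g ⟨a, ha⟩)
          rw [smul_neg, ← ea]
          exact this }
    have hK : AddSubgroup.closure G0 ≤ K := by
      rw [AddSubgroup.closure_le]
      intro x hx
      obtain ⟨k, hk, rfl⟩ := G0_eq hx
      have h := (allBelow_iff _ _).mp aux_min k hk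
      rw [Bool.or_eq_true, Bool.or_eq_true, Nat.beq_eq, Nat.beq_eq] at h
      rcases h with rfl | rfl | h
      · have : vecF (genF 0) = 0 := by
          ext p
          exact (aux_z _ (idx_lt p)).1
        rw [SetLike.mem_coe, this]
        exact K.zero_mem
      · have : vecF (genF 24) = vecF (fun j => bsel (Nat.blt j 2) 4 0) - vecF (genF 1) := by
          ext p
          exact (aux_z _ (idx_lt p)).2
        rw [SetLike.mem_coe, this]
        refine K.sub_mem (hmin _ aux_h) (hmin _ ?_)
        exact (allBelow_iff _ _).mp aux_min 1 (by norm_num)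
      · exact hmin _ h
    intro v
    obtain ⟨_, e⟩ := hK (leech_le_closure v.2)
    exact e
  rcases pm U hu1.2 with e | e
  · left
    apply co0_ext
    intro v
    rw [main 1 (Or.inl rfl) (by rw [e, one_smul]) v, one_smul, one_smul]
  · right
    apply co0_ext
    intro v
    rw [main (-1) (Or.inr rfl) (by rw [e, neg_one_smul]; rfl) v, neg_one_smul]
    rfl

def pA : ℕ := 47536897508558602556126370205
def pB : ℕ := 47536897508558602556126370265
def pC : ℕ := 42255020007607646716556773452
def qA : ℕ := 42255020007607646716556790988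
def qB : ℕ := 42255020007607646716557036748
def qC : ℕ := 42255020007607646716556527752

theorem chk3 : (inLF (decF pA) && inLF (decF pB) && decide (nrmP pA = 48) && decide (nrmP pB = 48) &&
    decide (nrmP pC = 32)) = true := by decide +kernel
theorem chk3d : ∀ j < 24, decF pA j - decF pB j = decF pC j := by decide +kernel
theorem chk4 : (inLF (decF qA) && inLF (decF qB) && decide (nrmP qA = 64) && decide (nrmP qB = 64) &&
    decide (nrmP qC = 32)) = true := by decide +kernel
theorem chk4d : ∀ j < 24, decF qA j - decF qB j = decF qC j := by decide +kernel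


/-- The Leech lattice modulo twice itself is a faithful irreducible module for the first Conway group: an automorphism of the rank-24 lattice built from the length-24 code that moves every lattice vector only by twice a lattice vector lies in the centre of the automorphism group (the centre consists of ±1, which act trivially there, so the kernel is exactly the centre), and an additive subgroup lying between twice the lattice and the lattice that is invariant under all lattice automorphisms is one of the two. -/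
theorem result : (∀ g : ↥Cfsg.Co0, (∀ v : ↥Cfsg.leechLattice, ∃ w : ↥Cfsg.leechLattice, ((g • v : ↥Cfsg.leechLattice) : Cfsg.GolayPt → ℤ) - (v : Cfsg.GolayPt → ℤ) = 2 • (w : Cfsg.GolayPt → ℤ)) → g ∈ Subgroup.center ↥Cfsg.Co0) ∧ ∀ M : AddSubgroup (Cfsg.GolayPt → ℤ), (∀ v ∈ Cfsg.leechLattice, (2 : ℤ) • v ∈ M) → M ≤ Cfsg.leechLattice → (∀ g : ↥Cfsg.Co0, ∀ v : ↥Cfsg.leechLattice, (v : Cfsg.GolayPt → ℤ) ∈ M → ((g • v : ↥Cfsg.leechLattice) : Cfsg.GolayPt → ℤ) ∈ M) → (∀ x ∈ M, ∃ w ∈ Cfsg.leechLattice, x = (2 : ℤ) • w) ∨ M = Cfsg.leechLattice := by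
  refine ⟨fun g hg => ?_, fun M h2 hM hinv => ?_⟩
  · rcases part1 g hg with rfl | rfl
    · exact Subgroup.one_mem _
    · rw [Subgroup.mem_center_iff]
      intro k
      have hn : ∀ w : leechLattice, lneg.toCo0 • w = -w := fun w => Subtype.ext rfl
      apply co0_ext
      intro v
      rw [mul_smul, mul_smul, hn, hn, Co0_neg]
  · by_cases h : ∀ x ∈ M, ∃ w ∈ leechLattice, x = (2 : ℤ) • w
    · exact Or.inl h
    right
    push Not at h
    obtain ⟨x, hxM, hx⟩ := h
    -- it suffices to find a minimal vector in M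
    have fin : ∀ y : leechLattice, (y : V) ∈ M → sqNorm (y : V) = 32 → M = leechLattice := by
      intro y hy hn
      apply le_antisymm hM
      rw [← S1567.result, AddSubgroup.closure_le]
      rintro w ⟨hw, hwn⟩
      obtain ⟨g, hg⟩ := trans2 y ⟨w, hw⟩ hn hwn
      have := hinv g y hy
      rw [hg] at this
      exact this
    obtain ⟨y, hy, hyn, z, hz, e⟩ := leech_cross_main.2 x (hM hxM)
    have hyM : y ∈ M := by
      have : y = x - (2 : ℤ) • z := by
        rw [show (2 : ℤ) • z = 2 • z by rw [two_smul, two_smul], ← e]; abel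
      rw [this]
      exact M.sub_mem hxM (h2 z hz)
    have hy0 : y ≠ 0 := by
      rintro rfl
      rw [sub_zero] at e
      exact hx z hz (by rw [e, two_smul, two_smul])
    have h16 := sqNorm_dvd hy
    have hge := sqNorm_ge hy hy0
    have hcases : sqNorm y = 32 ∨ sqNorm y = 48 ∨ sqNorm y = 64 := by omega
    rcases hcases with hc | hc | hc
    · exact fin ⟨y, hy⟩ hyM hc
    · have c := chk3
      simp only [Bool.and_eq_true, decide_eq_true_iff] at c
      obtain ⟨⟨⟨⟨a1, a2⟩, a3⟩, a4⟩, a5⟩ := c
      obtain ⟨g1, e1⟩ := trans33 ⟨y, hy⟩ ⟨dec pA, dec_mem a1⟩ hc ((sqNorm_dec _).trans a3)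
      obtain ⟨g2, e2⟩ := trans33 ⟨y, hy⟩ ⟨dec pB, dec_mem a2⟩ hc ((sqNorm_dec _).trans a4)
      have m1 := hinv g1 ⟨y, hy⟩ hyM
      have m2 := hinv g2 ⟨y, hy⟩ hyM
      rw [e1] at m1
      rw [e2] at m2
      have hd : dec pA - dec pB = dec pC := by
        ext p
        exact chk3d _ (idx_lt p)
      have m3 := M.sub_mem m1 m2
      have m3' : dec pC ∈ M := by rw [← hd]; exact m3
      exact fin ⟨dec pC, hM m3'⟩ m3' ((sqNorm_dec _).trans a5)
    · have c := chk4
      simp only [Bool.and_eq_true, decide_eq_true_iff] at c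
      obtain ⟨⟨⟨⟨a1, a2⟩, a3⟩, a4⟩, a5⟩ := c
      obtain ⟨g1, e1⟩ := trans44 ⟨y, hy⟩ ⟨dec qA, dec_mem a1⟩ hc ((sqNorm_dec _).trans a3)
      obtain ⟨g2, e2⟩ := trans44 ⟨y, hy⟩ ⟨dec qB, dec_mem a2⟩ hc ((sqNorm_dec _).trans a4)
      have m1 := hinv g1 ⟨y, hy⟩ hyM
      have m2 := hinv g2 ⟨y, hy⟩ hyM
      rw [e1] at m1
      rw [e2] at m2
      have hd : dec qA - dec qB = dec qC := by
        ext p
        exact chk4d _ (idx_lt p)
      have m3 := M.sub_mem m1 m2
      have m3' : dec qC ∈ M := by rw [← hd]; exact m3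
      exact fin ⟨dec qC, hM m3'⟩ m3' ((sqNorm_dec _).trans a5)

end Cfsg.Agent.S5392
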