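import Cfsg.Statements.S5393
import Cfsg.Agent.Lib_H9_M24b
import Cfsg.Agent.Lib_H9_Dod
import Cfsg.Agent.Lib_H9_Leech3

set_option autoImplicit false
open Cfsg

namespace Cfsg.Agent.S5393

open Cfsg.Agent.H9
open scoped Pointwise

theorem gens_dod : ∀ t, t < 23 → (enc (gen t) = gen t ∧ pop (gen t) = 12) := by decide +kernel

theorem gen_dod {t : ℕ} (h : t < 23) : ofMask (gen t) ∈ dodecads := by
  obtain ⟨h1, h2⟩ := gens_dod t h
  exact ⟨(ofMask_mem_CC_iff (gen_lt t)).mpr h1, by rw [← pop_eq (gen_lt t)]; exact h2⟩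

set_option maxRecDepth 100000 in
theorem compl16b : allBelow (fun i => !(Nat.beq (pop (enc i)) 16) ||
    (Nat.beq (enc (Nat.xor (enc i) (gen 23))) (Nat.xor (enc i) (gen 23)) &&
      (Nat.beq (pop (Nat.xor (enc i) (gen 23))) 8 && Nat.blt (Nat.xor (enc i) (gen 23)) 16777216))) 4096 = true := by
  decide +kernel

theorem compl16 (i : ℕ) (hi : i < 4096) (h : pop (enc i) = 16) :
    (enc (enc i ^^^ gen 23) = enc i ^^^ gen 23 ∧ pop (enc i ^^^ gen 23) = 8 ∧ enc i ^^^ gen 23 < 2 ^ 24) := by
  have := (allBelow_iff _ _).mp compl16b i hi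
  simp only [Bool.or_eq_true, Bool.and_eq_true, Bool.not_eq_true', beq_iff] at this
  rcases this with h0 | ⟨h1, h2, h3⟩
  · have : Nat.beq (pop (enc i)) 16 = true := by rw [beq_iff]; exact h
    rw [h0] at this
    exact absurd this (by decide)
  · exact ⟨h1, h2, Nat.blt_eq ▸ h3⟩

set_option maxRecDepth 100000 in
theorem endsb : allBelow (fun i => (!(Nat.beq (pop (enc i)) 0) || Nat.beq (enc i) 0) &&
    (!(Nat.beq (pop (enc i)) 24) || Nat.beq (enc i) (gen 23))) 4096 = true := by
  decide +kernel

theorem ends (i : ℕ) (hi : i < 4096) : (pop (enc i) = 0 → enc i = 0) ∧ (pop (enc i) = 24 → enc i = gen 23) := by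
  have := (allBelow_iff _ _).mp endsb i hi
  simp only [Bool.or_eq_true, Bool.and_eq_true, Bool.not_eq_true', beq_iff] at this
  obtain ⟨a, b⟩ := this
  constructor
  · intro h
    rcases a with h0 | h0
    · have : Nat.beq (pop (enc i)) 0 = true := by rw [beq_iff]; exact h
      rw [h0] at this
      exact absurd this (by decide)
    · exact h0
  · intro h
    rcases b with h0 | h0
    · have : Nat.beq (pop (enc i)) 24 = true := by rw [beq_iff]; exact h
      rw [h0] at this
      exact absurd this (by decide)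
    · exact h0

theorem dodAB : enc (5279 ^^^ 13062145) = 5279 ^^^ 13062145 ∧ pop (5279 ^^^ 13062145) = 12 ∧
    isOct 13062145 = true := by decide +kernel

section
variable (W : Submodule (ZMod 2) (GolayPt → ZMod 2))
  (hinv : ∀ σ ∈ M24, ∀ w ∈ W, (fun p => w (σ.symm p)) ∈ W)
include hinv

theorem move {n m : ℕ} {σ : Equiv.Perm GolayPt} (hσ : σ ∈ M24) (hn : wordOf n ∈ W)
    (e : σ • ofMask n = ofMask m) : wordOf m ∈ W := by
  have h1 := hinv σ hσ _ hn
  have h2 : (fun p => wordOf n (σ.symm p)) = wordOf m := by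
    apply support₂_injective
    have := support₂_comp σ (wordOf n)
    rw [support₂_wordOf, e] at this
    rw [support₂_wordOf, ← this]
    rfl
  rwa [h2] at h1

theorem of_dod (h1 : (fun _ => (1 : ZMod 2)) ∈ W) {n : ℕ} (hn : wordOf n ∈ W) (hd : ofMask n ∈ dodecads) :
    golayCode ≤ W := by
  apply golayCode_le_of_gens
  intro t ht
  by_cases h23 : t = 23
  · subst h23
    rw [← one_eq]
    exact h1
  · obtain ⟨σ, hσ, e⟩ := M24_trans_dodecads hd (gen_dod (t := t) (by omega))
    exact move W hinv hσ hn e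

theorem of_oct (h1 : (fun _ => (1 : ZMod 2)) ∈ W) {n : ℕ} (hn : wordOf n ∈ W) (ho : ofMask n ∈ octads) :
    golayCode ≤ W := by
  obtain ⟨σ, hσ, e⟩ := M24_trans_octads ho (isOct_spec oct5279).2
  obtain ⟨τ, hτ, e'⟩ := M24_trans_octads ho (isOct_spec dodAB.2.2).2
  have a := move W hinv hσ hn e
  have b := move W hinv hτ hn e'
  have c := W.add_mem a b
  rw [← wordOf_xor] at c
  refine of_dod W hinv h1 c ⟨(ofMask_mem_CC_iff (by decide)).mpr dodAB.1, ?_⟩
  rw [← pop_eq (by decide)]
  exact dodAB.2.1

end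


/-- The length-24 code built from the squares modulo 23 contains the all-ones word, and the code modulo the all-ones word is an irreducible module over the field with two elements for the code's automorphism group: a subspace of the code that contains the all-ones word and is invariant under every coordinate permutation preserving the code is either the span of the all-ones word or the whole code. -/
theorem result : (fun _ : Cfsg.GolayPt => (1 : ZMod 2)) ∈ Cfsg.golayCode ∧ ∀ W : Submodule (ZMod 2) (Cfsg.GolayPt → ZMod 2), (fun _ => (1 : ZMod 2)) ∈ W → W ≤ Cfsg.golayCode → (∀ σ ∈ Cfsg.M24, ∀ w ∈ W, (fun p => w (σ.symm p)) ∈ W) → W = Submodule.span (ZMod 2) {fun _ => (1 : ZMod 2)} ∨ W = Cfsg.golayCode := by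
  have hone : (fun _ : GolayPt => (1 : ZMod 2)) ∈ golayCode := by
    have := wordOf_gen_mem (t := 23) (by norm_num)
    rw [← one_eq] at this
    exact this
  refine ⟨hone, ?_⟩
  intro W h1 hle hinv
  by_cases hW : W ≤ Submodule.span (ZMod 2) {fun _ => (1 : ZMod 2)}
  · left
    exact le_antisymm hW ((Submodule.span_singleton_le_iff_mem _ _).mpr h1)
  · right
    apply le_antisymm hle
    obtain ⟨w, hw, hns⟩ := SetLike.not_le_iff_exists.mp hW
    have hC : support₂ w ∈ CC := ⟨w, hle hw, rfl⟩
    obtain ⟨i, hi, hs⟩ := exists_of_mem_CC hC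
    have hwi : w = wordOf (enc i) := by
      apply support₂_injective
      rw [hs, support₂_wordOf]
    rw [hwi] at hw hns
    have hwt := (allBelow_iff _ _).mp weights_check i hi
    simp only [Bool.or_eq_true, beq_iff] at hwt
    rcases hwt with h | h | h | h | h
    · exfalso
      apply hns
      rw [(ends i hi).1 h, wordOf_zero]
      exact Submodule.zero_mem _
    · exact of_oct W hinv h1 hw ⟨ofMask_enc_mem i, by rw [← pop_eq (enc_lt i)]; exact h⟩
    · exact of_dod W hinv h1 hw ⟨ofMask_enc_mem i, by rw [← pop_eq (enc_lt i)]; exact h⟩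
    · obtain ⟨c1, c2, c3⟩ := compl16 i hi h
      have h1' : wordOf (gen 23) ∈ W := by rw [← one_eq]; exact h1
      have c := W.add_mem hw h1'
      rw [← wordOf_xor] at c
      exact of_oct W hinv h1 c ⟨(ofMask_mem_CC_iff c3).mpr c1, by rw [← pop_eq c3]; exact c2⟩
    · exfalso
      apply hns
      rw [(ends i hi).2 h, ← one_eq]
      exact Submodule.mem_span_singleton_self _

end Cfsg.Agent.S5393
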