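import Cfsg.Statements.S5394
import Cfsg.Agent.Lib_H9_Cls23b

set_option autoImplicit false
open Cfsg

namespace Cfsg.Agent.S5394

open Cfsg.Agent.H9
open scoped Pointwise

theorem conj_of_conj {g h r k l : Equiv.Perm GolayPt} (hk : k * g * k⁻¹ = r) (hl : l * h * l⁻¹ = r) :
    (l⁻¹ * k) * g * (l⁻¹ * k)⁻¹ = h := by
  have : h = l⁻¹ * r * l := by rw [← hl]; group
  rw [this, ← hk]; group


/-- The automorphism group of the length-24 code built from the squares modulo 23 has exactly two conjugacy classes of involutions: an involution either fixes exactly the eight points of an octad or has no fixed points, both kinds occur, and any two involutions of the same kind are conjugate in the group. -/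
theorem result : (∀ g ∈ Cfsg.M24, orderOf g = 2 → (Finset.univ.filter fun p => g p = p) ∈ Cfsg.octads ∨ ∀ p, g p ≠ p) ∧ (∃ g ∈ Cfsg.M24, orderOf g = 2 ∧ (Finset.univ.filter fun p => g p = p) ∈ Cfsg.octads) ∧ (∃ g ∈ Cfsg.M24, orderOf g = 2 ∧ ∀ p, g p ≠ p) ∧ ∀ g ∈ Cfsg.M24, ∀ h ∈ Cfsg.M24, orderOf g = 2 → orderOf h = 2 → ((∀ p, g p ≠ p) ↔ (∀ p, h p ≠ p)) → ∃ k ∈ Cfsg.M24, k * g * k⁻¹ = h := by
  refine ⟨?_, ?_, ?_, ?_⟩
  · intro g hg h2
    rcases invol_cases hg h2 with ⟨k, hk, hc, hf⟩ | ⟨k, hk, hc, hf⟩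
    · left
      have h1 := fixF_conj k g
      rw [hc, fixF_r2A] at h1
      have h3 : fixF g = k⁻¹ • ofMask 3444840 := by rw [h1, inv_smul_smul]
      show fixF g ∈ octads
      rw [h3]
      exact smul_mem_octads (M24.inv_mem hk) (isOct_spec m2A_oct).2
    · right
      exact fixF_empty_iff.mp hf
  · refine ⟨permOf r2A, permOf_mem_M24 r2A_in, order_r2A, ?_⟩
    show fixF (permOf r2A) ∈ octads
    rw [fixF_r2A]
    exact (isOct_spec m2A_oct).2
  · exact ⟨permOf r2B, permOf_mem_M24 r2B_in, order_r2B, fixF_empty_iff.mp card_r2B⟩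
  · intro g hg h hh og oh hiff
    rw [← fixF_empty_iff, ← fixF_empty_iff] at hiff
    rcases invol_cases hg og with ⟨k, hk, hc, hf⟩ | ⟨k, hk, hc, hf⟩ <;>
      rcases invol_cases hh oh with ⟨l, hl, hd, hf'⟩ | ⟨l, hl, hd, hf'⟩
    · exact ⟨l⁻¹ * k, M24.mul_mem (M24.inv_mem hl) hk, conj_of_conj hc hd⟩
    · have := hiff.mpr hf'; omega
    · have := hiff.mp hf; omega
    · exact ⟨l⁻¹ * k, M24.mul_mem (M24.inv_mem hl) hk, conj_of_conj hc hd⟩

end Cfsg.Agent.S5394
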