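import Cfsg.Statements.S5420
import Mathlib
import Cfsg.Agent.Lib_helper7_Cores

set_option autoImplicit false
open Cfsg

namespace Cfsg.Agent.S5420

/-- Let Q be an extraspecial 2-subgroup of the finite group G whose centralizer in G is its centre Z and which is normal in the centralizer of Z. If Z lies in the largest normal 2-subgroup of G, then Q is a large extraspecial 2-subgroup of G: it normalizes no non-trivial subgroup of G of odd order. -/
theorem result {G : Type*} [Group G] [Finite G] (Q : Subgroup G) (hL1 : Cfsg.IsExtraspecial 2 ↥Q) (hL2 : Subgroup.centralizer (Q : Set G) = ((Subgroup.center ↥Q).map Q.subtype)) (hL3 : Subgroup.centralizer (((Subgroup.center ↥Q).map Q.subtype) : Set G) ≤ Subgroup.normalizer (Q : Set G)) (hZ : ((Subgroup.center ↥Q).map Q.subtype) ≤ Cfsg.pCore 2 G) : Cfsg.IsLargeExtraspecial Q := by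
  refine ⟨hL1, hL2, hL3, ?_⟩
  intro K hK hQK
  have : Fact (Nat.Prime 2) := ⟨Nat.prime_two⟩
  have hcop : ∀ R : Subgroup G, IsPGroup 2 R → K ⊓ R = ⊥ := by
    intro R hR
    obtain ⟨k, hk⟩ := hR.exists_card_eq
    apply Subgroup.inf_eq_bot_of_coprime
    rw [hk]
    exact Nat.Coprime.pow_right k (Nat.coprime_two_right.2 hK)
  set Z := (Subgroup.center ↥Q).map Q.subtype with hZ'
  have hZQ : Z ≤ Q := Subgroup.map_subtype_le _
  have key : ∀ R : Subgroup G, IsPGroup 2 R → ∀ k ∈ K, ∀ z ∈ Q, z ∈ R → k * z * k⁻¹ ∈ R →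
      z * k = k * z := by
    intro R hR k hk z hzQ hzR hkz
    have hc1 : k * z * k⁻¹ * z⁻¹ ∈ K := by
      have := (Subgroup.mem_normalizer_iff.1 (hQK hzQ) k⁻¹).1 (K.inv_mem hk)
      have e : k * z * k⁻¹ * z⁻¹ = k * (z * k⁻¹ * z⁻¹) := by group
      rw [e]; exact K.mul_mem hk this
    have hc2 : k * z * k⁻¹ * z⁻¹ ∈ R := R.mul_mem hkz (R.inv_mem hzR)
    have hc3 : k * z * k⁻¹ * z⁻¹ ∈ K ⊓ R := ⟨hc1, hc2⟩
    rw [hcop _ hR, Subgroup.mem_bot] at hc3
    calc z * k = (k * z * k⁻¹ * z⁻¹)⁻¹ * (k * z) := by group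
      _ = k * z := by rw [hc3]; group
  have h1 : K ≤ Subgroup.centralizer (Z : Set G) := by
    intro k hk
    rw [Subgroup.mem_centralizer_iff]
    intro z hz
    exact key _ (Cfsg.Agent.H7.pCore_isPGroup 2) k hk z (hZQ hz) (hZ hz)
      ((Cfsg.Agent.H7.pCore_normal 2).conj_mem z (hZ hz) k)
  have h2 : K ≤ Subgroup.normalizer (Q : Set G) := h1.trans hL3
  have h3 : K ≤ Subgroup.centralizer (Q : Set G) := by
    intro k hk
    rw [Subgroup.mem_centralizer_iff]
    intro q hq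
    exact key Q hL1.1.1 k hk q hq hq ((Subgroup.mem_normalizer_iff.1 (h2 hk) q).1 hq)
  rw [hL2] at h3
  have h4 := hcop Z (hL1.1.1.to_le hZQ)
  rw [inf_eq_left.2 h3] at h4
  exact h4

end Cfsg.Agent.S5420
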