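import Cfsg.Statements.S5421
import Mathlib
import Cfsg.Agent.Lib_helper7_Cores
import Cfsg.Agent.Lib_lead_XS1

set_option autoImplicit false
open Cfsg

namespace Cfsg.Agent.S5421

theorem inverts_of_fpf {G : Type*} [Group G] (K : Subgroup G) [Finite K] (t : G) (ht : t * t = 1)
    (hN : ∀ k ∈ K, t * k * t⁻¹ ∈ K) (hfpf : ∀ k ∈ K, t * k = k * t → k = 1) :
    ∀ k ∈ K, t * k * t⁻¹ = k⁻¹ := by
  have htinv : t⁻¹ = t := inv_eq_of_mul_eq_one_left ht
  let f : K → K := fun k => ⟨(k : G)⁻¹ * (t * k * t⁻¹), K.mul_mem (K.inv_mem k.2) (hN k k.2)⟩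
  have hinj : Function.Injective f := by
    intro k l h
    have h1 : (k : G)⁻¹ * (t * k * t⁻¹) = (l : G)⁻¹ * (t * l * t⁻¹) := congrArg Subtype.val h
    have h2 : t * ((l : G) * (k : G)⁻¹) = ((l : G) * (k : G)⁻¹) * t := by
      have e1 : t * ((l : G) * (k : G)⁻¹) * t⁻¹ = (t * l * t⁻¹) * (t * k * t⁻¹)⁻¹ := by group
      have e2 : (t * l * t⁻¹) = (l : G) * ((k : G)⁻¹ * (t * k * t⁻¹)) := by rw [h1]; group
      have e3 : t * ((l : G) * (k : G)⁻¹) * t⁻¹ = (l : G) * (k : G)⁻¹ := by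
        rw [e1, e2]; group
      calc t * ((l : G) * (k : G)⁻¹) = (t * ((l : G) * (k : G)⁻¹) * t⁻¹) * t := by group
        _ = _ := by rw [e3]
    have h3 := hfpf _ (K.mul_mem l.2 (K.inv_mem k.2)) h2
    apply Subtype.ext
    exact (mul_inv_eq_one.1 h3).symm
  have hsurj : Function.Surjective f := Finite.surjective_of_injective hinj
  intro k hk
  obtain ⟨l, hl⟩ := hsurj ⟨k, hk⟩
  have h1 : (l : G)⁻¹ * (t * l * t⁻¹) = k := congrArg Subtype.val hl
  rw [← h1]
  calc t * ((l : G)⁻¹ * (t * l * t⁻¹)) * t⁻¹ = t * (l : G)⁻¹ * (t * l * (t⁻¹ * t⁻¹)) := by group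
    _ = t * (l : G)⁻¹ * (t * l * (t * t)) := by rw [htinv]
    _ = t * (l : G)⁻¹ * t * l := by rw [ht]; group
    _ = t * (l : G)⁻¹ * t⁻¹ * l := by rw [htinv]
    _ = ((l : G)⁻¹ * (t * l * t⁻¹))⁻¹ := by group


/-- Let Q be an extraspecial 2-subgroup of the finite group G whose centralizer in G is its centre Z and which is normal in the centralizer of Z. If some involution b of Q outside Z has Z inside the largest normal 2-subgroup of the centralizer of b, then Q is a large extraspecial 2-subgroup of G. -/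
theorem result {G : Type*} [Group G] [Finite G] (Q : Subgroup G) (hL1 : Cfsg.IsExtraspecial 2 ↥Q) (hL2 : Subgroup.centralizer (Q : Set G) = ((Subgroup.center ↥Q).map Q.subtype)) (hL3 : Subgroup.centralizer (((Subgroup.center ↥Q).map Q.subtype) : Set G) ≤ Subgroup.normalizer (Q : Set G)) (b : G) (hbQ : b ∈ Q) (hbZ : b ∉ ((Subgroup.center ↥Q).map Q.subtype)) (hb : orderOf b = 2) (hZ : ((Subgroup.center ↥Q).map Q.subtype) ≤ (Cfsg.pCore 2 ↥(Subgroup.centralizer ({b} : Set G))).map (Subgroup.centralizer ({b} : Set G)).subtype) : Cfsg.IsLargeExtraspecial Q := by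
  refine ⟨hL1, hL2, hL3, ?_⟩
  intro K hK hQK
  have : Fact (Nat.Prime 2) := ⟨Nat.prime_two⟩
  have hX := Cfsg.Agent.LeadXS.XS.of_extraspecial hL1
  have hcop : ∀ R : Subgroup G, IsPGroup 2 R → K ⊓ R = ⊥ := by
    intro R hR
    obtain ⟨k, hk⟩ := hR.exists_card_eq
    apply (Subgroup.disjoint_of_coprime_natCard _).eq_bot
    rw [hk]
    exact Nat.Coprime.pow_right k (Nat.coprime_two_right.2 hK)
  set Z := (Subgroup.center ↥Q).map Q.subtype with hZ'
  have hZQ : Z ≤ Q := Subgroup.map_subtype_le _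
  have hZcard : Nat.card Z = 2 := by
    rw [hZ', Subgroup.card_map_of_injective Q.subtype_injective]; exact hL1.2
  have key : ∀ R : Subgroup G, IsPGroup 2 R → ∀ k ∈ K, ∀ z ∈ Q, z ∈ R → k * z * k⁻¹ ∈ R →
      z * k = k * z := by
    intro R hR k hk z hzQ hzR hkz
    have hc1 : k * z * k⁻¹ * z⁻¹ ∈ K := by
      have := (Subgroup.mem_normalizer_iff.1 (hQK hzQ) k⁻¹).1 (K.inv_mem hk)
      have e : k * z * k⁻¹ * z⁻¹ = k * (z * k⁻¹ * z⁻¹) := by group
      rw [e]; exact K.mul_mem hk this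
    have hc2 : k * z * k⁻¹ * z⁻¹ ∈ R := R.mul_mem hkz (R.inv_mem hzR)
    have hc3 : k * z * k⁻¹ * z⁻¹ ∈ K ⊓ R := ⟨hc1, hc2⟩
    rw [hcop _ hR, Subgroup.mem_bot] at hc3
    calc z * k = (k * z * k⁻¹ * z⁻¹)⁻¹ * (k * z) := by group
      _ = k * z := by rw [hc3]; group
  obtain ⟨w, hw1, hw⟩ := (Nat.card_eq_two_iff' (1 : Z)).1 hZcard
  set z : G := (w : G) with hz
  have hzZ : z ∈ Z := w.2
  have hz1 : z ≠ 1 := fun h => hw1 (Subtype.ext h)
  have hZz : ∀ u ∈ Z, u = 1 ∨ u = z := by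
    intro u hu
    by_cases h1 : u = 1
    · exact Or.inl h1
    · right
      exact congrArg Subtype.val (hw ⟨u, hu⟩ (fun h => h1 (congrArg Subtype.val h)))
  have hzz : z * z = 1 := by
    rcases hZz _ (Z.mul_mem hzZ hzZ) with h | h
    · exact h
    · exact absurd (mul_eq_left.1 h) hz1
  have hbb : b * b = 1 := by rw [← pow_two, ← hb]; exact pow_orderOf_eq_one b
  have hNK : ∀ q ∈ Q, ∀ k ∈ K, q * k * q⁻¹ ∈ K := fun q hq k hk =>
    (Subgroup.mem_normalizer_iff.1 (hQK hq) k).1 hk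
  -- step 1
  have s1 : ∀ k ∈ K, z * k = k * z → k = 1 := by
    intro k hk hkz
    have h1 : k ∈ Subgroup.centralizer (Z : Set G) := by
      rw [Subgroup.mem_centralizer_iff]
      intro u hu
      rcases hZz u hu with h | h
      · rw [h]; simp
      · rw [h]; exact hkz
    have h2 := hL3 h1
    have h3 : k ∈ Subgroup.centralizer (Q : Set G) := by
      rw [Subgroup.mem_centralizer_iff]
      intro q hq
      exact key Q hL1.1.1 k hk q hq hq ((Subgroup.mem_normalizer_iff.1 h2 q).1 hq)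
    rw [hL2] at h3
    have h4 : k ∈ K ⊓ Z := ⟨hk, h3⟩
    rw [hcop Z (hL1.1.1.to_le hZQ), Subgroup.mem_bot] at h4
    exact h4
  -- step 2
  have s2 : ∀ k ∈ K, b * k = k * b → k = 1 := by
    intro k hk hkb
    apply s1 k hk
    have hkC : k ∈ Subgroup.centralizer ({b} : Set G) :=
      Subgroup.mem_centralizer_singleton_iff.2 hkb.symm
    apply key _ ((Cfsg.Agent.H7.pCore_isPGroup 2).map _) k hk z (hZQ hzZ) (hZ hzZ)
    obtain ⟨r, hr, hrz⟩ := hZ hzZ
    refine ⟨⟨k, hkC⟩ * r * ⟨k, hkC⟩⁻¹, (Cfsg.Agent.H7.pCore_normal 2).conj_mem r hr _, ?_⟩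
    rw [← hrz]
    rfl
  -- step 3
  have s3 : ∀ k ∈ K, (b * z) * k = k * (b * z) → k = 1 := by
    have hex : ∃ q ∈ Q, q * b * q⁻¹ = b * z := by
      have h1 : ∃ q ∈ Q, q * b ≠ b * q := by
        by_contra hcon
        push Not at hcon
        apply hbZ
        rw [← hL2, Subgroup.mem_centralizer_iff]
        exact hcon
      obtain ⟨q, hq, hqb⟩ := h1
      refine ⟨q, hq, ?_⟩
      have h2 := hX.comm_mem ⟨b, hbQ⟩⁻¹ ⟨q, hq⟩
      have h3 : b⁻¹ * q * b * q⁻¹ ∈ Z := by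
        refine ⟨_, h2, ?_⟩
        simp [commutatorElement_def]
      rcases hZz _ h3 with h | h
      · exfalso
        apply hqb
        calc q * b = b * (b⁻¹ * q * b * q⁻¹) * q := by group
          _ = b * q := by rw [h]; group
      · rw [← h]; group
    obtain ⟨q, hq, hqb⟩ := hex
    intro k hk hkc
    have h1 := s2 (q⁻¹ * k * q) (by
      have := hNK q⁻¹ (Q.inv_mem hq) k hk
      simpa using this) (by
      rw [← hqb] at hkc
      calc b * (q⁻¹ * k * q) = q⁻¹ * ((q * b * q⁻¹) * k) * q := by group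
        _ = q⁻¹ * k * q * b := by rw [hkc]; group)
    have e : k = q * (q⁻¹ * k * q) * q⁻¹ := by group
    rw [e, h1]; group
  have i1 := inverts_of_fpf K z hzz (hNK z (hZQ hzZ)) s1
  have i2 := inverts_of_fpf K b hbb (hNK b hbQ) s2
  rw [eq_bot_iff]
  intro k hk
  rw [Subgroup.mem_bot]
  apply s3 k hk
  have h1 := i1 k hk
  have h2 := i2 k⁻¹ (K.inv_mem hk)
  rw [inv_inv] at h2
  calc (b * z) * k = b * (z * k * z⁻¹) * b⁻¹ * (b * z) := by group
    _ = k * (b * z) := by rw [h1, h2]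

end Cfsg.Agent.S5421
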