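import Cfsg.Statements.S5433
import Mathlib
import Cfsg.Agent.Lib_helper7_SE

set_option autoImplicit false
open Cfsg

namespace Cfsg.Agent.S5433

/-- Let Q be a large extraspecial 2-subgroup of the finite group G (extraspecial; centralizer equal to its centre; normal in the centralizer of its centre; normalizing no non-trivial subgroup of odd order), and L a normal subgroup of G containing Q. Then G is the product of L and the normalizer of Q. -/
theorem result {G : Type*} [Group G] [Finite G] (Q : Subgroup G) (hQ : Cfsg.IsLargeExtraspecial Q) (L : Subgroup G) [L.Normal] (hQL : Q ≤ L) : L ⊔ Subgroup.normalizer (Q : Set G) = ⊤ := by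
  obtain ⟨hX, hC, hN, -⟩ := hQ
  have : Fact (Nat.Prime 2) := ⟨Nat.prime_two⟩
  set Z := (Subgroup.center ↥Q).map Q.subtype with hZ
  have hZcard : Nat.card Z = 2 := by
    rw [hZ, Subgroup.card_map_of_injective Q.subtype_injective]; exact hX.2
  have hZQ : Z ≤ Q := Subgroup.map_subtype_le _
  have hQp : IsPGroup 2 (Q.subgroupOf L) := hX.1.1.comap_subtype
  obtain ⟨T, hT⟩ := hQp.exists_le_sylow
  set T' : Subgroup G := (T : Subgroup L).map L.subtype with hT'
  have hQT : Q ≤ T' := by
    intro q hq
    exact ⟨⟨q, hQL hq⟩, hT (Subgroup.mem_subgroupOf.2 hq), rfl⟩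
  have hT'p : IsPGroup 2 T' := T.2.map _
  have hT'ne : T' ≠ ⊥ := by
    intro h
    have h1 : Z = ⊥ := by rw [eq_bot_iff, ← h]; exact hZQ.trans hQT
    rw [h1, Subgroup.card_bot] at hZcard
    omega
  obtain ⟨z, hzT, hz1, hzc⟩ := Cfsg.Agent.H7.exists_center_ne_one hT'p hT'ne
  have hcent : ∀ u ∈ T', (∀ r ∈ T', r * u = u * r) → u ∈ Z := by
    intro u hu huc
    rw [← hC, Subgroup.mem_centralizer_iff]
    intro q hq
    exact huc q (hQT hq)
  have huniq : ∀ u ∈ Z, u ≠ 1 → u = z := by
    intro u hu hu1
    obtain ⟨w, _, hw⟩ := (Nat.card_eq_two_iff' (1 : Z)).1 hZcard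
    have a1 := hw ⟨u, hu⟩ (fun h => hu1 (congrArg Subtype.val h))
    have a2 := hw ⟨z, hcent z hzT hzc⟩ (fun h => hz1 (congrArg Subtype.val h))
    exact congrArg Subtype.val (a1.trans a2.symm)
  have hle : Subgroup.normalizer (T' : Set G) ≤ Subgroup.normalizer (Q : Set G) := by
    intro g hg
    apply hN
    rw [Subgroup.mem_centralizer_iff]
    intro u hu
    by_cases hu1 : u = 1
    · simp [hu1]
    have huz : u = z := huniq u hu hu1
    rw [huz]
    have hgz : g * z * g⁻¹ = z := by
      apply huniq
      · apply hcent _ ((Subgroup.mem_normalizer_iff.1 hg z).1 hzT)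
        intro r hr
        have hr' : g⁻¹ * r * g ∈ T' := by
          rw [Subgroup.mem_normalizer_iff.1 hg]
          have e : g * (g⁻¹ * r * g) * g⁻¹ = r := by group
          rw [e]; exact hr
        have h3 := hzc _ hr'
        calc r * (g * z * g⁻¹) = g * ((g⁻¹ * r * g) * z) * g⁻¹ := by group
          _ = g * z * g⁻¹ * r := by rw [h3]; group
      · intro h
        apply hz1
        have e : z = g⁻¹ * (g * z * g⁻¹) * g := by group
        rw [e, h]; group
    calc z * g = (g * z * g⁻¹) * g := by rw [hgz]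
      _ = g * z := by group
  have h5 := Sylow.normalizer_sup_eq_top T
  rw [eq_top_iff, ← h5, sup_comm]
  exact sup_le_sup_left hle L

end Cfsg.Agent.S5433
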