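import Cfsg.Statements.S5434
import Mathlib
import Cfsg.Agent.Lib_lead_XS3
import Cfsg.Agent.Lib_helper1_SZ

set_option autoImplicit false
open Cfsg

namespace Cfsg.Agent.S5434

/-- Let Q be a large extraspecial 2-subgroup of the finite group G (extraspecial; centralizer equal to its centre; normal in the centralizer of its centre; normalizing no non-trivial subgroup of odd order), and A a non-trivial subgroup of odd order of the normalizer of Q. Then Q is the central product of the centralizer of A in Q and the commutator subgroup [Q, A] (they generate Q and commute elementwise), [Q, A] is extraspecial, and the centralizer of A in Q is either the centre of Q or extraspecial. -/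
theorem result {G : Type*} [Group G] [Finite G] (Q : Subgroup G) (hQ : Cfsg.IsLargeExtraspecial Q) (A : Subgroup G) (hA : A ≤ Subgroup.normalizer (Q : Set G)) (hAodd : Odd (Nat.card ↥A)) (hA1 : A ≠ ⊥) : (Q ⊓ Subgroup.centralizer (A : Set G)) ⊔ ⁅Q, A⁆ = Q ∧ (∀ x ∈ Q ⊓ Subgroup.centralizer (A : Set G), ∀ y ∈ ⁅Q, A⁆, x * y = y * x) ∧ Cfsg.IsExtraspecial 2 ↥⁅Q, A⁆ ∧ (Q ⊓ Subgroup.centralizer (A : Set G) = ((Subgroup.center ↥Q).map Q.subtype) ∨ Cfsg.IsExtraspecial 2 ↥(Q ⊓ Subgroup.centralizer (A : Set G))) := by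
  obtain ⟨hE, hC, hN, hK⟩ := hQ
  have : Fact (Nat.Prime 2) := ⟨Nat.prime_two⟩
  have hX := Cfsg.Agent.LeadXS.XS.of_extraspecial hE
  obtain ⟨x1, x2, x3, x4⟩ := (Cfsg.Agent.LeadXS.XS.sub_iff Q).1 hX
  rw [Cfsg.Agent.H7.map_center_subtype] at hC ⊢
  have hcop : (Nat.card A).Coprime (Nat.card Q) := by
    obtain ⟨k, hk⟩ := x1.exists_card_eq
    rw [hk]
    exact Nat.Coprime.pow_right k (Nat.coprime_two_right.2 hAodd)
  have hsolv : Group.IsSolvable A ∨ Group.IsSolvable Q := by
    right
    have := x1.isNilpotent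
    infer_instance
  have h1 := Cfsg.Agent.H1.coprime_comm_sup_centralizer A Q hA hcop hsolv
  set C := Q ⊓ Subgroup.centralizer (A : Set G) with hCdef
  set R := ⁅Q, A⁆ with hRdef
  set Z := Q ⊓ Subgroup.centralizer (Q : Set G) with hZdef
  have hRQ : R ≤ Q := by rw [← h1]; exact le_sup_left
  have hZA : ⁅Z, A⁆ = ⊥ := by
    rw [Subgroup.commutator_eq_bot_iff_le_centralizer]
    intro z hz
    rw [Subgroup.mem_centralizer_iff]
    intro a ha
    exact hX.two_central (hA ha) hz
  have hCA : ⁅C, A⁆ = ⊥ := Subgroup.commutator_eq_bot_iff_le_centralizer.2 inf_le_right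
  have h2 : ⁅R, C⁆ = ⊥ := by
    apply Subgroup.commutator_commutator_eq_bot_of_rotate
    · rw [Subgroup.commutator_comm A, hCA, Subgroup.commutator_bot_left]
    · rw [eq_bot_iff, ← hZA]
      refine Subgroup.commutator_mono ?_ le_rfl
      rw [← x3]
      exact Subgroup.commutator_mono inf_le_left le_rfl
  have hRC : R ≤ Subgroup.centralizer (C : Set G) := Subgroup.commutator_eq_bot_iff_le_centralizer.1 h2
  have hCR : C ≤ Subgroup.centralizer (R : Set G) := Subgroup.le_centralizer_iff.1 hRC
  have hcent : Subgroup.centralizer (R : Set G) ⊓ Subgroup.centralizer (C : Set G) ≤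
      Subgroup.centralizer (Q : Set G) := by
    intro x hx
    have h3 : R ⊔ C ≤ Subgroup.centralizer ({x} : Set G) := by
      refine sup_le ?_ ?_
      · intro r hr
        rw [Subgroup.mem_centralizer_singleton_iff]
        exact Subgroup.mem_centralizer_iff.1 hx.1 r hr
      · intro r hr
        rw [Subgroup.mem_centralizer_singleton_iff]
        exact Subgroup.mem_centralizer_iff.1 hx.2 r hr
    rw [h1] at h3
    rw [Subgroup.mem_centralizer_iff]
    intro q hq
    exact Subgroup.mem_centralizer_singleton_iff.1 (h3 hq)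
  have hRnd : R ⊓ Subgroup.centralizer (R : Set G) ≤ Subgroup.centralizer (Q : Set G) :=
    (le_inf inf_le_right (inf_le_left.trans hRC)).trans hcent
  have hCnd : C ⊓ Subgroup.centralizer (C : Set G) ≤ Subgroup.centralizer (Q : Set G) :=
    (le_inf (inf_le_left.trans hCR) inf_le_right).trans hcent
  have hRna : ¬ R ≤ Subgroup.centralizer (R : Set G) := by
    intro h
    have h3 : R ≤ Z := le_inf hRQ ((le_inf le_rfl h).trans hRnd)
    have h4 : ⁅R, A⁆ = ⊥ := by
      rw [eq_bot_iff, ← hZA]
      exact Subgroup.commutator_mono h3 le_rfl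
    have h5 := Cfsg.Agent.H1.coprime_comm_comm A Q hA hcop hsolv
    rw [← hRdef, h4] at h5
    have h6 : A ≤ Subgroup.centralizer (Q : Set G) := by
      rw [Subgroup.le_centralizer_iff]
      exact Subgroup.commutator_eq_bot_iff_le_centralizer.1 h5.symm
    rw [hC] at h6
    have h7 : Nat.card A ∣ 2 := x2 ▸ Subgroup.card_dvd_of_le h6
    rcases (Nat.dvd_prime Nat.prime_two).1 h7 with h8 | h8
    · exact hA1 (Subgroup.card_eq_one.1 h8)
    · rw [h8] at hAodd
      exact absurd hAodd (by decide)
  refine ⟨by rw [sup_comm]; exact h1, ?_, (hX.of_le hRQ hRnd hRna).to_extraspecial, ?_⟩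
  · intro x hx y hy
    exact (Subgroup.mem_centralizer_iff.1 (hCR hx) y hy).symm
  · by_cases hCab : C ≤ Subgroup.centralizer (C : Set G)
    · left
      apply le_antisymm
      · exact le_inf inf_le_left ((le_inf le_rfl hCab).trans hCnd)
      · exact le_inf inf_le_left (Subgroup.commutator_eq_bot_iff_le_centralizer.1 hZA)
    · right
      exact (hX.of_le inf_le_left hCnd hCab).to_extraspecial

end Cfsg.Agent.S5434
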