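import Cfsg.Statements.S5437

set_option autoImplicit false
open Cfsg

namespace Cfsg.Agent.S5437

theorem fix_iff {G : Type*} [Group G] (H : Subgroup G) (x g : G) :
    x • (g : G ⧸ H) = (g : G ⧸ H) ↔ g⁻¹ * x * g ∈ H := by
  rw [show x • (g : G ⧸ H) = ((x * g : G) : G ⧸ H) from rfl, QuotientGroup.eq]
  rw [← inv_mem_iff]
  have : ((x * g)⁻¹ * g)⁻¹ = g⁻¹ * x * g := by group
  rw [this]

theorem mem_map_conj_iff {G : Type*} [Group G] (H : Subgroup G) (x g : G) :
    x ∈ H.map (MulAut.conj g).toMonoidHom ↔ g⁻¹ * x * g ∈ H := by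
  constructor
  · rintro ⟨y, hy, rfl⟩
    have : g⁻¹ * ((MulAut.conj g).toMonoidHom y) * g = y := by
      change g⁻¹ * (g * y * g⁻¹) * g = y
      group
    rw [this]; exact hy
  · intro h
    refine ⟨_, h, ?_⟩
    change g * (g⁻¹ * x * g) * g⁻¹ = x
    group

/-- Let I be a set of involutions of the finite group G closed under conjugation, and H a subgroup of G. The following are equivalent: (1) for every member x of I lying in H, the conjugates of x lying in H form a single H-class and the centralizer of x lies in H; (2) for every g outside H, no member of I lies in both H and g H g⁻¹; (3) every member of I lying in H fixes exactly one coset in the action of G on the cosets of H. -/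
theorem result {G : Type*} [Group G] [Finite G] (I : Set G) (hI : ∀ x ∈ I, orderOf x = 2) (hIc : ∀ g : G, ∀ x ∈ I, g * x * g⁻¹ ∈ I) (H : Subgroup G) : ((∀ x ∈ I, x ∈ H → (∀ g : G, g * x * g⁻¹ ∈ H → ∃ h ∈ H, h * x * h⁻¹ = g * x * g⁻¹) ∧ Subgroup.centralizer ({x} : Set G) ≤ H) ↔ (∀ g : G, g ∉ H → ∀ x ∈ I, ¬ (x ∈ H ∧ x ∈ (H : Subgroup G).map (MulAut.conj g).toMonoidHom))) ∧ ((∀ g : G, g ∉ H → ∀ x ∈ I, ¬ (x ∈ H ∧ x ∈ (H : Subgroup G).map (MulAut.conj g).toMonoidHom)) ↔ ∀ x ∈ I, x ∈ H → ∃! c : G ⧸ H, x • c = c) := by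
  refine ⟨⟨?_, ?_⟩, ⟨?_, ?_⟩⟩
  · intro h1 g hg x hx ⟨hxH, hxg⟩
    rw [mem_map_conj_iff] at hxg
    obtain ⟨h1a, h1b⟩ := h1 x hx hxH
    obtain ⟨h, hh, hhx⟩ := h1a g⁻¹ (by simpa using hxg)
    apply hg
    have h2 : g * h ∈ Subgroup.centralizer ({x} : Set G) := by
      rw [Subgroup.mem_centralizer_singleton_iff]
      have : h * x = g⁻¹ * x * g * h := by
        have := congrArg (· * h) hhx
        simpa using this
      calc g * h * x = g * (h * x) := by group
        _ = g * (g⁻¹ * x * g * h) := by rw [this]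
        _ = x * (g * h) := by group
    have h3 := h1b h2
    have : g = (g * h) * h⁻¹ := by group
    rw [this]
    exact mul_mem h3 (inv_mem hh)
  · intro h2 x hx hxH
    refine ⟨?_, ?_⟩
    · intro g hg
      by_cases hgH : g ∈ H
      · exact ⟨g, hgH, rfl⟩
      · exfalso
        refine h2 g⁻¹ (fun h => hgH (by simpa using inv_mem h)) x hx ⟨hxH, ?_⟩
        rw [mem_map_conj_iff]
        simpa using hg
    · intro c hc
      by_contra hcH
      refine h2 c hcH x hx ⟨hxH, ?_⟩
      rw [mem_map_conj_iff]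
      rw [Subgroup.mem_centralizer_singleton_iff] at hc
      have : c⁻¹ * x * c = x := by
        calc c⁻¹ * x * c = c⁻¹ * (x * c) := by group
          _ = c⁻¹ * (c * x) := by rw [hc]
          _ = x := by group
      rw [this]; exact hxH
  · intro h2 x hx hxH
    refine ⟨((1 : G) : G ⧸ H), ?_, ?_⟩
    · change x • ((1 : G) : G ⧸ H) = ((1 : G) : G ⧸ H)
      rw [fix_iff]; simpa using hxH
    · intro c hc
      induction c using QuotientGroup.induction_on with
      | H g =>
        change x • (g : G ⧸ H) = (g : G ⧸ H) at hc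
        rw [fix_iff] at hc
        by_cases hgH : g ∈ H
        · rw [QuotientGroup.eq]
          simpa using hgH
        · exfalso
          exact h2 g hgH x hx ⟨hxH, (mem_map_conj_iff H x g).2 hc⟩
  · intro h3 g hg x hx ⟨hxH, hxg⟩
    obtain ⟨c, -, hc⟩ := h3 x hx hxH
    have e1 := hc ((1 : G) : G ⧸ H) ((fix_iff H x 1).2 (by simpa using hxH))
    have e2 := hc (g : G ⧸ H) ((fix_iff H x g).2 ((mem_map_conj_iff H x g).1 hxg))
    apply hg
    have e3 : ((1 : G) : G ⧸ H) = (g : G ⧸ H) := e1.trans e2.symm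
    rw [QuotientGroup.eq] at e3
    simpa using e3

end Cfsg.Agent.S5437
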