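import Cfsg.Statements.S5438
import Cfsg.Agent.S5437
import Cfsg.Agent.Lib_helper5_Gleason

set_option autoImplicit false
open Cfsg

namespace Cfsg.Agent.S5438

open scoped Pointwise in
theorem exists_commuting_conj {G : Type*} [Group G] [Finite G] (z : G) (P : Sylow 2 G)
    (hzc : ∀ x ∈ P, x * z = z * x) (H : Subgroup G) (hPH : (P : Subgroup G) ≤ H)
    (y : G) (hy : y ∈ H) (k : ℕ) (hk : orderOf y = 2 ^ k) :
    ∃ h ∈ H, y * (h * z * h⁻¹) = (h * z * h⁻¹) * y := by
  have hyp : IsPGroup 2 (Subgroup.zpowers (⟨y, hy⟩ : H)) := by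
    apply IsPGroup.of_card (n := k)
    rw [Nat.card_zpowers, Subgroup.orderOf_mk, hk]
  obtain ⟨Q, hQ⟩ := hyp.exists_le_sylow
  obtain ⟨h, rfl⟩ := MulAction.exists_smul_eq H (P.subtype hPH) Q
  have h1 : (⟨y, hy⟩ : H) ∈ ((h • P.subtype hPH : Sylow 2 H) : Subgroup H) :=
    hQ (Subgroup.mem_zpowers _)
  rw [Sylow.coe_subgroup_smul] at h1
  obtain ⟨u, hu, hu'⟩ := h1
  have hu1 : (u : G) ∈ P := hu
  have hu2 : (h : G) * u * (h : G)⁻¹ = y := congrArg Subtype.val hu'
  refine ⟨h, h.2, ?_⟩
  rw [← hu2]
  have := hzc _ hu1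
  calc (h : G) * u * (h : G)⁻¹ * (h * z * (h : G)⁻¹) = h * (u * z) * (h : G)⁻¹ := by group
    _ = h * (z * u) * (h : G)⁻¹ := by rw [this]
    _ = _ := by group

/-- Let z be a 2-central involution of the finite group G (an involution central in some Sylow 2-subgroup) and H a subgroup containing z such that the coset H is the only coset of H fixed by z (in the action of G on the cosets of H). Then H has odd index in G, and for every 2-element x of H the conjugates of x lying in H form a single H-class. -/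
theorem result {G : Type*} [Group G] [Finite G] (z : G) (hz : Cfsg.IsTwoCentralInvolution z) (H : Subgroup G) (hzH : z ∈ H) (hfix : ∀ g : G, g⁻¹ * z * g ∈ H → g ∈ H) : Odd H.index ∧ ∀ x ∈ H, (∃ k : ℕ, orderOf x = 2 ^ k) → ∀ g : G, g * x * g⁻¹ ∈ H → ∃ h ∈ H, h * x * h⁻¹ = g * x * g⁻¹ := by
  obtain ⟨hz2, P, hzP, hzc⟩ := hz
  have hCH : Subgroup.centralizer ({z} : Set G) ≤ H := by
    intro c hc
    apply hfix
    rw [Subgroup.mem_centralizer_singleton_iff] at hc
    have : c⁻¹ * z * c = z := by
      calc c⁻¹ * z * c = c⁻¹ * (z * c) := by group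
        _ = c⁻¹ * (c * z) := by rw [hc]
        _ = z := by group
    rw [this]; exact hzH
  have hPH : (P : Subgroup G) ≤ H := by
    intro u hu
    apply hCH
    rw [Subgroup.mem_centralizer_singleton_iff]
    exact hzc u hu
  refine ⟨?_, ?_⟩
  · rw [← Nat.not_even_iff_odd, even_iff_two_dvd]
    intro h2
    exact P.not_dvd_index (h2.trans (Subgroup.index_dvd_of_le hPH))
  · rintro x hx ⟨k, hk⟩ g hg
    have hzz : z * z = 1 := by rw [← pow_two, ← hz2, pow_orderOf_eq_one]
    have key := Cfsg.Agent.H5.gleason_transitive (p := 2)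
      (C := ↥(Subgroup.centralizer ({x} : Set G))) (Ω := G ⧸ H)
      {c : G ⧸ H | x • c = c}
      (by
        intro c ω hω
        have hc := Subgroup.mem_centralizer_singleton_iff.1 c.2
        change x • ((c : G) • ω) = (c : G) • ω
        rw [← mul_smul, ← hc, mul_smul]
        exact congrArg _ hω)
      (by
        intro ω hω
        induction ω using QuotientGroup.induction_on with
        | H a =>
          have hω' : a⁻¹ * x * a ∈ H := (Cfsg.Agent.S5437.fix_iff H x a).1 hω
          have ho : orderOf (a⁻¹ * x * a) = 2 ^ k := by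
            rw [← hk]
            have := orderOf_injective (MulAut.conj a⁻¹).toMonoidHom (MulAut.conj a⁻¹).injective x
            simpa [MulAut.conj_apply] using this
          obtain ⟨h, hh, hcomm⟩ := exists_commuting_conj z P hzc H hPH _ hω' k ho
          have htc : a * h * z * h⁻¹ * a⁻¹ ∈ Subgroup.centralizer ({x} : Set G) := by
            rw [Subgroup.mem_centralizer_singleton_iff]
            calc a * h * z * h⁻¹ * a⁻¹ * x = a * ((h * z * h⁻¹) * (a⁻¹ * x * a)) * a⁻¹ := by group
              _ = a * ((a⁻¹ * x * a) * (h * z * h⁻¹)) * a⁻¹ := by rw [hcomm]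
              _ = _ := by group
          refine ⟨⟨_, htc⟩, 1, ?_, ?_⟩
          · apply Subtype.ext
            change (a * h * z * h⁻¹ * a⁻¹) ^ (2 ^ 1) = 1
            rw [pow_one, pow_two]
            calc a * h * z * h⁻¹ * a⁻¹ * (a * h * z * h⁻¹ * a⁻¹) = a * h * (z * z) * h⁻¹ * a⁻¹ := by
                  group
              _ = 1 := by rw [hzz]; group
          · intro ω' _
            induction ω' using QuotientGroup.induction_on with
            | H b =>
              change (a * h * z * h⁻¹ * a⁻¹) • (b : G ⧸ H) = (b : G ⧸ H) ↔ _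
              rw [Cfsg.Agent.S5437.fix_iff, QuotientGroup.eq]
              have e : b⁻¹ * (a * h * z * h⁻¹ * a⁻¹) * b = (h⁻¹ * a⁻¹ * b)⁻¹ * z * (h⁻¹ * a⁻¹ * b) := by
                group
              rw [e]
              constructor
              · intro h1
                have h2 := hfix _ h1
                have h3 : b⁻¹ * a = (h * (h⁻¹ * a⁻¹ * b))⁻¹ := by group
                rw [h3]
                exact inv_mem (mul_mem hh h2)
              · intro h1
                have h2 : h⁻¹ * a⁻¹ * b ∈ H := by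
                  have h3 : h⁻¹ * a⁻¹ * b = h⁻¹ * (b⁻¹ * a)⁻¹ := by group
                  rw [h3]
                  exact mul_mem (inv_mem hh) (inv_mem h1)
                exact mul_mem (mul_mem (inv_mem h2) hzH) h2)
      (ω := ((1 : G) : G ⧸ H)) (ω' := ((g⁻¹ : G) : G ⧸ H))
      ((Cfsg.Agent.S5437.fix_iff H x 1).2 (by simpa using hx))
      ((Cfsg.Agent.S5437.fix_iff H x g⁻¹).2 (by simpa using hg))
    obtain ⟨c, hc⟩ := key
    have hc1 : (((c : G) * 1 : G) : G ⧸ H) = ((g⁻¹ : G) : G ⧸ H) := hc
    rw [QuotientGroup.eq] at hc1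
    have hc2 := Subgroup.mem_centralizer_singleton_iff.1 c.2
    refine ⟨g * c, ?_, ?_⟩
    · have : g * (c : G) = (((c : G) * 1)⁻¹ * g⁻¹)⁻¹ := by group
      rw [this]
      exact inv_mem hc1
    · calc g * (c : G) * x * (g * (c : G))⁻¹ = g * ((c : G) * x) * (c : G)⁻¹ * g⁻¹ := by group
        _ = g * (x * (c : G)) * (c : G)⁻¹ * g⁻¹ := by rw [hc2]
        _ = _ := by group

end Cfsg.Agent.S5438
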