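import Cfsg.Statements.S5439
import Cfsg.Agent.S5437
import Cfsg.Agent.Lib_helper5_SE3
import Cfsg.Agent.Lib_helper5_Isolated

set_option autoImplicit false
open Cfsg

namespace Cfsg.Agent.S5439


/-- Let I and J be two different conjugacy classes of involutions of the finite group G and H a subgroup such that every member of I ∪ J fixes exactly one coset in the action on the cosets of H, and such that for every a in I ∩ H and every b in (I ∪ J) ∩ H different from a and commuting with it, the centralizer of a b lies in H. Then H = G. -/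
theorem result {G : Type*} [Group G] [Finite G] (I J : Set G) (a₀ b₀ : G) (ha₀ : orderOf a₀ = 2) (hb₀ : orderOf b₀ = 2) (hI : I = {x | IsConj a₀ x}) (hJ : J = {x | IsConj b₀ x}) (hIJ : I ≠ J) (H : Subgroup G) (hfix : ∀ x ∈ I ∪ J, ∃! c : G ⧸ H, x • c = c) (hcent : ∀ a ∈ I, a ∈ H → ∀ b ∈ I ∪ J, b ∈ H → a ≠ b → a * b = b * a → Subgroup.centralizer ({a * b} : Set G) ≤ H) : H = ⊤ := by
  have fix_iff := @Cfsg.Agent.S5437.fix_iff G _ H
  have hIconj : ∀ x ∈ I, ∀ g : G, g * x * g⁻¹ ∈ I := by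
    intro x hx g
    rw [hI] at hx ⊢
    exact hx.trans (isConj_iff.2 ⟨g, rfl⟩)
  have hJconj : ∀ x ∈ J, ∀ g : G, g * x * g⁻¹ ∈ J := by
    intro x hx g
    rw [hJ] at hx ⊢
    exact hx.trans (isConj_iff.2 ⟨g, rfl⟩)
  have hIord : ∀ x ∈ I, orderOf x = 2 := by
    intro x hx
    rw [hI] at hx
    obtain ⟨g, rfl⟩ := isConj_iff.1 hx
    exact Cfsg.Agent.H5.order_two_conj ha₀ g
  have hJord : ∀ x ∈ J, orderOf x = 2 := by
    intro x hx
    rw [hJ] at hx
    obtain ⟨g, rfl⟩ := isConj_iff.1 hx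
    exact Cfsg.Agent.H5.order_two_conj hb₀ g
  have hnc : ∀ a ∈ I, ∀ b ∈ J, ¬ IsConj a b := by
    intro a ha b hb hab
    apply hIJ
    rw [hI] at ha
    rw [hJ] at hb
    have h1 : IsConj a₀ b₀ := (ha.trans hab).trans hb.symm
    rw [hI, hJ]
    ext x
    exact ⟨fun hx => h1.symm.trans hx, fun hx => h1.trans hx⟩
  have hA : ∀ a ∈ I, a ∈ H → ∀ b ∈ J, b ∈ H := by
    intro a haI haH b hbJ
    have haa := Cfsg.Agent.H5.mul_self_of_order_two (hIord a haI)
    have hbb := Cfsg.Agent.H5.mul_self_of_order_two (hJord b hbJ)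
    have heven : Even (orderOf (a * b)) := by
      rw [← Nat.not_odd_iff_even]
      intro hodd
      obtain ⟨k, -, hk⟩ := Cfsg.Agent.H5.conj_of_odd haa hbb hodd
      exact hnc a haI b hbJ (isConj_iff.2 ⟨_, hk⟩)
    obtain ⟨m, hm⟩ := heven
    have hpos : 0 < orderOf (a * b) := orderOf_pos _
    set z := (a * b) ^ (m : ℤ) with hz
    have hzz : z * z = 1 := by
      rw [hz, ← zpow_add]
      have : ((m : ℤ) + m) = ((orderOf (a * b) : ℕ) : ℤ) := by rw [hm]; push_cast; ring
      rw [this, zpow_natCast, pow_orderOf_eq_one]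
    have hz1 : z ≠ 1 := by
      rw [hz, zpow_natCast]
      intro h
      have := orderOf_le_of_pow_eq_one (by omega : 0 < m) h
      omega
    have hzi : (a * b) ^ (-(m : ℤ)) = z := by
      rw [zpow_neg, ← hz]
      exact inv_eq_of_mul_eq_one_left hzz
    have hza : a * z = z * a := by
      rw [hz, Cfsg.Agent.H5.invol_mul_zpow haa hbb, hzi]
    have hzb : b * z = z * b := by
      rw [hz, Cfsg.Agent.H5.right_invol_mul_zpow haa hbb, hzi]
    have hb'IJ : z * a ∈ I ∪ J := by
      obtain ⟨d, -, hd⟩ := Cfsg.Agent.H5.refl_is_conj haa hbb (m : ℤ)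
      rcases hd with hd | hd
      · left; rw [hz, hd]; exact hIconj a haI d
      · right; rw [hz, hd]; exact hJconj b hbJ d
    have hb'ne : a ≠ z * a := by
      intro h
      apply hz1
      have := congrArg (· * a⁻¹) h
      simpa using this.symm
    have hcomm : a * (z * a) = (z * a) * a := by
      rw [← mul_assoc, hza]
    have hb'H : z * a ∈ H := by
      obtain ⟨c, -, hc⟩ := hfix a (Or.inl haI)
      have e1 := hc ((1 : G) : G ⧸ H) ((fix_iff a 1).2 (by simpa using haH))
      have e2 := hc ((z * a) • ((1 : G) : G ⧸ H)) (by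
        change a • ((z * a) • ((1 : G) : G ⧸ H)) = (z * a) • ((1 : G) : G ⧸ H)
        rw [← mul_smul, hcomm, mul_smul]
        congr 1
        exact (fix_iff a 1).2 (by simpa using haH))
      have e3 : (z * a) • ((1 : G) : G ⧸ H) = ((1 : G) : G ⧸ H) := e2.trans e1.symm
      have := (fix_iff (z * a) 1).1 e3
      simpa using this
    have h1 := hcent a haI haH (z * a) hb'IJ hb'H hb'ne hcomm
    have h2 : a * (z * a) = z := by
      rw [hcomm, mul_assoc, haa, mul_one]
    rw [h2] at h1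
    apply h1
    rw [Subgroup.mem_centralizer_singleton_iff]
    exact hzb
  -- a member of I in H
  have ha₀I : a₀ ∈ I := by rw [hI]; exact IsConj.refl a₀
  have hb₀J : b₀ ∈ J := by rw [hJ]; exact IsConj.refl b₀
  obtain ⟨c, hc, -⟩ := hfix a₀ (Or.inl ha₀I)
  induction c using QuotientGroup.induction_on with
  | H g₀ =>
    have h1 : g₀⁻¹ * a₀ * g₀ ∈ H := (fix_iff a₀ g₀).1 hc
    have h2 : g₀⁻¹ * a₀ * g₀ ∈ I := by
      have := hIconj a₀ ha₀I g₀⁻¹
      simpa using this
    have hJH : ∀ b ∈ J, b ∈ H := hA _ h2 h1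
    obtain ⟨c', -, hc'⟩ := hfix b₀ (Or.inr hb₀J)
    rw [eq_top_iff]
    intro g _
    have e1 := hc' ((1 : G) : G ⧸ H) ((fix_iff b₀ 1).2 (by simpa using hJH b₀ hb₀J))
    have e2 := hc' (g : G ⧸ H) ((fix_iff b₀ g).2 (by
      have := hJH _ (hJconj b₀ hb₀J g⁻¹)
      simpa using this))
    have e3 : ((1 : G) : G ⧸ H) = (g : G ⧸ H) := e1.trans e2.symm
    rw [QuotientGroup.eq] at e3
    simpa using e3

end Cfsg.Agent.S5439
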