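import Cfsg.Statements.S5543
import Cfsg.Agent.Lib_helper5_Majorana

set_option autoImplicit false
open Cfsg

namespace Cfsg.Agent.S5543

open H5.Maj Cfsg.Axial

/-- Let V be a finite-dimensional real vector space with a commutative bilinear product and a positive-definite symmetric bilinear form that associates with the product and satisfies the Norton inequality (the Majorana setting of the definitions). Let X be a group of linear automorphisms of V in which every element squares to the identity, and suppose every non-identity element x of X is a Majorana involution with an axial vector a(x) of squared length 1, such that for any two distinct non-identity x, y the product a(x) ∘ a(y) equals (1/8)(a(x) + a(y) − a(xy)) (the dihedral subalgebra of type 2A whose third axis belongs to the involution xy). Then X has order at most 4. -/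
theorem result {V : Type*} [AddCommGroup V] [Module ℝ V] [FiniteDimensional ℝ V] (mul : V →ₗ[ℝ] V →ₗ[ℝ] V) (B : LinearMap.BilinForm ℝ V) (hV : Cfsg.Axial.IsMajoranaAmbient mul B) (X : Subgroup (V ≃ₗ[ℝ] V)) (hX : ∀ x ∈ X, x * x = 1) (ax : (V ≃ₗ[ℝ] V) → V) (hax : ∀ x ∈ X, x ≠ 1 → Cfsg.Axial.IsMajoranaPair mul B x (ax x)) (h1 : ∀ x ∈ X, x ≠ 1 → B (ax x) (ax x) = 1) (h2A : ∀ x ∈ X, ∀ y ∈ X, x ≠ 1 → y ≠ 1 → x ≠ y → mul (ax x) (ax y) = (1 / 8 : ℝ) • (ax x + ax y - ax (x * y))) : Nat.card ↥X ≤ 4 := by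
  classical
  by_contra hcard
  have hcard' : 4 < Nat.card ↥X := by omega
  haveI : Finite ↥X := Nat.finite_of_card_ne_zero (by omega)
  have hex : ∀ s : Finset ↥X, s.card ≤ 4 → ∃ w : ↥X, w ∉ s := by
    intro s hs
    by_contra hcon
    push Not at hcon
    haveI := Fintype.ofFinite ↥X
    have : s = Finset.univ := Finset.eq_univ_iff_forall.2 hcon
    rw [this, Finset.card_univ, ← Nat.card_eq_fintype_card] at hs
    omega
  obtain ⟨x', hx'⟩ := hex {1} (by simp)
  obtain ⟨y', hy'⟩ := hex {1, x'} (le_trans Finset.card_le_two (by norm_num))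
  obtain ⟨w', hw'⟩ := hex {1, x', y', x' * y'} Finset.card_le_four
  simp only [Finset.mem_insert, Finset.mem_singleton, not_or] at hx' hy' hw'
  obtain ⟨x, hx⟩ := x'
  obtain ⟨y, hy⟩ := y'
  obtain ⟨w, hw⟩ := w'
  have hx1 : x ≠ 1 := fun h => hx' (Subtype.ext h)
  have hy1 : y ≠ 1 := fun h => hy'.1 (Subtype.ext h)
  have hyx : y ≠ x := fun h => hy'.2 (Subtype.ext h)
  have hw1 : w ≠ 1 := fun h => hw'.1 (Subtype.ext h)
  have hwx : w ≠ x := fun h => hw'.2.1 (Subtype.ext h)
  have hwy : w ≠ y := fun h => hw'.2.2.1 (Subtype.ext h)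
  have hwxy : w ≠ x * y := fun h => hw'.2.2.2 (Subtype.ext h)
  clear hx' hy' hw' hex
  have hcommX : ∀ s ∈ X, ∀ t ∈ X, s * t = t * s := by
    intro s hs t ht
    have h3 : s * t = (s * t)⁻¹ := eq_inv_of_mul_eq_one_left (hX _ (X.mul_mem hs ht))
    rw [h3, mul_inv_rev, inv_eq_of_mul_eq_one_left (hX s hs), inv_eq_of_mul_eq_one_left (hX t ht)]
  have hcancel : ∀ s ∈ X, ∀ t, s * (s * t) = t := by
    intro s hs t
    rw [← mul_assoc, hX s hs, one_mul]
  have hone : ∀ s ∈ X, ∀ t, s * t = 1 → t = s := by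
    intro s hs t h
    have := hcancel s hs t
    rw [h, mul_one] at this
    exact this.symm
  set a := ax x with ha
  have hpa := hax x hx hx1
  -- eigenvectors
  have eig : ∀ t ∈ X, t ≠ 1 → t ≠ x →
      mul a (ax t - ax (x * t)) = (1 / 4 : ℝ) • (ax t - ax (x * t)) := by
    intro t ht ht1 htx
    have hxt : x * t ∈ X := X.mul_mem hx ht
    have hxt1 : x * t ≠ 1 := fun h => htx (hone x hx t h)
    have e1 := h2A x hx t ht hx1 ht1 (Ne.symm htx)
    have e2 := h2A x hx (x * t) hxt hx1 hxt1 (fun h => ht1 (by simpa using h))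
    rw [hcancel x hx t] at e2
    rw [map_sub, e1, e2]
    module
  have hyw : y * w ∈ X := X.mul_mem hy hw
  have hxy : x * y ∈ X := X.mul_mem hx hy
  have hxw : x * w ∈ X := X.mul_mem hx hw
  have hyw1 : y * w ≠ 1 := fun h => hwy (hone y hy w h)
  have hxy1 : x * y ≠ 1 := fun h => hyx (hone x hx y h)
  have hxw1 : x * w ≠ 1 := fun h => hwx (hone x hx w h)
  have hywx : y * w ≠ x := by
    intro h
    apply hwxy
    have := hcancel y hy w
    rw [h, hcommX y hy x hx] at this
    exact this.symm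
  have E1 := eig y hy hy1 hyx
  have E2 := eig w hw hw1 hwx
  have E3 := eig (y * w) hyw hyw1 hywx
  have p1 := h2A y hy w hw hy1 hw1 (Ne.symm hwy)
  have p2 := h2A y hy (x * w) hxw hy1 hxw1 (by
    intro h
    apply hwxy
    rw [h, hcancel x hx w])
  have p3 := h2A (x * y) hxy w hw hxy1 hw1 (Ne.symm hwxy)
  have p4 := h2A (x * y) hxy (x * w) hxw hxy1 hxw1 (by
    intro h
    exact hwy (mul_left_cancel h).symm)
  have g2 : y * (x * w) = x * (y * w) := by
    rw [← mul_assoc, hcommX y hy x hx, mul_assoc]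
  have g3 : x * y * w = x * (y * w) := mul_assoc _ _ _
  have g4 : x * y * (x * w) = y * w := by
    rw [hcommX x hx y hy, mul_assoc, hcancel x hx w]
  rw [g2] at p2
  rw [g3] at p3
  rw [g4] at p4
  have hprod : mul (ax y - ax (x * y)) (ax w - ax (x * w))
      = (-(1 / 4) : ℝ) • (ax (y * w) - ax (x * (y * w))) := by
    simp only [map_sub, LinearMap.sub_apply, p1, p2, p3, p4]
    module
  obtain ⟨n, g, hng, hg⟩ := fusqq hpa E1 E2
  have hz := indep3 (mul := mul) (a := a) (x1 := n • a) (x0 := g)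
    (xq := (1 / 4 : ℝ) • (ax (y * w) - ax (x * (y * w))))
    (by rw [map_smul, idem hpa]) hg (by rw [map_smul, E3])
    (by rw [← hng, hprod]; module)
  have heq : ax (y * w) = ax (x * (y * w)) := by
    have := (smul_eq_zero.1 hz.2.2).resolve_left (by norm_num)
    exact sub_eq_zero.1 this
  have hxyw : x * (y * w) ∈ X := X.mul_mem hx hyw
  have hxyw1 : x * (y * w) ≠ 1 := by
    intro h
    apply hwxy
    rw [← mul_assoc] at h
    exact hone _ hxy w h
  have p5 := h2A (y * w) hyw (x * (y * w)) hxyw hyw1 hxyw1 (fun h => hx1 (by simpa using h))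
  have g5 : y * w * (x * (y * w)) = x := by
    rw [hcommX _ hyw _ hxyw, mul_assoc, hX _ hyw, mul_one]
  rw [g5, ← heq, idem (hax _ hyw hyw1)] at p5
  have ha6 : a = (-6 : ℝ) • ax (y * w) := by
    calc a = ax (y * w) + ax (y * w) - (8 : ℝ) • ((1 / 8 : ℝ) • (ax (y * w) + ax (y * w) - ax x)) := by
          rw [ha]; module
      _ = (-6 : ℝ) • ax (y * w) := by rw [← p5]; module
  have n1 := h1 x hx hx1
  have n2 := h1 _ hyw hyw1
  rw [← ha, ha6] at n1
  simp only [map_smul, LinearMap.smul_apply, smul_eq_mul, n2] at n1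
  norm_num at n1

end Cfsg.Agent.S5543
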