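import Cfsg.Statements.S5545
import Cfsg.Agent.Lib_helper5_Majorana

set_option autoImplicit false
open Cfsg

namespace Cfsg.Agent.S5545

open H5.Maj Cfsg.Axial

theorem expand {V : Type*} [AddCommGroup V] [Module ℝ V] {mul : V →ₗ[ℝ] V →ₗ[ℝ] V}
    {a α β AA AB BB : V} (haa : mul a a = a) (h1 : mul a α = 0) (h2 : mul α a = 0)
    (h3 : mul a β = (1 / 4 : ℝ) • β) (h4 : mul β a = (1 / 4 : ℝ) • β) (h5 : mul α α = AA)
    (h6 : mul α β = AB) (h7 : mul β α = AB) (h8 : mul β β = BB) (x1 y1 z1 x2 y2 z2 : ℝ) :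
    mul (x1 • a + y1 • α + z1 • β) (x2 • a + y2 • α + z2 • β) =
      (x1 * x2) • a + ((x1 * z2 + z1 * x2) / 4) • β + (y1 * y2) • AA + (y1 * z2 + z1 * y2) • AB
        + (z1 * z2) • BB := by
  simp only [map_add, map_smul, LinearMap.add_apply, LinearMap.smul_apply, haa, h1, h2, h3, h4, h5,
    h6, h7, h8]
  module

theorem form_coeff {V : Type*} [AddCommGroup V] [Module ℝ V] {mul : V →ₗ[ℝ] V →ₗ[ℝ] V}
    {B : LinearMap.BilinForm ℝ V} (hassoc : ∀ u v w : V, B u (mul v w) = B (mul u v) w)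
    {a α β : V} (haa : mul a a = a) (h1 : mul a α = 0) (h3 : mul a β = (1 / 4 : ℝ) • β)
    (hn : B a a = 1) (l : ℝ) : B a (l • a + α + β) = l := by
  have e1 : B a α = 0 := by
    have := hassoc a a α
    rw [h1, haa, map_zero] at this
    exact this.symm
  have e2 : B a β = 0 := by
    have := hassoc a a β
    rw [h3, haa, map_smul, smul_eq_mul] at this
    linarith
  rw [map_add, map_add, map_smul, hn, e1, e2]
  simp

/-- Let V be a finite-dimensional real vector space with a commutative bilinear product and a positive-definite symmetric bilinear form that associates with the product and satisfies the Norton inequality (the Majorana setting of the definitions). Let μ₀, μ₁ be commuting Majorana involutions with distinct axial vectors a₀ ≠ a₁ of squared length 1, each involution having no other axial vector. Then either a₀ and a₁ are orthogonal with a₀ ∘ a₁ = 0 (type 2B), or their inner product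 is 1/8 and, with a₂ = a₀ + a₁ − 8 a₀ ∘ a₁, the vector a₂ is an idempotent and a₀ ∘ a₂ = (1/8)(a₀ + a₂ − a₁), a₁ ∘ a₂ = (1/8)(a₁ + a₂ − a₀) (type 2A: the three idempotents span a subalgebra with aᵢ ∘ aⱼ = (1/8)(aᵢ + aⱼ − aₖ)). -/
theorem result {V : Type*} [AddCommGroup V] [Module ℝ V] [FiniteDimensional ℝ V] (mul : V →ₗ[ℝ] V →ₗ[ℝ] V) (B : LinearMap.BilinForm ℝ V) (hV : Cfsg.Axial.IsMajoranaAmbient mul B) (μ₀ μ₁ : V ≃ₗ[ℝ] V) (a₀ a₁ : V) (h₀ : Cfsg.Axial.IsMajoranaPair mul B μ₀ a₀) (h₁ : Cfsg.Axial.IsMajoranaPair mul B μ₁ a₁) (hu₀ : ∀ a : V, Cfsg.Axial.IsMajoranaPair mul B μ₀ a → a = a₀) (hu₁ : ∀ a : V, Cfsg.Axial.IsMajoranaPair mul B μ₁ a → a = a₁) (hn₀ : B a₀ a₀ = 1) (hn₁ : B a₁ a₁ = 1) (hc : μ₀ * μ₁ = μ₁ * μ₀) (hne : a₀ ≠ a₁) : (B a₀ a₁ = 0 ∧ mul a₀ a₁ = 0) ∨ (B a₀ a₁ = 1 / 8 ∧ mul (a₀ + a₁ - (8 : ℝ) • mul a₀ a₁) (a₀ + a₁ - (8 : ℝ) • mul a₀ a₁) = a₀ + a₁ - (8 : ℝ) • mul a₀ a₁ ∧ mul a₀ (a₀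 + a₁ - (8 : ℝ) • mul a₀ a₁) = (1 / 8 : ℝ) • (a₀ + (a₀ + a₁ - (8 : ℝ) • mul a₀ a₁) - a₁) ∧ mul a₁ (a₀ + a₁ - (8 : ℝ) • mul a₀ a₁) = (1 / 8 : ℝ) • (a₁ + (a₀ + a₁ - (8 : ℝ) • mul a₀ a₁) - a₀)) := by
  obtain ⟨hcomm, hsymm, -, hassoc, -⟩ := hV
  have hc' : ∀ v, μ₀ (μ₁ v) = μ₁ (μ₀ v) := by
    intro v
    have := congrArg (fun f : V ≃ₗ[ℝ] V => f v) hc
    exact this
  have hfix01 : μ₀ a₁ = a₁ := hu₁ _ (pair_map h₁ μ₀ h₀.1 hc')
  have hfix10 : μ₁ a₀ = a₀ := hu₀ _ (pair_map h₀ μ₁ h₁.1 (fun v => (hc' v).symm))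
  obtain ⟨l, α, β, ha1, hα, hβ⟩ := fix_decomp h₀ hfix01
  obtain ⟨l', α', β', ha0, hα', hβ'⟩ := fix_decomp h₁ hfix10
  have i0 := idem h₀
  have i1 := idem h₁
  have hl : B a₀ a₁ = l := by
    rw [ha1]; exact form_coeff hassoc i0 hα hβ hn₀ l
  have hl' : B a₁ a₀ = l' := by
    rw [ha0]
    exact form_coeff hassoc i1 hα' hβ' hn₁ l'
  have hll : l' = l := by rw [← hl, ← hl', hsymm]
  subst hll
  obtain ⟨n, γ, hBB, hγ⟩ := fusqq h₀ hβ hβ
  have hAA := fus00 h₀ hα hα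
  have hAB := fus0q h₀ hα hβ
  set AA := mul α α with hAAdef
  set AB := mul α β with hABdef
  have hαa : mul α a₀ = 0 := by rw [hcomm, hα]
  have hβa : mul β a₀ = (1 / 4 : ℝ) • β := by rw [hcomm, hβ]
  have hβα : mul β α = AB := by rw [hcomm]
  have ex := fun x1 y1 z1 x2 y2 z2 => expand i0 hα hαa hβ hβa hAAdef.symm hABdef.symm hβα hBB
    x1 y1 z1 x2 y2 z2
  have ha1' : a₁ = l' • a₀ + (1 : ℝ) • α + (1 : ℝ) • β := by rw [ha1]; module
  have ha0' : a₀ = (1 : ℝ) • a₀ + (0 : ℝ) • α + (0 : ℝ) • β := by module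
  have hβ'' : β = (0 : ℝ) • a₀ + (0 : ℝ) • α + (1 : ℝ) • β := by module
  -- first set of equations
  have E1 := i1
  rw [ha1', ex] at E1
  obtain ⟨E1a, E1b, E1c⟩ := indep3' (mul := mul) (a := a₀) (x1 := (l' * l' + n) • a₀) (x0 := AA + γ)
    (xq := (l' / 2) • β + (2 : ℝ) • AB) (y1 := l' • a₀) (y0 := α) (yq := β)
    (by rw [map_smul, i0]) (by rw [map_add, hAA, hγ, add_zero])
    (by rw [map_add, map_smul, map_smul, hβ, hAB]; module)
    (by rw [map_smul, i0]) hα hβ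
    (by
      calc (l' * l' + n) • a₀ + (AA + γ) + ((l' / 2) • β + (2 : ℝ) • AB)
          = (l' * l') • a₀ + ((l' * 1 + 1 * l') / 4) • β + ((1 : ℝ) * 1) • AA
            + ((1 : ℝ) * 1 + 1 * 1) • AB + ((1 : ℝ) * 1) • (n • a₀ + γ) := by module
        _ = l' • a₀ + (1 : ℝ) • α + (1 : ℝ) • β := E1
        _ = l' • a₀ + α + β := by module)
  -- second set
  have m01 : mul a₀ a₁ = l' • a₀ + (1 / 4 : ℝ) • β := by
    rw [ha1, map_add, map_add, map_smul, i0, hα, hβ, add_zero]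
  have m10 : mul a₁ a₀ = l' • a₁ + (1 / 4 : ℝ) • β' := by
    conv_lhs => rw [ha0]
    rw [map_add, map_add, map_smul, i1, hα', hβ', add_zero]
  have hβ'eq : β' = β + (4 * l') • (a₀ - a₁) := by
    have e : l' • a₁ + (1 / 4 : ℝ) • β' = l' • a₀ + (1 / 4 : ℝ) • β := by
      rw [← m10, ← m01, hcomm]
    calc β' = (4 : ℝ) • (l' • a₁ + (1 / 4 : ℝ) • β') - (4 * l') • a₁ := by module
      _ = (4 : ℝ) • (l' • a₀ + (1 / 4 : ℝ) • β) - (4 * l') • a₁ := by rw [e]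
      _ = β + (4 * l') • (a₀ - a₁) := by module
  have m1β : mul a₁ β = (l' / 4) • β + AB + (n • a₀ + γ) := by
    have e : mul a₁ β = mul (l' • a₀ + (1 : ℝ) • α + (1 : ℝ) • β)
        ((0 : ℝ) • a₀ + (0 : ℝ) • α + (1 : ℝ) • β) := by rw [← ha1', ← hβ'']
    rw [e, ex]
    module
  have E2 := hβ'
  rw [hβ'eq, map_add, map_smul, map_sub, i1, hcomm a₁ a₀, m01, m1β] at E2
  obtain ⟨E2a, E2b, E2c⟩ := indep3' (mul := mul) (a := a₀) (x1 := n • a₀)
    (x0 := γ - (4 * l') • α) (xq := (l' / 4 - 3 * l') • β + AB)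
    (y1 := (l' * (1 - l')) • a₀) (y0 := (-l') • α) (yq := (1 / 4 - l') • β)
    (by rw [map_smul, i0]) (by rw [map_sub, map_smul, hα, hγ, smul_zero, sub_zero])
    (by rw [map_add, map_smul, hβ, hAB]; module)
    (by rw [map_smul, i0]) (by rw [map_smul, hα, smul_zero])
    (by rw [map_smul, hβ]; module)
    (by
      calc n • a₀ + (γ - (4 * l') • α) + ((l' / 4 - 3 * l') • β + AB)
          = (l' / 4) • β + AB + (n • a₀ + γ)
            + (4 * l') • (l' • a₀ + (1 / 4 : ℝ) • β - (l' • a₀ + α + β)) := by module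
        _ = (l' / 4) • β + AB + (n • a₀ + γ) + (4 * l') • (l' • a₀ + (1 / 4 : ℝ) • β - a₁) := by
            rw [← ha1]
        _ = (1 / 4 : ℝ) • (β + (4 * l') • (a₀ - a₁)) := E2
        _ = (1 / 4 : ℝ) • (β + (4 * l') • (a₀ - (l' • a₀ + α + β))) := by rw [← ha1]
        _ = (l' * (1 - l')) • a₀ + (-l') • α + (1 / 4 - l') • β := by module)
  have hkey : (2 * l' - 1 / 4) • β = 0 := by
    calc (2 * l' - 1 / 4) • β
        = ((1 / 2 : ℝ) • ((l' / 2) • β + (2 : ℝ) • AB) - (1 / 2 : ℝ) • β)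
          - (((l' / 4 - 3 * l') • β + AB) - (1 / 4 - l') • β) := by module
      _ = 0 := by rw [E1c, E2c]; module
  by_cases hβ0 : β = 0
  · left
    have h0 : n • a₀ + γ + 0 = 0 := by
      rw [add_zero, ← hBB, hβ0]; simp
    obtain ⟨z1, z2, -⟩ := indep3 (mul := mul) (a := a₀) (by rw [map_smul, i0]) hγ (by simp) h0
    rw [z1] at E2a
    have hl01 : l' * (1 - l') = 0 := (smul_eq_zero.1 E2a.symm).resolve_right (ne_zero h₀)
    rw [z2] at E2b
    have h3 : (3 * l') • α = 0 := by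
      calc (3 * l') • α = (-l') • α - (0 - (4 * l') • α) := by module
        _ = 0 := by rw [E2b]; module
    have hl0 : l' = 0 := by
      rcases mul_eq_zero.1 hl01 with h | h
      · exact h
      · exfalso
        have hl1 : l' = 1 := by linarith
        rw [hl1] at h3
        have hα0 : α = 0 := (smul_eq_zero.1 h3).resolve_left (by norm_num)
        apply hne
        rw [ha1, hl1, hα0, hβ0]
        simp
    refine ⟨by rw [hl, hl0], ?_⟩
    rw [m01, hl0, hβ0]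
    simp
  · right
    have hl8 : l' = 1 / 8 := by
      have := (smul_eq_zero.1 hkey).resolve_right hβ0
      linarith
    subst hl8
    have tAB : AB = (15 / 32 : ℝ) • β := by
      calc AB = (1 / 2 : ℝ) • (((1 / 8 : ℝ) / 2) • β + (2 : ℝ) • AB) - (1 / 32 : ℝ) • β := by module
        _ = (15 / 32 : ℝ) • β := by rw [E1c]; module
    have tγ : γ = (3 / 8 : ℝ) • α := by
      calc γ = (γ - (4 * (1 / 8 : ℝ)) • α) + (1 / 2 : ℝ) • α := by module
        _ = (3 / 8 : ℝ) • α := by rw [E2b]; module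
    have tAA : AA = (5 / 8 : ℝ) • α := by
      calc AA = (AA + γ) - γ := by abel
        _ = (5 / 8 : ℝ) • α := by rw [E1b, tγ]; module
    have tn : n • a₀ = (7 / 64 : ℝ) • a₀ := by rw [E2a]; norm_num
    have ha2 : a₀ + a₁ - (8 : ℝ) • mul a₀ a₁ = (1 / 8 : ℝ) • a₀ + (1 : ℝ) • α + (-1 : ℝ) • β := by
      rw [m01, ha1]; module
    refine ⟨hl, ?_, ?_, ?_⟩
    · rw [ha2, ex, tAA, tAB, tn, tγ]
      module
    · rw [ha2]
      have e : mul a₀ ((1 / 8 : ℝ) • a₀ + (1 : ℝ) • α + (-1 : ℝ) • β)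
          = mul ((1 : ℝ) • a₀ + (0 : ℝ) • α + (0 : ℝ) • β)
            ((1 / 8 : ℝ) • a₀ + (1 : ℝ) • α + (-1 : ℝ) • β) := by rw [← ha0']
      rw [e, ex, tAA, tAB, tn, tγ, ha1]
      module
    · rw [ha2]
      have e : mul a₁ ((1 / 8 : ℝ) • a₀ + (1 : ℝ) • α + (-1 : ℝ) • β)
          = mul ((1 / 8 : ℝ) • a₀ + (1 : ℝ) • α + (1 : ℝ) • β)
            ((1 / 8 : ℝ) • a₀ + (1 : ℝ) • α + (-1 : ℝ) • β) := by rw [← ha1']
      rw [e, ex, tAA, tAB, tn, tγ, ha1]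
      module

end Cfsg.Agent.S5545
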