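import Cfsg.Statements.S5548
import Cfsg.Agent.Lib_H9_Good2
import Cfsg.Agent.Lib_H9_M24b
import Cfsg.Agent.Lib_H9_Dod


set_option autoImplicit false
open Cfsg

namespace Cfsg.Agent.S5548

open Cfsg.Agent.H9
open scoped Pointwise

theorem gens_dod : ∀ t, t < 23 → (enc (gen t) = gen t ∧ pop (gen t) = 12) := by decide +kernel

theorem gen_dod {t : ℕ} (h : t < 23) : ofMask (gen t) ∈ dodecads := by
  obtain ⟨h1, h2⟩ := gens_dod t h
  exact ⟨(ofMask_mem_CC_iff (gen_lt t)).mpr h1, by rw [← pop_eq (gen_lt t)]; exact h2⟩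

theorem dodAB : enc (5279 ^^^ 13062145) = 5279 ^^^ 13062145 ∧ pop (5279 ^^^ 13062145) = 12 ∧
    isOct 13062145 = true := by decide +kernel

theorem dodAB_mem : symmDiff (ofMask 5279) (ofMask 13062145) ∈ dodecads := by
  rw [← ofMask_xor]
  refine ⟨(ofMask_mem_CC_iff (by decide)).mpr dodAB.1, ?_⟩
  rw [← pop_eq (by decide)]
  exact dodAB.2.1

theorem ind_univ : indW Finset.univ = fun _ => (1 : ZMod 2) := by
  apply support₂_injective
  rw [support₂_ind]
  ext p
  simp [support₂]

theorem ind_empty : indW ∅ = 0 := by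
  apply support₂_injective
  rw [support₂_ind]
  ext p
  simp [support₂]

theorem exists_fix (A : Finset GolayPt) (hA : A.card ≤ 4) {e g : GolayPt} (he : e ∉ A) (hg : g ∉ A) :
    ∃ σ ∈ M24, (∀ a ∈ A, σ a = a) ∧ σ e = g := by
  have hc : (insert e A).card ≤ 5 := by rw [Finset.card_insert_of_notMem he]; omega
  let x : Fin (insert e A).card ↪ GolayPt :=
    (insert e A).equivFin.symm.toEmbedding.trans (Function.Embedding.subtype _)
  let y : Fin (insert e A).card ↪ GolayPt := x.trans (Equiv.swap e g).toEmbedding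
  obtain ⟨σ, hσ, h⟩ := exists_M24_of_emb hc x y
  have hx : ∀ p (hp : p ∈ insert e A), σ p = Equiv.swap e g p := by
    intro p hp
    have e1 : x ((insert e A).equivFin ⟨p, hp⟩) = p := by simp [x]
    have := h ((insert e A).equivFin ⟨p, hp⟩)
    rw [e1] at this
    rw [this]
    show Equiv.swap e g (x _) = _
    rw [e1]
  refine ⟨σ, hσ, ?_, ?_⟩
  · intro a ha
    rw [hx a (Finset.mem_insert_of_mem ha)]
    exact Equiv.swap_apply_of_ne_of_ne (fun h => he (h ▸ ha)) (fun h => hg (h ▸ ha))
  · rw [hx e (Finset.mem_insert_self _ _), Equiv.swap_apply_left]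

theorem sum_eq_card (w : GolayPt → ZMod 2) : ∑ p, w p = ((support₂ w).card : ZMod 2) := by
  conv_lhs => rw [← wordOf_support₂ w]
  rw [sum_wordOf, ofMask_toMask]

section
variable (W : Submodule (ZMod 2) (GolayPt → ZMod 2))

theorem sd {s t : Finset GolayPt} (hs : indW s ∈ W) (ht : indW t ∈ W) : indW (symmDiff s t) ∈ W := by
  rw [indW_symmDiff]; exact W.add_mem hs ht

variable (hinv : ∀ σ ∈ M24, ∀ w ∈ W, (fun p => w (σ.symm p)) ∈ W)
include hinv

theorem mv {s : Finset GolayPt} {σ : Equiv.Perm GolayPt} (hσ : σ ∈ M24) (hs : indW s ∈ W) :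
    indW (σ • s) ∈ W := by
  rw [← ind_comp]; exact hinv σ hσ _ hs

theorem of_dod {d : Finset GolayPt} (hd : d ∈ dodecads) (h : indW d ∈ W) : golayCode ≤ W := by
  have hall : ∀ d' ∈ dodecads, indW d' ∈ W := by
    intro d' hd'
    obtain ⟨σ, hσ, e⟩ := M24_trans_dodecads hd hd'
    rw [← e]; exact mv W hinv hσ h
  apply golayCode_le_of_gens
  intro t ht
  by_cases h23 : t = 23
  · subst h23
    have h1 := sd W h (hall _ (compl_dod' hd))
    have e : symmDiff d dᶜ = Finset.univ := by
      ext p
      simp [Finset.mem_symmDiff, em]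
    rw [e, ind_univ] at h1
    rw [← one_eq]
    exact h1
  · have := hall _ (gen_dod (t := t) (by omega))
    unfold indW at this
    rwa [toMask_ofMask (gen_lt t)] at this

theorem of_oct {o : Finset GolayPt} (ho : o ∈ octads) (h : indW o ∈ W) : golayCode ≤ W := by
  obtain ⟨σ, hσ, e⟩ := M24_trans_octads ho (isOct_spec oct5279).2
  obtain ⟨τ, hτ, e'⟩ := M24_trans_octads ho (isOct_spec dodAB.2.2).2
  have a := mv W hinv hσ h
  have b := mv W hinv hτ h
  rw [e] at a
  rw [e'] at b
  exact of_dod W hinv dodAB_mem (sd W a b)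

theorem of_16 {o : Finset GolayPt} (ho : o ∈ octads) (h : indW oᶜ ∈ W) : golayCode ≤ W := by
  obtain ⟨σ, hσ, e⟩ := M24_trans_octads ho (isOct_spec oct5279).2
  obtain ⟨τ, hτ, e'⟩ := M24_trans_octads ho (isOct_spec dodAB.2.2).2
  have a := mv W hinv hσ h
  have b := mv W hinv hτ h
  rw [smul_compl, e] at a
  rw [smul_compl, e'] at b
  have c := sd W a b
  have e2 : symmDiff (ofMask 5279)ᶜ (ofMask 13062145)ᶜ = symmDiff (ofMask 5279) (ofMask 13062145) := by
    ext p
    simp only [Finset.mem_symmDiff, Finset.mem_compl]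
    tauto
  rw [e2] at c
  exact of_dod W hinv dodAB_mem c

/-- one step of the descent -/
theorem step {F A : Finset GolayPt} (hF : indW F ∈ W) (hAF : A ⊆ F) (hA : A.card ≤ 4) (hne : A.card < F.card)
    (hF6 : F.card ≤ 6) :
    ∃ F' : Finset GolayPt, indW F' ∈ W ∧ F' ≠ ∅ ∧ F'.card + 2 * A.card ≤ 2 * F.card ∧ Even F'.card := by
  obtain ⟨e, heF, heA⟩ := Finset.exists_mem_notMem_of_card_lt_card hne
  obtain ⟨g, _, hgF⟩ := Finset.exists_mem_notMem_of_card_lt_card (s := F) (t := Finset.univ)
    (by rw [Finset.card_univ, card_pts']; omega)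
  obtain ⟨σ, hσ, h1, h2⟩ := exists_fix A hA heA (fun h => hgF (hAF h))
  refine ⟨symmDiff (σ • F) F, sd W (mv W hinv hσ hF) hF, ?_, ?_, ?_⟩
  · intro e0
    have : σ • F = F := symmDiff_eq_bot.mp e0
    apply hgF
    rw [← this, ← h2]
    exact Finset.smul_mem_smul_finset heF
  · have h := card_symmDiff_add (σ • F) F
    rw [Finset.card_smul_finset] at h
    have hsub : A ⊆ σ • F ∩ F := by
      intro a ha
      refine Finset.mem_inter.mpr ⟨?_, hAF ha⟩
      have := Finset.smul_mem_smul_finset (a := σ) (hAF ha)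
      rwa [Equiv.Perm.smul_def, h1 a ha] at this
    have := Finset.card_le_card hsub
    omega
  · have h := card_symmDiff_add (σ • F) F
    rw [Finset.card_smul_finset] at h
    rw [Nat.even_iff]
    omega

theorem pair_of_small {F : Finset GolayPt} (hF : indW F ∈ W) (h0 : F ≠ ∅) (h6 : F.card ≤ 6) (hev : Even F.card) :
    ∃ F' : Finset GolayPt, indW F' ∈ W ∧ F'.card = 2 := by
  have hpos : 0 < F.card := Finset.card_pos.mpr (Finset.nonempty_iff_ne_empty.mpr h0)
  rw [Nat.even_iff] at hev
  have four : ∀ G : Finset GolayPt, indW G ∈ W → G.card = 4 → ∃ F' : Finset GolayPt, indW F' ∈ W ∧ F'.card = 2 := by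
    intro G hG h4
    obtain ⟨A, hA, hA3⟩ := Finset.exists_subset_card_eq (s := G) (n := 3) (by omega)
    obtain ⟨F', a, b, c, d⟩ := step W hinv hG hA (by omega) (by omega) (by omega)
    have hpos' : 0 < F'.card := Finset.card_pos.mpr (Finset.nonempty_iff_ne_empty.mpr b)
    rw [Nat.even_iff] at d
    exact ⟨F', a, by omega⟩
  by_cases h2 : F.card = 2
  · exact ⟨F, hF, h2⟩
  by_cases h4 : F.card = 4
  · exact four F hF h4
  · obtain ⟨A, hA, hA4⟩ := Finset.exists_subset_card_eq (s := F) (n := 4) (by omega)
    obtain ⟨F', a, b, c, d⟩ := step W hinv hF hA (by omega) (by omega) (by omega)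
    have hpos' : 0 < F'.card := Finset.card_pos.mpr (Finset.nonempty_iff_ne_empty.mpr b)
    rw [Nat.even_iff] at d
    by_cases h2' : F'.card = 2
    · exact ⟨F', a, h2'⟩
    · exact four F' a (by omega)

theorem all_pairs {F : Finset GolayPt} (hF : indW F ∈ W) (h2 : F.card = 2) {a b : GolayPt} (hab : a ≠ b) :
    indW {a, b} ∈ W := by
  obtain ⟨x, y, hxy, rfl⟩ := Finset.card_eq_two.mp h2
  obtain ⟨σ, hσ, h⟩ := exists_M24_of_emb (k := 2) (by norm_num) (emb2 hxy) (emb2 hab)
  have e1 : σ x = a := h 0
  have e2 : σ y = b := h 1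
  have := mv W hinv hσ hF
  have e : σ • ({x, y} : Finset GolayPt) = {a, b} := by
    rw [Finset.smul_finset_insert, Finset.smul_finset_singleton, Equiv.Perm.smul_def, Equiv.Perm.smul_def, e1, e2]
  rwa [e] at this

theorem all_even {F : Finset GolayPt} (hF : indW F ∈ W) (h2 : F.card = 2) :
    ∀ n : ℕ, ∀ s : Finset GolayPt, s.card = 2 * n → indW s ∈ W := by
  intro n
  induction n with
  | zero =>
    intro s hs
    rw [Finset.card_eq_zero.mp (by omega : s.card = 0), ind_empty]
    exact W.zero_mem
  | succ n ih =>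
    intro s hs
    obtain ⟨a, ha, b, hb, hab⟩ := Finset.one_lt_card.mp (by omega : 1 < s.card)
    have hsub : ({a, b} : Finset GolayPt) ⊆ s := by
      intro p hp
      rcases Finset.mem_insert.mp hp with rfl | hp
      · exact ha
      · rw [Finset.mem_singleton.mp hp]; exact hb
    have h1 : (s \ {a, b}).card = 2 * n := by
      rw [Finset.card_sdiff_of_subset hsub, Finset.card_pair hab]; omega
    have := sd W (ih _ h1) (all_pairs W hinv hF h2 hab)
    have e : symmDiff (s \ {a, b}) {a, b} = s := by
      ext p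
      simp only [Finset.mem_symmDiff, Finset.mem_sdiff]
      constructor
      · rintro (⟨⟨h, _⟩, _⟩ | ⟨h, _⟩)
        · exact h
        · exact hsub h
      · intro h
        by_cases hp : p ∈ ({a, b} : Finset GolayPt)
        · right; exact ⟨hp, fun h' => h'.2 hp⟩
        · left; exact ⟨⟨h, hp⟩, hp⟩
    rwa [e] at this

end


/-- For the automorphism group of the length-24 binary Golay code of the definitions (the Mathieu group of degree 24) acting on binary words of length 24 by permuting coordinates, the only invariant subspaces of the space of all words are: zero, the span of the all-ones word, the code itself, the even-weight words, and the whole space. (So the permutation module has a unique composition series.) -/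
theorem result (W : Submodule (ZMod 2) (Cfsg.GolayPt → ZMod 2)) (hW : ∀ σ ∈ Cfsg.M24, ∀ w ∈ W, (fun p => w (σ.symm p)) ∈ W) : W = ⊥ ∨ W = Submodule.span (ZMod 2) {fun _ => (1 : ZMod 2)} ∨ W = Cfsg.golayCode ∨ (W : Set (Cfsg.GolayPt → ZMod 2)) = {w | ∑ p, w p = 0} ∨ W = ⊤ := by
  have hmem : ∀ w : GolayPt → ZMod 2, w ∈ W ↔ indW (support₂ w) ∈ W := fun w => by rw [ind_support₂]
  by_cases hC : W ≤ golayCode
  · by_cases h1 : W ≤ Submodule.span (ZMod 2) {fun _ => (1 : ZMod 2)}
    · have hat : IsAtom (Submodule.span (ZMod 2) {fun _ : GolayPt => (1 : ZMod 2)}) := by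
        apply nonzero_span_atom
        intro e
        have := congrFun e (pt 0)
        exact one_ne_zero this
      rcases hat.le_iff.mp h1 with h | h
      · exact Or.inl h
      · exact Or.inr (Or.inl h)
    · right; right; left
      apply le_antisymm hC
      obtain ⟨w, hw, hns⟩ := SetLike.not_le_iff_exists.mp h1
      have hs : support₂ w ∈ CC := (mem_code_iff w).mp (hC hw)
      have hw' := (hmem w).mp hw
      rcases CC_card_cases hs with h | h | h | h | h
      · exfalso
        apply hns
        rw [← ind_support₂ w, Finset.card_eq_zero.mp h, ind_empty]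
        exact Submodule.zero_mem _
      · exact of_oct W hW ⟨hs, h⟩ hw'
      · exact of_dod W hW ⟨hs, h⟩ hw'
      · have hc : (support₂ w)ᶜ ∈ octads := ⟨compl_CC' hs, by rw [Finset.card_compl, card_pts', h]⟩
        apply of_16 W hW hc
        rw [compl_compl]
        exact hw'
      · exfalso
        apply hns
        have : support₂ w = Finset.univ := by
          apply Finset.eq_univ_of_card
          rw [h, card_pts']
        rw [← ind_support₂ w, this, ind_univ]
        exact Submodule.mem_span_singleton_self _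
  · right; right; right
    obtain ⟨w, hw, hnC⟩ := SetLike.not_le_iff_exists.mp hC
    have hw' := (hmem w).mp hw
    have hX : support₂ w ∉ CC := fun h => hnC ((mem_code_iff w).mpr h)
    set X := support₂ w with hXdef
    have hl := symmDiff_leadS X
    have hE0 : (leadS X).Nonempty := by
      rw [Finset.nonempty_iff_ne_empty]
      intro e
      rw [e] at hl
      apply hX
      have e2 : symmDiff X ∅ = X := symmDiff_bot X
      rwa [e2] at hl
    obtain ⟨σ, hσ, e1, e2, e3⟩ := good_all hl hE0 (card_leadS X)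
    obtain ⟨g1, g2⟩ := good_small (card_leadS X) e2 e3
    have hF : indW (symmDiff (σ • leadS X) (leadS X)) ∈ W := by
      have h := sd W (mv W hW hσ hw') hw'
      have e : symmDiff (σ • X) X = symmDiff (σ • leadS X) (leadS X) := by
        have a : X = symmDiff (symmDiff X (leadS X)) (leadS X) := by
          rw [symmDiff_assoc, symmDiff_self]; exact (symmDiff_bot X).symm
        conv_lhs => rw [a, Finset.smul_finset_symmDiff, e1]
        rw [symmDiff_symmDiff_symmDiff_comm, symmDiff_self]
        exact bot_symmDiff _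
      rwa [e] at h
    have hev : Even (symmDiff (σ • leadS X) (leadS X)).card := by
      have h := card_symmDiff_add (σ • leadS X) (leadS X)
      rw [Finset.card_smul_finset] at h
      rw [Nat.even_iff]
      omega
    have h6 : (symmDiff (σ • leadS X) (leadS X)).card ≤ 6 := by
      rw [Nat.even_iff] at hev
      omega
    obtain ⟨P, hP, hP2⟩ := pair_of_small W hW hF g2 h6 hev
    have hall := all_even W hW hP hP2
    have heven : ∀ v : GolayPt → ZMod 2, ∑ p, v p = 0 → v ∈ W := by
      intro v hv
      rw [sum_eq_card, ZMod.natCast_eq_zero_iff_even] at hv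
      obtain ⟨n, hn⟩ := hv
      rw [hmem]
      exact hall n _ (by omega)
    by_cases hsub : ∀ v ∈ W, ∑ p, v p = 0
    · left
      ext v
      exact ⟨fun h => hsub v h, fun h => heven v h⟩
    · right
      push_neg at hsub
      obtain ⟨v0, hv0, hne⟩ := hsub
      have h1 : ∑ p, v0 p = 1 := by
        have key : ∀ x : ZMod 2, x ≠ 0 → x = 1 := by decide
        exact key _ hne
      rw [eq_top_iff]
      intro v _
      by_cases hv : ∑ p, v p = 0
      · exact heven v hv
      · have h2 : ∑ p, v p = 1 := by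
          have key : ∀ x : ZMod 2, x ≠ 0 → x = 1 := by decide
          exact key _ hv
        have h3 : v + v0 ∈ W := by
          apply heven
          simp only [Pi.add_apply]
          rw [Finset.sum_add_distrib, h1, h2]
          decide
        have := W.sub_mem h3 hv0
        rwa [add_sub_cancel_right] at this

end Cfsg.Agent.S5548
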