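import Cfsg.Statements.S5552
import Cfsg.Agent.Lib_H9_Co0j

set_option autoImplicit false
open Cfsg

namespace Cfsg.Agent.S5552

open Cfsg.Agent.H9

def pW1 : ℕ := 42255020007607646716556773580
def pW2 : ℕ := 42255020007607646716556774532
def pR1 : ℕ := 32351499693468755027787417192
def pR2 : ℕ := 42291287782196120776740333192

theorem memW : (inLF (decF pW1) && inLF (decF pW2) && inLF (decF pR1) && inLF (decF pR2)) = true := by
  decide +kernel

/-- norm of `a + b` and of `a + b + c` for packed vectors -/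
def n2 (a b : ℕ) : ℤ := sumR (fun j => (decF a j + decF b j) ^ 2) 24
def n3 (a b c : ℕ) : ℤ := sumR (fun j => (decF a j + decF b j + decF c j) ^ 2) 24

theorem n2_spec (a b : ℕ) : sqNorm (dec a + dec b) = n2 a b :=
  sqNorm_vecF (fun j => decF a j + decF b j)

theorem n3_spec (a b c : ℕ) : sqNorm (dec a + dec b + dec c) = n3 a b c :=
  sqNorm_vecF (fun j => decF a j + decF b j + decF c j)

theorem norms : nrmP pW1 = 32 ∧ nrmP pW2 = 32 ∧ nrmP pR1 = 32 ∧ nrmP pR2 = 32 ∧ n2 pW1 pW2 = 32 ∧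
    n2 pR1 pW1 = 48 ∧ n2 pR1 pW2 = 48 ∧ n3 pR1 pW1 pW2 = 32 ∧
    n2 pR2 pW1 = 64 ∧ n2 pR2 pW2 = 48 ∧ n3 pR2 pW1 pW2 = 48 := by decide +kernel

theorem dot_dvd {x y : V} (hx : x ∈ leechLattice) (hy : y ∈ leechLattice) : (8 : ℤ) ∣ dotInt x y := by
  have h1 := sqNorm_dvd (leechLattice.add_mem hx hy)
  have h2 := sqNorm_dvd hx
  have h3 := sqNorm_dvd hy
  rw [sqNorm_add] at h1
  omega


/-- On the Leech lattice of the definitions, let Q be a function to the field with two elements that is constant on cosets of twice the lattice, is a quadratic form there (Q(u+v+w) + Q(u) + Q(v) + Q(w) = Q(u+v) + Q(u+w) + Q(v+w) for all u, v, w), is invariant under every lattice automorphism, and is not identically zero. Then Q(v) is the squared length of v divided by 16, reduced modulo 2, for every lattice vector v (squared lengths of lattice vectors are multiples of 16). -/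
theorem result (Q : ↥Cfsg.leechLattice → ZMod 2) (hcoset : ∀ v w : ↥Cfsg.leechLattice, Q (v + (w + w)) = Q v) (hquad : ∀ u v w : ↥Cfsg.leechLattice, Q (u + v + w) + Q u + Q v + Q w = Q (u + v) + Q (u + w) + Q (v + w)) (hinv : ∀ (g : ↥Cfsg.Co0) (v : ↥Cfsg.leechLattice), Q (g • v) = Q v) (hne : ∃ v : ↥Cfsg.leechLattice, Q v ≠ 0) (v : ↥Cfsg.leechLattice) : Q v = ((Cfsg.sqNorm (v : Cfsg.GolayPt → ℤ) / 16 : ℤ) : ZMod 2) := by
  have m := memW
  simp only [Bool.and_eq_true] at m
  obtain ⟨⟨⟨m1, m2⟩, m3⟩, m4⟩ := m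
  obtain ⟨a1, a2, a3, a4, a5, a6, a7, a8, a9, a10, a11⟩ := norms
  set W1 : leechLattice := ⟨dec pW1, dec_mem m1⟩ with hW1
  set W2 : leechLattice := ⟨dec pW2, dec_mem m2⟩ with hW2
  set R1 : leechLattice := ⟨dec pR1, dec_mem m3⟩ with hR1
  set R2 : leechLattice := ⟨dec pR2, dec_mem m4⟩ with hR2
  have h2 : ∀ x y : leechLattice, sqNorm (x : V) = 32 → sqNorm (y : V) = 32 → Q x = Q y := by
    intro x y hx hy
    obtain ⟨g, hg⟩ := trans2 x y hx hy
    rw [← hg, hinv]
  have h3 : ∀ x y : leechLattice, sqNorm (x : V) = 48 → sqNorm (y : V) = 48 → Q x = Q y := by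
    intro x y hx hy
    obtain ⟨g, hg⟩ := trans33 x y hx hy
    rw [← hg, hinv]
  have h4 : ∀ x y : leechLattice, sqNorm (x : V) = 64 → sqNorm (y : V) = 64 → Q x = Q y := by
    intro x y hx hy
    obtain ⟨g, hg⟩ := trans44 x y hx hy
    rw [← hg, hinv]
  have nW1 : sqNorm (W1 : V) = 32 := (sqNorm_dec _).trans a1
  have nW2 : sqNorm (W2 : V) = 32 := (sqNorm_dec _).trans a2
  have nR1 : sqNorm (R1 : V) = 32 := (sqNorm_dec _).trans a3
  have nR2 : sqNorm (R2 : V) = 32 := (sqNorm_dec _).trans a4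
  have nWW : sqNorm ((W1 + W2 : leechLattice) : V) = 32 := (n2_spec _ _).trans a5
  have n11 : sqNorm ((R1 + W1 : leechLattice) : V) = 48 := (n2_spec _ _).trans a6
  have n12 : sqNorm ((R1 + W2 : leechLattice) : V) = 48 := (n2_spec _ _).trans a7
  have n1s : sqNorm ((R1 + W1 + W2 : leechLattice) : V) = 32 := (n3_spec _ _ _).trans a8
  have n21 : sqNorm ((R2 + W1 : leechLattice) : V) = 64 := (n2_spec _ _).trans a9
  have n22 : sqNorm ((R2 + W2 : leechLattice) : V) = 48 := (n2_spec _ _).trans a10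
  have n2s : sqNorm ((R2 + W1 + W2 : leechLattice) : V) = 48 := (n3_spec _ _ _).trans a11
  have q0 : Q 0 = 0 := by
    have := hquad 0 0 0
    simp only [add_zero] at this
    generalize Q 0 = t at this
    revert t; decide
  have qa : Q W1 = 0 := by
    have := hquad R1 W1 W2
    rw [h2 _ W1 n1s nW1, h2 R1 W1 nR1 nW1, h2 W2 W1 nW2 nW1, h2 _ W1 nWW nW1, h3 _ _ n12 n11] at this
    generalize Q W1 = t at this
    generalize Q (R1 + W1) = b at this
    revert t b; decide
  have qc : Q (R2 + W1) = 0 := by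
    have := hquad R2 W1 W2
    rw [h3 _ _ n2s n22, h2 R2 W1 nR2 nW1, h2 W2 W1 nW2 nW1, h2 _ W1 nWW nW1, qa] at this
    generalize Q (R2 + W1) = t at this
    generalize Q (R2 + W2) = b at this
    revert t b; decide
  -- reduction to short vectors
  have red : ∀ x : leechLattice, ∃ y : leechLattice, sqNorm (y : V) ≤ 64 ∧ Q x = Q y ∧
      (32 : ℤ) ∣ sqNorm (x : V) - sqNorm (y : V) := by
    intro x
    obtain ⟨y, hy, hyn, z, hz, e⟩ := leech_cross_main.2 x x.2
    refine ⟨⟨y, hy⟩, hyn, ?_, ?_⟩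
    · have : x = (⟨y, hy⟩ : leechLattice) + ((⟨z, hz⟩ : leechLattice) + ⟨z, hz⟩) := by
        apply Subtype.ext
        show (x : V) = y + (z + z)
        rw [← two_smul ℕ z, ← e]; abel
      rw [this, hcoset]
    · have hx : (x : V) = y + 2 • z := by rw [← e]; abel
      show (32 : ℤ) ∣ sqNorm (x : V) - sqNorm y
      rw [hx, sqNorm_add, sqNorm_two_smul]
      have d1 := dot_dvd hy hz
      have d2 := sqNorm_dvd hz
      have d3 : dotInt y (2 • z) = 2 * dotInt y z := by
        unfold dotInt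
        rw [Finset.mul_sum]
        exact Finset.sum_congr rfl (fun i _ => by
          simp only [Pi.smul_apply, nsmul_eq_mul, Nat.cast_ofNat]; ring)
      rw [d3]
      omega
  have short : ∀ y : leechLattice, sqNorm (y : V) ≤ 64 → sqNorm (y : V) ≠ 48 → Q y = 0 := by
    intro y hy hne'
    by_cases h0 : (y : V) = 0
    · have : y = 0 := Subtype.ext h0
      rw [this, q0]
    · have h16 := sqNorm_dvd y.2
      have hge := sqNorm_ge y.2 h0
      have hcases : sqNorm (y : V) = 32 ∨ sqNorm (y : V) = 64 := by omega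
      rcases hcases with hc | hc
      · rw [h2 y W1 hc nW1, qa]
      · rw [h4 y _ hc n21, qc]
  have qb : Q (R1 + W1) = 1 := by
    obtain ⟨x, hx⟩ := hne
    obtain ⟨y, hyn, e, _⟩ := red x
    by_cases h48 : sqNorm (y : V) = 48
    · rw [e, h3 y _ h48 n11] at hx
      generalize Q (R1 + W1) = t at hx
      revert t; decide
    · exact absurd (e.trans (short y hyn h48)) hx
  obtain ⟨y, hyn, e, hd⟩ := red v
  have h16 := sqNorm_dvd y.2
  have h16v := sqNorm_dvd v.2
  have hnn := sqNorm_nonneg (y : V)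
  by_cases h48 : sqNorm (y : V) = 48
  · rw [e, h3 y _ h48 n11, qb]
    rw [h48] at hd
    have : (sqNorm (v : V) / 16) % 2 = 1 := by omega
    symm
    have h5 := (ZMod.intCast_eq_intCast_iff_dvd_sub 1 (sqNorm (v : V) / 16) 2).mpr (by
      push_cast; omega)
    rw [← h5]; simp
  · rw [e, short y hyn h48]
    have hy0 : sqNorm (y : V) = 0 ∨ 32 ≤ sqNorm (y : V) := by
      by_cases h0 : (y : V) = 0
      · left; rw [h0]; simp [sqNorm]
      · right; exact sqNorm_ge y.2 h0
    have : (sqNorm (v : V) / 16) % 2 = 0 := by omega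
    symm
    rw [ZMod.intCast_zmod_eq_zero_iff_dvd]
    push_cast
    omega

end Cfsg.Agent.S5552
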