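import Cfsg.Statements.S5553
import Cfsg.Agent.Lib_H9_Leech5

set_option autoImplicit false
open Cfsg

namespace Cfsg.Agent.S5553

open Cfsg.Agent.H9

def AS : AddSubgroup (GolayPt → ℤ) where
  carrier := {x | ∃ t : ℤ, (∀ i, (4 : ℤ) ∣ x i - 2 * t) ∧ (8 : ℤ) ∣ ∑ i, x i}
  zero_mem' := ⟨0, fun i => by simp, by simp⟩
  add_mem' := by
    rintro x y ⟨t, h1, h2⟩ ⟨t', h1', h2'⟩
    refine ⟨t + t', fun i => ?_, ?_⟩
    · have := dvd_add (h1 i) (h1' i)
      rw [show x i - 2 * t + (y i - 2 * t') = (x + y) i - 2 * (t + t') by simp only [Pi.add_apply]; ring] at this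
      exact this
    · simp only [Pi.add_apply, Finset.sum_add_distrib]
      exact dvd_add h2 h2'
  neg_mem' := by
    rintro x ⟨t, h1, h2⟩
    refine ⟨-t, fun i => ?_, ?_⟩
    · have := (dvd_neg (a := (4 : ℤ))).mpr (h1 i)
      rw [show -(x i - 2 * t) = (-x) i - 2 * -t by simp only [Pi.neg_apply]; ring] at this
      exact this
    · simp only [Pi.neg_apply, Finset.sum_neg_distrib]
      exact (dvd_neg (a := (8 : ℤ))).mpr h2

theorem mem_AS {x : GolayPt → ℤ} : x ∈ AS ↔ ∃ t : ℤ, (∀ i, (4 : ℤ) ∣ x i - 2 * t) ∧ (8 : ℤ) ∣ ∑ i, x i := Iff.rfl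

theorem mem_AS_iff {x : GolayPt → ℤ} : x ∈ AS ↔ Pat 0 ∅ x ∨ Pat 0 Finset.univ x := by
  rw [mem_AS]
  unfold Pat
  simp only [ind, Finset.notMem_empty, if_false, Finset.mem_univ, if_true]
  constructor
  · rintro ⟨t, h1, h2⟩
    rcases Int.even_or_odd' t with ⟨s, rfl | rfl⟩
    · left
      exact ⟨fun i => by have := h1 i; omega, by omega⟩
    · right
      exact ⟨fun i => by have := h1 i; omega, by omega⟩
  · rintro (⟨h1, h2⟩ | ⟨h1, h2⟩)
    · exact ⟨0, fun i => by have := h1 i; omega, by omega⟩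
    · exact ⟨1, fun i => by have := h1 i; omega, by omega⟩

theorem AS_le : AS ≤ leechLattice := by
  intro x hx
  rw [mem_AS_iff] at hx
  rw [mem_leech_iff_pat]
  rcases hx with h | h
  · exact Or.inl ⟨∅, empty_mem_CC, h⟩
  · exact Or.inl ⟨Finset.univ, univ_mem_CC, h⟩

set_option maxRecDepth 100000 in
theorem box_AS : gX (PLq l8 (fun _ => 0) 2 ^ 0 * PLq l8 (fun _ => 0) 0 ^ (24 - 0)) 0 0 0 +
    gX (PLq l8 (fun _ => 0) 2 ^ 24 * PLq l8 (fun _ => 0) 0 ^ (24 - 24)) 0 24 0 = 2 ^ 24 := by decide +kernel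

theorem AS_index : AS.index = 2 ^ 48 := by
  classical
  have h1 := index_mul_box AS (fun x h => ⟨0, fun i => by have := h i; omega,
    Finset.dvd_sum (fun i _ => h i)⟩)
  have hset : {x : GolayPt → ℤ | x ∈ AS ∧ ∀ i, x i ∈ l8} =
      ↑(FFq (fun _ => l8) (fun _ _ => 0) ((0 : ℕ) : ℤ) ∅ 0 ∪
        FFq (fun _ => l8) (fun _ _ => 0) ((0 : ℕ) : ℤ) Finset.univ 0) := by
    ext x
    rw [Finset.coe_union, Set.mem_union, Finset.mem_coe, Finset.mem_coe, mem_FFq, mem_FFq, Set.mem_ofPred_eq,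
      mem_AS_iff]
    simp only [Nat.cast_zero, Finset.sum_const_zero, and_true]
    tauto
  have hd : Disjoint (FFq (fun _ => l8) (fun _ _ => 0) ((0 : ℕ) : ℤ) ∅ 0)
      (FFq (fun _ => l8) (fun _ _ => 0) ((0 : ℕ) : ℤ) Finset.univ 0) := by
    rw [Finset.disjoint_left]
    intro x hx hx'
    rw [mem_FFq] at hx hx'
    have := (Pat.unique (m := 0) (m' := 0) (by norm_num) (by norm_num) hx.1 hx'.1).2
    have h2 : (none : GolayPt) ∈ (∅ : Finset GolayPt) := by rw [this]; exact Finset.mem_univ _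
    simp at h2
  rw [hset, Set.ncard_coe_finset, Finset.card_union_of_disjoint hd,
    card_FFq (fun _ => by decide) (fun _ => by decide), card_FFq (fun _ => by decide) (fun _ => by decide)] at h1
  simp only [prod_ind (PLq l8 (fun _ => 0))] at h1
  rw [Finset.card_empty, Finset.card_univ, card_pts] at h1
  have h3 := box_AS
  norm_num at h1 h3
  rw [h3] at h1
  omega


/-- The Leech lattice of the definitions has an additive subgroup A containing twice the lattice, of index 2^12 in the lattice, all of whose vectors have squared length divisible by 32: the invariant quadratic form 'squared length over 16 modulo 2' on the lattice modulo twice the lattice (a 24-dimensional space over the field with two elements) vanishes on a 12-dimensional subspace, so it is of plus type. -/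
theorem result : ∃ A : AddSubgroup (Cfsg.GolayPt → ℤ), A ≤ Cfsg.leechLattice ∧ (∀ v ∈ Cfsg.leechLattice, (2 : ℤ) • v ∈ A) ∧ (A.addSubgroupOf Cfsg.leechLattice).index = 2 ^ 12 ∧ ∀ v ∈ A, (32 : ℤ) ∣ Cfsg.sqNorm v := by
  refine ⟨AS, AS_le, ?_, ?_, ?_⟩
  · intro v hv
    rw [mem_leech_iff] at hv
    obtain ⟨m, h1, h2, _⟩ := hv
    refine ⟨m, fun i => ?_, ?_⟩
    · have := h1 i
      simp only [Pi.smul_apply, smul_eq_mul]
      omega
    · simp only [Pi.smul_apply, smul_eq_mul, ← Finset.mul_sum]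
      omega
  · have h1 := AddSubgroup.relIndex_mul_index AS_le
    rw [AS_index, leech_index] at h1
    show AS.relIndex leechLattice = 2 ^ 12
    have : AS.relIndex leechLattice * 2 ^ 36 = 2 ^ 12 * 2 ^ 36 := by rw [h1]; norm_num
    exact Nat.eq_of_mul_eq_mul_right (by norm_num) this
  · rintro v ⟨t, h1, h2⟩
    choose a ha using h1
    have hv : ∀ i, v i = 2 * t + 4 * a i := fun i => by linarith [ha i]
    have hs : ∑ i, v i = 48 * t + 4 * ∑ i, a i := by
      simp only [hv, Finset.sum_add_distrib, ← Finset.mul_sum, Finset.sum_const, Finset.card_univ, card_pts]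
      simp; ring
    have hn : sqNorm v = 96 * t ^ 2 + 16 * t * ∑ i, a i + 16 * ∑ i, a i ^ 2 := by
      unfold sqNorm
      have : ∀ i, v i ^ 2 = 4 * t ^ 2 + 16 * t * a i + 16 * a i ^ 2 := fun i => by rw [hv i]; ring
      simp only [this, Finset.sum_add_distrib, ← Finset.mul_sum, Finset.sum_const, Finset.card_univ, card_pts]
      simp; ring
    have hp := sum_sq_parity a
    rw [hs] at h2
    rw [hn]
    generalize ∑ i, a i ^ 2 = T at hp ⊢
    generalize ∑ i, a i = A at hp h2 ⊢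
    obtain ⟨k, hk⟩ : (2 : ℤ) ∣ A := by omega
    obtain ⟨l, hl⟩ : (2 : ℤ) ∣ T := by omega
    subst hk hl
    exact ⟨3 * t ^ 2 + t * k + l, by ring⟩

end Cfsg.Agent.S5553
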