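import Cfsg.Statements.S5594
import Cfsg.Agent.Lib_H9_Co0a

set_option autoImplicit false
open Cfsg

namespace Cfsg.Agent.S5594

open Cfsg.Agent.H9

theorem lneg : LMap (fun x : V => -x) :=
  ⟨fun _ hx => leechLattice.neg_mem hx, fun x _ y _ => neg_add x y, fun x _ => sqNorm_neg x⟩

def sT : ℕ := 169321806821593344196685301819267073
def dM : ℕ := 16748578

theorem sT_ok : inM24 sT = true := by decide +kernel
theorem dM_ok : isCode dM = true := by decide +kernel
theorem sq_ok : ∀ i < 24, app sT (app sT i) = i ∧ (dM.testBit i = !dM.testBit (app sT i)) := by decide +kernel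

theorem lg : LMap (signedPerm (permOf sT) (ofMask dM)) :=
  lmap_mono (permOf_mem_M24 sT_ok) ((ofMask_mem_CC_iff (by norm_num [dM])).mpr (isCode_iff.mp dM_ok))

theorem co0_ext {a b : Co0} (h : ∀ v : leechLattice, ((a • v : leechLattice) : V) = ((b • v : leechLattice) : V)) :
    a = b := Subtype.ext (Equiv.ext fun v => Subtype.ext (h v))

theorem gg : lg.toCo0 * lg.toCo0 = lneg.toCo0 := by
  apply co0_ext
  intro v
  rw [mul_smul, LMap.toCo0_apply, LMap.toCo0_apply, LMap.toCo0_apply]
  ext i
  have hP := inM24_isPerm sT_ok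
  have hi := idx_lt i
  obtain ⟨h1, h2⟩ := sq_ok _ hi
  have hs : (permOf sT).symm i = pt (app sT (idx i)) := by
    rw [Equiv.symm_apply_eq, permOf_pt hP (app_lt hP hi), h1, pt_idx]
  have hs2 : (permOf sT).symm (pt (app sT (idx i))) = i := by
    rw [Equiv.symm_apply_eq, permOf_apply hP]
  have m1 : i ∈ ofMask dM ↔ dM.testBit (idx i) = true := by simp [ofMask]
  have m2 : pt (app sT (idx i)) ∈ ofMask dM ↔ dM.testBit (app sT (idx i)) = true := by
    simp [ofMask, idx_pt (app_lt hP hi)]
  unfold signedPerm
  simp only [hs, hs2, m1, m2, h2, Pi.neg_apply]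
  cases dM.testBit (app sT (idx i)) <;> simp


/-- The automorphism group of the Leech lattice contains the negation map, and the subgroup of order 2 it generates has no complement: the automorphism group is a non-split extension of its quotient by that subgroup (it is not the direct product of a group of order 2 with the first Conway group). -/
theorem result :
    ∃ n : ↥Cfsg.Co0, (∀ v : ↥Cfsg.leechLattice, ((n • v : ↥Cfsg.leechLattice) : Cfsg.GolayPt → ℤ) = -(v : Cfsg.GolayPt → ℤ)) ∧
    ∀ K : Subgroup ↥Cfsg.Co0, ¬ (Subgroup.zpowers n).IsComplement' K := by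
  refine ⟨lneg.toCo0, fun v => rfl, fun K hc => ?_⟩
  set n : Co0 := lneg.toCo0 with hn
  have hcen : ∀ k : Co0, n * k = k * n := by
    intro k
    apply co0_ext
    intro v
    rw [mul_smul, mul_smul]
    have e1 : ∀ w : leechLattice, n • w = -w := fun w => Subtype.ext rfl
    rw [e1, e1, Co0_neg]
  have hnn : n * n = 1 := by
    apply co0_ext
    intro v
    have e1 : ∀ w : leechLattice, n • w = -w := fun w => Subtype.ext rfl
    rw [mul_smul, e1, e1, neg_neg, one_smul]
  obtain ⟨⟨h, k⟩, e⟩ := hc.2 lg.toCo0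
  have e' : (h : Co0) * (k : Co0) = lg.toCo0 := e
  obtain ⟨z, hz⟩ := Subgroup.mem_zpowers_iff.mp h.2
  have hh : (h : Co0) * (h : Co0) = 1 := by
    rw [← hz, ← zpow_add, ← two_mul, zpow_mul, zpow_two, hnn, one_zpow]
  have hcomm : ∀ x : Co0, (h : Co0) * x = x * (h : Co0) := by
    intro x
    rw [← hz]
    exact ((Commute.zpow_left (show Commute n x from hcen x) z)).eq
  have hnK : n ∈ K := by
    have : n = (k : Co0) * (k : Co0) := by
      rw [hn, ← gg, ← e']
      calc (h : Co0) * k * (h * k) = (h : Co0) * (k * h) * k := by group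
        _ = (h : Co0) * (h * k) * k := by rw [← hcomm (k : Co0)]
        _ = ((h : Co0) * h) * (k * k) := by group
        _ = (k : Co0) * k := by rw [hh, one_mul]
    rw [this]
    exact K.mul_mem k.2 k.2
  have hn1 : n = 1 := by
    have := hc.disjoint.le_bot ⟨Subgroup.mem_zpowers n, hnK⟩
    exact this
  have h8 : (fun _ : GolayPt => (8 : ℤ)) ∈ leechLattice := eight_mem (fun _ => dvd_refl _)
  have := congrArg (fun t : Co0 => ((t • (⟨_, h8⟩ : leechLattice) : leechLattice) : V) (pt 0)) hn1
  simp only [one_smul] at this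
  have e2 : ((n • (⟨_, h8⟩ : leechLattice) : leechLattice) : V) (pt 0) = -8 := rfl
  rw [e2] at this
  norm_num at this

end Cfsg.Agent.S5594
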