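import Cfsg.Statements.S5599
import Cfsg.Agent.Lib_H9_Aut10

set_option autoImplicit false
open scoped Pointwise
open Cfsg

namespace Cfsg.Agent.S5599

open Cfsg.Agent.H9

/-- In the automorphism group of the length-24 code, the two-point Mathieu group (permutations of the code's group fixing the extra point and the residue 0) has index 2 in the setwise stabiliser of that pair of points, and an element of the code's group interchanging the two points normalises the two-point group and induces on it, by conjugation, an automorphism that is not inner. -/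
theorem result (g : Equiv.Perm Cfsg.GolayPt) (hg : g ∈ Cfsg.M24) (h₁ : g none = some 0) (h₂ : g (some 0) = none) : Cfsg.Spor.M22.relIndex (Cfsg.M24 ⊓ MulAction.stabilizer (Equiv.Perm Cfsg.GolayPt) ({none, some 0} : Finset Cfsg.GolayPt)) = 2 ∧ (∀ x ∈ Cfsg.Spor.M22, g * x * g⁻¹ ∈ Cfsg.Spor.M22) ∧ ¬ ∃ h ∈ Cfsg.Spor.M22, ∀ x ∈ Cfsg.Spor.M22, g * x * g⁻¹ = h * x * h⁻¹ := by
  have hgN : g ∈ N22 := swap_mem_N22 hg h₁ h₂
  refine ⟨?_, fun x hx => N22_norm hgN hx, ?_⟩
  · show (Cfsg.Spor.M22.subgroupOf N22).index = 2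
    rw [Subgroup.index_eq_two_iff]
    refine ⟨⟨g, hgN⟩, fun b => ?_⟩
    rcases N22_idx hg h₁ h₂ b.2 with h | h
    · exact Or.inr ⟨Subgroup.mem_subgroupOf.mpr h.1, fun hm => h.2 (Subgroup.mem_subgroupOf.mp hm)⟩
    · exact Or.inl ⟨Subgroup.mem_subgroupOf.mpr h.2, fun hm => h.1 (Subgroup.mem_subgroupOf.mp hm)⟩
  · rintro ⟨h, hh, hx⟩
    have hc : h⁻¹ * g = 1 := by
      apply N22_cent (N22.mul_mem (N22.inv_mem (M22_le_N22 hh)) hgN)
      intro x hxm
      have e := hx x hxm
      have : h⁻¹ * g * x * (h⁻¹ * g)⁻¹ = h⁻¹ * (g * x * g⁻¹) * h := by group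
      rw [this, e]; group
    have : g = h := by
      have := congrArg (fun t => h * t) hc
      simpa using this
    rw [this] at h₁
    have := (mem_M22.mp hh).2.1
    rw [h₁] at this
    exact none_ne this.symm

end Cfsg.Agent.S5599
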