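import Cfsg.Statements.S5601
import Cfsg.Agent.Lib_H9_Cls23b

set_option autoImplicit false
open scoped Pointwise
open Cfsg

namespace Cfsg.Agent.S5601

open Cfsg.Agent.H9

theorem sub_prime (X : Subgroup ↥Cfsg.M24) {p : ℕ} (hp : p.Prime) (h : Nat.card X = p) :
    ∃ x : ↥Cfsg.M24, orderOf x = p ∧ X = Subgroup.zpowers x := by
  have : Fact p.Prime := ⟨hp⟩
  have := isCyclic_of_prime_card h
  obtain ⟨g, hg⟩ := IsCyclic.exists_generator (α := X)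
  have ho : orderOf g = p := by rw [orderOf_eq_card_of_forall_mem_zpowers hg, h]
  have ho' : orderOf (g : ↥Cfsg.M24) = p := by rw [Subgroup.orderOf_coe, ho]
  refine ⟨g, ho', ?_⟩
  symm
  have : Finite X := Nat.finite_of_card_ne_zero (by rw [h]; exact hp.ne_zero)
  apply Subgroup.eq_of_le_of_card_ge
  · rw [Subgroup.zpowers_le]; exact g.2
  · rw [Nat.card_zpowers, ho', h]

theorem fix_zpowers (x : ↥Cfsg.M24) :
    {p : Cfsg.GolayPt | ∀ y ∈ Subgroup.zpowers x, ((y : ↥Cfsg.M24) : Equiv.Perm Cfsg.GolayPt) p = p}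
      = ((fixF (x : Equiv.Perm Cfsg.GolayPt) : Finset Cfsg.GolayPt) : Set Cfsg.GolayPt) := by
  ext p
  simp only [Set.mem_setOf_eq, Finset.mem_coe, mem_fixF]
  constructor
  · intro h
    exact h x (Subgroup.mem_zpowers x)
  · rintro h y ⟨n, rfl⟩
    have : ((x ^ n : ↥Cfsg.M24) : Equiv.Perm Cfsg.GolayPt) = (x : Equiv.Perm Cfsg.GolayPt) ^ n := by
      push_cast; rfl
    show ((x ^ n : ↥Cfsg.M24) : Equiv.Perm Cfsg.GolayPt) p = p
    rw [this]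
    exact Equiv.Perm.zpow_apply_eq_self_of_apply_eq_self h n

theorem ncard_fix_zpowers (x : ↥Cfsg.M24) :
    {p : Cfsg.GolayPt | ∀ y ∈ Subgroup.zpowers x, ((y : ↥Cfsg.M24) : Equiv.Perm Cfsg.GolayPt) p = p}.ncard
      = (fixF (x : Equiv.Perm Cfsg.GolayPt)).card := by
  rw [fix_zpowers, Set.ncard_coe_finset]

theorem conj_zpowers (k x : ↥Cfsg.M24) :
    MulAut.conj k • Subgroup.zpowers x = Subgroup.zpowers (k * x * k⁻¹) := by
  have : MulAut.conj k • Subgroup.zpowers x = (Subgroup.zpowers x).map (MulAut.conj k).toMonoidHom := rfl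
  rw [this, MonoidHom.map_zpowers]
  rfl


/-- The group of the length-24 code has exactly two conjugacy classes of subgroups of order 3: a subgroup of order 3 fixes either exactly 6 of the 24 points or none of them, both cases occur, and two subgroups of order 3 with the same number of fixed points are conjugate. -/
theorem result : (∀ X : Subgroup ↥Cfsg.M24, Nat.card X = 3 → {p : Cfsg.GolayPt | ∀ x ∈ X, ((x : ↥Cfsg.M24) : Equiv.Perm Cfsg.GolayPt) p = p}.ncard = 6 ∨ {p : Cfsg.GolayPt | ∀ x ∈ X, ((x : ↥Cfsg.M24) : Equiv.Perm Cfsg.GolayPt) p = p}.ncard = 0) ∧ (∃ X : Subgroup ↥Cfsg.M24, Nat.card X = 3 ∧ {p : Cfsg.GolayPt | ∀ x ∈ X, ((x : ↥Cfsg.M24) : Equiv.Perm Cfsg.GolayPt) p = p}.ncard = 6) ∧ (∃ X : Subgroup ↥Cfsg.M24, Nat.card X = 3 ∧ {p : Cfsg.GolayPt | ∀ x ∈ X, ((x : ↥Cfsg.M24) : Equiv.Perm Cfsg.GolayPt) p = p}.ncard = 0) ∧ ∀ X Y : Subgroup ↥Cfsg.M24, Nat.card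 X = 3 → Nat.card Y = 3 → {p : Cfsg.GolayPt | ∀ x ∈ X, ((x : ↥Cfsg.M24) : Equiv.Perm Cfsg.GolayPt) p = p}.ncard = {p : Cfsg.GolayPt | ∀ x ∈ Y, ((x : ↥Cfsg.M24) : Equiv.Perm Cfsg.GolayPt) p = p}.ncard → ∃ k : ↥Cfsg.M24, MulAut.conj k • X = Y := by
  have key : ∀ x : ↥Cfsg.M24, orderOf x = 3 → orderOf (x : Equiv.Perm Cfsg.GolayPt) = 3 := by
    intro x hx
    rw [Subgroup.orderOf_coe, hx]
  refine ⟨?_, ?_, ?_, ?_⟩
  · intro X hX
    obtain ⟨x, hx, rfl⟩ := sub_prime X (by norm_num) hX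
    rw [ncard_fix_zpowers]
    rcases ord3_cases x.2 (key x hx) with ⟨_, _, _, h⟩ | ⟨_, _, _, h⟩
    · exact Or.inl h
    · exact Or.inr h
  · refine ⟨Subgroup.zpowers ⟨permOf r3A, permOf_mem_M24 r3A_in⟩, ?_, ?_⟩
    · rw [Nat.card_zpowers, ← Subgroup.orderOf_coe]
      exact order_r3A
    · rw [ncard_fix_zpowers]
      exact card_r3A
  · refine ⟨Subgroup.zpowers ⟨permOf r3B, permOf_mem_M24 r3B_in⟩, ?_, ?_⟩
    · rw [Nat.card_zpowers, ← Subgroup.orderOf_coe]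
      exact order_r3B
    · rw [ncard_fix_zpowers]
      exact card_r3B
  · intro X Y hX hY hXY
    obtain ⟨x, hx, rfl⟩ := sub_prime X (by norm_num) hX
    obtain ⟨y, hy, rfl⟩ := sub_prime Y (by norm_num) hY
    rw [ncard_fix_zpowers, ncard_fix_zpowers] at hXY
    have fin : ∀ k₁ ∈ Cfsg.M24, ∀ k₂ ∈ Cfsg.M24,
        k₁ * (x : Equiv.Perm Cfsg.GolayPt) * k₁⁻¹ = k₂ * (y : Equiv.Perm Cfsg.GolayPt) * k₂⁻¹ →
        ∃ k : ↥Cfsg.M24, MulAut.conj k • Subgroup.zpowers x = Subgroup.zpowers y := by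
      intro k₁ h₁ k₂ h₂ he
      refine ⟨⟨k₂, h₂⟩⁻¹ * ⟨k₁, h₁⟩, ?_⟩
      rw [conj_zpowers]
      congr 1
      apply Subtype.ext
      show k₂⁻¹ * k₁ * (x : Equiv.Perm Cfsg.GolayPt) * (k₂⁻¹ * k₁)⁻¹ = y
      have : k₂⁻¹ * k₁ * (x : Equiv.Perm Cfsg.GolayPt) * (k₂⁻¹ * k₁)⁻¹
          = k₂⁻¹ * (k₁ * (x : Equiv.Perm Cfsg.GolayPt) * k₁⁻¹) * k₂ := by group
      rw [this, he]
      group
    rcases ord3_cases x.2 (key x hx) with ⟨k₁, h₁, e₁, c₁⟩ | ⟨k₁, h₁, e₁, c₁⟩ <;>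
    rcases ord3_cases y.2 (key y hy) with ⟨k₂, h₂, e₂, c₂⟩ | ⟨k₂, h₂, e₂, c₂⟩
    · exact fin k₁ h₁ k₂ h₂ (e₁.trans e₂.symm)
    · omega
    · omega
    · exact fin k₁ h₁ k₂ h₂ (e₁.trans e₂.symm)

end Cfsg.Agent.S5601
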