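import Cfsg.Statements.S5602
import Cfsg.Agent.Lib_H9_Cls23b

set_option autoImplicit false
open scoped Pointwise
open Cfsg

namespace Cfsg.Agent.S5602

open Cfsg.Agent.H9

set_option maxRecDepth 100000 in
theorem c_oct : countBelow (fun i => force (enc i) (fun c => Nat.beq (pop c) 8 && Nat.beq (applyMask r3A c) c)) 4096 = 21 := by
  decide +kernel

set_option maxRecDepth 100000 in
theorem c_tr : countBelow (fun k => true && force (trX k) (fun X => subP r3A 3 X X)) 3795 = 15 := by
  decide +kernel

set_option maxRecDepth 100000 in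
theorem c_sx : countBelow (fun σ => isSx σ && force (sxX σ) (fun X => subP r3A 6 X X)) 4096 = 16 := by
  decide +kernel

set_option maxRecDepth 100000 in
theorem c_dod : countBelow (fun i => force (enc i) (fun c => Nat.beq (pop c) 12 && Nat.beq (applyMask r3A c) c)) 4096 = 20 := by
  decide +kernel



/-- An element of order 3 of the group of the length-24 code having exactly 6 fixed points maps to themselves exactly 21 octads, exactly 15 trios, exactly 16 sextets and exactly 20 dodecads. -/
theorem result (g : Equiv.Perm Cfsg.GolayPt) (hg : g ∈ Cfsg.M24) (h₃ : orderOf g = 3) (h₆ : (Finset.univ.filter fun p => g p = p).card = 6) : {o : Finset Cfsg.GolayPt | o ∈ Cfsg.octads ∧ g • o = o}.ncard = 21 ∧ {T : Finset (Finset Cfsg.GolayPt) | T ∈ Cfsg.trios ∧ g • T = T}.ncard = 15 ∧ {S : Finset (Finset Cfsg.GolayPt) | S ∈ Cfsg.sextets ∧ g • S = S}.ncard = 16 ∧ {d : Finset Cfsg.GolayPt | d ∈ Cfsg.dodecads ∧ g • d = d}.ncard = 20 := by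
  rcases ord3_cases hg h₃ with ⟨k, hk, hc, hf⟩ | ⟨k, hk, hc, hf⟩
  · refine ⟨?_, ?_, ?_, ?_⟩
    · rw [ncard_fixed_conj octads (fun g hg x hx => smul_mem_octads hg hx) hk hc]
      exact (count_fixed_code (inM24_isPerm r3A_in) 8).trans c_oct
    · rw [ncard_fixed_conj trios (fun g hg x hx => smul_mem_trios hg hx) hk hc]
      exact (count_fixed_tr (inM24_isPerm r3A_in)).trans c_tr
    · rw [ncard_fixed_conj sextets (fun g hg x hx => smul_mem_sextets hg hx) hk hc]
      exact (count_fixed_sx (inM24_isPerm r3A_in)).trans c_sx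
    · rw [ncard_fixed_conj dodecads (fun g hg x hx => smul_mem_dodecads hg hx) hk hc]
      exact (count_fixed_code (inM24_isPerm r3A_in) 12).trans c_dod
  · exfalso
    have : (fixF g).card = 6 := h₆
    omega

end Cfsg.Agent.S5602
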