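import Cfsg.Statements.S5603
import Cfsg.Agent.Lib_H9_Cls23b

set_option autoImplicit false
open scoped Pointwise
open Cfsg

namespace Cfsg.Agent.S5603

open Cfsg.Agent.H9

set_option maxRecDepth 100000 in
theorem c_sx : countBelow (fun σ => isSx σ && force (sxX σ) (fun X => subP r3B 6 X X)) 4096 = 7 := by
  decide +kernel

set_option maxRecDepth 100000 in
theorem c_tr : countBelow (fun k => true && force (trX k) (fun X => subP r3B 3 X X)) 3795 = 15 := by
  decide +kernel



/-- A fixed-point-free element of order 3 of the group of the length-24 code maps to themselves exactly 7 sextets and exactly 15 trios. -/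
theorem result (g : Equiv.Perm Cfsg.GolayPt) (hg : g ∈ Cfsg.M24) (h₃ : orderOf g = 3) (h₀ : ∀ p, g p ≠ p) : {S : Finset (Finset Cfsg.GolayPt) | S ∈ Cfsg.sextets ∧ g • S = S}.ncard = 7 ∧ {T : Finset (Finset Cfsg.GolayPt) | T ∈ Cfsg.trios ∧ g • T = T}.ncard = 15 := by
  rcases ord3_cases hg h₃ with ⟨k, hk, hc, hf⟩ | ⟨k, hk, hc, hf⟩
  · exfalso
    have := fixF_empty_iff.mpr h₀
    omega
  · refine ⟨?_, ?_⟩
    · rw [ncard_fixed_conj sextets (fun g hg x hx => smul_mem_sextets hg hx) hk hc]
      exact (count_fixed_sx (inM24_isPerm r3B_in)).trans c_sx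
    · rw [ncard_fixed_conj trios (fun g hg x hx => smul_mem_trios hg hx) hk hc]
      exact (count_fixed_tr (inM24_isPerm r3B_in)).trans c_tr

end Cfsg.Agent.S5603
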