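import Cfsg.Statements.S5607
import Cfsg.Agent.Lib_H9_C2B


set_option autoImplicit false
open scoped Pointwise
open Cfsg

namespace Cfsg.Agent.S5607

open Cfsg.Agent.H9
open Cfsg.Agent.H9.C2B
open scoped Pointwise

theorem tab_spec {k : ℕ} (hk : k < 7680) : inM24 (entry CT k) = true ∧ commW (entry CT k) XB = true ∧
    res (applyMask (entry CT k) mB) = res mB := by
  have := (allBelow_iff _ _).mp tab_ok k hk
  rw [force_eq] at this
  simp only [Bool.and_eq_true, beq_iff] at this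
  exact this

theorem tab_strict : ∀ i j, j < 7680 → i < j → entry CT i < entry CT j := by
  intro i j
  induction j with
  | zero => intro _ h; omega
  | succ j ih =>
    intro hj hij
    have h1 : entry CT j < entry CT (j + 1) :=
      Nat.blt_eq ▸ (allBelow_iff _ _).mp tab_mono j (by omega)
    rcases Nat.lt_succ_iff_lt_or_eq.mp hij with h | rfl
    · exact lt_trans (ih (by omega) h) h1
    · exact h1

theorem entry_lt' (T c : ℕ) : entry T c < 2 ^ 120 :=
  lt_of_le_of_lt (Nat.and_le_right (n := Nat.shiftRight T (Nat.mul 120 c))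
    (m := 1329227995784915872903807060280344575)) (by norm_num)

theorem tab_inj {i j : ℕ} (hi : i < 7680) (hj : j < 7680) (h : permOf (entry CT i) = permOf (entry CT j)) :
    i = j := by
  have e : entry CT i = entry CT j := by
    apply code_ext (entry_lt' _ _) (entry_lt' _ _)
    intro a ha
    have r1 := Rep_permOf (inM24_isPerm (tab_spec hi).1)
    have r2 := Rep_permOf (inM24_isPerm (tab_spec hj).1)
    rw [h] at r1
    exact r1.app_eq r2 ha
  rcases Nat.lt_trichotomy i j with h' | h' | h'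
  · exact absurd e (ne_of_lt (tab_strict i j hj h'))
  · exact h'
  · exact absurd e.symm (ne_of_lt (tab_strict j i hi h'))

abbrev XP : Equiv.Perm GolayPt := permOf XB

def CE : Set (Equiv.Perm GolayPt) := {c | c ∈ M24 ∧ c * XP = XP * c}

theorem tab_mem {k : ℕ} (hk : k < 7680) : permOf (entry CT k) ∈ CE :=
  ⟨permOf_mem_M24 (tab_spec hk).1,
    comm_of_commW (inM24_isPerm XB_in) (inM24_isPerm (tab_spec hk).1) (tab_spec hk).2.1⟩

theorem mem_tab {g : Equiv.Perm GolayPt} (hg : g ∈ CE) : ∃ k < 7680, permOf (entry CT k) = g := by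
  obtain ⟨hgM, hc⟩ := hg
  obtain ⟨W, hW, hQ⟩ := treeAll_spec tree_ok hgM (fun k _ W hW => pruneC_spec (inM24_isPerm XB_in) hc hW)
  rw [commW_of (inM24_isPerm XB_in) hc hW] at hQ
  simp only [Bool.not_true, Bool.false_or] at hQ
  unfold look at hQ
  rw [force_eq, Bool.and_eq_true] at hQ
  have hk : bs W < 7680 := Nat.blt_eq ▸ hQ.1
  have he : entry CT (bs W) = W := (beq_iff _ _).mp hQ.2
  refine ⟨bs W, hk, ?_⟩
  have hp := inM24_isPerm (tab_spec hk).1
  rw [he] at hp ⊢
  exact (hW.eq_permOf hp).symm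

theorem ncard_CE : CE.ncard = 7680 := by
  have h := count_enum CE (fun k => permOf (entry CT k)) 7680 (fun _ => true) (fun _ hi _ => tab_mem hi)
    (fun x hx => by obtain ⟨k, hk, e⟩ := mem_tab hx; exact ⟨k, hk, rfl, e⟩)
    (fun _ hi _ hj _ _ e => tab_inj hi hj e) (fun _ => True) (fun _ => true) (fun _ _ _ => by simp)
  have e1 : {x | x ∈ CE ∧ True} = CE := by ext x; simp
  rw [e1, countBelow_eq] at h
  rw [h]
  simp

theorem XP_mem : XP ∈ CE := ⟨permOf_mem_M24 XB_in, rfl⟩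

theorem CE_mul_inv {a b : Equiv.Perm GolayPt} (ha : a ∈ CE) (hb : b ∈ CE) : a * b⁻¹ ∈ CE := by
  refine ⟨M24.mul_mem ha.1 (M24.inv_mem hb.1), ?_⟩
  have h1 : Commute a XP := ha.2
  have h2 : Commute b XP := hb.2
  exact (h1.mul_left h2.inv_left).eq

theorem CE_to (q : GolayPt) : ∃ c ∈ CE, c (pt 0) = q := by
  have := (allBelow_iff _ _).mp it_ok (idx q) (idx_lt q)
  simp only [Bool.and_eq_true, beq_iff] at this
  have hk : fld IT 13 8191 (idx q) < 7680 := Nat.blt_eq ▸ this.1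
  refine ⟨_, tab_mem hk, ?_⟩
  rw [permOf_pt (inM24_isPerm (tab_spec hk).1) (by norm_num), this.2, pt_idx]

theorem CE_trans (p q : GolayPt) : ∃ c ∈ CE, c p = q := by
  obtain ⟨a, ha, ea⟩ := CE_to q
  obtain ⟨b, hb, eb⟩ := CE_to p
  refine ⟨a * b⁻¹, CE_mul_inv ha hb, ?_⟩
  have e0 : b⁻¹ (b (pt 0)) = pt 0 := by simp
  rw [Equiv.Perm.mul_apply, ← eb, e0, ea]

theorem card_mB : (ofMask mB).card = 4 := by
  rw [← pop_eq (by decide)]; decide +kernel

theorem CE_sx {c : Equiv.Perm GolayPt} (hc : c ∈ CE) : c • sx (ofMask mB) = sx (ofMask mB) := by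
  obtain ⟨k, hk, rfl⟩ := mem_tab hc
  rw [smul_sx hc.1]
  apply sx_congr
  rw [smul_ofMask (inM24_isPerm (tab_spec hk).1), rs_ofMask (applyMask_lt (inM24_isPerm (tab_spec hk).1) _),
    rs_ofMask (by decide), (tab_spec hk).2.2]

theorem conj_comm {m t c X : Equiv.Perm GolayPt} (hX : m * t * m⁻¹ = X) :
    c * t = t * c ↔ (m * c * m⁻¹) * X = X * (m * c * m⁻¹) := by
  rw [← hX]
  constructor
  · intro h
    calc m * c * m⁻¹ * (m * t * m⁻¹) = m * (c * t) * m⁻¹ := by group
      _ = m * (t * c) * m⁻¹ := by rw [h]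
      _ = _ := by group
  · intro h
    have : m * (c * t) * m⁻¹ = m * (t * c) * m⁻¹ := by
      calc m * (c * t) * m⁻¹ = m * c * m⁻¹ * (m * t * m⁻¹) := by group
        _ = m * t * m⁻¹ * (m * c * m⁻¹) := h
        _ = _ := by group
    exact mul_left_cancel (mul_right_cancel this)

theorem conj_M24 {m c : Equiv.Perm GolayPt} (hm : m ∈ M24) : c ∈ M24 ↔ m * c * m⁻¹ ∈ M24 := by
  constructor
  · intro h; exact M24.mul_mem (M24.mul_mem hm h) (M24.inv_mem hm)
  · intro h
    have := M24.mul_mem (M24.mul_mem (M24.inv_mem hm) h) hm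
    have e : m⁻¹ * (m * c * m⁻¹) * m = c := by group
    rwa [e] at this


/-- For a fixed-point-free involution t of the group of the length-24 code: its centraliser in that group has order 7680, is transitive on the 24 points, and is contained, together with t, in the stabiliser of some sextet. -/
theorem result (t : Equiv.Perm Cfsg.GolayPt) (ht : t ∈ Cfsg.M24) (h₂ : orderOf t = 2) (h₀ : ∀ p, t p ≠ p) : Nat.card {c : Equiv.Perm Cfsg.GolayPt // c ∈ Cfsg.M24 ∧ c * t = t * c} = 7680 ∧ (∀ p q : Cfsg.GolayPt, ∃ c ∈ Cfsg.M24, c * t = t * c ∧ c p = q) ∧ ∃ S ∈ Cfsg.sextets, t • S = S ∧ ∀ c ∈ Cfsg.M24, c * t = t * c → c • S = S := by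
  have hf : (fixF t).card = 0 := fixF_empty_iff.mpr h₀
  rcases invol_cases ht h₂ with ⟨k, _, _, c8⟩ | ⟨k, hk, hkt, _⟩
  · omega
  set m := permOf hB * k with hm
  have hmM : m ∈ M24 := M24.mul_mem (permOf_mem_M24 hB_in) hk
  have hX : m * t * m⁻¹ = XP := by
    show _ = permOf XB
    rw [← conjB, ← hkt, hm]; group
  have hiff : ∀ c : Equiv.Perm GolayPt, (c ∈ M24 ∧ c * t = t * c) ↔ m * c * m⁻¹ ∈ CE := fun c =>
    and_congr (conj_M24 hmM) (conj_comm hX)
  refine ⟨?_, ?_, ?_⟩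
  · rw [← ncard_CE, ← Nat.card_coe_set_eq]
    exact Nat.card_congr ((MulAut.conj m).toEquiv.subtypeEquiv (fun c => hiff c))
  · intro p q
    obtain ⟨c, hc, e⟩ := CE_trans (m p) (m q)
    have h1 : m * (m⁻¹ * c * m) * m⁻¹ ∈ CE := by
      have e' : m * (m⁻¹ * c * m) * m⁻¹ = c := by group
      rw [e']; exact hc
    obtain ⟨a, b⟩ := (hiff _).mpr h1
    refine ⟨m⁻¹ * c * m, a, b, ?_⟩
    have e0 : m⁻¹ (m q) = q := by simp
    rw [Equiv.Perm.mul_apply, Equiv.Perm.mul_apply, e, e0]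
  · have key : ∀ c : Equiv.Perm GolayPt, c ∈ M24 → c * t = t * c →
        c • (m⁻¹ • sx (ofMask mB)) = m⁻¹ • sx (ofMask mB) := by
      intro c hc hct
      have h1 := CE_sx ((hiff c).mp ⟨hc, hct⟩)
      rw [mul_smul, mul_smul] at h1
      rw [eq_inv_smul_iff]
      exact h1
    exact ⟨m⁻¹ • sx (ofMask mB), smul_mem_sextets (M24.inv_mem hmM) (sx_mem_sextets card_mB),
      key t ht rfl, key⟩

end Cfsg.Agent.S5607
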