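import Cfsg.Statements.S5608
import Cfsg.Agent.Lib_H9_Cent
import Cfsg.Agent.Lib_H9_Aut

set_option autoImplicit false
open scoped Pointwise
open Cfsg

namespace Cfsg.Agent.S5608


open Cfsg.Agent.H9

def hA : ℕ := 834155073591063918110809994138717197
def XA : ℕ := 269655415899000379533887869789798465

theorem hA_in : inM24 hA = true := by decide +kernel
theorem XA_in : inM24 XA = true := by decide +kernel

theorem conjA : permOf hA * permOf r3A * (permOf hA)⁻¹ = permOf XA :=
  conj_of_conjW (inM24_isPerm hA_in) (inM24_isPerm r3A_in) (inM24_isPerm XA_in) (by decide +kernel)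

def invW (W : ℕ) : Bool := allBelow (fun i => Nat.beq (app W (app W i)) i) 24

theorem invW_of {W : ℕ} {g : Equiv.Perm GolayPt} (hf : g * g = 1) (hW : Rep g W) : invW W = true := by
  unfold invW
  rw [allBelow_iff]
  intro i hi
  have e := congrArg (fun f => f (pt i)) hf
  simp only [Equiv.Perm.mul_apply, Equiv.Perm.one_apply] at e
  rw [(hW i hi).1, (hW _ (hW i hi).2).1] at e
  exact (beq_iff _ _).mpr (pt_injective (hW _ (hW i hi).2).2 hi e)

set_option maxRecDepth 100000 in
set_option maxHeartbeats 0 in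
theorem chk : treeAll (pruneC XA) (fun W => !(commW W XA && (invW W && fpfW W))) = true := by
  decide +kernel

theorem no_3A_2B {x s : Equiv.Perm GolayPt} (hs : s ∈ M24) (h₂ : orderOf s = 2) (hc : Commute x s)
    {k : Equiv.Perm GolayPt} (hk : k ∈ M24) (hx : k * x * k⁻¹ = permOf r3A) (hf : (fixF s).card = 0) : False := by
  set m := permOf hA * k with hm
  have hmM : m ∈ M24 := M24.mul_mem (permOf_mem_M24 hA_in) hk
  have hx' : m * x * m⁻¹ = permOf XA := by
    rw [← conjA, ← hx, hm]; group
  set g := m * s * m⁻¹ with hg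
  have hgM : g ∈ M24 := M24.mul_mem (M24.mul_mem hmM hs) (M24.inv_mem hmM)
  have hcg : g * permOf XA = permOf XA * g := by
    rw [← hx', hg]
    have : s * x = x * s := hc.eq.symm
    calc m * s * m⁻¹ * (m * x * m⁻¹) = m * (s * x) * m⁻¹ := by group
      _ = m * (x * s) * m⁻¹ := by rw [this]
      _ = _ := by group
  have hgg : g * g = 1 := by
    have : s * s = 1 := by rw [← pow_two, ← h₂]; exact pow_orderOf_eq_one s
    calc g * g = m * (s * s) * m⁻¹ := by rw [hg]; group
      _ = 1 := by rw [this]; group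
  have hgf : ∀ p, g p ≠ p := by
    rw [← fixF_empty_iff, hg, card_fixF_conj, hf]
  obtain ⟨W, hW, hQ⟩ := treeAll_spec chk hgM
    (fun k _ W hW => pruneC_spec (inM24_isPerm XA_in) hcg hW)
  rw [commW_of (inM24_isPerm XA_in) hcg hW, invW_of hgg hW, fpfW_of hgf hW] at hQ
  simp at hQ


/-- If an element of order 3 and an involution of the group of the length-24 code commute, then either the element of order 3 has exactly 6 fixed points and the involution exactly 8, or both are fixed-point-free. -/
theorem result (x s : Equiv.Perm Cfsg.GolayPt) (hx : x ∈ Cfsg.M24) (hs : s ∈ Cfsg.M24) (h₃ : orderOf x = 3) (h₂ : orderOf s = 2) (hc : Commute x s) : ((Finset.univ.filter fun p => x p = p).card = 6 ∧ (Finset.univ.filter fun p => s p = p).card = 8) ∨ ((Finset.univ.filter fun p => x p = p).card = 0 ∧ (Finset.univ.filter fun p => s p = p).card = 0) := by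
  have e : ∀ g : Equiv.Perm GolayPt, (Finset.univ.filter fun p => g p = p) = fixF g := fun _ => rfl
  rw [e, e]
  rcases ord3_cases hx h₃ with ⟨k, hk, hkx, cx⟩ | ⟨k, hk, hkx, cx⟩ <;>
  rcases invol_cases hs h₂ with ⟨l, hl, hls, cs⟩ | ⟨l, hl, hls, cs⟩
  · exact Or.inl ⟨cx, cs⟩
  · exact (no_3A_2B hs h₂ hc hk hkx cs).elim
  · exfalso
    have : Fact (Nat.Prime 3) := ⟨by norm_num⟩
    have hinv : x • fixF s = fixF s := by
      rw [← fixF_conj, hc.eq]; congr 1; group
    have h := card_inv_mod (p := 3) (by rw [← h₃]; exact pow_orderOf_eq_one x) hinv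
    have h0 : (fixF s ∩ fixF x).card = 0 := by
      rw [Finset.card_eq_zero] at cx ⊢
      rw [cx, Finset.inter_empty]
    rw [h0, cs] at h
    exact absurd h (by decide)
  · exact Or.inr ⟨cx, cs⟩

end Cfsg.Agent.S5608
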