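import Mathlib
import Cfsg.Statements.S5609
import Cfsg.Agent.Lib_helper1_Steiner4
import Cfsg.Agent.S0363

set_option autoImplicit false
open scoped Pointwise
open Cfsg

namespace Cfsg.Agent.S5609

open Cfsg.Agent.H1 Finset in

/-- In the graph on the 759 octads of the length-24 code in which two octads are adjacent when they are disjoint, the graph is connected (of diameter 3) and two distinct octads are at distance 1, 2 or 3 exactly when they meet in 0, 4 or 2 points respectively. -/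
theorem result (o o' : Finset Cfsg.GolayPt) (ho : o ∈ Cfsg.octads) (ho' : o' ∈ Cfsg.octads) (hne : o ≠ o') : (Cfsg.blockGraph Cfsg.octads).Connected ∧ ((Cfsg.blockGraph Cfsg.octads).dist ⟨o, ho⟩ ⟨o', ho'⟩ = 1 ↔ (o ∩ o').card = 0) ∧ ((Cfsg.blockGraph Cfsg.octads).dist ⟨o, ho⟩ ⟨o', ho'⟩ = 2 ↔ (o ∩ o').card = 4) ∧ ((Cfsg.blockGraph Cfsg.octads).dist ⟨o, ho⟩ ⟨o', ho'⟩ = 3 ↔ (o ∩ o').card = 2) := by
  have hB := Cfsg.Agent.S0363.result
  have hα : Fintype.card Cfsg.GolayPt = 24 := by decide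
  have hadj : ∀ v w : ↥Cfsg.octads, (Cfsg.blockGraph Cfsg.octads).Adj v w ↔
      ((v : Finset Cfsg.GolayPt) ∩ w).card = 0 := by
    intro v w
    rw [Cfsg.blockGraph, SimpleGraph.fromRel_adj, card_eq_zero, ← disjoint_iff_inter_eq_empty]
    constructor
    · rintro ⟨-, h | h⟩
      · exact h
      · exact h.symm
    · intro h
      refine ⟨?_, Or.inl h⟩
      intro hvw
      rw [hvw, disjoint_self_iff_empty] at h
      have := hB.1 w w.2
      rw [h] at this
      simp at this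
  -- case 4
  have h4 : ∀ v w : ↥Cfsg.octads, ((v : Finset Cfsg.GolayPt) ∩ w).card = 4 →
      ∃ p : (Cfsg.blockGraph Cfsg.octads).Walk v w, p.length = 2 := by
    intro v w h
    obtain ⟨d, hd, h1, h2⟩ := s5824_common4 hα hB w.2 v.2 h
    have a1 : (Cfsg.blockGraph Cfsg.octads).Adj v ⟨d, hd⟩ := by
      rw [hadj, inter_comm]; exact h2
    have a2 : (Cfsg.blockGraph Cfsg.octads).Adj ⟨d, hd⟩ w := by
      rw [hadj]; exact h1
    exact ⟨SimpleGraph.Walk.cons a1 (SimpleGraph.Walk.cons a2 SimpleGraph.Walk.nil), rfl⟩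
  have h2 : ∀ v w : ↥Cfsg.octads, ((v : Finset Cfsg.GolayPt) ∩ w).card = 2 →
      ∃ p : (Cfsg.blockGraph Cfsg.octads).Walk v w, p.length = 3 := by
    intro v w h
    obtain ⟨-, d, hd, h1, h2⟩ := s5824_common2 hα hB v.2 w.2 (by rw [inter_comm]; exact h)
    have a1 : (Cfsg.blockGraph Cfsg.octads).Adj v ⟨d, hd⟩ := by
      rw [hadj, inter_comm]; exact h1
    obtain ⟨p, hp⟩ := h4 ⟨d, hd⟩ w h2
    exact ⟨SimpleGraph.Walk.cons a1 p, by rw [SimpleGraph.Walk.length_cons, hp]⟩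
  have hcases : ∀ v w : ↥Cfsg.octads, v = w ∨ ((v : Finset Cfsg.GolayPt) ∩ w).card = 0 ∨
      ((v : Finset Cfsg.GolayPt) ∩ w).card = 2 ∨ ((v : Finset Cfsg.GolayPt) ∩ w).card = 4 := by
    intro v w
    rcases s5824_inter hα hB w.2 v.2 with h | h
    · left; exact Subtype.ext h
    · right; exact h
  have hreach : ∀ v w : ↥Cfsg.octads, (Cfsg.blockGraph Cfsg.octads).Reachable v w := by
    intro v w
    rcases hcases v w with h | h | h | h
    · rw [h]
    · exact ((hadj v w).mpr h).reachable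
    · exact ⟨(h2 v w h).choose⟩
    · exact ⟨(h4 v w h).choose⟩
  have hne' : (⟨o, ho⟩ : ↥Cfsg.octads) ≠ ⟨o', ho'⟩ := fun h => hne (congrArg Subtype.val h)
  have hpos := (hreach ⟨o, ho⟩ ⟨o', ho'⟩).pos_dist_of_ne hne'
  have d1 : (o ∩ o').card = 0 → (Cfsg.blockGraph Cfsg.octads).dist ⟨o, ho⟩ ⟨o', ho'⟩ = 1 := by
    intro h
    rw [SimpleGraph.dist_eq_one_iff_adj, hadj]; exact h
  have d2 : (o ∩ o').card = 4 → (Cfsg.blockGraph Cfsg.octads).dist ⟨o, ho⟩ ⟨o', ho'⟩ = 2 := by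
    intro h
    obtain ⟨p, hp⟩ := h4 ⟨o, ho⟩ ⟨o', ho'⟩ h
    have hle := SimpleGraph.dist_le p
    have hn1 : (Cfsg.blockGraph Cfsg.octads).dist ⟨o, ho⟩ ⟨o', ho'⟩ ≠ 1 := by
      rw [Ne, SimpleGraph.dist_eq_one_iff_adj, hadj]
      intro h'
      have h'' : (o ∩ o').card = 0 := h'
      omega
    omega
  have d3 : (o ∩ o').card = 2 → (Cfsg.blockGraph Cfsg.octads).dist ⟨o, ho⟩ ⟨o', ho'⟩ = 3 := by
    intro h
    obtain ⟨p, hp⟩ := h2 ⟨o, ho⟩ ⟨o', ho'⟩ h
    have hle := SimpleGraph.dist_le p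
    have hn1 : (Cfsg.blockGraph Cfsg.octads).dist ⟨o, ho⟩ ⟨o', ho'⟩ ≠ 1 := by
      rw [Ne, SimpleGraph.dist_eq_one_iff_adj, hadj]
      intro h'
      have h'' : (o ∩ o').card = 0 := h'
      omega
    have hn2 : (Cfsg.blockGraph Cfsg.octads).dist ⟨o, ho⟩ ⟨o', ho'⟩ ≠ 2 := by
      intro h'
      obtain ⟨q, hq⟩ := (hreach ⟨o, ho⟩ ⟨o', ho'⟩).exists_walk_length_eq_dist
      rw [h'] at hq
      cases q with
      | nil => simp at hq
      | cons a1 q' =>
        cases q' with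
        | nil => simp at hq
        | cons a2 q'' =>
          cases q'' with
          | nil =>
            rename_i d
            rw [hadj] at a1 a2
            have := (s5824_common2 hα hB ho ho' (by rw [inter_comm]; exact h)).1 d d.2
              (by rw [inter_comm]; exact a1)
            exact this a2
          | cons a3 q3 => simp at hq
    omega
  have hc := hcases ⟨o, ho⟩ ⟨o', ho'⟩
  have hc' : (o ∩ o').card = 0 ∨ (o ∩ o').card = 2 ∨ (o ∩ o').card = 4 := by
    rcases hc with h | h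
    · exact absurd h hne'
    · exact h
  haveI : Nonempty ↥Cfsg.octads := ⟨⟨o, ho⟩⟩
  refine ⟨⟨hreach⟩, ⟨fun h => ?_, d1⟩, ⟨fun h => ?_, d2⟩, ⟨fun h => ?_, d3⟩⟩
  · rcases hc' with h' | h' | h'
    · exact h'
    · have := d3 h'; omega
    · have := d2 h'; omega
  · rcases hc' with h' | h' | h'
    · have := d1 h'; omega
    · have := d3 h'; omega
    · exact h'
  · rcases hc' with h' | h' | h'
    · have := d1 h'; omega
    · exact h'
    · have := d2 h'; omega

end Cfsg.Agent.S5609
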