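import Cfsg.Statements.S5613
import Cfsg.Agent.Lib_H9_Oct2

set_option autoImplicit false
open scoped Pointwise
open Cfsg

namespace Cfsg.Agent.S5613

open Cfsg.Agent.H9
open scoped Pointwise

theorem key {o o' : Finset Cfsg.GolayPt} (ho : o ∈ Cfsg.octads) (ho' : o' ∈ Cfsg.octads) :
    322560 = {t | t ∈ Cfsg.octads ∧ (o ∩ t).card = (o ∩ o').card}.ncard *
      Nat.card ↥(MulAction.stabilizer Cfsg.M24 o ⊓ MulAction.stabilizer Cfsg.M24 o') := by
  have := card_inf_stab (MulAction.stabilizer Cfsg.M24 o) o'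
  rw [card_stab_octad ho, orbit_stab_octad ho ho'] at this
  exact this


/-- In the group of the length-24 code, the joint stabiliser of two octads has order 10752, 1152 or 720 according as the octads meet in 0, 4 or 2 points. -/
theorem result (o o' : Finset Cfsg.GolayPt) (ho : o ∈ Cfsg.octads) (ho' : o' ∈ Cfsg.octads) : ((o ∩ o').card = 0 → Nat.card ↥(MulAction.stabilizer Cfsg.M24 o ⊓ MulAction.stabilizer Cfsg.M24 o') = 10752) ∧ ((o ∩ o').card = 4 → Nat.card ↥(MulAction.stabilizer Cfsg.M24 o ⊓ MulAction.stabilizer Cfsg.M24 o') = 1152) ∧ ((o ∩ o').card = 2 → Nat.card ↥(MulAction.stabilizer Cfsg.M24 o ⊓ MulAction.stabilizer Cfsg.M24 o') = 720) := by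
  obtain ⟨c0, c2, c4, c8⟩ := octad_inter_count ho
  have k := key ho ho'
  refine ⟨fun h => ?_, fun h => ?_, fun h => ?_⟩
  · rw [h, c0] at k; omega
  · rw [h, c4] at k; omega
  · rw [h, c2] at k; omega

end Cfsg.Agent.S5613
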