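import Cfsg.Statements.S5615
import Cfsg.Agent.Lib_H9_Trio2


set_option autoImplicit false
open scoped Pointwise
open Cfsg

namespace Cfsg.Agent.S5615

open Cfsg.Agent.H9
open scoped Pointwise

theorem trS_eq {o : Finset GolayPt} {T : Finset (Finset GolayPt)} (hT : T ∈ trS o) :
    ∃ a ∈ octads, Disjoint o a ∧ T = trioOf o a := by
  obtain ⟨a, ha, hne⟩ := Finset.exists_mem_ne (by rw [hT.1.1]; norm_num : 1 < T.card) o
  exact ⟨a, hT.1.2.1 a ha, hT.1.2.2 o hT.2 a ha (Ne.symm hne), trio_eq hT.1 hT.2 ha (Ne.symm hne)⟩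

theorem inter4 {o a b : Finset GolayPt} (ho : o ∈ octads) (ha : a ∈ octads) (hb : b ∈ octads)
    (hoa : Disjoint o a) (hob : Disjoint o b) (hne : trioOf o a ≠ trioOf o b) : (a ∩ b).card = 4 := by
  have hsplit : (a ∩ b).card + ((o ∪ a)ᶜ ∩ b).card = 8 := by
    have h := Finset.card_inter_add_card_sdiff b a
    rw [hb.2, Finset.inter_comm] at h
    have e : b \ a = (o ∪ a)ᶜ ∩ b := by
      ext p
      simp only [Finset.mem_sdiff, Finset.mem_inter, Finset.mem_compl, Finset.mem_union, not_or]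
      constructor
      · rintro ⟨h1, h2⟩
        exact ⟨⟨fun h3 => Finset.disjoint_left.mp hob h3 h1, h2⟩, h1⟩
      · rintro ⟨⟨_, h2⟩, h1⟩
        exact ⟨h1, h2⟩
    rwa [e] at h
  have h3 := third_octad ho ha hoa
  rcases octad_inter_cases ha hb with h | h | h | h
  · exfalso
    have h8 : ((o ∪ a)ᶜ ∩ b).card = 8 := by omega
    have e1 : (o ∪ a)ᶜ ∩ b = b := Finset.eq_of_subset_of_card_le Finset.inter_subset_right (by rw [h8, hb.2])
    have e2 : (o ∪ a)ᶜ ∩ b = (o ∪ a)ᶜ := Finset.eq_of_subset_of_card_le Finset.inter_subset_left (by rw [h8, h3.2])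
    have e : b = (o ∪ a)ᶜ := e1.symm.trans e2
    apply hne
    apply trio_eq (trioOf_mem ho ha hoa) (by simp [trioOf]) (by rw [e]; simp [trioOf])
      (octad_ne_of_disjoint ho hob)
  · exfalso
    rcases octad_inter_cases h3 hb with h' | h' | h' | h' <;> omega
  · exact h
  · exfalso
    have e1 : a ∩ b = b := Finset.eq_of_subset_of_card_le Finset.inter_subset_right (by rw [h, hb.2])
    have e2 : a ∩ b = a := Finset.eq_of_subset_of_card_le Finset.inter_subset_left (by rw [h, ha.2])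
    apply hne
    rw [← e2, e1]

theorem trS_trans {o : Finset GolayPt} (ho : o ∈ octads) {T T' : Finset (Finset GolayPt)} (hT : T ∈ trS o)
    (hT' : T' ∈ trS o) : ∃ g ∈ M24, g • o = o ∧ g • T = T' := by
  obtain ⟨a, ha, hoa, rfl⟩ := trS_eq hT
  obtain ⟨c, hc, hoc, rfl⟩ := trS_eq hT'
  obtain ⟨g, hg, h1, h2⟩ := octad_rank ho ha hc (by
    rw [Finset.disjoint_iff_inter_eq_empty.mp hoa, Finset.disjoint_iff_inter_eq_empty.mp hoc])
  exact ⟨g, hg, h1, by rw [smul_trioOf, h1, h2]⟩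

theorem trS_two {o : Finset GolayPt} (ho : o ∈ octads) {T₁ T₂ T₁' T₂' : Finset (Finset GolayPt)}
    (h1 : T₁ ∈ trS o) (h2 : T₂ ∈ trS o) (h1' : T₁' ∈ trS o) (h2' : T₂' ∈ trS o) (hne : T₁ ≠ T₂)
    (hne' : T₁' ≠ T₂') : ∃ g ∈ M24, g • o = o ∧ g • T₁ = T₁' ∧ g • T₂ = T₂' := by
  obtain ⟨a, ha, hoa, rfl⟩ := trS_eq h1
  obtain ⟨b, hb, hob, rfl⟩ := trS_eq h2
  obtain ⟨c, hc, hoc, rfl⟩ := trS_eq h1'
  obtain ⟨d, hd, hod, rfl⟩ := trS_eq h2'
  obtain ⟨g, hg, e1, e2, e3⟩ := triple_trans ho ha hb hc hd hoa hob (inter4 ho ha hb hoa hob hne) hoc hod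
    (inter4 ho hc hd hoc hod hne')
  exact ⟨g, hg, e1, by rw [smul_trioOf, e1, e2], by rw [smul_trioOf, e1, e3]⟩

theorem smul_trS' {o : Finset GolayPt} {g : Equiv.Perm GolayPt} (hg : g ∈ M24) (hgo : g • o = o)
    {T : Finset (Finset GolayPt)} (hT : T ∈ trS o) : g • T ∈ trS o := by
  have := smul_trS hg hT
  rwa [hgo] at this

def trAct (o : Finset GolayPt) : SubMulAction ↥(KO o) (Finset (Finset GolayPt)) where
  carrier := trS o
  smul_mem' := fun k _ hT => smul_trS' (mem_KO.mp k.2).1 (smul_eq_of_fix (mem_KO.mp k.2).2) hT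

theorem KO_fix {o : Finset GolayPt} (ho : o ∈ octads) {k : Equiv.Perm GolayPt} (hk : k ∈ KO o)
    {T : Finset (Finset GolayPt)} (hT : T ∈ trS o) : k • T = T := by
  have hp : IsPGroup 2 ↥(KO o) := IsPGroup.of_card (n := 4) (by rw [card_KO ho]; norm_num)
  have hcard : Nat.card ↥(trAct o) = 15 := (Nat.card_coe_set_eq (trS o)).trans (ncard_trS ho)
  obtain ⟨T0, hT0⟩ := hp.nonempty_fixed_point_of_prime_not_dvd_card ↥(trAct o) (by rw [hcard]; norm_num)
  obtain ⟨g, hg, hgo, hgT⟩ := trS_trans ho T0.2 hT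
  have hk' : g⁻¹ * k * g ∈ KO o := by
    have := conj_KO (M24.inv_mem hg) hk
    rw [inv_inv] at this
    have e : g⁻¹ • o = o := by rw [inv_smul_eq_iff, hgo]
    rwa [e] at this
  have h0 := hT0 ⟨g⁻¹ * k * g, hk'⟩
  have e : (g⁻¹ * k * g) • (T0 : Finset (Finset GolayPt)) = T0 := congrArg Subtype.val h0
  rw [mul_smul, mul_smul, inv_smul_eq_iff, hgT] at e
  exact e

def NN (o : Finset GolayPt) : Subgroup ↥(GO o) where
  carrier := {x | ∀ T ∈ trS o, x.1 • T = T}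
  one_mem' := fun T _ => one_smul _ T
  mul_mem' := by
    intro a b ha hb T hT
    show (a.1 * b.1) • T = T
    rw [mul_smul, hb T hT, ha T hT]
  inv_mem' := by
    intro a ha T hT
    show (a.1)⁻¹ • T = T
    rw [inv_smul_eq_iff, ha T hT]

theorem NN_normal (o : Finset GolayPt) : (NN o).Normal := by
  constructor
  intro n hn x T hT
  show (x.1 * n.1 * (x.1)⁻¹) • T = T
  have hx : (x.1)⁻¹ • o = o := by rw [inv_smul_eq_iff]; exact x.2.2.symm
  rw [mul_smul, mul_smul, hn _ (smul_trS' (M24.inv_mem x.2.1) hx hT), smul_inv_smul]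

theorem fix_imp {o : Finset GolayPt} (ho : o ∈ octads) {g : Equiv.Perm GolayPt} (hg : g ∈ M24) (hgo : g • o = o)
    (h : ∀ T ∈ trS o, g • T = T) : ∀ p ∈ o, g p = p := by
  let rho' : ↥(GO o) →* ↥(alternatingGroup ↥o) :=
    (rho o).codRestrict _ (fun x => by rw [← rho_range ho]; exact ⟨x, rfl⟩)
  have hsurj : Function.Surjective rho' := by
    intro y
    have hy : y.1 ∈ (rho o).range := by rw [rho_range ho]; exact y.2
    obtain ⟨x, hx⟩ := hy
    exact ⟨x, Subtype.ext hx⟩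
  have hker : ∀ x : ↥(GO o), rho' x = 1 → x.1 ∈ KO o := by
    intro x hx
    have h1 : x ∈ (rho o).ker := by
      rw [MonoidHom.mem_ker]
      exact congrArg Subtype.val hx
    rw [ker_rho, Subgroup.mem_subgroupOf] at h1
    exact h1
  haveI : IsSimpleGroup ↥(alternatingGroup ↥o) := alternatingGroup.isSimpleGroup (by
    rw [Nat.card_eq_fintype_card, Fintype.card_coe, ho.2]; norm_num)
  haveI := NN_normal o
  have hN : ((NN o).map rho').Normal := Subgroup.Normal.map inferInstance rho' hsurj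
  rcases hN.eq_bot_or_eq_top with hb | ht
  · have h1 : rho' ⟨g, hg, hgo⟩ ∈ (NN o).map rho' := Subgroup.mem_map_of_mem _ (show _ ∈ NN o from h)
    rw [hb, Subgroup.mem_bot] at h1
    exact (mem_KO.mp (hker _ h1)).2
  · exfalso
    have h15 := ncard_trS ho
    obtain ⟨T1, T2, hT1, hT2, hne⟩ := (Set.one_lt_ncard_iff (Set.toFinite _)).mp (by rw [h15]; norm_num : 1 < (trS o).ncard)
    obtain ⟨x, hx, hxo, hxT⟩ := trS_trans ho hT1 hT2
    have h1 : rho' ⟨x, hx, hxo⟩ ∈ (NN o).map rho' := by rw [ht]; exact Subgroup.mem_top _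
    obtain ⟨n, hn, e⟩ := Subgroup.mem_map.mp h1
    have h2 : rho' (n⁻¹ * ⟨x, hx, hxo⟩) = 1 := by rw [map_mul, map_inv, e, inv_mul_cancel]
    have h3 := KO_fix ho (hker _ h2) hT1
    have h4 : ((n.1)⁻¹ * x) • T1 = T1 := h3
    rw [mul_smul, hxT, inv_smul_eq_iff, hn T1 hT1] at h4
    exact hne h4.symm


/-- An octad of the length-24 code lies in exactly 15 trios; the stabiliser of the octad in the code's group acts doubly transitively on these 15 trios, and the kernel of this action is the pointwise stabiliser of the octad. -/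
theorem result (o : Finset Cfsg.GolayPt) (ho : o ∈ Cfsg.octads) : {T : Finset (Finset Cfsg.GolayPt) | T ∈ Cfsg.trios ∧ o ∈ T}.ncard = 15 ∧ (∀ T₁ T₂ T₁' T₂' : Finset (Finset Cfsg.GolayPt), T₁ ∈ Cfsg.trios → T₂ ∈ Cfsg.trios → T₁' ∈ Cfsg.trios → T₂' ∈ Cfsg.trios → o ∈ T₁ → o ∈ T₂ → o ∈ T₁' → o ∈ T₂' → T₁ ≠ T₂ → T₁' ≠ T₂' → ∃ g ∈ Cfsg.M24, g • o = o ∧ g • T₁ = T₁' ∧ g • T₂ = T₂') ∧ ∀ g ∈ Cfsg.M24, g • o = o → ((∀ T ∈ Cfsg.trios, o ∈ T → g • T = T) ↔ ∀ p ∈ o, g p = p) := by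
  refine ⟨ncard_trS ho, ?_, ?_⟩
  · intro T₁ T₂ T₁' T₂' h1 h2 h1' h2' o1 o2 o1' o2' hne hne'
    exact trS_two ho ⟨h1, o1⟩ ⟨h2, o2⟩ ⟨h1', o1'⟩ ⟨h2', o2'⟩ hne hne'
  · intro g hg hgo
    constructor
    · intro h
      exact fix_imp ho hg hgo (fun T hT => h T hT.1 hT.2)
    · intro h T hT hoT
      exact KO_fix ho (mem_KO.mpr ⟨hg, h⟩) ⟨hT, hoT⟩

end Cfsg.Agent.S5615
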