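import Cfsg.Statements.S5620
import Cfsg.Agent.Lib_H9_Aut15

set_option autoImplicit false
open scoped Pointwise
open Cfsg

namespace Cfsg.Agent.S5620

open Cfsg.Agent.H9

theorem none_mem : (none : GolayPt) ∈ (ofMask 340831)ᶜ := by
  rw [Finset.mem_compl, mem_ofMask]
  decide

theorem M11'_eq : Cfsg.Spor.M12 ⊓ MulAction.stabilizer (Equiv.Perm Cfsg.GolayPt) (none : Cfsg.GolayPt) =
    SG (ofMask 340831)ᶜ {none} := by
  ext g
  rw [Subgroup.mem_inf, M12_eq, MulAction.mem_stabilizer_iff, SG_compl, mem_SG, mem_SG]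
  constructor
  · rintro ⟨⟨h1, h2, _⟩, h3⟩
    refine ⟨h1, h2, ?_⟩
    intro q hq
    rw [Finset.mem_singleton.mp hq]; exact h3
  · rintro ⟨h1, h2, h3⟩
    exact ⟨⟨h1, h2, by simp⟩, h3 _ (Finset.mem_singleton_self _)⟩

theorem conj_smul_SG {h : Equiv.Perm GolayPt} (hh : h ∈ M24) (d P : Finset GolayPt) :
    MulAut.conj h • SG d P = SG (h • d) (h • P) := by
  ext g
  rw [Subgroup.mem_pointwise_smul_iff_inv_smul_mem, MulAut.smul_def, ← map_inv, MulAut.conj_apply, inv_inv,
    mem_SG, mem_SG]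
  constructor
  · rintro ⟨h1, h2, h3⟩
    refine ⟨?_, ?_, ?_⟩
    · have := M24.mul_mem (M24.mul_mem hh h1) (M24.inv_mem hh)
      have e : h * (h⁻¹ * g * h) * h⁻¹ = g := by group
      rwa [e] at this
    · rw [mul_smul, mul_smul, inv_smul_eq_iff] at h2
      exact h2
    · intro p hp
      obtain ⟨q, hq, rfl⟩ := Finset.mem_smul_finset.mp hp
      have := h3 q hq
      rw [Equiv.Perm.mul_apply, Equiv.Perm.mul_apply, Equiv.Perm.inv_eq_iff_eq] at this
      exact this
  · rintro ⟨h1, h2, h3⟩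
    refine ⟨M24.mul_mem (M24.mul_mem (M24.inv_mem hh) h1) hh, ?_, ?_⟩
    · rw [mul_smul, mul_smul, h2, inv_smul_smul]
    · intro q hq
      rw [Equiv.Perm.mul_apply, Equiv.Perm.mul_apply, Equiv.Perm.inv_eq_iff_eq]
      exact h3 _ (Finset.smul_mem_smul_finset hq)


/-- Inside the stabiliser of the dodecad of squares (a Mathieu group of degree 12), the stabiliser of the residue 0 (a point of the dodecad) and the stabiliser of the extra point (a point outside the dodecad) are isomorphic but not conjugate; conjugation by a suitable element of the code's group that maps the dodecad of squares onto its complement carries the first onto the second. -/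
theorem result : Nonempty (↥(Cfsg.Spor.M12 ⊓ MulAction.stabilizer (Equiv.Perm Cfsg.GolayPt) (none : Cfsg.GolayPt)) ≃* ↥Cfsg.Spor.M11) ∧ (¬ ∃ k ∈ Cfsg.Spor.M12, MulAut.conj k • Cfsg.Spor.M11 = Cfsg.Spor.M12 ⊓ MulAction.stabilizer (Equiv.Perm Cfsg.GolayPt) (none : Cfsg.GolayPt)) ∧ ∃ g ∈ Cfsg.M24, g • Cfsg.Spor.squareDodecad = Finset.univ \ Cfsg.Spor.squareDodecad ∧ MulAut.conj g • Cfsg.Spor.M11 = Cfsg.Spor.M12 ⊓ MulAction.stabilizer (Equiv.Perm Cfsg.GolayPt) (none : Cfsg.GolayPt) := by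
  have hd := D0_mem
  have hdc := compl_mem_dodecads hd
  -- an element taking the flag to the flag
  obtain ⟨g, hg, hgd, hgl⟩ := dod_std hdc [none] [pt 0] (by simp) (by simp) rfl (by simp)
    (by simpa using none_mem) (by simpa using pt0_mem_D0)
  simp only [List.map_cons, List.map_nil, List.cons.injEq, and_true] at hgl
  have hconj : MulAut.conj g • Cfsg.Spor.M11 =
      Cfsg.Spor.M12 ⊓ MulAction.stabilizer (Equiv.Perm Cfsg.GolayPt) (none : Cfsg.GolayPt) := by
    rw [M11_eq, M11'_eq, conj_smul_SG hg, hgd, Finset.smul_finset_singleton, Equiv.Perm.smul_def, hgl]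
  refine ⟨?_, ?_, g, hg, ?_, hconj⟩
  · rw [← hconj]
    exact ⟨(Subgroup.equivSMul (MulAut.conj g) Cfsg.Spor.M11).symm⟩
  · rintro ⟨k, hk, hkc⟩
    rw [M12_eq] at hk
    rw [M11_eq, M11'_eq, conj_smul_SG hk.1, hk.2.1, Finset.smul_finset_singleton] at hkc
    have hkd : k • pt 0 ∈ ofMask 340831 := by
      have := Finset.smul_mem_smul_finset (a := k) pt0_mem_D0
      rwa [hk.2.1] at this
    have hne : (none : GolayPt) ≠ k • pt 0 := by
      intro h
      exact (Finset.mem_compl.mp none_mem) (h ▸ hkd)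
    obtain ⟨x, hx, hx1, hx2⟩ := dod_h3 hdc none_mem hne
    have hxm : x ∈ SG (ofMask 340831)ᶜ {none} := ⟨hx.1, hx.2.1, by
      intro q hq
      rw [Finset.mem_singleton.mp hq]; exact hx1⟩
    rw [← hkc] at hxm
    exact hx2 (hxm.2.2 _ (Finset.mem_singleton_self _))
  · rw [squareDodecad_eq, hgd, Finset.compl_eq_univ_sdiff]

end Cfsg.Agent.S5620
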