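import Mathlib
import Cfsg.Statements.S5623
import Cfsg.Agent.Lib_helper1_Code24

set_option autoImplicit false
open Cfsg

namespace Cfsg.Agent.S5623


/-- Let C be a self-dual binary code of length 24 with minimum weight at least 8 (a 12-dimensional subspace of the 24-dimensional space over the field with two elements, any two of whose words have dot product zero, with no non-zero word of weight below 8 — an abstract extended binary Golay code). Then every coset w + C of C in the ambient space contains either exactly one word of weight at most 4, which then has weight at most 3, or exactly six words of weight at most 4, all of weight exactly 4 and with pairwise disjoint supports (a sextet). -/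
theorem result (C : Submodule (ZMod 2) (Fin 24 → ZMod 2)) (hdim : Module.finrank (ZMod 2) C = 12) (horth : ∀ v ∈ C, ∀ w ∈ C, ∑ i, v i * w i = 0) (hmin : ∀ w ∈ C, w ≠ 0 → 8 ≤ hammingNorm w) (w : Fin 24 → ZMod 2) : (∃ u : Fin 24 → ZMod 2, {u : Fin 24 → ZMod 2 | u - w ∈ C ∧ hammingNorm u ≤ 4} = {u} ∧ hammingNorm u ≤ 3) ∨ ({u : Fin 24 → ZMod 2 | u - w ∈ C ∧ hammingNorm u ≤ 4}.ncard = 6 ∧ ∀ u ∈ {u : Fin 24 → ZMod 2 | u - w ∈ C ∧ hammingNorm u ≤ 4}, hammingNorm u = 4 ∧ ∀ u' ∈ {u : Fin 24 → ZMod 2 | u - w ∈ C ∧ hammingNorm u ≤ 4}, u ≠ u' → Disjoint (Finset.univ.filter fun i => u i ≠ 0) (Finset.univ.filter fun i => u' i ≠ 0)) := by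
  have hset : {u : Fin 24 → ZMod 2 | u - w ∈ C ∧ hammingNorm u ≤ 4} = ↑(H1.leaders C w) := by
    ext u; simp [H1.mem_leaders]
  rw [hset]
  rcases H1.leaders_main hmin (by simp) (H1.card_of_finrank hdim) w with
    ⟨u, hu, h3⟩ | ⟨hc, h4, hd, _⟩
  · left
    exact ⟨u, by rw [hu]; simp, h3⟩
  · right
    refine ⟨by rw [Set.ncard_coe_finset]; exact hc, ?_⟩
    intro u hu
    refine ⟨h4 u (by simpa using hu), ?_⟩
    intro u' hu' hne
    exact hd u (by simpa using hu) u' (by simpa using hu') hne

end Cfsg.Agent.S5623
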