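import Mathlib
import Cfsg.Statements.S5625
import Cfsg.Agent.Lib_helper1_Steiner2

set_option autoImplicit false
open Cfsg

namespace Cfsg.Agent.S5625

open Cfsg.Agent.H1 Finset in

/-- In any Steiner system S(5, 8, 24) and for any set Y of three points, the blocks meeting Y in exactly 3, 2, 1 and 0 points number 21, 168, 360 and 210 respectively (so there are 759 blocks in all). -/
theorem result (α : Type*) [Fintype α] [DecidableEq α] (hα : Fintype.card α = 24) (B : Set (Finset α)) (hB : Cfsg.IsSteinerSystem 5 8 B) (Y : Finset α) (hY : Y.card = 3) : {b : Finset α | b ∈ B ∧ (b ∩ Y).card = 3}.ncard = 21 ∧ {b : Finset α | b ∈ B ∧ (b ∩ Y).card = 2}.ncard = 168 ∧ {b : Finset α | b ∈ B ∧ (b ∩ Y).card = 1}.ncard = 360 ∧ {b : Finset α | b ∈ B ∧ (b ∩ Y).card = 0}.ncard = 210 := by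
  have hs : (∅ : Finset α).card = 0 := card_empty
  have hd : Disjoint (∅ : Finset α) Y := disjoint_empty_left _
  have hc := hY
  have e0 := steiner_moment hB ∅ Y hd 0 (by simp) 3 hc.le
  have e1 := steiner_moment hB ∅ Y hd 1 (by simp) 3 hc.le
  have e2 := steiner_moment hB ∅ Y hd 2 (by simp) 3 hc.le
  have e3 := steiner_moment hB ∅ Y hd 3 (by simp) 3 hc.le
  rw [hα, hc, hs] at e0 e1 e2 e3
  simp only [sum_range_succ, sum_range_zero] at e0 e1 e2 e3
  norm_num [Nat.choose] at e0 e1 e2 e3
  have key : ∀ j, {b : Finset α | b ∈ B ∧ (b ∩ Y).card = j}.ncard = cnt B ∅ Y j := by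
    intro j
    rw [cnt_eq_ncard]
    congr 1
    ext c
    simp
  rw [key, key, key, key]
  omega

end Cfsg.Agent.S5625
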