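import Cfsg.Statements.S5632
import Cfsg.Agent.Lib_helper6_SLMax

set_option autoImplicit false
open Cfsg

namespace Cfsg.Agent.S5632

/-- For a finite field F and subspaces 0 < W < U of F^n with dim W + dim U = n, the elements of SL_n(F) stabilising both W and U form a subgroup that is not maximal in SL_n(F): some subgroup lies strictly between it and SL_n(F). -/
theorem result {F : Type*} [Field F] [Fintype F] (n : ℕ) (W U : Submodule F (Fin n → F)) (hW0 : W ≠ ⊥) (hWU : W < U) (hdim : Module.finrank F W + Module.finrank F U = n) : ∃ K : Subgroup (Matrix.GeneralLinearGroup (Fin n) F), Cfsg.Geo.subspaceStabilizer W ⊓ Cfsg.Geo.subspaceStabilizer U ⊓ Cfsg.Geo.specialLinear (Fin n) F < K ∧ K < Cfsg.Geo.specialLinear (Fin n) F := by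
  classical
  have hW1 : W ≠ ⊤ := fun h => by rw [h] at hWU; exact not_top_lt hWU
  have hU1 : U ≠ ⊤ := by
    intro h
    rw [h, finrank_top, Module.finrank_fin_fun] at hdim
    have h2 : 0 < Module.finrank F W := Module.finrank_pos_iff.mpr
      (Submodule.nontrivial_iff_ne_bot.mpr hW0)
    omega
  set o := (Cfsg.Agent.H6.glEquivLin (Fin n) F).comapSubgroup with ho
  refine ⟨Cfsg.Geo.subspaceStabilizer W ⊓ Cfsg.Geo.specialLinear (Fin n) F, ?_, ?_⟩
  · rw [Cfsg.Agent.H6.subspaceStabilizer_eq_comap, Cfsg.Agent.H6.subspaceStabilizer_eq_comap,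
      Cfsg.Agent.H6.specialLinear_eq_comap, ← Subgroup.comap_inf, ← Subgroup.comap_inf,
      ← Subgroup.comap_inf]
    apply o.lt_iff_lt.mpr
    refine lt_of_le_of_ne (inf_le_inf_right _ inf_le_left) fun heq => ?_
    obtain ⟨u, huU, huW⟩ := SetLike.exists_of_lt hWU
    obtain ⟨x, -, hx⟩ := SetLike.exists_of_lt (lt_top_iff_ne_top.mpr hU1)
    have hu : u ∉ W ⊔ Submodule.span F {x} := by
      intro h
      obtain ⟨w, hw, y, hy, hwy⟩ := Submodule.mem_sup.mp h
      obtain ⟨a, rfl⟩ := Submodule.mem_span_singleton.mp hy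
      by_cases ha : a = 0
      · apply huW
        rw [← hwy, ha]; simpa using hw
      · apply hx
        have h1 : a • x ∈ U := by
          have : a • x = u - w := by rw [← hwy]; abel
          rw [this]
          exact U.sub_mem huU (hWU.le hw)
        exact (U.smul_mem_iff ha).mp h1
    obtain ⟨φ, hφ, hφu⟩ := Cfsg.Agent.H6.GLin.exists_functional_one _ hu
    have hφx : φ x = 0 := hφ x (Submodule.mem_sup_right (Submodule.mem_span_singleton_self x))
    have h1 := Cfsg.Agent.H6.GLin.transvection_mem_Stab_of_ker (W := W) hφx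
      (fun w hw => hφ w (Submodule.mem_sup_left hw))
    rw [← heq] at h1
    have h2 := (h1.1.2.2 u).mp huU
    rw [LinearEquiv.transvection.apply, hφu, one_smul] at h2
    exact hx (by simpa using U.sub_mem h2 huU)
  · rw [Cfsg.Agent.H6.subspaceStabilizer_eq_comap, Cfsg.Agent.H6.specialLinear_eq_comap,
      ← Subgroup.comap_inf]
    exact o.lt_iff_lt.mpr (Cfsg.Agent.H6.stab_SL_maximal W hW0 hW1).1

end Cfsg.Agent.S5632
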