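import Cfsg.Statements.S5633
import Cfsg.Agent.Lib_helper6_SLMax

set_option autoImplicit false
open Cfsg

namespace Cfsg.Agent.S5633

/-- For a finite field F and complementary non-zero subspaces W ⊕ U = F^n with dim W < dim U, the elements of SL_n(F) stabilising both W and U form a subgroup that is not maximal in SL_n(F): some subgroup lies strictly between it and SL_n(F). -/
theorem result {F : Type*} [Field F] [Fintype F] (n : ℕ) (W U : Submodule F (Fin n → F)) (hW0 : W ≠ ⊥) (hWU : W ⊓ U = ⊥) (hWU' : W ⊔ U = ⊤) (hdim : Module.finrank F W < Module.finrank F U) : ∃ K : Subgroup (Matrix.GeneralLinearGroup (Fin n) F), Cfsg.Geo.subspaceStabilizer W ⊓ Cfsg.Geo.subspaceStabilizer U ⊓ Cfsg.Geo.specialLinear (Fin n) F < K ∧ K < Cfsg.Geo.specialLinear (Fin n) F := by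
  classical
  have hU0 : U ≠ ⊥ := by
    intro h
    rw [h, finrank_bot] at hdim
    omega
  have hW1 : W ≠ ⊤ := by
    intro h
    rw [h, top_inf_eq] at hWU
    exact hU0 hWU
  set o := (Cfsg.Agent.H6.glEquivLin (Fin n) F).comapSubgroup with ho
  refine ⟨Cfsg.Geo.subspaceStabilizer W ⊓ Cfsg.Geo.specialLinear (Fin n) F, ?_, ?_⟩
  · rw [Cfsg.Agent.H6.subspaceStabilizer_eq_comap, Cfsg.Agent.H6.subspaceStabilizer_eq_comap,
      Cfsg.Agent.H6.specialLinear_eq_comap, ← Subgroup.comap_inf, ← Subgroup.comap_inf,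
      ← Subgroup.comap_inf]
    apply o.lt_iff_lt.mpr
    refine lt_of_le_of_ne (inf_le_inf_right _ inf_le_left) fun heq => ?_
    obtain ⟨u, huU, hu0⟩ := (Submodule.ne_bot_iff _).mp hU0
    obtain ⟨x, hxW, hx0⟩ := (Submodule.ne_bot_iff _).mp hW0
    have hxU : x ∉ U := fun h => hx0 (by
      have : x ∈ W ⊓ U := ⟨hxW, h⟩
      rw [hWU] at this
      exact (Submodule.mem_bot F).mp this)
    have hu : u ∉ Submodule.span F {x} := by
      intro h
      obtain ⟨a, rfl⟩ := Submodule.mem_span_singleton.mp h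
      have ha : a ≠ 0 := by
        rintro rfl
        simp at hu0
      exact hxU ((U.smul_mem_iff ha).mp huU)
    obtain ⟨φ, hφ, hφu⟩ := Cfsg.Agent.H6.GLin.exists_functional_one _ hu
    have hφx : φ x = 0 := hφ x (Submodule.mem_span_singleton_self x)
    have h1 := Cfsg.Agent.H6.GLin.transvection_mem_Stab_of_mem (W := W) hφx hxW
    rw [← heq] at h1
    have h2 := (h1.1.2.2 u).mp huU
    rw [LinearEquiv.transvection.apply, hφu, one_smul] at h2
    exact hxU (by simpa using U.sub_mem h2 huU)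
  · rw [Cfsg.Agent.H6.subspaceStabilizer_eq_comap, Cfsg.Agent.H6.specialLinear_eq_comap,
      ← Subgroup.comap_inf]
    exact o.lt_iff_lt.mpr (Cfsg.Agent.H6.stab_SL_maximal W hW0 hW1).1

end Cfsg.Agent.S5633
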