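import Cfsg.Statements.S5642
import Cfsg.Agent.Lib_helper6_SimMax

set_option autoImplicit false
open Cfsg

namespace Cfsg.Agent.S5642

/-- For a finite field F and n ≥ 13, let f be a non-degenerate symplectic form on F^n (so n is even). Then the elements of SL_n(F) that are similarities of f (f(gu, gv) = c f(u, v) for a non-zero scalar c depending on g) form a maximal subgroup of SL_n(F). -/
theorem result {F : Type*} [Field F] [Fintype F] (n : ℕ) (hn : 13 ≤ n) (f : (Fin n → F) → (Fin n → F) → F) (hf : Cfsg.Geo.IsSymplecticForm f) : Cfsg.Geo.IsMaximalIn (Cfsg.Geo.specialLinear (Fin n) F) (Cfsg.Geo.similarityGroup f ⊓ Cfsg.Geo.specialLinear (Fin n) F) := by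
  classical
  set B : LinearMap.BilinForm F (Fin n → F) := LinearMap.mk₂ F f hf.bilinear.add_left
    hf.bilinear.smul_left hf.bilinear.add_right hf.bilinear.smul_right with hBdef
  have hBa : ∀ u v, B u v = f u v := fun u v => rfl
  have hA : B.IsAlt := fun v => hf.alternating v
  have hB : B.Nondegenerate := by
    constructor
    · intro v hv
      by_contra h0
      obtain ⟨x, hx⟩ := (hf.nondegenerate v h0).2
      exact hx (hv x)
    · intro v hv
      by_contra h0
      obtain ⟨x, hx⟩ := (hf.nondegenerate v h0).1
      exact hx (hv x)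
  have h1 : Cfsg.Geo.similarityGroup f =
      (H6.Alt.Sim B).comap (H6.glEquivLin (Fin n) F).toMonoidHom := by
    ext g
    rfl
  rw [h1, H6.specialLinear_eq_comap, ← Subgroup.comap_inf]
  exact H6.isMaximalIn_comap _ _ _ (H6.sim_SL_maximal hB hA (by simp; omega))

end Cfsg.Agent.S5642
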