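import Cfsg.Statements.S5652
import Cfsg.Agent.Lib_helper6_OSpMax

set_option autoImplicit false
open Cfsg

namespace Cfsg.Agent.S5652

/-- For a finite field F of characteristic two and m ≥ 7, let Q be a non-degenerate quadratic form on F^(2m) whose polar form is the standard alternating form. Then the elements of Sp_2m(F) that are similarities of Q (they are exactly the isometries of Q) form a maximal subgroup of Sp_2m(F). -/
theorem result {F : Type*} [Field F] [Fintype F] (m : ℕ) (hm : 7 ≤ m) (heven : ¬ Odd (Fintype.card F)) (Q : (Fin m ⊕ Fin m → F) → F) (hQ : Cfsg.Geo.IsNondegenerateQuadraticForm Q) (hpol : ∀ u v, QuadraticMap.polar Q u v = Cfsg.sympForm m F u v) : Cfsg.Geo.IsMaximalIn (Cfsg.spGL m F) (Cfsg.Geo.quadSimilarityGroup Q ⊓ Cfsg.spGL m F) := by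
  classical
  have hchar : CharP F 2 := by
    have h1 : ringChar F = 2 := by
      rw [FiniteField.even_card_iff_char_two]
      exact Nat.even_iff.mp (Nat.not_odd_iff_even.mp heven)
    exact ringChar.of_eq h1
  set Bp : LinearMap.BilinForm F (Fin m ⊕ Fin m → F) := LinearMap.mk₂ F (QuadraticMap.polar Q)
    hQ.polar_bilinear.add_left hQ.polar_bilinear.smul_left hQ.polar_bilinear.add_right
    hQ.polar_bilinear.smul_right with hBp
  set Qf : QuadraticForm F (Fin m ⊕ Fin m → F) :=
    { toFun := Q
      toFun_smul := fun a x => by rw [hQ.smul, smul_eq_mul, pow_two]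
      exists_companion' := ⟨Bp, fun x y => by
        change Q (x + y) = Q x + Q y + QuadraticMap.polar Q x y
        rw [QuadraticMap.polar]; ring⟩ } with hQf
  have hQfa : ∀ v, Qf v = Q v := fun v => rfl
  have hpolf : H6.Quad.pol Qf = H6.sympB m F := by
    apply LinearMap.ext
    intro u
    apply LinearMap.ext
    intro v
    rw [H6.sympB_apply, ← hpol]
    rfl
  have hnd : (H6.Quad.pol Qf).Nondegenerate := by
    rw [hpolf]; exact H6.sympB_nondegenerate
  have h1 : Cfsg.Geo.quadSimilarityGroup Q ⊓ Cfsg.spGL m F =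
      (H6.IsomOf (F := F) (H6.Quad.bet Qf)).comap
        (H6.glEquivLin (Fin m ⊕ Fin m) F).toMonoidHom := by
    ext g
    constructor
    · rintro ⟨⟨c, hc⟩, hg⟩
      rw [Subgroup.mem_comap, H6.Quad.mem_IsomOf_iff]
      intro v
      change Q ((g : Matrix _ _ F).mulVec v) = Q v
      have hc1 : (c : F) = 1 := by
        have hne : (Pi.single (Sum.inl ⟨0, by omega⟩) 1 : Fin m ⊕ Fin m → F) ≠ 0 := by
          intro h
          have := congrFun h (Sum.inl ⟨0, by omega⟩)
          simp at this
        obtain ⟨x, hx⟩ := (hQ.nondegenerate _ hne).1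
        set y : Fin m ⊕ Fin m → F := Pi.single (Sum.inl ⟨0, by omega⟩) 1
        have e1 : QuadraticMap.polar Q ((g : Matrix _ _ F).mulVec x) ((g : Matrix _ _ F).mulVec y) =
            (c : F) * QuadraticMap.polar Q x y := by
          rw [QuadraticMap.polar, ← Matrix.mulVec_add, hc, hc, hc, QuadraticMap.polar]; ring
        have e2 : QuadraticMap.polar Q ((g : Matrix _ _ F).mulVec x) ((g : Matrix _ _ F).mulVec y) =
            QuadraticMap.polar Q x y := by
          rw [hpol, hpol]
          exact hg x y
        rw [e2] at e1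
        have e3 : ((c : F) - 1) * QuadraticMap.polar Q x y = 0 := by linear_combination -e1
        rcases mul_eq_zero.mp e3 with h | h
        · exact sub_eq_zero.mp h
        · exact absurd h hx
      rw [hc, hc1, one_mul]
    · intro hg
      have hg' : ∀ v, Q ((g : Matrix _ _ F).mulVec v) = Q v := H6.Quad.mem_IsomOf_iff.mp hg
      refine ⟨⟨1, fun v => by rw [hg', Units.val_one, one_mul]⟩, ?_⟩
      intro u v
      change Cfsg.sympForm m F ((g : Matrix _ _ F).mulVec u) ((g : Matrix _ _ F).mulVec v) =
        Cfsg.sympForm m F u v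
      rw [← hpol, ← hpol, QuadraticMap.polar, ← Matrix.mulVec_add, hg', hg', hg',
        QuadraticMap.polar]
  rw [h1, H6.spGL_eq_comap, ← hpolf]
  exact H6.isMaximalIn_comap _ _ _ (H6.Quad.O_Sp_maximal hnd (by simp; omega))

end Cfsg.Agent.S5652
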