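import Cfsg.Statements.S5674
import Cfsg.Agent.Lib_helper6_OmegaParMax
import Cfsg.Agent.Lib_helper6_Field

set_option autoImplicit false
open Cfsg

namespace Cfsg.Agent.S5674

/-- Let F be a finite field of odd order, m ≥ 6, Q the standard quadratic form x₀² + Σ x_i y_i on F^(2m+1) and Ω the commutator subgroup of its isometry group inside GL_(2m+1)(F). The elements of Ω stabilising a non-zero subspace on which Q vanishes form a maximal subgroup of Ω. -/
theorem result {F : Type*} [Field F] [Fintype F] (hodd : Odd (Fintype.card F)) (m : ℕ) (hm : 6 ≤ m) (W : Submodule F (Unit ⊕ (Fin m ⊕ Fin m) → F)) (hW0 : W ≠ ⊥) (hW : Cfsg.Geo.IsTotallySingularQuad (Cfsg.quadFormOdd m F) W) : Cfsg.Geo.IsMaximalIn (Cfsg.Geo.omegaGL (Cfsg.quadFormOdd m F)) (Cfsg.Geo.subspaceStabilizer W ⊓ Cfsg.Geo.omegaGL (Cfsg.quadFormOdd m F)) := by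
  classical
  have h2 : (2 : F) ≠ 0 := H6.two_ne_zero_of_odd_card hodd
  have hnd := H6.Quad.nondeg_qOdd h2 m
  have hfr : Module.finrank F (Unit ⊕ (Fin m ⊕ Fin m) → F) = 2 * m + 1 := by
    simp; omega
  have h := H6.Quad.singular_stab_maximal (Q := H6.Quad.qOdd m F) hnd (by rw [hfr]; omega) W
    (fun u hu => by rw [H6.Quad.qOdd_apply]; exact hW u hu) hW0 (by
    intro L _ h1 _
    rw [hfr] at h1
    omega)
  rw [H6.Quad.omegaGL_eq_comap (H6.Quad.qOdd m F) _ (H6.Quad.qOdd_apply m),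
    H6.Quad.subspaceStabilizer_eq_comap, ← Subgroup.comap_inf]
  exact H6.isMaximalIn_comap _ _ _ h

end Cfsg.Agent.S5674
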