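import Cfsg.Statements.S5676
import Cfsg.Agent.Lib_helper6_OmegaNonMax
import Cfsg.Agent.Lib_helper6_Spinor3

set_option autoImplicit false
open Cfsg

namespace Cfsg.Agent.S5676

/-- Let F be the field with 3 elements, m ≥ 6, Q the standard quadratic form on F^(2m+1) and Ω the commutator subgroup of its isometry group. Let W be a 2-dimensional subspace on which the polar form is non-degenerate and which contains a line on which Q vanishes. Then the elements of Ω stabilising W form a subgroup that is not maximal: some subgroup lies strictly between it and Ω. -/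
theorem result {F : Type*} [Field F] [Fintype F] (hq : Fintype.card F = 3) (m : ℕ) (hm : 6 ≤ m) (W : Submodule F (Unit ⊕ (Fin m ⊕ Fin m) → F)) (hdim : Module.finrank F W = 2) (hW : Cfsg.Geo.IsNondegenerateOn (QuadraticMap.polar (Cfsg.quadFormOdd m F)) W) (hplus : Cfsg.Geo.IsPlusTypeOn (Cfsg.quadFormOdd m F) W) : ∃ K : Subgroup (Matrix.GeneralLinearGroup (Unit ⊕ (Fin m ⊕ Fin m)) F), Cfsg.Geo.subspaceStabilizer W ⊓ Cfsg.Geo.omegaGL (Cfsg.quadFormOdd m F) < K ∧ K < Cfsg.Geo.omegaGL (Cfsg.quadFormOdd m F) := by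
  classical
  have h2 : (2 : F) ≠ 0 := H6.Quad.two_ne_zero_of_odd hq (by decide)
  have hnd := H6.Quad.nondeg_qOdd h2 m
  have hpol : ∀ u v, H6.Quad.pol (H6.Quad.qOdd m F) u v =
      QuadraticMap.polar (Cfsg.quadFormOdd m F) u v := by
    intro u v
    rw [QuadraticMap.polarBilin_apply_apply, QuadraticMap.polar, QuadraticMap.polar,
      H6.Quad.qOdd_apply, H6.Quad.qOdd_apply, H6.Quad.qOdd_apply]
  obtain ⟨e, f, H, rfl⟩ := H6.Quad.exists_hypPair_of_plane (Q := H6.Quad.qOdd m F) W hdim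
    (fun w hw hw0 => by
      obtain ⟨x, hx, hxw⟩ := (hW w hw hw0).1
      exact ⟨x, hx, by rw [hpol]; exact hxw⟩) (by
      obtain ⟨U, hU1, hU2, hU3⟩ := hplus
      exact ⟨U, hU1, fun u hu => by rw [H6.Quad.qOdd_apply]; exact hU2 u hu, by rw [hU3, hdim]⟩)
  obtain ⟨h1, h2, h3⟩ := H6.Quad.hyp_plane_data hnd (by simp; omega)
    (by rw [Nat.card_eq_fintype_card, hq]) H
  exact H6.Quad.exists_between_stab _ _ (H6.Quad.qOdd_apply m) _ _ h1 h2 h3

end Cfsg.Agent.S5676
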