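import Cfsg.Statements.S5686
import Cfsg.Agent.Lib_helper6_OmegaNonMax2

set_option autoImplicit false
open Cfsg

namespace Cfsg.Agent.S5686

/-- Let F be a finite field with q elements, n ≥ 13 even, Q a non-degenerate quadratic form on F^n of plus type (some subspace of dimension n/2 is totally singular), and Ω the commutator subgroup of the isometry group of Q, viewed inside GL_n(F). The elements of Ω stabilising a subspace of dimension n/2 − 1 on which Q vanishes form a subgroup that is not maximal: some subgroup lies strictly between it and Ω. -/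
theorem result {F : Type*} [Field F] [Fintype F] {n : ℕ} (hn : 13 ≤ n) (heven : Even n) (Q : (Fin n → F) → F) (hQ : Cfsg.Geo.IsNondegenerateQuadraticForm Q) (hplus : Cfsg.Geo.IsPlusTypeOn Q ⊤) (W : Submodule F (Fin n → F)) (hW : Cfsg.Geo.IsTotallySingularQuad Q W) (hdim : 2 * (Module.finrank F W + 1) = n) : ∃ K : Subgroup (Matrix.GeneralLinearGroup (Fin n) F), Cfsg.Geo.subspaceStabilizer W ⊓ Cfsg.Geo.omegaGL Q < K ∧ K < Cfsg.Geo.omegaGL Q := by
  classical
  set Qq := H6.Quad.mkQF Q hQ with hQq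
  have hnd := H6.Quad.nondeg_mkQF Q hQ
  obtain ⟨L₀, -, hL₀, hL₀d⟩ := hplus
  rw [finrank_top, Module.finrank_fintype_fun_eq_card, Fintype.card_fin] at hL₀d
  obtain ⟨m, hm⟩ : ∃ m, Module.finrank F W = m := ⟨_, rfl⟩
  have hV : Module.finrank F (Fin n → F) = 2 * (m + 1) := by
    rw [Module.finrank_fintype_fun_eq_card, Fintype.card_fin, ← hdim, hm]
  obtain ⟨L, hWL, hLm, hL⟩ := H6.Quad.exists_lagrangian_ge (Q := Qq) hnd L₀ (by omega) hL₀ W hm hW
  obtain ⟨h1, h2, h3⟩ := H6.Quad.sub_lagrangian_data (Q := Qq) hnd (by rw [hV]; omega) hV L W hWL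
    hLm hL hm
  exact H6.Quad.exists_between_stab Qq Q (fun _ => rfl) _ _ h1 h2 h3

end Cfsg.Agent.S5686
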