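import Cfsg.Statements.S5687
import Cfsg.Agent.Lib_helper6_OmegaParMax

set_option autoImplicit false
open Cfsg

namespace Cfsg.Agent.S5687

/-- Let F be a finite field with q elements, n ≥ 13 even, Q a non-degenerate quadratic form on F^n of minus type (no subspace of dimension n/2 is totally singular), and Ω the commutator subgroup of the isometry group of Q, viewed inside GL_n(F). The elements of Ω stabilising a non-zero subspace on which Q vanishes form a maximal subgroup of Ω. -/
theorem result {F : Type*} [Field F] [Fintype F] {n : ℕ} (hn : 13 ≤ n) (heven : Even n) (Q : (Fin n → F) → F) (hQ : Cfsg.Geo.IsNondegenerateQuadraticForm Q) (hminus : ¬ Cfsg.Geo.IsPlusTypeOn Q ⊤) (W : Submodule F (Fin n → F)) (hW0 : W ≠ ⊥) (hW : Cfsg.Geo.IsTotallySingularQuad Q W) : Cfsg.Geo.IsMaximalIn (Cfsg.Geo.omegaGL Q) (Cfsg.Geo.subspaceStabilizer W ⊓ Cfsg.Geo.omegaGL Q) := by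
  classical
  set Qq := H6.Quad.mkQF Q hQ with hQq
  have hnd := H6.Quad.nondeg_mkQF Q hQ
  have h := H6.Quad.singular_stab_maximal (Q := Qq) hnd (by simp; omega) W hW hW0 (by
    intro L hL h1 _
    exact hminus ⟨L, le_top, hL, by rw [h1, finrank_top]⟩)
  rw [H6.Quad.omegaGL_eq_comap Qq Q (fun _ => rfl), H6.Quad.subspaceStabilizer_eq_comap,
    ← Subgroup.comap_inf]
  exact H6.isMaximalIn_comap _ _ _ h

end Cfsg.Agent.S5687
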