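import Cfsg.Statements.S5691
import Cfsg.Agent.Lib_helper6_OmegaNsMax

set_option autoImplicit false
open Cfsg

namespace Cfsg.Agent.S5691

/-- Let F be a finite field with q elements, n ≥ 13 even, Q a non-degenerate quadratic form on F^n (of either type), and Ω the commutator subgroup of the isometry group of Q, viewed inside GL_n(F). Suppose q is even and v is a vector with Q(v) ≠ 0. Then the elements of Ω stabilising the line spanned by v form a maximal subgroup of Ω. -/
theorem result {F : Type*} [Field F] [Fintype F] {n : ℕ} (hn : 13 ≤ n) (heven : Even n) (Q : (Fin n → F) → F) (hQ : Cfsg.Geo.IsNondegenerateQuadraticForm Q) (hchar : ¬ Odd (Fintype.card F)) (v : (Fin n → F)) (hv : Q v ≠ 0) : Cfsg.Geo.IsMaximalIn (Cfsg.Geo.omegaGL Q) (Cfsg.Geo.subspaceStabilizer (Submodule.span F {v}) ⊓ Cfsg.Geo.omegaGL Q) := by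
  classical
  set Qq := H6.Quad.mkQF Q hQ with hQq
  have hnd := H6.Quad.nondeg_mkQF Q hQ
  have hchar2 : ringChar F = 2 := by
    rw [FiniteField.even_card_iff_char_two]
    exact Nat.even_iff.mp (Nat.not_odd_iff_even.mp hchar)
  have : CharP F 2 := ringChar.of_eq hchar2
  have h2 : (2 : F) = 0 := CharTwo.two_eq_zero
  obtain ⟨c, hc⟩ := FiniteField.isSquare_of_char_two hchar2 (Q v)
  have hc0 : c ≠ 0 := by
    rintro rfl
    rw [mul_zero] at hc
    exact hv hc
  have hu : Qq (c⁻¹ • v) = 1 := by
    rw [H6.Quad.Q_smul]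
    change c⁻¹ * c⁻¹ * Q v = 1
    rw [hc]; field_simp
  have hspan : Submodule.span F {v} = Submodule.span F {c⁻¹ • v} :=
    (Submodule.span_singleton_smul_eq (IsUnit.mk0 _ (inv_ne_zero hc0)) v).symm
  have h := H6.Quad.nonsingular_point_maximal h2 hnd (by simp; omega) hu
  rw [hspan, H6.Quad.omegaGL_eq_comap Qq Q (fun _ => rfl), H6.Quad.subspaceStabilizer_eq_comap,
    ← Subgroup.comap_inf]
  exact H6.isMaximalIn_comap _ _ _ h

end Cfsg.Agent.S5691
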