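import Cfsg.Statements.S5698
import Cfsg.Agent.Lib_helper6_OmegaNonMax2

set_option autoImplicit false
open Cfsg

namespace Cfsg.Agent.S5698

/-- Let F be a finite field with q elements, n ≥ 13 even, Q a non-degenerate quadratic form on F^n of plus type (some subspace of dimension n/2 is totally singular), and Ω the commutator subgroup of the isometry group of Q, viewed inside GL_n(F). Suppose n/2 is odd and let D be a decomposition of F^n into two complementary subspaces of dimension n/2 on each of which Q vanishes. Then the elements of Ω preserving or interchanging the two subspaces form a subgroup that is not maximal: some subgroup lies strictly between it and Ω. -/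
theorem result {F : Type*} [Field F] [Fintype F] {n : ℕ} (hn : 13 ≤ n) (heven : Even n) (Q : (Fin n → F) → F) (hQ : Cfsg.Geo.IsNondegenerateQuadraticForm Q) (hplus : Cfsg.Geo.IsPlusTypeOn Q ⊤) (k : ℕ) (hk : 2 * k = n) (hko : Odd k) (D : Fin 2 → Submodule F (Fin n → F)) (hD : Cfsg.Geo.IsMDecomposition k D) (hts : ∀ i, Cfsg.Geo.IsTotallySingularQuad Q (D i)) : ∃ K : Subgroup (Matrix.GeneralLinearGroup (Fin n) F), Cfsg.Geo.decompositionStabilizer D ⊓ Cfsg.Geo.omegaGL Q < K ∧ K < Cfsg.Geo.omegaGL Q := by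
  classical
  set Qq := H6.Quad.mkQF Q hQ with hQq
  have hnd := H6.Quad.nondeg_mkQF Q hQ
  have hV : Module.finrank F (Fin n → F) = 2 * k := by
    rw [Module.finrank_fintype_fun_eq_card, Fintype.card_fin, hk]
  have hinf : D 0 ⊓ D 1 = ⊥ := (hD.indep.pairwiseDisjoint (by decide : (0 : Fin 2) ≠ 1)).eq_bot
  have hsup : D 0 ⊔ D 1 = ⊤ := by
    rw [eq_top_iff, ← hD.iSup_eq_top]
    apply iSup_le
    intro i
    fin_cases i
    · exact le_sup_left
    · exact le_sup_right
  obtain ⟨h1, h2, h3⟩ := H6.Quad.lagrangian_pair_data (Q := Qq) hnd (by rw [hV]; omega) hV hko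
    (D 0) (D 1) (hD.finrank_eq 0) (hts 0) hinf hsup
  have hlin : ∀ (g : Matrix.GeneralLinearGroup (Fin n) F) (ω : H6.IsomOf (F := F) (H6.Quad.bet Qq)),
      (∀ v, ω.1 v = (g : Matrix (Fin n) (Fin n) F).mulVec v) →
      Matrix.toLin' (g : Matrix (Fin n) (Fin n) F) = (ω.1 : (Fin n → F) →ₗ[F] (Fin n → F)) := by
    intro g ω hv
    apply LinearMap.ext
    intro v
    rw [Matrix.toLin'_apply]
    exact (hv v).symm
  have hne01 : D 0 ≠ D 1 := by
    intro h
    rw [← h, inf_idem] at hinf
    have := hD.finrank_eq 0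
    rw [hinf, finrank_bot] at this
    omega
  apply H6.Quad.exists_between _ _ (Cfsg.Geo.subspaceStabilizer (D 0))
  · rintro g ⟨⟨σ, hσ⟩, hg2⟩
    obtain ⟨ω, hω, hv⟩ := (H6.Quad.mem_omegaGL_iff Qq Q (fun _ => rfl) g).mp hg2
    rw [H6.Quad.mem_subspaceStabilizer_iff_map g ω.1 hv]
    have h4 := hσ 0
    rw [hlin g ω hv] at h4
    obtain h5 | h5 : σ 0 = 0 ∨ σ 0 = 1 := by
      generalize σ 0 = j
      fin_cases j
      · left; rfl
      · right; rfl
    · rw [h4, h5]
    · rw [h5] at h4
      exact absurd h4 (h1 ω hω)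
  · obtain ⟨ω, hω, hw1, hw2⟩ := h2
    obtain ⟨g, hg, hv⟩ := H6.Quad.exists_omegaGL_of Qq Q (fun _ => rfl) ω hω
    refine ⟨g, hg, ?_, ?_⟩
    · rw [H6.Quad.mem_subspaceStabilizer_iff_map g ω.1 (fun v => (hv v).symm)]; exact hw1
    · rintro ⟨σ, hσ⟩
      have h4 := hσ 0
      have h5 := hσ 1
      rw [hlin g ω (fun v => (hv v).symm)] at h4 h5
      rw [hw1] at h4
      have h6 : σ 0 = 0 := by
        by_contra hne
        have : σ 0 = 1 := by
          generalize σ 0 = j at hne
          fin_cases j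
          · exact absurd rfl hne
          · rfl
        rw [this] at h4
        exact hne01 h4
      have h7 : σ 1 = 1 := by
        by_contra hne
        have : σ 1 = 0 := by
          generalize σ 1 = j at hne
          fin_cases j
          · rfl
          · exact absurd rfl hne
        have h8 : σ 1 = σ 0 := by rw [this, h6]
        exact absurd (σ.injective h8) (by decide)
      rw [h7] at h5
      exact hw2 h5
  · obtain ⟨ω, hω, hw1⟩ := h3
    obtain ⟨g, hg, hv⟩ := H6.Quad.exists_omegaGL_of Qq Q (fun _ => rfl) ω hω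
    refine ⟨g, hg, ?_⟩
    rw [H6.Quad.mem_subspaceStabilizer_iff_map g ω.1 (fun v => (hv v).symm)]; exact hw1

end Cfsg.Agent.S5698
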