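import Cfsg.Statements.S5944
import Mathlib

set_option autoImplicit false
open Cfsg

namespace Cfsg.Agent.S5944

/-- For n ≠ 4, every proper subgroup of the symmetric group S_n other than the alternating group A_n has index at least n. -/
theorem result (n : ℕ) (hn : n ≠ 4) (H : Subgroup (Equiv.Perm (Fin n))) (hH : H ≠ ⊤) (hA : H ≠ alternatingGroup (Fin n)) : n ≤ H.index := by
  by_contra hlt
  push Not at hlt
  have hidx0 : H.index ≠ 0 := Subgroup.index_ne_zero_of_finite
  have hidx1 : H.index ≠ 1 := fun h => hH (Subgroup.index_eq_one.mp h)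
  have hidx2 : H.index ≠ 2 := fun h => hA (Equiv.Perm.eq_alternatingGroup_of_index_eq_two h)
  have h5 : 5 ≤ n := by omega
  have hcore : H.normalCore ≠ ⊥ := by
    intro hb
    have hinj : Function.Injective
        (MulAction.toPermHom (Equiv.Perm (Fin n)) (Equiv.Perm (Fin n) ⧸ H)) := by
      rw [← MonoidHom.ker_eq_bot_iff, ← Subgroup.normalCore_eq_ker, hb]
    have hcard := Nat.card_le_card_of_injective _ hinj
    classical
    haveI : Fintype (Equiv.Perm (Fin n) ⧸ H) := Fintype.ofFinite _
    rw [Nat.card_eq_fintype_card, Nat.card_eq_fintype_card, Fintype.card_perm, Fintype.card_perm,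
      Fintype.card_fin, ← Nat.card_eq_fintype_card, ← Subgroup.index] at hcard
    have := Nat.factorial_lt (n := H.index) (m := n) (Nat.pos_of_ne_zero hidx0) |>.mpr hlt
    omega
  have hle0 : alternatingGroup (Fin n) ≤ H.normalCore :=
    Equiv.Perm.alternatingGroup_le_of_normal (by simpa using h5)
      ((Subgroup.nontrivial_iff_ne_bot _).mpr hcore)
  have hle : alternatingGroup (Fin n) ≤ H := hle0.trans (Subgroup.normalCore_le H)
  have hd := Subgroup.index_dvd_of_le hle
  haveI : Nontrivial (Fin n) := Fin.nontrivial_iff_two_le.mpr (by omega)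
  rw [alternatingGroup.index_eq_two] at hd
  rcases (Nat.dvd_prime Nat.prime_two).mp hd with h | h
  · exact hidx1 h
  · exact hidx2 h

end Cfsg.Agent.S5944
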